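import Cfsg.Statements.S4637
import Cfsg.Agent.Brauer.KleinFourBlock

set_option autoImplicit false
set_option linter.style.haveILetI false
open Cfsg

namespace Cfsg.Agent.S4637

/-- Let B be a block of the finite group G relative to a maximal ideal M of the algebraic integers containing 2, with a Klein four defect group P. Let c be a block of C_G(P) inducing B, T the stabilizer of c in N_G(P) and e the index of C_G(P) in T (the inertial index). Then e is 1 or 3, B contains exactly four irreducible characters, and the 2-regular rank of B (its number of irreducible Brauer characters) equals e. -/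
theorem result {G : Type*} [Group G] [Finite G] (M : Ideal Cfsg.AlgInt) (hM : Cfsg.IsPModular 2 M) (B : Set (Cfsg.IrrCharacter G)) (hB : Cfsg.IsPBlock M B) (P : Subgroup G) (hPD : Cfsg.IsDefectGroup 2 M B P) (hV : IsKleinFour P) (c : Set (Cfsg.IrrCharacter (Subgroup.centralizer (P : Set G)))) (hc : Cfsg.IsInducedBlock M (Subgroup.centralizer (P : Set G)) c B) (T : Subgroup G) (hT : ∀ g : G, g ∈ T ↔ (g ∈ Subgroup.normalizer (P : Set G) ∧ Cfsg.StabilizesBlock (Subgroup.centralizer (P : Set G)) c g)) (e : ℕ) (he : (Subgroup.centralizer (P : Set G)).relIndex T = e) : (e = 1 ∨ e = 3) ∧ Nat.card B = 4 ∧ Cfsg.blockRank 2 B = e := by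
  classical
  letI := Fintype.ofFinite G
  haveI : Fact (Nat.Prime 2) := ⟨Nat.prime_two⟩
  haveI : M.IsPrime := hM.2.1.isPrime
  haveI := Agent.Block.charP_resF hM
  haveI := hV
  have h4 : Nat.card P = 4 := IsKleinFour.card_four
  have hk := Brauer.KleinBlock.card_eq_four hM hB hPD h4
  have hP : IsPGroup 2 P := IsPGroup.of_card (n := 2) (by rw [h4]; norm_num)
  have hab := Brauer.SmallDefect.commute_of_card_le_four hP h4.le
  let cB : BrauerPairs.Blk M (Subgroup.centralizer (P : Set G)) := ⟨c, hc.1⟩
  have hm : Cfsg.IsMaximalBrauerPair 2 M B P cB.1 :=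
    BrauerPairs.isMaximalBrauerPair_of_isInducedBlock hM hB hPD hP cB hc
  have hmax := (BrauerPairs.isMaximalBrauerPair_iff (⟨B, hB⟩ : BrauerPairs.Blk M G) ⟨P, cB⟩).1 hm
  obtain rfl : T = BrauerPairs.stab (⟨P, cB⟩ : BrauerPairs.PairIdx M G) := by
    ext g
    rw [hT, BrauerPairs.mem_stab_iff_stabilizesBlock]
  set S := BrauerPairs.stab (⟨P, cB⟩ : BrauerPairs.PairIdx M G) with hS
  have hodd : ¬ 2 ∣ e := he ▸ BrauerPairs.not_dvd_relIndex_stab hm hab
  have hlt := Brauer.KleinBlock.blockRank_lt_card hM hB (p := 2) (by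
    have h := BlockVal.card_defectGroup hM hB hPD
    rw [h4] at h
    intro h0
    rw [h0] at h
    norm_num at h)
  -- the action on the three involutions
  let X := {x : P // x ≠ 1}
  let act : S →* Equiv.Perm P := (MulAut.toPerm P).comp
    ((Subgroup.normalizerMonoidHom P).comp (Subgroup.inclusion (BrauerPairs.stab_le_normalizer _)))
  have hact : ∀ (s : S) (x : P), (act s x : G) = (s : G) * x * (s : G)⁻¹ := fun s x => rfl
  have hfix : ∀ (s : S) (x : P), x ≠ 1 ↔ act s x ≠ 1 := fun s x => by
    rw [ne_eq, ne_eq, ← OneMemClass.coe_eq_one (x := act s x), hact, conj_eq_one_iff,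
      OneMemClass.coe_eq_one]
  let act' : S →* Equiv.Perm X :=
    { toFun := fun s => (act s).subtypeEquiv (hfix s)
      map_one' := by ext x; simp
      map_mul' := fun a b => by ext x; simp }
  have hker : act'.ker = (Subgroup.centralizer (P : Set G)).subgroupOf S := by
    ext s
    rw [MonoidHom.mem_ker, Subgroup.mem_subgroupOf, Subgroup.mem_centralizer_iff]
    constructor
    · intro h x hx
      by_cases hx1 : x = 1
      · simp [hx1]
      · have h1 := congrArg (fun π : Equiv.Perm X => ((π ⟨⟨x, hx⟩, fun e => hx1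
          (congrArg Subtype.val e)⟩).1 : G)) h
        have h2 : (s : G) * x * (s : G)⁻¹ = x := (hact s ⟨x, hx⟩).symm.trans h1
        exact (mul_inv_eq_iff_eq_mul.1 h2).symm
    · intro h
      ext x
      show ((s : G) * (x.1 : G) * (s : G)⁻¹) = (x.1 : G)
      rw [← h x.1 x.1.2, mul_inv_cancel_right]
  have h6 : e ∣ 6 := by
    have hX : Nat.card X = 3 := by
      rw [Nat.card_eq_fintype_card, Fintype.card_subtype_compl, Fintype.card_subtype_eq,
        ← Nat.card_eq_fintype_card, h4]
    have h := Subgroup.card_subgroup_dvd_card act'.range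
    rw [← Subgroup.index_ker, hker, Nat.card_perm, hX] at h
    rw [← he]
    exact h
  have he13 : e = 1 ∨ e = 3 := by
    have := Nat.le_of_dvd (by norm_num) h6
    interval_cases e <;> omega
  refine ⟨he13, hk, ?_⟩
  rcases he13 with rfl | rfl
  · exact (S4689.result 2 M hM B ((BrauerPairs.isNilpotentBlock_iff_abelian hm hab).2
      (Subgroup.relIndex_eq_one.1 he))).1
  · obtain ⟨y, hy, hyC⟩ : ∃ y ∈ S, y ∉ Subgroup.centralizer (P : Set G) := by
      by_contra! hcon
      have h1 : (Subgroup.centralizer (P : Set G)).relIndex S = 1 :=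
        Subgroup.relIndex_eq_one.2 hcon
      omega
    have := Brauer.SmallDefect.card_le_blockRank_add_one hM hB hmax h4.le hy hyC
    omega

end Cfsg.Agent.S4637
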