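import Cfsg.Statements.S2764
import Cfsg.Agent.PushUp.Main
import Cfsg.Agent.PushUp.ChiefFactors

set_option autoImplicit false
open Cfsg

namespace Cfsg.Agent.S2764

/-- Pushing up for a rank-one quotient: let G be a finite group and p a prime with C_G(O_p(G)) ≤ O_p(G), suppose G/K ≅ PSL₂(p^n) for some normal subgroup K and some n ≥ 1, that a Sylow p-subgroup S of G lies in exactly one maximal subgroup of G, and that no nontrivial characteristic subgroup of S is normal in G. Then G/O_p(G) ≅ SL₂(p^n), and every noncentral chief factor U/W of G inside O_p(G) is a natural SL₂-module over the field with p^n elements for the action of G/W. -/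
theorem result {G : Type*} [Group G] [Finite G] {p : ℕ} [Fact p.Prime] (S : Sylow p G) (hE₁ : Subgroup.centralizer (Cfsg.pCore p G : Set G) ≤ Cfsg.pCore p G) (hE₂ : ∃! M : Subgroup G, IsCoatom M ∧ (S : Subgroup G) ≤ M) (K : Subgroup G) [K.Normal] (F : Type) [Field F] [Fintype F] (n : ℕ) (hn : 1 ≤ n) (hF : Fintype.card F = p ^ n) (hE₃ : Nonempty (G ⧸ K ≃* Matrix.ProjectiveSpecialLinearGroup (Fin 2) F)) (hd : ∀ T : Subgroup ↥(S : Subgroup G), T ≠ ⊥ → T.Characteristic → ¬ (T.map (S : Subgroup G).subtype).Normal) : Nonempty (G ⧸ Cfsg.pCore p G ≃* Matrix.SpecialLinearGroup (Fin 2) F) ∧ ∀ (U W : Subgroup G) [W.Normal], U ≤ Cfsg.pCore p G → Cfsg.IsChiefFactor U W → ¬ ⁅U, (⊤ : Subgroup G)⁆ ≤ W → Cfsg.IsNaturalSL2Module F (U.map (QuotientGroup.mk' W)) (⊤ : Subgroup (G ⧸ W)) := by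
  classical
  obtain ⟨M, B⟩ := PushUp.exists_base S hE₁ hE₂ K F hF hE₃
  have hF' : Fintype.card F = (Cfsg.pCore p G).relIndex S :=
    hF.trans (PushUp.relIndex_eq_pow S B K F hF hE₃).symm
  haveI := B.normal
  have hVn := PushUp.omZ_normal p B.normal
  rcases PushUp.typeOne_or_twoLocal B hE₁ hd with T | ⟨hp3, g₀, Vl, Vr, Al, Ar, T⟩
  · have hs := T.natSection F hF'
    refine ⟨hs.quotientEquiv, fun U W hWn hUQ hchief hnc => ?_⟩
    have h1 := PushUp.sup_eq_of_chief hchief hnc hVn ((PushUp.iterCommutator_mono hUQ 2).trans T.hyper)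
    rcases PushUp.natural_or_below hWn hs hVn T.F_normal hchief h1 with h2 | h2
    · exact absurd (PushUp.central_of_covered h2 inf_le_right) hnc
    · exact h2
  · have hp2 : p ≠ 2 := by omega
    have hs := T.natSectionE hp2 F hF'
    refine ⟨hs.quotientEquiv, fun U W hWn hUQ hchief hnc => ?_⟩
    have h0 := PushUp.sup_eq_of_chief hchief hnc T.W_normal
      ((PushUp.iterCommutator_mono hUQ 3).trans (T.hyper hd))
    rcases PushUp.natural_or_below hWn (T.natSectionM hp2 F hF') T.W_normal hVn hchief h0 with h1 | h1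
    · rcases PushUp.natural_or_below hWn hs hVn T.F_normal hchief h1 with h2 | h2
      · exact absurd (PushUp.central_of_covered h2 inf_le_right) hnc
      · exact h2
    · exact h1

end Cfsg.Agent.S2764
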