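import Cfsg.Statements.S2768
import Cfsg.Agent.EvenLocal.RankOneFactor

set_option autoImplicit false
open Cfsg

namespace Cfsg.Agent.S2768

/-- Let G be a finite group and p a prime with C_G(O_p(G)) ≤ O_p(G), such that a Sylow p-subgroup S lies in exactly one maximal subgroup of G and G/K ≅ PSL₂(p^n) for some normal K and n ≥ 1. Put J̃(S) = C_S(Z(J(S))), where J(S) is generated by the abelian subgroups of S of largest order. If Z(S) is not normal in G, then J̃(S) is a Sylow p-subgroup of its normal closure ⟨J̃(S)^G⟩. -/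
theorem result {G : Type*} [Group G] [Finite G] {p : ℕ} [Fact p.Prime] (S : Sylow p G) (hE₁ : Subgroup.centralizer (Cfsg.pCore p G : Set G) ≤ Cfsg.pCore p G) (hE₂ : ∃! M : Subgroup G, IsCoatom M ∧ (S : Subgroup G) ≤ M) (K : Subgroup G) [K.Normal] (F : Type) [Field F] [Fintype F] (n : ℕ) (hn : 1 ≤ n) (hF : Fintype.card F = p ^ n) (hE₃ : Nonempty (G ⧸ K ≃* Matrix.ProjectiveSpecialLinearGroup (Fin 2) F)) (hZ : ¬ ((S : Subgroup G) ⊓ Subgroup.centralizer ((S : Subgroup G) : Set G)).Normal) : ∃ P : Sylow p ↥(Subgroup.normalClosure (((S : Subgroup G) ⊓ Subgroup.centralizer (Cfsg.centerThompsonAOf (S : Subgroup G) : Set G)) : Set G)), (P : Subgroup ↥(Subgroup.normalClosure (((S : Subgroup G) ⊓ Subgroup.centralizer (Cfsg.centerThompsonAOf (S : Subgroup G) : Set G)) : Set G))) = (((S : Subgroup G) ⊓ Subgroup.centralizer (Cfsg.centerThompsonAOf (S : Subgroup G) : Set G))).subgroupOf (Subgroup.normalClosure (((S : Subgroup G) ⊓ Subgroup.centralizer (Cfsg.centerThompsonAOf (S : Subgroup G) : Set G)) : Set G)) := by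
  open Subgroup EvenLocal in
  set J := (S : Subgroup G) ⊓ centralizer (Cfsg.centerThompsonAOf (S : Subgroup G) : Set G) with hJdef
  set X := normalClosure (J : Set G) with hX
  have key : (S : Subgroup G) ⊓ X = J := by
    refine le_antisymm ?_ (le_inf inf_le_left subset_normalClosure)
    have hZc : ¬ (S : Subgroup G) ⊓ centralizer ((S : Subgroup G) : Set G) ≤ center G :=
      fun h => hZ (normal_of_le_center h)
    by_cases hJ : Cfsg.thompsonSubgroupAOf (S : Subgroup G) ≤ Cfsg.pCore p G
    · haveI : J.Normal := (jTilde_normal_or_center_le_center S hE₂ hJ).resolve_right hZc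
      exact inf_le_right.trans (normalClosure_le_normal subset_rfl)
    obtain ⟨U₀, hU₀, hle₀, -, hle⟩ := centerThompson_factor S hE₁ hE₂ K hn hF hE₃ hJ hZc
    haveI : (centralizer (U₀ : Set G)).Normal := normalizer_eq_top_iff.1 (top_le_iff.1
      (Modules.normalizes_centralizer (normalizer_eq_top (H := U₀)).ge))
    have hXU : X ≤ centralizer (U₀ : Set G) :=
      normalClosure_le_normal fun s hs => centralizer_le hle₀ (inf_le_right (a := (S : Subgroup G)) hs)
    refine le_inf inf_le_left (le_centralizer_iff.1 ?_)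
    exact hle.trans (sup_le (le_centralizer_iff.1 (inf_le_right.trans hXU))
      (inf_le_right.trans (centralizer_le inf_le_left)))
  obtain ⟨P, hP⟩ := Tech.exists_sylow_of_inf_normal S X
  refine ⟨P, map_injective X.subtype_injective ?_⟩
  show (P : Subgroup X).map X.subtype = (J.subgroupOf X).map X.subtype
  rw [hP, key, map_subgroupOf_eq_of_le (hJdef ▸ subset_normalClosure : J ≤ X)]

end Cfsg.Agent.S2768
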