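import Cfsg.Statements.S0185
import Cfsg.Agent.CharInd.Linear
import Cfsg.Agent.CharInd.Kernel
import Cfsg.Agent.Char.Integrality

set_option autoImplicit false
open Cfsg

namespace Cfsg.Agent.S0185

/-- If a finite group has a faithful complex representation of degree less than the smallest prime dividing its order, the group is abelian. -/
theorem result {G : Type*} [Group G] [Finite G] {V : Type*} [AddCommGroup V] [Module ℂ V] [FiniteDimensional ℂ V] (ρ : Representation ℂ G V) (hfaithful : Function.Injective ρ) (hdeg : ∀ p : ℕ, p.Prime → p ∣ Nat.card G → Module.finrank ℂ V < p) (a b : G) : a * b = b * a := by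
  classical
  letI := Fintype.ofFinite G
  obtain ⟨s, hs⟩ := Cfsg.Agent.Char.isCharacter_eq_multiset_sum
    (Cfsg.Agent.Char.isCharacter_character ρ)
  have hdim : ((Module.finrank ℂ V : ℕ) : ℂ) =
      (s.map fun χ : Cfsg.IrrCharacter G => (χ : G → ℂ) 1).sum := by
    rw [← Representation.char_one ρ, hs, Pi.multiset_sum_apply, Multiset.map_map]
    rfl
  choose d hd hd1 using fun χ : Cfsg.IrrCharacter G => Cfsg.Agent.Char.irr_one_pos χ.2
  have hdim' : Module.finrank ℂ V = (s.map d).sum := by
    have : ((Module.finrank ℂ V : ℕ) : ℂ) = (((s.map d).sum : ℕ) : ℂ) := by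
      rw [hdim, Nat.cast_multiset_sum, Multiset.map_map]
      congr 1
      exact Multiset.map_congr rfl fun χ _ => hd1 χ
    exact_mod_cast this
  have hlin : ∀ χ ∈ s, d χ = 1 := by
    intro χ hχ
    by_contra hne
    obtain ⟨p, hp, hpd⟩ := Nat.exists_prime_and_dvd hne
    obtain ⟨n, -, hn, hdvd⟩ := Cfsg.Agent.Char.irr_degree_dvd_card χ.2
    have hn' : n = d χ := by
      have := hn.symm.trans (hd1 χ)
      exact_mod_cast this
    have h1 : p ≤ d χ := Nat.le_of_dvd (hd χ) hpd
    have h2 : d χ ≤ (s.map d).sum := Multiset.le_sum_of_mem (Multiset.mem_map_of_mem d hχ)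
    have h3 := hdeg p hp (hpd.trans (hn' ▸ hdvd))
    omega
  have hker : ρ (a * b * a⁻¹ * b⁻¹) = 1 := by
    refine Cfsg.Agent.CharInd.rep_eq_one_of_character_eq_one_val ρ ?_
    rw [hs, Pi.multiset_sum_apply, Pi.multiset_sum_apply, Multiset.map_map, Multiset.map_map]
    congr 1
    refine Multiset.map_congr rfl fun χ hχ => ?_
    obtain ⟨lam, hlam⟩ := Cfsg.Agent.CharInd.exists_linHom_of_degree_one
      (Cfsg.Agent.Char.isCharacter_of_irr χ.2) (by rw [hd1, hlin χ hχ, Nat.cast_one])
    simp only [Function.comp_apply, ← hlam, map_one]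
    congr 1
    simp [mul_comm (lam a)]
  have := hfaithful (hker.trans (map_one ρ).symm)
  exact mul_inv_eq_one.1 (by simpa [mul_assoc] using this)

end Cfsg.Agent.S0185
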