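import Cfsg.Statements.S0680
import Cfsg.Agent.Perm.Sharp

set_option autoImplicit false
open Cfsg

namespace Cfsg.Agent.S0680

/-- A finite sharply doubly transitive permutation group has degree a prime power `p ^ j`; a Sylow `p`-subgroup is normal, elementary abelian and regular, and consists of the identity together with the elements without fixed points. (Frobenius' Theorem is not needed.) -/
theorem result {α : Type*} [Fintype α] [DecidableEq α] (G : Subgroup (Equiv.Perm α)) [MulAction.IsMultiplyPretransitive G α 2] (hsharp : ∀ x : Fin 2 ↪ α, MulAction.stabilizer G x = ⊥) (h2 : 2 ≤ Fintype.card α) : ∃ p j : ℕ, p.Prime ∧ 1 ≤ j ∧ Fintype.card α = p ^ j ∧ ∀ (hp : Fact p.Prime) (P : Sylow p G), (P : Subgroup G).Normal ∧ IsMulCommutative (P : Subgroup G) ∧ (∀ x ∈ (P : Subgroup G), x ^ p = 1) ∧ MulAction.IsPretransitive (P : Subgroup G) α ∧ (∀ a : α, MulAction.stabilizer (P : Subgroup G) a = ⊥) ∧ ∀ g : G, g ∈ (P : Subgroup G) ↔ g = 1 ∨ ∀ a : α, g • a ≠ a := by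
  haveI : Nontrivial α := Fintype.one_lt_card_iff_nontrivial.1 h2
  obtain ⟨K, hKn, hKt, hreg, hab, hmem, p, j, hp, hj, hcard, hpow, hG⟩ :=
    PermLib.exists_kernel_of_sharp (G := G) (α := α) inferInstance hsharp
  refine ⟨p, j, hp, hj, by rw [← Nat.card_eq_fintype_card, hcard], fun _ P => ?_⟩
  obtain ⟨a⟩ : Nonempty α := inferInstance
  have hKc : Nat.card K = p ^ j := hcard ▸ PermLib.card_eq_of_regular (hreg a)
  have hq : ¬ p ∣ p ^ j - 1 := by
    intro hd
    have h1 : p ∣ p ^ j := dvd_pow_self p (by omega)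
    have h2' : 1 ≤ p ^ j := Nat.one_le_pow _ _ hp.pos
    exact hp.not_dvd_one (by simpa [Nat.sub_sub_self h2'] using Nat.dvd_sub h1 hd)
  have hpos : p ^ j - 1 ≠ 0 := by
    have : p ≤ p ^ j := Nat.le_self_pow (by omega) p
    have := hp.two_le
    omega
  have hsyl : Nat.card K = p ^ (Nat.card G).factorization p := by
    rw [hKc, hG, Nat.factorization_mul (pow_ne_zero _ hp.ne_zero) hpos, Finsupp.add_apply,
      hp.factorization_pow, Finsupp.single_eq_same, Nat.factorization_eq_zero_of_not_dvd hq,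
      add_zero]
  haveI := hKn
  haveI := Sylow.unique_of_normal (Sylow.ofCard K hsyl) (by rwa [Sylow.coe_ofCard])
  have hPK : (P : Subgroup G) = K := by
    rw [Subsingleton.elim P (Sylow.ofCard K hsyl), Sylow.coe_ofCard]
  rw [hPK]
  exact ⟨hKn, hab, hpow, hKt, hreg, hmem⟩

end Cfsg.Agent.S0680
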