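import Cfsg.Statements.S0878
import Cfsg.Agent.CharDeep.Zass

set_option autoImplicit false
open Cfsg

namespace Cfsg.Agent.S0878

/-- Let G be a Zassenhaus group on the finite set Ω, a a point, and let H be the subgroup of the stabilizer of a consisting of the identity and the elements fixing no point other than a (given here as a subgroup of the stabilizer of order one less than the number of points whose non-identity elements fix only a; it is the Frobenius kernel of the stabilizer). Then an element outside the stabilizer of a conjugates no non-identity element of H into H, and the normalizer of H is exactly the stabilizer of a. -/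
theorem result {G Ω : Type*} [Group G] [Finite G] [MulAction G Ω] [Fintype Ω] (hZ : Cfsg.IsZassenhausGroup G Ω) (a : Ω) (H : Subgroup G) (hHa : H ≤ MulAction.stabilizer G a) (hHcard : Nat.card H + 1 = Fintype.card Ω) (hHfix : ∀ u ∈ H, u ≠ 1 → ∀ c : Ω, u • c = c → c = a) : (∀ g : G, g ∉ MulAction.stabilizer G a → ∀ u ∈ H, g * u * g⁻¹ ∈ H → u = 1) ∧ Subgroup.normalizer (H : Set G) = MulAction.stabilizer G a := by
  classical
  have hz := Cfsg.Agent.PermB.zData_of_isZassenhausGroup hZ
  have h3 := Cfsg.Agent.PermB.three_le_card_of_isZassenhausGroup hZ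
  have hK := Cfsg.Agent.CharDeep.isKernel_of_hyp hz h3 hHa
    (by rw [Nat.card_eq_fintype_card (α := Ω)]; exact hHcard) hHfix
  have h1 : ∀ g : G, ∀ u ∈ H, g * u * g⁻¹ ∈ H → u ≠ 1 → g • a = a := by
    intro g u hu hgu hu1
    refine hHfix _ hgu (fun e => hu1 (conj_eq_one_iff.1 e)) _ ?_
    rw [mul_smul, inv_smul_smul, mul_smul, hHa hu]
  refine ⟨fun g hg u hu hgu => by_contra fun hu1 => hg (h1 g u hu hgu hu1), le_antisymm ?_ ?_⟩
  · intro g hg
    obtain ⟨⟨u, hu⟩, hu1⟩ : ∃ u : H, u ≠ 1 := by
      have : Nontrivial H := by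
        rw [← Finite.one_lt_card_iff_nontrivial]
        rw [Nat.card_eq_fintype_card (α := Ω)] at h3
        omega
      exact exists_ne 1
    exact h1 g u hu ((Subgroup.mem_normalizer_iff.1 hg u).1 hu) fun e => hu1 (Subtype.ext e)
  · intro g hg
    rw [Subgroup.mem_normalizer_iff]
    refine fun u => ⟨fun hu => hK.conj g hg u hu, fun hu => ?_⟩
    simpa [mul_assoc] using hK.conj g⁻¹ ((MulAction.stabilizer G a).inv_mem hg) _ hu

end Cfsg.Agent.S0878
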