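import Cfsg.Statements.S0347
import Cfsg.Agent.S1147
import Cfsg.Agent.PermB.ZassPrelude

set_option autoImplicit false
open Cfsg

namespace Cfsg.Agent.S0347

/-- If in a finite simple Zassenhaus group the stabiliser of a point `x` has a normal `2`-subgroup `U` which is
non-abelian and acts regularly on the points other than `x`, then the group is simple of Suzuki order (order-level
predicate `IsSuzuki`). -/
theorem result {G Ω : Type*} [Group G] [Finite G] [MulAction G Ω] [Finite Ω]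
    (hZ : Cfsg.IsZassenhausGroup G Ω) [IsSimpleGroup G]
    (x : Ω) (U : Subgroup G) (hUle : U ≤ MulAction.stabilizer G x) (hUn : (U.subgroupOf (MulAction.stabilizer G x)).Normal)
    (hU2 : IsPGroup 2 U) (hUna : ∃ u v : U, u * v ≠ v * u)
    (hreg : ∀ y z : Ω, y ≠ x → z ≠ x → ∃! u : U, (u : G) • y = z) :
    Cfsg.IsSuzuki G := by
  obtain ⟨y, hy, -⟩ := Cfsg.Agent.PermB.exists_ne_ne
    (Cfsg.Agent.PermB.three_le_card_of_isZassenhausGroup hZ) x x
  obtain ⟨u, v, huv⟩ := hUna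
  have hU : ∃ u ∈ U, ∃ v ∈ U, u * v ≠ v * u :=
    ⟨u, u.2, v, v.2, fun e => huv (Subtype.ext e)⟩
  obtain ⟨n, hn, hn1, hcard, -, hH2, -⟩ := Cfsg.Agent.S1147.result hZ hy.symm U hUle
    (fun h hh w hw => hUn.conj_mem ⟨w, hUle hw⟩ hw ⟨h, hh⟩) hreg hU2 hU
  obtain ⟨m, rfl⟩ := hn
  refine ⟨inferInstance, m, by omega, ?_⟩
  have hH2' : Nat.card (Cfsg.Agent.PermB.ZData.H2 (G := G) x y) = 2 ^ (2 * m + 1) - 1 := hH2
  rw [(Cfsg.Agent.PermB.zData_of_isZassenhausGroup hZ).card_group hy.symm, hcard, hH2',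
    Nat.add_sub_cancel, show 2 * (2 * m + 1) = (2 * m + 1) * 2 by ring, pow_mul]
  ring

end Cfsg.Agent.S0347
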