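import Cfsg.Statements.S0168
import Mathlib.LinearAlgebra.Lagrange
import Cfsg.Agent.CharInd.Kernel
import Cfsg.Agent.Char.Virtual

set_option autoImplicit false
open Cfsg

namespace Cfsg.Agent.S0168

/-- The Burnside–Brauer Theorem. Let χ be the character of a faithful complex representation of a finite group, taking m distinct values. Then every irreducible character has nonzero inner product with χ ^ i for some i < m. -/
theorem result {G : Type*} [Group G] [Fintype G] {V : Type*} [AddCommGroup V] [Module ℂ V] [FiniteDimensional ℂ V] (ρ : Representation ℂ G V) (hfaithful : Function.Injective ρ) (ψ : G → ℂ) (hψ : Cfsg.IsIrrCharacter G ψ) : ∃ i : ℕ, i < Nat.card (Set.range ρ.character) ∧ Cfsg.classInner (fun g => ρ.character g ^ i) ψ ≠ 0 := by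
  classical
  by_contra hcon
  push Not at hcon
  let S : Finset ℂ := Finset.univ.image ρ.character
  let a := ρ.character 1
  have ha : a ∈ S := Finset.mem_image_of_mem _ (Finset.mem_univ _)
  let P := Lagrange.basis S id a
  have hinj : Set.InjOn (id : ℂ → ℂ) S := Set.injOn_id _
  have hcard : Nat.card (Set.range ρ.character) = S.card := by
    rw [Nat.card_coe_set_eq, ← Set.ncard_coe_finset]
    simp [S]
  have hdeg : P.natDegree + 1 ≤ S.card := by
    rw [Lagrange.natDegree_basis hinj ha]
    have := Finset.card_pos.2 ⟨a, ha⟩
    omega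
  have hPdelta : ∀ g, P.eval (ρ.character g) = if g = 1 then 1 else 0 := by
    intro g
    by_cases hg : g = 1
    · rw [if_pos hg, hg]
      exact Lagrange.eval_basis_self hinj ha
    · rw [if_neg hg]
      have hgS : ρ.character g ∈ S := Finset.mem_image_of_mem _ (Finset.mem_univ g)
      refine Lagrange.eval_basis_of_ne (v := id) ?_ hgS
      intro e
      apply hg
      apply hfaithful
      rw [map_one]
      exact Cfsg.Agent.CharInd.rep_eq_one_of_character_eq_one_val ρ e.symm
  have hsum : (fun g => P.eval (ρ.character g)) =
      ∑ i ∈ Finset.range S.card, P.coeff i • fun g => ρ.character g ^ i := by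
    funext g
    rw [Polynomial.eval_eq_sum_range' (Nat.lt_of_succ_le hdeg)]
    simp [Finset.sum_apply]
  have hz : Cfsg.classInner (fun g => P.eval (ρ.character g)) ψ = 0 := by
    rw [hsum, Cfsg.Agent.Char.classInner_sum_left]
    refine Finset.sum_eq_zero fun i hi => ?_
    rw [Cfsg.Agent.Char.classInner_smul_left, hcon i (hcard ▸ Finset.mem_range.1 hi), mul_zero]
  simp only [Cfsg.classInner, hPdelta, ite_mul, one_mul, zero_mul, Finset.sum_ite_eq',
    Finset.mem_univ, if_true, mul_eq_zero, inv_eq_zero, Nat.cast_eq_zero, map_eq_zero] at hz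
  rcases hz with h | h
  · exact Nat.card_pos.ne' h
  · exact Cfsg.Agent.Char.irr_one_ne_zero hψ h

end Cfsg.Agent.S0168
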