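import Cfsg.Statements.S0824
import Cfsg.Agent.HeartPerm25.Models
import Cfsg.Agent.S0288

set_option autoImplicit false
open Cfsg

namespace Cfsg.Agent.S0824

/-- O⁻_4(2) ≅ S_5: the isometry group of the form x y + z_1² + z_1 z_2 + z_2² over the field with 2 elements is isomorphic to the symmetric group on 5 letters. -/
theorem result {F : Type*} [Field F] [Fintype F] (hF : Fintype.card F = 2) : Nonempty (↥(Cfsg.isometryGroup F (Cfsg.quadFormMinus 1 F 1 1)) ≃* Equiv.Perm (Fin 5)) := by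
  classical
  obtain ⟨f, hf⟩ := HeartPerm25.exists_hom_five
  let σ : ZMod 2 ≃+* F := ZMod.ringEquivOfPrime F Nat.prime_two hF
  have hq : ∀ v, Cfsg.quadFormMinus 1 F 1 1 (fun i => σ (v i)) = σ (Cfsg.quadFormMinus 1 (ZMod 2) 1 1 v) :=
    fun v => by simp only [Cfsg.quadFormMinus, map_add, map_mul, map_pow, map_one, map_sum]
  have hinj := (HeartPerm25.mapIso_injective σ _ _ hq).comp hf
  have hanis : ∀ z₁ z₂ : F, z₁ ^ 2 + 1 * z₁ * z₂ + 1 * z₂ ^ 2 = 0 → z₁ = 0 ∧ z₂ = 0 := by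
    intro z₁ z₂ h
    obtain ⟨a, rfl⟩ := σ.surjective z₁
    obtain ⟨b, rfl⟩ := σ.surjective z₂
    have hd : ∀ a b : ZMod 2, a ^ 2 + 1 * a * b + 1 * b ^ 2 = 0 → a = 0 ∧ b = 0 := by decide
    have := hd a b (σ.injective (by rw [map_zero]; simpa only [map_add, map_mul, map_pow, map_one] using h))
    simp [this.1, this.2]
  have hcard : Nat.card (Cfsg.isometryGroup F (Cfsg.quadFormMinus 1 F 1 1)) = Nat.card (Equiv.Perm (Fin 5)) := by
    rw [S0288.result hF 2 (by norm_num) 1 1 hanis, Nat.card_eq_fintype_card, Fintype.card_perm, Fintype.card_fin]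
    rfl
  have : Finite (Cfsg.isometryGroup F (Cfsg.quadFormMinus 1 F 1 1)) := inferInstance
  exact ⟨(MulEquiv.ofBijective ((HeartPerm25.mapIso σ _ _ hq).comp f)
    (hinj.bijective_of_nat_card_le hcard.le)).symm⟩

end Cfsg.Agent.S0824
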