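import Cfsg.Statements.S0720

import Cfsg.Agent.PermB.TwoPrime.Main
import Cfsg.Agent.S0713
import Mathlib.GroupTheory.GroupAction.Jordan
import Mathlib.GroupTheory.SpecificGroups.Alternating

set_option autoImplicit false
open Cfsg

namespace Cfsg.Agent.S0720

/-- Wielandt's Theorem on primitive groups of degree `2p`: such a group is doubly transitive, or it has rank 3, `p = 2a² + 2a + 1`, and subdegrees `a(2a+1)` and `(a+1)(2a+1)`. -/
theorem result {α : Type*} [Fintype α] [DecidableEq α] {p : ℕ} (hp : p.Prime) (hα : Fintype.card α = 2 * p) (G : Subgroup (Equiv.Perm α)) (hG : MulAction.IsPreprimitive G α) (a₀ : α) : MulAction.IsMultiplyPretransitive G α 2 ∨ (Nat.card (MulAction.orbitRel.Quotient (MulAction.stabilizer G a₀) α) = 3 ∧ ∃ a : ℕ, 0 < a ∧ p = 2 * a ^ 2 + 2 * a + 1 ∧ ∀ b : α, b ≠ a₀ → Nat.card (MulAction.orbit (MulAction.stabilizer G a₀) b) = a * (2 * a + 1) ∨ Nat.card (MulAction.orbit (MulAction.stabilizer G a₀) b) = (a + 1) * (2 * a + 1)) := by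
  classical
  haveI : Fact p.Prime := ⟨hp⟩
  haveI := hG
  haveI : Fintype G := Fintype.ofFinite G
  have htop : ∀ H : Subgroup (Equiv.Perm α), alternatingGroup α ≤ H → 4 ≤ Fintype.card α →
      MulAction.IsMultiplyPretransitive H α 2 := by
    intro H hH h4
    haveI : MulAction.IsMultiplyPretransitive (alternatingGroup α) α (Nat.card α - 2) :=
      alternatingGroup.isMultiplyPretransitive α
    haveI : MulAction.IsMultiplyPretransitive (alternatingGroup α) α 2 :=
      MulAction.isMultiplyPretransitive_of_le (n := Nat.card α - 2)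
        (by rw [Nat.card_eq_fintype_card]; omega) (Nat.sub_le _ _)
    rw [MulAction.is_two_pretransitive_iff]
    intro x y x' y' hxy hxy'
    obtain ⟨g, hg1, hg2⟩ := MulAction.is_two_pretransitive_iff.1
      (inferInstance : MulAction.IsMultiplyPretransitive (alternatingGroup α) α 2) hxy hxy'
    exact ⟨⟨g, hH g.2⟩, hg1, hg2⟩
  have hpos := hp.two_le
  haveI : Nonempty α := ⟨a₀⟩
  obtain ⟨σ, hσ⟩ := exists_prime_orderOf_dvd_card' (G := G) p (by
    refine (dvd_mul_left p 2).trans ?_
    rw [← hα, ← Nat.card_eq_fintype_card, ← Nat.card_congr (Equiv.Set.univ α),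
      ← MulAction.orbit_eq_univ G a₀,
      Nat.card_congr (MulAction.orbitEquivQuotientStabilizer G a₀)]
    exact Subgroup.card_quotient_dvd_card _)
  have hσ' : orderOf (σ : Equiv.Perm α) = p := by rw [Subgroup.orderOf_coe, hσ]
  obtain ⟨k, hk⟩ := Equiv.Perm.cycleType_prime_order (σ := (σ : Equiv.Perm α)) (hσ'.symm ▸ hp)
  rw [hσ'] at hk
  have hsupp : (σ : Equiv.Perm α).support.card = (k + 1) * p := by
    rw [← Equiv.Perm.sum_cycleType, hk, Multiset.sum_replicate, smul_eq_mul]
  have hle := Finset.card_le_univ (σ : Equiv.Perm α).support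
  rw [hsupp, hα] at hle
  have hk1 : k + 1 ≤ 2 := Nat.le_of_mul_le_mul_right hle hp.pos
  rcases (show k = 0 ∨ k = 1 by omega) with rfl | rfl
  · left
    rw [zero_add, one_mul] at hsupp
    have hcyc : (σ : Equiv.Perm α).IsCycle := by
      rw [← Equiv.Perm.card_cycleType_eq_one, hk, Multiset.card_replicate]
    by_cases hp2 : p = 2
    · subst hp2
      have := Equiv.Perm.subgroup_eq_top_of_isPreprimitive_of_isSwap_mem hG (σ : Equiv.Perm α)
        (Equiv.Perm.card_support_eq_two.1 hsupp) σ.2
      exact htop G (this ▸ le_top) (by omega)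
    · exact htop G (S0713.result G hG hp (by omega) (by omega) hcyc hsupp σ.2) (by omega)
  have hfree : ∀ x : α, σ • x ≠ x := by
    intro x
    have hall : (σ : Equiv.Perm α).support = Finset.univ :=
      Finset.eq_univ_of_card _ (by rw [hsupp, hα])
    exact Equiv.Perm.mem_support.1 (hall ▸ Finset.mem_univ x)
  have hpow : σ ^ p = 1 := hσ ▸ pow_orderOf_eq_one σ
  let q : α → ZMod p → α := fun a j => σ ^ j.val • a
  have hadd : ∀ a i j, q a (i + j) = σ ^ i.val • q a j := fun a i j => by
    simp only [q]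
    rw [smul_smul, ← pow_add, ZMod.val_add, ← pow_eq_pow_mod _ hpow]
  have hinj : ∀ a, Function.Injective (q a) := by
    intro a i j h
    rw [← sub_eq_zero]
    by_contra hd
    set d := i - j with hdd
    have hfix : q a d = a := by
      have h' : σ ^ j.val • q a d = σ ^ j.val • a := by
        rw [← hadd, hdd, add_sub_cancel]
        exact h
      exact MulAction.injective _ h'
    have hmul : ∀ t : ℕ, σ ^ (d.val * t) • a = a := by
      intro t
      induction t with
      | zero => simp
      | succ t ih => rw [Nat.mul_succ, pow_add, mul_smul, show σ ^ d.val • a = a from hfix, ih]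
    have h1 := hmul d⁻¹.val
    rw [pow_eq_pow_mod _ hpow, ← ZMod.val_mul, mul_inv_cancel₀ hd, ZMod.val_one, pow_one] at h1
    exact hfree a h1
  obtain ⟨b, hb⟩ : ∃ b, b ∉ Set.range (q a₀) := by
    by_contra hc
    push Not at hc
    have h := Fintype.card_le_of_surjective (q a₀) (fun y => hc y)
    rw [ZMod.card, hα] at h
    omega
  let f : ZMod p × Fin 2 → α := fun x => q (if x.2 = 0 then a₀ else b) x.1
  have hf : Function.Injective f := by
    have hmix : ∀ i j, q a₀ i ≠ q b j := by
      intro i j h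
      refine hb ⟨-j + i, ?_⟩
      rw [hadd, h, ← hadd, neg_add_cancel]
      simp [q]
    rintro ⟨i, a⟩ ⟨j, c⟩ h
    fin_cases a <;> fin_cases c <;> simp only [f, Fin.zero_eta, Fin.mk_one, one_ne_zero, if_true,
      if_false] at h ⊢
    · rw [hinj _ h]
    · exact absurd h (hmix i j)
    · exact absurd h.symm (hmix j i)
    · rw [hinj _ h]
  let e : ZMod p × Fin 2 ≃ α := Equiv.ofBijective f
    ((Fintype.bijective_iff_injective_and_card f).2
      ⟨hf, by rw [Fintype.card_prod, ZMod.card, Fintype.card_fin, hα, mul_comm]⟩)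
  have hc : PermB.TwoP.Coords G e := fun m => ⟨σ ^ m.val, fun j a => by
    show σ ^ m.val • q _ j = q _ (j + m)
    rw [add_comm j m, hadd]⟩
  exact PermB.TwoP.classify hG hc a₀

end Cfsg.Agent.S0720
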