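import Cfsg.Statements.S0277
import Cfsg.Agent.Classical.UBasic
import Cfsg.Agent.Classical.UGroup
-- import your own Cfsg.Agent.* helpers here

set_option autoImplicit false
open Cfsg

namespace Cfsg.Agent.S0277

open Cfsg.Agent.Classical.U

/-- Order of the general unitary group: |GU_n(q)| = q^(n(n-1)/2) * prod_{i=1}^{n} (q^i - (-1)^i). -/
theorem result {F : Type*} [Field F] [Fintype F] {q : ℕ} (hF : Fintype.card F = q ^ 2) (n : ℕ) : Nat.card (Cfsg.GU n F q) = q ^ (n * (n - 1) / 2) * ∏ i ∈ Finset.range n, (if Even i then q ^ (i + 1) + 1 else q ^ (i + 1) - 1) := by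
  rw [Nat.card_congr (guEquiv n F q).toEquiv]
  exact card_UG (sqField_of_fintype hF) n

end Cfsg.Agent.S0277
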