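import Cfsg.Statements.S0806
import Cfsg.Agent.PSLTwo25.DicksonBound
-- import your own Cfsg.Agent.* helpers here

set_option autoImplicit false
open Cfsg

open Cfsg.Agent.PSLTwo25.DicksonPSL

namespace Cfsg.Agent.S0806

/-- Minimal index (Galois): if q ∉ {2, 3, 5, 7, 9, 11} then every proper subgroup of PSL_2(q) has index ≥ q + 1, and some subgroup has index exactly q + 1. -/
theorem result {F : Type*} [Field F] [Fintype F] {q : ℕ} (hF : Fintype.card F = q) (hq : q ∉ ({2, 3, 5, 7, 9, 11} : Finset ℕ)) : (∀ H : Subgroup (Matrix.ProjectiveSpecialLinearGroup (Fin 2) F), H ≠ ⊤ → q + 1 ≤ H.index) ∧ ∃ H : Subgroup (Matrix.ProjectiveSpecialLinearGroup (Fin 2) F), H.index = q + 1 := by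
  classical
  subst hF
  obtain ⟨p, hp⟩ := CharP.exists F
  obtain ⟨e, hpp, -⟩ := FiniteField.card F p
  have := Fact.mk hpp
  refine ⟨fun H hH => ?_, exists_index⟩
  have hinj : Function.Injective (Matrix.ProjectiveSpecialLinearGroup.toPGL : Matrix.ProjectiveSpecialLinearGroup (Fin 2) F →* _) :=
    Matrix.ProjectiveSpecialLinearGroup.toPGL_injective
  have h := card_mul_le p hq (range_toPGL (F := F) ▸ Subgroup.map_le_range _ H) (map_ne_lsub hH)
  rw [← Nat.card_congr (H.equivMapOfInjective _ hinj).toEquiv, card_lsub, ← H.index_mul_card,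
    mul_comm H.index] at h
  exact Nat.le_of_mul_le_mul_left h Nat.card_pos

end Cfsg.Agent.S0806
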