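import Cfsg.Statements.S0996
import Cfsg.Agent.SmallGroups.SelfCentPrime.Classify

set_option autoImplicit false
open Cfsg

namespace Cfsg.Agent.S0996


/-- Let G be a finite perfect group containing an element z of prime order p whose centralizer is the cyclic group it generates, and suppose the number 1 + n * p of Sylow p-subgroups satisfies n < (p + 3) / 2. Then p > 3 and G is isomorphic to the projective special linear group of dimension 2 over the field with p elements, or p - 1 is a power of 2 and G is isomorphic to that group over the field with p - 1 elements. -/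
theorem result {G : Type*} [Group G] [Finite G] (hperf : commutator G = ⊤) (p : ℕ) [Fact p.Prime] (z : G) (hz : orderOf z = p) (hC : Subgroup.centralizer ({z} : Set G) = Subgroup.zpowers z) (hn : 2 * Nat.card (Sylow p G) < (p + 1) * (p + 2)) : (∃ (F : Type) (_ : Field F) (_ : Fintype F), Fintype.card F = p ∧ 3 < p ∧ Nonempty (G ≃* Matrix.ProjectiveSpecialLinearGroup (Fin 2) F)) ∨ (∃ (m : ℕ) (F : Type) (_ : Field F) (_ : Fintype F), Fintype.card F = 2 ^ m ∧ p = 2 ^ m + 1 ∧ 3 < p ∧ Nonempty (G ≃* Matrix.ProjectiveSpecialLinearGroup (Fin 2) F)) := by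
  obtain ⟨Q, hQ⟩ := (IsPGroup.of_card (n := 1) (by rw [Nat.card_zpowers, hz, pow_one]) :
    IsPGroup p ↥(Subgroup.zpowers z)).exists_le_sylow
  have hQz : (Q : Subgroup G) = Subgroup.zpowers z := by
    refine le_antisymm (fun q hq => ?_) hQ
    rw [← hC, Subgroup.mem_centralizer_singleton_iff]
    have : Nontrivial ↥(Q : Subgroup G) := by
      refine ⟨⟨⟨z, hQ (Subgroup.mem_zpowers z)⟩, 1, fun h => ?_⟩⟩
      have h1 : z = 1 := congrArg Subtype.val h
      rw [h1, orderOf_one] at hz
      exact (Fact.out : p.Prime).ne_one hz.symm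
    have := Q.2.center_nontrivial
    obtain ⟨c, hc⟩ := exists_ne (1 : ↥(Subgroup.center ↥(Q : Subgroup G)))
    set a : G := ((c : ↥(Q : Subgroup G)) : G) with hadef
    have hcomm : ∀ w ∈ (Q : Subgroup G), w * a = a * w := fun w hw =>
      congrArg Subtype.val (Subgroup.mem_center_iff.1 c.2 ⟨w, hw⟩)
    have haz : a ∈ Subgroup.zpowers z := by
      rw [← hC, Subgroup.mem_centralizer_singleton_iff]
      exact (hcomm z (hQ (Subgroup.mem_zpowers z))).symm
    have ha1 : a ≠ 1 := fun h => hc (Subtype.ext (Subtype.ext h))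
    have hza : z ∈ Subgroup.zpowers a := by
      have heq : Subgroup.zpowers a = Subgroup.zpowers z := by
        refine Subgroup.eq_of_le_of_card_ge (Subgroup.zpowers_le.2 haz) ?_
        have h1 := Subgroup.orderOf_dvd_natCard _ haz
        rw [Nat.card_zpowers, hz] at h1
        rw [Nat.card_zpowers, Nat.card_zpowers, hz]
        rcases (Nat.dvd_prime Fact.out).1 h1 with h2 | h2
        · exact absurd (orderOf_eq_one_iff.1 h2) ha1
        · rw [h2]
      exact heq ▸ Subgroup.mem_zpowers z
    obtain ⟨i, rfl⟩ := Subgroup.mem_zpowers_iff.1 hza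
    exact ((show Commute q a from hcomm q hq).zpow_right i).eq
  have hP : Nat.card ↥(Q : Subgroup G) = p := by rw [hQz, Nat.card_zpowers, hz]
  have hCQ : Subgroup.centralizer ((Q : Subgroup G) : Set G) = (Q : Subgroup G) := by
    rw [hQz, Subgroup.zpowers_eq_closure, Subgroup.centralizer_closure, hC, Subgroup.zpowers_eq_closure]
  obtain ⟨n, hn'⟩ : p ∣ Nat.card (Sylow p G) - 1 :=
    (Nat.modEq_iff_dvd' Nat.card_pos).1 (card_sylow_modEq_one p G).symm
  have hpos : 0 < Nat.card (Sylow p G) := Nat.card_pos
  have hn'' : Nat.card (Sylow p G) = 1 + n * p := by rw [mul_comm]; omega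
  have h2n : 2 * n < p + 3 := by
    rw [hn''] at hn
    by_contra hcon
    have h := Nat.mul_le_mul_right p (show p + 3 ≤ 2 * n by omega)
    nlinarith
  obtain ⟨hs, hnc⟩ := SmallGroups.SelfCentPrime.isSimpleGroup_of_perfect hperf Q hP hCQ hn'' h2n
  exact SmallGroups.SelfCentPrime.conclusion_of_simple hnc Q hP hCQ hn'' h2n

end Cfsg.Agent.S0996
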