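import Cfsg.Statements.S4652
import Cfsg.Agent.BrauerPairs.Bridge
-- import your own Cfsg.Agent.* helpers here

set_option autoImplicit false
open Cfsg

namespace Cfsg.Agent.S4652

/-- Fix a prime p and a maximal ideal M of the algebraic integers containing p. The defect groups of the principal p-block of a finite group G are exactly the Sylow p-subgroups of G: a subgroup D is a defect group of the principal block if and only if D is a Sylow p-subgroup. -/
theorem result {G : Type*} [Group G] [Fintype G] (p : ℕ) [Fact p.Prime] (M : Ideal Cfsg.AlgInt) (hM : Cfsg.IsPModular p M) (D : Subgroup G) : Cfsg.IsDefectGroup p M (Cfsg.principalBlock M G) D ↔ ∃ S : Sylow p G, (S : Subgroup G) = D := by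
  haveI : M.IsPrime := Cfsg.Agent.Block.isPrime_of_isPModular hM
  haveI := Cfsg.Agent.Block.charP_resF hM
  have hS : ∀ S : Sylow p G, Cfsg.Agent.BrauerPairs.IsDef (Cfsg.Agent.BrauerPairs.blockSysTop M) p
      (Cfsg.Agent.BrauerPairs.princBlk M G) S := fun S => by
    refine ⟨S.isPGroup', fun R hR hc => absurd ?_ hc, ?_⟩
    · obtain ⟨S', hS'⟩ := hR.exists_le_sylow
      obtain ⟨g, hg⟩ := MulAction.exists_smul_eq G S S'
      refine ⟨g, ?_⟩
      rw [← hg] at hS'
      exact hS'
    · exact (Cfsg.Agent.BrauerPairs.pairOf_principal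
        (S₀ := Cfsg.Agent.BrauerPairs.blockSysTop M) (S := Cfsg.Agent.BrauerPairs.pairSys M G)
        (B₀ := Cfsg.Agent.BrauerPairs.princBlk M G)
        (fun a ha => Cfsg.Agent.BrauerPairs.lam_principal_top ha)
        (fun P => Cfsg.Agent.BrauerPairs.princBlk M (Subgroup.centralizer (P : Set G)))
        (fun P a ha => Cfsg.Agent.BrauerPairs.lam_principal_sub ha) S.isPGroup').trunc_ne_zero
  rw [show Cfsg.principalBlock M G = (Cfsg.Agent.BrauerPairs.princBlk M G).1 from rfl,
    Cfsg.Agent.BrauerPairs.isDefectGroup_iff]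
  constructor
  · intro h
    obtain ⟨S₁⟩ := (inferInstance : Nonempty (Sylow p G))
    obtain ⟨g, hg⟩ := (hS S₁).exists_conj h
    exact ⟨g • S₁, hg.symm⟩
  · rintro ⟨S, rfl⟩
    exact hS S

end Cfsg.Agent.S4652
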