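import Cfsg.Statements.S4282
import Cfsg.Agent.Lib.HHTheoremB
import Cfsg.Agent.Lib.HHDegree
-- import your own Cfsg.Agent.* helpers here

set_option autoImplicit false
open Cfsg

namespace Cfsg.Agent.S4282

open Cfsg.Agent.HH

variable {F : Type*} [Field F] {G : Type*} [Group G] [Finite G] {V : Type*} [AddCommGroup V] [Module F V]
  [FiniteDimensional F V]

/-- Fixed points of `x` are scalars plus traces, when `x` acts semiregularly outside a scalar part of `Q`. -/
theorem fixed_eq_scalar_add_trace (p : ℕ) [Fact p.Prime] [CharP F p] (ρ : G →* Module.End F V) (Q : Subgroup G)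
    [hQn : Q.Normal] (x : G) (n : ℕ) (hn : 0 < n) (hxn : x ^ n = 1) (hcop : (Nat.card Q).Coprime p)
    (Z : Subgroup G) (hZ : ∀ z ∈ Z, z ∈ Q → ∃ c : F, ρ z = c • (1 : Module.End F V))
    (hZx : ∀ z ∈ Z, x * z * x⁻¹ = z)
    (hfree : ∀ a ∈ Q, a ∉ Z → ∀ d, 0 < d → d < n → x ^ d * a * (x ^ d)⁻¹ ≠ a)
    (hC : ∀ f : Module.End F V, (∀ q ∈ Q, ρ q * f = f * ρ q) → ∃ c : F, f = c • 1) :
    ∀ f : Module.End F V, ρ x * f = f * ρ x → ∃ (a : F) (g : Module.End F V),
      f = a • (1 : Module.End F V) + traceMap n (ρ x) (ρ x⁻¹) g := by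
  classical
  have hp : p.Prime := Fact.out
  intro f hf
  haveI : Fintype Q := Fintype.ofFinite Q
  let α : MulAut Q := MulAut.conjNormal x
  have hαi : ∀ (i : ℕ) (a : Q), ((α ^ i : MulAut Q) a : G) = x ^ i * a * (x ^ i)⁻¹ := by
    intro i a
    rw [← map_pow, MulAut.conjNormal_apply]
  have hα_pow : ∀ a : Q, (α ^ n : MulAut Q) a = a := fun a =>
    Subtype.ext (by rw [hαi, hxn, one_mul, inv_one, mul_one])
  have hmulx : ∀ i, (x ^ i : G) * x = x * x ^ i := fun i => ((Commute.refl x).pow_left i).eq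
  have hnotZ : ∀ (i : ℕ) (a : Q), (a : G) ∉ Z → ((α ^ i : MulAut Q) a : G) ∉ Z := by
    intro i a ha hmem
    apply ha
    have hfix : ∀ j : ℕ, ∀ z ∈ Z, x ^ j * z * (x ^ j)⁻¹ = z := by
      intro j
      induction j with
      | zero => intro z _; simp
      | succ j ih =>
        intro z hz
        calc x ^ (j + 1) * z * (x ^ (j + 1))⁻¹ = x * (x ^ j * z * (x ^ j)⁻¹) * x⁻¹ := by rw [pow_succ']; group
          _ = z := by rw [ih z hz, hZx z hz]
    have h1 := hfix i _ hmem
    rw [hαi] at h1 hmem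
    have h2 : x ^ i * (x ^ i * (a : G) * (x ^ i)⁻¹) * (x ^ i)⁻¹ = x ^ i * (a : G) * (x ^ i)⁻¹ := h1
    rw [mul_left_inj, mul_right_inj] at h2
    exact h2 ▸ hmem
  have hperiod : ∀ a : Q, (a : G) ∉ Z → ∀ i j, i < n → j < n →
      (α ^ i : MulAut Q) a = (α ^ j : MulAut Q) a → i = j := by
    intro a ha i j hi hj hij
    by_contra hne
    wlog hlt : i < j generalizing i j
    · exact this j i hj hi hij.symm (Ne.symm hne) (by omega)
    have h1 := congrArg (fun b => (α ^ (n - j) : MulAut Q) b) hij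
    simp only [← MulAut.mul_apply, ← pow_add, Nat.sub_add_cancel hj.le, hα_pow] at h1
    have h2 := congrArg Subtype.val h1
    rw [hαi] at h2
    exact hfree a a.2 ha (n - j + i) (by omega) (by omega) h2
  have hmod : ∀ (a : Q) i, (α ^ i : MulAut Q) a = (α ^ (i % n) : MulAut Q) a := fun a i => by
    conv_lhs => rw [← Nat.mod_add_div i n]
    rw [pow_add, MulAut.mul_apply]
    congr 1
    induction i / n with
    | zero => simp
    | succ m ihm => rw [Nat.mul_succ, pow_add, MulAut.mul_apply, hα_pow, ihm]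
  obtain ⟨w, hw⟩ : ∃ w : Q → F, ∀ a : Q,
      (∑ i ∈ Finset.range n, w ((α ^ i : MulAut Q) a)) = if (a : G) ∈ Z then 0 else 1 := by
    let e := Fintype.equivFin Q
    refine ⟨fun b => if (b : G) ∉ Z ∧ ∀ i < n, e b ≤ e ((α ^ i : MulAut Q) b) then 1 else 0, fun a => ?_⟩
    split_ifs with ha
    · refine Finset.sum_eq_zero fun i _ => if_neg fun hc => hc.1 ?_
      have hfix : ∀ j : ℕ, x ^ j * (a : G) * (x ^ j)⁻¹ = a := by
        intro j
        induction j with
        | zero => simp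
        | succ j ih =>
          calc x ^ (j + 1) * (a : G) * (x ^ (j + 1))⁻¹ = x * (x ^ j * (a : G) * (x ^ j)⁻¹) * x⁻¹ := by rw [pow_succ']; group
            _ = a := by rw [ih, hZx _ ha]
      rw [hαi, hfix]; exact ha
    obtain ⟨i₀, hi₀, hmin⟩ := Finset.exists_min_image (Finset.range n) (fun i => e ((α ^ i : MulAut Q) a))
      ⟨0, Finset.mem_range.mpr hn⟩
    rw [Finset.mem_range] at hi₀
    rw [Finset.sum_eq_single i₀]
    · refine if_pos ⟨hnotZ i₀ a ha, fun i _ => ?_⟩
      rw [← MulAut.mul_apply, ← pow_add, hmod a (i + i₀)]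
      exact hmin _ (Finset.mem_range.mpr (Nat.mod_lt _ hn))
    · intro i hi hii
      refine if_neg fun hc => hii ?_
      rw [Finset.mem_range] at hi
      have h1 := hc.2 ((n - i + i₀) % n) (Nat.mod_lt _ hn)
      rw [← MulAut.mul_apply, ← pow_add, hmod a ((n - i + i₀) % n + i), Nat.mod_add_mod,
        show n - i + i₀ + i = i₀ + n by omega, Nat.add_mod_right, ← hmod] at h1
      exact hperiod a ha i i₀ hi hi₀ (e.injective (le_antisymm h1 (hmin i (Finset.mem_range.mpr hi))))
    · intro hni; exact absurd (Finset.mem_range.mpr hi₀) hni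
  let cj : Q → Module.End F V := fun a => ρ (a : G) * f * ρ (a : G)⁻¹
  have hxi : ∀ (i : ℕ) (a : Q), ρ x ^ i * cj a * ρ x⁻¹ ^ i = cj ((α ^ i : MulAut Q) a) := by
    intro i a
    have h1 : ρ x⁻¹ ^ i * f * ρ x ^ i = f := by
      rw [mul_assoc, ← (show Commute (ρ x) f from hf).pow_left i |>.eq, ← mul_assoc, ← map_pow, ← map_pow, inv_pow,
        rho_inv_mul, one_mul]
    show _ = ρ ((α ^ i : MulAut Q) a : G) * f * ρ ((α ^ i : MulAut Q) a : G)⁻¹
    rw [hαi, mul_inv_rev, mul_inv_rev, inv_inv, map_mul, map_mul, map_mul, map_mul, ← inv_pow, map_pow, map_pow]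
    calc ρ x ^ i * (ρ (a : G) * f * ρ (a : G)⁻¹) * ρ x⁻¹ ^ i
        = ρ x ^ i * ρ (a : G) * (ρ x⁻¹ ^ i * f * ρ x ^ i) * ρ (a : G)⁻¹ * ρ x⁻¹ ^ i := by
          rw [h1]; simp only [mul_assoc]
      _ = _ := by simp only [mul_assoc]
  obtain ⟨μ, hμ⟩ := hC (∑ a : Q, cj a) fun q hq => by
    have h2 : ρ q * (∑ a : Q, cj a) * ρ q⁻¹ = ∑ a : Q, cj a := by
      rw [Finset.mul_sum, Finset.sum_mul]
      refine Fintype.sum_equiv (Equiv.mulLeft (⟨q, hq⟩ : Q)) _ _ fun a => ?_
      show _ = ρ (q * (a : G)) * f * ρ (q * (a : G))⁻¹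
      rw [mul_inv_rev, map_mul, map_mul]
      simp only [cj, mul_assoc]
    calc ρ q * ∑ a : Q, cj a = ρ q * (∑ a : Q, cj a) * ρ q⁻¹ * ρ q := by rw [mul_assoc, rho_inv_mul, mul_one]
      _ = _ := by rw [h2]
  have hT : traceMap n (ρ x) (ρ x⁻¹) (∑ a : Q, w a • cj a) = ∑ a : Q, (if (a : G) ∈ Z then (0 : F) else 1) • cj a := by
    rw [traceMap]
    simp only [Finset.mul_sum, Finset.sum_mul, mul_smul_comm, smul_mul_assoc, hxi]
    have e2 : ∀ i ∈ Finset.range n, (∑ a : Q, w a • cj ((α ^ i : MulAut Q) a)) =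
        ∑ b : Q, w ((α ^ (n - i) : MulAut Q) b) • cj b := by
      intro i hi
      rw [Finset.mem_range] at hi
      refine Fintype.sum_equiv (α ^ i : MulAut Q).toEquiv _ _ fun a => ?_
      show _ = w ((α ^ (n - i) : MulAut Q) ((α ^ i : MulAut Q) a)) • _
      rw [← MulAut.mul_apply, ← pow_add, Nat.sub_add_cancel hi.le, hα_pow]
      rfl
    rw [Finset.sum_congr rfl e2, Finset.sum_comm]
    refine Finset.sum_congr rfl fun b _ => ?_
    rw [← Finset.sum_smul, ← hw b]
    congr 1
    refine Finset.sum_nbij' (fun i => (n - i) % n) (fun i => (n - i) % n) ?_ ?_ ?_ ?_ ?_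
    · intro i _; exact Finset.mem_coe.mpr (Finset.mem_range.mpr (Nat.mod_lt _ hn))
    · intro i _; exact Finset.mem_coe.mpr (Finset.mem_range.mpr (Nat.mod_lt _ hn))
    · intro i hi
      have := Finset.mem_range.mp hi
      rcases Nat.eq_zero_or_pos i with rfl | hpos
      · simp
      · rw [Nat.mod_eq_of_lt (show n - i < n by omega), show n - (n - i) = i by omega, Nat.mod_eq_of_lt this]
    · intro i hi
      have := Finset.mem_range.mp hi
      rcases Nat.eq_zero_or_pos i with rfl | hpos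
      · simp
      · rw [Nat.mod_eq_of_lt (show n - i < n by omega), show n - (n - i) = i by omega, Nat.mod_eq_of_lt this]
    · intro i hi
      congr 1
      rcases Nat.eq_zero_or_pos i with rfl | hpos
      · rw [Nat.sub_zero, Nat.mod_self, pow_zero, MulAut.one_apply, hα_pow]
      · have := Finset.mem_range.mp hi
        rw [Nat.mod_eq_of_lt (show n - i < n by omega)]
  -- the scalar part
  have hZsum : ∑ a : Q, (if (a : G) ∈ Z then (1 : F) else 0) • cj a =
      (Nat.card (Z.subgroupOf Q) : F) • f := by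
    have h1 : ∀ a : Q, (if (a : G) ∈ Z then (1 : F) else 0) • cj a = (if (a : G) ∈ Z then (1 : F) else 0) • f := by
      intro a
      split_ifs with ha
      · obtain ⟨c, hc⟩ := hZ _ ha a.2
        congr 1
        show ρ (a : G) * f * ρ (a : G)⁻¹ = f
        have h2 : ρ (a : G) * f = f * ρ (a : G) := by rw [hc, smul_mul_assoc, one_mul, mul_smul_comm, mul_one]
        rw [h2, mul_assoc, rho_mul_inv, mul_one]
      · simp
    rw [Finset.sum_congr rfl (fun a _ => h1 a), ← Finset.sum_smul, Finset.sum_boole, Nat.card_eq_fintype_card,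
      Fintype.card_subtype]
    rfl
  have hm0 : (Nat.card (Z.subgroupOf Q) : F) ≠ 0 := by
    rw [Ne, CharP.cast_eq_zero_iff F p]
    intro hd
    exact hp.coprime_iff_not_dvd.mp hcop.symm (hd.trans (Subgroup.card_subgroup_dvd_card _))
  set m := (Nat.card (Z.subgroupOf Q) : F) with hm
  refine ⟨μ / m, -(m⁻¹ • ∑ a : Q, w a • cj a), ?_⟩
  have hsplit : ∑ a : Q, cj a = m • f + traceMap n (ρ x) (ρ x⁻¹) (∑ a : Q, w a • cj a) := by
    rw [hT, ← hZsum, ← Finset.sum_add_distrib]
    refine Finset.sum_congr rfl fun a _ => ?_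
    split_ifs <;> simp
  have hlin : traceMap n (ρ x) (ρ x⁻¹) (-(m⁻¹ • ∑ a : Q, w a • cj a)) =
      -(m⁻¹ • traceMap n (ρ x) (ρ x⁻¹) (∑ a : Q, w a • cj a)) := by
    simp only [traceMap, mul_neg, neg_mul, Finset.sum_neg_distrib, mul_smul_comm, smul_mul_assoc, ← Finset.smul_sum]
  rw [hlin, show traceMap n (ρ x) (ρ x⁻¹) (∑ a : Q, w a • cj a) = μ • (1 : Module.End F V) - m • f by
    rw [← hμ, hsplit, add_sub_cancel_left], smul_sub, smul_smul, smul_smul, inv_mul_cancel₀ hm0, one_smul,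
    div_eq_inv_mul]
  abel

end Cfsg.Agent.S4282

namespace Cfsg.Agent.S4282

/-- A critical case behind the Hall–Higman theorem. Let p ≠ q be primes and G a finite group generated by a normal q-subgroup Q and a cyclic p-subgroup generated by x, such that the centralizer of every non-identity element of that cyclic subgroup is its product with the centre of G. Let K be an algebraically closed field of characteristic p and ρ a faithful representation of G on a nonzero finite-dimensional K-space whose restriction to Q is irreducible. If s is the least exponent with (ρ(x) − 1)^s = 0, then |⟨x⟩| − 1 ≤ s ≤ |⟨x⟩|; and if s = |⟨x⟩| − 1 then |⟨x⟩| − 1 is a power of q and Q is non-abelian. -/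
theorem result {G : Type*} [Group G] [Finite G] (p q : ℕ) [Fact p.Prime] [Fact q.Prime] (hpq : p ≠ q) (Q : Subgroup G) [Q.Normal] (hQ : IsPGroup q Q) (x : G) (hx : IsPGroup p (Subgroup.zpowers x)) (hgen : Q ⊔ Subgroup.zpowers x = ⊤) (hC : ∀ y ∈ Subgroup.zpowers x, y ≠ 1 → Subgroup.centralizer ({y} : Set G) = Subgroup.zpowers x ⊔ Subgroup.center G) {K : Type*} [Field K] [IsAlgClosed K] [CharP K p] {V : Type*} [AddCommGroup V] [Module K V] [FiniteDimensional K V] [Nontrivial V] (ρ : Representation K G V) (hfaith : Function.Injective ρ) (hirr : ∀ W : Submodule K V, (∀ g ∈ Q, Submodule.map (ρ g) W ≤ W) → W = ⊥ ∨ W = ⊤) (s : ℕ) (hs : (ρ x - 1) ^ s = 0) (hmin : ∀ k < s, (ρ x - 1) ^ k ≠ 0) : Nat.card (Subgroup.zpowers x) - 1 ≤ s ∧ s ≤ Nat.card (Subgroup.zpowers x) ∧ (s = Nat.card (Subgroup.zpowers x) - 1 → (∃ b : ℕ, Nat.card (Subgroup.zpowers x) - 1 = q ^ b) ∧ ¬ IsMulCommutative Q) := by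
  classical
  have hcent := hC
  have hp : p.Prime := Fact.out
  have hq : q.Prime := Fact.out
  set c := Nat.card (Subgroup.zpowers x) with hc
  have hcx : x ^ c = 1 := by rw [hc, Nat.card_zpowers]; exact pow_orderOf_eq_one x
  obtain ⟨m, hm⟩ := IsPGroup.iff_card.mp hx
  rw [← hc] at hm
  obtain ⟨j, hj⟩ := IsPGroup.iff_card.mp hQ
  have hcop : (Nat.card Q).Coprime p := by rw [hj]; exact Nat.Coprime.pow_left j ((Nat.coprime_primes hq hp).mpr (Ne.symm hpq))
  have hsc : s ≤ c := by
    by_contra hlt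
    refine hmin c (by omega) ?_
    rw [hm]
    exact Cfsg.Agent.HH.sub_one_pow_eq_zero ρ (by rw [← hm]; exact hcx)
  clear hC
  have hC : ∀ f : Module.End K V, (∀ g ∈ Q, ρ g * f = f * ρ g) → ∃ t : K, f = t • 1 := by
    intro f hf
    obtain ⟨t, ht⟩ := Module.End.exists_eigenvalue f
    refine ⟨t, ?_⟩
    rcases hirr (f.eigenspace t) (fun g hg => by
      rintro _ ⟨v, hv, rfl⟩
      rw [SetLike.mem_coe, Module.End.mem_eigenspace_iff] at hv
      rw [Module.End.mem_eigenspace_iff, ← Module.End.mul_apply, ← hf g hg, Module.End.mul_apply, hv, map_smul]) with h | h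
    · exact absurd h ht
    · refine LinearMap.ext fun v => ?_
      have hv : v ∈ f.eigenspace t := h ▸ Submodule.mem_top
      rw [Module.End.mem_eigenspace_iff] at hv
      simpa using hv
  rcases Nat.eq_zero_or_pos m with rfl | hm1
  · rw [pow_zero] at hm
    refine ⟨by omega, hsc, fun hs1 => ?_⟩
    exfalso
    rw [hs1, hm, Nat.sub_self, pow_zero] at hs
    exact one_ne_zero hs
  have hc2 : 2 ≤ p ^ m := hp.two_le.trans (Nat.le_self_pow (by omega) p)
  have hZ : ∀ z ∈ Subgroup.center G, z ∈ Q → ∃ t : K, ρ z = t • (1 : Module.End K V) := fun z hz _ =>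
    hC _ fun g _ => by rw [← map_mul, ← map_mul, Subgroup.mem_center_iff.mp hz g]
  have hfree : ∀ a ∈ Q, a ∉ Subgroup.center G → ∀ d, 0 < d → d < c → x ^ d * a * (x ^ d)⁻¹ ≠ a := by
    intro a ha haZ d hd hdc hfix
    have hy1 : x ^ d ≠ 1 := by
      intro h1
      have := Nat.le_of_dvd hd (orderOf_dvd_of_pow_eq_one h1)
      rw [hc, Nat.card_zpowers] at hdc
      omega
    have haC : a ∈ Subgroup.centralizer ({x ^ d} : Set G) :=
      Subgroup.mem_centralizer_singleton_iff.mpr (mul_inv_eq_iff_eq_mul.mp hfix).symm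
    rw [hcent (x ^ d) (pow_mem (Subgroup.mem_zpowers x) d) hy1] at haC
    obtain ⟨u, hu, z, hz, hza⟩ := Subgroup.mem_sup_of_normal_right.mp haC
    -- the `⟨x⟩`-part of `a` is trivial
    apply haZ
    have hu2 : a ^ (q ^ j) = 1 := by rw [← hj]; exact orderOf_dvd_iff_pow_eq_one.mp (Subgroup.orderOf_dvd_natCard Q ha)
    rw [← hza, (show Commute u z from (Subgroup.mem_center_iff.mp hz u)).mul_pow] at hu2
    have hu3 : u ^ q ^ j ∈ Subgroup.center G := by
      rw [eq_inv_of_mul_eq_one_left hu2]; exact inv_mem (pow_mem hz _)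
    have huz : u ∈ Subgroup.center G := by
      have hcop' : (q ^ j).Coprime (orderOf u) := by
        obtain ⟨i, -, hi⟩ := (Nat.dvd_prime_pow hp).mp (hm ▸ (hc ▸ Subgroup.orderOf_dvd_natCard _ hu))
        rw [hi]; exact Nat.Coprime.pow j i ((Nat.coprime_primes hq hp).mpr (Ne.symm hpq))
      obtain ⟨i, hi⟩ := exists_pow_eq_self_of_coprime hcop'
      exact hi ▸ pow_mem hu3 i
    rw [← hza]; exact mul_mem huz hz
  have hfix := fixed_eq_scalar_add_trace p ρ Q x c (by rw [hm]; omega) hcx hcop (Subgroup.center G) hZ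
    (fun z hz => by rw [Subgroup.mem_center_iff.mp hz x, mul_inv_cancel_right]) hfree hC
  by_cases hN : (ρ x - 1) ^ (c - 1) = 0
  swap
  · have : c = s := by
      refine le_antisymm ?_ hsc
      by_contra hlt
      exact hN (pow_eq_zero_of_le (by omega) hs)
    refine ⟨by omega, hsc, fun h => ?_⟩
    exfalso; rw [hm] at this h; omega
  rcases Cfsg.Agent.HH.finrank_eq_of_fixed (F := K) (V := V) p m hc2 (x := ρ x) (xi := ρ x⁻¹) (N := ρ x - 1)
      (by rw [add_sub_cancel]) (Cfsg.Agent.HH.rho_mul_inv ρ x) (Cfsg.Agent.HH.rho_inv_mul ρ x) (by rw [← hm]; exact hN)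
      (fun f hf => by
        rw [← hm]
        refine hfix f ?_
        rwa [sub_mul, mul_sub, one_mul, mul_one, sub_left_inj] at hf) with h0 | ⟨hdim, hN2⟩
  · exfalso
    have : x = 1 := hfaith (by rw [map_one, ← sub_eq_zero]; exact h0)
    have hc1 : c = 1 := by rw [hc, Nat.card_zpowers, this, orderOf_one]
    omega
  have hs1 : s = c - 1 := by
    refine le_antisymm ?_ ?_
    · by_contra hlt
      exact hmin (c - 1) (by omega) hN
    · by_contra hlt
      exact hN2 (pow_eq_zero_of_le (by omega) hs)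
  refine ⟨by omega, hsc, fun _ => ⟨?_, fun hcomm => ?_⟩⟩
  · obtain ⟨b, hb⟩ := Cfsg.Agent.HH.exists_finrank_eq_pow (F := K) (q := q) _ Q V (ρ.comp Q.subtype) rfl hQ (fun W hW =>
      hirr W fun g hg => by rintro _ ⟨w, hw, rfl⟩; exact hW ⟨g, hg⟩ w hw)
    exact ⟨b, by rw [← hb, hdim, hm]⟩
  · have hsc' : ∀ g ∈ Q, ∃ t : K, ρ g = t • (1 : Module.End K V) := fun g hg => hC _ fun g' hg' => by
      rw [← map_mul, ← map_mul, show g' * g = g * g' from congrArg Subtype.val (hcomm.is_comm.comm (⟨g', hg'⟩ : Q) ⟨g, hg⟩)]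
    obtain ⟨v, hv⟩ := exists_ne (0 : V)
    have htop := (hirr (Submodule.span K {v}) fun g hg => by
      obtain ⟨t, ht⟩ := hsc' g hg
      rintro _ ⟨w, hw, rfl⟩
      rw [ht]; exact Submodule.smul_mem _ t hw).resolve_left (fun h => hv (by simpa using h))
    have h1 : Module.finrank K V = 1 := by rw [← finrank_top K V, ← htop, finrank_span_singleton hv]
    rw [hdim] at h1
    rw [hs1, hm, h1, pow_one, sub_eq_zero] at hs
    have : x = 1 := hfaith (by rw [map_one]; exact hs)
    have hc1 : c = 1 := by rw [hc, Nat.card_zpowers, this, orderOf_one]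
    omega

end Cfsg.Agent.S4282
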