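import Cfsg.Statements.S0892
import Cfsg.Agent.CharDeep.AltMultMain

set_option autoImplicit false
open Cfsg

namespace Cfsg.Agent.S0892

/-- Let n ≥ 4 with n ≠ 6 and n ≠ 7, and let Γ be a finite group with a subgroup Z contained in both the centre and the commutator subgroup of Γ such that Γ / Z is isomorphic to the alternating group on n letters. Then Z has order at most 2. -/
theorem result (n : ℕ) (hn : 4 ≤ n) (h6 : n ≠ 6) (h7 : n ≠ 7) {Γ : Type*} [Group Γ] [Finite Γ] (Z : Subgroup Γ) [Z.Normal] (hZc : Z ≤ Subgroup.center Γ) (hZd : Z ≤ commutator Γ) (e : Γ ⧸ Z ≃* alternatingGroup (Fin n)) : Nat.card Z ≤ 2 := by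
  obtain ⟨m, rfl⟩ : ∃ m, n = m + 1 := ⟨n - 1, by omega⟩
  let σ : Γ →* Equiv.Perm (Fin (m + 1)) :=
    (alternatingGroup (Fin (m + 1))).subtype.comp (e.toMonoidHom.comp (QuotientGroup.mk' Z))
  have hσk : σ.ker = Z := by
    ext x
    simp only [σ, MonoidHom.mem_ker, MonoidHom.comp_apply, Subgroup.coe_subtype,
      OneMemClass.coe_eq_one, MulEquiv.coe_toMonoidHom, map_eq_one_iff _ e.injective,
      QuotientGroup.mk'_apply, QuotientGroup.eq_one_iff]
  have hσr : σ.range = alternatingGroup (Fin (m + 1)) := by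
    simp only [σ]
    rw [MonoidHom.range_comp, MonoidHom.range_eq_top.2
      (e.surjective.comp (QuotientGroup.mk'_surjective Z)), ← MonoidHom.range_eq_map,
      Subgroup.range_subtype]
  have hs := Cfsg.Agent.CoxeterSym.adjSwap_relA m
  obtain ⟨φ, hφ⟩ := Cfsg.Agent.CharDeep.AltMult.exists_local_hom hs 0 3 (by omega)
  set s := Cfsg.Agent.CoxeterSym.adjSwap m with hsdef
  have e0 : s 0 = φ (Cfsg.Agent.CoxeterSym.adjSwap 3 0) := (hφ 0 (by norm_num)).symm
  have e1 : s 1 = φ (Cfsg.Agent.CoxeterSym.adjSwap 3 1) := (hφ 1 (by norm_num)).symm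
  have e2 : s 2 = φ (Cfsg.Agent.CoxeterSym.adjSwap 3 2) := (hφ 2 (by norm_num)).symm
  have hmem : ∀ i j, i < m → j < m → ∃ X, σ X = s i * s j := fun i j hi hj => by
    have h := Cfsg.Agent.CharDeep.AltMult.pair_mem (m := m) hi hj
    rwa [← hσr] at h
  obtain ⟨X, hX⟩ := hmem 0 2 (by omega) (by omega)
  obtain ⟨U, hU⟩ := hmem 1 0 (by omega) (by omega)
  obtain ⟨V, hV⟩ := hmem 2 1 (by omega) (by omega)
  have hY : σ (U * V) = s 1 * (s 0 * s 2) * s 1 := by rw [map_mul, hU, hV]; group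
  set Y := U * V with hYdef
  have hZ : ∀ x : Γ, σ x = 1 → ∀ g : Γ, g * x = x * g := fun x hx g =>
    Subgroup.mem_center_iff.1 (hZc (hσk ▸ MonoidHom.mem_ker.2 hx)) g
  set ε := X * Y * X⁻¹ * Y⁻¹ with hεdef
  have hε : σ ε = 1 := by
    rw [hεdef, map_mul, map_mul, map_mul, map_inv, map_inv, hX, hY, e0, e1, e2, ← map_mul φ,
      ← map_mul φ, ← map_mul φ, ← map_mul φ, ← map_inv φ, ← map_inv φ, ← map_mul φ, ← map_mul φ,
      ← map_one φ]
    refine congrArg φ ?_
    decide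
  have hYY : σ (Y * Y) = 1 := by
    rw [map_mul, hY, e0, e1, e2, ← map_mul φ, ← map_mul φ, ← map_mul φ, ← map_mul φ, ← map_one φ]
    refine congrArg φ ?_
    decide
  have hε2 : ε ^ 2 = 1 := by
    have h1 : X * Y * X⁻¹ = ε * Y := by rw [hεdef]; group
    have h2 : X * Y * X⁻¹ * (X * Y * X⁻¹) = Y * Y := by
      rw [show X * Y * X⁻¹ * (X * Y * X⁻¹) = X * (Y * Y) * X⁻¹ by group, hZ _ hYY X]
      group
    rw [h1, show ε * Y * (ε * Y) = ε * (Y * ε) * Y by group, hZ _ hε Y,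
      show ε * (ε * Y) * Y = ε ^ 2 * (Y * Y) by rw [sq]; group] at h2
    exact mul_eq_right.1 h2
  set E := Subgroup.zpowers ε with hEdef
  have hEσ : E ≤ σ.ker := Subgroup.zpowers_le.2 (MonoidHom.mem_ker.2 hε)
  have hEc : E ≤ Subgroup.center Γ := hEσ.trans (hσk ▸ hZc)
  haveI : E.Normal := ⟨fun x hx g => by
    rw [Subgroup.mem_center_iff.1 (hEc hx) g, mul_assoc, mul_inv_cancel, mul_one]; exact hx⟩
  let π := QuotientGroup.lift E σ hEσ
  have hker : ∀ w : Γ ⧸ E, π w = 1 → ∃ z ∈ Z, (z : Γ ⧸ E) = w := by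
    intro w hw
    induction w using QuotientGroup.induction_on with
    | _ g => exact ⟨g, hσk ▸ MonoidHom.mem_ker.2 hw, rfl⟩
  have hπr : π.range = alternatingGroup (Fin (m + 1)) := by
    rw [← hσr]
    ext p
    constructor
    · rintro ⟨w, rfl⟩
      induction w using QuotientGroup.induction_on with
      | _ g => exact ⟨g, rfl⟩
    · rintro ⟨g, rfl⟩; exact ⟨(g : Γ ⧸ E), rfl⟩
  have hπc : π.ker ≤ Subgroup.center (Γ ⧸ E) := by
    intro w hw
    obtain ⟨z, hz, rfl⟩ := hker w hw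
    rw [Subgroup.mem_center_iff]
    intro g
    induction g using QuotientGroup.induction_on with
    | _ g => rw [← QuotientGroup.mk_mul, ← QuotientGroup.mk_mul, Subgroup.mem_center_iff.1 (hZc hz) g]
  have hπd : π.ker ≤ commutator (Γ ⧸ E) := by
    intro w hw
    obtain ⟨z, hz, rfl⟩ := hker w hw
    have h := Subgroup.mem_map_of_mem (QuotientGroup.mk' E) (hZd hz)
    rw [commutator_def, Subgroup.map_commutator] at h
    exact Subgroup.commutator_mono le_top le_top h
  have hbot : π.ker = ⊥ := by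
    refine Cfsg.Agent.CharDeep.AltMult.ker_eq_bot (by omega) π hπr hπc hπd ?_
    have hXY : Commute (X : Γ ⧸ E) (Y : Γ ⧸ E) := by
      show (X : Γ ⧸ E) * Y = Y * X
      rw [← QuotientGroup.mk_mul, ← QuotientGroup.mk_mul, eq_comm, QuotientGroup.eq]
      have hh : (Y * X)⁻¹ * (X * Y) = X⁻¹ * Y⁻¹ * ε * Y * X := by rw [hεdef]; group
      rw [hh, mul_assoc _ ε, ← hZ _ hε Y, ← mul_assoc, mul_assoc _ ε, ← hZ _ hε X]
      have : X⁻¹ * Y⁻¹ * Y * (X * ε) = ε := by group
      rw [this]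
      exact Subgroup.mem_zpowers ε
    intro X' Y' hX' hY'
    have hx := Cfsg.Agent.CharDeep.AltMult.inv_mul_mem_center hπc
      (show π (X : Γ ⧸ E) = π X' from hX.trans hX'.symm)
    have hy := Cfsg.Agent.CharDeep.AltMult.inv_mul_mem_center hπc
      (show π (Y : Γ ⧸ E) = π Y' from hY.trans hY'.symm)
    rw [← mul_inv_cancel_left (X : Γ ⧸ E) X', ← mul_inv_cancel_left (Y : Γ ⧸ E) Y']
    exact (hXY.mul_right (Subgroup.mem_center_iff.1 hy _)).mul_left
      (Subgroup.mem_center_iff.1 hx _).symm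
  have hZE : Z ≤ E := by
    intro z hz
    rw [← QuotientGroup.eq_one_iff, ← Subgroup.mem_bot, ← hbot, MonoidHom.mem_ker]
    show σ z = 1
    exact MonoidHom.mem_ker.1 (hσk.symm ▸ hz)
  calc Nat.card Z ≤ Nat.card E := Nat.card_le_card_of_injective _ (Subgroup.inclusion_injective hZE)
    _ ≤ 2 := by
      rw [hEdef, Nat.card_zpowers]
      exact Nat.le_of_dvd (by norm_num) (orderOf_dvd_of_pow_eq_one hε2)

end Cfsg.Agent.S0892
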