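import Cfsg.Agent.CharInd.Clifford
import Cfsg.Statements.S0856
-- import your own Cfsg.Agent.* helpers here

set_option autoImplicit false
open Cfsg

namespace Cfsg.Agent.S0856

/-- Let N be a normal subgroup of the finite group G and φ, ϑ irreducible characters of N that are invariant under conjugation by G, such that the pointwise product φ * ϑ is irreducible and ϑ is the restriction of an irreducible character χ of G. Then multiplication by χ is a bijection from the set of irreducible characters of G having nonzero inner product with the function induced from φ onto the set of those having nonzero inner product with the function induced from φ * ϑ. -/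
theorem result {G : Type*} [Group G] [Fintype G] (N : Subgroup G) [hN : N.Normal] (φ ϑ : N → ℂ) (hφ : Cfsg.IsIrrCharacter N φ) (hϑ : Cfsg.IsIrrCharacter N ϑ) (hφinv : ∀ (g : G) (n : N), φ ⟨g * n * g⁻¹, hN.conj_mem (n : G) n.2 g⟩ = φ n) (hϑinv : ∀ (g : G) (n : N), ϑ ⟨g * n * g⁻¹, hN.conj_mem (n : G) n.2 g⟩ = ϑ n) (hprod : Cfsg.IsIrrCharacter N (φ * ϑ)) (χ : G → ℂ) (hχ : Cfsg.IsIrrCharacter G χ) (hext : ∀ n : N, χ n = ϑ n) : Set.BijOn (fun β : G → ℂ => β * χ) {β : G → ℂ | Cfsg.IsIrrCharacter G β ∧ Cfsg.classInner (Cfsg.indFun N φ) β ≠ 0} {ψ : G → ℂ | Cfsg.IsIrrCharacter G ψ ∧ Cfsg.classInner (Cfsg.indFun N (φ * ϑ)) ψ ≠ 0} := by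
  classical
  have hχc := Char.irr_isClassFunction hχ
  have hmul : Cfsg.indFun N (φ * ϑ) = Cfsg.indFun N φ * χ := by
    rw [← CharInd.indFun_mul_res N φ hχc]
    congr 1
    funext n
    simp [hext]
  obtain ⟨e, he, he'⟩ := Char.isCharacter_exists_coeff
    (CharInd.isCharacter_indFun N (Char.isCharacter_of_irr hφ))
  have hchar : ∀ β : Cfsg.IrrCharacter G, Cfsg.IsCharacter G ((β : G → ℂ) * χ) := fun β =>
    Char.isCharacter_mul (Char.isCharacter_of_irr β.2) (Char.isCharacter_of_irr hχ)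
  have hM : ∀ β γ : Cfsg.IrrCharacter G, ∃ k : ℕ,
      Cfsg.classInner ((β : G → ℂ) * χ) ((γ : G → ℂ) * χ) = k := by
    intro β γ
    obtain ⟨a, -, ha'⟩ := Char.isCharacter_exists_coeff (hchar β)
    obtain ⟨b, -, hb'⟩ := Char.isCharacter_exists_coeff (hchar γ)
    refine ⟨∑ ψ, a ψ * b ψ, ?_⟩
    rw [Char.classInner_eq_sum_mul_conj (Char.isCharacter_isClassFunction (hchar β))]
    simp [ha', hb']
  choose M hM using hM
  have hdiag : ∀ β, 1 ≤ M β β := by
    intro β
    rw [Nat.one_le_iff_ne_zero]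
    intro h0
    have h1 := hM β β
    rw [h0, Nat.cast_zero] at h1
    obtain ⟨a, ha, ha'⟩ := Char.isCharacter_exists_coeff (hchar β)
    rw [Char.classInner_eq_sum_mul_conj (Char.isCharacter_isClassFunction (hchar β))] at h1
    have h2 : ∑ ψ : Cfsg.IrrCharacter G, a ψ * a ψ = 0 := by
      simp only [ha', map_natCast] at h1
      exact_mod_cast h1
    have h3 : (β : G → ℂ) * χ = 0 := by
      rw [ha]
      exact Finset.sum_eq_zero fun ψ hψ => by
        rw [mul_self_eq_zero.mp (Finset.sum_eq_zero_iff.mp h2 ψ hψ), zero_smul]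
    have h4 : (β : G → ℂ) 1 * χ 1 = 0 := congrFun h3 1
    exact mul_ne_zero (Char.irr_one_ne_zero β.2) (Char.irr_one_ne_zero hχ) h4
  have hconjN : ∀ (f : N → ℂ), (∀ (g : G) (n : N), f ⟨g * n * g⁻¹, hN.conj_mem (n : G) n.2 g⟩ = f n) →
      ∀ x : G, CharInd.conjChar N x f = f := fun f hf x => funext fun n => hf x n
  have hprodinv : ∀ (g : G) (n : N),
      (φ * ϑ) ⟨g * n * g⁻¹, hN.conj_mem (n : G) n.2 g⟩ = (φ * ϑ) n := fun g n => by
    simp [hφinv g n, hϑinv g n]
  have hnorm : Cfsg.classInner (Cfsg.indFun N φ) (Cfsg.indFun N φ) =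
      Cfsg.classInner (Cfsg.indFun N φ * χ) (Cfsg.indFun N φ * χ) := by
    rw [← hmul]
    apply mul_left_cancel₀ (Nat.cast_ne_zero.mpr (Nat.card_pos (α := N)).ne' : (Nat.card N : ℂ) ≠ 0)
    rw [CharInd.card_mul_classInner_indFun_normal, CharInd.card_mul_classInner_indFun_normal]
    simp only [hconjN φ hφinv, hconjN _ hprodinv, Char.classInner_irr_self hφ,
      Char.classInner_irr_self hprod]
  have hsum : ∑ β, ∑ γ, e β * e γ * M β γ = ∑ β : Cfsg.IrrCharacter G, e β * e β := by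
    have h1 : Cfsg.classInner (Cfsg.indFun N φ) (Cfsg.indFun N φ) =
        ((∑ β : Cfsg.IrrCharacter G, e β * e β : ℕ) : ℂ) := by
      rw [Char.classInner_eq_sum_mul_conj (CharInd.indFun_isClassFunction N φ)]
      simp [he']
    have h2 : Cfsg.classInner (Cfsg.indFun N φ * χ) (Cfsg.indFun N φ * χ) =
        ((∑ β, ∑ γ, e β * e γ * M β γ : ℕ) : ℂ) := by
      rw [he, Finset.sum_mul, Char.classInner_sum_left, Nat.cast_sum]
      refine Finset.sum_congr rfl fun β _ => ?_
      rw [Char.classInner_sum_right, Nat.cast_sum]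
      refine Finset.sum_congr rfl fun γ _ => ?_
      rw [← Nat.cast_smul_eq_nsmul ℂ, ← Nat.cast_smul_eq_nsmul ℂ, smul_mul_assoc, smul_mul_assoc,
        Char.classInner_smul_left, Char.classInner_smul_right, hM, map_natCast]
      push_cast; ring
    exact_mod_cast h2.symm.trans (hnorm.symm.trans h1)
  have hdel : ∀ β γ, e β ≠ 0 → e γ ≠ 0 → M β γ = if β = γ then 1 else 0 := by
    intro β γ hb hc
    have hle : ∀ b, e b * e b ≤ ∑ c, e b * e c * M b c := fun b =>
      le_trans (Nat.le_mul_of_pos_right _ (hdiag b))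
        (Finset.single_le_sum (f := fun c => e b * e c * M b c) (fun c _ => Nat.zero_le _)
          (Finset.mem_univ b))
    have heq := (Finset.sum_eq_sum_iff_of_le (fun b _ => hle b)).mp hsum.symm β (Finset.mem_univ _)
    have hd : e β * e β * M β β = e β * e β := by
      refine le_antisymm ?_ (Nat.le_mul_of_pos_right _ (hdiag β))
      refine le_trans ?_ heq.ge
      exact Finset.single_le_sum (f := fun c => e β * e c * M β c) (fun c _ => Nat.zero_le _)
        (Finset.mem_univ β)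
    split_ifs with h
    · subst h
      exact Nat.eq_of_mul_eq_mul_left (Nat.pos_of_ne_zero (mul_ne_zero hb hb))
        (hd.trans (mul_one _).symm)
    · have h2 := (Finset.add_sum_erase Finset.univ (fun c => e β * e c * M β c)
        (Finset.mem_univ β)).trans heq.symm
      simp only [hd] at h2
      have h3 : ∑ c ∈ Finset.univ.erase β, e β * e c * M β c = 0 := by omega
      have h4 := Finset.sum_eq_zero_iff.mp h3 γ (Finset.mem_erase.mpr ⟨Ne.symm h, Finset.mem_univ _⟩)
      simpa [hb, hc] using h4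
  have hirr : ∀ β, e β ≠ 0 → Cfsg.IsIrrCharacter G ((β : G → ℂ) * χ) := fun β hb =>
    Char.isIrrCharacter_iff_classInner.mpr
      ⟨hchar β, by rw [hM, hdel β β hb hb, if_pos rfl, Nat.cast_one]⟩
  have hin : ∀ β : G → ℂ, ∀ hb : Cfsg.IsIrrCharacter G β,
      Cfsg.classInner (Cfsg.indFun N φ) β ≠ 0 → e ⟨β, hb⟩ ≠ 0 := fun β hb h h0 => h (by
        rw [show β = ((⟨β, hb⟩ : Cfsg.IrrCharacter G) : G → ℂ) from rfl, he', h0, Nat.cast_zero])
  have hexp : ∀ ψ : G → ℂ, Cfsg.classInner (Cfsg.indFun N φ * χ) ψ =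
      ∑ γ : Cfsg.IrrCharacter G, (e γ : ℂ) * Cfsg.classInner ((γ : G → ℂ) * χ) ψ := by
    intro ψ
    rw [he, Finset.sum_mul, Char.classInner_sum_left]
    refine Finset.sum_congr rfl fun γ _ => ?_
    rw [← Nat.cast_smul_eq_nsmul ℂ, smul_mul_assoc, Char.classInner_smul_left]
  refine ⟨fun β hβ => ?_, fun β hβ γ hγ h => ?_, fun ψ hψ => ?_⟩
  · obtain ⟨hb, hb'⟩ := hβ
    have h0 := hin β hb hb'
    refine ⟨hirr ⟨β, hb⟩ h0, ?_⟩
    show Cfsg.classInner (Cfsg.indFun N (φ * ϑ)) (β * χ) ≠ 0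
    rw [hmul, hexp, Finset.sum_eq_single ⟨β, hb⟩]
    · rw [show β * χ = ((⟨β, hb⟩ : Cfsg.IrrCharacter G) : G → ℂ) * χ from rfl, hM,
        hdel _ _ h0 h0, if_pos rfl]
      simpa using h0
    · intro γ _ hne
      by_cases hc : e γ = 0
      · simp [hc]
      · rw [show β * χ = ((⟨β, hb⟩ : Cfsg.IrrCharacter G) : G → ℂ) * χ from rfl, hM,
          hdel _ _ hc h0, if_neg hne]
        simp
    · intro h; exact absurd (Finset.mem_univ _) h
  · obtain ⟨hb, hb'⟩ := hβ
    obtain ⟨hc, hc'⟩ := hγ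
    by_contra hne
    have h1 := hM ⟨β, hb⟩ ⟨γ, hc⟩
    rw [hdel _ _ (hin β hb hb') (hin γ hc hc'), if_neg (fun hh => hne (congrArg Subtype.val hh))] at h1
    have h2 := hM ⟨β, hb⟩ ⟨β, hb⟩
    rw [hdel _ _ (hin β hb hb') (hin β hb hb'), if_pos rfl] at h2
    have h' : β * χ = γ * χ := h
    simp only [← h'] at h1
    rw [h1] at h2
    simp at h2
  · obtain ⟨hp, hp'⟩ := hψ
    rw [hmul, hexp] at hp'
    obtain ⟨γ, -, hγ⟩ := Finset.exists_ne_zero_of_sum_ne_zero hp'
    obtain ⟨hc, hγ2⟩ := mul_ne_zero_iff.mp hγ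
    have hc' : e γ ≠ 0 := by exact_mod_cast hc
    refine ⟨γ, ⟨γ.2, ?_⟩, ?_⟩
    · rw [he']; exact hc
    · by_contra hne
      exact hγ2 (Char.classInner_irr_ne (hirr γ hc') hp hne)

end Cfsg.Agent.S0856
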