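import Cfsg.Statements.S0375
import Cfsg.Agent.AbstractGolay.Basic
import Cfsg.Agent.Leech.Basic
import Cfsg.Agent.Golay.Octads
import Cfsg.Agent.S0407
-- import your own Cfsg.Agent.* helpers here

set_option autoImplicit false
open Cfsg

namespace Cfsg.Agent.S0375

/-- A doubly even self-dual binary code of length 24 with no words of weight 4 is equivalent to the length-24 code built from the squares modulo 23. -/
theorem result (C : Submodule (ZMod 2) (Fin 24 → ZMod 2)) (hdim : Module.finrank (ZMod 2) C = 12) (horth : ∀ v ∈ C, ∀ w ∈ C, ∑ i, v i * w i = 0) (h4 : ∀ w ∈ C, 4 ∣ hammingNorm w) (hno4 : ∀ w ∈ C, hammingNorm w ≠ 4) : ∃ e : Fin 24 ≃ Cfsg.GolayPt, ∀ w : Cfsg.GolayPt → ZMod 2, w ∈ Cfsg.golayCode ↔ (fun i => w (e i)) ∈ C := by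
  have hmin : ∀ w ∈ C, w ≠ 0 → 8 ≤ hammingNorm w := fun w hw h0 => by
    have h1 : hammingNorm w ≠ 0 := fun e => h0 (hammingNorm_eq_zero.mp e)
    have := h4 w hw
    have := hno4 w hw
    omega
  have hB : Cfsg.IsSteinerSystem 5 8
      (Cfsg.wordsOfWeight (C : Set (Fin 24 → ZMod 2)) 8) :=
    ⟨fun b hb => hb.2, fun s hs => Cfsg.Agent.AbstractGolay.existsUnique_octad hdim hmin s hs⟩
  obtain ⟨e, he⟩ := Cfsg.Agent.S0407.result (Fintype.card_fin 24)
    Cfsg.Agent.Leech.card_golayPt hB Cfsg.Agent.Golay.octads_isSteiner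
  refine ⟨e, ?_⟩
  let L : (Fin 24 → ZMod 2) ≃ₗ[ZMod 2] (Cfsg.GolayPt → ZMod 2) :=
    LinearEquiv.funCongrLeft (ZMod 2) (ZMod 2) e.symm
  have hle : C.map L.toLinearMap ≤ Cfsg.golayCode := by
    rw [← Cfsg.Agent.AbstractGolay.span_octads hdim hmin, Submodule.map_span, Submodule.span_le]
    rintro _ ⟨w, ⟨hw, h8⟩, rfl⟩
    have hb : Cfsg.support₂ w ∈ Cfsg.wordsOfWeight (C : Set (Fin 24 → ZMod 2)) 8 :=
      ⟨⟨w, hw, rfl⟩, h8⟩
    have ho : (Cfsg.support₂ w).image e ∈ Cfsg.octads := he ▸ Set.mem_image_of_mem _ hb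
    have hm := (Cfsg.Agent.Golay.mem_octads_iff.mp ho).1
    have heq : Cfsg.Agent.Golay.indWord ((Cfsg.support₂ w).image e) = L w := by
      apply Cfsg.Agent.Golay.support₂_injective
      rw [Cfsg.Agent.Golay.support₂_indWord]
      ext p
      simp [L, Cfsg.support₂, LinearMap.funLeft, ← Equiv.eq_symm_apply]
      constructor
      · intro h; exact Finset.mem_filter.mpr ⟨Finset.mem_univ _, h⟩
      · intro h; exact (Finset.mem_filter.mp h).2
    rw [heq] at hm
    exact hm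
  have heqc : C.map L.toLinearMap = Cfsg.golayCode := by
    refine Submodule.eq_of_le_of_finrank_eq hle ?_
    rw [Cfsg.Agent.Golay.finrank_golayCode, ← hdim]
    exact LinearEquiv.finrank_map_eq L C
  intro w
  rw [← heqc]
  constructor
  · rintro ⟨u, hu, rfl⟩
    have : (fun i => (L.toLinearMap u) (e i)) = u := by
      funext i; simp [L, LinearMap.funLeft]
    rw [this]; exact hu
  · intro hw
    exact ⟨_, hw, by funext p; simp [L, LinearMap.funLeft]⟩

end Cfsg.Agent.S0375
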