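import Cfsg.Statements.S2947
import Cfsg.Agent.Invol.StronglyEmbedded
import Cfsg.Agent.Cores.Basic
-- import your own Cfsg.Agent.* helpers here

set_option autoImplicit false
open Cfsg

namespace Cfsg.Agent.S2947

/-- Let G be a finite group of characteristic 2 type in which every 2-local subgroup is solvable and the centralizer of Ω₁(Z(S)) lies in N_G(S) for every Sylow 2-subgroup S; suppose O₂(G) = 1, fix a Sylow 2-subgroup S and a 2-local subgroup M containing N_G(J(S)) (J the Thompson subgroup generated by the elementary abelian 2-subgroups of largest order). Then M is strongly embedded in G (a proper subgroup of even order whose intersection with each conjugate by an element outside M has odd order) if and only if no nontrivial 2-subgroup of M lies in a 2-local subgroup of G not contained in M. -/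
theorem result {G : Type*} [Group G] [Finite G] (hL : Cfsg.IsCharacteristicTwoType G) (hN : ∀ N : Subgroup G, Cfsg.IsTwoLocal N → Group.IsSolvable ↥N)
    (hZ : ∀ S : Sylow 2 G, Subgroup.centralizer (Cfsg.omegaCenterOf (S : Subgroup G) : Set G) ≤ Subgroup.normalizer ((S : Subgroup G) : Set G)) (hO : Cfsg.pCore 2 G = ⊥) (S : Sylow 2 G) (M : Subgroup G) (hM : Cfsg.IsTwoLocal M)
    (hMJ : Subgroup.normalizer (Cfsg.thompsonSubgroupOf 2 (S : Subgroup G) : Set G) ≤ M) :
    Cfsg.IsStronglyEmbedded M ↔ Cfsg.straddlingTwoSubgroups M = ∅ := by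
  constructor
  · intro hSE
    refine Set.eq_empty_iff_forall_notMem.2 ?_
    rintro T ⟨hT2, hT1, hTM, L, hL2, hTL, hLM⟩
    obtain ⟨U, hU2, hU1, rfl⟩ := hL2
    apply hLM
    have hne_even : ∀ X : Subgroup G, IsPGroup 2 X → X ≠ ⊥ → Even (Nat.card X) := by
      intro X hX h1
      obtain ⟨n, hn⟩ := IsPGroup.iff_card.1 hX
      rw [hn]
      refine Nat.even_pow.2 ⟨even_two, fun h0 => h1 ?_⟩
      rw [h0, pow_zero] at hn
      exact Subgroup.card_eq_one.1 hn
    let P : Subgroup G := T ⊔ U
    have hP : IsPGroup 2 P := hT2.to_sup_of_normal_right' hU2 hTL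
    have hPM : P ≤ M := by
      have := hP.isNilpotent
      by_contra hcon
      have hne : M.subgroupOf P ≠ ⊤ := fun h => hcon (Subgroup.subgroupOf_eq_top.1 h)
      obtain ⟨x, hx, hxM⟩ := SetLike.exists_of_lt
        (Group.normalizerCondition_of_isNilpotent _ (lt_of_le_of_ne le_top hne))
      apply hxM
      rw [Subgroup.mem_subgroupOf]
      have hR : Even (Nat.card (P ⊓ M : Subgroup G)) := by
        refine hne_even _ (hP.to_le inf_le_left) fun h0 => hT1 (le_bot_iff.1 ?_)
        rw [← h0]
        exact le_inf le_sup_left hTM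
      refine Cfsg.Agent.Invol.IsStronglyEmbedded.normalizer_le hSE (X := P ⊓ M) inf_le_right hR ?_
      rw [Subgroup.mem_normalizer_iff]
      intro y
      constructor
      · intro hy
        have := (Subgroup.mem_normalizer_iff.1 hx ⟨y, hy.1⟩).1 (Subgroup.mem_subgroupOf.2 hy.2)
        exact ⟨P.mul_mem (P.mul_mem x.2 hy.1) (P.inv_mem x.2),
          by simpa [Subgroup.mem_subgroupOf] using this⟩
      · intro hy
        have hyP : y ∈ P := by
          have := P.mul_mem (P.mul_mem (P.inv_mem x.2) hy.1) x.2
          simpa [mul_assoc] using this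
        refine ⟨hyP, ?_⟩
        have := (Subgroup.mem_normalizer_iff.1 hx ⟨y, hyP⟩).2
          (by simpa [Subgroup.mem_subgroupOf] using hy.2)
        simpa [Subgroup.mem_subgroupOf] using this
    exact Cfsg.Agent.Invol.IsStronglyEmbedded.normalizer_le hSE (le_sup_right.trans hPM)
      (hne_even U hU2 hU1)
  · intro hemp
    obtain ⟨U, hU2, hU1, hMU⟩ := hM
    have hne : M ≠ ⊤ := by
      intro htop
      apply hU1
      have hn : U.Normal := Subgroup.normalizer_eq_top_iff.1 (hMU.symm.trans htop)
      have := Cfsg.Agent.Cores.le_pCore hn hU2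
      rw [hO] at this
      exact le_bot_iff.1 this
    obtain P : Sylow 2 ↥M := default
    have hPne : (P : Subgroup ↥M) ≠ ⊥ := by
      have hUM : U ≤ M := by rw [hMU]; exact Subgroup.le_normalizer
      refine P.ne_bot_of_dvd_card (dvd_trans ?_ (Subgroup.card_dvd_of_le hUM))
      obtain ⟨n, hn⟩ := IsPGroup.iff_card.1 hU2
      rw [hn]
      refine dvd_pow_self 2 fun h0 => hU1 ?_
      rw [h0, pow_zero] at hn
      exact Subgroup.card_eq_one.1 hn
    refine Cfsg.Agent.Invol.isStronglyEmbedded_of_normalizers hne P hPne fun X hX hX1 => ?_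
    by_contra hcon
    have hT : X.map M.subtype ∈ Cfsg.straddlingTwoSubgroups M := by
      refine ⟨(P.isPGroup'.to_le hX).map _, ?_, Subgroup.map_subtype_le _, _,
        ⟨X.map M.subtype, (P.isPGroup'.to_le hX).map _, ?_, rfl⟩, Subgroup.le_normalizer, hcon⟩
      all_goals exact fun h => hX1 ((Subgroup.map_eq_bot_iff_of_injective X M.subtype_injective).1 h)
    rw [hemp] at hT
    exact hT

end Cfsg.Agent.S2947
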