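import Cfsg.Statements.S5429
import Cfsg.Agent.LargeExtra.Image

set_option autoImplicit false
open Cfsg

namespace Cfsg.Agent.S5429

open Cfsg.Agent.LargeExtra
open scoped Pointwise

/-- Let z be an involution of the finite group G with centralizer C whose generalized Fitting subgroup Q is extraspecial of width at least 3 (order 2^(2w+1), w ≥ 3); let g be an element of G with g z g⁻¹ in Q but outside the centre Z of Q, and t an involution lying in both Q and g Q g⁻¹ that is not conjugate to z; write P for the centralizer of t in Q and suppose that the elements of C acting trivially by conjugation on P modulo the subgroup generated by t and z are exactly the elements of Q. Then the image of P in the centralizer of t modulo the subgroup generated by t is a large extraspecial 2-subgroup there, and g z g⁻¹ is conjugate to z inside the subgroup generated by P and the centralizer of t in g Q g⁻¹. -/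
theorem result {G : Type*} [Group G] [Finite G] (z : G) (hz : orderOf z = 2) (Q : Subgroup G) (hQC : Q ≤ Subgroup.centralizer ({z} : Set G)) (hF : (Cfsg.generalizedFittingSubgroup ↥(Subgroup.centralizer ({z} : Set G))).map (Subgroup.centralizer ({z} : Set G)).subtype = Q) (hQ : Cfsg.IsExtraspecial 2 ↥Q) (w : ℕ) (hw : 3 ≤ w) (hcard : Nat.card ↥Q = 2 ^ (2 * w + 1)) (g : G) (hgQ : g * z * g⁻¹ ∈ Q) (hgZ : g * z * g⁻¹ ∉ ((Subgroup.center ↥Q).map Q.subtype)) (t : G) (ht : orderOf t = 2) (htQ : t ∈ Q ⊓ (Q).map (MulAut.conj g).toMonoidHom) (htz : ¬ IsConj z t) (P : Subgroup G) (hP : P = Q ⊓ Subgroup.centralizer ({t} : Set G)) (hCP : ∀ c ∈ Subgroup.centralizer ({z} : Set G), (∀ x ∈ P, ∃ y ∈ Subgroup.closure ({t, z} : Set G), c * x * c⁻¹ = x * y) ↔ c ∈ Q) [hn : ((Subgroup.zpowers t).subgroupOf (Subgroup.centralizer ({t} : Set G))).Normal] : Cfsg.IsLargeExtraspecial ((P.subgroupOf (Subgroup.centralizer ({t} : Set G))).map (QuotientGroup.mk' ((Subgroup.zpowers t).subgroupOf (Subgroup.centralizer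 ({t} : Set G))))) ∧ ∃ x ∈ P ⊔ ((Q).map (MulAut.conj g).toMonoidHom ⊓ Subgroup.centralizer ({t} : Set G)), x * (g * z * g⁻¹) * x⁻¹ = z := by
  obtain ⟨h, hL2, hL3⟩ := centralInvolution_of_genFitting hz hF hQ
  have hL2' : Subgroup.centralizer (Q : Set G) = Subgroup.zpowers z :=
    le_antisymm hL2 (Subgroup.zpowers_le.2 fun q hq => h.comm q hq)
  rw [h.center_eq] at hgZ
  set b := g * z * g⁻¹ with hb
  have hbne : b ≠ z := fun e => hgZ (e ▸ Subgroup.mem_zpowers z)
  have h' := h.conj g
  rw [← hb] at h'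
  set Q' := Q.map (MulAut.conj g).toMonoidHom with hQ'
  have hzQ' : z ∈ Q' := mem_conj_of_conj_mem h hL2' hL3 (by omega) hcard hgQ hbne
  obtain ⟨htQ1, htQ'⟩ := htQ
  have ht1 : t ≠ 1 := fun e => by simp [e] at ht
  have ht2 : t * t = 1 := by rw [← pow_two, ← ht, pow_orderOf_eq_one]
  have htne : t ≠ z := fun e => htz (e ▸ IsConj.refl z)
  have htb : t ≠ b := fun e => htz (isConj_iff.2 ⟨g, e.symm⟩)
  have htzc : t * z = z * t := h.comm t htQ1
  have htbc : t * b = b * t := h'.comm t htQ'
  have hzb : z * b = b * z := (h.comm b hgQ).symm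
  set C := Subgroup.centralizer ({t} : Set G) with hC
  have hPC : P ≤ C := hP ▸ inf_le_right
  have hPQ : P ≤ Q := hP ▸ inf_le_left
  have memP : ∀ {x : G}, x ∈ Q → x * t = t * x → x ∈ P := fun hx hxt =>
    hP ▸ ⟨hx, Subgroup.mem_centralizer_singleton_iff.2 hxt⟩
  have hPt : ∀ {x : G}, x ∈ P → x * t = t * x := fun hx => Subgroup.mem_centralizer_singleton_iff.1 (hPC hx)
  -- conjugates of t
  have hnotconj : ¬ IsConj z (z * t) := by
    obtain ⟨q, hq, e⟩ := h.exists_swap htQ1 ht1 htne
    intro hc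
    exact htz (hc.trans (by rw [← htzc]; exact (isConj_iff.2 ⟨q, e⟩).symm))
  have hnotconj' : ¬ IsConj z (b * t) := by
    obtain ⟨q, hq, e⟩ := h'.exists_swap htQ' ht1 htb
    intro hc
    exact htz (hc.trans (by rw [← htbc]; exact (isConj_iff.2 ⟨q, e⟩).symm))
  have hzt : ∀ {u : G}, u ∈ Subgroup.zpowers t ↔ u = 1 ∨ u = t := by
    intro u
    constructor
    · rintro ⟨k, rfl⟩
      rcases Int.even_or_odd' k with ⟨m, rfl | rfl⟩
      · left
        simp [zpow_mul, pow_two, ht2]
      · right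
        simp [zpow_add, zpow_mul, pow_two, ht2]
    · rintro (rfl | rfl)
      · exact one_mem _
      · exact Subgroup.mem_zpowers _
  let π : ↥C →* ↥C ⧸ (Subgroup.zpowers t).subgroupOf C := QuotientGroup.mk' _
  have hπ : ∀ {u v : ↥C}, π u = π v ↔ (v : G) = u ∨ (v : G) = u * t := by
    intro u v
    rw [show (π u = π v) ↔ u⁻¹ * v ∈ (Subgroup.zpowers t).subgroupOf C from QuotientGroup.eq]
    rw [Subgroup.mem_subgroupOf, hzt, Subgroup.coe_mul, Subgroup.coe_inv, inv_mul_eq_one, inv_mul_eq_iff_eq_mul, eq_comm]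
  have hzP : z ∈ P := memP h.mem htzc.symm
  have hbP : b ∈ P := memP hgQ htbc.symm
  have htP : t ∈ P := memP htQ1 rfl
  let z₁ : ↥C := ⟨z, hPC hzP⟩
  let b₁ : ↥C := ⟨b, hPC hbP⟩
  -- elements of C commuting modulo t
  have hmod : ∀ {u : ↥C} {v : ↥C}, π u * π v = π v * π u →
      (u : G) * v * (u : G)⁻¹ = v ∨ (u : G) * v * (u : G)⁻¹ = v * t := by
    intro u v he
    rw [← map_mul, ← map_mul, hπ] at he
    have hvt : (v : G) * t = t * v := Subgroup.mem_centralizer_singleton_iff.1 v.2
    have hut : (u : G) * t = t * u := Subgroup.mem_centralizer_singleton_iff.1 u.2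
    simp only [Subgroup.coe_mul] at he
    rcases he with e | e
    · left
      rw [mul_inv_eq_iff_eq_mul, e]
    · right
      rw [mul_inv_eq_iff_eq_mul, mul_assoc (v : G) t u, ← hut, ← mul_assoc (v : G) u t, e,
        mul_assoc (u * v : G) t t, ht2, mul_one]
  have hbnc : b = 1 ∨ b = z ∨ b = t ∨ b = z * t → False := by
    rintro (e | e | e | e)
    · exact h'.ne_one e
    · exact hbne e
    · exact htb e.symm
    · exact hnotconj (e ▸ isConj_iff.2 ⟨g, hb.symm⟩)
  obtain ⟨q, hqP, hqb⟩ : ∃ q ∈ P, q * b * q⁻¹ = b * z := by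
    by_contra hcon
    push Not at hcon
    exact hbnc (h.of_commute_centralizer htQ1 ht1 htne hgQ fun p hp hpt =>
      mul_inv_eq_iff_eq_mul.1 ((h.conj_cases hp hgQ).resolve_right (hcon p (memP hp hpt))))
  obtain ⟨q', hq', hqz⟩ : ∃ q' ∈ Q' ⊓ C, q' * z * q'⁻¹ = z * b := by
    by_contra hcon
    push Not at hcon
    rcases h'.of_commute_centralizer htQ' ht1 htb hzQ' fun p hp hpt =>
      mul_inv_eq_iff_eq_mul.1 ((h'.conj_cases hp hzQ').resolve_right
        (hcon p ⟨hp, Subgroup.mem_centralizer_singleton_iff.2 hpt⟩)) with e | e | e | e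
    · exact h.ne_one e
    · exact hbne e.symm
    · exact htne e.symm
    · exact hnotconj' (e ▸ IsConj.refl z)
  have hci : CentralInvolution ((P.subgroupOf C).map π) (π z₁) := by
    refine centralInvolution_of ?_ ⟨z₁, hzP, rfl⟩ ?_ ?_ ?_ ?_ ?_ ?_ ?_
    · exact ((h.isPGroup.to_le hPQ).comap_subtype).map π
    · rw [← map_mul, show z₁ * z₁ = 1 from Subtype.ext h.sq, map_one]
    · intro e
      rw [← map_one π, hπ] at e
      rcases e with e | e
      · exact h.ne_one e.symm
      · have e' : (1 : G) = z * t := e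
        apply htne
        calc t = z * (z * t) := by rw [← mul_assoc, h.sq, one_mul]
          _ = z := by rw [← e', mul_one]
    · rintro _ ⟨x, hx, rfl⟩
      rw [← map_mul, ← map_mul, show x * z₁ = z₁ * x from Subtype.ext (h.comm x (hPQ hx))]
    · rintro _ ⟨x, hx, rfl⟩ hcomm
      rcases h.of_commute_centralizer htQ1 ht1 htne (hPQ hx) fun p hp hpt => (by
          refine mul_inv_eq_iff_eq_mul.1 ?_
          rcases hmod (hcomm _ ⟨⟨p, hPC (memP hp hpt)⟩, memP hp hpt, rfl⟩) with e | e
          · exact e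
          · rcases h.conj_cases hp (hPQ hx) with e' | e'
            · exact e'
            · exact absurd (mul_left_cancel (e.symm.trans e')) htne) with e | e | e | e
      · left
        rw [show x = 1 from Subtype.ext e, map_one]
      · right
        rw [show x = z₁ from Subtype.ext e]
      · left
        rw [← map_one π, hπ]
        exact Or.inr (show (1 : G) = (x : G) * t by rw [show (x : G) = t from e, ht2])
      · right
        rw [hπ]
        exact Or.inr (show z = (x : G) * t by rw [show (x : G) = z * t from e, mul_assoc, ht2, mul_one])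
    · rintro _ ⟨u, hu, rfl⟩ _ ⟨v, hv, rfl⟩
      rw [← map_inv, ← map_inv, ← map_mul, ← map_mul, ← map_mul]
      refine map_pair π ?_
      rcases h.comm_mem (hPQ hu) (hPQ hv) with e | e
      · exact Or.inl (Subtype.ext e)
      · exact Or.inr (Subtype.ext e)
    · rintro _ ⟨u, hu, rfl⟩
      rw [← map_mul]
      refine map_pair π ?_
      rcases h.sq_mem (hPQ hu) with e | e
      · exact Or.inl (Subtype.ext e)
      · exact Or.inr (Subtype.ext e)
    · refine ⟨π ⟨q, hPC hqP⟩, ⟨_, hqP, rfl⟩, π b₁, ⟨_, hbP, rfl⟩, fun e => ?_⟩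
      rcases hmod e with e' | e' <;> simp only [b₁, hqb] at e'
      · rw [mul_eq_left] at e'
        exact h.ne_one e'
      · exact htne (mul_left_cancel e').symm
  refine ⟨?_, (q * q')⁻¹, inv_mem (mul_mem (Subgroup.mem_sup_left hqP) (Subgroup.mem_sup_right hq')), ?_⟩
  swap
  · have hzz : q * z * q⁻¹ = z := by rw [h.comm q (hPQ hqP), mul_inv_cancel_right]
    have e : (q * q') * z * (q * q')⁻¹ = b := by
      calc (q * q') * z * (q * q')⁻¹ = q * (q' * z * q'⁻¹) * q⁻¹ := by group
        _ = (q * z * q⁻¹) * (q * b * q⁻¹) := by rw [hqz]; group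
        _ = z * b * z := by rw [hzz, hqb]; group
        _ = b := by rw [hzb, mul_assoc, h.sq, mul_one]
    rw [← e]
    group
  -- the centraliser of z in the quotient
  have hCz : ∀ {c : ↥C}, π c * π z₁ = π z₁ * π c → (c : G) * z = z * c := by
    intro c hc
    rcases hmod hc with e | e
    · exact mul_inv_eq_iff_eq_mul.1 e
    · exact absurd (isConj_iff.2 ⟨(c : G), e⟩) hnotconj
  have hCb : ∀ {c : ↥C}, π c * π b₁ = π b₁ * π c → (c : G) * b = b * c := by
    intro c hc
    rcases hmod hc with e | e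
    · exact mul_inv_eq_iff_eq_mul.1 e
    · exact absurd ((isConj_iff.2 ⟨g, hb.symm⟩ : IsConj z b).trans (isConj_iff.2 ⟨(c : G), e⟩)) hnotconj'
  refine isLarge_of hci ?_ ?_ (b := π b₁) ⟨b₁, hbP, rfl⟩ ?_ ?_ ?_
    (T := (Q'.subgroupOf C).map π) ((h'.isPGroup.comap_subtype).map π) ⟨z₁, hzQ', rfl⟩ ?_
  · intro y hy
    obtain ⟨c, rfl⟩ := QuotientGroup.mk'_surjective _ y
    have hcz : (c : G) * z = z * c := hCz (hy (π z₁) ⟨z₁, hzP, rfl⟩).symm
    have hcQ : (c : G) ∈ Q := by
      refine (hCP c (Subgroup.mem_centralizer_singleton_iff.2 hcz)).1 fun x hx => ?_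
      rcases hmod (u := c) (v := ⟨x, hPC hx⟩) (hy _ ⟨⟨x, hPC hx⟩, hx, rfl⟩).symm with e | e
      · exact ⟨1, one_mem _, by simpa using e⟩
      · exact ⟨t, Subgroup.subset_closure (Or.inl rfl), e⟩
    exact hci.mem_zpowers_iff.2 (hci.of_central _ ⟨c, memP hcQ (Subgroup.mem_centralizer_singleton_iff.1 c.2), rfl⟩
      fun w hw => hy w hw)
  · intro y hy
    obtain ⟨c, rfl⟩ := QuotientGroup.mk'_surjective _ y
    have hcN := hL3 (Subgroup.mem_centralizer_singleton_iff.2 (hCz (Subgroup.mem_centralizer_singleton_iff.1 hy)))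
    refine Subgroup.le_normalizer_map π ⟨c, Subgroup.mem_normalizer_iff.2 fun x => ?_, rfl⟩
    have n1 := Subgroup.mem_normalizer_iff.1 hcN (x : G)
    show (x : G) ∈ P ↔ (c : G) * x * (c : G)⁻¹ ∈ P
    rw [hP]
    exact ⟨fun hx => ⟨n1.1 hx.1, (c * x * c⁻¹).2⟩, fun hx => ⟨n1.2 hx.1, x.2⟩⟩
  · intro e
    rw [← map_one π, hπ] at e
    rcases e with e | e
    · exact h'.ne_one e.symm
    · have e' : (1 : G) = b * t := e
      apply htb
      calc t = b * (b * t) := by rw [← mul_assoc, h'.sq, one_mul]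
        _ = b := by rw [← e', mul_one]
  · intro e
    rw [hπ] at e
    rcases e with e | e
    · exact hbne e.symm
    · exact hnotconj' (show IsConj z (b * t) by rw [← show z = b * t from e])
  · rw [← map_mul, show b₁ * b₁ = 1 from Subtype.ext h'.sq, map_one]
  · intro y hy
    obtain ⟨c, rfl⟩ := QuotientGroup.mk'_surjective _ y
    have hcb := hCb (Subgroup.mem_centralizer_singleton_iff.1 hy)
    have hd : g⁻¹ * c * g ∈ Subgroup.centralizer ({z} : Set G) := by
      rw [Subgroup.mem_centralizer_singleton_iff]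
      calc g⁻¹ * c * g * z = g⁻¹ * (c * b) * g := by rw [hb]; group
        _ = z * (g⁻¹ * c * g) := by rw [hcb, hb]; group
    have hn := Subgroup.le_normalizer_map (H := Q) (MulAut.conj g).toMonoidHom ⟨_, hL3 hd, rfl⟩
    rw [show (MulAut.conj g).toMonoidHom (g⁻¹ * (c : G) * g) = c by simp [mul_assoc]] at hn
    refine Subgroup.le_normalizer_map π ⟨c, Subgroup.mem_normalizer_iff.2 fun x => ?_, rfl⟩
    exact Subgroup.mem_normalizer_iff.1 hn (x : G)

end Cfsg.Agent.S5429
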