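import Cfsg.Statements.S5392
import Cfsg.Agent.Monster.Stabiliser
import Cfsg.Agent.Monster.LeechSigns
import Cfsg.Agent.Leech.CrossStab

set_option autoImplicit false
open Cfsg

namespace Cfsg.Agent.S5392

open Cfsg.Agent.Leech Cfsg.Agent.Monster

theorem exists_smul_same {n : ℤ} (hn : n = 32 ∨ n = 48 ∨ n = 64) {x y : leechLattice} (hx : sqNorm x.1 = n)
    (hy : sqNorm y.1 = n) : ∃ g : Co0, g • x = y := by
  rcases hn with rfl | rfl | rfl
  · exact exists_smul_eq_of_conj (conj32 x.2 hx) (conj32 y.2 hy)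
  · exact exists_smul_eq_of_conj (conj48 x.2 hx) (conj48 y.2 hy)
  · exact exists_smul_eq_of_conj (conj64 x.2 hx) (conj64 y.2 hy)

theorem smul_short {g : Co0} (hg : ∀ v : leechLattice, Cong (g • v).1 v.1) {x : leechLattice}
    (hx : sqNorm x.1 = 32) : g • x = x ∨ g • x = -x := by
  by_cases e : g • x = x
  · exact Or.inl e
  · have hN : sqNorm (g • x).1 = 32 := (g.2.2 x).trans hx
    rcases short_congr (g • x).2 (v := x.1) (by omega) (by omega) (hg x).symm
      (fun e' => e (Subtype.ext e'.symm)) with e' | ⟨h1, -, -⟩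
    · exact Or.inr (Subtype.ext (by rw [AddSubgroup.coe_neg, e', neg_neg]))
    · omega

theorem mem_pair_of_fix {g : Co0} {σ : Equiv.Perm GolayPt} {c : Finset GolayPt}
    (he : ∀ x : leechLattice, (g • x).1 = flipOn c (x.1 ∘ σ))
    (hg : ∀ v : leechLattice, Cong (g • v).1 v.1) {p q : GolayPt} (hpq : p ≠ q) :
    (∀ r, σ r ∈ ({p, q} : Finset GolayPt) → r ∈ ({p, q} : Finset GolayPt)) ∧
      (σ = 1 → (p ∈ c ↔ q ∈ c)) := by
  have hsum : (2 : ℤ) ∣ ∑ r, (if r ∈ ({p, q} : Finset GolayPt) then (1 : ℤ) else 0) := by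
    rw [Finset.sum_boole, Finset.filter_univ_mem, Finset.card_pair hpq]
    norm_num
  set x := wVec _ hsum with hxdef
  have hval : ∀ r, x.1 r = if r ∈ ({p, q} : Finset GolayPt) then 4 else 0 := by
    intro r
    simp only [hxdef, wVec, Pi.smul_apply, smul_eq_mul]
    split <;> simp
  have hN : sqNorm x.1 = 32 := by
    have e : ∀ r, x.1 r ^ 2 = if r ∈ ({p, q} : Finset GolayPt) then 16 else 0 := by
      intro r; rw [hval]; split <;> norm_num
    simp only [sqNorm, e]
    rw [Finset.sum_ite_mem, Finset.univ_inter, Finset.sum_const, Finset.card_pair hpq]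
    norm_num
  have hsgn := smul_short hg hN
  constructor
  · intro r hr
    by_contra hne
    have h1 := congrFun (he x) r
    simp only [flipOn, Function.comp_apply, hval, if_pos hr] at h1
    have h2 : (g • x).1 r = 0 := by
      rcases hsgn with e | e <;> simp [e, hval, hne]
    rw [h2] at h1
    split_ifs at h1 <;> omega
  · intro hσ
    have h1 := congrFun (he x) p
    have h2 := congrFun (he x) q
    simp only [flipOn, Function.comp_apply, hσ, Equiv.Perm.coe_one, id_eq] at h1 h2
    rcases hsgn with e | e <;> rw [e] at h1 h2 <;>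
      by_cases a : p ∈ c <;> by_cases b : q ∈ c <;> simp [hval, a, b] at h1 h2 ⊢

theorem faithful {g : Co0} (hg : ∀ v : leechLattice, Cong (g • v).1 v.1) : g ∈ Subgroup.center Co0 := by
  obtain ⟨σ, -, c, -, he⟩ := exists_monomial g (crossStab_line (g := g) (hg _))
  have h3 : ∀ p : GolayPt, ∃ q r : GolayPt, q ≠ p ∧ r ≠ p ∧ q ≠ r := by decide
  have hσ : σ = 1 := by
    refine Equiv.ext fun r => ?_
    by_contra hne
    obtain ⟨q, hq, hq'⟩ : ∃ q, q ≠ σ r ∧ q ≠ r := by
      obtain ⟨q, t, h1, h2, h3⟩ := h3 (σ r)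
      by_cases e : q = r
      · exact ⟨t, h2, fun e' => h3 (e.trans e'.symm)⟩
      · exact ⟨q, h1, e⟩
    have := (mem_pair_of_fix he hg hq.symm).1 r (by simp)
    simp only [Finset.mem_insert, Finset.mem_singleton] at this
    rcases this with h | h
    · exact hne h.symm
    · exact hq' h.symm
  have hall : ∀ p q, p ∈ c → q ∈ c := by
    intro p q hp
    by_cases e : p = q
    · exact e ▸ hp
    · exact ((mem_pair_of_fix he hg e).2 hσ).1 hp
  rw [center_eq]
  by_cases h : (none : GolayPt) ∈ c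
  · refine Or.inr (co0_ext fun x => ?_)
    rw [he, negCo0_smul, AddSubgroup.coe_neg]
    funext p
    simp [flipOn, hσ, hall none p h]
  · refine Or.inl (co0_ext fun x => ?_)
    rw [he, one_smul]
    funext p
    have hp : p ∉ c := fun hp => h (hall p none hp)
    simp [flipOn, hσ, hp]

/-- Four points. -/
abbrev setA : Finset GolayPt := {none, some 0, some 1, some 2}

/-- Four points. -/
abbrev setB : Finset GolayPt := {some 0, some 1, some 2, some 3}

theorem sumA : (2 : ℤ) ∣ ∑ r, (if r ∈ setA then (1 : ℤ) else 0) := by decide +kernel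

theorem sumB : (2 : ℤ) ∣ ∑ r, (if r ∈ setB then (1 : ℤ) else 0) := by decide +kernel

/-- A four-point vector. -/
noncomputable def vecA : leechLattice := wVec _ sumA

/-- A four-point vector. -/
noncomputable def vecB : leechLattice := wVec _ sumB

theorem norms : sqNorm vecA.1 = 64 ∧ sqNorm vecB.1 = 64 ∧ sqNorm (vecA.1 - vecB.1) = 32 := by
  unfold vecA vecB wVec
  decide +kernel

theorem norms' : sqNorm Spor.vecV = 48 ∧ sqNorm (Spor.vecV + Spor.vecU') = 48 ∧ sqNorm Spor.vecU' = 32 := by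
  decide +kernel

theorem irreducible (M : AddSubgroup (GolayPt → ℤ)) (h2 : ∀ v ∈ leechLattice, (2 : ℤ) • v ∈ M)
    (hle : M ≤ leechLattice) (hinv : ∀ g : Co0, ∀ v : leechLattice, v.1 ∈ M → (g • v).1 ∈ M)
    {v : leechLattice} (hv : v.1 ∈ M) (hv2 : ¬ ∃ w ∈ leechLattice, v.1 = (2 : ℤ) • w) :
    M = leechLattice := by
  obtain ⟨w, hw, hc⟩ := exists_short_rep v
  obtain ⟨t, ht, et⟩ := hc
  have hwM : w.1 ∈ M := by
    have : w.1 = v.1 - 2 • t := by rw [← et]; abel
    rw [this]
    refine sub_mem hv ?_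
    have := h2 t ht
    rwa [show (2 : ℤ) • t = 2 • t from by rw [← natCast_zsmul]; rfl] at this
  have shellM : ∀ {n : ℤ}, (n = 32 ∨ n = 48 ∨ n = 64) → ∀ {x : leechLattice}, sqNorm x.1 = n → x.1 ∈ M →
      ∀ y : leechLattice, sqNorm y.1 = n → y.1 ∈ M := by
    intro n hn x hx hxM y hy
    obtain ⟨g, rfl⟩ := exists_smul_same hn hx hy
    exact hinv g x hxM
  have h32 : ∃ x : leechLattice, sqNorm x.1 = 32 ∧ x.1 ∈ M := by
    simp only [Set.mem_insert_iff, Set.mem_singleton_iff] at hw
    rcases hw with hw | hw | hw | hw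
    · refine absurd ?_ hv2
      have h0 : w.1 = 0 := by
        by_contra hne
        have := sqNorm_ge w.2 hne
        omega
      refine ⟨t, ht, ?_⟩
      rw [h0, sub_zero] at et
      rw [et, ← natCast_zsmul]; rfl
    · exact ⟨w, hw, hwM⟩
    · obtain ⟨a, b, c⟩ := norms'
      have ha := shellM (Or.inr (Or.inl rfl)) hw hwM Spor.leechV a
      have hb := shellM (Or.inr (Or.inl rfl)) hw hwM (Spor.leechV + Spor.leechU') b
      refine ⟨Spor.leechU', c, ?_⟩
      have := sub_mem hb ha
      rwa [AddSubgroup.coe_add, add_sub_cancel_left] at this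
    · obtain ⟨a, b, c⟩ := norms
      have ha := shellM (Or.inr (Or.inr rfl)) hw hwM vecA a
      have hb := shellM (Or.inr (Or.inr rfl)) hw hwM vecB b
      exact ⟨vecA - vecB, c, sub_mem ha hb⟩
  obtain ⟨x, hx, hxM⟩ := h32
  refine le_antisymm hle ?_
  rw [← closure_minimal, AddSubgroup.closure_le]
  rintro y ⟨hy, hyN⟩
  exact shellM (Or.inl rfl) hx hxM ⟨y, hy⟩ hyN

/-- The Leech lattice modulo twice itself is a faithful irreducible module for the first Conway group: an automorphism of the rank-24 lattice built from the length-24 code that moves every lattice vector only by twice a lattice vector lies in the centre of the automorphism group (the centre consists of ±1, which act trivially there, so the kernel is exactly the centre), and an additive subgroup lying between twice the lattice and the lattice that is invariant under all lattice automorphisms is one of the two. -/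
theorem result : (∀ g : ↥Cfsg.Co0, (∀ v : ↥Cfsg.leechLattice, ∃ w : ↥Cfsg.leechLattice, ((g • v : ↥Cfsg.leechLattice) : Cfsg.GolayPt → ℤ) - (v : Cfsg.GolayPt → ℤ) = 2 • (w : Cfsg.GolayPt → ℤ)) → g ∈ Subgroup.center ↥Cfsg.Co0) ∧ ∀ M : AddSubgroup (Cfsg.GolayPt → ℤ), (∀ v ∈ Cfsg.leechLattice, (2 : ℤ) • v ∈ M) → M ≤ Cfsg.leechLattice → (∀ g : ↥Cfsg.Co0, ∀ v : ↥Cfsg.leechLattice, (v : Cfsg.GolayPt → ℤ) ∈ M → ((g • v : ↥Cfsg.leechLattice) : Cfsg.GolayPt → ℤ) ∈ M) → (∀ x ∈ M, ∃ w ∈ Cfsg.leechLattice, x = (2 : ℤ) • w) ∨ M = Cfsg.leechLattice := by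
  refine ⟨fun g hg => faithful fun v => ?_, fun M h2 hle hinv => ?_⟩
  · obtain ⟨w, hw⟩ := hg v
    exact ⟨w, w.2, hw⟩
  · by_cases h : ∀ x ∈ M, ∃ w ∈ leechLattice, x = (2 : ℤ) • w
    · exact Or.inl h
    · push Not at h
      obtain ⟨x, hx, hx2⟩ := h
      exact Or.inr (irreducible M h2 hle hinv (v := ⟨x, hle hx⟩) hx fun ⟨w, hw, e⟩ => hx2 w hw e)

end Cfsg.Agent.S5392
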