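import Cfsg.Statements.S2725
import Cfsg.Agent.Classical.SimPlus

set_option autoImplicit false
set_option maxHeartbeats 4000000
open Cfsg

namespace Cfsg.Agent.S2725

/-- Let T = PΩ⁺_{2m}(F) with m ≥ 4 and |F| = q odd. The inner-diagonal group G = Inndiag(T) (image of the class-preserving similarities) taken modulo the inner automorphism group T is cyclic of order 2 when m is odd and q ≡ 3 (mod 4), cyclic of order 4 when m is odd and q ≡ 1 (mod 4), and elementary abelian of order 4 when m is even. -/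
theorem result {F : Type*} [Field F] [Fintype F] (hodd : Odd (Fintype.card F)) {m : ℕ} (hm : 4 ≤ m) :
    ((Odd m ∧ Fintype.card F % 4 = 3) → (∃ φ : ↥(Cfsg.inndiagPOmegaPlus m F) →* Multiplicative (ZMod 2), Function.Surjective φ ∧ φ.ker = (Cfsg.Inn (Cfsg.POmega F (Cfsg.quadFormPlus m F))).subgroupOf (Cfsg.inndiagPOmegaPlus m F))) ∧ ((Odd m ∧ Fintype.card F % 4 = 1) → (∃ φ : ↥(Cfsg.inndiagPOmegaPlus m F) →* Multiplicative (ZMod 4), Function.Surjective φ ∧ φ.ker = (Cfsg.Inn (Cfsg.POmega F (Cfsg.quadFormPlus m F))).subgroupOf (Cfsg.inndiagPOmegaPlus m F))) ∧ (Even m → (∃ φ : ↥(Cfsg.inndiagPOmegaPlus m F) →* Multiplicative (ZMod 2 × ZMod 2), Function.Surjective φ ∧ φ.ker = (Cfsg.Inn (Cfsg.POmega F (Cfsg.quadFormPlus m F))).subgroupOf (Cfsg.inndiagPOmegaPlus m F))) := by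
  obtain ⟨k, rfl⟩ : ∃ k, m = k + 3 := ⟨m - 3, by omega⟩
  have hodd' : Odd (Nat.card F) := by rwa [Nat.card_eq_fintype_card]
  obtain ⟨S⟩ := Cfsg.Agent.Classical.nonempty_genSim_plus (F := F) k hodd'
  have hn := Cfsg.Agent.Classical.card_plus k
  have hθ := Cfsg.Agent.Classical.theta_negI_plus (F := F) k hodd'
  rw [Nat.card_eq_fintype_card] at hθ
  set D := Cfsg.Agent.Classical.plusCoord (F := F) k
  rw [Cfsg.Agent.Classical.inndiag_plus_eq k hodd']
  refine ⟨fun h => D.inndiag_mod_inn_two hodd' hn (by rw [hθ, if_pos h]) S.hs1 S.hs2, fun h =>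
    (D.inndiag_mod_inn_four hodd' hn (by rw [hθ, if_neg (fun h' => by omega)]) S).1 h.1, fun h =>
    (D.inndiag_mod_inn_four hodd' hn
      (by rw [hθ, if_neg (fun h' => (Nat.not_odd_iff_even.2 h) h'.1)]) S).2 h⟩


end Cfsg.Agent.S2725
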