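import Cfsg.Statements.S0080
import Mathlib.GroupTheory.Focal
-- import your own Cfsg.Agent.* helpers here

set_option autoImplicit false
open Cfsg

namespace Cfsg.Agent.S0080

/-- When the index of H is prime to the order of H/H', the focal subgroup of H is G' ∩ H, and H/(G' ∩ H) has a normal complement. -/
theorem result {G : Type*} [Group G] [Finite G] (H : Subgroup G) (h : Nat.Coprime H.index (⁅H, H⁆.relIndex H)) : Subgroup.focalSubgroup H = commutator G ⊓ H ∧ ∃ N : Subgroup G, N.Normal ∧ N ⊓ H = commutator G ⊓ H ∧ N ⊔ H = ⊤ := by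
  have hidx : (Subgroup.focalSubgroupOf H).index ∣ ⁅H, H⁆.relIndex H :=
    Subgroup.index_dvd_of_le (fun x hx => Subgroup.commutator_le_focalSubgroup H hx)
  have hcop : H.index.Coprime (Nat.card (H ⧸ Subgroup.focalSubgroupOf H)) :=
    h.coprime_dvd_right hidx
  have hbij : ∀ x : H ⧸ Subgroup.focalSubgroupOf H, x ^ H.index = 1 → x = 1 := fun x hx =>
    orderOf_eq_one_iff.mp (Nat.eq_one_of_dvd_coprimes hcop
      (orderOf_dvd_of_pow_eq_one hx) (orderOf_dvd_natCard x))
  have hker : H.transferFocal.ker ⊓ H = H.focalSubgroup := by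
    refine le_antisymm (fun x hx => ?_) (le_inf ((Subgroup.focalSubgroup_le_commutator H).trans ?_)
      H.focalSubgroup_le)
    · obtain ⟨hxk, hxH⟩ := Subgroup.mem_inf.mp hx
      have h1 := H.transferFocal_eq_pow ⟨x, hxH⟩
      rw [MonoidHom.mem_ker.mp hxk] at h1
      show (⟨x, hxH⟩ : H) ∈ Subgroup.focalSubgroupOf H
      exact (QuotientGroup.eq_one_iff (N := Subgroup.focalSubgroupOf H) _).mp (hbij _ h1.symm)
    · open scoped IsMulCommutative in
        exact Abelianization.commutator_subset_ker H.transferFocal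
  have hfoc : Subgroup.focalSubgroup H = commutator G ⊓ H := by
    refine le_antisymm (le_inf (Subgroup.focalSubgroup_le_commutator H) H.focalSubgroup_le) ?_
    rw [← hker]
    refine inf_le_inf_right _ ?_
    open scoped IsMulCommutative in
      exact Abelianization.commutator_subset_ker H.transferFocal
  refine ⟨hfoc, H.transferFocal.ker, inferInstance, hker.trans hfoc, eq_top_iff.mpr fun g _ => ?_⟩
  obtain ⟨m, hm⟩ := exists_pow_eq_self_of_coprime
    (hcop.coprime_dvd_right (orderOf_dvd_natCard (H.transferFocal g)))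
  obtain ⟨z, hz⟩ := QuotientGroup.mk_surjective (H.transferFocal g ^ m)
  have h1 : H.transferFocal (z : G) = H.transferFocal g := by
    rw [H.transferFocal_eq_pow, hz, pow_right_comm]
    exact hm
  have h2 : g * (z : G)⁻¹ ∈ H.transferFocal.ker := by
    rw [MonoidHom.mem_ker, map_mul, map_inv, h1, mul_inv_cancel]
  have := mul_mem (Subgroup.mem_sup_left (T := H) h2) (Subgroup.mem_sup_right z.2)
  rwa [inv_mul_cancel_right] at this

end Cfsg.Agent.S0080
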