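import Cfsg.Statements.S0710
import Cfsg.Agent.PermP.Semiregular
import Mathlib

set_option autoImplicit false
open Cfsg

namespace Cfsg.Agent.S0710

/-- No transitive permutation group on 13 points has order `13 * 12 * 11 * 10 * 9 * 8`. -/
theorem result {α : Type*} [Fintype α] [DecidableEq α] (hα : Fintype.card α = 13) (G : Subgroup (Equiv.Perm α)) [MulAction.IsPretransitive G α] : Nat.card G ≠ 13 * 12 * 11 * 10 * 9 * 8 := by
  intro hcard
  haveI : Fact (Nat.Prime 13) := ⟨by norm_num⟩
  obtain ⟨Q⟩ := (inferInstance : Nonempty (Sylow 13 G))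
  have hQc : Nat.card (Q : Subgroup G) = 13 := by
    rw [Q.card_eq_multiplicity, hcard]
    have h : (13 * 12 * 11 * 10 * 9 * 8).factorization 13 = 1 := by
      rw [show (13 * 12 * 11 * 10 * 9 * 8 : ℕ) = 13 * 95040 by norm_num,
        Nat.factorization_mul (by norm_num) (by norm_num), Finsupp.add_apply,
        Nat.Prime.factorization_self (by norm_num), Nat.factorization_eq_zero_of_not_dvd (by norm_num)]
    rw [h, pow_one]
  obtain ⟨x, hx⟩ := exists_prime_orderOf_dvd_card' (G := (Q : Subgroup G)) 13 (dvd_of_eq hQc.symm)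
  set g : Equiv.Perm α := ((x : G) : Equiv.Perm α) with hgdef
  have hg : orderOf g = 13 := by rw [hgdef, Subgroup.orderOf_coe, Subgroup.orderOf_coe, hx]
  have hcyc : g.IsCycle := Equiv.Perm.isCycle_of_prime_order' (by rw [hg]; norm_num) (by omega)
  have hsupp : g.support = Finset.univ := Finset.eq_univ_of_card _ (by rw [← hcyc.orderOf, hg, hα])
  have htr : MulAction.IsPretransitive ((Q : Subgroup G)) α := by
    constructor
    intro a b
    obtain ⟨i, hi⟩ := hcyc.sameCycle
      (Equiv.Perm.mem_support.1 (hsupp ▸ Finset.mem_univ a))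
      (Equiv.Perm.mem_support.1 (hsupp ▸ Finset.mem_univ b))
    refine ⟨x ^ i, ?_⟩
    show (((x ^ i : (Q : Subgroup G)) : G) : Equiv.Perm α) a = b
    rw [Subgroup.coe_zpow, Subgroup.coe_zpow]
    exact hi
  have hcomm : ∀ m ∈ (Q : Subgroup G), ∀ n ∈ (Q : Subgroup G), m * n = n * m := by
    have : IsCyclic (Q : Subgroup G) := isCyclic_of_prime_card hQc
    intro m hm n hn
    exact congrArg Subtype.val (mul_comm' (⟨m, hm⟩ : (Q : Subgroup G)) ⟨n, hn⟩)
  obtain ⟨a⟩ : Nonempty α := Fintype.card_pos_iff.1 (by omega)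
  have hC := PermP.eq_map_of_centralizes (G := G) hcomm a
  set φ := Subgroup.normalizerMonoidHom (Q : Subgroup G) with hφ
  have hker : Nat.card φ.ker ∣ 13 := by
    refine dvd_trans ?_ (dvd_of_eq hQc)
    rw [← Subgroup.card_map_of_injective
      (f := (Subgroup.normalizer ((Q : Subgroup G) : Set G)).subtype) (Subgroup.subtype_injective _)]
    apply Subgroup.card_dvd_of_le
    rintro _ ⟨n, hn, rfl⟩
    rw [hφ, Subgroup.normalizerMonoidHom_ker] at hn
    have h1 : ((n : G) : Equiv.Perm α) ∈
        Subgroup.centralizer (((Q : Subgroup G).map G.subtype : Subgroup (Equiv.Perm α)) :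
          Set (Equiv.Perm α)) := by
      rw [PermP.mem_centralizer_map_subtype]
      intro m hm
      exact congrArg Subtype.val (Subgroup.mem_centralizer_iff.1 (Subgroup.mem_subgroupOf.1 hn) m hm)
    rw [hC] at h1
    obtain ⟨m, hm, hmn⟩ := h1
    show (n : G) ∈ (Q : Subgroup G)
    rwa [← Subtype.ext hmn]
  have hran : Nat.card φ.range ∣ 12 := by
    have : IsCyclic (Q : Subgroup G) := isCyclic_of_prime_card hQc
    have h := Subgroup.card_subgroup_dvd_card φ.range
    rw [IsCyclic.card_mulAut, hQc] at h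
    rwa [Nat.totient_prime (by norm_num)] at h
  have hN : Nat.card (Subgroup.normalizer ((Q : Subgroup G) : Set G)) ∣ 13 * 12 := by
    rw [Subgroup.card_eq_card_quotient_mul_card_subgroup φ.ker,
      Nat.card_congr (QuotientGroup.quotientKerEquivRange φ).toEquiv, mul_comm 13]
    exact Nat.mul_dvd_mul hran hker
  have hQN : (Q : Subgroup G) ≤ Subgroup.normalizer ((Q : Subgroup G) : Set G) := Subgroup.le_normalizer
  have hN' : 13 ∣ Nat.card (Subgroup.normalizer ((Q : Subgroup G) : Set G)) :=
    (dvd_of_eq hQc.symm).trans (Subgroup.card_dvd_of_le hQN)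
  obtain ⟨d, hd⟩ := hN'
  have hd12 : d ∣ 12 := Nat.dvd_of_mul_dvd_mul_left (by norm_num) (hd ▸ hN)
  have hmul := Subgroup.card_mul_index (Subgroup.normalizer ((Q : Subgroup G) : Set G))
  have hQn : Nat.card (Sylow 13 G) = (Subgroup.normalizer ((Q : Subgroup G) : Set G)).index :=
    Q.card_eq_index_normalizer
  rw [hcard, hd, ← hQn] at hmul
  have hmod : Nat.card (Sylow 13 G) % 13 = 1 := card_sylow_modEq_one 13 G
  generalize Nat.card (Sylow 13 G) = n at hmul hmod
  have hd' : d * n = 95040 := by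
    have h3 : 13 * (d * n) = 13 * 95040 := by rw [← mul_assoc, hmul]
    exact Nat.eq_of_mul_eq_mul_left (by norm_num) h3
  have hd0 : d ≤ 12 := Nat.le_of_dvd (by norm_num) hd12
  interval_cases d <;> omega

end Cfsg.Agent.S0710
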