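import Cfsg.Statements.S0743

import Cfsg.Agent.PermB.Basic
import Mathlib.GroupTheory.PGroup

set_option autoImplicit false
open Cfsg

namespace Cfsg.Agent.S0743

/-- Gleason's Lemma: let `p` be a prime and `1 ≤ k < n`; if every `k`-subset of the `n` points is exactly the fixed-point set of some `p`-subgroup of `G`, then `G` is `k`-transitive. -/
theorem result {α : Type*} [Fintype α] [DecidableEq α] (G : Subgroup (Equiv.Perm α)) {p k : ℕ} (hp : p.Prime) (hk : 1 ≤ k) (hkn : k < Fintype.card α) (h : ∀ s : Finset α, s.card = k → ∃ P : Subgroup G, IsPGroup p P ∧ MulAction.fixedPoints P α = (s : Set α)) : MulAction.IsMultiplyPretransitive G α k := by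
  classical
  refine PermB.isMultiplyPretransitive_of_fix fun T hT x y hx hy => ?_
  by_contra hne
  push Not at hne
  have hxy : x ≠ y := fun e => hne 1 (fun t _ => one_smul _ t) (by rw [one_smul, e])
  obtain ⟨T', hTT', hT'sub, hT'card⟩ := Finset.exists_subsuperset_card_eq (s := T)
    (t := Finset.univ \ {x, y}) (n := k - 1)
    (by intro t ht; simp only [Finset.mem_sdiff, Finset.mem_univ, Finset.mem_insert,
          Finset.mem_singleton, true_and, not_or]
        exact ⟨fun e => hx (e ▸ ht), fun e => hy (e ▸ ht)⟩)
    (by omega)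
    (by rw [Finset.card_univ_diff, Finset.card_pair hxy]; omega)
  have hxT' : x ∉ T' := fun h' => by simpa using hT'sub h'
  have hyT' : y ∉ T' := fun h' => by simpa using hT'sub h'
  let F : Subgroup G := fixingSubgroup G (T' : Set α)
  let O : Finset α := Finset.univ.filter fun c => c ∈ MulAction.orbit F x
  have hxO : x ∈ O := by simp [O]
  have hyO : y ∉ O := by
    simp only [O, Finset.mem_filter, Finset.mem_univ, true_and]
    rintro ⟨g, hg⟩
    exact hne g (fun t ht => (mem_fixingSubgroup_iff G).1 g.2 t (hTT' ht)) hg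
  have key : ∀ z : α, z ∉ T' → p ∣ (O.erase z).card := by
    intro z hz
    obtain ⟨P, hP, hfix⟩ := h (insert z T') (by rw [Finset.card_insert_of_notMem hz]; omega)
    have hmem : ∀ c, c ∈ MulAction.fixedPoints P α ↔ c = z ∨ c ∈ T' := fun c => by
      rw [hfix]; simp
    refine PermB.dvd_card_of_orbits (G := P) _ ?_ ?_
    · intro g c hc
      rw [Finset.mem_erase] at hc ⊢
      refine ⟨fun e => hc.1 ?_, ?_⟩
      · have hgz : g • z = z := (hmem z).2 (Or.inl rfl) g
        exact MulAction.injective g (e.trans hgz.symm)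
      · have hgF : (g : G) ∈ F := (mem_fixingSubgroup_iff G).2 fun t ht =>
          (hmem t).2 (Or.inr ht) g
        simp only [O, Finset.mem_filter, Finset.mem_univ, true_and] at hc ⊢
        obtain ⟨a, ha⟩ := hc.2
        exact ⟨⟨g, hgF⟩ * a, by simp only at ha ⊢; rw [mul_smul, ha]; rfl⟩
    · intro c hc
      rw [Finset.mem_erase] at hc
      haveI : Fact p.Prime := ⟨hp⟩
      obtain ⟨n, hn⟩ := hP.card_orbit c
      rcases n with _ | n
      · exfalso
        have hsub : (MulAction.orbit P c).Subsingleton := by
          rw [← Set.ncard_le_one_iff_subsingleton, ← Nat.card_coe_set_eq, hn]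
          simp
        have hcf : c ∈ MulAction.fixedPoints P α := fun g =>
          hsub (MulAction.mem_orbit c g) (MulAction.mem_orbit_self c)
        rcases (hmem c).1 hcf with e | e
        · exact hc.1 e
        · simp only [O, Finset.mem_filter, Finset.mem_univ, true_and] at hc
          obtain ⟨a, ha⟩ := hc.2
          have h1 : a • c = c := (mem_fixingSubgroup_iff G).1 a.2 c e
          exact hxT' (by rw [MulAction.injective a (ha.trans h1.symm)]; exact e)
      · rw [hn]; exact dvd_pow_self _ (Nat.succ_ne_zero _)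
  have h1 := key x hxT'
  have h2 := key y hyT'
  rw [Finset.erase_eq_of_notMem hyO] at h2
  rw [Finset.card_erase_of_mem hxO] at h1
  have h3 := Finset.card_pos.2 ⟨x, hxO⟩
  have : p ∣ 1 := by simpa [Nat.sub_sub_self h3] using Nat.dvd_sub h2 h1
  exact hp.ne_one (Nat.dvd_one.1 this)

end Cfsg.Agent.S0743
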