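import Cfsg.Statements.S0735

import Cfsg.Agent.PermB.Basic
import Mathlib.GroupTheory.Perm.Cycle.Type

set_option autoImplicit false
open Cfsg
open scoped Pointwise

namespace Cfsg.Agent.S0735

/-- A 2-homogeneous permutation group (transitive on 2-subsets) of even order is doubly transitive; a non-trivial 2-homogeneous group is primitive. -/
theorem result {α : Type*} [Fintype α] [DecidableEq α] (G : Subgroup (Equiv.Perm α)) (h2 : MulAction.IsPretransitive G (Set.powersetCard α 2)) (hα : 3 ≤ Fintype.card α) : (Even (Nat.card G) → MulAction.IsMultiplyPretransitive G α 2) ∧ (G ≠ ⊥ → MulAction.IsPreprimitive G α) := by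
  classical
  have hswap : ∀ (g : G) {a b : α}, ∀ s t : α, ({a, b} : Finset α).image (g • ·) = {s, t} →
      a ≠ b → (g • a = s ∧ g • b = t) ∨ (g • a = t ∧ g • b = s) := by
    intro g a b s t h hab
    rw [Finset.image_insert, Finset.image_singleton] at h
    have ha : g • a ∈ ({s, t} : Finset α) := h ▸ Finset.mem_insert_self _ _
    have hb : g • b ∈ ({s, t} : Finset α) := h ▸ Finset.mem_insert_of_mem (Finset.mem_singleton_self _)
    have hne : g • a ≠ g • b := fun e => hab (MulAction.injective g e)
    simp only [Finset.mem_insert, Finset.mem_singleton] at ha hb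
    rcases ha with ha | ha <;> rcases hb with hb | hb
    · exact absurd (ha.trans hb.symm) hne
    · exact Or.inl ⟨ha, hb⟩
    · exact Or.inr ⟨ha, hb⟩
    · exact absurd (ha.trans hb.symm) hne
  have hmap : ∀ {a b c d : α}, a ≠ b → c ≠ d →
      ∃ g : G, (g • a = c ∧ g • b = d) ∨ (g • a = d ∧ g • b = c) := by
    intro a b c d hab hcd
    obtain ⟨g, hg⟩ := PermB.exists_image_eq h2 {a, b} {c, d} (Finset.card_pair hab) (Finset.card_pair hcd)
    exact ⟨g, hswap g c d hg hab⟩
  constructor
  · intro heven
    haveI : Fintype G := Fintype.ofFinite G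
    rw [Nat.card_eq_fintype_card] at heven
    obtain ⟨t, ht⟩ := exists_prime_orderOf_dvd_card 2 (even_iff_two_dvd.1 heven)
    have ht2 : t * t = 1 := by
      have := pow_orderOf_eq_one t; rw [ht, pow_two] at this; exact this
    have ht1 : t ≠ 1 := fun e => by rw [e, orderOf_one] at ht; omega
    obtain ⟨u, hu⟩ : ∃ u : α, t • u ≠ u := by
      by_contra hall
      push Not at hall
      exact ht1 (Subtype.ext (Equiv.ext hall))
    have htu : t • t • u = u := by rw [← mul_smul, ht2, one_smul]
    rw [MulAction.is_two_pretransitive_iff]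
    intro a b c d hab hcd
    obtain ⟨g, hg⟩ := hmap hab hcd
    rcases hg with hg | ⟨hga, hgb⟩
    · exact ⟨g, hg⟩
    · obtain ⟨f, hf⟩ := hmap (Ne.symm hu) hcd
      refine ⟨f * t * f⁻¹ * g, ?_⟩
      rcases hf with ⟨hfc, hfd⟩ | ⟨hfd, hfc⟩
      · simp only [mul_smul, hga, hgb, ← hfc, ← hfd, inv_smul_smul, htu, and_self]
      · simp only [mul_smul, hga, hgb, ← hfc, ← hfd, inv_smul_smul, htu, and_self]
  · intro _
    haveI : MulAction.IsPretransitive G α := by
      refine ⟨fun a b => ?_⟩
      by_cases hab : a = b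
      · exact ⟨1, by rw [one_smul, hab]⟩
      · obtain ⟨c, hc⟩ := Finset.exists_mem_notMem_of_card_lt_card
          (s := ({a, b} : Finset α)) (t := Finset.univ)
          (by rw [Finset.card_pair hab, Finset.card_univ]; omega)
        simp only [Finset.mem_insert, Finset.mem_singleton, not_or] at hc
        obtain ⟨g, hg | hg⟩ := hmap (Ne.symm hc.2.1) (Ne.symm hc.2.2)
        · exact ⟨g, hg.1⟩
        · exact ⟨g * g, by rw [mul_smul, hg.1, hg.2]⟩
    refine MulAction.IsPreprimitive.mk fun {B} hB => ?_
    rcases B.subsingleton_or_nontrivial with h | ⟨a, ha, b, hb, hab⟩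
    · exact Or.inl h
    · right
      refine Set.eq_univ_of_forall fun c => ?_
      by_cases hca : c = a
      · exact hca ▸ ha
      obtain ⟨g, hg⟩ := hmap hab (Ne.symm hca)
      rcases hg with ⟨hga, hgb⟩ | ⟨hgc, hgb⟩
      · have : g • B = B := hB.smul_eq_of_nonempty ⟨a, ⟨a, ha, hga⟩, ha⟩
        exact this ▸ ⟨b, hb, hgb⟩
      · have : g • B = B := hB.smul_eq_of_nonempty ⟨a, ⟨b, hb, hgb⟩, ha⟩
        exact this ▸ ⟨a, ha, hgc⟩

end Cfsg.Agent.S0735
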