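import Cfsg.Statements.S0736

import Cfsg.Agent.PermB.Basic
import Mathlib.Data.Nat.Choose.Lucas
import Mathlib.Combinatorics.Enumerative.DoubleCounting
import Mathlib.Algebra.IsPrimePow
import Mathlib.Tactic.Ring

set_option autoImplicit false
open Cfsg

namespace Cfsg.Agent.S0736

/-- A `k`-homogeneous permutation group of degree `n`, `k ≥ 2`, with `k + q - 1 ≤ n` for every prime power `q` dividing `k`, is `(k-1)`-homogeneous. -/
theorem result {α : Type*} [Fintype α] [DecidableEq α] (G : Subgroup (Equiv.Perm α)) {k : ℕ} (hk : 2 ≤ k) (hG : MulAction.IsPretransitive G (Set.powersetCard α k)) (hq : ∀ q : ℕ, IsPrimePow q → q ∣ k → k + q - 1 ≤ Fintype.card α) : MulAction.IsPretransitive G (Set.powersetCard α (k - 1)) := by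
  classical
  refine PermB.isPretransitive_powersetCard_of fun s t hs ht => ?_
  by_cases hsmall : Fintype.card α < k - 1
  · exact absurd (s.card_le_univ) (by omega)
  let O : Finset (Finset α) :=
    ((Finset.univ : Finset α).powersetCard (k - 1)).filter fun u =>
      ∃ g : G, s.image (g • ·) = u
  have hOmem : ∀ u, u ∈ O ↔ u.card = k - 1 ∧ ∃ g : G, s.image (g • ·) = u := by
    intro u; simp [O, Finset.mem_powersetCard]
  have hsO : s ∈ O := (hOmem s).2 ⟨hs, 1, by simp⟩
  by_contra hne
  push Not at hne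
  have htO : t ∉ O := fun h => by
    obtain ⟨g, hg⟩ := ((hOmem t).1 h).2
    exact hne g hg
  have hOinv : ∀ (g : G) u, u ∈ O → u.image (g • ·) ∈ O := by
    intro g u hu
    obtain ⟨hu1, f, hf⟩ := (hOmem u).1 hu
    refine (hOmem _).2 ⟨?_, g * f, ?_⟩
    · rw [Finset.card_image_of_injective _ (MulAction.injective g), hu1]
    · rw [← hf, Finset.image_image]
      exact Finset.image_congr fun x _ => mul_smul g f x
  have hk0 : k ≤ Fintype.card α := by
    by_contra hh
    obtain ⟨q, hq1, hq2⟩ := Nat.exists_prime_and_dvd (by omega : k ≠ 1)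
    have := hq q hq1.isPrimePow hq2
    have := hq1.two_le
    omega
  obtain ⟨Δ₀, -, hΔ₀⟩ := Finset.exists_subset_card_eq (s := (Finset.univ : Finset α)) (n := k)
    (by rwa [Finset.card_univ])
  let c := (O.filter fun u => u ⊆ Δ₀).card
  have hconst : ∀ Δ : Finset α, Δ.card = k → (O.filter fun u => u ⊆ Δ).card = c := by
    intro Δ hΔ
    obtain ⟨g, hg⟩ := PermB.exists_image_eq hG Δ₀ Δ hΔ₀ hΔ
    symm
    refine Finset.card_bij (fun u _ => u.image (g • ·)) ?_ ?_ ?_
    · intro u hu
      rw [Finset.mem_filter] at hu ⊢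
      exact ⟨hOinv g u hu.1, hg ▸ Finset.image_subset_image hu.2⟩
    · intro u _ v _ h
      exact Finset.image_injective (MulAction.injective g) h
    · intro v hv
      rw [Finset.mem_filter] at hv
      refine ⟨v.image (g⁻¹ • ·), ?_, ?_⟩
      · rw [Finset.mem_filter]
        refine ⟨hOinv g⁻¹ v hv.1, ?_⟩
        intro x hx
        rw [Finset.mem_image] at hx
        obtain ⟨y, hy, rfl⟩ := hx
        have hy' := hv.2 hy
        rw [← hg, Finset.mem_image] at hy'
        obtain ⟨z, hz, rfl⟩ := hy'
        rwa [inv_smul_smul]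
      · rw [Finset.image_image]
        conv_rhs => rw [← Finset.image_id (s := v)]
        exact Finset.image_congr fun x _ => smul_inv_smul g x
  -- every prime power dividing `k` divides `c`
  have hdiv : ∀ p e : ℕ, p.Prime → 0 < e → p ^ e ∣ k → p ^ e ∣ c := by
    intro p e hp he hpe
    set q := p ^ e with hqdef
    have hq2 : 2 ≤ q := le_trans hp.two_le (Nat.le_self_pow he.ne' p)
    obtain ⟨X, -, hX⟩ := Finset.exists_subset_card_eq (s := (Finset.univ : Finset α))
      (n := k + q - 1) (by rw [Finset.card_univ]; exact hq q (hp.isPrimePow.pow he.ne') hpe)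
    have hcount := Finset.sum_card_bipartiteAbove_eq_sum_card_bipartiteBelow
      (s := X.powersetCard k) (t := O.filter fun u => u ⊆ X) (r := fun Δ u => u ⊆ Δ)
    have h1 : ∀ Δ ∈ X.powersetCard k,
        (Finset.bipartiteAbove (fun Δ u => u ⊆ Δ) (O.filter fun u => u ⊆ X) Δ).card = c := by
      intro Δ hΔ
      rw [Finset.mem_powersetCard] at hΔ
      rw [← hconst Δ hΔ.2]
      congr 1
      ext u
      simp only [Finset.bipartiteAbove, Finset.mem_filter]
      exact ⟨fun h => ⟨h.1.1, h.2⟩, fun h => ⟨⟨h.1, h.2.trans hΔ.1⟩, h.2⟩⟩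
    have h2 : ∀ u ∈ O.filter (fun u => u ⊆ X),
        (Finset.bipartiteBelow (fun Δ u => u ⊆ Δ) (X.powersetCard k) u).card = q := by
      intro u hu
      rw [Finset.mem_filter] at hu
      have hu1 := ((hOmem u).1 hu.1).1
      have hbij : (Finset.bipartiteBelow (fun Δ u => u ⊆ Δ) (X.powersetCard k) u)
          = (X \ u).image fun x => insert x u := by
        ext Δ
        simp only [Finset.bipartiteBelow, Finset.mem_filter, Finset.mem_powersetCard,
          Finset.mem_image, Finset.mem_sdiff]
        constructor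
        · rintro ⟨⟨hΔX, hΔk⟩, huΔ⟩
          have h1 : (Δ \ u).card = 1 := by
            rw [Finset.card_sdiff_of_subset huΔ]; omega
          obtain ⟨x, hx⟩ := Finset.card_eq_one.1 h1
          have hx' : x ∈ Δ \ u := hx ▸ Finset.mem_singleton_self x
          rw [Finset.mem_sdiff] at hx'
          refine ⟨x, ⟨hΔX hx'.1, hx'.2⟩, ?_⟩
          refine Finset.eq_of_subset_of_card_le (Finset.insert_subset hx'.1 huΔ) ?_
          rw [Finset.card_insert_of_notMem hx'.2]; omega
        · rintro ⟨x, ⟨hx1, hx2⟩, rfl⟩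
          refine ⟨⟨Finset.insert_subset hx1 hu.2, ?_⟩, Finset.subset_insert _ _⟩
          rw [Finset.card_insert_of_notMem hx2]; omega
      rw [hbij, Finset.card_image_of_injOn, Finset.card_sdiff_of_subset hu.2]
      · omega
      · intro x hx y hy hxy
        simp only [Finset.coe_sdiff, Set.mem_diff, Finset.mem_coe] at hx hy
        have hxy' : insert x u = insert y u := hxy
        have : x ∈ insert y u := hxy' ▸ Finset.mem_insert_self x u
        rcases Finset.mem_insert.1 this with h | h
        · exact h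
        · exact absurd h hx.2
    rw [Finset.sum_congr rfl h1, Finset.sum_congr rfl h2, Finset.sum_const, Finset.sum_const,
      smul_eq_mul, smul_eq_mul, Finset.card_powersetCard, hX] at hcount
    have hdvd : q ∣ (k + q - 1).choose k * c := ⟨_, hcount.trans (mul_comm _ _)⟩
    have hcop : Nat.Coprime p ((k + q - 1).choose k) := by
      rw [hp.coprime_iff_not_dvd, Nat.choose_symm_of_eq_add (a := k) (b := q - 1) (by omega)]
      haveI : Fact p.Prime := ⟨hp⟩
      obtain ⟨d, hd⟩ := hpe
      have key : ∀ (i m : ℕ), ¬ p ∣ (m * p ^ i + (p ^ i - 1)).choose (p ^ i - 1) := by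
        intro i
        induction i with
        | zero => intro m; simpa using hp.not_dvd_one
        | succ i ih =>
          intro m hdd
          have hp1 := hp.two_le
          have hpi : 1 ≤ p ^ i := Nat.one_le_pow _ _ (by omega)
          have e1 : p ^ (i + 1) - 1 = p * (p ^ i - 1) + (p - 1) := by
            obtain ⟨r, hr⟩ : ∃ r, p ^ i = r + 1 := ⟨p ^ i - 1, by omega⟩
            rw [pow_succ, hr, Nat.add_sub_cancel, Nat.mul_comm (r + 1) p, Nat.mul_succ]
            omega
          have e2 : m * p ^ (i + 1) + (p * (p ^ i - 1) + (p - 1))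
              = p * (m * p ^ i + (p ^ i - 1)) + (p - 1) := by ring
          have hL := Choose.choose_modEq_choose_mod_mul_choose_div_nat
            (p := p) (n := m * p ^ (i + 1) + (p ^ (i + 1) - 1)) (k := p ^ (i + 1) - 1)
          have f1 : ∀ a, (p * a + (p - 1)) % p = p - 1 := fun a => by
            rw [Nat.mul_add_mod, Nat.mod_eq_of_lt (by omega)]
          have f2 : ∀ a, (p * a + (p - 1)) / p = a := fun a => by
            rw [Nat.mul_add_div (by omega), Nat.div_eq_of_lt (by omega), add_zero]
          rw [e1, e2, f1, f1, f2, f2, Nat.choose_self, one_mul] at hL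
          rw [e1, e2] at hdd
          exact ih m ((hL.dvd_iff dvd_rfl).1 hdd)
      have := key e d
      rwa [show k + q - 1 = d * p ^ e + (p ^ e - 1) by
        rw [mul_comm d, ← hqdef] at *; omega, hqdef]
    exact (Nat.Coprime.pow_left e hcop).dvd_of_dvd_mul_left hdvd
  have hkc : k ∣ c := by
    rw [Nat.dvd_iff_prime_pow_dvd_dvd]
    intro p e hp hpe
    rcases Nat.eq_zero_or_pos e with h | h
    · subst h; simp
    · exact hdiv p e hp h hpe
  -- so every `k`-set contains none or all of its `(k-1)`-subsets from `O`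
  have hone : ∃ Δ, Δ.card = k ∧ s ⊆ Δ := by
    obtain ⟨Δ, h1, -, h2⟩ := Finset.exists_subsuperset_card_eq (s := s)
      (t := (Finset.univ : Finset α)) (n := k) (Finset.subset_univ _) (by omega)
      (by rwa [Finset.card_univ])
    exact ⟨Δ, h2, h1⟩
  obtain ⟨Δ₁, hΔ₁, hsΔ₁⟩ := hone
  have hcpos : 0 < c := by
    rw [← hconst Δ₁ hΔ₁]
    exact Finset.card_pos.2 ⟨s, Finset.mem_filter.2 ⟨hsO, hsΔ₁⟩⟩
  obtain ⟨Δ₂, hsub, -, hΔ₂⟩ := Finset.exists_subsuperset_card_eq (s := t)
    (t := (Finset.univ : Finset α)) (n := k) (Finset.subset_univ _) (by omega)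
    (by rwa [Finset.card_univ])
  have hle : O.filter (fun u => u ⊆ Δ₂) ⊆ (Δ₂.powersetCard (k - 1)).erase t := by
    intro u hu
    rw [Finset.mem_filter] at hu
    rw [Finset.mem_erase, Finset.mem_powersetCard]
    exact ⟨fun e => htO (e ▸ hu.1), hu.2, ((hOmem u).1 hu.1).1⟩
  have := Finset.card_le_card hle
  rw [hconst Δ₂ hΔ₂, Finset.card_erase_of_mem (by rw [Finset.mem_powersetCard]; exact ⟨hsub, ht⟩),
    Finset.card_powersetCard, hΔ₂, Nat.choose_symm (by omega) |> fun h => (h : k.choose (k - 1) = k.choose 1),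
    Nat.choose_one_right] at this
  have := Nat.le_of_dvd hcpos hkc
  omega

end Cfsg.Agent.S0736
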