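import Cfsg.Statements.S0744

import Cfsg.Agent.PermB.Basic

set_option autoImplicit false
open Cfsg

namespace Cfsg.Agent.S0744

/-- If for some `k > 1` the pointwise stabilisers of all `(k-1)`-subsets have the same order `> 1` and those of all `k`-subsets have the same order, then the group is `(k-1)`-transitive. -/
theorem result {α : Type*} [Fintype α] [DecidableEq α] (G : Subgroup (Equiv.Perm α)) {k : ℕ} (hk : 1 < k) (hkn : k ≤ Fintype.card α) (l m : ℕ) (hl : 1 < l) (hkm1 : ∀ s : Finset α, s.card = k - 1 → Nat.card (fixingSubgroup G (s : Set α)) = l) (hkm : ∀ s : Finset α, s.card = k → Nat.card (fixingSubgroup G (s : Set α)) = m) : MulAction.IsMultiplyPretransitive G α (k - 1) := by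
  classical
  refine PermB.isMultiplyPretransitive_of_fix fun T hT x y hx hy => ?_
  by_contra hne
  push Not at hne
  have hxy : x ≠ y := fun e => hne 1 (fun t _ => one_smul _ t) (by rw [one_smul, e])
  obtain ⟨T', hTT', hT'sub, hT'card⟩ := Finset.exists_subsuperset_card_eq (s := T)
    (t := Finset.univ \ {x, y}) (n := k - 2)
    (by intro t ht; simp only [Finset.mem_sdiff, Finset.mem_univ, Finset.mem_insert,
          Finset.mem_singleton, true_and, not_or]
        exact ⟨fun e => hx (e ▸ ht), fun e => hy (e ▸ ht)⟩)
    (by omega)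
    (by rw [Finset.card_univ_diff, Finset.card_pair hxy]; omega)
  have hxT' : x ∉ T' := fun h' => by simpa using hT'sub h'
  have hyT' : y ∉ T' := fun h' => by simpa using hT'sub h'
  let J : Subgroup G := fixingSubgroup G (T' : Set α)
  have hstab : ∀ a : α,
      Nat.card (MulAction.orbit J a) * Nat.card (fixingSubgroup G ((insert a T' : Finset α) : Set α))
        = Nat.card J := by
    intro a
    have e : Nat.card (fixingSubgroup G ((insert a T' : Finset α) : Set α))
        = Nat.card (MulAction.stabilizer J a) := by
      refine Nat.card_congr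
        { toFun := fun g => ⟨⟨g.1, (mem_fixingSubgroup_iff G).2 fun t ht =>
            (mem_fixingSubgroup_iff G).1 g.2 t (by
              rw [Finset.mem_coe, Finset.mem_insert]; exact Or.inr ht)⟩,
            (mem_fixingSubgroup_iff G).1 g.2 a (by
              rw [Finset.mem_coe]; exact Finset.mem_insert_self a T')⟩
          invFun := fun g => ⟨g.1.1, (mem_fixingSubgroup_iff G).2 fun t ht => by
            rw [Finset.mem_coe, Finset.mem_insert] at ht
            rcases ht with rfl | ht
            · exact g.2
            · exact (mem_fixingSubgroup_iff G).1 g.1.2 t ht⟩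
          left_inv := fun g => rfl
          right_inv := fun g => rfl }
    rw [e, ← Nat.card_prod]
    exact Nat.card_congr (MulAction.orbitProdStabilizerEquivGroup J a)
  have hl' : ∀ a, a ∉ T' → Nat.card (MulAction.orbit J a) * l = Nat.card J := fun a ha => by
    rw [← hkm1 (insert a T') (by rw [Finset.card_insert_of_notMem ha]; omega)]; exact hstab a
  have hlpos : 0 < l := by omega
  have ho : Nat.card (MulAction.orbit J y) = Nat.card (MulAction.orbit J x) :=
    Nat.eq_of_mul_eq_mul_right hlpos ((hl' y hyT').trans (hl' x hxT').symm)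
  let K : Subgroup G := fixingSubgroup G ((insert x T' : Finset α) : Set α)
  have hK : Nat.card K = l := hkm1 _ (by rw [Finset.card_insert_of_notMem hxT']; omega)
  have horb : ∀ c, c ∉ T' → c ≠ x → Nat.card (MulAction.orbit K c) * m = l := by
    intro c hc hcx
    have e : Nat.card (fixingSubgroup G ((insert c (insert x T') : Finset α) : Set α))
        = Nat.card (MulAction.stabilizer K c) := by
      refine Nat.card_congr
        { toFun := fun g => ⟨⟨g.1, (mem_fixingSubgroup_iff G).2 fun t ht =>
            (mem_fixingSubgroup_iff G).1 g.2 t (by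
              rw [Finset.mem_coe, Finset.mem_insert]; exact Or.inr ht)⟩,
            (mem_fixingSubgroup_iff G).1 g.2 c (by
              rw [Finset.mem_coe]; exact Finset.mem_insert_self c _)⟩
          invFun := fun g => ⟨g.1.1, (mem_fixingSubgroup_iff G).2 fun t ht => by
            rw [Finset.mem_coe, Finset.mem_insert] at ht
            rcases ht with rfl | ht
            · exact g.2
            · exact (mem_fixingSubgroup_iff G).1 g.1.2 t ht⟩
          left_inv := fun g => rfl
          right_inv := fun g => rfl }
    have h2 : Nat.card (fixingSubgroup G ((insert c (insert x T') : Finset α) : Set α)) = m := by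
      refine hkm _ ?_
      rw [Finset.card_insert_of_notMem, Finset.card_insert_of_notMem hxT']
      · omega
      · simp [hc, hcx]
    rw [← h2, e, ← hK, ← Nat.card_prod]
    exact Nat.card_congr (MulAction.orbitProdStabilizerEquivGroup K c)
  set r := Nat.card (MulAction.orbit K y) with hrdef
  have hry : r * m = l := horb y hyT' (Ne.symm hxy)
  have hmpos : 0 < m := by
    rcases Nat.eq_zero_or_pos m with h0 | h0
    · subst h0; omega
    · exact h0
  have hr : ∀ c, c ∉ T' → c ≠ x → Nat.card (MulAction.orbit K c) = r := fun c hc hcx =>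
    Nat.eq_of_mul_eq_mul_right hmpos ((horb c hc hcx).trans hry.symm)
  have hJK : ∀ g : G, g ∈ K → g ∈ J := fun g hg => (mem_fixingSubgroup_iff G).2 fun t ht =>
    (mem_fixingSubgroup_iff G).1 hg t (by rw [Finset.mem_coe, Finset.mem_insert]; exact Or.inr ht)
  have hdvd : ∀ z, z ∉ T' → r ∣ ((Finset.univ.filter fun c => c ∈ MulAction.orbit J z).erase x).card := by
    intro z hz
    refine PermB.dvd_card_of_orbits (G := K) _ ?_ ?_
    · intro g c hc
      simp only [Finset.mem_erase, Finset.mem_filter, Finset.mem_univ, true_and] at hc ⊢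
      refine ⟨fun e => hc.1 ?_, ?_⟩
      · have hgx : g • x = x := (mem_fixingSubgroup_iff G).1 g.2 x (by
          rw [Finset.mem_coe]; exact Finset.mem_insert_self x T')
        exact MulAction.injective g (e.trans hgx.symm)
      · obtain ⟨a, ha⟩ := hc.2
        exact ⟨⟨g, hJK g g.2⟩ * a, by simp only at ha ⊢; rw [mul_smul, ha]; rfl⟩
    · intro c hc
      simp only [Finset.mem_erase, Finset.mem_filter, Finset.mem_univ, true_and] at hc
      obtain ⟨a, ha⟩ := hc.2
      refine dvd_of_eq (hr c (fun hcT => hz ?_) hc.1).symm
      have h1 : a • c = c := (mem_fixingSubgroup_iff G).1 a.2 c hcT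
      rw [MulAction.injective a (ha.trans h1.symm)]; exact hcT
  have hcard : ∀ z : α, (Finset.univ.filter fun c => c ∈ MulAction.orbit J z).card
      = Nat.card (MulAction.orbit J z) := fun z => by
    rw [Nat.card_coe_set_eq, ← Set.ncard_coe_finset]
    congr 1; ext c; simp only [Finset.coe_filter, Finset.mem_univ, true_and]; exact Iff.rfl
  have hxy' : x ∉ MulAction.orbit J y := by
    intro h'
    rw [← MulAction.orbit_eq_iff] at h'
    have : y ∈ MulAction.orbit J x := h' ▸ MulAction.mem_orbit_self y
    obtain ⟨g, hg⟩ := this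
    exact hne g (fun t ht => (mem_fixingSubgroup_iff G).1 g.2 t (hTT' ht)) hg
  have d1 := hdvd x hxT'
  rw [Finset.card_erase_of_mem (by simp), hcard] at d1
  have d2 := hdvd y hyT'
  rw [Finset.erase_eq_of_notMem (by simpa using hxy'), hcard, ho] at d2
  have hpos : 0 < Nat.card (MulAction.orbit J x) :=
    Nat.card_pos_iff.2 ⟨⟨⟨x, MulAction.mem_orbit_self x⟩⟩, inferInstance⟩
  have hr1 : r = 1 := by
    apply Nat.dvd_one.1
    have h := Nat.dvd_sub d2 d1
    rwa [Nat.sub_sub_self hpos] at h
  have hbot : ∀ g ∈ K, g = 1 := by
    intro g hg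
    refine Subtype.ext (Equiv.ext fun c => ?_)
    show g • c = c
    by_cases hc : c ∈ insert x T'
    · exact (mem_fixingSubgroup_iff G).1 hg c hc
    · rw [Finset.mem_insert, not_or] at hc
      have hss : (MulAction.orbit K c).Subsingleton := by
        rw [← Set.ncard_le_one_iff_subsingleton, ← Nat.card_coe_set_eq, hr c hc.2 hc.1, hr1]
      exact hss (MulAction.mem_orbit c (⟨g, hg⟩ : K)) (MulAction.mem_orbit_self c)
  have : K = ⊥ := (Subgroup.eq_bot_iff_forall K).2 hbot
  rw [this, Subgroup.card_bot] at hK
  omega

end Cfsg.Agent.S0744
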