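import Cfsg.Statements.S1163
import Cfsg.Agent.Suzuki.Sylow
import Cfsg.Agent.Suzuki.LieModel
import Cfsg.Agent.Suzuki.Transport

set_option autoImplicit false
open Cfsg

namespace Cfsg.Agent.S1163

/-- For the Suzuki group Sz(q), q = 2^(2m+1) ≥ 8, realised as the elements g of Sp₄(F) with g* = g^θ (θ the 2^(m+1)-th power map, so that θ² is squaring): `|Sz(q)| = q² (q - 1) (q² + 1)`, and there is a Sylow 2-subgroup `S` whose normaliser `H` has order `q²(q-1)` and index `q² + 1`, the action of `Sz(q)` on the cosets of `H` is doubly transitive, and `S` acts regularly on the cosets other than `H` itself. -/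
theorem result {F : Type*} [Field F] [Fintype F] {m : ℕ} (hm : 1 ≤ m) (hF : Fintype.card F = 2 ^ (2 * m + 1)) :
    Nat.card ↥(Cfsg.Lie.Sz F (2 ^ (m + 1))) = (2 ^ (2 * m + 1)) ^ 2 * (2 ^ (2 * m + 1) - 1) * ((2 ^ (2 * m + 1)) ^ 2 + 1) ∧
    ∃ S : Sylow 2 ↥(Cfsg.Lie.Sz F (2 ^ (m + 1))),
      Nat.card (Subgroup.normalizer ((S : Subgroup ↥(Cfsg.Lie.Sz F (2 ^ (m + 1)))) : Set ↥(Cfsg.Lie.Sz F (2 ^ (m + 1))))) = (2 ^ (2 * m + 1)) ^ 2 * (2 ^ (2 * m + 1) - 1) ∧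
      (Subgroup.normalizer ((S : Subgroup ↥(Cfsg.Lie.Sz F (2 ^ (m + 1)))) : Set ↥(Cfsg.Lie.Sz F (2 ^ (m + 1))))).index = (2 ^ (2 * m + 1)) ^ 2 + 1 ∧
      MulAction.IsMultiplyPretransitive ↥(Cfsg.Lie.Sz F (2 ^ (m + 1))) (↥(Cfsg.Lie.Sz F (2 ^ (m + 1))) ⧸ Subgroup.normalizer ((S : Subgroup ↥(Cfsg.Lie.Sz F (2 ^ (m + 1)))) : Set ↥(Cfsg.Lie.Sz F (2 ^ (m + 1))))) 2 ∧
      ∀ x y : ↥(Cfsg.Lie.Sz F (2 ^ (m + 1))) ⧸ Subgroup.normalizer ((S : Subgroup ↥(Cfsg.Lie.Sz F (2 ^ (m + 1)))) : Set ↥(Cfsg.Lie.Sz F (2 ^ (m + 1)))),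
        x ≠ (QuotientGroup.mk 1) → y ≠ (QuotientGroup.mk 1) → ∃! s : ↥(S : Subgroup ↥(Cfsg.Lie.Sz F (2 ^ (m + 1)))), (s : ↥(Cfsg.Lie.Sz F (2 ^ (m + 1)))) • x = y := by
  haveI : Cfsg.Agent.Suzuki.SuzukiField F m := ⟨hm, hF⟩
  haveI : Fact (Nat.Prime 2) := ⟨Nat.prime_two⟩
  refine ⟨?_, ?_⟩
  · rw [Cfsg.Agent.Suzuki.card_lieSz]; ring
  let e := Cfsg.Agent.Suzuki.szEquivLie F m
  set S₀ : Subgroup ↥(Cfsg.Lie.Sz F (2 ^ (m + 1))) :=
    (Cfsg.Agent.Suzuki.unip F m).map e.toMonoidHom with hS₀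
  have hS₀card : Nat.card S₀ = 2 ^ (Nat.card ↥(Cfsg.Lie.Sz F (2 ^ (m + 1)))).factorization 2 := by
    rw [hS₀, Subgroup.card_map_of_injective e.injective, Cfsg.Agent.Suzuki.card_unip,
      Nat.card_congr e.toEquiv.symm, Cfsg.Agent.Suzuki.factorization_card, hF, ← pow_mul, mul_comm]
  refine ⟨Sylow.ofCard S₀ hS₀card, ?_⟩
  rw [Sylow.coe_ofCard]
  letI : MulAction ↥(Cfsg.Lie.Sz F (2 ^ (m + 1))) (Cfsg.suzukiOvoid F m) :=
    MulAction.compHom _ e.symm.toMonoidHom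
  have hsmul : ∀ (g : ↥(Cfsg.Lie.Sz F (2 ^ (m + 1)))) (p : Cfsg.suzukiOvoid F m),
      g • p = e.symm g • p := fun _ _ => rfl
  haveI : MulAction.IsPretransitive ↥(Cfsg.Lie.Sz F (2 ^ (m + 1))) (Cfsg.suzukiOvoid F m) :=
    ⟨fun p q => by
      obtain ⟨g, hg⟩ := MulAction.exists_smul_eq (Cfsg.Sz F m) p q
      exact ⟨e g, by rw [hsmul, e.symm_apply_apply, hg]⟩⟩
  set H := Subgroup.normalizer (S₀ : Set ↥(Cfsg.Lie.Sz F (2 ^ (m + 1)))) with hH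
  have hN : H = MulAction.stabilizer _ (Cfsg.Agent.Suzuki.oInf F m) := by
    ext g
    rw [MulAction.mem_stabilizer_iff, hsmul, ← MulAction.mem_stabilizer_iff,
      ← Cfsg.Agent.Suzuki.normalizer_unip, hH, Subgroup.mem_normalizer_iff,
      Subgroup.mem_normalizer_iff, e.toEquiv.forall_congr_left]
    refine forall_congr' fun x => ?_
    have hm' : ∀ z, z ∈ S₀ ↔ e.symm z ∈ Cfsg.Agent.Suzuki.unip F m := fun z =>
      Subgroup.mem_map_equiv (f := e)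
    rw [hm', hm', map_mul, map_mul, map_inv]
    rfl
  have hi : H.index = (2 ^ (2 * m + 1)) ^ 2 + 1 := by
    rw [hN, MulAction.index_stabilizer_of_transitive, Cfsg.Agent.Suzuki.card_suzukiOvoid, hF]
  refine ⟨?_, hi, ?_⟩
  · have := H.card_mul_index
    rw [hi, Cfsg.Agent.Suzuki.card_lieSz] at this
    refine Nat.eq_of_mul_eq_mul_right (Nat.succ_pos ((2 ^ (2 * m + 1)) ^ 2)) (this.trans ?_)
    rw [Nat.succ_eq_add_one]; ring
  refine Cfsg.Agent.Suzuki.coset_action_of_stabilizer (Cfsg.Agent.Suzuki.oInf F m) hN ?_ S₀ ?_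
  · rw [MulAction.is_two_pretransitive_iff]
    intro a b c d hab hcd
    obtain ⟨g, h1, h2⟩ := (MulAction.is_two_pretransitive_iff.1
      (Cfsg.Agent.Suzuki.sz_two_transitive (F := F) (m := m))) hab hcd
    exact ⟨e g, by rw [hsmul, e.symm_apply_apply, h1], by rw [hsmul, e.symm_apply_apply, h2]⟩
  · intro p q hp hq
    obtain ⟨s, hs, hu⟩ := Cfsg.Agent.Suzuki.unip_regular hp hq
    refine ⟨⟨e s, ⟨s, s.2, rfl⟩⟩, ?_, ?_⟩
    · show e (s : Cfsg.Sz F m) • p = q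
      rw [hsmul, e.symm_apply_apply]; exact hs
    · rintro ⟨t, u, hu', rfl⟩ ht
      have ht' : e u • p = q := ht
      rw [hsmul, e.symm_apply_apply] at ht'
      have := hu ⟨u, hu'⟩ ht'
      subst this; rfl

end Cfsg.Agent.S1163
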