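import Cfsg.Statements.S5032
import Cfsg.Agent.RootSub.Components

set_option autoImplicit false
open Cfsg Cfsg.Agent.RootSub
open scoped commutatorElement

namespace Cfsg.Agent.S5032

/-- Let S be a set of abstract root subgroups of G with more than one member. Then the graph of rank one pairs on S is connected if and only if S is a single conjugacy class of G and some member of S has a rank one partner in S. -/
theorem result {G : Type*} [Group G] {S : Set (Subgroup G)} (hS : Cfsg.IsRootSubgroupSet S) (h2 : ∃ A ∈ S, ∃ B ∈ S, A ≠ B) :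
    Cfsg.IsConnectedFamily (Cfsg.FAdj S) S ↔
      (Cfsg.IsConjClassOfSubgroups S ∧ ∃ A ∈ S, ¬ Cfsg.IsIsolatedIn (Cfsg.FAdj S) S A) := by
  constructor
  · intro hc
    obtain ⟨A, hA, B, hB, hne⟩ := h2
    refine ⟨⟨⟨A, hA⟩, fun C hC D hD => conjugate_of_reach (hc C hC D hD)⟩, A, hA, fun hiso => ?_⟩
    rcases (hc A hA B hB).cases_head with rfl | ⟨C, hC, -⟩
    · exact hne rfl
    · exact (hiso.2 C).1 hC
  · rintro ⟨⟨-, hconj⟩, A₀, hA₀, hni⟩
    obtain ⟨D₀, hD₀, hr₀⟩ := exists_partner hA₀ hni
    have hpart : ∀ A ∈ S, ∃ D ∈ S, IsRankOnePair A D := by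
      intro A hA
      obtain ⟨g, rfl⟩ := hconj A₀ hA₀ A hA
      exact ⟨_, hS.conj_mem D₀ hD₀ g, Pair.conj hr₀ g⟩
    -- members in different components commute
    have hcomm : ∀ A ∈ S, ∀ B ∈ S, Relation.ReflTransGen (FAdj S) A B ∨ ⁅A, B⁆ = ⊥ := by
      intro A hA B hB
      rcases hS.pair A hA B hB with h0 | h0 | h0
      · exact Or.inr h0
      · exact Or.inl (.single ⟨hA, hB, h0⟩)
      · obtain ⟨D, hD, hrD⟩ := hpart A hA
        obtain ⟨D', hD', hrD'⟩ := hpart B hB
        obtain ⟨E, hE, hrE⟩ := hpart _ h0.1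
        have h0' := CommCase.symm h0
        have l1 := (CommCase.line_of_commutator hS hA hB hD hrD h0).2.2
        have l2 := (CommCase.line_of_commutator hS hB hA hD' hrD' h0').2.2
        rw [Subgroup.commutator_comm B A] at l2
        exact Or.inl ((FReach_symm (no_line_between_components hS h0.1 hE hD hrE hrD l1)).trans
          (no_line_between_components hS h0.1 hE hD' hrE hrD' l2))
    intro A hA B hB
    have hgood : ∀ g : G, ∀ C ∈ S, Relation.ReflTransGen (FAdj S) A C →
        Relation.ReflTransGen (FAdj S) A (conjBy C g) := by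
      intro g
      have hg : g ∈ Subgroup.closure (⋃ E ∈ S, (E : Set G)) := by
        have h1 : (⨆ E ∈ S, E) ≤ Subgroup.closure (⋃ E ∈ S, (E : Set G)) :=
          iSup₂_le fun E hE x hx => Subgroup.subset_closure (Set.mem_biUnion hE hx)
        exact h1 (hS.generates.symm ▸ Subgroup.mem_top g)
      have step : ∀ x : G, x ∈ (⋃ E ∈ S, (E : Set G)) → ∀ C ∈ S,
          Relation.ReflTransGen (FAdj S) A C → Relation.ReflTransGen (FAdj S) A (conjBy C x) := by
        intro x hx C hC hAC
        obtain ⟨E, hE, hxE⟩ := Set.mem_iUnion₂.1 hx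
        rcases hcomm E hE C hC with h | h
        · refine (hAC.trans (FReach_symm h)).trans ?_
          have h' : ∀ P Q : Subgroup G, Relation.ReflTransGen (FAdj S) P Q →
              Relation.ReflTransGen (FAdj S) (conjBy P x) (conjBy Q x) := fun P Q hPQ =>
            hPQ.lift (fun P => conjBy P x) fun P Q hh =>
              ⟨hS.conj_mem P hh.1 x, hS.conj_mem Q hh.2.1 x, Pair.conj hh.2.2 x⟩
          have := h' E C h
          rwa [conjBy_mem_self hxE] at this
        · rwa [conjBy_of_commute fun c hc => commutator_eq_bot_iff_forall.1 h x hxE c hc]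
      refine Subgroup.closure_induction'' (p := fun g _ => ∀ C ∈ S,
        Relation.ReflTransGen (FAdj S) A C → Relation.ReflTransGen (FAdj S) A (conjBy C g))
        step ?_ ?_ ?_ hg
      · intro x hx
        obtain ⟨E, hE, hxE⟩ := Set.mem_iUnion₂.1 hx
        exact step x⁻¹ (Set.mem_biUnion hE (inv_mem hxE))
      · intro C _ h; rwa [conjBy_one]
      · intro x y _ _ hx hy C hC h
        rw [← conjBy_conjBy]
        exact hx _ (hS.conj_mem C hC y) (hy C hC h)
    obtain ⟨g, rfl⟩ := hconj A hA B hB
    exact hgood g A hA .refl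

end Cfsg.Agent.S5032
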