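import Cfsg.Statements.S5026
import Cfsg.Agent.RootSub.Components

set_option autoImplicit false
open Cfsg Cfsg.Agent.RootSub
open scoped commutatorElement

namespace Cfsg.Agent.S5026

/-- Let S be a degenerate set of abstract root subgroups of G (a set of abstract transvection groups) and let a, b be commuting non-identity elements of members of S with a b ≠ 1. Then the members of S centralizing a b are exactly those centralizing both a and b. -/
theorem result {G : Type*} [Group G] {S : Set (Subgroup G)} (hS : Cfsg.IsRootSubgroupSet S) (hdeg : Cfsg.IsDegenerateRootSet S)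
    {a b : G} (ha : a ∈ Cfsg.rootElements S) (hb : b ∈ Cfsg.rootElements S) (hab : a * b = b * a) (hab1 : a * b ≠ 1) :
    Cfsg.centralizingMembers S (Subgroup.zpowers (a * b)) =
      Cfsg.centralizingMembers S (Subgroup.zpowers a) ∩ Cfsg.centralizingMembers S (Subgroup.zpowers b) := by
  obtain ⟨ha1, A, hA, haA⟩ := ha
  obtain ⟨hb1, B, hB, hbB⟩ := hb
  ext C
  have cent_iff : ∀ x : G, C ≤ Subgroup.centralizer (Subgroup.zpowers x : Set G) ↔
      ∀ c ∈ C, c * x = x * c := fun x => by
    rw [Subgroup.zpowers_eq_closure, Subgroup.centralizer_closure]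
    simp [SetLike.le_def, Subgroup.mem_centralizer_singleton_iff]
  simp only [centralizingMembers, Set.mem_setOf_eq, Set.mem_inter_iff, cent_iff]
  constructor
  swap
  · rintro ⟨⟨hC, h1⟩, -, h2⟩
    exact ⟨hC, fun c hc => ((show Commute c a from h1 c hc).mul_right (h2 c hc)).eq⟩
  rintro ⟨hC, h⟩
  have key : ∀ c ∈ C, c * a = a * c := by
    rcases hS.pair C hC A hA with h0 | h0 | h0
    · intro c hc; exact commutator_eq_bot_iff_forall.1 h0 c hc a haA
    rotate_left
    · exact absurd h0 (hdeg C hC A hA)
    rcases hS.pair C hC B hB with h1 | h1 | h1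
    · intro c hc
      have h2 : Commute c (a * b) := h c hc
      have h3 : Commute c b := commutator_eq_bot_iff_forall.1 h1 c hc b hbB
      have := h2.mul_right h3.inv_right
      rwa [mul_inv_cancel_right] at this
    rotate_left
    · exact absurd h1 (hdeg C hC B hB)
    exfalso
    obtain ⟨c₁, hc₁, -, e₁⟩ := h0.cond_right a⁻¹ (inv_mem haA) (by simpa using ha1)
    obtain ⟨c₂, hc₂, -, e₂⟩ := h1.cond_right b hbB hb1
    rw [inv_inv] at e₁
    have hfix : conjBy C (a * b) = C := conjBy_of_commute fun x hx => (h x hx).symm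
    have hCC : conjBy C a = conjBy C b⁻¹ := by
      have : conjBy (conjBy C a) b = C := by rw [conjBy_conjBy, ← hab]; exact hfix
      rw [conjBy_eq_iff] at this
      exact this
    rw [hCC, ← e₂, conjBy_eq_iff, inv_inv, conjBy_conjBy] at e₁
    -- so `A` is a unipotent subgroup of `⟨C, B⟩` commuting with `B`
    have hAΩ : A ∈ unipotentSubgroups C B := by
      rw [e₁]
      exact Pair.unip_invariant (Pair.right_mem_unipotents h1)
        (Subgroup.mem_sup_left (mul_mem hc₁ (inv_mem hc₂)))
    have hABc : ⁅A, B⁆ = ⊥ := by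
      rcases hS.pair A hA B hB with h2 | h2 | h2
      · exact h2
      · exact absurd hab (Pair.not_commute h2 haA ha1 hbB hb1)
      · exact absurd h2 (hdeg A hA B hB)
    have hEq := Pair.eq_of_commute h1 hAΩ (Pair.right_mem_unipotents h1) hABc
    subst hEq
    obtain ⟨c, hc, hc1⟩ := exists_ne_one_of_mem hS hC
    exact Pair.not_commute h0 hc hc1 (mul_mem haA hbB) hab1 (h c hc)
  refine ⟨⟨hC, key⟩, hC, fun c hc => ?_⟩
  have h2 : Commute c (a * b) := h c hc
  have h3 : Commute c a := key c hc
  have := h3.inv_right.mul_right h2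
  rwa [inv_mul_cancel_left] at this

end Cfsg.Agent.S5026
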