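import Cfsg.Statements.S5034
import Cfsg.Agent.RootSub.Connected

set_option autoImplicit false
open Cfsg Cfsg.Agent.RootSub
open scoped commutatorElement

namespace Cfsg.Agent.S5034

/-- Let S be a non-degenerate class of abstract root subgroups of G, A ∈ S and B a rank one partner of A. Then some line partner C of A has ⁅B, C⁆ ∈ S, and the rank one pair A, B is special. -/
theorem result {G : Type*} [Group G] {S : Set (Subgroup G)} (hS : Cfsg.IsRootSubgroupClass S) (hnd : Cfsg.IsNondegenerateRootSet S)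
    {A B : Subgroup G} (hA : A ∈ S) (hB : B ∈ Cfsg.rankOnePartners S A) :
    (∃ C ∈ Cfsg.linePartners S A, C ∈ Cfsg.commutatorPartners S B) ∧ Cfsg.IsSpecialRankOnePair A B := by
  obtain ⟨hBS, hr⟩ := hB
  obtain ⟨C, hC, hBC, -, -⟩ := nondeg_line hS hnd hA hBS hr
  exact ⟨⟨C, hC, hC.1.1, hBC.1⟩,
    special_of_commPartner hS.1 hA hBS hC.1.1 hr hBC hC.1.2.2 (cover_of_linePartner hC)⟩

end Cfsg.Agent.S5034
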