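import Cfsg.Statements.S0003
import Cfsg.Agent.Lib.Hall

set_option autoImplicit false
open Cfsg

namespace Cfsg.Agent.S0003

/-- A Hall subgroup for the primes of `m` has order `m`. -/
theorem card_eq {G : Type*} [Group G] [Finite G] {m n : ℕ} (hG : Nat.card G = m * n)
    (hmn : m.Coprime n) {H : Subgroup G} (hH : Cfsg.IsPiHall {p | p ∣ m} H) : Nat.card H = m := by
  have hcop : (Nat.card H).Coprime n := Nat.coprime_of_dvd fun p hp h1 h2 =>
    hp.ne_one (Nat.eq_one_of_dvd_coprimes hmn (hH.1 p hp h1) h2)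
  refine Nat.dvd_antisymm (hcop.dvd_of_dvd_mul_right (hG ▸ H.card_subgroup_dvd_card)) ?_
  have hcop2 : m.Coprime H.index := Nat.coprime_of_dvd fun p hp h1 h2 => hH.2 p hp h1 h2
  exact hcop2.dvd_of_dvd_mul_right (H.card_mul_index.trans hG ▸ Dvd.intro n rfl)

/-- A subgroup of order `m` is a Hall subgroup for the primes of `m`. -/
theorem isPiHall {G : Type*} [Group G] [Finite G] {m n : ℕ} (hG : Nat.card G = m * n)
    (hmn : m.Coprime n) {H : Subgroup G} (hH : Nat.card H = m) :
    Cfsg.IsPiHall {p | p ∣ m} H := by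
  have hi : H.index = n := by
    have h1 := H.card_mul_index
    rw [hG, hH] at h1
    exact Nat.eq_of_mul_eq_mul_left (hH ▸ Nat.card_pos) h1
  exact ⟨fun p _ h => show p ∣ m from hH ▸ h,
    fun p hp hpm h => hp.ne_one (Nat.eq_one_of_dvd_coprimes hmn hpm (hi ▸ h))⟩

/-- Hall's Theorem, existence: a finite solvable group of order m * n with m and n coprime has a subgroup of order m. -/
theorem result {G : Type*} [Group G] [Finite G] [Group.IsSolvable G] (m n : ℕ)
    (hG : Nat.card G = m * n) (hmn : m.Coprime n) : ∃ H : Subgroup G, Nat.card H = m := by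
  obtain ⟨H, hH⟩ := Cfsg.Agent.Hall.exists_isPiHall (G := G) {p | p ∣ m}
  exact ⟨H, card_eq hG hmn hH⟩

end Cfsg.Agent.S0003
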