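import Cfsg.Statements.S0015
import Mathlib.GroupTheory.Nilpotent
import Mathlib.Tactic.Group

set_option autoImplicit false
open Cfsg

namespace Cfsg.Agent.S0015

/-- A nontrivial normal subgroup of a nilpotent group contains a nontrivial central element. -/
theorem exists_central_mem {G : Type*} [Group G] [Group.IsNilpotent G] {M : Subgroup G}
    (hM : M.Normal) (hne : M ≠ ⊥) : ∃ z ∈ M, z ∈ Subgroup.center G ∧ z ≠ 1 := by
  by_contra! hcon
  apply hne
  obtain ⟨n, hn⟩ := Group.IsNilpotent.nilpotent G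
  suffices h : ∀ k, M ⊓ Subgroup.upperCentralSeries G k = ⊥ by simpa [hn] using h n
  intro k
  induction k with
  | zero => simp
  | succ k ih =>
    rw [eq_bot_iff]
    rintro z ⟨hzM, hz⟩
    refine Subgroup.mem_bot.2 (hcon z hzM (Subgroup.mem_center_iff.2 fun g => ?_))
    have h1 := Subgroup.mem_upperCentralSeries_succ_iff.1 hz g
    have h2 : z * g * z⁻¹ * g⁻¹ ∈ M := by
      simpa [mul_assoc] using M.mul_mem hzM (hM.conj_mem _ (M.inv_mem hzM) g)
    have h3 : z * g * z⁻¹ * g⁻¹ = 1 := by
      have h4 : z * g * z⁻¹ * g⁻¹ ∈ M ⊓ Subgroup.upperCentralSeries G k := ⟨h2, h1⟩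
      rwa [ih, Subgroup.mem_bot] at h4
    calc g * z = (z * g * z⁻¹ * g⁻¹) * (g * z) := by rw [h3, one_mul]
      _ = z * g := by group

/-- In a finite nilpotent group, an abelian normal subgroup that is maximal among abelian normal subgroups equals its own centralizer. -/
theorem result {G : Type*} [Group G] [Finite G] [Group.IsNilpotent G]
    (N : Subgroup G) [N.Normal] [IsMulCommutative N]
    (hmax : ∀ M : Subgroup G, M.Normal → IsMulCommutative M → N ≤ M → M = N) :
    Subgroup.centralizer (N : Set G) = N := by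
  set C := Subgroup.centralizer (N : Set G)
  have hNC : N ≤ C := fun x hx y hy =>
    congrArg Subtype.val (mul_comm' (⟨y, hy⟩ : N) ⟨x, hx⟩)
  by_contra hne
  set π := QuotientGroup.mk' N
  have hbot : C.map π ≠ ⊥ := fun hb => hne (le_antisymm
    (by rwa [Subgroup.map_eq_bot_iff, QuotientGroup.ker_mk'] at hb) hNC)
  obtain ⟨z, hzC, hzcent, hz⟩ := exists_central_mem (G := G ⧸ N)
    ((inferInstance : C.Normal).map π (QuotientGroup.mk'_surjective N)) hbot
  obtain ⟨x, hx, rfl⟩ := hzC
  have hM : ∀ (y : G), y ∈ N ⊔ Subgroup.zpowers x → y ∈ C := fun y hy =>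
    sup_le hNC (by rwa [Subgroup.zpowers_le]) hy
  have hnorm : (N ⊔ Subgroup.zpowers x).Normal := by
    have h1 : N ⊔ Subgroup.zpowers x = ((Subgroup.zpowers (π x)).comap π) := by
      rw [← MonoidHom.map_zpowers, Subgroup.comap_map_eq, QuotientGroup.ker_mk', sup_comm]
    rw [h1]
    refine Subgroup.Normal.comap ⟨fun n hn g => ?_⟩ _
    have : n ∈ Subgroup.center (G ⧸ N) := (Subgroup.zpowers_le.2 hzcent) hn
    rw [Subgroup.mem_center_iff.1 this g, mul_inv_cancel_right]
    exact hn
  have hcomm : IsMulCommutative ↥(N ⊔ Subgroup.zpowers x) := by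
    refine ⟨⟨fun a b => Subtype.ext ?_⟩⟩
    have key : N ⊔ Subgroup.zpowers x ≤
        Subgroup.centralizer ((N ⊔ Subgroup.zpowers x : Subgroup G) : Set G) := by
      rw [sup_le_iff]
      constructor
      · intro n hn y hy
        exact ((hM y hy) n hn).symm
      · rw [Subgroup.zpowers_le]
        intro y hy
        obtain ⟨n, hn, w, hw, rfl⟩ := Subgroup.mem_sup_of_normal_left.1 hy
        obtain ⟨k, rfl⟩ := Subgroup.mem_zpowers_iff.1 hw
        have hxn : Commute n x := hx n hn
        exact (hxn.mul_left ((Commute.refl x).zpow_left k)).eq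
    exact (key a.2 b b.2).symm
  have := hmax _ hnorm hcomm le_sup_left
  exact hz ((QuotientGroup.eq_one_iff x).2 (this ▸ Subgroup.mem_sup_right (Subgroup.mem_zpowers x)))

end Cfsg.Agent.S0015
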