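import Cfsg.Statements.S0020
import Cfsg.Agent.Lib.Hall
import Cfsg.Agent.S0007

set_option autoImplicit false
open Pointwise
open Cfsg

namespace Cfsg.Agent.S0020

open scoped Pointwise

/-- A finite solvable group admits a Sylow system: Sylow subgroups, one for each prime, that pairwise permute as sets. -/
theorem result {G : Type*} [Group G] [Finite G] [Group.IsSolvable G] :
    ∃ S : (p : Nat.Primes) → Sylow (p : ℕ) G,
      ∀ p q : Nat.Primes, (S p : Set G) * (S q : Set G) = (S q : Set G) * (S p : Set G) := by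
  classical
  have hex : ∀ p : Nat.Primes, ∃ H : Subgroup G, Cfsg.IsPiHall {q | q ≠ (p : ℕ)} H :=
    fun p => Cfsg.Agent.Hall.exists_isPiHall _
  choose K hK using hex
  have hKcard : ∀ p q : Nat.Primes, p ≠ q →
      ∀ k, (q : ℕ) ^ k ∣ Nat.card G → (q : ℕ) ^ k ∣ Nat.card (K p) := by
    intro p q hpq k hk
    rw [← (K p).card_mul_index] at hk
    refine Nat.Coprime.dvd_of_dvd_mul_right ?_ hk
    exact ((q.2.coprime_iff_not_dvd).2
      ((hK p).2 q q.2 fun h => hpq (Subtype.ext h.symm))).pow_left k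
  -- intersections of complements keep the other prime powers
  have hinter : ∀ (s : Finset Nat.Primes) (q : Nat.Primes), q ∉ s →
      (q : ℕ) ^ (Nat.card G).factorization q ∣ Nat.card ↥(s.inf K) := by
    intro s
    suffices h : (∀ r : ℕ, r.Prime → r ∣ (s.inf K).index → ∃ p ∈ s, (p : ℕ) = r) by
      intro q hq
      have hk := Nat.ordProj_dvd (Nat.card G) q
      rw [← (s.inf K).card_mul_index] at hk ⊢
      refine Nat.Coprime.dvd_of_dvd_mul_right ?_ hk
      refine ((q.2.coprime_iff_not_dvd).2 fun hd => ?_).pow_left _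
      obtain ⟨p, hp, hpq⟩ := h q q.2 hd
      exact hq (Subtype.ext hpq ▸ hp)
    induction s using Finset.induction with
    | empty =>
      intro r hr hd
      rw [Finset.inf_empty, Subgroup.index_top] at hd
      exact absurd (Nat.dvd_one.1 hd) hr.ne_one
    | @insert a s ha ih =>
      have hga : ∀ r : ℕ, r.Prime → r ∣ (K a).index → r = (a : ℕ) := fun r hr hd => by
        by_contra hne
        exact (hK a).2 r hr hne hd
      have hcop : (K a).index.Coprime (s.inf K).index := Nat.coprime_of_dvd fun r hr h1 h2 => by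
        obtain ⟨p, hp, hpr⟩ := ih r hr h2
        exact ha (Subtype.ext (hpr.trans (hga r hr h1)) ▸ hp)
      intro r hr hd
      rw [Finset.inf_insert, (Cfsg.Agent.S0007.result (K a) (s.inf K) hcop).1] at hd
      rcases hr.dvd_mul.1 hd with h | h
      · exact ⟨a, Finset.mem_insert_self a s, (hga r hr h).symm⟩
      · obtain ⟨p, hp, hpr⟩ := ih r hr h
        exact ⟨p, Finset.mem_insert_of_mem hp, hpr⟩
  let S₀ : Finset Nat.Primes := ((Nat.card G).primeFactors.subtype Nat.Prime).map
    (Function.Embedding.refl _)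
  have hS₀ : ∀ q : Nat.Primes, q ∈ S₀ ↔ (q : ℕ) ∣ Nat.card G := fun q => by
    constructor
    · intro h
      obtain ⟨b, hb, hbq⟩ := Finset.mem_map.1 h
      exact hbq ▸ (Nat.mem_primeFactors.1 (Finset.mem_subtype.1 hb)).2.1
    · intro h
      exact Finset.mem_map.2 ⟨q, Finset.mem_subtype.2
        (Nat.mem_primeFactors.2 ⟨q.2, h, Nat.card_pos.ne'⟩), rfl⟩
  -- prime divisors of an intersection of complements
  have hdiv : ∀ (s : Finset Nat.Primes) (p : Nat.Primes), p ∈ s →
      ¬ (p : ℕ) ∣ Nat.card ↥(s.inf K) := fun s p hp hd =>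
    (hK p).1 p p.2 (hd.trans (Subgroup.card_dvd_of_le (Finset.inf_le hp))) rfl
  have hcard : ∀ q : Nat.Primes, Nat.card ↥((S₀.erase q).inf K) =
      (q : ℕ) ^ (Nat.card G).factorization q := by
    intro q
    refine (Nat.dvd_antisymm (hinter _ q (Finset.notMem_erase q S₀)) ?_).symm
    set n := Nat.card ↥((S₀.erase q).inf K)
    have honly : ∀ {r : ℕ}, r.Prime → r ∣ n → r = (q : ℕ) := fun {r} hr hd => by
      by_contra hne
      have hr' : (⟨r, hr⟩ : Nat.Primes) ∈ S₀.erase q := Finset.mem_erase.2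
        ⟨fun h => hne (congrArg Subtype.val h),
          (hS₀ _).2 (hd.trans (Subgroup.card_subgroup_dvd_card _))⟩
      exact hdiv _ _ hr' hd
    have hn := Nat.eq_prime_pow_of_unique_prime_dvd (n := n) Nat.card_pos.ne' honly
    rw [hn]
    refine (Nat.pow_dvd_pow_iff_le_right q.2.one_lt).2 ?_
    exact (q.2.pow_dvd_iff_le_factorization Nat.card_pos.ne').1
      (hn ▸ Subgroup.card_subgroup_dvd_card _)
  have : ∀ q : Nat.Primes, Fact (q : ℕ).Prime := fun q => ⟨q.2⟩
  refine ⟨fun q => Sylow.ofCard _ (hcard q), fun p q => ?_⟩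
  rcases eq_or_ne p q with rfl | hpq
  · rfl
  set A := (S₀.erase p).inf K
  set B := (S₀.erase q).inf K
  suffices h : (A : Set G) * (B : Set G) = (B : Set G) * (A : Set G) from h
  set L := ((S₀.erase p).erase q).inf K
  have hA : A ≤ L := Finset.inf_mono (Finset.erase_subset _ _)
  have hB : B ≤ L := by
    refine Finset.inf_mono ?_
    rw [Finset.erase_right_comm]
    exact Finset.erase_subset _ _
  have hmul : ∀ A B : Subgroup G, A ≤ L → B ≤ L → (Nat.card A).Coprime (Nat.card B) →
      Nat.card L ≤ Nat.card A * Nat.card B → (A : Set G) * (B : Set G) = L := by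
    intro A B hA hB hcop hle
    have hsub : (A : Set G) * (B : Set G) ⊆ L := Set.mul_subset_iff.2 fun a ha b hb =>
      mul_mem (hA ha) (hB hb)
    refine Set.eq_of_subset_of_ncard_le hsub ?_ (Set.toFinite _)
    have hinj : Function.Injective (fun x : A × B => ((x.1 : G) * x.2)) :=
      Subgroup.mul_injective_of_disjoint (Subgroup.disjoint_of_coprime_natCard hcop)
    calc (L : Set G).ncard = Nat.card L := rfl
      _ ≤ Nat.card (A × B) := by rw [Nat.card_prod]; exact hle
      _ = Nat.card (Set.range (fun x : A × B => ((x.1 : G) * x.2))) :=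
        (Nat.card_range_of_injective hinj).symm
      _ ≤ ((A : Set G) * (B : Set G)).ncard := by
        refine Set.ncard_le_ncard ?_ (Set.toFinite _)
        rintro _ ⟨⟨a, b⟩, rfl⟩
        exact Set.mul_mem_mul a.2 b.2
  have hcopAB : (Nat.card A).Coprime (Nat.card B) := by
    rw [hcard p, hcard q]
    exact Nat.coprime_pow_primes _ _ p.2 q.2 (fun h => hpq (Subtype.ext h))
  have hLle : Nat.card L ≤ Nat.card A * Nat.card B := by
    refine Nat.le_of_dvd (Nat.mul_pos Nat.card_pos Nat.card_pos) ?_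
    refine (Nat.dvd_iff_prime_pow_dvd_dvd _ _).2 fun r k hr hk => ?_
    rcases k.eq_zero_or_pos with rfl | hkpos
    · simp
    have hrL : r ∣ Nat.card L := (dvd_pow_self r hkpos.ne').trans hk
    have hrG := hk.trans L.card_subgroup_dvd_card
    have hle' := (Nat.Prime.pow_dvd_iff_le_factorization hr Nat.card_pos.ne').1 hrG
    have hr' : (⟨r, hr⟩ : Nat.Primes) ∉ (S₀.erase p).erase q := fun h => hdiv _ _ h hrL
    have hrS : (⟨r, hr⟩ : Nat.Primes) ∈ S₀ :=
      (hS₀ _).2 (hrL.trans L.card_subgroup_dvd_card)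
    rw [hcard p, hcard q]
    by_cases h1 : (⟨r, hr⟩ : Nat.Primes) = q
    · subst h1
      exact (pow_dvd_pow r hle').trans (dvd_mul_left _ _)
    by_cases h2 : (⟨r, hr⟩ : Nat.Primes) = p
    · subst h2
      exact (pow_dvd_pow r hle').trans (dvd_mul_right _ _)
    exact absurd (Finset.mem_erase.2 ⟨h1, Finset.mem_erase.2 ⟨h2, hrS⟩⟩) hr'
  rw [hmul A B hA hB hcopAB hLle, hmul B A hB hA hcopAB.symm (by rwa [mul_comm])]

end Cfsg.Agent.S0020
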