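import Cfsg.Statements.S0028
import Cfsg.Agent.Cores.Basic
import Mathlib.Tactic.Group

set_option autoImplicit false
open Cfsg

namespace Cfsg.Agent.S0028

theorem eq_bot_of_commutator_eq {G : Type*} [Group G] [Finite G] {p : ℕ} [Fact p.Prime]
    {P U : Subgroup G} (hP : IsPGroup p P) (hU : IsPGroup p U)
    (hPU : P ≤ Subgroup.normalizer (U : Set G)) (he : ⁅U, P⁆ = U) : U = ⊥ := by
  have hT : IsPGroup p ↥(U ⊔ P) := hU.to_sup_of_normal_left' hP hPU
  obtain ⟨n, hn⟩ := (Subgroup.isNilpotent_iff_lowerCentralSeries (U ⊔ P)).1 hT.isNilpotent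
  rw [← le_bot_iff, ← hn]
  clear hn
  induction n with
  | zero => exact le_sup_left
  | succ n ih => exact he.ge.trans (Subgroup.commutator_mono ih le_sup_right)

theorem inf_normalizer_le_normalizer_commutator {G : Type*} [Group G] (A B : Subgroup G) :
    Subgroup.normalizer (A : Set G) ⊓ Subgroup.normalizer (B : Set G) ≤
      Subgroup.normalizer (⁅A, B⁆ : Subgroup G) := by
  rintro g ⟨hA, hB⟩
  have h : ∀ {C : Subgroup G}, g ∈ Subgroup.normalizer (C : Set G) →
      C.map (MulAut.conj g).toMonoidHom = C := fun hC => Subgroup.mem_normalizer_iff_map_conj_eq.1 hC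
  refine Subgroup.mem_normalizer_iff_map_conj_eq.2 ?_
  exact (Subgroup.map_commutator A B _).trans (congr_arg₂ _ (h hA) (h hB))

theorem hPQ_le {G : Type*} [Group G] {P Q : Subgroup G}
    (h : P ≤ Subgroup.centralizer (Q : Set G)) : Q ≤ Subgroup.normalizer (P : Set G) := by
  refine le_trans ?_ (Subgroup.centralizer_le_normalizer _)
  exact fun q hq x hx => ((h hx) q hq).symm

/-- Thompson's P × Q Lemma: let a p-subgroup P and a subgroup Q of order prime to p centralise each other and normalise a p-subgroup U; if every element of U fixed by P is fixed by Q, then Q centralises U. -/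
theorem result {G : Type*} [Group G] [Finite G] (p : ℕ) [Fact p.Prime]
    (P Q U : Subgroup G) (hP : IsPGroup p P) (hQ : (Nat.card Q).Coprime p) (hU : IsPGroup p U)
    (hPQ : P ≤ Subgroup.centralizer (Q : Set G))
    (hPU : P ≤ Subgroup.normalizer (U : Set G)) (hQU : Q ≤ Subgroup.normalizer (U : Set G))
    (hC : U ⊓ Subgroup.centralizer (P : Set G) ≤ Subgroup.centralizer (Q : Set G)) :
    Q ≤ Subgroup.centralizer (U : Set G) := by
  obtain ⟨k, hk⟩ : ∃ k, Nat.card U = k := ⟨_, rfl⟩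
  induction k using Nat.strong_induction_on generalizing U with
  | _ k ih =>
  have hle : ⁅U, P⁆ ≤ U := Subgroup.le_normalizer_iff_commutator_le_left.1 hPU
  rcases eq_or_ne U ⊥ with rfl | hne
  · intro a _ y hy
    simp [Subgroup.mem_bot.1 hy]
  have hlt : ⁅U, P⁆ < U := lt_of_le_of_ne hle fun he => hne (eq_bot_of_commutator_eq hP hU hPU he)
  have hcardlt : Nat.card ↥⁅U, P⁆ < k := hk ▸ (lt_of_le_of_ne
    (Subgroup.card_le_of_le hle) fun he => hlt.ne (Subgroup.eq_of_le_of_card_ge hle he.ge))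
  have hQ' : Q ≤ Subgroup.centralizer (⁅U, P⁆ : Subgroup G) := by
    refine ih _ hcardlt _ (hU.to_le hle) ?_ ?_ ((inf_le_inf_right _ hle).trans hC) rfl
    · exact le_trans (le_inf hPU Subgroup.le_normalizer) (inf_normalizer_le_normalizer_commutator U P)
    · exact le_trans (le_inf hQU (hPQ_le hPQ)) (inf_normalizer_le_normalizer_commutator U P)
  have h3 : ⁅⁅U, P⁆, Q⁆ = ⊥ := by
    rw [Subgroup.commutator_comm, Subgroup.commutator_eq_bot_iff_le_centralizer]
    exact hQ'
  have h4 : ⁅⁅P, Q⁆, U⁆ = ⊥ := by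
    rw [Subgroup.commutator_eq_bot_iff_le_centralizer.2 hPQ, Subgroup.commutator_bot_left]
  have h5 : ⁅⁅Q, U⁆, P⁆ = ⊥ := Subgroup.commutator_commutator_eq_bot_of_rotate h3 h4
  have h6 : ⁅Q, U⁆ ≤ Subgroup.centralizer (Q : Set G) := by
    refine le_trans (le_inf ?_ (Subgroup.commutator_eq_bot_iff_le_centralizer.1 h5)) hC
    exact Subgroup.le_normalizer_iff_commutator_le_right.1 hQU
  intro a ha u hu
  have hc : a * u * a⁻¹ * u⁻¹ ∈ ⁅Q, U⁆ := Subgroup.commutator_mem_commutator ha hu
  have hcU : a * u * a⁻¹ * u⁻¹ ∈ U :=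
    Subgroup.le_normalizer_iff_commutator_le_right.1 hQU hc
  have hcomm : Commute a (a * u * a⁻¹ * u⁻¹) := h6 hc a ha
  set c := a * u * a⁻¹ * u⁻¹ with hcdef
  have hstep : a * u * a⁻¹ = c * u := by rw [hcdef]; group
  have hpow : ∀ n : ℕ, a ^ n * u * (a ^ n)⁻¹ = c ^ n * u := by
    intro n
    induction n with
    | zero => simp
    | succ n ih =>
      calc a ^ (n + 1) * u * (a ^ (n + 1))⁻¹
          = a * (a ^ n * u * (a ^ n)⁻¹) * a⁻¹ := by rw [pow_succ' a n]; group
        _ = a * c ^ n * u * a⁻¹ := by rw [ih]; group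
        _ = c ^ n * (a * u * a⁻¹) := by rw [(hcomm.pow_right n).eq]; group
        _ = c ^ (n + 1) * u := by rw [hstep, pow_succ]; exact (mul_assoc _ _ _).symm
  have hcn : c ^ orderOf a = 1 := by
    have := hpow (orderOf a)
    rw [pow_orderOf_eq_one] at this
    simpa using this.symm
  have hc1 : c = 1 := by
    rw [← orderOf_eq_one_iff]
    obtain ⟨i, hi⟩ := IsPGroup.iff_card.1 hU
    refine Nat.eq_one_of_dvd_coprimes (a := orderOf a) (b := p ^ i) ?_
      (orderOf_dvd_of_pow_eq_one hcn) (hi ▸ Subgroup.orderOf_dvd_natCard U hcU)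
    exact (hQ.coprime_dvd_left (Subgroup.orderOf_dvd_natCard Q ha)).pow_right i
  rw [hc1, one_mul] at hstep
  exact (mul_inv_eq_iff_eq_mul.1 hstep).symm

end Cfsg.Agent.S0028
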