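import Cfsg.Statements.S0029
import Cfsg.Agent.Cores.Fitting
import Mathlib.Tactic.Group

set_option autoImplicit false
open Cfsg

namespace Cfsg.Agent.S0029

/-- An action that is trivial on the Frattini quotient and coprime on the Frattini subgroup is trivial: if A normalises K, the orders of A and of the Frattini subgroup of K are coprime, and every commutator of an element of A with an element of K lies in the Frattini subgroup of K, then A centralises K. -/
theorem result {G : Type*} [Group G] [Finite G] (A K : Subgroup G)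
    (hAK : A ≤ Subgroup.normalizer (K : Set G))
    (hcop : (Nat.card A).Coprime (Nat.card (frattini K)))
    (htriv : ∀ a ∈ A, ∀ k ∈ K, a * k * a⁻¹ * k⁻¹ ∈ (frattini K).map K.subtype) :
    A ≤ Subgroup.centralizer (K : Set G) := by
  set F := (frattini K).map K.subtype with hF
  have hcardF : Nat.card F = Nat.card (frattini K) :=
    Nat.card_congr ((frattini K).equivMapOfInjective _ K.subtype_injective).toEquiv.symm
  suffices h : ∀ a ∈ A, (∃ (q : ℕ) (j : ℕ), q.Prime ∧ orderOf a = q ^ j) →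
      a ∈ Subgroup.centralizer (K : Set G) by
    refine Subgroup.subgroupOf_eq_top.1 (Cfsg.Agent.Cores.eq_top_of_forall_sylow_le _ fun q hq => ?_)
    have : Fact q.Prime := ⟨hq⟩
    obtain ⟨S⟩ := (inferInstance : Nonempty (Sylow q A))
    refine ⟨S, fun x hx => h x x.2 ⟨q, ?_⟩⟩
    obtain ⟨j, hj⟩ := IsPGroup.iff_orderOf.1 S.2 ⟨x, hx⟩
    exact ⟨j, hq, by rwa [Subgroup.orderOf_coe, ← Subgroup.orderOf_mk x hx]⟩
  rintro a ha ⟨q, j, hq, hj⟩
  rcases j.eq_zero_or_pos with rfl | hjpos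
  · rw [pow_zero, orderOf_eq_one_iff] at hj
    exact hj ▸ one_mem _
  have : Fact q.Prime := ⟨hq⟩
  have hqF : ¬ q ∣ Nat.card F := by
    rw [hcardF]
    intro hd
    have h1 : q ∣ Nat.card A :=
      ((dvd_pow_self q hjpos.ne').trans (dvd_of_eq hj.symm)).trans
        (Subgroup.orderOf_dvd_natCard A ha)
    exact hq.ne_one (Nat.eq_one_of_dvd_coprimes hcop h1 hd)
  -- conjugation by powers of `a` fixes each coset of `F` in `K`
  set C : Subgroup K := (Subgroup.centralizer ({a} : Set G)).subgroupOf K with hCdef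
  suffices hCtop : C ⊔ frattini K = ⊤ by
    have := Subgroup.subgroupOf_eq_top.1 (frattini_nongenerating hCtop)
    intro k hk
    exact ((this hk) a (Set.mem_singleton a)).symm
  rw [eq_top_iff]
  rintro ⟨k, hk⟩ -
  have hZ : ∀ z ∈ Subgroup.zpowers a, ∀ m ∈ K, z * m * z⁻¹ * m⁻¹ ∈ F := fun z hz m hm =>
    htriv z (Subgroup.zpowers_le.2 ha hz) m hm
  let X := {m : G // k⁻¹ * m ∈ F}
  have hXK : ∀ m : X, (m : G) ∈ K := fun m => by
    have h1 : k⁻¹ * (m : G) ∈ K := Subgroup.map_subtype_le _ m.2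
    simpa using mul_mem hk h1
  have hFn : ∀ m ∈ K, ∀ f ∈ F, m⁻¹ * f * m ∈ F := by
    rintro m hm f ⟨f', hf', rfl⟩
    exact ⟨_, (inferInstance : (frattini K).Normal).conj_mem' f' hf' ⟨m, hm⟩, rfl⟩
  letI : MulAction (Subgroup.zpowers a) X :=
    { smul := fun z m => ⟨(z : G) * m * (z : G)⁻¹, by
        have h1 := hFn k hk _ (hZ z z.2 m (hXK m))
        have h2 : k⁻¹ * ((z : G) * m * (z : G)⁻¹) =
            (k⁻¹ * ((z : G) * m * (z : G)⁻¹ * (m : G)⁻¹) * k) * (k⁻¹ * m) := by group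
        rw [h2]
        exact mul_mem h1 m.2⟩
      one_smul := fun m => Subtype.ext (show ((1 : Subgroup.zpowers a) : G) * m * _ = m by simp)
      mul_smul := fun z w m => Subtype.ext (show ((z * w : Subgroup.zpowers a) : G) * m * _ =
        (z : G) * ((w : G) * m * (w : G)⁻¹) * (z : G)⁻¹ by simp [mul_assoc]) }
  have hcardX : Nat.card X = Nat.card F :=
    Nat.card_congr ((Equiv.mulLeft k⁻¹).subtypeEquiv fun m => Iff.rfl)
  have hpg : IsPGroup q (Subgroup.zpowers a) := IsPGroup.of_card (n := j) (by rw [Nat.card_zpowers, hj])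
  obtain ⟨m, hm⟩ := hpg.nonempty_fixed_point_of_prime_not_dvd_card X (hcardX ▸ hqF)
  have hm' : a * (m : G) * a⁻¹ = m := congrArg Subtype.val (hm ⟨a, Subgroup.mem_zpowers a⟩)
  have hkm : (⟨k, hk⟩ : K) = ⟨m, hXK m⟩ * ⟨(k⁻¹ * (m : G))⁻¹, Subgroup.map_subtype_le _ (inv_mem m.2)⟩ :=
    Subtype.ext (by simp)
  rw [hkm]
  refine mul_mem (Subgroup.mem_sup_left ?_) (Subgroup.mem_sup_right ?_)
  · intro y hy
    rw [Set.mem_singleton_iff.1 hy]
    exact mul_inv_eq_iff_eq_mul.1 hm'
  · obtain ⟨f, hf, hf'⟩ := (inv_mem m.2 : (k⁻¹ * (m : G))⁻¹ ∈ F)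
    have he : (⟨(k⁻¹ * (m : G))⁻¹, Subgroup.map_subtype_le _ (inv_mem m.2)⟩ : K) = f :=
      Subtype.ext hf'.symm
    rw [he]
    exact hf

end Cfsg.Agent.S0029
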