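import Cfsg.Statements.S0035
import Cfsg.Agent.CharInd.Frobenius

set_option autoImplicit false
open Cfsg

namespace Cfsg.Agent.S0035

open scoped Pointwise

theorem mem_conj_smul' {G : Type*} [Group G] {H : Subgroup G} {g x : G} :
    x ∈ MulAut.conj g • H ↔ g⁻¹ * x * g ∈ H := by
  rw [Subgroup.mem_pointwise_smul_iff_inv_smul_mem]
  simp [MulAut.smul_def, MulAut.conj_inv_apply]

theorem ti {G : Type*} [Group G] {H : Subgroup G} (hH : Cfsg.IsFrobeniusComplement H) :
    ∀ g : G, g ∉ H → ∀ x ∈ H, g * x * g⁻¹ ∈ H → x = 1 := by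
  intro g hg x hx hgx
  have h : g * x * g⁻¹ ∈ H ⊓ MulAut.conj g • H :=
    ⟨hgx, mem_conj_smul'.2 (by simpa [mul_assoc] using hx)⟩
  rw [hH.2.2 g hg, Subgroup.mem_bot] at h
  simpa using h

/-- Frobenius' Theorem: if H is a Frobenius complement in a finite group, the identity together with the elements lying in no conjugate of H form a normal subgroup, which is a complement to H. -/
theorem result {G : Type*} [Group G] [Finite G] (H : Subgroup G) (hH : Cfsg.IsFrobeniusComplement H) :
    ∃ N : Subgroup G, (N : Set G) = Cfsg.frobeniusKernel H ∧ N.Normal ∧ Subgroup.IsComplement' N H := by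
  obtain ⟨N, hN, hmem, hc⟩ := Cfsg.Agent.CharInd.frobenius_kernel H (ti hH)
  refine ⟨N, ?_, hN, hc⟩
  ext x
  rw [SetLike.mem_coe, hmem]
  constructor
  · intro h
    by_cases hx : x = 1
    · exact Or.inl hx
    refine Or.inr fun g hg => ?_
    rw [mem_conj_smul'] at hg
    have h1 := h g hg
    exact hx (by simpa [mul_assoc, mul_inv_eq_one, inv_mul_eq_one] using h1)
  · rintro (rfl | h) g hg
    · simp
    · exact absurd ((mem_conj_smul').2 hg) (h g)

end Cfsg.Agent.S0035
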