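import Cfsg.Statements.S0034
import Cfsg.Agent.S0035

set_option autoImplicit false
open Cfsg

namespace Cfsg.Agent.S0034

/-- For a Frobenius complement H, the set of elements lying in no conjugate of H, together with 1, has exactly as many elements as the index of H, and that index is congruent to 1 modulo the order of H. -/
theorem result {G : Type*} [Group G] [Finite G] (H : Subgroup G) (hH : Cfsg.IsFrobeniusComplement H) :
    Nat.card (Cfsg.frobeniusKernel H) = H.index ∧ H.index % Nat.card H = 1 % Nat.card H := by
  obtain ⟨N, hN, hNn, hc⟩ := Cfsg.Agent.S0035.result H hH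
  refine ⟨?_, ?_⟩
  · rw [← hN, hc.index_eq_card]
    rfl
  · let X := {x : G ⧸ H // x ≠ ((1 : G) : G ⧸ H)}
    letI : MulAction H X :=
      { smul := fun h x => ⟨(h : G) • x.1, fun he => x.2 (by
          have := congrArg (fun y => (h : G)⁻¹ • y) he
          simp only [inv_smul_smul] at this
          rw [this, MulAction.Quotient.smul_coe, QuotientGroup.eq]
          simp)⟩
        one_smul := fun x => Subtype.ext (show ((1 : H) : G) • x.1 = x.1 by simp)
        mul_smul := fun a b x => Subtype.ext
          (show ((a * b : H) : G) • x.1 = (a : G) • ((b : G) • x.1) by simp [mul_smul]) }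
    have hfree : ∀ x : X, MulAction.stabilizer H x = ⊥ := by
      rintro ⟨x, hx⟩
      induction x using QuotientGroup.induction_on with
      | _ g =>
      rw [eq_bot_iff]
      intro h hh
      have h1 : (h : G) • (g : G ⧸ H) = (g : G ⧸ H) := congrArg Subtype.val hh
      rw [MulAction.Quotient.smul_coe, QuotientGroup.eq, smul_eq_mul] at h1
      have hg : g⁻¹ ∉ H := fun hg => hx (QuotientGroup.eq.2 (by simpa using hg))
      have h2 : g⁻¹ * (h : G) * g⁻¹⁻¹ ∈ H := by
        simpa [mul_assoc] using H.inv_mem h1
      exact Subgroup.mem_bot.2 (Subtype.ext (Cfsg.Agent.S0035.ti hH g⁻¹ hg h h.2 h2))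
    have hdvd : Nat.card H ∣ Nat.card X :=
      ⟨_, (Nat.card_congr (MulAction.selfEquivOrbitsQuotientProd hfree)).trans
        (by rw [Nat.card_prod, mul_comm])⟩
    have hX : H.index = Nat.card X + 1 := by
      classical
      rw [Subgroup.index, ← Finite.card_option]
      exact (Nat.card_congr (Equiv.optionSubtypeNe _)).symm
    obtain ⟨c, hc'⟩ := hdvd
    rw [hX, hc', Nat.mul_add_mod]

end Cfsg.Agent.S0034
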