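import Cfsg.Statements.S0046
import Cfsg.Agent.Lib.FrobeniusGroup

set_option autoImplicit false
open Cfsg

open Subgroup
open scoped Pointwise
namespace Cfsg.Agent.S0046

universe u

theorem simple_case (G : Type u) [Group G] [Finite G] [Nontrivial G]
    (h : ∀ M : Subgroup G, IsCoatom M → Group.IsNilpotent M)
    (hsimple : ∀ N : Subgroup G, N.Normal → N = ⊥ ∨ N = ⊤) : Group.IsSolvable G := by
  classical
  by_cases hcyc : IsCyclic G
  · exact Group.isSolvable_of_comm fun a b => (IsCyclic.commGroup (α := G)).mul_comm a b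
  have hM0 : ∀ M : Subgroup G, IsCoatom M → M ≠ ⊥ := by
    intro M hM e
    subst e
    apply hcyc
    obtain ⟨g, hg⟩ := exists_ne (1 : G)
    refine ⟨g, fun x => ?_⟩
    have : zpowers g = ⊤ := hM.2 _ (bot_lt_iff_ne_bot.mpr (zpowers_ne_bot.mpr hg))
    exact (this ▸ mem_top x : x ∈ zpowers g)
  have hself : ∀ M : Subgroup G, IsCoatom M → Subgroup.normalizer (M : Set G) = M := by
    intro M hM
    by_contra hne
    have := hM.2 _ (lt_of_le_of_ne le_normalizer (Ne.symm hne))
    rcases hsimple M (normalizer_eq_top_iff.mp this) with e | e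
    · exact hM0 M hM e
    · exact hM.1 e
  have hTI : ∀ D : Subgroup G, D ≠ ⊥ → ∀ M₁ M₂ : Subgroup G, IsCoatom M₁ → IsCoatom M₂ →
      D ≤ M₁ → D ≤ M₂ → M₁ = M₂ := by
    intro D
    refine (wellFounded_gt (α := Subgroup G)).induction
      (C := fun D => D ≠ ⊥ → ∀ M₁ M₂ : Subgroup G, IsCoatom M₁ → IsCoatom M₂ →
        D ≤ M₁ → D ≤ M₂ → M₁ = M₂) D ?_
    intro D ih hD M₁ M₂ h₁ h₂ hD₁ hD₂
    by_contra hne
    have hDn : Subgroup.normalizer (D : Set G) ≠ ⊤ := by
      intro e
      rcases hsimple D (normalizer_eq_top_iff.mp e) with e' | e'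
      · exact hD e'
      · exact h₁.1 (top_le_iff.mp (e' ▸ hD₁))
    obtain ⟨M₃, h₃, hDM₃⟩ := (eq_top_or_exists_le_coatom (Subgroup.normalizer (D : Set G))).resolve_left hDn
    have key : ∀ M : Subgroup G, IsCoatom M → D ≤ M → D ≠ M → M = M₃ := by
      intro M hM hDM hne'
      have := h M hM
      have hlt : D.subgroupOf M < ⊤ := lt_top_iff_ne_top.mpr fun e =>
        hne' (le_antisymm hDM (subgroupOf_eq_top.mp e))
      obtain ⟨x, hx, hxD⟩ := SetLike.exists_of_lt (normalizerCondition_of_isNilpotent (D.subgroupOf M) hlt)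
      have hxn : (x : G) ∈ Subgroup.normalizer (D : Set G) := by
        rw [mem_normalizer_iff]
        intro y
        constructor
        · intro hy
          exact (mem_normalizer_iff.mp hx ⟨y, hDM hy⟩).mp hy
        · intro hy
          have := (mem_normalizer_iff.mp (inv_mem hx) ⟨_, hDM hy⟩).mp hy
          simpa [mem_subgroupOf, mul_assoc] using this
      have hlt2 : D < M ⊓ M₃ :=
        lt_of_le_of_ne (le_inf hDM (le_normalizer.trans hDM₃))
          fun e => hxD (mem_subgroupOf.mpr (e ▸ ⟨x.2, hDM₃ hxn⟩))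
      exact ih (M ⊓ M₃) hlt2 (fun e => hD (le_bot_iff.mp (e ▸ hlt2.le))) M M₃ hM h₃ inf_le_left inf_le_right
    by_cases e₁ : D = M₁
    · subst e₁
      exact h₂.1 (h₁.2 _ (lt_of_le_of_ne hD₂ hne))
    by_cases e₂ : D = M₂
    · subst e₂
      exact h₁.1 (h₂.2 _ (lt_of_le_of_ne hD₁ (Ne.symm hne)))
    exact hne ((key M₁ h₁ hD₁ e₁).trans (key M₂ h₂ hD₂ e₂).symm)
  obtain ⟨M, hM, -⟩ := (eq_top_or_exists_le_coatom (⊥ : Subgroup G)).resolve_left bot_ne_top
  have hF : Cfsg.IsFrobeniusComplement M := by
    refine ⟨hM0 M hM, hM.1, fun g hg => ?_⟩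
    by_contra hne
    apply hg
    rw [← hself M hM, mem_normalizer_iff_map_conj_eq]
    show MulAut.conj g • M = M
    have hM' : IsCoatom (MulAut.conj g • M) := by
      constructor
      · intro e
        apply hM.1
        rw [← inv_smul_smul (MulAut.conj g) M, e, ← map_inv]
        exact Subgroup.Normal.conj_smul_eq_self g⁻¹ ⊤
      · intro K hK
        have := hM.2 ((MulAut.conj g)⁻¹ • K) (by
          refine lt_of_le_of_ne ?_ fun e => hK.ne ?_
          · rw [← inv_smul_smul (MulAut.conj g) M]
            exact Subgroup.pointwise_smul_le_pointwise_smul_iff.mpr hK.le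
          · rw [e, smul_inv_smul])
        rw [← smul_inv_smul (MulAut.conj g) K, this]
        exact Subgroup.Normal.conj_smul_eq_self g ⊤
    exact (hTI _ hne _ _ hM' hM inf_le_right inf_le_left)
  obtain ⟨N, -, hNn, hc⟩ := Frobenius.exists_kernel hF
  rcases hsimple N hNn with e | e
  · exact absurd e (Frobenius.ne_bot_of_isComplement' hF hc)
  · exact absurd (le_bot_iff.mp (hc.disjoint (e ▸ le_top) le_rfl)) hF.1

theorem aux (n : ℕ) : ∀ (G : Type u) [Group G] [Finite G], Nat.card G ≤ n →
    (∀ M : Subgroup G, IsCoatom M → Group.IsNilpotent M) → Group.IsSolvable G := by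
  induction n with
  | zero => intro G _ _ hn; have := Nat.card_pos (α := G); omega
  | succ n ih =>
    intro G _ _ hn h
    rcases subsingleton_or_nontrivial G with hG | hG
    · exact Group.isSolvable_of_comm fun a b => Subsingleton.elim _ _
    by_cases hs : ∀ N : Subgroup G, N.Normal → N = ⊥ ∨ N = ⊤
    · exact simple_case G h hs
    push Not at hs
    obtain ⟨N, hNn, hN0, hN1⟩ := hs
    obtain ⟨M, hM, hNM⟩ := (eq_top_or_exists_le_coatom N).resolve_left hN1
    have := h M hM
    have hNs : Group.IsSolvable N := SZ.isSolvable_of_le hNM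
    have hlt : Nat.card (G ⧸ N) < Nat.card G := by
      rw [← index_eq_card, ← N.index_mul_card]
      exact lt_mul_of_one_lt_right (Nat.pos_of_ne_zero index_ne_zero_of_finite)
        (N.one_lt_card_iff_ne_bot.mpr hN0)
    have hq : Group.IsSolvable (G ⧸ N) := by
      refine ih (G ⧸ N) (by omega) fun K hK => ?_
      have hK' : IsCoatom (K.comap (QuotientGroup.mk' N)) :=
        isCoatom_comap_of_surjective (QuotientGroup.mk'_surjective N) hK
      have := h _ hK'
      exact Group.nilpotent_of_surjective ((QuotientGroup.mk' N).subgroupComap K)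
        ((QuotientGroup.mk' N).subgroupComap_surjective_of_surjective K (QuotientGroup.mk'_surjective N))
    exact (Group.isSolvable_iff_subgroup_quotient N).mpr ⟨hNs, hq⟩

/-- Schmidt's Theorem on minimal non-nilpotent groups: a finite group in which every maximal subgroup is nilpotent is solvable. -/
theorem result {G : Type*} [Group G] [Finite G]
    (h : ∀ M : Subgroup G, IsCoatom M → Group.IsNilpotent M) : Group.IsSolvable G := by
  exact aux (Nat.card G) G le_rfl h

end Cfsg.Agent.S0046
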