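import Cfsg.Statements.S0572
import Cfsg.Agent.SolvStruct.Products

set_option autoImplicit false
open Cfsg
open scoped Pointwise commutatorElement

namespace Cfsg.Agent.S0572

/-- Itô's Theorem: if a group G is the product AB of two abelian subgroups, then the commutator subgroup of G is abelian, i.e. the second term of the derived series is trivial. -/
theorem result {G : Type*} [Group G] (A B : Subgroup G) [IsMulCommutative A] [IsMulCommutative B] (hAB : ∀ g : G, ∃ a ∈ A, ∃ b ∈ B, g = a * b) : derivedSeries G 2 = ⊥ := by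
  let S : Set G := {g | ∃ a ∈ A, ∃ b ∈ B, ⁅a, b⁆ = g}
  have hBA := SolvStruct.factorization_symm hAB
  have hcA : ∀ {x y : G}, x ∈ A → y ∈ A → x * y = y * x := fun hx hy => by
    have := Subgroup.le_centralizer_iff_isMulCommutative.2 (inferInstance : IsMulCommutative A) hy
    exact Subgroup.mem_centralizer_iff.1 this _ hx
  have hcB : ∀ {x y : G}, x ∈ B → y ∈ B → x * y = y * x := fun hx hy => by
    have := Subgroup.le_centralizer_iff_isMulCommutative.2 (inferInstance : IsMulCommutative B) hy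
    exact Subgroup.mem_centralizer_iff.1 this _ hx
  have e1 : ∀ {a x y : G}, x * a = a * x → x * ⁅a, y⁆ * x⁻¹ = ⁅a, x * y * x⁻¹⁆ := by
    intro a x y hax
    have h1 : x * a * x⁻¹ = a := by rw [hax, mul_inv_cancel_right]
    conv_rhs => rw [← h1]
    simp [commutatorElement_def, mul_assoc]
  have e2 : ∀ {a x y : G}, x * a = a * x → x * ⁅y, a⁆ * x⁻¹ = ⁅x * y * x⁻¹, a⁆ := by
    intro a x y hax
    have h1 : x * a * x⁻¹ = a := by rw [hax, mul_inv_cancel_right]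
    conv_rhs => rw [← h1]
    simp [commutatorElement_def, mul_assoc]
  have e3 : ∀ {a b c : G}, a ∈ A → c ∈ A → ⁅a, b * c⁆ = ⁅a, b⁆ := by
    intro a b c ha hc
    have h1 : c * a⁻¹ * c⁻¹ = a⁻¹ := by rw [hcA hc (A.inv_mem ha), mul_inv_cancel_right]
    simp only [commutatorElement_def, mul_inv_rev]
    calc a * (b * c) * a⁻¹ * (c⁻¹ * b⁻¹) = a * b * (c * a⁻¹ * c⁻¹) * b⁻¹ := by simp only [mul_assoc]
      _ = _ := by rw [h1]
  have e4 : ∀ {a b d : G}, b ∈ B → d ∈ B → ⁅a * d, b⁆ = ⁅a, b⁆ := by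
    intro a b d hb hd
    have h1 : d * b * d⁻¹ = b := by rw [hcB hd hb, mul_inv_cancel_right]
    simp only [commutatorElement_def, mul_inv_rev]
    calc a * d * b * (d⁻¹ * a⁻¹) * b⁻¹ = a * (d * b * d⁻¹) * a⁻¹ * b⁻¹ := by simp only [mul_assoc]
      _ = _ := by rw [h1]
  have cA : ∀ {a b a1 : G}, a ∈ A → b ∈ B → a1 ∈ A → ∀ b2 ∈ B, ∀ a2 ∈ A,
      a1 * b * a1⁻¹ = b2 * a2 → a1 * ⁅a, b⁆ * a1⁻¹ = ⁅a, b2⁆ := by
    intro a b a1 ha hb ha1 b2 hb2 a2 ha2 he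
    rw [e1 (hcA ha1 ha), he, e3 ha ha2]
  have cB : ∀ {a b b1 : G}, a ∈ A → b ∈ B → b1 ∈ B → ∀ a3 ∈ A, ∀ b3 ∈ B,
      b1 * a * b1⁻¹ = a3 * b3 → b1 * ⁅a, b⁆ * b1⁻¹ = ⁅a3, b⁆ := by
    intro a b b1 ha hb hb1 a3 ha3 b3 hb3 he
    rw [e2 (hcB hb1 hb), he, e4 hb hb3]
  have hcommS : ∀ s ∈ S, ∀ t ∈ S, s * t = t * s := by
    rintro _ ⟨a, ha, b, hb, rfl⟩ _ ⟨a0, ha0, b0, hb0, rfl⟩
    have ha1 : a0⁻¹ ∈ A := A.inv_mem ha0
    have hb1 : b0⁻¹ ∈ B := B.inv_mem hb0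
    obtain ⟨b2, hb2, a2, ha2, he2⟩ := hBA (a0⁻¹ * b * a0⁻¹⁻¹)
    obtain ⟨a3, ha3, b3, hb3, he3⟩ := hAB (b0⁻¹ * a * b0⁻¹⁻¹)
    have h1 : b0⁻¹ * (a0⁻¹ * ⁅a, b⁆ * a0⁻¹⁻¹) * b0⁻¹⁻¹ = ⁅a3, b2⁆ := by
      rw [cA ha hb ha1 b2 hb2 a2 ha2 he2, cB ha hb2 hb1 a3 ha3 b3 hb3 he3]
    have h2 : a0⁻¹ * (b0⁻¹ * ⁅a, b⁆ * b0⁻¹⁻¹) * a0⁻¹⁻¹ = ⁅a3, b2⁆ := by
      rw [cB ha hb hb1 a3 ha3 b3 hb3 he3, cA ha3 hb ha1 b2 hb2 a2 ha2 he2]
    have h3 : ⁅a0, b0⁆ * ⁅a, b⁆ * ⁅a0, b0⁆⁻¹ = ⁅a, b⁆ := by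
      have := congrArg (fun z => a0 * b0 * z * b0⁻¹ * a0⁻¹) (h2.trans h1.symm)
      simpa [commutatorElement_def, mul_assoc] using this
    exact (mul_inv_eq_iff_eq_mul.1 h3).symm
  let K : Subgroup G := Subgroup.closure S
  have hKA : A ≤ Subgroup.normalizer (K : Set G) := by
    refine Subgroup.le_normalizer_closure_iff.2 ?_
    rintro a1 ha1 _ ⟨a, ha, b, hb, rfl⟩
    obtain ⟨b2, hb2, a2, ha2, he2⟩ := hBA (a1 * b * a1⁻¹)
    rw [cA ha hb ha1 b2 hb2 a2 ha2 he2]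
    exact Subgroup.subset_closure ⟨a, ha, b2, hb2, rfl⟩
  have hKB : B ≤ Subgroup.normalizer (K : Set G) := by
    refine Subgroup.le_normalizer_closure_iff.2 ?_
    rintro b1 hb1 _ ⟨a, ha, b, hb, rfl⟩
    obtain ⟨a3, ha3, b3, hb3, he3⟩ := hAB (b1 * a * b1⁻¹)
    rw [cB ha hb hb1 a3 ha3 b3 hb3 he3]
    exact Subgroup.subset_closure ⟨a3, ha3, b, hb, rfl⟩
  have hKn : K.Normal := Subgroup.normalizer_eq_top_iff.1 (top_unique fun g _ => by
    obtain ⟨a, ha, b, hb, rfl⟩ := hAB g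
    exact mul_mem (hKA ha) (hKB hb))
  have hG' : commutator G ≤ K := by
    rw [commutator_def, Subgroup.commutator_le]
    intro g _ h _
    rw [← QuotientGroup.eq_one_iff (N := K), ← QuotientGroup.mk'_apply, map_commutatorElement,
      commutatorElement_eq_one_iff_mul_comm]
    obtain ⟨a, ha, b, hb, rfl⟩ := hAB g
    obtain ⟨a', ha', b', hb', rfl⟩ := hAB h
    let π := QuotientGroup.mk' K
    have hab : ∀ {x y : G}, x ∈ A → y ∈ B → Commute (π x) (π y) := fun hx hy => by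
      rw [commute_iff_eq, ← commutatorElement_eq_one_iff_mul_comm, ← map_commutatorElement,
        QuotientGroup.mk'_apply, QuotientGroup.eq_one_iff]
      exact Subgroup.subset_closure ⟨_, hx, _, hy, rfl⟩
    have haa : ∀ {x y : G}, x ∈ A → y ∈ A → Commute (π x) (π y) := fun hx hy =>
      (show Commute _ _ from hcA hx hy).map π
    have hbb : ∀ {x y : G}, x ∈ B → y ∈ B → Commute (π x) (π y) := fun hx hy =>
      (show Commute _ _ from hcB hx hy).map π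
    show π (a * b) * π (a' * b') = π (a' * b') * π (a * b)
    rw [map_mul π a b, map_mul π a' b']
    exact (((haa ha ha').mul_right (hab ha hb')).mul_left
      ((hab ha' hb).symm.mul_right (hbb hb hb')) : Commute _ _)
  rw [derivedSeries_succ, derivedSeries_one, eq_bot_iff]
  refine (Subgroup.commutator_mono hG' hG').trans (le_bot_iff.2 ?_)
  rw [Subgroup.commutator_eq_bot_iff_le_centralizer, Subgroup.centralizer_closure,
    Subgroup.closure_le]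
  exact fun s hs => Subgroup.mem_centralizer_iff.2 fun t ht => hcommS t ht s hs

end Cfsg.Agent.S0572
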