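import Cfsg.Statements.S0048
import Cfsg.Agent.Lib.SchurZassenhaus

set_option autoImplicit false
open Cfsg

open Subgroup
open scoped Pointwise commutatorElement
namespace Cfsg.Agent.S0048

/-- In a finite solvable group every maximal subgroup has index a prime power. -/
theorem result {G : Type*} [Group G] [Finite G] [Group.IsSolvable G]
    (M : Subgroup G) (hM : IsCoatom M) : IsPrimePow M.index := by
  classical
  obtain ⟨N, ⟨hNn, hNM⟩, hmin⟩ :=
    (Set.toFinite {N : Subgroup G | N.Normal ∧ ¬ N ≤ M}).exists_minimal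
      ⟨⊤, inferInstance, fun h => hM.1 (top_le_iff.mp h)⟩
  have htop : M ⊔ N = ⊤ := hM.2 _ (left_lt_sup.mpr hNM)
  have hidx : M.index = M.relIndex N := by
    have := relIndex_mul_relIndex (M ⊓ N) M (M ⊔ N) inf_le_left le_sup_left
    have h2 := relIndex_mul_relIndex (M ⊓ N) N (M ⊔ N) inf_le_right le_sup_right
    rw [inf_relIndex_left] at this
    rw [inf_relIndex_right, relIndex_sup_right, ← this, mul_comm (M.relIndex N)] at h2
    have h3 : M.relIndex N = M.relIndex (M ⊔ N) :=
      Nat.eq_of_mul_eq_mul_left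
        (Nat.pos_of_ne_zero fun h => (Nat.card_pos (α := M)).ne'
          (Nat.eq_zero_of_zero_dvd (h ▸ relIndex_dvd_card N M))) h2
    rw [h3, htop, relIndex_top_right]
  have hbelow : ∀ L : Subgroup G, L.Normal → L ≤ N → L ≠ N → L ≤ M := by
    intro L hL hLN hne
    by_contra h
    exact hne (le_antisymm hLN (hmin ⟨hL, h⟩ hLN))
  have : Nontrivial N := (N.bot_or_nontrivial).resolve_left (fun h => hNM (h ▸ bot_le))
  have hD : ⁅N, N⁆ ≤ M := by
    refine hbelow _ inferInstance (Subgroup.commutator_le_right N N) fun h => ?_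
    apply (Group.IsSolvable.commutator_lt_top_of_nontrivial N).ne
    apply map_injective N.subtype_injective
    rw [commutator_def, map_commutator, ← MonoidHom.range_eq_map, range_subtype, h]
  set K := M ⊓ N with hK
  have hKn : K.Normal := by
    rw [← normalizer_eq_top_iff, eq_top_iff, ← htop, sup_le_iff]
    constructor
    · intro g hg
      rw [mem_normalizer_iff_map_conj_eq]
      show MulAut.conj g • (M ⊓ N) = M ⊓ N
      rw [Subgroup.smul_inf, Subgroup.conj_smul_eq_self_of_mem hg, SZ.conj_smul_of_normal g N]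
    · intro g hg
      rw [mem_normalizer_iff]
      intro x
      have key : ∀ y ∈ K, ∀ a ∈ N, a * y * a⁻¹ ∈ K := by
        intro y hy a ha
        have hc : ⁅a, y⁆ ∈ M := hD (commutator_mem_commutator ha hy.2)
        have e : a * y * a⁻¹ = ⁅a, y⁆ * y := by rw [commutatorElement_def]; group
        exact ⟨e ▸ M.mul_mem hc hy.1, N.mul_mem (N.mul_mem ha hy.2) (N.inv_mem ha)⟩
      refine ⟨fun h => key x h g hg, fun h => ?_⟩
      have := key _ h g⁻¹ (inv_mem hg)
      simpa [mul_assoc] using this
  have hf := QuotientGroup.mk'_surjective K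
  have : (N.map (QuotientGroup.mk' K)).Normal := hNn.map _ hf
  have hne : N.map (QuotientGroup.mk' K) ≠ ⊥ := by
    rw [Ne, Subgroup.map_eq_bot_iff, QuotientGroup.ker_mk']
    exact fun h => hNM (h.trans inf_le_left)
  have hmin' : ∀ L : Subgroup (G ⧸ K), L.Normal → L ≤ N.map (QuotientGroup.mk' K) →
      L = ⊥ ∨ L = N.map (QuotientGroup.mk' K) := by
    intro L hL hLN
    have hle : L.comap (QuotientGroup.mk' K) ≤ N := by
      refine (comap_mono hLN).trans (le_of_eq (comap_map_eq_self ?_))
      rw [QuotientGroup.ker_mk']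
      exact inf_le_right
    by_cases h : L.comap (QuotientGroup.mk' K) = N
    · right
      rw [← map_comap_eq_self_of_surjective hf L, h]
    · left
      rw [← map_comap_eq_self_of_surjective hf L, Subgroup.map_eq_bot_iff, QuotientGroup.ker_mk']
      exact le_inf (hbelow _ inferInstance hle h) hle
  obtain ⟨-, p, hp, -, hpg⟩ := MinNormal.elementary_abelian' _ hne hmin'
  have : Fact p.Prime := ⟨hp⟩
  obtain ⟨k, hk⟩ := IsPGroup.iff_card.mp hpg
  have hcard : M.index = p ^ k := by
    rw [hidx, ← hk, ← relIndex_ker, QuotientGroup.ker_mk', hK, inf_relIndex_right]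
  refine (isPrimePow_nat_iff _).mpr ⟨p, k, hp, Nat.pos_of_ne_zero ?_, hcard.symm⟩
  rintro rfl
  exact hM.1 (index_eq_one.mp (by rw [hcard, pow_zero]))

end Cfsg.Agent.S0048
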