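import Cfsg.Statements.S0049
import Mathlib.GroupTheory.SchurZassenhaus

set_option autoImplicit false
open Cfsg

open Subgroup
open scoped Pointwise
namespace Cfsg.Agent.S0049

/-- A prime divisor of the order of a finite group also divides the index of the Frattini subgroup. -/
theorem result {G : Type*} [Group G] [Finite G] (p : ℕ) (hp : p.Prime) (hdvd : p ∣ Nat.card G) :
    p ∣ (frattini G).index := by
  have : Fact p.Prime := ⟨hp⟩
  by_contra hndvd
  obtain ⟨P⟩ : Nonempty (Sylow p (frattini G)) := inferInstance
  have hnil : Group.IsNilpotent (frattini G) := frattini_nilpotent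
  have : (P : Subgroup (frattini G)).Characteristic := P.characteristic_of_normal inferInstance
  set Q := (P : Subgroup (frattini G)).map (frattini G).subtype with hQ
  have hQn : Q.Normal := inferInstance
  have hQcard : Nat.card Q = Nat.card P := card_map_of_injective (frattini G).subtype_injective
  have hidx : ¬ p ∣ Q.index := by
    rw [hQ, index_map_subtype]
    intro h
    rcases hp.dvd_mul.mp h with h' | h'
    · exact P.not_dvd_index h'
    · exact hndvd h'
  have hne : Q ≠ ⊥ := by
    intro h
    rw [h, index_bot] at hidx
    exact hidx hdvd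
  have hcop : (Nat.card Q).Coprime Q.index := by
    obtain ⟨k, hk⟩ := IsPGroup.iff_card.mp P.2
    rw [hQcard, hk]
    exact Nat.Coprime.pow_left k (hp.coprime_iff_not_dvd.mpr hidx)
  obtain ⟨H, hH⟩ := exists_right_complement'_of_coprime hcop
  have : H = ⊤ := frattini_nongenerating (eq_top_iff.mpr (by
    rw [← hH.sup_eq_top, sup_comm Q H]
    exact sup_le_sup_left (map_subtype_le _) H))
  exact hne (le_bot_iff.mp (hH.disjoint le_rfl (this ▸ le_top)))

end Cfsg.Agent.S0049
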