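import Cfsg.Statements.S0050
import Cfsg.Agent.Lib.Hall

set_option autoImplicit false
open Cfsg

namespace Cfsg.Agent.S0050

/-- Frattini argument for Hall subgroups: if L is a solvable normal subgroup and H a subgroup of L of order coprime to its index in L, then L together with the normaliser of H generates the whole group. -/
theorem result {G : Type*} [Group G] [Finite G] (L : Subgroup G) [L.Normal] (hL : Group.IsSolvable L)
    (H : Subgroup G) (hHL : H ≤ L) (hHall : (Nat.card H).Coprime (H.relIndex L)) :
    L ⊔ Subgroup.normalizer (H : Set G) = ⊤ := by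
  have := hL
  refine Cfsg.Agent.Hall.sup_normalizer_eq_top (π := {p | p.Prime ∧ p ∣ Nat.card H}) L ?_
  exact ⟨hHL, fun p hp hd => ⟨hp, hd⟩,
    fun p hp hpπ hd => hp.ne_one (Nat.eq_one_of_dvd_coprimes hHall hpπ.2 hd)⟩

end Cfsg.Agent.S0050
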