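import Cfsg.Statements.S0053
import Mathlib.GroupTheory.Complement
import Mathlib.GroupTheory.Frattini

set_option autoImplicit false
open Cfsg

open Subgroup
open scoped Pointwise
namespace Cfsg.Agent.S0053

/-- An abelian minimal normal subgroup N of a finite group is complemented exactly when N is not inside the Frattini subgroup. -/
theorem result {G : Type*} [Group G] [Finite G]
    (N : Subgroup G) [N.Normal] [IsMulCommutative N] (hN : N ≠ ⊥)
    (hmin : ∀ M : Subgroup G, M.Normal → M ≤ N → M = ⊥ ∨ M = N) :
    (∃ H : Subgroup G, Subgroup.IsComplement' N H) ↔ ¬ N ≤ frattini G := by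
  constructor
  · rintro ⟨H, hH⟩ hle
    have : H = ⊤ := frattini_nongenerating (eq_top_iff.mpr (by
      rw [← hH.sup_eq_top, sup_comm N H]
      exact sup_le_sup_left hle H))
    exact hN (le_bot_iff.mp (hH.disjoint le_rfl (this ▸ le_top)))
  · intro h
    obtain ⟨M, hM, hNM⟩ : ∃ M : Subgroup G, IsCoatom M ∧ ¬ N ≤ M := by
      by_contra hc
      push Not at hc
      exact h (le_iInf₂ fun M hM => hc M hM)
    have htop : N ⊔ M = ⊤ := hM.2 _ (right_lt_sup.mpr hNM)
    have hn : (N ⊓ M).Normal := by
      rw [← normalizer_eq_top_iff, eq_top_iff, ← htop, sup_le_iff]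
      constructor
      · intro g hg
        rw [mem_normalizer_iff]
        intro x
        have hc : ∀ y ∈ N, g * y = y * g := fun y hy =>
          congrArg Subtype.val (IsMulCommutative.is_comm.comm (⟨g, hg⟩ : N) ⟨y, hy⟩)
        refine ⟨fun hx => by rwa [hc x hx.1, mul_inv_cancel_right], fun hx => ?_⟩
        have h1 := hc _ hx.1
        have h2 : g * x * g⁻¹ = x := by
          have h3 : g * (g * x * g⁻¹) = g * x := by rw [h1]; group
          exact mul_left_cancel h3
        rwa [h2] at hx
      · intro g hg
        rw [mem_normalizer_iff_map_conj_eq]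
        show MulAut.conj g • (N ⊓ M) = N ⊓ M
        rw [Subgroup.smul_inf, Subgroup.Normal.conj_smul_eq_self g N,
          Subgroup.conj_smul_eq_self_of_mem hg]
    rcases hmin _ hn inf_le_left with h1 | h1
    · refine ⟨M, isComplement'_of_disjoint_and_mul_eq_univ (disjoint_iff.mpr h1) ?_⟩
      rw [← normal_mul, htop, coe_top]
    · exact absurd (inf_eq_left.mp h1) hNM

end Cfsg.Agent.S0053
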