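import Cfsg.Statements.S0054
import Mathlib.GroupTheory.GroupAction.MultipleTransitivity
import Mathlib.GroupTheory.PGroup

set_option autoImplicit false
open Cfsg

open Subgroup
open scoped Pointwise
namespace Cfsg.Agent.S0054

/-- A regular normal subgroup of a finite 2-transitive group is elementary abelian: it is commutative and all its elements have order dividing one prime. -/
theorem result {G : Type*} [Group G] [Finite G]
    {X : Type*} [Nonempty X] [MulAction G X] (h2 : MulAction.IsMultiplyPretransitive G X 2)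
    (N : Subgroup G) [N.Normal] (htrans : MulAction.IsPretransitive N X) (hreg : ∀ x : X, MulAction.stabilizer N x = ⊥) :
    IsMulCommutative N ∧ ∃ p : ℕ, p.Prime ∧ ∀ n ∈ N, n ^ p = 1 := by
  obtain ⟨x⟩ := ‹Nonempty X›
  have hfree : ∀ n m : N, n • x = m • x → n = m := by
    intro n m h
    have : m⁻¹ * n ∈ MulAction.stabilizer N x := by
      rw [MulAction.mem_stabilizer_iff, mul_smul, h, inv_smul_smul]
    rw [hreg x, mem_bot, inv_mul_eq_one] at this
    exact this.symm
  have hconj : ∀ n m : N, n ≠ 1 → m ≠ 1 → ∃ g : G, g * (n : G) * g⁻¹ = m := by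
    intro n m hn hm
    have hne : ∀ a : N, a ≠ 1 → x ≠ a • x := fun a ha h =>
      ha (hfree a 1 (by rw [one_smul]; exact h.symm))
    obtain ⟨g, hg1, hg2⟩ := MulAction.is_two_pretransitive_iff.mp h2 (hne n hn) (hne m hm)
    refine ⟨g, ?_⟩
    have hmem : g * (n : G) * g⁻¹ ∈ N := (inferInstance : N.Normal).conj_mem _ n.2 g
    have : (⟨_, hmem⟩ : N) = m := by
      apply hfree
      show (g * (n : G) * g⁻¹) • x = m • x
      rw [mul_smul, mul_smul, inv_smul_eq_iff.mpr hg1.symm]
      exact hg2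
    exact congrArg Subtype.val this
  rcases eq_or_ne N ⊥ with h | h
  · subst h
    exact ⟨inferInstance, 2, Nat.prime_two, fun n hn => by rw [mem_bot.mp hn, one_pow]⟩
  have hN1 : Nat.card N ≠ 1 := fun e => h (card_eq_one.mp e)
  obtain ⟨p, hp, hdvd⟩ := Nat.exists_prime_and_dvd hN1
  have : Fact p.Prime := ⟨hp⟩
  obtain ⟨a, ha⟩ := exists_prime_orderOf_dvd_card' p hdvd
  have ha1 : a ≠ 1 := fun e => hp.ne_one (by rw [← ha, e, orderOf_one])
  have hpow : ∀ n : N, n ^ p = 1 := by
    intro n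
    by_cases hn : n = 1
    · rw [hn, one_pow]
    obtain ⟨g, hg⟩ := hconj a n ha1 hn
    apply Subtype.ext
    rw [Subgroup.coe_pow, ← hg, conj_pow, ← Subgroup.coe_pow, ← ha, pow_orderOf_eq_one]
    simp
  have hpg : IsPGroup p N := fun n => ⟨1, by rw [pow_one]; exact hpow n⟩
  have : Nontrivial N := (N.bot_or_nontrivial).resolve_left h
  have : Nontrivial (Subgroup.center N) :=
    (Subgroup.nontrivial_iff_ne_bot _).mpr hpg.bot_lt_center.ne'
  obtain ⟨⟨z, hzc⟩, hz1⟩ := exists_ne (1 : Subgroup.center N)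
  refine ⟨⟨⟨fun n m => ?_⟩⟩, p, hp, fun n hn => congrArg Subtype.val (hpow ⟨n, hn⟩)⟩
  by_cases hn : n = 1
  · rw [hn, one_mul, mul_one]
  obtain ⟨g, hg⟩ := hconj z n (fun e => hz1 (Subtype.ext e)) hn
  have hm' : g⁻¹ * (m : G) * g ∈ N := by
    simpa using (inferInstance : N.Normal).conj_mem _ m.2 g⁻¹
  have hc := congrArg Subtype.val (mem_center_iff.mp hzc ⟨_, hm'⟩)
  simp only [Subgroup.coe_mul] at hc
  apply Subtype.ext
  simp only [Subgroup.coe_mul]
  rw [← hg]
  calc g * (z : G) * g⁻¹ * (m : G) = g * ((z : G) * (g⁻¹ * (m : G) * g)) * g⁻¹ := by group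
    _ = (m : G) * (g * (z : G) * g⁻¹) := by rw [← hc]; group

end Cfsg.Agent.S0054
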