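import Cfsg.Statements.S0057
import Cfsg.Agent.Coprime.Action

set_option autoImplicit false
open Cfsg

open Subgroup
open scoped Pointwise commutatorElement
namespace Cfsg.Agent.S0057

/-- Under coprime action, if the centraliser of A in K has prime index p in K then the commutator subgroup [K, A] has order exactly p. -/
theorem result {G : Type*} [Group G] [Finite G] (A K : Subgroup G) (hAK : A ≤ Subgroup.normalizer (K : Set G))
    (hcop : (Nat.card A).Coprime (Nat.card K)) (hsolv : Group.IsSolvable A ∨ Group.IsSolvable K)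
    (p : ℕ) (hp : p.Prime) (hidx : (K ⊓ Subgroup.centralizer (A : Set G)).relIndex K = p) :
    Nat.card (⁅K, A⁆ : Subgroup G) = p := by
  classical
  have : Fact p.Prime := ⟨hp⟩
  set C := K ⊓ Subgroup.centralizer (A : Set G) with hC
  have hAC : A ≤ Subgroup.normalizer (C : Set G) := by
    intro a ha
    rw [mem_normalizer_iff_map_conj_eq]
    show MulAut.conj a • C = C
    rw [hC, Subgroup.smul_inf]
    congr 1
    · exact mem_normalizer_iff_map_conj_eq.mp (hAK ha)
    · apply le_antisymm <;> intro x hx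
      · obtain ⟨y, hy, rfl⟩ := hx
        have : a * y * a⁻¹ = y := by rw [hy a ha, mul_inv_cancel_right]
        show a * y * a⁻¹ ∈ Subgroup.centralizer (A : Set G)
        rw [this]; exact hy
      · exact ⟨x, hx, by show a * x * a⁻¹ = x; rw [hx a ha, mul_inv_cancel_right]⟩
  have hsC : Group.IsSolvable A ∨ Group.IsSolvable C :=
    hsolv.imp_right fun h => Cfsg.Agent.Coprime.isSolvable_of_le inf_le_left h
  obtain ⟨QC, hQCn⟩ := Cfsg.Agent.Coprime.exists_invariant_sylow p hAC
    (hcop.coprime_dvd_right (card_dvd_of_le inf_le_left)) hsC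
  set Q := (QC : Subgroup C).map C.subtype with hQ
  have hQC : Q ≤ C := map_subtype_le _
  have hQp : IsPGroup p Q := QC.2.map C.subtype
  obtain ⟨PK, hQP, hPn⟩ := Cfsg.Agent.Coprime.exists_invariant_sylow_ge hAK hcop hsolv
    (hQC.trans inf_le_left) hQCn hQp
  set P := (PK : Subgroup K).map K.subtype with hP
  have hPK : P ≤ K := map_subtype_le _
  have hPp : IsPGroup p P := PK.2.map K.subtype
  have hPC : P ⊓ C = Q := by
    refine le_antisymm ?_ (le_inf hQP hQC)
    have h1 : ((P ⊓ C).subgroupOf C) = (QC : Subgroup C) := by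
      refine QC.3 ((hPp.to_le inf_le_left).comap_of_injective C.subtype C.subtype_injective) ?_
      intro x hx
      exact ⟨hQP ⟨x, hx, rfl⟩, x.2⟩
    rw [hQ, ← h1, map_subgroupOf_eq_of_le inf_le_right]
  have hCK : C.relIndex P = p := by
    have h1 : C.relIndex P ∣ Nat.card P := relIndex_dvd_card C P
    obtain ⟨k, hk⟩ := IsPGroup.iff_card.mp hPp
    obtain ⟨j, -, hjk⟩ := (Nat.dvd_prime_pow hp).mp (hk ▸ h1)
    have h2 : C.relIndex P ≤ p := hidx ▸ relIndex_le_of_le_right hPK (by rw [hidx]; exact hp.ne_zero)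
    have h3 : j ≠ 0 := by
      rintro rfl
      have hle : P ≤ C := relIndex_eq_one.mp (by rw [hjk, pow_zero])
      have hQeq : P = Q := by rw [← hPC, inf_eq_left.mpr hle]
      have hd : p ∣ Q.relIndex K := by
        rw [← relIndex_mul_relIndex Q C K hQC inf_le_left, hidx]
        exact dvd_mul_left p _
      rw [← hQeq, hP, relIndex, subgroupOf, comap_map_eq_self_of_injective K.subtype_injective] at hd
      exact PK.not_dvd_index hd
    rw [hjk] at h2 ⊢
    have h4 : j ≤ 1 := by
      by_contra hj
      exact absurd h2 (not_le.mpr (lt_of_lt_of_le (lt_self_pow₀ hp.one_lt Nat.one_lt_two)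
        (Nat.pow_le_pow_right hp.pos (by omega))))
    rw [show j = 1 by omega, pow_one]
  -- every element of `K` is in `P * C`
  have hsur : ∀ k ∈ K, ∃ x ∈ P, ∃ c ∈ C, k = x * c := by
    let f : P ⧸ C.subgroupOf P → K ⧸ C.subgroupOf K := Quotient.map' (Subgroup.inclusion hPK)
      (fun a b h => by rw [QuotientGroup.leftRel_apply] at h ⊢; exact h)
    have hf : Function.Injective f := by
      intro a b h
      induction a using Quotient.inductionOn' with | h a => ?_
      induction b using Quotient.inductionOn' with | h b => ?_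
      have h' : Quotient.mk'' (Subgroup.inclusion hPK a) =
          (Quotient.mk'' (Subgroup.inclusion hPK b) : K ⧸ C.subgroupOf K) := h
      apply Quotient.sound'
      have h'' := Quotient.exact' h'
      rw [QuotientGroup.leftRel_apply] at h'' ⊢
      exact h''
    have hbij : Function.Bijective f := (Nat.bijective_iff_injective_and_card f).mpr
      ⟨hf, by rw [← index_eq_card, ← index_eq_card]; exact hCK.trans hidx.symm⟩
    intro k hk
    obtain ⟨q, hq⟩ := hbij.2 (Quotient.mk'' ⟨k, hk⟩)
    induction q using Quotient.inductionOn' with | h x => ?_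
    have := Quotient.exact' hq
    rw [QuotientGroup.leftRel_apply] at this
    exact ⟨x, x.2, (x : G)⁻¹ * k, this, by group⟩
  have hL : ⁅K, A⁆ = ⁅P, A⁆ := by
    refine le_antisymm (commutator_le.mpr fun k hk a ha => ?_) (commutator_mono hPK le_rfl)
    obtain ⟨x, hx, c, hc, rfl⟩ := hsur k hk
    have hca : a * c⁻¹ = c⁻¹ * a := ((Subgroup.centralizer (A : Set G)).inv_mem hc.2) a ha
    have : ⁅x * c, a⁆ = ⁅x, a⁆ := by
      simp only [commutatorElement_def, mul_inv_rev]
      calc x * c * a * (c⁻¹ * x⁻¹) * a⁻¹ = x * c * (a * c⁻¹) * x⁻¹ * a⁻¹ := by group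
        _ = x * a * x⁻¹ * a⁻¹ := by rw [hca]; group
    rw [this]
    exact commutator_mem_commutator hx ha
  set L := ⁅P, A⁆ with hLdef
  have hLP : L ≤ P := Cfsg.Agent.Coprime.commutator_le_of_le_normalizer hPn
  rw [hL]
  have hQidx : (Q.subgroupOf P).index = p := by
    show Q.relIndex P = p
    rw [← hPC, inf_comm, inf_relIndex_right, hCK]
  have hQn : (Q.subgroupOf P).Normal := by
    apply Subgroup.normal_of_index_eq_minFac_card
    obtain ⟨k, hk⟩ := IsPGroup.iff_card.mp hPp
    rw [hQidx, hk]
    have hk0 : k ≠ 0 := by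
      rintro rfl
      have := relIndex_dvd_card C P
      rw [hCK, hk, pow_zero] at this
      exact hp.not_dvd_one this
    rw [Nat.pow_minFac hk0, hp.minFac_eq]
  have hAQ : ⁅A, Q⁆ = ⊥ := by
    rw [commutator_eq_bot_iff_le_centralizer]
    exact le_centralizer_iff.mp (hQC.trans inf_le_right)
  have hQPQ : ⁅Q, P⁆ ≤ Q := by
    rw [commutator_comm]
    refine commutator_le.mpr fun x hx q hq => ?_
    have := hQn.conj_mem ⟨q, hQP hq⟩ hq ⟨x, hx⟩
    rw [commutatorElement_def]
    exact Q.mul_mem this (Q.inv_mem hq)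
  have hQL : ⁅L, Q⁆ = ⊥ := by
    refine commutator_commutator_eq_bot_of_rotate ?_ ?_
    · rw [hAQ, commutator_bot_left]
    · exact le_bot_iff.mp ((commutator_mono hQPQ le_rfl).trans (by rw [commutator_comm, hAQ]))
  have hLcomm : IsMulCommutative L := by
    have : IsCyclic (P ⧸ Q.subgroupOf P) :=
      isCyclic_of_prime_card (p := p) (by rw [← index_eq_card, hQidx])
    refine ((QuotientGroup.mk' (Q.subgroupOf P)).comp (Subgroup.inclusion hLP)).isMulCommutative_of_isCyclic_of_ker_le_center ?_
    intro l hl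
    rw [MonoidHom.mem_ker, MonoidHom.comp_apply, ← MonoidHom.mem_ker, QuotientGroup.ker_mk'] at hl
    rw [mem_center_iff]
    intro y
    exact Subtype.ext ((commutator_eq_bot_iff_le_centralizer.mp hQL y.2) l hl).symm
  have hAL : A ≤ Subgroup.normalizer (L : Set G) := Cfsg.Agent.Coprime.le_normalizer_commutator_right P A
  have hcopL : (Nat.card A).Coprime (Nat.card L) :=
    hcop.coprime_dvd_right (card_dvd_of_le (hLP.trans hPK))
  have hLL : ⁅L, A⁆ = L :=
    Cfsg.Agent.Coprime.commutator_commutator_eq hPn (hcop.coprime_dvd_right (card_dvd_of_le hPK))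
  have hfix : L ⊓ Subgroup.centralizer (A : Set G) = ⊥ := by
    have := Cfsg.Agent.Coprime.centralizer_inf_commutator_eq_bot hAL hcopL
    rwa [hLL, inf_eq_left.mpr inf_le_left] at this
  have hle : Nat.card L ≤ p := by
    have h1 : C.relIndex L = Nat.card L := by
      rw [← inf_relIndex_right, ← relIndex_bot_left]
      congr 1
      rw [eq_bot_iff, ← hfix]
      exact fun x hx => ⟨hx.2, hx.1.2⟩
    rw [← h1, ← hidx]
    exact relIndex_le_of_le_right (hLP.trans hPK) (by rw [hidx]; exact hp.ne_zero)
  have hne : L ≠ ⊥ := by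
    intro h
    rw [← hL, commutator_eq_bot_iff_le_centralizer] at h
    have : C.relIndex K = 1 := relIndex_eq_one.mpr (le_inf le_rfl h)
    exact hp.ne_one (hidx.symm.trans this)
  obtain ⟨k, hk⟩ := IsPGroup.iff_card.mp (hPp.to_le hLP)
  refine le_antisymm hle ?_
  rw [hk]
  refine Nat.le_self_pow ?_ p
  rintro rfl
  exact hne (card_eq_one.mp (by rw [hk, pow_zero]))

end Cfsg.Agent.S0057
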