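import Cfsg.Statements.S0059
import Cfsg.Agent.Lib.SchurZassenhaus

set_option autoImplicit false
open Cfsg

open Subgroup
open scoped Pointwise
namespace Cfsg.Agent.S0059

/-- Let a finite group act on a set on which a normal subgroup K of coprime order and index is transitive, with K or the quotient solvable. Then any complement H of K has a fixed point, and any two H-fixed points are interchanged by an element of K centralising H. -/
theorem result {G : Type*} [Group G] [Finite G] {X : Type*} [Nonempty X] [MulAction G X]
    (K H : Subgroup G) [K.Normal] (hc : Subgroup.IsComplement' K H) (hcop : (Nat.card K).Coprime K.index)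
    (hsolv : Group.IsSolvable K ∨ Group.IsSolvable (G ⧸ K)) (htrans : MulAction.IsPretransitive K X) :
    (∃ x : X, ∀ h ∈ H, h • x = x) ∧
    ∀ x y : X, (∀ h ∈ H, h • x = x) → (∀ h ∈ H, h • y = y) → ∃ k ∈ K ⊓ Subgroup.centralizer (H : Set G), k • x = y := by
  classical
  have hstab : ∀ x : X, (Subgroup.subgroupOf K (MulAction.stabilizer G x)).index = K.index := by
    intro x
    show K.relIndex (MulAction.stabilizer G x) = K.index
    rw [← relIndex_sup_right, ← relIndex_top_right]
    congr 1
    refine eq_top_iff.mpr fun g _ => ?_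
    obtain ⟨⟨k, hk⟩, hkx⟩ := htrans.exists_smul_eq x (g • x)
    have : k⁻¹ * g ∈ MulAction.stabilizer G x := by
      rw [MulAction.mem_stabilizer_iff, mul_smul, inv_smul_eq_iff]
      exact hkx.symm
    have := mul_mem_sup this (S := MulAction.stabilizer G x) (T := K) (K.one_mem)
    rw [mul_one] at this
    simpa using mul_mem ((le_sup_right : K ≤ MulAction.stabilizer G x ⊔ K) hk) this
  have hcopS : ∀ x : X, (Nat.card (K.subgroupOf (MulAction.stabilizer G x))).Coprime
      (K.subgroupOf (MulAction.stabilizer G x)).index := by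
    intro x
    rw [hstab]
    exact hcop.coprime_dvd_left (card_comap_dvd_of_injective K _ (subtype_injective _))
  refine ⟨?_, ?_⟩
  · obtain ⟨x⟩ := ‹Nonempty X›
    set S := MulAction.stabilizer G x with hS
    obtain ⟨T, hT⟩ := exists_right_complement'_of_coprime (hcopS x)
    have hTc : IsComplement' K (T.map S.subtype) := by
      have hcard : Nat.card (T.map S.subtype) = K.index := by
        rw [card_map_of_injective S.subtype_injective, ← hT.symm.index_eq_card, hstab]
      refine isComplement'_of_coprime ?_ ?_
      · rw [hcard, K.card_mul_index]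
      · rw [hcard]; exact hcop
    obtain ⟨n, -, hn⟩ := SZ.conj_complement K _ H hTc hc hcop hsolv
    refine ⟨n • x, fun h hh => ?_⟩
    rw [← hn, SZ.mem_conj_smul] at hh
    have := map_subtype_le T hh
    rw [MulAction.mem_stabilizer_iff, mul_smul, mul_smul, inv_smul_eq_iff] at this
    exact this
  · intro x y hx hy
    set S := MulAction.stabilizer G x with hS
    obtain ⟨⟨k₀, hk₀⟩, hk₀x⟩ := htrans.exists_smul_eq x y
    have hk₀x' : k₀ • x = y := hk₀x
    set H' := MulAut.conj k₀⁻¹ • H with hH'
    have hHS : H ≤ S := fun h hh => hx h hh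
    have hH'S : H' ≤ S := by
      intro h hh
      rw [hH', SZ.mem_conj_smul, inv_inv] at hh
      have := hy _ hh
      rw [← hk₀x', mul_smul, mul_smul, inv_smul_smul, smul_left_cancel_iff] at this
      exact this
    have hc' : IsComplement' K H' := SZ.isComplement'_conj hc _
    have hs : Group.IsSolvable (K.subgroupOf S) ∨ Group.IsSolvable (H.subgroupOf S) := by
      rcases hsolv with h | h
      · exact Or.inl (SZ.isSolvable_subgroupOf K S)
      · have := (SZ.isSolvable_complement_iff hc).mp h
        exact Or.inr (SZ.isSolvable_subgroupOf H S)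
    obtain ⟨m, hmK, hm⟩ := SZ.conj_complement_aux (K.subgroupOf S) (H.subgroupOf S) (H'.subgroupOf S)
      (SZ.isComplement'_subgroupOf hc S (Or.inr hHS)) (SZ.isComplement'_subgroupOf hc' S (Or.inr hH'S))
      (hcopS x) hs
    have hm' := congrArg (Subgroup.map S.subtype) hm
    rw [SZ.map_conj_smul, map_subgroupOf_eq_of_le hHS, map_subgroupOf_eq_of_le hH'S,
      Subgroup.coe_subtype] at hm'
    refine ⟨k₀ * m, ⟨K.mul_mem hk₀ hmK, ?_⟩, ?_⟩
    · have hnorm : MulAut.conj (k₀ * (m : G)) • H = H := by
        rw [← SZ.conj_smul_smul, hm', hH', SZ.conj_smul_smul, mul_inv_cancel, map_one, one_smul]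
      intro h hh
      have hkK : k₀ * (m : G) ∈ K := K.mul_mem hk₀ hmK
      have h1 : (k₀ * m) * h * (k₀ * (m : G))⁻¹ ∈ H := by
        conv => rw [← hnorm]
        exact ⟨h, hh, rfl⟩
      have h2 : (k₀ * m) * h * (k₀ * (m : G))⁻¹ * h⁻¹ = 1 := by
        refine disjoint_def.mp hc.disjoint ?_ (H.mul_mem h1 (H.inv_mem hh))
        have := K.mul_mem hkK ((inferInstance : K.Normal).conj_mem _ (K.inv_mem hkK) h)
        simpa [mul_assoc] using this
      rw [mul_inv_eq_one, mul_inv_eq_iff_eq_mul] at h2
      exact h2.symm
    · have : (m : G) • x = x := m.2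
      rw [mul_smul, this, hk₀x']

end Cfsg.Agent.S0059
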