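import Cfsg.Statements.S1009
import Cfsg.Agent.SmallGroups.Basic

set_option autoImplicit false
open Cfsg

namespace Cfsg.Agent.S1009
open Subgroup

/-- Brodkey's Theorem: if a finite group has abelian Sylow p-subgroups, then there are two Sylow p-subgroups whose intersection equals the intersection of all Sylow p-subgroups. -/
theorem result {G : Type*} [Group G] [Finite G] (p : ℕ) [Fact p.Prime] (hab : ∀ P : Sylow p G, IsMulCommutative ↥(P : Subgroup G)) : ∃ P Q : Sylow p G, (P : Subgroup G) ⊓ (Q : Subgroup G) = ⨅ R : Sylow p G, (R : Subgroup G) := by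
  classical
  obtain ⟨⟨P, Q⟩, hmin⟩ := Finite.exists_min (fun pq : Sylow p G × Sylow p G =>
    Nat.card ↥((pq.1 : Subgroup G) ⊓ (pq.2 : Subgroup G)))
  refine ⟨P, Q, le_antisymm (le_iInf fun R => ?_) (le_inf (iInf_le _ P) (iInf_le _ Q))⟩
  set D : Subgroup G := (P : Subgroup G) ⊓ (Q : Subgroup G) with hD
  set H := centralizer (D : Set G) with hH
  have := hab P
  have := hab Q
  have hPH : (P : Subgroup G) ≤ H :=
    ((P : Subgroup G).le_centralizer).trans (Subgroup.centralizer_le inf_le_left)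
  have hQH : (Q : Subgroup G) ≤ H :=
    ((Q : Subgroup G).le_centralizer).trans (Subgroup.centralizer_le inf_le_right)
  obtain ⟨S, hS⟩ := (R.2.comap_subtype (K := H)).exists_le_sylow
  obtain ⟨h, hh⟩ := MulAction.exists_smul_eq ↥H (P.subtype hPH) S
  have hRP : ∀ z : G, z ∈ (R : Subgroup G) → z ∈ H → z ∈ ((h : G) • P : Sylow p G) := by
    intro z hzR hzH
    have h1 : (⟨z, hzH⟩ : ↥H) ∈ (S : Subgroup ↥H) := hS hzR
    rw [← hh, Sylow.smul_subtype hPH, Sylow.coe_subtype] at h1
    exact h1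
  have hD2 : ∀ z ∈ D, MulAut.conj (h : G) z = z := by
    intro z hz
    have := h.2 z hz
    rw [MulAut.conj_apply, ← this, mul_inv_cancel_right]
  have hsub : (R : Subgroup G) ⊓ ((h : G) • Q : Sylow p G) ≤ D := by
    rintro z ⟨hzR, hzQ⟩
    have hzH : z ∈ H := Sylow.smul_le hQH h hzQ
    obtain ⟨a, ha, hza⟩ := hRP z hzR hzH
    obtain ⟨b, hb, hzb⟩ := hzQ
    have hab' : a = b := (MulAut.conj (h : G)).injective (hza.trans hzb.symm)
    have haD : a ∈ D := ⟨ha, hab' ▸ hb⟩
    rw [← hza]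
    exact (hD2 a haD).symm ▸ haD
  have heq := Subgroup.eq_of_le_of_card_ge hsub (hmin (R, (h : G) • Q))
  exact heq.symm.le.trans inf_le_left

end Cfsg.Agent.S1009
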