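import Cfsg.Statements.S0060
import Cfsg.Agent.S1009
import Cfsg.Agent.Cores.Basic

set_option autoImplicit false
open Pointwise
open Cfsg

open Subgroup
open scoped Pointwise
namespace Cfsg.Agent.S0060

/-- Brodkey's Theorem: in a finite group with abelian Sylow p-subgroups and no nontrivial normal p-subgroup, some conjugate of a Sylow p-subgroup meets it trivially. -/
theorem result {G : Type*} [Group G] [Finite G] (p : ℕ) [Fact p.Prime]
    (S : Sylow p G) (hS : IsMulCommutative S) (hOp : Cfsg.pCore p G = ⊥) :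
    ∃ g : G, (S : Subgroup G) ⊓ MulAut.conj g • (S : Subgroup G) = ⊥ := by
  classical
  have hab : ∀ P : Sylow p G, IsMulCommutative ↥(P : Subgroup G) := by
    intro P
    exact ⟨⟨fun a b => (Sylow.equiv P S).injective (by rw [map_mul, map_mul, IsMulCommutative.is_comm.comm])⟩⟩
  obtain ⟨P, Q, hPQ⟩ := Cfsg.Agent.S1009.result p hab
  have hbot : (⨅ R : Sylow p G, (R : Subgroup G)) = ⊥ := by
    rw [eq_bot_iff, ← hOp]
    refine le_sSup ⟨?_, ?_⟩
    · refine ⟨fun x hx g => ?_⟩
      rw [mem_iInf] at hx ⊢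
      intro R
      have h := hx (g⁻¹ • R)
      obtain ⟨y, hy, he⟩ := h
      have : g * x * g⁻¹ = y := by
        rw [← he]
        show g * (g⁻¹ * y * g⁻¹⁻¹) * g⁻¹ = y
        group
      rwa [this]
    · exact S.2.to_le (iInf_le _ S)
  rw [hbot] at hPQ
  obtain ⟨a, ha⟩ := MulAction.exists_smul_eq G S P
  obtain ⟨b, hb⟩ := MulAction.exists_smul_eq G S Q
  refine ⟨a⁻¹ * b, ?_⟩
  have e1 : MulAut.conj a • (S : Subgroup G) = P := congrArg Sylow.toSubgroup ha
  have e2 : MulAut.conj b • (S : Subgroup G) = Q := congrArg Sylow.toSubgroup hb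
  apply (MulAction.injective (MulAut.conj a))
  show MulAut.conj a • _ = MulAut.conj a • _
  rw [Subgroup.smul_inf, smul_smul, ← map_mul, mul_inv_cancel_left, e1, e2, hPQ]
  exact (Subgroup.Normal.conj_smul_eq_self a ⊥).symm

end Cfsg.Agent.S0060
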