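import Cfsg.Statements.S0063
import Mathlib.GroupTheory.SpecificGroups.Cyclic

set_option autoImplicit false
open Cfsg

open Subgroup
open scoped Pointwise
namespace Cfsg.Agent.S0063

theorem aux (p : ℕ) [Fact p.Prime] (m : ℕ) : ∀ (G : Type*) [Group G] [Finite G],
    Nat.card G = p ^ m → 1 < m → Group.nilpotencyClass G ≤ m - 1 := by
  induction m using Nat.strongRecOn with | ind m ih => ?_
  intro G _ _ hG hm
  have hp : p.Prime := Fact.out
  have hpg : IsPGroup p G := IsPGroup.of_card hG
  have : Group.IsNilpotent G := hpg.isNilpotent
  by_cases hab : ∀ a b : G, a * b = b * a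
  · letI : CommGroup G := { (inferInstance : Group G) with mul_comm := hab }
    exact le_trans CommGroup.nilpotencyClass_le_one (by omega)
  have : Nontrivial G := by
    rw [← Finite.one_lt_card_iff_nontrivial, hG]
    exact Nat.one_lt_pow (by omega) hp.one_lt
  obtain ⟨k, hkm, hk⟩ := (Nat.dvd_prime_pow hp).mp (hG ▸ Subgroup.card_quotient_dvd_card (center G))
  have hk1 : 1 < k := by
    by_contra hk1
    apply hab
    have : IsCyclic (G ⧸ center G) := by
      rcases Nat.le_one_iff_eq_zero_or_eq_one.mp (not_lt.mp hk1) with h | h
      · subst h
        have : Subsingleton (G ⧸ center G) := (Nat.card_eq_one_iff_unique.mp (by rw [hk, pow_zero])).1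
        infer_instance
      · subst h
        exact isCyclic_of_prime_card (p := p) (by rw [hk, pow_one])
    have := (QuotientGroup.mk' (center G)).isMulCommutative_of_isCyclic_of_ker_le_center
      (by rw [QuotientGroup.ker_mk'])
    exact fun a b => IsMulCommutative.is_comm.comm a b
  have hlt : k < m := by
    have := hpg.bot_lt_center
    rcases hkm.lt_or_eq with h | h
    · exact h
    · exfalso
      rw [h, ← hG, ← index_eq_card] at hk
      have h1 : Nat.card (center G) * Nat.card G = 1 * Nat.card G := by
        have := (center G).card_mul_index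
        rw [hk] at this
        rw [this, one_mul]
      exact this.ne' (card_eq_one.mp (Nat.eq_of_mul_eq_mul_right Nat.card_pos h1))
  have := ih k hlt (G ⧸ center G) hk hk1
  rw [Group.nilpotencyClass_eq_quotient_center_plus_one]
  omega

/-- A finite group of prime-power order p ^ m with m > 1 is nilpotent of class at most m - 1. -/
theorem result {G : Type*} [Group G] [Finite G] (p m : ℕ) [Fact p.Prime]
    (hG : Nat.card G = p ^ m) (hm : 1 < m) : Group.nilpotencyClass G ≤ m - 1 := by
  exact aux p m G hG hm

end Cfsg.Agent.S0063
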