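import Cfsg.Statements.S0065
import Mathlib.GroupTheory.Nilpotent

set_option autoImplicit false
open Cfsg

open Subgroup
open scoped Pointwise
namespace Cfsg.Agent.S0065

/-- A nontrivial normal subgroup of a nilpotent group intersects the centre nontrivially. -/
theorem result {G : Type*} [Group G] [Finite G] [Group.IsNilpotent G]
    (N : Subgroup G) [N.Normal] (hN : N ≠ ⊥) : N ⊓ Subgroup.center G ≠ ⊥ := by
  intro h
  apply hN
  have key : ∀ n, N ⊓ Subgroup.upperCentralSeries G n = ⊥ := by
    intro n
    induction n with
    | zero => rw [Subgroup.upperCentralSeries_zero]; exact inf_bot_eq N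
    | succ n ih =>
      rw [eq_bot_iff]
      rintro x ⟨hx, hx'⟩
      have hc : x ∈ Subgroup.center G := by
        rw [mem_center_iff]
        intro y
        have h1 : x * y * x⁻¹ * y⁻¹ ∈ N ⊓ Subgroup.upperCentralSeries G n := by
          refine ⟨?_, Subgroup.mem_upperCentralSeries_succ_iff.mp hx' y⟩
          have := (inferInstance : N.Normal).conj_mem _ (inv_mem hx) y
          simpa [mul_assoc] using mul_mem hx this
        rw [ih, mem_bot, mul_inv_eq_one, mul_inv_eq_iff_eq_mul] at h1
        exact h1.symm
      exact h ▸ (⟨hx, hc⟩ : x ∈ N ⊓ Subgroup.center G)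
  obtain ⟨n, hn⟩ := Group.IsNilpotent.nilpotent G
  simpa [hn] using key n

end Cfsg.Agent.S0065
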