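import Cfsg.Statements.S0066
import Cfsg.Agent.S0540

set_option autoImplicit false
open Pointwise
open Cfsg

open Subgroup
open scoped Pointwise
namespace Cfsg.Agent.S0066

universe u

theorem transfer {G G' : Type*} [Group G] [Group G'] (f : G →* G') (hf : Function.Injective f)
    (X Y : Subgroup G) : (X.subgroupOf Y).IsSubnormal ↔
      ((X.map f).subgroupOf (Y.map f)).IsSubnormal := by
  let e := Y.equivMapOfInjective f hf
  have he : (X.subgroupOf Y).map e.toMonoidHom = (X.map f).subgroupOf (Y.map f) := by
    ext z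
    constructor
    · rintro ⟨y, hy, rfl⟩
      exact mem_map_of_mem f hy
    · rintro ⟨x, hx, hxz⟩
      refine ⟨e.symm z, ?_, e.apply_symm_apply z⟩
      have : f (e.symm z : G) = f x := by
        rw [hxz, ← coe_equivMapOfInjective_apply Y f hf]
        exact congrArg Subtype.val (e.apply_symm_apply z)
      show (e.symm z : G) ∈ X
      rw [hf this]; exact hx
  constructor
  · intro h
    rw [← he]
    exact h.map e.surjective
  · intro h
    rw [← comap_map_eq_self_of_injective (f := e.toMonoidHom) e.injective (X.subgroupOf Y), he]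
    exact h.comap _

theorem conj_sn {G : Type*} [Group G] {X Y : Subgroup G} (g : G)
    (h : (X.subgroupOf Y).IsSubnormal) :
    ((MulAut.conj g • X).subgroupOf (MulAut.conj g • Y)).IsSubnormal :=
  (transfer (MulAut.conj g).toMonoidHom (MulAut.conj g).injective X Y).mp h

theorem conj_map {G G' : Type*} [Group G] [Group G'] (f : G →* G') (g : G) (H : Subgroup G) :
    (MulAut.conj g • H).map f = MulAut.conj (f g) • H.map f := by
  show (H.map (MulAut.conj g).toMonoidHom).map f = (H.map f).map (MulAut.conj (f g)).toMonoidHom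
  rw [map_map, map_map]
  congr 1
  ext x
  simp

theorem aux (n : ℕ) : ∀ (G : Type u) [Group G] [Finite G], Nat.card G ≤ n → ∀ A : Subgroup G,
    (∀ g : G, (A.subgroupOf (A ⊔ MulAut.conj g • A)).IsSubnormal) → A.IsSubnormal := by
  induction n with
  | zero => intro G _ _ hn; have := Nat.card_pos (α := G); omega
  | succ n ih =>
    intro G _ _ hn A h
    classical
    by_contra hA
    have hAtop : A ≠ ⊤ := fun e => hA (e ▸ IsSubnormal.top)
    have hsub : ∀ V : Subgroup G, A ≤ V → V ≠ ⊤ → (A.subgroupOf V).IsSubnormal := by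
      intro V hAV hV
      refine ih V ?_ (A.subgroupOf V) fun g => ?_
      · have : Nat.card V < Nat.card G := lt_of_le_of_ne (card_le_card_group V)
          fun e => hV (eq_top_of_card_eq V e)
        omega
      · rw [transfer V.subtype V.subtype_injective, Subgroup.map_sup, conj_map,
          map_subgroupOf_eq_of_le hAV]
        exact h g
    let S : Subgroup G → Set (Subgroup G) :=
      fun V => {B | (∃ g : G, B = MulAut.conj g • A) ∧ B ≤ V ∧ (B.subgroupOf V).IsSubnormal}
    have hAS : ∀ V : Subgroup G, A ≤ V → V ≠ ⊤ → A ∈ S V := fun V hAV hV =>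
      ⟨⟨1, by rw [map_one, one_smul]⟩, hAV, hsub V hAV hV⟩
    obtain ⟨M, ⟨hAM, hM⟩, hmax⟩ := Cfsg.Agent.S0540.result A {V | A ≤ V ∧ V ≠ ⊤} ⟨A, le_rfl, hAtop⟩ S
      (fun V B => Iff.rfl) (fun V hV => hAS V hV.1 hV.2)
      (by
        rintro V ⟨hAV, hV⟩ W - B ⟨⟨g, rfl⟩, -, -⟩ hBV
        refine ⟨⟨g, rfl⟩, hBV, ?_⟩
        have hAV' : A ≤ MulAut.conj g⁻¹ • V := by
          rw [map_inv, ← Subgroup.pointwise_smul_le_pointwise_smul_iff (a := MulAut.conj g), smul_inv_smul]
          exact hBV
        have hV' : MulAut.conj g⁻¹ • V ≠ ⊤ := by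
          intro e
          apply hV
          rw [← smul_inv_smul (MulAut.conj g) V, ← map_inv, e]
          exact Subgroup.Normal.conj_smul_eq_self g ⊤
        have := conj_sn g (hsub _ hAV' hV')
        rwa [map_inv, smul_inv_smul] at this)
      (by
        rintro V ⟨hAV, hV⟩ W ⟨hAW, hW⟩
        set T : Subgroup G := sSup (S V ∩ S W) with hT
        have hAT : A ≤ T := le_sSup ⟨hAS V hAV hV, hAS W hAW hW⟩
        have hTV : T ≤ V := sSup_le fun B hB => hB.1.2.1
        refine ⟨Subgroup.normalizer (T : Set G), ⟨hAT.trans le_normalizer, fun e => hA ?_⟩, le_rfl⟩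
        have hTn : T.Normal := normalizer_eq_top_iff.mp e
        have hne : T ≠ ⊤ := fun e' => hV (top_le_iff.mp (e' ▸ hTV))
        exact IsSubnormal.trans hAT (hsub T hAT hne) hTn.isSubnormal)
    by_cases hall : ∀ g : G, MulAut.conj g • A ≤ M
    · apply hA
      set N := Subgroup.normalClosure (A : Set G) with hN
      have hNM : N ≤ M := by
        rw [hN, Subgroup.normalClosure, closure_le]
        intro x hx
        obtain ⟨a, ha, hc⟩ := Group.mem_conjugatesOfSet_iff.mp hx
        obtain ⟨c, rfl⟩ := isConj_iff.mp hc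
        exact hall c ⟨a, ha, rfl⟩
      have hne : N ≠ ⊤ := fun e => hM (top_le_iff.mp (e ▸ hNM))
      exact IsSubnormal.trans le_normalClosure (hsub N le_normalClosure hne)
        (normalClosure_normal : N.Normal).isSubnormal
    · push Not at hall
      obtain ⟨g, hg⟩ := hall
      have htop : A ⊔ MulAut.conj g • A = ⊤ := by
        by_contra hne
        exact hg (le_sup_right.trans (hmax _ ⟨le_sup_left, hne⟩))
      apply hA
      have := h g
      rw [htop] at this
      exact IsSubnormal.trans le_top this IsSubnormal.top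

/-- Wielandt's subnormality criterion: a subgroup that is subnormal in its join with each of its conjugates is subnormal in the whole finite group. -/
theorem result {G : Type*} [Group G] [Finite G] (A : Subgroup G)
    (h : ∀ g : G, (A.subgroupOf (A ⊔ MulAut.conj g • A)).IsSubnormal) : A.IsSubnormal := by
  exact aux _ G le_rfl A h

end Cfsg.Agent.S0066
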