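import Cfsg.Statements.S0070
import Cfsg.Agent.Cores.Fitting

set_option autoImplicit false
open Cfsg

open Subgroup
open scoped Pointwise
namespace Cfsg.Agent.S0070

/-- The Fitting subgroup commutes with passing to the Frattini quotient: the Fitting subgroup of G modulo its Frattini subgroup is the image of the Fitting subgroup of G. -/
theorem result {G : Type*} [Group G] [Finite G] :
    Cfsg.fittingSubgroup (G ⧸ frattini G) = (Cfsg.fittingSubgroup G).map (QuotientGroup.mk' (frattini G)) := by
  classical
  set f := QuotientGroup.mk' (frattini G) with hf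
  have hsurj := QuotientGroup.mk'_surjective (frattini G)
  refine le_antisymm ?_ (Cfsg.Agent.Cores.map_fittingSubgroup_le_of_surjective f hsurj)
  set F := Cfsg.fittingSubgroup (G ⧸ frattini G) with hF
  have hFn : Group.IsNilpotent F := Cfsg.Agent.Cores.fittingSubgroup_isNilpotent
  set K := F.comap f with hK
  have hKn : K.Normal := (Cfsg.Agent.Cores.fittingSubgroup_normal_inst _).comap f
  suffices hnil : Group.IsNilpotent K by
    rw [← map_comap_eq_self_of_surjective hsurj F]
    exact map_mono (Cfsg.Agent.Cores.le_fittingSubgroup hKn hnil)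
  refine ((Group.isNilpotent_of_finite_tfae (G := K)).out 0 3).mpr fun p hp P => ?_
  have : Fact p.Prime := hp
  have hΦK : frattini G ≤ K := by rw [hK, hf]; exact QuotientGroup.le_comap_mk' _ _
  set f' : K →* F := f.subgroupComap F with hf'
  have hf's : Function.Surjective f' := f.subgroupComap_surjective_of_surjective F hsurj
  set P' : Sylow p F := P.mapSurjective hf's with hP'
  have hPc : (P' : Subgroup F).Characteristic := P'.characteristic_of_normal inferInstance
  set L : Subgroup G := ((P' : Subgroup F).map F.subtype).comap f with hL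
  have hLn : L.Normal := Subgroup.Normal.comap inferInstance f
  set Pm := (P : Subgroup K).map K.subtype with hPm
  have hPL : Pm ≤ L := by
    rintro _ ⟨x, hx, rfl⟩
    exact ⟨f' x, by rw [hP', Sylow.coe_mapSurjective]; exact mem_map_of_mem f' hx, rfl⟩
  have hLK : L ≤ K := comap_mono (map_subtype_le _)
  have hPrange : (P : Subgroup K) ≤ (Subgroup.inclusion hLK).range := by
    intro x hx
    exact ⟨⟨x, hPL ⟨x, hx, rfl⟩⟩, Subtype.ext rfl⟩
  set PL : Sylow p L := P.comapOfInjective (Subgroup.inclusion hLK) (inclusion_injective hLK) hPrange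
  have hPLmap : (PL : Subgroup L).map L.subtype = Pm := by
    ext x
    constructor
    · rintro ⟨y, hy, rfl⟩
      exact ⟨Subgroup.inclusion hLK y, hy, rfl⟩
    · rintro ⟨y, hy, rfl⟩
      exact ⟨⟨y, hPL ⟨y, hy, rfl⟩⟩, hy, rfl⟩
  have hfr : Subgroup.normalizer (Pm : Set G) ⊔ L = ⊤ := hPLmap ▸ Sylow.normalizer_sup_eq_top PL
  have hLle : L ≤ Subgroup.normalizer (Pm : Set G) ⊔ frattini G := by
    have h1 : L.map f ≤ Pm.map f := by
      rw [hL, map_comap_eq_self_of_surjective hsurj, hP', Sylow.coe_mapSurjective, map_map, hPm, map_map]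
      exact le_of_eq rfl
    rw [Subgroup.map_le_map_iff, QuotientGroup.ker_mk'] at h1
    exact h1.trans (sup_le_sup_right le_normalizer _)
  have htop : Subgroup.normalizer (Pm : Set G) = ⊤ := by
    apply frattini_nongenerating
    rw [eq_top_iff, ← hfr]
    exact sup_le le_sup_left hLle
  exact (normalizer_eq_top_iff.mp htop).of_map_subtype

end Cfsg.Agent.S0070
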