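import Cfsg.Statements.S0075
import Cfsg.Agent.Transfer.Fusion
-- import your own Cfsg.Agent.* helpers here

set_option autoImplicit false
open Cfsg

namespace Cfsg.Agent.S0075

open scoped commutatorElement

/-- For an abelian Sylow p-subgroup T, its intersection with the subgroup generated by the elements of order prime to p is the commutator of T with its normalizer. -/
theorem result {G : Type*} [Group G] [Finite G] {p : ℕ} [Fact p.Prime] (T : Sylow p G) (hT : IsMulCommutative T) : (T : Subgroup G) ⊓ Cfsg.pResidual p G = ⁅(T : Subgroup G), Subgroup.normalizer (T : Set G)⁆ := by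
  refine le_antisymm ((Cfsg.Agent.Transfer.sylow_inf_pResidual_le_focal T).trans ?_)
    (le_inf ?_ ?_)
  · rw [Subgroup.focalSubgroup_def, Subgroup.closure_le]
    rintro g ⟨hg, x, hx, u, rfl⟩
    have h1 : u * x⁻¹ * u⁻¹ ∈ (T : Subgroup G) := by
      have := mul_mem (inv_mem hx) hg
      simpa [commutatorElement_def, mul_assoc] using this
    obtain ⟨n, hn, he⟩ := Cfsg.Agent.Transfer.controlsFusion_normalizer_of_abelian T hT x⁻¹
      (inv_mem hx) u h1
    have h2 : ⁅x, u⁆ = ⁅x, n⁆ := by
      simp only [commutatorElement_def, mul_assoc] at he ⊢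
      rw [he]
    rw [h2]
    exact Subgroup.commutator_mem_commutator hx hn
  · refine Subgroup.commutator_le.mpr fun x hx n hn => ?_
    rw [commutatorElement_def, mul_assoc, mul_assoc, ← mul_assoc n]
    exact mul_mem hx ((Subgroup.mem_normalizer_iff.mp hn _).mp (inv_mem hx))
  · refine Subgroup.commutator_le.mpr fun x hx n hn => ?_
    let N := Subgroup.normalizer (T : Set G)
    obtain ⟨w, hw, t, ht, he⟩ := Cfsg.Agent.Transfer.exists_mul_eq_of_not_dvd_index (p := p)
      (T.subtype (N := N) Subgroup.le_normalizer).not_dvd_index (⟨n, hn⟩ : N)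
    have hwG : (w : G) ∈ Cfsg.pResidual p G :=
      Cfsg.Agent.Transfer.map_subtype_pResidual_le N (Subgroup.mem_map_of_mem N.subtype hw)
    have htx : (t : G) * x⁻¹ = x⁻¹ * (t : G) :=
      congrArg Subtype.val (hT.is_comm.comm (⟨(t : G), ht⟩ : T) ⟨x⁻¹, inv_mem hx⟩)
    have he' : (w : G) * t = n := congrArg Subtype.val he
    have h1 : ⁅x, n⁆ = x * (w : G) * x⁻¹ * (w : G)⁻¹ := by
      calc ⁅x, n⁆ = x * (w : G) * ((t : G) * x⁻¹) * (t : G)⁻¹ * (w : G)⁻¹ := by
            rw [← he', commutatorElement_def]; simp [mul_assoc]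
        _ = _ := by rw [htx]; simp [mul_assoc]
    rw [h1]
    exact mul_mem (Subgroup.Normal.conj_mem inferInstance _ hwG x) (inv_mem hwG)

end Cfsg.Agent.S0075
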