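import Cfsg.Statements.S0078
import Cfsg.Agent.Transfer.Fusion
-- import your own Cfsg.Agent.* helpers here

set_option autoImplicit false
open Cfsg

namespace Cfsg.Agent.S0078

/-- In a p-normal group, a Sylow p-subgroup P meets O^p(G) exactly where it meets O^p(V), for any subgroup V containing the normalizer of the centre of P. -/
theorem result {G : Type*} [Group G] [Finite G] {p : ℕ} [Fact p.Prime] (P : Sylow p G) (hn : ∀ Q : Sylow p G, (P : Subgroup G) ⊓ Subgroup.centralizer (P : Set G) ≤ (Q : Subgroup G) → (Q : Subgroup G) ⊓ Subgroup.centralizer (Q : Set G) = (P : Subgroup G) ⊓ Subgroup.centralizer (P : Set G)) (V : Subgroup G) (hV : Subgroup.normalizer (((P : Subgroup G) ⊓ Subgroup.centralizer (P : Set G) : Subgroup G) : Set G) ≤ V) : (P : Subgroup G) ⊓ Cfsg.pResidual p G = (P : Subgroup G) ⊓ (Cfsg.pResidual p V).map V.subtype := by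
  have hW : Cfsg.IsWeaklyClosed ((P : Subgroup G) ⊓ Subgroup.centralizer (P : Set G)) P := by
    refine ⟨inf_le_left, fun g hg => ?_⟩
    let Z : Subgroup G := (P : Subgroup G) ⊓ Subgroup.centralizer (P : Set G)
    have hQ := hn (g⁻¹ • P) fun z hz => by
      exact ⟨g * z * g⁻¹, hg ⟨z, hz, rfl⟩, by simp [mul_assoc]⟩
    have hmap : Z.map (MulAut.conj g⁻¹).toMonoidHom ≤
        ((g⁻¹ • P : Sylow p G) : Subgroup G) ⊓ Subgroup.centralizer
          (((g⁻¹ • P : Sylow p G) : Subgroup G) : Set G) := by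
      rintro - ⟨z, hz, rfl⟩
      refine ⟨⟨z, hz.1, rfl⟩, Subgroup.mem_centralizer_iff.mpr ?_⟩
      rintro - ⟨y, hy, rfl⟩
      exact ((map_mul (MulAut.conj g⁻¹) y z).symm.trans
        ((congrArg _ (Subgroup.mem_centralizer_iff.mp hz.2 y hy)).trans (map_mul _ z y)))
    have e : Z.map (MulAut.conj g⁻¹).toMonoidHom = Z :=
      Subgroup.eq_of_le_of_card_ge (hmap.trans_eq hQ)
        (Subgroup.card_map_of_injective (MulEquiv.injective _)).ge
    show Z.map (MulAut.conj g).toMonoidHom = Z
    conv_lhs => rw [← e]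
    rw [Cfsg.Agent.Transfer.map_conj_map_conj, mul_inv_cancel, Cfsg.Agent.Transfer.map_conj_one]
  exact Cfsg.Agent.Transfer.ControlsFusion.inf_pResidual_eq P
    (Subgroup.le_normalizer.trans
      ((Cfsg.Agent.Transfer.normalizer_le_normalizer_of_isWeaklyClosed hW).trans hV))
    ((Cfsg.Agent.Transfer.controlsFusion_normalizer_of_weaklyClosed P _ inf_le_right hW).mono hV)

end Cfsg.Agent.S0078
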