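import Cfsg.Statements.S0079
import Cfsg.Agent.Transfer.Hall
-- import your own Cfsg.Agent.* helpers here

set_option autoImplicit false
open Cfsg

namespace Cfsg.Agent.S0079

/-- A nilpotent Hall subgroup has a normal complement exactly when elements of it that are conjugate in the whole group are already conjugate inside it. -/
theorem result {G : Type*} [Group G] [Finite G] (H : Subgroup G) (hH : Group.IsNilpotent H) (hHall : Nat.Coprime (Nat.card H) H.index) : (∃ N : Subgroup G, N.Normal ∧ N.IsComplement' H) ↔ ∀ x ∈ H, ∀ y ∈ H, (∃ g : G, g * x * g⁻¹ = y) → ∃ h ∈ H, h * x * h⁻¹ = y := by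
  refine ⟨fun ⟨N, hN, hc⟩ x hx y hy ⟨g, hg⟩ =>
    Cfsg.Agent.Transfer.exists_conj_eq_of_normal_complement hc hx hy g hg, fun h => ?_⟩
  refine Cfsg.Agent.Transfer.exists_normal_complement_of_hall H hHall fun p hp hpH => ?_
  have := Fact.mk hp
  obtain ⟨R⟩ : Nonempty (Sylow p H) := inferInstance
  obtain ⟨P, hP⟩ := Cfsg.Agent.Transfer.exists_sylow_eq_map
    (Cfsg.Agent.Transfer.not_dvd_index_of_dvd_card_of_coprime hp hHall hpH) R
  refine Cfsg.Agent.Transfer.hasNormalPComplement_of_controlsFusion P fun x hx g hg => ?_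
  obtain ⟨K, hKc, hKs, -, -⟩ := Cfsg.Agent.Transfer.exists_nilpotent_decomposition hH R
  rw [hP] at hx hg
  obtain ⟨a, ha, rfl⟩ := hx
  obtain ⟨b, hb, hbe⟩ := hg
  obtain ⟨k, hk, he⟩ := h a a.2 b b.2 ⟨g, hbe.symm⟩
  have hn : (R : Subgroup H).Normal :=
    Sylow.normal_of_normalizerCondition Group.normalizerCondition_of_isNilpotent R
  obtain ⟨r, hr, c, hc, hrc⟩ := Subgroup.mem_sup_of_normal_left.mp
    (show (⟨k, hk⟩ : H) ∈ (R : Subgroup H) ⊔ K by rw [sup_comm, hKs]; exact Subgroup.mem_top _)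
  refine ⟨(r : G), hP ▸ ⟨r, hr, rfl⟩, ?_⟩
  have hca : (c : G) * (a : G) * (c : G)⁻¹ = a := mul_inv_eq_iff_eq_mul.mpr
    (congrArg Subtype.val (Subgroup.mem_centralizer_iff.mp (hKc hc) a ha)).symm
  have hk' : (r : G) * c = k := congrArg Subtype.val hrc
  calc (r : G) * (a : G) * (r : G)⁻¹
      = (r : G) * ((c : G) * (a : G) * (c : G)⁻¹) * (r : G)⁻¹ := by rw [hca]
    _ = k * (a : G) * k⁻¹ := by rw [← hk']; simp [mul_assoc]
    _ = _ := he.trans hbe

end Cfsg.Agent.S0079
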