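import Cfsg.Statements.S0082
import Cfsg.Agent.Transfer.Tate
-- import your own Cfsg.Agent.* helpers here

set_option autoImplicit false
open Cfsg

namespace Cfsg.Agent.S0082

/-- With a cyclic Sylow p-subgroup, either there is a normal p-complement or the elements of order prime to p generate the whole group. -/
theorem result {G : Type*} [Group G] [Finite G] {p : ℕ} [Fact p.Prime] (P : Sylow p G) (hP : IsCyclic P) : Cfsg.HasNormalPComplement p G ∨ Cfsg.pResidual p G = ⊤ := by
  by_cases hW : (P : Subgroup G) ≤ Cfsg.pResidual p G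
  · right
    rw [eq_top_iff]
    exact (Cfsg.Agent.Transfer.pResidual_sup_sylow P).ge.trans (sup_le le_rfl hW)
  left
  have hsyl : Cfsg.pResidual p G ⊓ (P : Subgroup G) ≤ (frattini P).map (P : Subgroup G).subtype := by
    intro x hx
    obtain ⟨hxW, hxP⟩ := Subgroup.mem_inf.mp hx
    refine ⟨⟨x, hxP⟩, ?_, rfl⟩
    obtain ⟨g, hg⟩ := hP.exists_generator
    let S := (Cfsg.pResidual p G).subgroupOf (P : Subgroup G)
    have hprop : ∀ A : Subgroup P, A ≠ ⊤ → A ≤ Subgroup.zpowers (g ^ p) := by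
      intro A hA a ha
      obtain ⟨k, rfl⟩ := mem_powers_iff_mem_zpowers.mpr (hg a)
      by_cases hd : p ∣ k
      · obtain ⟨j, rfl⟩ := hd
        simp only [pow_mul]
        exact pow_mem (Subgroup.mem_zpowers _) j
      · obtain ⟨m, hm⟩ := (IsPGroup.iff_orderOf.mp P.2) g
        have hcop : k.Coprime (orderOf g) := by
          rw [hm]
          exact (((Fact.out : p.Prime).coprime_iff_not_dvd.mpr hd).symm).pow_right m
        obtain ⟨i, hi⟩ := exists_pow_eq_self_of_coprime hcop
        refine absurd (eq_top_iff.mpr fun y _ => ?_) hA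
        obtain ⟨l, rfl⟩ := hg y
        exact zpow_mem (hi ▸ pow_mem ha i) l
    have hS : S ≠ ⊤ := fun h => hW (Subgroup.subgroupOf_eq_top.mp h)
    show (⟨x, hxP⟩ : P) ∈ frattini P
    rw [frattini, Order.radical]
    refine Subgroup.mem_iInf.mpr fun M => Subgroup.mem_iInf.mpr fun hM => ?_
    by_contra hxM
    have hlt : M < M ⊔ S := lt_of_le_not_ge le_sup_left fun h =>
      hxM (h (Subgroup.mem_sup_right hxW))
    have htop : Subgroup.zpowers (g ^ p) = ⊤ :=
      top_le_iff.mp ((hM.2 _ hlt).ge.trans (sup_le (hprop M hM.1) (hprop S hS)))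
    obtain ⟨j, hj⟩ := mem_powers_iff_mem_zpowers.mpr (htop ▸ Subgroup.mem_top g : g ∈ Subgroup.zpowers (g ^ p))
    obtain ⟨m, hm⟩ := (IsPGroup.iff_orderOf.mp P.2) g
    rcases m with _ | m
    · rw [pow_zero, orderOf_eq_one_iff] at hm
      refine hS (eq_top_iff.mpr fun y _ => ?_)
      obtain ⟨l, rfl⟩ := hg y
      simp [hm]
    · simp only [← pow_mul] at hj
      have h1 := pow_eq_pow_iff_modEq.mp (hj.trans (pow_one g).symm)
      rw [hm] at h1
      have h2 := Nat.ModEq.of_dvd (dvd_pow_self p m.succ_ne_zero) h1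
      have h3 : p * j ≡ 0 [MOD p] := Nat.modEq_zero_iff_dvd.mpr (dvd_mul_right p j)
      exact (Fact.out : p.Prime).one_lt.ne'
        (Nat.dvd_one.mp (Nat.modEq_zero_iff_dvd.mp (h2.symm.trans h3)))
  have hN := Cfsg.Agent.Transfer.hasNormalPComplement_of_inf_le_frattini P (Cfsg.pResidual p G) hsyl
  rw [Cfsg.Agent.Transfer.hasNormalPComplement_iff,
    Cfsg.Agent.Transfer.pResidual_pResidual, Subgroup.card_top] at hN
  exact Cfsg.Agent.Transfer.hasNormalPComplement_iff.mpr hN

end Cfsg.Agent.S0082
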