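import Cfsg.Statements.S0083
import Cfsg.Agent.Transfer.Frobenius
-- import your own Cfsg.Agent.* helpers here

set_option autoImplicit false
open Cfsg

namespace Cfsg.Agent.S0083

/-- For an abelian Sylow p-subgroup P, a normal p-complement exists exactly when the normalizer of P is an internal direct product of P with some subgroup. -/
theorem result {G : Type*} [Group G] [Finite G] {p : ℕ} [Fact p.Prime] (P : Sylow p G) (hP : IsMulCommutative P) : Cfsg.HasNormalPComplement p G ↔ ∃ Q : Subgroup G, Q ≤ Subgroup.centralizer (P : Set G) ∧ Q ⊓ (P : Subgroup G) = ⊥ ∧ Q ⊔ (P : Subgroup G) = Subgroup.normalizer (P : Set G) := by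
  let N := Subgroup.normalizer (P : Set G)
  refine ⟨fun h => ?_, fun ⟨Q, hQC, _, hQN⟩ => ?_⟩
  · refine ⟨(Cfsg.pResidual p N).map N.subtype, ?_, ?_, ?_⟩
    · rintro - ⟨x, hx, rfl⟩
      refine Cfsg.Agent.Transfer.centralize_of_hasNormalPComplement h P P.2 x.2 ?_
      rw [Subgroup.coe_subtype, Subgroup.orderOf_coe]
      exact (Cfsg.Agent.Transfer.mem_pResidual_iff_coprime
        (Cfsg.Agent.Transfer.hasNormalPComplement_subgroup N h) x).mp hx
    · refine le_bot_iff.mp ((inf_le_inf_right _
        (Cfsg.Agent.Transfer.map_subtype_pResidual_le N)).trans ?_)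
      exact ((Cfsg.Agent.Transfer.hasNormalPComplement_iff_disjoint P).mp h).le
    · have := congrArg (Subgroup.map N.subtype)
        (Cfsg.Agent.Transfer.pResidual_sup_sylow (P.subtype (N := N) Subgroup.le_normalizer))
      rw [Subgroup.map_sup, Sylow.coe_subtype, Subgroup.map_subgroupOf_eq_of_le (show (P : Subgroup G) ≤ N from Subgroup.le_normalizer),
        ← MonoidHom.range_eq_map, Subgroup.range_subtype] at this
      exact this
  · refine Cfsg.Agent.Transfer.hasNormalPComplement_of_normalizer_le_centralizer P ?_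
    exact hQN.ge.trans (sup_le hQC P.le_centralizer)

end Cfsg.Agent.S0083
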