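import Cfsg.Statements.S0084
import Cfsg.Agent.Transfer.Centralize
-- import your own Cfsg.Agent.* helpers here

set_option autoImplicit false
open Cfsg

namespace Cfsg.Agent.S0084

/-- A group whose Sylow 2-subgroups are Klein four-groups and whose order is prime to 3 has a normal 2-complement. -/
theorem result {G : Type*} [Group G] [Finite G] (T : Sylow 2 G) (hT : IsKleinFour T) (h3 : ¬ 3 ∣ Nat.card G) : Cfsg.HasNormalPComplement 2 G := by
  have hc : IsMulCommutative T := by
    have := hT
    exact IsPGroup.isMulCommutative_of_card_eq_prime_sq (p := 2) (by rw [IsKleinFour.card_four]; rfl)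
  refine Cfsg.Agent.Transfer.hasNormalPComplement_of_forall_prime T hc (n := 2)
    (by have := hT; rw [IsKleinFour.card_four]; rfl) fun q hq hqG hq2 i hi hd => ?_
  have hq3 : q ≠ 3 := fun h => h3 (h ▸ hqG)
  interval_cases i
  · exact hq3 ((Nat.prime_dvd_prime_iff_eq hq Nat.prime_three).mp hd)
  · exact hq2 ((Nat.prime_dvd_prime_iff_eq hq Nat.prime_two).mp hd)

end Cfsg.Agent.S0084
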