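import Cfsg.Statements.S0085
import Cfsg.Agent.Transfer.Centralize
-- import your own Cfsg.Agent.* helpers here

set_option autoImplicit false
open Cfsg

namespace Cfsg.Agent.S0085

/-- A group whose Sylow 2-subgroups are elementary abelian of order 8 and whose order is prime to 3 and to 7 has a normal 2-complement. -/
theorem result {G : Type*} [Group G] [Finite G] (T : Sylow 2 G) (h8 : Nat.card T = 8) (he : ∀ x : T, x * x = 1) (h3 : ¬ 3 ∣ Nat.card G) (h7 : ¬ 7 ∣ Nat.card G) : Cfsg.HasNormalPComplement 2 G := by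
  have hc : IsMulCommutative T := ⟨⟨fun a b => by
    have hab := he (a * b)
    have ha : a⁻¹ = a := inv_eq_of_mul_eq_one_right (he a)
    have hb : b⁻¹ = b := inv_eq_of_mul_eq_one_right (he b)
    calc a * b = (a * b)⁻¹ := (inv_eq_of_mul_eq_one_right hab).symm
      _ = b * a := by rw [mul_inv_rev, ha, hb]⟩⟩
  refine Cfsg.Agent.Transfer.hasNormalPComplement_of_forall_prime T hc (n := 3)
    (by rw [h8]; rfl) fun q hq hqG hq2 i hi hd => ?_
  have hq3 : q ≠ 3 := fun h => h3 (h ▸ hqG)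
  have hq7 : q ≠ 7 := fun h => h7 (h ▸ hqG)
  interval_cases i
  · exact hq7 ((Nat.prime_dvd_prime_iff_eq hq (by decide)).mp hd)
  · have h6 : q ∣ 2 * 3 := hd
    rcases hq.dvd_mul.mp h6 with h | h
    · exact hq2 ((Nat.prime_dvd_prime_iff_eq hq Nat.prime_two).mp h)
    · exact hq3 ((Nat.prime_dvd_prime_iff_eq hq Nat.prime_three).mp h)
  · have h4 : q ∣ 2 ^ 2 := hd
    exact hq2 ((Nat.prime_dvd_prime_iff_eq hq Nat.prime_two).mp (hq.dvd_of_dvd_pow h4))

end Cfsg.Agent.S0085
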