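import Cfsg.Statements.S0087
import Cfsg.Agent.Transfer.Hall
-- import your own Cfsg.Agent.* helpers here

set_option autoImplicit false
open Cfsg

namespace Cfsg.Agent.S0087

/-- A Hall subgroup that is central in its normalizer has a normal complement. -/
theorem result {G : Type*} [Group G] [Finite G] (H : Subgroup G) (hHall : Nat.Coprime (Nat.card H) H.index) (h : Subgroup.normalizer (H : Set G) ≤ Subgroup.centralizer (H : Set G)) : ∃ N : Subgroup G, N.Normal ∧ N.IsComplement' H := by
  have hHc : IsMulCommutative H := ⟨⟨fun a b =>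
    Subtype.ext (Subgroup.mem_centralizer_iff.mp (h (Subgroup.le_normalizer b.2)) a a.2)⟩⟩
  have hn : Group.IsNilpotent H := by
    open scoped IsMulCommutative in infer_instance
  refine Cfsg.Agent.Transfer.exists_normal_complement_of_hall H hHall fun p hp hpH => ?_
  have := Fact.mk hp
  obtain ⟨R⟩ : Nonempty (Sylow p H) := inferInstance
  obtain ⟨P, hP⟩ := Cfsg.Agent.Transfer.exists_sylow_eq_map
    (Cfsg.Agent.Transfer.not_dvd_index_of_dvd_card_of_coprime hp hHall hpH) R
  refine Cfsg.Agent.Transfer.hasNormalPComplement_of_normalizer_le_centralizer P fun g hg => ?_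
  have hPH : (P : Subgroup G) ≤ H := hP.trans_le (Subgroup.map_subtype_le _)
  let φ := (MulAut.conj g).toMonoidHom
  have hφ : Function.Injective φ := (MulAut.conj g).injective
  have hHL : H ≤ Subgroup.centralizer ((P : Subgroup G) : Set G) := fun x hx =>
    Subgroup.mem_centralizer_iff.mpr fun y hy =>
      congrArg Subtype.val (hHc.is_comm.comm (⟨y, hPH hy⟩ : H) ⟨x, hx⟩)
  have hKL : H.map φ ≤ Subgroup.centralizer ((P : Subgroup G) : Set G) := by
    rintro - ⟨x, hx, rfl⟩
    refine Subgroup.mem_centralizer_iff.mpr fun y hy => ?_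
    have hy' : g⁻¹ * y * g ∈ (P : Subgroup G) := (Subgroup.mem_normalizer_iff''.mp hg y).mp hy
    have := congrArg φ (Subgroup.mem_centralizer_iff.mp (hHL hx) _ hy')
    simpa [φ, mul_assoc] using this
  obtain ⟨c, hc, he⟩ := Cfsg.Agent.Transfer.exists_conj_of_nilpotent_hall (Nat.card H)
    (Subgroup.centralizer ((P : Subgroup G) : Set G)) H (H.map φ) rfl
    (Subgroup.card_map_of_injective hφ) hHL hKL hn
    (Group.isNilpotent_congr (H.equivMapOfInjective φ hφ) |>.mp hn) hHall
  have hn' : c⁻¹ * g ∈ Subgroup.normalizer (H : Set G) := by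
    refine Subgroup.mem_normalizer_iff_map_conj_eq.mpr ?_
    show H.map (MulAut.conj (c⁻¹ * g)).toMonoidHom = H
    rw [← Cfsg.Agent.Transfer.map_conj_map_conj]
    show Subgroup.map _ (H.map φ) = H
    rw [he, Cfsg.Agent.Transfer.map_conj_map_conj, inv_mul_cancel,
      Cfsg.Agent.Transfer.map_conj_one]
  have hcg : c⁻¹ * g ∈ Subgroup.centralizer ((P : Subgroup G) : Set G) :=
    Subgroup.centralizer_le hPH (h hn')
  have := mul_mem hc hcg
  rwa [mul_inv_cancel_left] at this

end Cfsg.Agent.S0087
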