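import Cfsg.Statements.S0090
import Cfsg.Agent.Transfer.Hall
-- import your own Cfsg.Agent.* helpers here

set_option autoImplicit false
open Cfsg

namespace Cfsg.Agent.S0090

/-- An abelian normal Hall subgroup A splits as the internal direct product of G' ∩ A and Z(G) ∩ A, and [A, G] = G' ∩ A. -/
theorem result {G : Type*} [Group G] [Finite G] (A : Subgroup G) [A.Normal] (hc : IsMulCommutative A) (hHall : Nat.Coprime (Nat.card A) A.index) : ⁅A, (⊤ : Subgroup G)⁆ = commutator G ⊓ A ∧ (commutator G ⊓ A) ⊓ (Subgroup.center G ⊓ A) = ⊥ ∧ (commutator G ⊓ A) ⊔ (Subgroup.center G ⊓ A) = A := by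
  have hdis : (commutator G ⊓ A) ⊓ (Subgroup.center G ⊓ A) = ⊥ := by
    rw [← le_bot_iff, ← Cfsg.Agent.Transfer.abelian_hall_inf_commutator_inf_center A hc hHall]
    exact fun x ⟨⟨hx1, hx2⟩, hx3, _⟩ => ⟨⟨hx2, hx1⟩, hx3⟩
  have hle : ⁅A, (⊤ : Subgroup G)⁆ ≤ commutator G ⊓ A :=
    le_inf (by rw [commutator_def]; exact Subgroup.commutator_mono le_top le_rfl)
      (Subgroup.commutator_le_left A ⊤)
  have hsup := Cfsg.Agent.Transfer.abelian_normal_hall_sup A hc hHall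
  refine ⟨le_antisymm hle fun x hx => ?_, hdis,
    le_antisymm (sup_le inf_le_right inf_le_right) (hsup.ge.trans (sup_le_sup_right hle _))⟩
  have hxs : x ∈ ⁅A, (⊤ : Subgroup G)⁆ ⊔ (Subgroup.center G ⊓ A) := by rw [hsup]; exact hx.2
  obtain ⟨b, hb, z, hz, rfl⟩ := Subgroup.mem_sup_of_normal_left.mp hxs
  have hzc : z ∈ commutator G ⊓ A := by
    have := mul_mem (inv_mem (hle hb)) hx
    rwa [inv_mul_cancel_left] at this
  have hz1 : z = 1 := Subgroup.mem_bot.mp (hdis ▸ Subgroup.mem_inf.mpr ⟨hzc, hz⟩)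
  rw [hz1, mul_one]
  exact hb

end Cfsg.Agent.S0090
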