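import Cfsg.Statements.S0091
import Cfsg.Agent.Transfer.Fusion
-- import your own Cfsg.Agent.* helpers here

set_option autoImplicit false
open Cfsg

namespace Cfsg.Agent.S0091

/-- If a nontrivial Sylow p-subgroup controls its own fusion then it is not contained in the derived subgroup. -/
theorem result {G : Type*} [Group G] [Finite G] {p : ℕ} [Fact p.Prime] (P : Sylow p G) (hp : p ∣ Nat.card G) (h : ∀ x ∈ P, ∀ y ∈ P, (∃ g : G, g * x * g⁻¹ = y) → ∃ z ∈ P, z * x * z⁻¹ = y) : ¬ (P : Subgroup G) ≤ commutator G := by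
  intro hle
  have hcf : Cfsg.Agent.Transfer.ControlsFusion (P : Subgroup G) P := fun x hx g hg =>
    h x hx _ hg ⟨g, rfl⟩
  have h1 := hcf.commutator_inf_sylow_eq P le_rfl
  rw [inf_eq_right.mpr hle] at h1
  have h2 : (P : Subgroup G) ≤ ⁅(P : Subgroup G), (P : Subgroup G)⁆ := h1.trans_le inf_le_left
  rw [← Subgroup.map_subtype_commutator] at h2
  have h3 : commutator (P : Subgroup G) = ⊤ := eq_top_iff.mpr fun x _ => by
    obtain ⟨y, hy, hyx⟩ := h2 x.2
    rwa [← Subgroup.subtype_injective _ hyx]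
  have : Group.IsNilpotent (P : Subgroup G) := P.2.isNilpotent
  have hnt : Nontrivial (P : Subgroup G) :=
    (Subgroup.nontrivial_iff_ne_bot _).mpr (P.ne_bot_of_dvd_card hp)
  exact absurd h3 (Group.IsSolvable.commutator_lt_top_of_nontrivial _).ne

end Cfsg.Agent.S0091
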