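import Cfsg.Statements.S0092
import Cfsg.Agent.Transfer.Hall
import Cfsg.Agent.Lib.SchurZassenhaus
-- import your own Cfsg.Agent.* helpers here

set_option autoImplicit false
open Cfsg
open scoped Pointwise

namespace Cfsg.Agent.S0092

/-- If the Sylow p-subgroups of O^p(G) are abelian then G splits over O^p(G). -/
theorem result {G : Type*} [Group G] [Finite G] {p : ℕ} [Fact p.Prime] (h : ∀ Q : Sylow p (Cfsg.pResidual p G), IsMulCommutative Q) : ∃ K : Subgroup G, K.IsComplement' (Cfsg.pResidual p G) := by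
  classical
  let W := Cfsg.pResidual p G
  obtain ⟨Q⟩ : Nonempty (Sylow p W) := inferInstance
  let Q' := (Q : Subgroup W).map W.subtype
  let N := Subgroup.normalizer (Q' : Set G)
  have hQW : Q' ≤ W := Subgroup.map_subtype_le _
  have hQN : Q' ≤ N := Subgroup.le_normalizer
  have hWN : N ⊔ W = ⊤ := Q.normalizer_sup_eq_top
  have hQc : ∀ a ∈ Q', ∀ b ∈ Q', a * b = b * a := by
    rintro - ⟨a, ha, rfl⟩ - ⟨b, hb, rfl⟩
    exact congrArg Subtype.val (congrArg Subtype.val ((h Q).is_comm.comm (⟨a, ha⟩ : Q) ⟨b, hb⟩))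
  let M : Subgroup G := W ⊓ N
  have hQM : Q' ≤ M := le_inf hQW hQN
  have hQcomm : Q' ≤ ⁅M, M⁆ := by
    have hQd : (Q : Subgroup W) ≤ (Q : Subgroup W).focalSubgroup := by
      intro x hx
      rw [← Subgroup.ker_transferFocal_inf_eq_focalSubgroup Q]
      exact Subgroup.mem_inf.mpr ⟨Cfsg.Agent.Transfer.hom_pResidual_eq_one
        (Q.2.to_quotient (Q : Subgroup W).focalSubgroupOf) (Q : Subgroup W).transferFocal x, hx⟩
    have hmap : (Subgroup.normalizer ((Q : Subgroup W) : Set W)).map W.subtype ≤ M := by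
      rintro - ⟨y, hy, rfl⟩
      refine ⟨y.2, Subgroup.mem_normalizer_iff_map_conj_eq.mpr ?_⟩
      have hy' := Subgroup.mem_normalizer_iff_map_conj_eq.mp hy
      show ((Q : Subgroup W).map W.subtype).map _ = (Q : Subgroup W).map W.subtype
      conv_rhs => rw [← hy']
      rw [Subgroup.map_map, Subgroup.map_map]
      rfl
    refine (Subgroup.map_mono (hQd.trans
      ((Cfsg.Agent.Transfer.controlsFusion_normalizer_of_abelian Q (h Q)).focalSubgroup_le
        Subgroup.le_normalizer))).trans ?_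
    rw [Subgroup.map_commutator]
    exact Subgroup.commutator_mono hmap hmap
  let QM := Q'.subgroupOf M
  have hQMn : QM.Normal := Subgroup.normal_subgroupOf_iff hQM |>.mpr fun a b ha hb =>
    (Subgroup.mem_normalizer_iff.mp hb.2 a).mp ha
  have hQMc : IsMulCommutative QM := ⟨⟨fun a b => Subtype.ext (Subtype.ext
    (hQc _ a.2 _ b.2))⟩⟩
  have hQMp : IsPGroup p QM := (Q.2.map W.subtype).comap_subtype
  have hQMh : ¬ p ∣ QM.index := fun hd => Q.not_dvd_index <| by
    refine hd.trans ?_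
    have h1 : Q'.relIndex W = (Q : Subgroup W).index := by
      rw [Subgroup.relIndex, Subgroup.subgroupOf,
        Subgroup.comap_map_eq_self_of_injective W.subtype_injective]
    rw [← h1, ← Subgroup.relIndex_mul_relIndex Q' M W hQM inf_le_left]
    exact dvd_mul_right _ _
  have hcop : (Nat.card QM).Coprime QM.index := by
    obtain ⟨k, hk⟩ := IsPGroup.iff_card.mp hQMp
    rw [hk]
    exact ((Fact.out : p.Prime).coprime_iff_not_dvd.mpr hQMh).pow_left k
  obtain ⟨K₀, hK₀⟩ := Subgroup.exists_right_complement'_of_coprime hcop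
  let K := K₀.map M.subtype
  have hKp : ¬ p ∣ Nat.card K := by
    rw [Subgroup.card_map_of_injective M.subtype_injective, ← hK₀.symm.index_eq_card]
    exact hQMh
  let L := Subgroup.normalizer (K : Set G) ⊓ N
  have hfrat : N ≤ Q' ⊔ L := by
    intro n hn
    let e : M ≃* M :=
      { toFun := fun x => ⟨n * x.1 * n⁻¹, Subgroup.mem_inf.mpr
          ⟨Subgroup.Normal.conj_mem inferInstance _ x.2.1 n,
            mul_mem (mul_mem hn x.2.2) (inv_mem hn)⟩⟩
        invFun := fun x => ⟨n⁻¹ * x.1 * n, Subgroup.mem_inf.mpr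
          ⟨by simpa using Subgroup.Normal.conj_mem (inferInstance : W.Normal) _ x.2.1 n⁻¹,
            mul_mem (mul_mem (inv_mem hn) x.2.2) hn⟩⟩
        left_inv := fun x => Subtype.ext (by simp [mul_assoc])
        right_inv := fun x => Subtype.ext (by simp [mul_assoc])
        map_mul' := fun x y => Subtype.ext (by simp [mul_assoc]) }
    let K₁ := K₀.map e.toMonoidHom
    have hK₁ : Subgroup.IsComplement' QM K₁ := by
      have h1 : Nat.card QM * Nat.card K₁ = Nat.card M := by
        rw [Subgroup.card_map_of_injective e.injective, hK₀.card_mul_card]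
      refine Subgroup.isComplement'_of_coprime h1 ?_
      rw [Subgroup.card_map_of_injective e.injective, ← hK₀.symm.index_eq_card]
      exact hcop
    obtain ⟨q, hq, hqe⟩ := Cfsg.Agent.SZ.conj_complement QM K₀ K₁ hK₀ hK₁ hcop
      (Or.inl (by open scoped IsMulCommutative in infer_instance))
    have hmem : (q : G)⁻¹ * n ∈ Subgroup.normalizer (K : Set G) := by
      refine Subgroup.mem_normalizer_iff_map_conj_eq.mpr ?_
      show K.map (MulAut.conj ((q : G)⁻¹ * n)).toMonoidHom = K
      have hKn : K.map (MulAut.conj n).toMonoidHom = K.map (MulAut.conj (q : G)).toMonoidHom := by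
        have h1 : K.map (MulAut.conj n).toMonoidHom = K₁.map M.subtype := by
          rw [Subgroup.map_map, Subgroup.map_map]
          rfl
        have h2 : K.map (MulAut.conj (q : G)).toMonoidHom = (MulAut.conj q • K₀).map M.subtype := by
          rw [Cfsg.Agent.SZ.conj_smul_eq_map, Subgroup.map_map, Subgroup.map_map]
          rfl
        rw [h1, h2, hqe]
      rw [← Cfsg.Agent.Transfer.map_conj_map_conj, hKn, Cfsg.Agent.Transfer.map_conj_map_conj,
        inv_mul_cancel, Cfsg.Agent.Transfer.map_conj_one]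
    have := mul_mem (Subgroup.mem_sup_left (T := L) (show (q : G) ∈ Q' from hq))
      (Subgroup.mem_sup_right (S := Q') (show (q : G)⁻¹ * n ∈ L from
        Subgroup.mem_inf.mpr ⟨hmem, mul_mem (inv_mem (Subgroup.mem_inf.mp q.2).2) hn⟩))
    rwa [mul_inv_cancel_left] at this
  obtain ⟨R⟩ : Nonempty (Sylow p L) := inferInstance
  let R' := (R : Subgroup L).map L.subtype
  refine ⟨R', Subgroup.IsComplement'.symm (Subgroup.isComplement'_of_disjoint_and_mul_eq_univ ?_ ?_)⟩
  · rw [Subgroup.disjoint_def]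
    intro x hxW hxR
    obtain ⟨r, hr, rfl⟩ := hxR
    have hxM : (r : G) ∈ M := Subgroup.mem_inf.mpr ⟨hxW, (Subgroup.mem_inf.mp r.2).2⟩
    obtain ⟨q, hq, k, hk, hqk⟩ := Subgroup.mem_sup_of_normal_left.mp
      (hK₀.sup_eq_top.symm ▸ Subgroup.mem_top (⟨(r : G), hxM⟩ : M) :
        (⟨(r : G), hxM⟩ : M) ∈ QM ⊔ K₀)
    have hqk' : (q : G) * k = r := congrArg Subtype.val hqk
    have hqN : (q : G) ∈ Subgroup.normalizer (K : Set G) := by
      have := mul_mem (Subgroup.mem_inf.mp r.2).1 (inv_mem (Subgroup.le_normalizer (⟨k, hk, rfl⟩ : (k : G) ∈ K)))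
      rw [← hqk', mul_inv_cancel_right] at this
      exact this
    have hcent : ∀ y : M, y ∈ K₀ → y * q = q * y := by
      intro y hy
      have h1 : y * q * y⁻¹ * q⁻¹ ∈ K₀ := by
        obtain ⟨z, hz, hze⟩ := (Subgroup.mem_normalizer_iff.mp hqN (y : G)⁻¹).mp
          (inv_mem (⟨y, hy, rfl⟩ : (y : G) ∈ K))
        have hz' : z = q * y⁻¹ * q⁻¹ := Subtype.ext (by simpa using hze)
        have := mul_mem hy (hz' ▸ hz)
        simpa [mul_assoc] using this
      have h2 : y * q * y⁻¹ * q⁻¹ ∈ QM := mul_mem (hQMn.conj_mem q hq y) (inv_mem hq)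
      have h3 := Subgroup.disjoint_def.mp hK₀.disjoint h2 h1
      exact mul_inv_eq_iff_eq_mul.mp (mul_inv_eq_one.mp h3)
    have hq1 : q ∈ QM ⊓ _root_.commutator M ⊓ Subgroup.center M := by
      refine ⟨⟨hq, ?_⟩, Subgroup.mem_center_iff.mpr fun g => ?_⟩
      · have hq' : (q : G) ∈ ⁅M, M⁆ := hQcomm hq
        rw [← Subgroup.map_subtype_commutator] at hq'
        obtain ⟨z, hz, hze⟩ := hq'
        exact M.subtype_injective hze ▸ hz
      · obtain ⟨a, ha, b, hb, rfl⟩ := Subgroup.mem_sup_of_normal_left.mp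
          (hK₀.sup_eq_top.symm ▸ Subgroup.mem_top g : g ∈ QM ⊔ K₀)
        have haq : a * q = q * a :=
          congrArg Subtype.val (hQMc.is_comm.comm (⟨a, ha⟩ : QM) ⟨q, hq⟩)
        rw [mul_assoc, hcent b hb, ← mul_assoc, haq, mul_assoc]
    rw [Cfsg.Agent.Transfer.abelian_hall_inf_commutator_inf_center QM hQMc hcop,
      Subgroup.mem_bot] at hq1
    have hrK : (r : G) ∈ K := by
      rw [← hqk', hq1]
      exact ⟨k, hk, by simp⟩
    obtain ⟨m, hm⟩ := (IsPGroup.iff_orderOf.mp R.2) ⟨r, hr⟩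
    have hor : orderOf (r : G) = p ^ m := by
      rw [Subgroup.orderOf_coe, ← hm]
      exact (Subgroup.orderOf_coe (⟨r, hr⟩ : R)).trans rfl
    refine orderOf_eq_one_iff.mp (Nat.eq_one_of_dvd_coprimes ?_ (dvd_of_eq hor)
      (Subgroup.orderOf_dvd_natCard _ hrK))
    exact Nat.Coprime.pow_left m ((Fact.out : p.Prime).coprime_iff_not_dvd.mpr hKp)
  · rw [← Subgroup.normal_mul]
    suffices hL : L ≤ W ⊔ R' by
      rw [eq_top_iff.mpr ((hWN.ge).trans (sup_le (hfrat.trans (sup_le (hQW.trans le_sup_left) hL))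
        le_sup_left)), Subgroup.coe_top]
    have h1 := congrArg (Subgroup.map L.subtype) (Cfsg.Agent.Transfer.pResidual_sup_sylow R)
    rw [Subgroup.map_sup, ← MonoidHom.range_eq_map, Subgroup.range_subtype] at h1
    exact h1.ge.trans (sup_le_sup_right (Cfsg.Agent.Transfer.map_subtype_pResidual_le L) _)

end Cfsg.Agent.S0092
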