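import Cfsg.Statements.S0093
import Cfsg.Agent.PGroup.Critical
-- import your own Cfsg.Agent.* helpers here

set_option autoImplicit false
open Cfsg

namespace Cfsg.Agent.S0093

/-- Every finite p-group has a critical subgroup: a characteristic subgroup H whose Frattini subgroup and whose commutator with the whole group lie in the centre of H, and whose centralizer is contained in H. -/
theorem result {P : Type*} [Group P] [Finite P] {p : ℕ} [Fact p.Prime] (hP : IsPGroup p P) : ∃ H : Subgroup P, H.Characteristic ∧ (frattini H).map H.subtype ≤ Subgroup.centralizer (H : Set P) ∧ ⁅H, (⊤ : Subgroup P)⁆ ≤ H ⊓ Subgroup.centralizer (H : Set P) ∧ Subgroup.centralizer (H : Set P) ≤ H := by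
  obtain ⟨C, hC⟩ := Cfsg.Agent.PGroup.exists_isCriticalSubgroup hP
  refine ⟨C, hC.characteristic, ?_, le_inf ?_ hC.commutator_le, hC.centralizer_le⟩
  · rintro - ⟨x, hx, rfl⟩
    refine Subgroup.mem_centralizer_iff.mpr fun c hc => ?_
    exact congrArg Subtype.val (Subgroup.mem_center_iff.mp (hC.frattini_le_center hx) ⟨c, hc⟩)
  · have := hC.normal
    exact Subgroup.commutator_le_left C ⊤

end Cfsg.Agent.S0093
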