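import Cfsg.Statements.S0097
import Cfsg.Agent.PGroup.Extraspecial
-- import your own Cfsg.Agent.* helpers here

set_option autoImplicit false
open Cfsg

namespace Cfsg.Agent.S0097

/-- For odd p and E extraspecial, the subgroup generated by the elements of order dividing p has exponent dividing p and index at most p. -/
theorem result {E : Type*} [Group E] [Finite E] {p : ℕ} [Fact p.Prime] (hp : p ≠ 2) (h : Cfsg.IsExtraspecial p E) : (Subgroup.closure {x : E | x ^ p = 1}).index ≤ p ∧ ∀ g ∈ Subgroup.closure {x : E | x ^ p = 1}, g ^ p = 1 := by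
  have hc := Cfsg.Agent.PGroup.special_commutator_le_center h.1
  have hodd := (Fact.out : p.Prime).odd_of_ne_two hp
  refine ⟨?_, fun g hg =>
    Cfsg.Agent.PGroup.pow_eq_one_of_mem_closure hc hodd (fun s hs => hs) hg⟩
  let f : E →* Subgroup.center E :=
    MonoidHom.mk' (fun x => ⟨x ^ p, Cfsg.Agent.PGroup.special_pow_mem_center h.1 x⟩) fun a b =>
      Subtype.ext (Cfsg.Agent.PGroup.mul_pow_of_classTwo hc hodd
        (Cfsg.Agent.PGroup.special_pow_mem_center h.1 a))
  have hle : f.ker ≤ Subgroup.closure {x : E | x ^ p = 1} := fun x hx =>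
    Subgroup.subset_closure (congrArg Subtype.val hx)
  refine (Nat.le_of_dvd (Nat.pos_of_ne_zero Subgroup.index_ne_zero_of_finite)
    (Subgroup.index_dvd_of_le hle)).trans ?_
  rw [Subgroup.index_ker, ← h.2]
  exact Nat.card_le_card_of_injective _ Subtype.val_injective

end Cfsg.Agent.S0097
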