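import Cfsg.Statements.S0101
import Cfsg.Agent.Transfer.Residual
-- import your own Cfsg.Agent.* helpers here

set_option autoImplicit false
open Cfsg

namespace Cfsg.Agent.S0101

/-- In a perfect central extension, the kernel meets each Sylow p-subgroup P inside the Frattini subgroup of P. -/
theorem result {H : Type*} {G : Type*} [Group H] [Group G] [Finite H] (σ : H →* G) (hσ : Function.Surjective σ) (hc : σ.ker ≤ Subgroup.center H) (hH : commutator H = ⊤) {p : ℕ} [Fact p.Prime] (P : Sylow p H) : σ.ker ⊓ (P : Subgroup H) ≤ (frattini P).map (P : Subgroup H).subtype := by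
  intro z hz
  obtain ⟨hzk, hzP⟩ := Subgroup.mem_inf.mp hz
  refine ⟨⟨z, hzP⟩, ?_, rfl⟩
  show (⟨z, hzP⟩ : P) ∈ frattini P
  rw [frattini, Order.radical]
  refine Subgroup.mem_iInf.mpr fun M => Subgroup.mem_iInf.mpr fun hM => ?_
  have : Group.IsNilpotent P := P.2.isNilpotent
  have hMn : M.Normal := Subgroup.NormalizerCondition.normal_of_coatom M Group.normalizerCondition_of_isNilpotent hM
  have hQ : IsPGroup p (P ⧸ M) := P.2.to_quotient M
  have hcomm : IsMulCommutative (P ⧸ M) := by
    have h1 : IsSimpleGroup (P ⧸ M) := by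
      have : Nontrivial (P ⧸ M) := QuotientGroup.nontrivial_iff.mpr hM.1
      refine ⟨fun K _ => ?_⟩
      rcases eq_or_lt_of_le (show M ≤ K.comap (QuotientGroup.mk' M) from fun x hx => by
        rw [Subgroup.mem_comap, QuotientGroup.mk'_apply, (QuotientGroup.eq_one_iff x).mpr hx]
        exact one_mem _) with he | he
      · left
        rw [← Subgroup.map_comap_eq_self_of_surjective (QuotientGroup.mk'_surjective M) K, ← he,
          QuotientGroup.map_mk'_self]
      · right
        rw [← Subgroup.map_comap_eq_self_of_surjective (QuotientGroup.mk'_surjective M) K, hM.2 _ he,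
          Subgroup.map_top_of_surjective _ (QuotientGroup.mk'_surjective M)]
    have : Group.IsNilpotent (P ⧸ M) := hQ.isNilpotent
    exact ⟨⟨fun a b => IsSimpleGroup.comm_iff_isSolvable.mpr inferInstance a b⟩⟩
  open scoped IsMulCommutative in
    let φ : (P : Subgroup H) →* P ⧸ M := QuotientGroup.mk' M
    let τ : H →* P ⧸ M := MonoidHom.transfer φ
    have hτ : τ z = 1 := by
      have := Abelianization.commutator_subset_ker τ
      rw [hH] at this
      exact this (Subgroup.mem_top z)
    have hcen : ∀ (k : ℕ) (g₀ : H), g₀⁻¹ * z ^ k * g₀ ∈ (P : Subgroup H) →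
        g₀⁻¹ * z ^ k * g₀ = z ^ k := fun k g₀ _ => by
      rw [mul_assoc, ← Subgroup.mem_center_iff.mp (pow_mem (hc hzk) k) g₀, inv_mul_cancel_left]
    rw [show τ z = _ from MonoidHom.transfer_eq_pow φ z hcen] at hτ
    have hτ' : (φ ⟨z, hzP⟩) ^ (P : Subgroup H).index = 1 := by
      rw [← map_pow]
      exact hτ
    obtain ⟨k, hk⟩ := (IsPGroup.iff_orderOf.mp hQ) (φ ⟨z, hzP⟩)
    have h1 : orderOf (φ ⟨z, hzP⟩) = 1 := by
      refine Nat.eq_one_of_dvd_coprimes ?_ (dvd_of_eq hk) (orderOf_dvd_of_pow_eq_one hτ')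
      exact Nat.Coprime.pow_left k ((Fact.out : p.Prime).coprime_iff_not_dvd.mpr P.not_dvd_index)
    exact (QuotientGroup.eq_one_iff _).mp (orderOf_eq_one_iff.mp h1)

end Cfsg.Agent.S0101
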