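import Cfsg.Statements.S0102
import Mathlib.GroupTheory.Transfer
import Mathlib.GroupTheory.Abelianization.Defs
import Mathlib.GroupTheory.SpecificGroups.Cyclic

set_option autoImplicit false
open Cfsg

namespace Cfsg.Agent.S0102

/-- A finite perfect group with cyclic Sylow p-subgroups has no perfect central extension whose kernel has order divisible by p. -/
theorem result {G : Type*} {H : Type*} [Group G] [Group H] [Finite G] [Finite H] (hG : commutator G = ⊤) {p : ℕ} [Fact p.Prime] (hcyc : ∀ P : Sylow p G, IsCyclic P) (σ : H →* G) (hσ : Function.Surjective σ) (hz : σ.ker ≤ Subgroup.center H) (hH : commutator H = ⊤) : ¬ p ∣ Nat.card σ.ker := by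
  intro hdvd
  obtain ⟨⟨z, hzk⟩, hzo⟩ := exists_prime_orderOf_dvd_card' p hdvd
  have hzo' : orderOf z = p := (Subgroup.orderOf_coe (⟨z, hzk⟩ : σ.ker)).trans hzo
  obtain ⟨P, hP⟩ := (IsPGroup.of_card (p := p) (n := 1)
    (by rw [Nat.card_zpowers, hzo', pow_one]) : IsPGroup p (Subgroup.zpowers z)).exists_le_sylow
  obtain ⟨T, hT⟩ := (P.2.map σ).exists_le_sylow
  haveI : IsCyclic T := hcyc T
  haveI : IsMulCommutative (P : Subgroup H) := by
    let f : (P : Subgroup H) →* T :=
      (σ.comp (P : Subgroup H).subtype).codRestrict (T : Subgroup G) (fun a => hT ⟨a, a.2, rfl⟩)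
    exact ⟨⟨commutative_of_cyclic_center_quotient f (fun a ha => Subgroup.mem_center_iff.mpr
      (fun b => Subtype.ext (Subgroup.mem_center_iff.mp
        (hz (by simpa [f] using congrArg Subtype.val (MonoidHom.mem_ker.mp ha))) b)))⟩⟩
  open scoped IsMulCommutative in
  have key : ∀ (k : ℕ) (g₀ : H), g₀⁻¹ * z ^ k * g₀ ∈ (P : Subgroup H) →
      g₀⁻¹ * z ^ k * g₀ = z ^ k := by
    intro k g₀ _
    have := Subgroup.mem_center_iff.mp (pow_mem (hz hzk) k) g₀
    rw [mul_assoc, ← this]; group
  open scoped IsMulCommutative in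
  have h1 := MonoidHom.transfer_eq_pow (MonoidHom.id (P : Subgroup H)) z key
  open scoped IsMulCommutative in
  have h2 : MonoidHom.transfer (MonoidHom.id (P : Subgroup H)) z = 1 := by
    have := Abelianization.commutator_subset_ker
      (MonoidHom.transfer (MonoidHom.id (P : Subgroup H)))
    rw [hH] at this
    exact this (Subgroup.mem_top z)
  have h3 : z ^ (P : Subgroup H).index = 1 := by
    rw [h1] at h2; exact congrArg Subtype.val h2
  rw [← orderOf_dvd_iff_pow_eq_one, hzo'] at h3
  exact Sylow.not_dvd_index P h3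

end Cfsg.Agent.S0102
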