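import Cfsg.Statements.S0105
import Mathlib.GroupTheory.Transfer
import Cfsg.Agent.Fusion.Basic

set_option autoImplicit false
open Cfsg

namespace Cfsg.Agent.S0105

/-- With an abelian Sylow p-subgroup P, some quotient of G is isomorphic to the part of P central in N_G(P). -/
theorem result {G : Type*} [Group G] [Finite G] {p : ℕ} [Fact p.Prime] (P : Sylow p G) (hP : IsMulCommutative P) : ∃ (N : Subgroup G) (hN : N.Normal), Nonempty (G ⧸ N ≃* ((P : Subgroup G) ⊓ Subgroup.centralizer (Subgroup.normalizer (P : Set G) : Set G) : Subgroup G)) := by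
  classical
  haveI := hP
  letI : CommGroup (P : Subgroup G) :=
    { (inferInstance : Group (P : Subgroup G)) with mul_comm := hP.is_comm.comm }
  set N := Subgroup.normalizer (P : Set G)
  set Z : Subgroup G := (P : Subgroup G) ⊓ Subgroup.centralizer (N : Set G)
  let φ := Subgroup.normalizerMonoidHom (P : Subgroup G)
  haveI := Fintype.ofFinite φ.range
  have hφ : ∀ (n : N) (x : (P : Subgroup G)), ((φ n x : (P : Subgroup G)) : G) = n * x * (n : G)⁻¹ :=
    fun n x => rfl
  -- the norm map
  let π : (P : Subgroup G) →* (P : Subgroup G) :=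
    { toFun := fun x => ∏ γ : φ.range, (γ : MulAut (P : Subgroup G)) x
      map_one' := by simp
      map_mul' := fun a b => by simp [Finset.prod_mul_distrib] }
  have hπfix : ∀ (n : N) (x : (P : Subgroup G)), φ n (π x) = π x := by
    intro n x
    change φ n (∏ γ : φ.range, (γ : MulAut (P : Subgroup G)) x) = ∏ γ : φ.range, _
    rw [map_prod]
    exact Fintype.prod_equiv (Equiv.mulLeft (⟨φ n, n, rfl⟩ : φ.range)) _ _ (fun γ => rfl)
  have hπZ : ∀ x, (π x : G) ∈ Z := by
    intro x
    refine Subgroup.mem_inf.mpr ⟨(π x).2, Subgroup.mem_centralizer_iff.mpr fun n hn => ?_⟩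
    have h := congrArg Subtype.val (hπfix ⟨n, hn⟩ x)
    rw [hφ] at h
    exact mul_inv_eq_iff_eq_mul.mp h
  have hπpow : ∀ x : (P : Subgroup G), (x : G) ∈ Z → π x = x ^ Fintype.card φ.range := by
    intro x hx
    change ∏ γ : φ.range, (γ : MulAut (P : Subgroup G)) x = _
    rw [Finset.prod_eq_pow_card (b := x), Finset.card_univ]
    rintro ⟨_, n, rfl⟩ _
    refine Subtype.ext ?_
    rw [hφ, Subgroup.mem_centralizer_iff.mp (Subgroup.mem_inf.mp hx).2 n n.2, mul_inv_cancel_right]
  have hk : ¬ p ∣ Fintype.card φ.range := by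
    intro h
    rw [← Nat.card_eq_fintype_card, ← Subgroup.index_ker] at h
    have hle : (P : Subgroup G).subgroupOf N ≤ φ.ker := fun n hn => by
      refine MonoidHom.mem_ker.mpr (MulEquiv.ext fun x => Subtype.ext ?_)
      rw [hφ]
      have := congrArg Subtype.val (hP.is_comm.comm ⟨(n : G), hn⟩ x)
      simp only [Subgroup.coe_mul] at this
      rw [this, mul_inv_cancel_right]
      rfl
    exact Sylow.not_dvd_index P ((h.trans (Subgroup.index_dvd_of_le hle)).trans
      (Subgroup.relIndex_dvd_index_of_le Subgroup.le_normalizer))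
  let V : G →* Z := ((P : Subgroup G).subtype.comp
    (π.comp (MonoidHom.transfer (MonoidHom.id (P : Subgroup G))))).codRestrict Z (fun g => hπZ _)
  have hV : ∀ z : Z, V (z : G) = z ^ ((P : Subgroup G).index * Fintype.card φ.range) := by
    intro z
    have key : ∀ (k : ℕ) (g₀ : G), g₀⁻¹ * (z : G) ^ k * g₀ ∈ (P : Subgroup G) →
        g₀⁻¹ * (z : G) ^ k * g₀ = (z : G) ^ k := by
      intro k g₀ h
      obtain ⟨n, hn, hn2⟩ := P.conj_eq_normalizer_conj_of_mem _ g₀
        (pow_mem (Subgroup.mem_inf.mp z.2).1 k) h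
      rw [hn2, mul_assoc, ← Subgroup.mem_centralizer_iff.mp
        (pow_mem (Subgroup.mem_inf.mp z.2).2 k) n hn]
      group
    refine Subtype.ext ?_
    change ((π (MonoidHom.transfer (MonoidHom.id (P : Subgroup G)) (z : G)) : (P : Subgroup G)) : G) = _
    rw [MonoidHom.transfer_eq_pow _ _ key, MonoidHom.id_apply, hπpow _ (pow_mem z.2 _)]
    simp [pow_mul]
  have hsurj : Function.Surjective V := by
    intro z
    have hcop : (Nat.card Z).Coprime ((P : Subgroup G).index * Fintype.card φ.range) := by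
      obtain ⟨a, ha⟩ := (P.2.to_le (inf_le_left : Z ≤ P)).exists_card_eq
      rw [ha]
      exact Nat.Coprime.pow_left a ((Nat.Prime.coprime_iff_not_dvd Fact.out).mpr
        ((Nat.Prime.not_dvd_mul Fact.out) (Sylow.not_dvd_index P) hk))
    obtain ⟨w, hw⟩ := (powCoprime hcop).surjective z
    exact ⟨(w : G), (hV w).trans hw⟩
  exact ⟨V.ker, inferInstance, ⟨QuotientGroup.quotientKerEquivOfSurjective V hsurj⟩⟩

end Cfsg.Agent.S0105
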