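import Cfsg.Statements.S0107
import Cfsg.Agent.S0111
import Mathlib.GroupTheory.SpecificGroups.Dihedral

set_option autoImplicit false
open Cfsg

namespace Cfsg.Agent.S0107

/-- A finite group with no nontrivial 2-group quotient and dihedral Sylow 2-subgroups of order at least 8 has a single class of involutions. -/
theorem result {G : Type*} [Group G] [Finite G] (T : Sylow 2 G) (n : ℕ) (hn : 2 ≤ n) (hT : Nonempty ((T : Subgroup G) ≃* DihedralGroup (2 ^ n))) (hO : Cfsg.pResidual 2 G = ⊤) (x y : G) (hx : orderOf x = 2) (hy : orderOf y = 2) : ∃ g : G, g * x * g⁻¹ = y := by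
  obtain ⟨e⟩ := hT
  let i : DihedralGroup (2 ^ n) →* G := (T : Subgroup G).subtype.comp e.symm.toMonoidHom
  have hi : Function.Injective i := Subtype.val_injective.comp e.symm.injective
  set C : Subgroup G := Subgroup.zpowers (i (DihedralGroup.r 1))
  have hCo : orderOf (i (DihedralGroup.r 1)) = 2 ^ n := by
    rw [orderOf_injective i hi, DihedralGroup.orderOf_r_one]
  have hCT : C ≤ (T : Subgroup G) := (Subgroup.zpowers_le.mpr (e.symm (DihedralGroup.r 1)).2)
  have hCi : C.relIndex (T : Subgroup G) = 2 := by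
    have h1 := Subgroup.relIndex_mul_relIndex (⊥ : Subgroup G) C (T : Subgroup G) bot_le hCT
    rw [Subgroup.relIndex_bot_left, Subgroup.relIndex_bot_left, Nat.card_zpowers, hCo,
      Nat.card_congr e.toEquiv, DihedralGroup.nat_card] at h1
    exact Nat.eq_of_mul_eq_mul_left (Nat.two_pow_pos n) (h1.trans (mul_comm _ _))
  have hM : ¬ ∃ M : Subgroup G, M.Normal ∧ M.index = 2 := by
    rintro ⟨M, hMn, hMi⟩
    have : Cfsg.pResidual 2 G ≤ M := (Subgroup.closure_le _).mpr fun g hg => by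
      obtain ⟨k, hk⟩ := exists_pow_eq_self_of_coprime (Nat.Coprime.symm hg)
      exact hk ▸ pow_mem (hMi ▸ Subgroup.pow_index_mem M g) k
    rw [hO, top_le_iff] at this
    simp [this] at hMi
  have key : ∀ x : G, orderOf x = 2 → ∃ g : G, g * x * g⁻¹ ∈ C := by
    intro x hx
    obtain ⟨R, hR⟩ := (IsPGroup.of_card (p := 2) (n := 1)
      (by rw [Nat.card_zpowers, hx, pow_one]) : IsPGroup 2 (Subgroup.zpowers x)).exists_le_sylow
    obtain ⟨a, ha⟩ := MulAction.exists_smul_eq G R T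
    have hxT : a * x * a⁻¹ ∈ (T : Subgroup G) := by
      rw [← ha]
      exact ⟨x, hR (Subgroup.mem_zpowers x), rfl⟩
    by_cases hxC : a * x * a⁻¹ ∈ C
    · exact ⟨a, hxC⟩
    rcases Cfsg.Agent.S0111.result T C hCT hCi (a * x * a⁻¹)
      ((MulEquiv.orderOf_eq (MulAut.conj a) x).trans hx) hxT hxC with ⟨M, h1, h2, _⟩ | ⟨g, hg⟩
    · exact absurd ⟨M, h1, h2⟩ hM
    · exact ⟨g * a, by simpa [mul_assoc] using hg⟩
  obtain ⟨a, ha⟩ := key x hx
  obtain ⟨b, hb⟩ := key y hy
  have hoa : orderOf (a * x * a⁻¹) = 2 := (MulEquiv.orderOf_eq (MulAut.conj a) x).trans hx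
  have hob : orderOf (b * y * b⁻¹) = 2 := (MulEquiv.orderOf_eq (MulAut.conj b) y).trans hy
  obtain ⟨u, hu⟩ : ∃ u : C, (u : G) = a * x * a⁻¹ := ⟨⟨_, ha⟩, rfl⟩
  obtain ⟨v, hv⟩ : ∃ v : C, (v : G) = b * y * b⁻¹ := ⟨⟨_, hb⟩, rfl⟩
  classical
  letI := Fintype.ofFinite C
  have huv : u = v := by
    by_contra hne
    have hu2 : orderOf u = 2 := by rw [← Subgroup.orderOf_coe, hu]; exact hoa
    have hv2 : orderOf v = 2 := by rw [← Subgroup.orderOf_coe, hv]; exact hob
    have h := IsCyclic.card_pow_eq_one_le (α := C) (n := 2) two_pos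
    have hsub : ({1, u, v} : Finset C) ⊆ Finset.univ.filter (fun c => c ^ 2 = 1) := by
      intro c hc
      simp only [Finset.mem_insert, Finset.mem_singleton] at hc
      rcases hc with rfl | rfl | rfl
      · simp
      · simp [← orderOf_dvd_iff_pow_eq_one, hu2]
      · simp [← orderOf_dvd_iff_pow_eq_one, hv2]
    have h1 : (1 : C) ≠ u := fun he => by simp [← he] at hu2
    have h2 : (1 : C) ≠ v := fun he => by simp [← he] at hv2
    have h3 := (Finset.card_le_card hsub).trans h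
    simp [h1, h2, hne] at h3
  refine ⟨b⁻¹ * a, ?_⟩
  have h : a * x * a⁻¹ = b * y * b⁻¹ := by rw [← hu, ← hv, huv]
  calc b⁻¹ * a * x * (b⁻¹ * a)⁻¹ = b⁻¹ * (a * x * a⁻¹) * b := by group
    _ = b⁻¹ * (b * y * b⁻¹) * b := by rw [h]
    _ = y := by group

end Cfsg.Agent.S0107
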