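import Cfsg.Statements.S0109
import Cfsg.Agent.S0618
import Cfsg.Agent.PSolv.Basic

set_option autoImplicit false
open Cfsg

namespace Cfsg.Agent.S0109

theorem exists_not_comm : ∃ I J : Matrix.SpecialLinearGroup (Fin 2) (ZMod 3),
    I ^ 4 = 1 ∧ J ^ 4 = 1 ∧ I * J ≠ J * I :=
  ⟨⟨!![0, 2; 1, 0], by simp [Matrix.det_fin_two]; decide⟩,
    ⟨!![1, 1; 1, 2], by simp [Matrix.det_fin_two]; decide⟩, by decide, by decide, by decide⟩

/-- The Thompson factorization Theorem for solvable groups states that, with p odd (and abelian Sylow 2-subgroups when p = 3) and no nontrivial normal subgroup of order prime to p, every element of G is a product of an element normalizing J(P) and an element centralizing the elements of order dividing p in the centre of P. -/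
theorem result {G : Type*} [Group G] [Finite G] {p : ℕ} [Fact p.Prime] (hp : p ≠ 2) (hs : Group.IsSolvable G) (h3 : p = 3 → ∀ T : Sylow 2 G, IsMulCommutative T) (hF : ∀ N : Subgroup G, N.Normal → Nat.Coprime (Nat.card N) p → N = ⊥) (P : Sylow p G) (g : G) : ∃ a ∈ Subgroup.normalizer (Cfsg.thompsonSubgroupOf p (P : Subgroup G) : Set G), ∃ c ∈ Subgroup.centralizer {x : G | x ∈ (P : Subgroup G) ∧ (∀ y ∈ (P : Subgroup G), x * y = y * x) ∧ x ^ p = 1}, g = a * c := by
  classical
  have hsep := Cfsg.Agent.PSolv.isPSolvable_of_isSolvable (p := p) hs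
  have hO : Cfsg.pPrimeCore p G = ⊥ :=
    hF _ (by have := Cfsg.Agent.PSolv.pPrimeCore_characteristic p G; infer_instance)
      (Cfsg.Agent.PSolv.coprime_card_pPrimeCore p G)
  by_cases hfac : Cfsg.IsThompsonFactorizable p G
  · obtain ⟨x, hx, c, hc, n, hn, hg⟩ := hfac P g⁻¹
    rw [hO, Subgroup.mem_bot] at hx
    rw [hx, one_mul] at hg
    refine ⟨n⁻¹, inv_mem hn, c⁻¹, inv_mem (Subgroup.centralizer_le (fun y hy => ?_) hc),
      by rw [← mul_inv_rev, ← hg, inv_inv]⟩
    exact Subgroup.subset_closure ⟨⟨hy.1,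
      Subgroup.mem_centralizer_iff.mpr fun z hz => (hy.2.1 z hz).symm⟩, hy.2.2⟩
  · exfalso
    obtain ⟨hp23, E, -, -, -, hn, ⟨e⟩⟩ := Cfsg.Agent.S0618.result hsep hO hfac
    obtain rfl : p = 3 := hp23.resolve_left hp
    haveI : Fact (Nat.Prime 2) := ⟨Nat.prime_two⟩
    have hmul : ∀ x y : Matrix.SpecialLinearGroup (Fin 2) (ZMod 3),
        x ^ 4 = 1 → y ^ 4 = 1 → (x * y) ^ 4 = 1 := by decide +kernel
    let L : Subgroup (Matrix.SpecialLinearGroup (Fin 2) (ZMod 3)) :=
      { carrier := {x | x ^ 4 = 1}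
        one_mem' := one_pow 4
        mul_mem' := fun {x y} hx hy => hmul x y hx hy
        inv_mem' := fun {x} (hx : x ^ 4 = 1) => by
          show x⁻¹ ^ 4 = 1
          rw [inv_pow, hx, inv_one] }
    have hL : IsPGroup 2 L := fun x => ⟨2, Subtype.ext x.2⟩
    obtain ⟨I, J, hI, hJ, hne⟩ := exists_not_comm
    obtain ⟨S, hS⟩ := (hL.map e.symm.toMonoidHom).exists_le_sylow
    obtain ⟨R, hR⟩ := Sylow.mapSurjective_surjective (QuotientGroup.mk'_surjective _) 2 S
    obtain ⟨T, hT⟩ := (R.2.map E.subtype).exists_le_sylow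
    have key : ∀ x, x ^ 4 = 1 → ∃ r ∈ (R : Subgroup E), (QuotientGroup.mk r : _) = e.symm x :=
      fun x hx => by
        have h1 : e.symm x ∈ (S : Subgroup _) := hS ⟨x, hx, rfl⟩
        rw [← hR, Sylow.coe_mapSurjective] at h1
        exact h1
    obtain ⟨r, hr, hrI⟩ := key I hI
    obtain ⟨s, hs', hsJ⟩ := key J hJ
    have h5 := (h3 rfl T).is_comm.comm ⟨(r : G), hT ⟨r, hr, rfl⟩⟩ ⟨(s : G), hT ⟨s, hs', rfl⟩⟩
    have hcomm : r * s = s * r := by
      apply Subtype.ext
      have h6 := congrArg (fun z : (T : Subgroup G) => (z : G)) h5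
      exact h6
    refine hne (e.symm.injective ?_)
    rw [map_mul, map_mul, ← hrI, ← hsJ, ← QuotientGroup.mk_mul, ← QuotientGroup.mk_mul, hcomm]

end Cfsg.Agent.S0109
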