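import Cfsg.Statements.S0110
import Cfsg.Agent.PGroup.Frattini
import Cfsg.Agent.H4.Small

set_option autoImplicit false
open Cfsg

namespace Cfsg.Agent.S0110

open scoped commutatorElement


/-- In a p-group G, an extraspecial subgroup E with [G, E] ≤ Z(E) satisfies G = E C_G(E). -/
theorem result {G : Type*} [Group G] [Finite G] {p : ℕ} [Fact p.Prime] (hG : IsPGroup p G) (E : Subgroup G) (hE : Cfsg.IsExtraspecial p E) (h : ⁅(⊤ : Subgroup G), E⁆ ≤ E ⊓ Subgroup.centralizer (E : Set G)) : E ⊔ Subgroup.centralizer (E : Set G) = ⊤ := by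
  classical
  obtain ⟨⟨hEp, hfr, hcomm⟩, hZ⟩ := hE
  set C := Subgroup.centralizer (E : Set G)
  obtain ⟨d, hd⟩ := hEp.index (frattini E)
  obtain ⟨S, hS, hgen⟩ := Cfsg.Agent.PGroup.exists_generators hEp hd
  have hEC : C.subgroupOf E = Subgroup.center E := by
    ext e
    simp only [C, Subgroup.mem_subgroupOf, Subgroup.mem_centralizer_iff, Subgroup.mem_center_iff,
      SetLike.mem_coe, Subtype.forall, Subtype.ext_iff, Subgroup.coe_mul]
  have hECcard : Nat.card (E ⊓ C : Subgroup G) = p := by
    rw [inf_comm, ← Subgroup.subgroupOf_map_subtype, hEC,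
      Subgroup.card_map_of_injective E.subtype_injective, hZ]
  have key : ∀ T : Finset E,
      (Subgroup.centralizer (((↑) : E → G) '' (T : Set E))).index ≤ p ^ T.card := by
    intro T
    induction T using Finset.induction with
    | empty =>
      have : Subgroup.centralizer (((↑) : E → G) '' ((∅ : Finset E) : Set E)) = ⊤ :=
        eq_top_iff.mpr fun g _ => Subgroup.mem_centralizer_iff.mpr (by simp)
      rw [this, Subgroup.index_top]
      simp
    | @insert a T ha ih =>
      have h1 : Subgroup.centralizer ({(a : G)} : Set G) ⊓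
          Subgroup.centralizer (((↑) : E → G) '' (T : Set E)) ≤
          Subgroup.centralizer (((↑) : E → G) '' ((insert a T : Finset E) : Set E)) := by
        intro g hg
        obtain ⟨hg1, hg2⟩ := Subgroup.mem_inf.mp hg
        rw [Subgroup.mem_centralizer_iff] at hg1 hg2 ⊢
        rintro x ⟨b, hb, rfl⟩
        rcases Finset.mem_insert.mp hb with rfl | hb
        · exact hg1 _ rfl
        · exact hg2 _ ⟨b, hb, rfl⟩
      have h2 : (Subgroup.centralizer ({(a : G)} : Set G)).index ≤ p := by
        refine (Cfsg.Agent.H4.index_centralizer_singleton_le (K := E ⊓ C) fun g => ?_).trans hECcard.le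
        exact h (Subgroup.commutator_mem_commutator (Subgroup.mem_top g) a.2)
      rw [Finset.card_insert_of_notMem ha, pow_succ']
      exact ((Nat.le_of_dvd (Nat.pos_of_ne_zero Subgroup.index_ne_zero_of_finite)
        (Subgroup.index_dvd_of_le h1)).trans Subgroup.index_inf_le).trans (Nat.mul_le_mul h2 ih)
  have hCidx : C.index ≤ p ^ d := by
    have hle : Subgroup.centralizer (((↑) : E → G) '' (S : Set E)) ≤ C := by
      intro g hg
      rw [Subgroup.mem_centralizer_iff]
      intro e he
      have : (⊤ : Subgroup E) ≤ (Subgroup.centralizer ({g} : Set G)).comap E.subtype := by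
        rw [← hgen, Subgroup.closure_le]
        intro s hs
        rw [SetLike.mem_coe, Subgroup.mem_comap, Subgroup.mem_centralizer_singleton_iff]
        exact Subgroup.mem_centralizer_iff.mp hg _ ⟨s, hs, rfl⟩
      exact Subgroup.mem_centralizer_singleton_iff.mp (this (Subgroup.mem_top (⟨e, he⟩ : E)))
    exact ((Nat.le_of_dvd (Nat.pos_of_ne_zero Subgroup.index_ne_zero_of_finite)
      (Subgroup.index_dvd_of_le hle)).trans (key S)).trans (by rw [hS])
  have hrel : C.relIndex E = p ^ d := by rw [Subgroup.relIndex, hEC, ← hfr, hd]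
  have h1 : p ^ d ≤ C.relIndex (E ⊔ C) :=
    hrel ▸ Subgroup.relIndex_le_of_le_right le_sup_left Subgroup.index_ne_zero_of_finite
  have h2 := Subgroup.relIndex_mul_index (le_sup_right : C ≤ E ⊔ C)
  rw [← Subgroup.index_eq_one]
  have h3 : 0 < p ^ d := pow_pos (Fact.out : p.Prime).pos d
  have h4 : 0 < (E ⊔ C).index := Nat.pos_of_ne_zero Subgroup.index_ne_zero_of_finite
  nlinarith

end Cfsg.Agent.S0110
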