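import Cfsg.Statements.S0114
import Cfsg.Agent.H4.MaxClass

set_option autoImplicit false
open Cfsg

namespace Cfsg.Agent.S0114


/-- The central quotient of a 2-group of maximal class is dihedral. -/
theorem result {X : Type*} [Group X] [Finite X] (n : ℕ) (hn : 3 ≤ n) (hX : Nat.card X = 2 ^ n) (hc : Group.nilpotencyClass X = n - 1) : Nonempty (X ⧸ Subgroup.center X ≃* DihedralGroup (2 ^ (n - 2))) := by
  obtain ⟨a, b, r, h⟩ := Cfsg.Agent.H4.exists_maxClassData_of_class hn hX hc
  have h2 := h.two_le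
  haveI : NeZero (2 ^ (n - 2)) := ⟨by positivity⟩
  set π := QuotientGroup.mk' (Subgroup.center X)
  have hker : ∀ i : ℤ, π (a ^ i) = 1 ↔ (2 : ℤ) ^ (n - 2) ∣ i := by
    intro i
    rw [QuotientGroup.mk'_apply, QuotientGroup.eq_one_iff, h.center_eq,
      h.mem_zpowers_two_pow_iff (by omega), show n - 1 - 1 = n - 2 by omega]
  refine Cfsg.Agent.TwoGroups.equiv_dihedral_of_generators (a := π a) (b := π b) ?_ ?_ ?_ ?_ ?_
  · refine Nat.dvd_antisymm ?_ ?_
    · rw [orderOf_dvd_iff_pow_eq_one, ← map_pow, ← zpow_natCast, hker]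
      push_cast
      exact dvd_rfl
    · have h3 := (hker (orderOf (π a))).mp (by rw [zpow_natCast, map_pow, pow_orderOf_eq_one])
      exact_mod_cast h3
  · rw [← Subgroup.index_eq_card]
    have h1 := Subgroup.card_mul_index (Subgroup.center X)
    rw [h.card_center, hX, show 2 ^ n = 2 * (2 * 2 ^ (n - 2)) by
      rw [← pow_succ', ← pow_succ']; congr 1; omega] at h1
    omega
  · intro hb
    obtain ⟨i, hi⟩ := hb
    change (π a) ^ i = π b at hi
    rw [← map_zpow, eq_comm, ← mul_inv_eq_one, ← map_inv, ← map_mul, QuotientGroup.mk'_apply,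
      QuotientGroup.eq_one_iff, h.center_eq] at hi
    have := mul_mem (h.zpowers_invol_eq hi) (Subgroup.zpow_mem_zpowers a i)
    rw [inv_mul_cancel_right] at this
    exact h.notMem this
  · rw [← map_mul, QuotientGroup.mk'_apply, QuotientGroup.eq_one_iff]
    exact h.b_sq_mem_center
  · rw [← map_inv, ← map_mul, ← map_mul, h.conj, ← mul_inv_eq_one, ← map_inv π a, ← map_inv,
      ← map_mul, inv_inv, ← zpow_add_one, hker, show n - 2 = n - 1 - 1 by omega]
    exact h.hr

end Cfsg.Agent.S0114
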