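import Cfsg.Statements.S0119
import Cfsg.Agent.PGroup.Frattini
import Cfsg.Agent.PGroup.ClassTwo
import Mathlib.GroupTheory.Nilpotent
import Mathlib.Algebra.BigOperators.Group.Finset.Defs

set_option autoImplicit false
open Cfsg

namespace Cfsg.Agent.S0119

/-- If a p'-group A of automorphisms of a p-group G satisfies G = [G, A] and acts trivially on every characteristic abelian subgroup, then G is special with centre equal to the fixed points of A. -/
theorem result {G : Type*} [Group G] [Finite G] {p : ℕ} [Fact p.Prime] (hG : IsPGroup p G) (A : Subgroup (MulAut G)) (hA : Nat.Coprime (Nat.card A) p) (hGA : Subgroup.closure {x : G | ∃ g : G, ∃ a ∈ A, x = g⁻¹ * a g} = ⊤) (hchar : ∀ H : Subgroup G, H.Characteristic → IsMulCommutative H → ∀ a ∈ A, ∀ h ∈ H, a h = h) : Cfsg.IsSpecial p G ∧ (∀ g : G, (g ∈ Subgroup.center G ↔ ∀ a ∈ A, a g = g)) := by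
  classical
  open scoped commutatorElement in
  haveI : Group.IsNilpotent G := hG.isNilpotent
  -- a normal subgroup fixed by A is central
  have hcent : ∀ H : Subgroup G, H.Normal → (∀ a ∈ A, ∀ h ∈ H, a h = h) →
      H ≤ Subgroup.center G := by
    intro H hH hfix h hh
    have hle : Subgroup.closure {x : G | ∃ g : G, ∃ a ∈ A, x = g⁻¹ * a g} ≤
        Subgroup.centralizer {h} := by
      rw [Subgroup.closure_le]
      rintro x ⟨g, a, ha, rfl⟩
      rw [SetLike.mem_coe, Subgroup.mem_centralizer_singleton_iff]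
      have h3 := hfix a ha _ (hH.conj_mem h hh g)
      rw [map_mul, map_mul, map_inv, hfix a ha h hh] at h3
      calc g⁻¹ * a g * h = g⁻¹ * (a g * h * (a g)⁻¹) * a g := by group
        _ = g⁻¹ * (g * h * g⁻¹) * a g := by rw [h3]
        _ = h * (g⁻¹ * a g) := by group
    rw [hGA] at hle
    exact Subgroup.mem_center_iff.mpr fun g =>
      Subgroup.mem_centralizer_singleton_iff.mp (hle (Subgroup.mem_top g))
  have hab : ∀ H : Subgroup G, H.Characteristic → (∀ x ∈ H, ∀ y ∈ H, x * y = y * x) →
      H ≤ Subgroup.center G := fun H hH hc =>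
    hcent H inferInstance (hchar H hH ⟨⟨fun x y => Subtype.ext (hc x x.2 y y.2)⟩⟩)
  have hZfix : ∀ a ∈ A, ∀ z ∈ Subgroup.center G, a z = z :=
    hchar _ inferInstance ⟨⟨fun x y => Subtype.ext (Subgroup.mem_center_iff.mp y.2 x)⟩⟩
  -- class at most two
  have hclass : commutator G ≤ Subgroup.center G := by
    obtain ⟨c, hc⟩ := Subgroup.nilpotent_iff_lowerCentralSeries.mp ‹Group.IsNilpotent G›
    suffices H : ∀ k n : ℕ, 1 ≤ n → n + k = c + 1 →
        (⊤ : Subgroup G).lowerCentralSeries n ≤ Subgroup.center G by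
      have := H c 1 le_rfl (by omega)
      rwa [Subgroup.top_lowerCentralSeries_one] at this
    intro k
    induction k with
    | zero =>
      intro n _ hn2
      exact ((Subgroup.lowerCentralSeries_antitone (⊤ : Subgroup G) (by omega : c ≤ n)).trans hc.le).trans bot_le
    | succ k ih =>
      intro n hn1 hn2
      have hnext := ih (n + 1) (by omega) (by omega)
      obtain ⟨m, rfl⟩ : ∃ m, n = m + 1 := ⟨n - 1, by omega⟩
      set T := (⊤ : Subgroup G).lowerCentralSeries (m + 1) with hT
      set S := (⊤ : Subgroup G).lowerCentralSeries m with hS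
      have h1 : ⁅T, (⊤ : Subgroup G)⁆ ≤ Subgroup.center G := hnext
      have h2 : ⁅⁅T, (⊤ : Subgroup G)⁆, (⊤ : Subgroup G)⁆ = ⊥ := by
        rw [Subgroup.commutator_eq_bot_iff_le_centralizer]
        intro x hx
        exact Subgroup.mem_centralizer_iff.mpr fun y _ => Subgroup.mem_center_iff.mp (h1 hx) y
      have habel : ⁅T, T⁆ = ⊥ := by
        show ⁅⁅S, (⊤ : Subgroup G)⁆, T⁆ = ⊥
        apply Subgroup.commutator_commutator_eq_bot_of_rotate
        · rw [Subgroup.commutator_comm (⊤ : Subgroup G) T]
          exact le_bot_iff.mp ((Subgroup.commutator_mono le_rfl le_top).trans h2.le)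
        · exact le_bot_iff.mp ((Subgroup.commutator_mono
            (Subgroup.commutator_mono le_rfl le_top) le_rfl).trans h2.le)
      refine hab T inferInstance fun x hx y hy => ?_
      exact (Subgroup.mem_centralizer_iff.mp
        (Subgroup.commutator_eq_bot_iff_le_centralizer.mp habel hy) x hx)
  -- fixed points lie in the derived subgroup
  have hfixle : ∀ g : G, (∀ a ∈ A, a g = g) → g ∈ commutator G := by
    intro g hg
    letI : CommGroup (G ⧸ commutator G) :=
      { (inferInstance : Group (G ⧸ commutator G)) with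
        mul_comm := fun a b => ((Subgroup.Normal.quotient_commutative_iff_commutator_le
          (N := commutator G)).mpr le_rfl).is_comm.comm a b }
    haveI : Fintype A := Fintype.ofFinite A
    let ν : G →* G ⧸ commutator G :=
      { toFun := fun y => ∏ a : A, QuotientGroup.mk' (commutator G) ((a : MulAut G) y)
        map_one' := Finset.prod_eq_one fun a _ => by simp
        map_mul' := fun y z => by simp only [map_mul, Finset.prod_mul_distrib] }
    have hker : ν.ker = ⊤ := by
      rw [eq_top_iff, ← hGA, Subgroup.closure_le]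
      rintro x ⟨y, b, hb, rfl⟩
      have hshift : ν (b y) = ν y := by
        show ∏ a : A, QuotientGroup.mk' (commutator G) ((a : MulAut G) (b y)) = _
        refine Fintype.prod_equiv (Equiv.mulRight ⟨b, hb⟩) _ _ fun a => ?_
        rfl
      show ν _ = 1
      rw [map_mul, map_inv, hshift, inv_mul_cancel]
    have h1 : (QuotientGroup.mk' (commutator G) g) ^ Nat.card A = 1 := by
      have h2 : ν g = (QuotientGroup.mk' (commutator G) g) ^ Nat.card A := by
        show ∏ a : A, QuotientGroup.mk' (commutator G) ((a : MulAut G) g) = _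
        rw [Nat.card_eq_fintype_card, ← Finset.card_univ]
        exact Finset.prod_eq_pow_card fun a _ => by rw [hg a a.2]
      rw [← h2]
      exact MonoidHom.mem_ker.mp (hker ▸ Subgroup.mem_top g)
    have h3 := orderOf_dvd_of_pow_eq_one h1
    obtain ⟨k, hk⟩ := IsPGroup.iff_orderOf.mp hG g
    have h4 : orderOf (QuotientGroup.mk' (commutator G) g) ∣ p ^ k := hk ▸ orderOf_map_dvd _ g
    exact (QuotientGroup.eq_one_iff g).mp
      (orderOf_eq_one_iff.mp (Nat.eq_one_of_dvd_coprimes (hA.pow_right k) h3 h4))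
  have hZD : ∀ g : G, (g ∈ Subgroup.center G ↔ ∀ a ∈ A, a g = g) := fun g =>
    ⟨fun hg a ha => hZfix a ha g hg, fun hg => hclass (hfixle g hg)⟩
  have hGZ : commutator G = Subgroup.center G :=
    le_antisymm hclass fun g hg => hfixle g ((hZD g).mp hg)
  refine ⟨⟨hG, ?_, hGZ⟩, hZD⟩
  -- Frattini subgroup
  have hp : p.Prime := Fact.out
  refine le_antisymm ?_ (hGZ ▸ Cfsg.Agent.PGroup.commutator_le_frattini hG)
  rw [Cfsg.Agent.PGroup.frattini_le_iff hG]
  refine ⟨hclass, ?_⟩
  have hstep : ∀ k : ℕ, 1 ≤ k → (∀ x : G, x ^ p ^ (k + 1) ∈ Subgroup.center G) →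
      ∀ x : G, x ^ p ^ k ∈ Subgroup.center G := by
    intro k hk h x
    let H : Subgroup G := Subgroup.closure {y | ∃ z : G, y = z ^ p ^ k}
    have hH : H.Characteristic := Subgroup.characteristic_iff_map_le.mpr fun f => by
      rw [MonoidHom.map_closure, Subgroup.closure_le]
      rintro _ ⟨_, ⟨z, rfl⟩, rfl⟩
      exact Subgroup.subset_closure ⟨f z, map_pow f z _⟩
    refine hab H hH (fun u hu v hv => ?_) (Subgroup.subset_closure ⟨x, rfl⟩)
    have hcomm : ∀ y ∈ {y | ∃ z : G, y = z ^ p ^ k}, ∀ z ∈ {y | ∃ z : G, y = z ^ p ^ k},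
        y * z = z * y := by
      rintro _ ⟨y, rfl⟩ _ ⟨z, rfl⟩
      have hc : ∀ r s : G, ⁅r, s⁆ ∈ Subgroup.center G := fun r s =>
        Cfsg.Agent.PGroup.commutatorElement_mem_center hclass r s
      rw [← commutatorElement_eq_one_iff_mul_comm,
        Cfsg.Agent.PGroup.commutatorElement_pow_left (hc _ _),
        Cfsg.Agent.PGroup.commutatorElement_pow_right (hc _ _), ← pow_mul,
        ← Cfsg.Agent.PGroup.commutatorElement_pow_left (hc _ _), ← pow_add,
        commutatorElement_eq_one_iff_mul_comm]
      have h5 : y ^ p ^ (k + k) ∈ Subgroup.center G := by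
        obtain ⟨j, hj⟩ : ∃ j, k + k = (k + 1) + j := ⟨k - 1, by omega⟩
        rw [hj, pow_add, pow_mul]
        exact pow_mem (h y) _
      exact (Subgroup.mem_center_iff.mp h5 z).symm
    exact congrArg Subtype.val ((Subgroup.isMulCommutative_closure hcomm).is_comm.comm ⟨u, hu⟩ ⟨v, hv⟩)
  intro x
  obtain ⟨e, he⟩ : ∃ e : ℕ, ∀ x : G, x ^ p ^ e ∈ Subgroup.center G := by
    obtain ⟨e, he⟩ := IsPGroup.iff_card.mp hG
    exact ⟨e, fun x => by rw [← he, pow_card_eq_one']; exact one_mem _⟩
  induction e with
  | zero => exact pow_mem (by simpa using he x) _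
  | succ e ih =>
    rcases Nat.eq_zero_or_pos e with rfl | hpos
    · simpa using he x
    · exact ih (hstep e hpos he)

end Cfsg.Agent.S0119
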