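import Cfsg.Statements.S0121
import Cfsg.Agent.PGroup.Critical

set_option autoImplicit false
open Cfsg

namespace Cfsg.Agent.S0121


/-- A p'-automorphism of a p-group acting trivially on a critical subgroup is trivial. -/
theorem result {G : Type*} [Group G] [Finite G] {p : ℕ} [Fact p.Prime] (hG : IsPGroup p G) (H : Subgroup G) (hH : H.Characteristic) (h1 : (frattini H).map H.subtype ≤ Subgroup.centralizer (H : Set G)) (h2 : ⁅H, (⊤ : Subgroup G)⁆ ≤ H ⊓ Subgroup.centralizer (H : Set G)) (h3 : Subgroup.centralizer (H : Set G) ≤ H) (a : MulAut G) (ha : Nat.Coprime (orderOf a) p) (h : ∀ x ∈ H, a x = x) : a = 1 := by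
  haveI := hH
  refine MulEquiv.ext fun x => Cfsg.Agent.PGroup.apply_eq_of_fixed_commutator hG a ha (h _ ?_)
  refine h3 (Subgroup.mem_centralizer_iff.mpr fun c hc => ?_)
  have hcx : a (x * c * x⁻¹) = x * c * x⁻¹ :=
    h _ ((Subgroup.normal_of_characteristic H).conj_mem c hc x)
  rw [map_mul, map_mul, map_inv, h c hc] at hcx
  calc c * (x⁻¹ * a x) = x⁻¹ * (x * c * x⁻¹) * a x := by simp [mul_assoc]
    _ = x⁻¹ * (a x * c * (a x)⁻¹) * a x := by rw [hcx]
    _ = x⁻¹ * a x * c := by simp [mul_assoc]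

end Cfsg.Agent.S0121
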