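import Cfsg.Statements.S0125
import Mathlib.GroupTheory.Transfer
import Cfsg.Agent.Fusion.Basic

set_option autoImplicit false
open Cfsg

namespace Cfsg.Agent.S0125


/-- The centralizer of a self-centralizing normal subgroup A of a Sylow p-subgroup is the direct product of A with a normal p'-subgroup. -/
theorem result {G : Type*} [Group G] [Finite G] {p : ℕ} [Fact p.Prime] (R : Sylow p G) (A : Subgroup G) (hAR : A ≤ (R : Subgroup G)) (hAn : (R : Subgroup G) ≤ Subgroup.normalizer (A : Set G)) (hC : (R : Subgroup G) ⊓ Subgroup.centralizer (A : Set G) = A) : ∃ H : Subgroup G, H ≤ Subgroup.centralizer (A : Set G) ∧ Nat.Coprime (Nat.card H) p ∧ Subgroup.centralizer (A : Set G) ≤ Subgroup.normalizer (H : Set G) ∧ H ⊓ A = ⊥ ∧ H ⊔ A = Subgroup.centralizer (A : Set G) := by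
  set C := Subgroup.centralizer (A : Set G)
  set N := Subgroup.normalizer (A : Set G)
  have hAC : A ≤ C := by rw [← hC]; exact inf_le_right
  have hCN : C ≤ N := Subgroup.centralizer_le_normalizer (A : Set G)
  have hAp : IsPGroup p A := R.2.to_le hAR
  obtain ⟨T, hT1, hT2⟩ := Cfsg.Agent.Fusion.exists_sylow_inf_relIndex hAp hAC
  -- `A` is Sylow in `C`
  have hAsyl : ¬ p ∣ A.relIndex C := by
    obtain ⟨S, hS1, hS2⟩ := Cfsg.Agent.Fusion.exists_sylow_inf_relIndex
      (T.2.to_inf_left (K := C)) (inf_le_right.trans hCN : (T : Subgroup G) ⊓ C ≤ N)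
    have hR : ¬ p ∣ (R : Subgroup G).relIndex N := fun h =>
      Sylow.not_dvd_index R (h.trans (Subgroup.relIndex_dvd_index_of_le hAn))
    obtain ⟨y, hy, hyeq⟩ := Cfsg.Agent.Fusion.exists_conj_of_relIndex (S.2.to_inf_left) R.2
      inf_le_right hAn hS2 hR
    have h1 : Cfsg.Agent.Fusion.cj y ((T : Subgroup G) ⊓ C) ≤ A := by
      rw [← hC]
      refine le_inf ((Cfsg.Agent.Fusion.cj_mono y
        (le_inf hS1 (inf_le_right.trans hCN))).trans hyeq.le) ?_
      refine (Cfsg.Agent.Fusion.cj_mono y inf_le_right).trans ?_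
      intro z hz
      rw [Cfsg.Agent.Fusion.mem_cj] at hz
      rw [Subgroup.mem_centralizer_iff] at hz ⊢
      intro a ha
      have h := hz (y⁻¹ * a * y) ((Subgroup.mem_normalizer_iff''.mp hy a).mp ha)
      calc a * z = y * ((y⁻¹ * a * y) * (y⁻¹ * z * y)) * y⁻¹ := by group
        _ = y * ((y⁻¹ * z * y) * (y⁻¹ * a * y)) * y⁻¹ := by rw [h]
        _ = z * a := by group
    have h2 : Nat.card ((T : Subgroup G) ⊓ C : Subgroup G) ≤ Nat.card A := by
      rw [← Cfsg.Agent.Fusion.card_cj y]; exact Subgroup.card_le_of_le h1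
    rw [Subgroup.eq_of_le_of_card_ge (le_inf hT1 hAC) h2]
    exact hT2
  let A' : Sylow p C := (hAp.comap_subtype (K := C)).toSylow hAsyl
  have hA' : Subgroup.normalizer (A' : Set C) ≤ Subgroup.centralizer (A' : Set C) := by
    intro c _
    rw [Subgroup.mem_centralizer_iff]
    intro a ha
    exact Subtype.ext (Subgroup.mem_centralizer_iff.mp c.2 (a : G) ha)
  have hcompl := MonoidHom.ker_transferSylow_isComplement' A' hA'
  set K := (MonoidHom.transferSylow A' hA').ker
  refine ⟨K.map C.subtype, Subgroup.map_subtype_le K, ?_, ?_, ?_, ?_⟩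
  · rw [Subgroup.card_map_of_injective C.subtype_injective]
    exact ((Nat.Prime.coprime_iff_not_dvd Fact.out).mpr
      (MonoidHom.not_dvd_card_ker_transferSylow A' hA')).symm
  · have := Subgroup.le_normalizer_map (H := K) C.subtype
    rwa [Subgroup.normalizer_eq_top, ← MonoidHom.range_eq_map, Subgroup.range_subtype] at this
  · rw [← Subgroup.map_subgroupOf_eq_of_le hAC, ← Subgroup.map_inf _ _ _ C.subtype_injective]
    rw [show A.subgroupOf C = (A' : Subgroup C) from rfl, hcompl.disjoint.eq_bot, Subgroup.map_bot]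
  · rw [← Subgroup.map_subgroupOf_eq_of_le hAC, ← Subgroup.map_sup,
      show A.subgroupOf C = (A' : Subgroup C) from rfl, hcompl.sup_eq_top, ← MonoidHom.range_eq_map,
      Subgroup.range_subtype]

end Cfsg.Agent.S0125
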