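import Cfsg.Statements.S0129
import Cfsg.Agent.PGroup.Basic
import Cfsg.Agent.H4.Small

set_option autoImplicit false
open Cfsg

namespace Cfsg.Agent.S0129

open scoped commutatorElement


/-- The order of a p-group is bounded by p^(a(a+1)/2) when it has a maximal normal abelian subgroup of order p^a. -/
theorem result {G : Type*} [Group G] [Finite G] {p : ℕ} [Fact p.Prime] (hG : IsPGroup p G) (A : Subgroup G) [A.Normal] (hA : IsMulCommutative A) (hmax : ∀ B : Subgroup G, B.Normal → IsMulCommutative B → A ≤ B → B = A) (a : ℕ) (ha : Nat.card A = p ^ a) : Nat.card G ≤ p ^ (a * (a + 1) / 2) := by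
  have hp := (Fact.out : p.Prime)
  have key : ∀ i (K : Subgroup G), K.Normal → Nat.card K = p ^ i →
      (Subgroup.centralizer (K : Set G)).index ≤ p ^ (i * (i - 1) / 2) := by
    intro i
    induction i with
    | zero =>
      intro K _ hK
      rw [pow_zero, Subgroup.card_eq_one] at hK
      subst hK
      have : Subgroup.centralizer ((⊥ : Subgroup G) : Set G) = ⊤ :=
        eq_top_iff.mpr fun g _ => Subgroup.mem_centralizer_iff.mpr (by simp)
      rw [this, Subgroup.index_top]
      simp
    | succ i ih =>
      intro K hKn hK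
      obtain ⟨N, hNn, -, hNK, hN⟩ := Cfsg.Agent.PGroup.exists_normal_card_eq hG (k := i)
        (bot_le : (⊥ : Subgroup G) ≤ K) (by simp [hp.pos, Nat.one_le_pow])
        (by rw [hK]; exact Nat.pow_le_pow_right hp.pos (Nat.le_succ i))
      have hlt : N < K := lt_of_le_of_ne hNK fun h => by
        rw [h, hK] at hN
        exact absurd (Nat.pow_right_injective hp.two_le hN) (by omega)
      obtain ⟨K', -, hNK', hK'K, hrel, hcomm⟩ :=
        Cfsg.Agent.PGroup.exists_normal_relIndex_eq_prime hG hlt
      have hK'card : Nat.card K' = p ^ (i + 1) := by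
        rw [← Subgroup.relIndex_bot_left, ← Subgroup.relIndex_mul_relIndex ⊥ N K' bot_le hNK',
          Subgroup.relIndex_bot_left, hN, hrel, pow_succ]
      have hKK : K' = K := Subgroup.eq_of_le_of_card_ge hK'K (by rw [hK, hK'card])
      obtain ⟨x, hxK, hxN⟩ := SetLike.exists_of_lt hlt
      have hgen : N ⊔ Subgroup.zpowers x = K := by
        refine Subgroup.eq_of_le_of_card_ge (sup_le hNK (Subgroup.zpowers_le.mpr hxK)) ?_
        have h1 : N < N ⊔ Subgroup.zpowers x := lt_of_le_of_ne le_sup_left fun h =>
          hxN (h ▸ Subgroup.mem_sup_right (Subgroup.mem_zpowers x))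
        obtain ⟨j, hj⟩ := (hG.to_subgroup (N ⊔ Subgroup.zpowers x)).exists_card_eq
        rw [hK, hj]
        refine Nat.pow_le_pow_right hp.pos ?_
        by_contra hc
        have h2 := Nat.pow_le_pow_right hp.pos (show j ≤ i by omega)
        rw [← hj, ← hN] at h2
        exact h1.ne (Subgroup.eq_of_le_of_card_ge h1.le h2)
      have hC : Subgroup.centralizer ({x} : Set G) ⊓ Subgroup.centralizer (N : Set G) ≤
          Subgroup.centralizer (K : Set G) := by
        intro g hg
        obtain ⟨hg1, hg2⟩ := Subgroup.mem_inf.mp hg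
        have : K ≤ Subgroup.centralizer ({g} : Set G) := by
          rw [← hgen, sup_le_iff, Subgroup.zpowers_le, Subgroup.mem_centralizer_singleton_iff]
          exact ⟨fun n hn => Subgroup.mem_centralizer_singleton_iff.mpr
            (Subgroup.mem_centralizer_iff.mp hg2 n hn), (Subgroup.mem_centralizer_iff.mp hg1 x rfl)⟩
        exact Subgroup.mem_centralizer_iff.mpr fun k hk =>
          Subgroup.mem_centralizer_singleton_iff.mp (this hk)
      have h2 : (Subgroup.centralizer ({x} : Set G)).index ≤ p ^ i := by
        refine (Cfsg.Agent.H4.index_centralizer_singleton_le (K := N) fun g => ?_).trans hN.le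
        have h := inv_mem (hcomm (Subgroup.commutator_mem_commutator (hKK ▸ hxK : x ∈ K')
          (Subgroup.mem_top g)))
        simpa [commutatorElement_def, mul_assoc] using h
      refine ((Nat.le_of_dvd (Nat.pos_of_ne_zero Subgroup.index_ne_zero_of_finite)
        (Subgroup.index_dvd_of_le hC)).trans Subgroup.index_inf_le).trans
        ((Nat.mul_le_mul h2 (ih N hNn hN)).trans ?_)
      rw [← pow_add]
      refine Nat.pow_le_pow_right hp.pos ?_
      rw [show (i + 1) * (i + 1 - 1) = i * (i - 1) + i * 2 from ?_, Nat.add_mul_div_right _ _ two_pos]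
      · omega
      · cases i with
        | zero => rfl
        | succ j => simp only [Nat.succ_sub_succ, Nat.sub_zero]; ring
  have hC := Cfsg.Agent.PGroup.centralizer_eq_of_maximal_normal_abelian hG hA hmax
  have h := key a A inferInstance ha
  rw [hC] at h
  rw [← Subgroup.card_mul_index A, ha]
  refine (Nat.mul_le_mul_left _ h).trans ?_
  rw [← pow_add]
  refine Nat.pow_le_pow_right hp.pos ?_
  rw [show a * (a + 1) = a * (a - 1) + a * 2 from ?_, Nat.add_mul_div_right _ _ two_pos]
  · omega
  · cases a with
    | zero => rfl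
    | succ j => simp only [Nat.succ_sub_succ, Nat.sub_zero]; ring

end Cfsg.Agent.S0129
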