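import Cfsg.Statements.S0128
import Cfsg.Agent.H4.ClassThree
import Cfsg.Agent.S0129
import Cfsg.Agent.PGroup.Frattini

set_option autoImplicit false
open Cfsg

namespace Cfsg.Agent.S0128

open scoped commutatorElement

/-- In a group of rank at most two, subgroups of exponent `p` have order at most `p³`. -/
theorem card_le_cube {R : Type*} [Group R] [Finite R] {p : ℕ} [hp : Fact p.Prime]
    (hR : IsPGroup p R) (hrk : ∀ E : Subgroup R, Cfsg.IsElementaryAbelian p E → Nat.card E ≤ p ^ 2)
    (N : Subgroup R) (hN : ∀ g ∈ N, g ^ p = 1) : Nat.card N ≤ p ^ 3 := by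
  obtain ⟨A, -, hA⟩ := Finite.exists_le_maximal
    (p := fun K : Subgroup N => K.Normal ∧ IsMulCommutative K) (a := ⊥)
    ⟨inferInstance, inferInstance⟩
  haveI := hA.prop.1
  obtain ⟨a, ha⟩ := ((hR.to_subgroup N).to_subgroup A).exists_card_eq
  have h1 := Cfsg.Agent.S0129.result (hR.to_subgroup N) A hA.prop.2
    (fun B hB hBc hle => le_antisymm (hA.le_of_ge ⟨hB, hBc⟩ hle) hle) a ha
  have h2 : Nat.card (A.map N.subtype) ≤ p ^ 2 := by
    refine hrk _ ⟨?_, ?_⟩
    · refine ⟨⟨?_⟩⟩
      rintro ⟨_, a, ha, rfl⟩ ⟨_, b, hb, rfl⟩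
      exact Subtype.ext (congrArg (fun w : A => ((w : N) : R))
        (hA.prop.2.is_comm.comm ⟨a, ha⟩ ⟨b, hb⟩))
    · rintro _ ⟨a, -, rfl⟩
      exact hN _ a.2
  rw [Subgroup.card_map_of_injective N.subtype_injective, ha] at h2
  have ha2 : a ≤ 2 := (Nat.pow_le_pow_iff_right hp.out.one_lt).mp h2
  refine h1.trans (Nat.pow_le_pow_right hp.out.pos ?_)
  interval_cases a <;> simp

theorem mul_pow_eq_one.{v} (n : ℕ) : ∀ {R : Type v} [Group R] [Finite R] {p : ℕ} [Fact p.Prime],
    3 < p → IsPGroup p R → Nat.card R = n →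
    (∀ E : Subgroup R, Cfsg.IsElementaryAbelian p E → Nat.card E ≤ p ^ 2) →
    ∀ x y : R, x ^ p = 1 → y ^ p = 1 → (x * y) ^ p = 1 := by
  induction n using Nat.strong_induction_on with
  | _ n ih =>
  intro R _ _ p _ hp hR hn hrk x y hx hy
  have hpp := (Fact.out : p.Prime)
  subst hn
  have hsub : ∀ H : Subgroup R, H ≠ ⊤ → ∀ a ∈ H, ∀ b ∈ H, a ^ p = 1 → b ^ p = 1 →
      (a * b) ^ p = 1 := by
    intro H hH a ha b hb hap hbp
    have hlt : Nat.card H < Nat.card R := lt_of_le_of_ne (Subgroup.card_le_card_group H)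
      fun h => hH (Subgroup.eq_top_of_card_eq H h)
    have h := ih _ hlt (R := H) hp (hR.to_subgroup H) rfl (fun E hE => by
      rw [← Subgroup.card_map_of_injective H.subtype_injective]
      refine hrk _ ⟨⟨⟨?_⟩⟩, ?_⟩
      · rintro ⟨_, a, ha, rfl⟩ ⟨_, b, hb, rfl⟩
        exact Subtype.ext (congrArg (fun w : E => ((w : H) : R))
          (hE.1.is_comm.comm ⟨a, ha⟩ ⟨b, hb⟩))
      · rintro _ ⟨a, ha, rfl⟩
        rw [Subgroup.coe_subtype, ← Subgroup.coe_pow, hE.2 a ha, Subgroup.coe_one])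
      ⟨a, ha⟩ ⟨b, hb⟩ (Subtype.ext hap) (Subtype.ext hbp)
    exact congrArg Subtype.val h
  by_cases hgen : Subgroup.closure ({x, y} : Set R) = ⊤
  swap
  · exact hsub _ hgen x (Subgroup.subset_closure (by simp)) y (Subgroup.subset_closure (by simp))
      hx hy
  by_contra hne
  -- the exponent-`p` normal subgroups through `x` and through `y`
  have mk : ∀ z : R, z ^ p = 1 → z ≠ 1 →
      ∃ N : Subgroup R, N.Normal ∧ z ∈ N ∧ (∀ g ∈ N, g ^ p = 1) := by
    intro z hz _
    set M := Subgroup.zpowers z ⊔ frattini R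
    have hMn : M.Normal := Cfsg.Agent.PGroup.normal_of_commutator_le
      ((Cfsg.Agent.PGroup.commutator_le_frattini hR).trans le_sup_right)
    have hM : M ≠ ⊤ := by
      intro h
      have := Cfsg.Agent.PGroup.eq_top_of_sup_frattini h
      apply hne
      obtain ⟨i, hi⟩ : x * y ∈ Subgroup.zpowers z := by rw [this]; exact Subgroup.mem_top _
      rw [← hi]
      change (z ^ i) ^ p = 1
      rw [← zpow_natCast, ← zpow_mul, mul_comm, zpow_mul, zpow_natCast, hz, one_zpow]
    refine ⟨{ carrier := {g | g ∈ M ∧ g ^ p = 1}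
              one_mem' := ⟨one_mem _, one_pow _⟩
              mul_mem' := fun {a b} ha hb => ⟨mul_mem ha.1 hb.1, hsub M hM a ha.1 b hb.1 ha.2 hb.2⟩
              inv_mem' := fun {a} ha => ⟨inv_mem ha.1, by rw [inv_pow, ha.2, inv_one]⟩ },
      ⟨fun g hg w => ⟨hMn.conj_mem g hg.1 w, by rw [conj_pow, hg.2, mul_one, mul_inv_cancel]⟩⟩,
      ⟨Subgroup.mem_sup_left (Subgroup.mem_zpowers z), hz⟩, fun g hg => hg.2⟩
  obtain ⟨Nx, hxn, hxN, hxe⟩ := mk x hx fun h => hne (by rw [h, one_mul, hy])
  obtain ⟨Ny, hyn, hyN, hye⟩ := mk y hy fun h => hne (by rw [h, mul_one, hx])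
  haveI := hxn
  haveI := hyn
  set W := Nx ⊓ Ny
  have hcomm : commutator R ≤ W := by
    rw [← Subgroup.Normal.quotient_commutative_iff_commutator_le]
    set π := QuotientGroup.mk' W
    have hxy : Commute (π x) (π y) := by
      rw [← commutatorElement_eq_one_iff_commute, ← map_commutatorElement]
      refine (QuotientGroup.eq_one_iff _).mpr (Subgroup.mem_inf.mpr ⟨?_, ?_⟩)
      · rw [commutatorElement_def, mul_assoc x y, mul_assoc x]
        exact mul_mem hxN (hxn.conj_mem _ (inv_mem hxN) y)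
      · rw [commutatorElement_def]
        exact mul_mem (hyn.conj_mem _ hyN x) (inv_mem hyN)
    have h1 : ∀ w : R, (w = x ∨ w = y) → (⊤ : Subgroup R) ≤
        (Subgroup.centralizer ({π w} : Set _)).comap π := by
      intro w hw
      rw [← hgen, Subgroup.closure_le]
      rintro v hv
      rw [SetLike.mem_coe, Subgroup.mem_comap, Subgroup.mem_centralizer_singleton_iff]
      rcases hv with rfl | rfl <;> rcases hw with rfl | rfl
      · rfl
      · exact hxy.eq
      · exact hxy.symm.eq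
      · rfl
    refine ⟨⟨fun a b => ?_⟩⟩
    obtain ⟨a, rfl⟩ := QuotientGroup.mk'_surjective _ a
    obtain ⟨b, rfl⟩ := QuotientGroup.mk'_surjective _ b
    have h2 : (⊤ : Subgroup R) ≤ (Subgroup.centralizer ({π b} : Set _)).comap π := by
      rw [← hgen, Subgroup.closure_le]
      intro w hw
      have := h1 w (by simpa using hw) (Subgroup.mem_top b)
      rw [Subgroup.mem_comap, Subgroup.mem_centralizer_singleton_iff] at this
      rw [SetLike.mem_coe, Subgroup.mem_comap, Subgroup.mem_centralizer_singleton_iff]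
      exact this.symm
    exact Subgroup.mem_centralizer_singleton_iff.mp (h2 (Subgroup.mem_top a))
  have hWlt : W < Nx := lt_of_le_of_ne inf_le_left fun h => by
    have hxy : x ∈ Ny := by rw [← h] at hxN; exact hxN.2
    exact hne (hye _ (mul_mem hxy hyN))
  obtain ⟨w, hw⟩ := (hR.to_subgroup W).exists_card_eq
  have hw2 : w ≤ 2 := by
    have h1 : Nat.card W < p ^ 3 :=
      lt_of_lt_of_le (lt_of_le_of_ne (Subgroup.card_le_of_le hWlt.le)
        fun h => hWlt.ne (Subgroup.eq_of_le_of_card_ge hWlt.le h.ge)) (card_le_cube hR hrk Nx hxe)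
    rw [hw, Nat.pow_lt_pow_iff_right hpp.one_lt] at h1
    omega
  have hclass : ⁅⁅commutator R, (⊤ : Subgroup R)⁆, (⊤ : Subgroup R)⁆ = ⊥ := by
    refine le_bot_iff.mp ((Subgroup.commutator_mono (Subgroup.commutator_mono hcomm le_rfl)
      le_rfl).trans ?_)
    rcases eq_or_ne W ⊥ with h | h
    · simp [h]
    · haveI : ⁅W, (⊤ : Subgroup R)⁆.Normal := Subgroup.commutator_normal W ⊤
      have hlt := Cfsg.Agent.PGroup.commutator_top_lt hR h
      obtain ⟨j, hj⟩ := (hR.to_subgroup (⁅W, (⊤ : Subgroup R)⁆ : Subgroup R)).exists_card_eq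
      have hj1 : j ≤ 1 := by
        have h1 : p ^ j < p ^ 2 := hj ▸ lt_of_lt_of_le (lt_of_le_of_ne
          (Subgroup.card_le_of_le hlt.le)
          fun h => hlt.ne (Subgroup.eq_of_le_of_card_ge hlt.le h.ge))
          (hw ▸ Nat.pow_le_pow_right hpp.pos hw2)
        rw [Nat.pow_lt_pow_iff_right hpp.one_lt] at h1
        omega
      have hcen : ⁅W, (⊤ : Subgroup R)⁆ ≤ Subgroup.center R := by
        rcases Nat.le_one_iff_eq_zero_or_eq_one.mp hj1 with rfl | rfl
        · rw [pow_zero, Subgroup.card_eq_one] at hj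
          rw [hj]; exact bot_le
        · exact Cfsg.Agent.PGroup.le_center_of_card_eq hR (hj.trans (pow_one p))
      rw [le_bot_iff, Subgroup.commutator_eq_bot_iff_le_centralizer, Subgroup.coe_top,
        Subgroup.centralizer_univ]
      exact hcen
  exact hne (Cfsg.Agent.H4.mul_pow_eq_one_smallClass (by omega) (Or.inr ⟨hp, hclass⟩) hx hy)

/-- For p > 3, in a p-group of p-rank at most 2 the elements of order dividing p generate a subgroup of exponent dividing p. -/
theorem result {R : Type*} [Group R] [Finite R] {p : ℕ} [Fact p.Prime] (hp : 3 < p) (hR : IsPGroup p R) (hrk : ∀ E : Subgroup R, Cfsg.IsElementaryAbelian p E → Nat.card E ≤ p ^ 2) (g : R) (hg : g ∈ Subgroup.closure {x : R | x ^ p = 1}) : g ^ p = 1 := by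
  induction hg using Subgroup.closure_induction with
  | mem s hs => exact hs
  | one => exact one_pow p
  | mul a b _ _ ha hb => exact mul_pow_eq_one _ hp hR rfl hrk a b ha hb
  | inv a _ ha => rw [inv_pow, ha, inv_one]

end Cfsg.Agent.S0128
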