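import Cfsg.Statements.S0131
import Mathlib.GroupTheory.Abelianization.Defs
import Cfsg.Agent.Fusion.Basic

set_option autoImplicit false
open Cfsg

namespace Cfsg.Agent.S0131

open scoped commutatorElement

/-- P/P' has a normal complement in G exactly when the focal subgroup G' ∩ P is as small as possible, namely P'. -/
theorem result {G : Type*} [Group G] [Finite G] {p : ℕ} [Fact p.Prime] (P : Sylow p G) : (∃ N : Subgroup G, N.Normal ∧ N ⊓ (P : Subgroup G) = ⁅(P : Subgroup G), (P : Subgroup G)⁆ ∧ N ⊔ (P : Subgroup G) = ⊤) ↔ commutator G ⊓ (P : Subgroup G) = ⁅(P : Subgroup G), (P : Subgroup G)⁆ := by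
  have hP'le : ⁅(P : Subgroup G), (P : Subgroup G)⁆ ≤ commutator G ⊓ (P : Subgroup G) :=
    le_inf (Subgroup.commutator_mono le_top le_top)
      (Subgroup.commutator_le.mpr fun a ha b hb => by
        rw [commutatorElement_def]
        exact mul_mem (mul_mem (mul_mem ha hb) (inv_mem ha)) (inv_mem hb))
  constructor
  · rintro ⟨N, hN, hNP, hNtop⟩
    refine le_antisymm ?_ hP'le
    rw [← hNP]
    refine inf_le_inf_right _ ?_
    -- the quotient by N is an image of P, abelian because P' ≤ N
    rw [← Subgroup.Normal.quotient_commutative_iff_commutator_le]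
    have himg : ∀ q : G ⧸ N, ∃ a ∈ (P : Subgroup G), (a : G ⧸ N) = q := by
      intro q
      obtain ⟨g, rfl⟩ := QuotientGroup.mk'_surjective N q
      have hg : g ∈ N ⊔ (P : Subgroup G) := hNtop ▸ Subgroup.mem_top g
      rw [← SetLike.mem_coe, Subgroup.normal_mul] at hg
      obtain ⟨n, hn, a, ha, rfl⟩ := hg
      exact ⟨a, ha, by simp [(QuotientGroup.eq_one_iff n).mpr hn]⟩
    refine ⟨⟨fun x y => ?_⟩⟩
    obtain ⟨a, ha, rfl⟩ := himg x
    obtain ⟨b, hb, rfl⟩ := himg y
    rw [← commutatorElement_eq_one_iff_mul_comm, ← QuotientGroup.mk'_apply,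
      ← QuotientGroup.mk'_apply, ← map_commutatorElement, QuotientGroup.mk'_apply,
      QuotientGroup.eq_one_iff]
    have : ⁅a, b⁆ ∈ N ⊓ (P : Subgroup G) := hNP ▸ Subgroup.commutator_mem_commutator ha hb
    exact this.1
  · intro h
    set m := (P : Subgroup G).index
    let π := Abelianization.of (G := G)
    set N := (MonoidHom.ker (powMonoidHom (α := Abelianization G) m)).comap π
    have hmem : ∀ g, g ∈ N ↔ g ^ m ∈ commutator G := fun g => by
      rw [Subgroup.mem_comap, MonoidHom.mem_ker, powMonoidHom_apply, ← map_pow,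
        ← MonoidHom.mem_ker, Abelianization.ker_of]
    obtain ⟨a, ha⟩ := P.2.exists_card_eq
    have hcop : Nat.Coprime (p ^ a) m :=
      Nat.Coprime.pow_left a ((Nat.Prime.coprime_iff_not_dvd Fact.out).mpr (Sylow.not_dvd_index P))
    refine ⟨N, inferInstance, le_antisymm ?_ ?_, ?_⟩
    · intro x hx
      obtain ⟨hxN, hxP⟩ := Subgroup.mem_inf.mp hx
      rw [← h]
      refine Subgroup.mem_inf.mpr ⟨?_, hxP⟩
      have hxo : Nat.Coprime (orderOf x) m := by
        refine hcop.coprime_dvd_left ?_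
        rw [← ha]; exact Subgroup.orderOf_dvd_natCard _ hxP
      obtain ⟨k, hk⟩ := exists_pow_eq_self_of_coprime hxo.symm
      exact hk ▸ pow_mem ((hmem x).mp hxN) k
    · intro x hx
      refine Subgroup.mem_inf.mpr ⟨(hmem x).mpr (pow_mem (hP'le hx).1 _), (hP'le hx).2⟩
    · rw [eq_top_iff]
      intro g _
      have h1 : g ^ p ^ a ∈ N := by
        rw [hmem, ← pow_mul, ← ha, Subgroup.card_mul_index, pow_card_eq_one']
        exact one_mem _
      have h2 : g ^ m ∈ (commutator G) ⊔ (P : Subgroup G) := by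
        haveI : ((commutator G) ⊔ (P : Subgroup G)).Normal := by
          refine ⟨fun x hx w => ?_⟩
          have : ⁅w, x⁆ ∈ (commutator G) ⊔ (P : Subgroup G) := Subgroup.mem_sup_left
            (Subgroup.commutator_mem_commutator (Subgroup.mem_top w) (Subgroup.mem_top x))
          simpa [commutatorElement_def, mul_assoc] using mul_mem this hx
        obtain ⟨c, hc⟩ := Subgroup.index_dvd_of_le
          (le_sup_right : (P : Subgroup G) ≤ commutator G ⊔ (P : Subgroup G))
        rw [show m = _ from hc, pow_mul]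
        exact pow_mem (Subgroup.pow_index_mem _ g) c
      have h' : commutator G ≤ N := fun x hx => (hmem x).mpr (pow_mem hx _)
      have h3 : g ^ m ∈ N ⊔ (P : Subgroup G) := (sup_le_sup_right h' _) h2
      have h4 := Int.gcd_eq_gcd_ab ((p ^ a : ℕ) : ℤ) (m : ℤ)
      rw [Int.gcd_natCast_natCast, hcop] at h4
      have h5 : g = (g ^ p ^ a) ^ (Int.gcdA ((p ^ a : ℕ) : ℤ) (m : ℤ)) *
          (g ^ m) ^ (Int.gcdB ((p ^ a : ℕ) : ℤ) (m : ℤ)) := by
        rw [← zpow_natCast g (p ^ a), ← zpow_natCast g m, ← zpow_mul, ← zpow_mul, ← zpow_add,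
          ← h4, Nat.cast_one, zpow_one]
      rw [h5]
      exact mul_mem (Subgroup.zpow_mem _ (Subgroup.mem_sup_left h1) _) (Subgroup.zpow_mem _ h3 _)

end Cfsg.Agent.S0131
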