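import Cfsg.Statements.S0132
import Cfsg.Agent.Transfer.Frobenius
import Mathlib.Data.Set.Finite.Lemmas
import Mathlib.GroupTheory.NoncommCoprod

set_option autoImplicit false
open Cfsg

namespace Cfsg.Agent.S0132

/-- A minimal non-p-nilpotent finite group is a minimal non-nilpotent group with a normal Sylow p-subgroup. -/
theorem result {G : Type*} [Group G] [Finite G] {p : ℕ} [Fact p.Prime] (h1 : ¬ Cfsg.HasNormalPComplement p G) (h2 : ∀ H : Subgroup G, H ≠ ⊤ → Cfsg.HasNormalPComplement p H) : (∀ H : Subgroup G, H ≠ ⊤ → Group.IsNilpotent H) ∧ ¬ Group.IsNilpotent G ∧ ∀ P : Sylow p G, (P : Subgroup G).Normal := by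
  classical
  have hp : p.Prime := Fact.out
  -- a p-subgroup with a p'-element acting nontrivially
  have hex : ∃ Q : Subgroup G, IsPGroup p Q ∧ Q ≠ ⊥ ∧ ∃ g ∈ Subgroup.normalizer (Q : Set G),
      Nat.Coprime (orderOf g) p ∧ g ∉ Subgroup.centralizer (Q : Set G) := by
    by_contra hc
    refine h1 (Cfsg.Agent.Transfer.hasNormalPComplement_of_coprime_centralize ?_)
    intro Q hQ hne g hg hgo
    by_contra hgc
    exact hc ⟨Q, hQ, hne, g, hg, hgo, hgc⟩
  obtain ⟨Q, hQ, -, g₀, hg₀, hgo₀, hgc₀⟩ := hex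
  obtain ⟨g, ⟨hg, hgo, hgc⟩, hmin⟩ := Set.exists_min_image
    {g : G | g ∈ Subgroup.normalizer (Q : Set G) ∧ Nat.Coprime (orderOf g) p ∧
      g ∉ Subgroup.centralizer (Q : Set G)} orderOf (Set.toFinite _) ⟨g₀, hg₀, hgo₀, hgc₀⟩
  -- the order of g is a prime power
  have hg1 : orderOf g ≠ 1 := fun h => hgc (by rw [orderOf_eq_one_iff.mp h]; exact one_mem _)
  obtain ⟨q, hq, hqd⟩ := Nat.exists_prime_and_dvd hg1
  have hpow : ∀ r : ℕ, r.Prime → r ∣ orderOf g → g ^ r ∈ Subgroup.centralizer (Q : Set G) := by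
    intro r hr hrd
    by_contra hc
    have h1 := hmin (g ^ r) ⟨pow_mem hg r,
      hgo.coprime_dvd_left (orderOf_pow_dvd r), hc⟩
    rw [orderOf_pow_of_dvd hr.ne_zero hrd] at h1
    exact absurd h1 (not_le.mpr (Nat.div_lt_self (orderOf_pos g) hr.one_lt))
  have hprim : ∀ r : ℕ, r.Prime → r ∣ orderOf g → r = q := by
    intro r hr hrd
    by_contra hne
    have hb : (Int.gcd (q : ℤ) (r : ℤ)) = 1 := by
      have h := (Nat.coprime_primes hq hr).mpr (Ne.symm hne)
      simpa [Int.gcd] using h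
    obtain ⟨u, v, huv⟩ : ∃ u v : ℤ, (1 : ℤ) = q * u + r * v :=
      ⟨_, _, by rw [← Int.gcd_eq_gcd_ab, hb]; rfl⟩
    refine hgc ?_
    have : g = (g ^ q) ^ u * (g ^ r) ^ v := by
      rw [← zpow_natCast g q, ← zpow_natCast g r, ← zpow_mul, ← zpow_mul, ← zpow_add, ← huv,
        zpow_one]
    rw [this]
    exact mul_mem (zpow_mem (hpow q hq hqd) u) (zpow_mem (hpow r hr hrd) v)
  have hqp : q ≠ p := fun h => by
    subst h
    exact hp.not_dvd_one (hgo ▸ Nat.dvd_gcd hqd dvd_rfl)
  -- G = Q⟨g⟩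
  have hgQ : ∀ (K : Subgroup G), Q ≤ K → g ∈ K → K = ⊤ := by
    intro K hQK hgK
    by_contra hK
    refine hgc (Subgroup.mem_centralizer_iff.mpr fun x hx => ?_)
    have h3 := Cfsg.Agent.Transfer.centralize_of_hasNormalPComplement (h2 K hK)
      (Q.subgroupOf K) hQ.comap_subtype (g := ⟨g, hgK⟩)
      (Subgroup.mem_normalizer_iff.mpr fun y => Subgroup.mem_normalizer_iff.mp hg (y : G))
      (by rwa [← Subgroup.orderOf_coe])
    exact congrArg Subtype.val (Subgroup.mem_centralizer_iff.mp h3 ⟨x, hQK hx⟩ hx)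
  have hN : Subgroup.normalizer (Q : Set G) = ⊤ := hgQ _ Subgroup.le_normalizer hg
  have hQn : Q.Normal := Subgroup.normalizer_eq_top_iff.mp hN
  have hsup : Q ⊔ Subgroup.zpowers g = ⊤ :=
    hgQ _ le_sup_left (Subgroup.mem_sup_right (Subgroup.mem_zpowers g))
  have hidx : Q.index ∣ orderOf g := by
    have h3 : Q.relIndex (Subgroup.zpowers g) = Q.index := by
      rw [← Subgroup.relIndex_sup_right, sup_comm, hsup, Subgroup.relIndex_top_right]
    rw [← h3, ← Nat.card_zpowers]
    exact Subgroup.relIndex_dvd_card _ _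
  have hidxp : ¬ p ∣ Q.index := fun h =>
    hp.not_dvd_one (hgo ▸ Nat.dvd_gcd (h.trans hidx) dvd_rfl)
  have hsyl : ∀ P : Sylow p G, (P : Subgroup G) = Q := fun P => by
    have h3 : (hQ.toSylow hidxp : Subgroup G) = Q := rfl
    have : ((hQ.toSylow hidxp : Sylow p G) : Subgroup G).Normal := by rw [h3]; exact hQn
    haveI := Sylow.unique_of_normal (hQ.toSylow hidxp) inferInstance
    rw [Subsingleton.elim P (hQ.toSylow hidxp), h3]
  refine ⟨fun H hH => ?_, fun hnil => ?_, fun P => by rw [hsyl P]; exact hQn⟩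
  · -- proper subgroups are nilpotent
    haveI : Fact q.Prime := ⟨hq⟩
    let A : Subgroup H := Q.subgroupOf H
    have hA : IsPGroup p A := hQ.comap_subtype
    obtain ⟨R⟩ : Nonempty (Sylow q H) := inferInstance
    have hcomm : ∀ (a : A) (r : (R : Subgroup H)), Commute (A.subtype a) ((R : Subgroup H).subtype r) := by
      intro a r
      have h3 := Cfsg.Agent.Transfer.centralize_of_hasNormalPComplement (h2 H hH) A hA
        (g := (r : H)) (Subgroup.mem_normalizer_iff.mpr fun y => by
          constructor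
          · intro hy
            exact hQn.conj_mem _ hy _
          · intro hy
            have h4 := hQn.conj_mem _ hy ((r : H) : G)⁻¹
            simpa [Subgroup.mem_subgroupOf, A, mul_assoc] using h4)
        (by
          obtain ⟨k, hk⟩ := IsPGroup.iff_orderOf.mp R.2 r
          rw [Subgroup.orderOf_coe, hk]
          exact Nat.Coprime.pow_left k ((Nat.coprime_primes hq hp).mpr hqp))
      exact Subgroup.mem_centralizer_iff.mp h3 a a.2
    let f : A × (R : Subgroup H) →* H :=
      MonoidHom.noncommCoprod A.subtype (R : Subgroup H).subtype hcomm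
    haveI : Group.IsNilpotent A := hA.isNilpotent
    haveI : Group.IsNilpotent (R : Subgroup H) := R.2.isNilpotent
    refine Group.nilpotent_of_surjective f (MonoidHom.range_eq_top.mp ?_)
    have hAle : A ≤ f.range := fun a ha => ⟨(⟨a, ha⟩, 1), by simp [f]⟩
    have hRle : (R : Subgroup H) ≤ f.range := fun r hr => ⟨(1, ⟨r, hr⟩), by simp [f]⟩
    have hd1 : f.range.index ∣ orderOf g := by
      refine (Subgroup.index_dvd_of_le hAle).trans ?_
      have h5 : A.index = Q.relIndex H := rfl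
      exact h5 ▸ (Subgroup.relIndex_dvd_index_of_normal Q H).trans hidx
    have hd2 : ¬ q ∣ f.range.index := fun h =>
      R.not_dvd_index (h.trans (Subgroup.index_dvd_of_le hRle))
    rw [← Subgroup.index_eq_one]
    by_contra hne
    obtain ⟨r, hr, hrd⟩ := Nat.exists_prime_and_dvd hne
    exact hd2 (hprim r hr (hrd.trans hd1) ▸ hrd)
  · -- G is not nilpotent
    haveI : Fact q.Prime := ⟨hq⟩
    refine hgc (Subgroup.mem_centralizer_iff.mpr fun x hx => ?_)
    obtain ⟨R', hR'⟩ := (IsPGroup.of_card (n := (orderOf g).primeFactorsList.length) (p := q)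
      (G := Subgroup.zpowers g) (by
        rw [Nat.card_zpowers]
        exact Nat.eq_prime_pow_of_unique_prime_dvd (orderOf_pos g).ne'
          (fun {r} hr hrd => hprim r hr hrd))).exists_le_sylow
    have hall : ∀ (r : ℕ) (_ : Fact r.Prime) (S : Sylow r G), (S : Subgroup G).Normal :=
      ((Group.isNilpotent_of_finite_tfae (G := G)).out 0 3).mp hnil
    have hR'n : (R' : Subgroup G).Normal := hall q ⟨hq⟩ R'
    have hd : Disjoint Q (R' : Subgroup G) := IsPGroup.disjoint_of_ne p q hqp.symm _ _ hQ R'.2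
    exact Subgroup.commute_of_normal_of_disjoint Q R' hQn hR'n hd x g hx (hR' (Subgroup.mem_zpowers g))

end Cfsg.Agent.S0132
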