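import Cfsg.Agent.Char.Orthogonality

set_option autoImplicit false
open Cfsg

namespace Cfsg.Agent.S0136

/-- Two elements of a finite group are conjugate if and only if no irreducible complex character separates them. -/
theorem result {G : Type*} [Group G] [Finite G] (g h : G) : IsConj g h ↔ ∀ χ : Cfsg.IrrCharacter G, (χ : G → ℂ) g = (χ : G → ℂ) h := by
  classical
  letI := Fintype.ofFinite G
  refine ⟨fun hc χ => Cfsg.Agent.Char.isClassFunction_eq_of_isConj
    (Cfsg.Agent.Char.irr_isClassFunction χ.2) hc, fun hall => ?_⟩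
  by_contra hc
  have h1 := Cfsg.Agent.Char.sum_irr_mul_conj g h
  have h2 := Cfsg.Agent.Char.sum_irr_mul_conj g g
  rw [if_neg hc] at h1
  rw [if_pos (IsConj.refl g)] at h2
  simp_rw [hall] at h1 h2
  rw [h1] at h2
  exact Nat.cast_ne_zero.mpr Nat.card_pos.ne' h2.symm

end Cfsg.Agent.S0136
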