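import Cfsg.Statements.S0163
import Cfsg.Agent.CharInd.BrauerMonomial

set_option autoImplicit false
open Cfsg

namespace Cfsg.Agent.S0163

/-- Brauer's induction Theorem: every character of a finite group is a ℤ-linear combination of functions induced from linear characters (homomorphisms to ℂˣ) of elementary subgroups. -/
theorem result {G : Type*} [Group G] [Fintype G] (χ : G → ℂ) (hχ : Cfsg.IsCharacter G χ) : ∃ l : List ((E : Subgroup G) × ((E →* ℂˣ) × ℤ)), (∀ t ∈ l, ∃ p : ℕ, p.Prime ∧ Cfsg.IsElementary p t.1) ∧ χ = (l.map fun t => (t.2.2 : ℂ) • Cfsg.indFun t.1 (fun e => (t.2.1 e : ℂ))).sum := by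
  classical
  have h := Cfsg.Agent.CharInd.mem_elemLinear hχ
  suffices ∀ f ∈ Cfsg.Agent.CharInd.elemLinear (G := G),
      ∃ l : List ((E : Subgroup G) × ((E →* ℂˣ) × ℤ)),
        (∀ t ∈ l, ∃ p : ℕ, p.Prime ∧ Cfsg.IsElementary p t.1) ∧
        f = (l.map fun t => (t.2.2 : ℂ) • Cfsg.indFun t.1 (fun e => (t.2.1 e : ℂ))).sum from
    this χ h
  intro f hf
  induction hf using AddSubgroup.closure_induction with
  | mem f hf =>
    obtain ⟨p, E, lam, hp, hE, rfl⟩ := hf
    exact ⟨[⟨E, lam, 1⟩], fun t ht => by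
      rw [List.mem_singleton.1 ht]; exact ⟨p, hp, hE⟩, by simp⟩
  | zero => exact ⟨[], by simp, by simp⟩
  | add a b _ _ ha hb =>
    obtain ⟨l, hl, rfl⟩ := ha
    obtain ⟨l', hl', rfl⟩ := hb
    exact ⟨l ++ l', fun t ht => (List.mem_append.1 ht).elim (hl t) (hl' t), by simp⟩
  | neg a _ ha =>
    obtain ⟨l, hl, rfl⟩ := ha
    refine ⟨l.map fun t => ⟨t.1, t.2.1, -t.2.2⟩, fun t ht => ?_, ?_⟩
    · obtain ⟨s, hs, rfl⟩ := List.mem_map.1 ht
      exact hl s hs
    · clear hl
      have key : ∀ (L : List ((E : Subgroup G) × ((E →* ℂˣ) × ℤ))),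
          -(L.map fun t => (t.2.2 : ℂ) • Cfsg.indFun t.1 (fun e => (t.2.1 e : ℂ))).sum =
          ((L.map fun t => (⟨t.1, t.2.1, -t.2.2⟩ : (E : Subgroup G) × ((E →* ℂˣ) × ℤ))).map
            fun t => (t.2.2 : ℂ) • Cfsg.indFun t.1 (fun e => (t.2.1 e : ℂ))).sum := by
        intro L
        induction L with
        | nil => simp
        | cons t L ih =>
          simp only [List.map_cons, List.sum_cons, neg_add, Int.cast_neg, neg_smul]
          rw [ih]
      exact key l

end Cfsg.Agent.S0163
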