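import Cfsg.Statements.S0166
import Cfsg.Agent.CharInd.Realise

set_option autoImplicit false
open Cfsg

namespace Cfsg.Agent.S0166

/-- Brauer's splitting field Theorem: a complex representation of a finite group of exponent m is equivalent to a representation by matrices with entries in ℚ adjoined exp(2πi/m). -/
theorem result {G : Type*} [Group G] [Finite G] (n : ℕ) (ρ : Representation ℂ G (Fin n → ℂ)) : ∃ σ : Representation ℂ G (Fin n → ℂ), Nonempty (ρ.Equiv σ) ∧ ∀ g : G, ∀ i j : Fin n, LinearMap.toMatrix' (σ g) i j ∈ Algebra.adjoin ℚ ({Complex.exp (2 * Real.pi * Complex.I / (Monoid.exponent G : ℂ))} : Set ℂ) := by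
  let ζ : ℂ := Complex.exp (2 * Real.pi * Complex.I / (Monoid.exponent G : ℂ))
  have he : Monoid.exponent G ≠ 0 := Monoid.exponent_ne_zero_of_finite
  have hζ : IsPrimitiveRoot ζ (Monoid.exponent G) := Complex.isPrimitiveRoot_exp _ he
  haveI : NeZero (Monoid.exponent G) := ⟨he⟩
  have halg : IsAlgebraic ℚ ζ := by
    refine IsIntegral.isAlgebraic ?_
    exact hζ.isIntegral (Nat.pos_of_ne_zero he) |>.tower_top
  let K := IntermediateField.adjoin ℚ ({ζ} : Set ℂ)
  obtain ⟨σ, h1, h2⟩ := Cfsg.Agent.CharInd.exists_realisation (k := K) (fun z hz => by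
    obtain ⟨i, -, rfl⟩ := hζ.eq_pow_of_pow_eq_one hz
    exact ⟨⟨ζ ^ i, K.pow_mem (IntermediateField.subset_adjoin ℚ _ rfl) i⟩, rfl⟩) ρ
  refine ⟨σ, h1, fun g i j => ?_⟩
  obtain ⟨x, hx⟩ := h2 g i j
  rw [← IntermediateField.adjoin_simple_toSubalgebra_of_isAlgebraic halg, ← hx]
  exact x.2

end Cfsg.Agent.S0166
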