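import Cfsg.Statements.S0167
import Cfsg.Agent.Char.Orthogonality
import Cfsg.Agent.Char.Basic

set_option autoImplicit false
open Cfsg
open scoped ComplexConjugate

namespace Cfsg.Agent.S0167

/-- An element g of a finite group is a commutator if and only if the sum over the irreducible characters χ of χ g / χ 1 is nonzero. -/
theorem result {G : Type*} [Group G] [Finite G] (g : G) : (∃ a b : G, g = a * b * a⁻¹ * b⁻¹) ↔ ∑ᶠ χ : Cfsg.IrrCharacter G, (χ : G → ℂ) g / (χ : G → ℂ) 1 ≠ 0 := by
  classical
  letI := Fintype.ofFinite G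
  let c : G × G → G := fun p => p.1 * p.2 * p.1⁻¹ * p.2⁻¹
  let N : G → ℂ := fun x => ((Finset.univ.filter fun p => c p = x).card : ℂ)
  have hN : Cfsg.IsClassFunction G N := by
    intro x y
    simp only [N, Nat.cast_inj]
    refine Finset.card_equiv
      (Equiv.prodCongr (MulAut.conj y⁻¹).toEquiv (MulAut.conj y⁻¹).toEquiv) fun p => ?_
    simp only [Finset.mem_filter, Finset.mem_univ, true_and, c]
    have : ∀ q : G, (MulAut.conj y⁻¹).toEquiv q = y⁻¹ * q * y := fun q => by simp
    simp only [Equiv.prodCongr_apply, Prod.map_fst, Prod.map_snd, this]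
    constructor
    · intro h
      calc _ = y⁻¹ * (p.1 * p.2 * p.1⁻¹ * p.2⁻¹) * y := by group
        _ = x := by rw [h]; group
    · intro h
      rw [← h]
      group
  have hcoef : ∀ χ : Cfsg.IrrCharacter G,
      Cfsg.classInner N (χ : G → ℂ) = (Nat.card G : ℂ) / (χ : G → ℂ) 1 := by
    rintro ⟨_, n, ρ, hρ, rfl⟩
    have hn : (n : ℂ) ≠ 0 := by
      have := Cfsg.Agent.Char.irr_one_ne_zero (⟨n, ρ, hρ, rfl⟩ : Cfsg.IsIrrCharacter G ρ.character)
      rwa [Representation.char_one, Module.finrank_fin_fun] at this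
    have hinner : ∀ a : G, ∑ b : G, ρ.character (a * b * a⁻¹ * b⁻¹) =
        ((Nat.card G : ℂ) * ρ.character a⁻¹ / (n : ℂ)) * ρ.character a := by
      intro a
      let f : G → ℂ := fun x => ((Finset.univ.filter fun b : G => b * a⁻¹ * b⁻¹ = x).card : ℂ)
      have hf : Cfsg.IsClassFunction G f := by
        intro x y
        simp only [f, Nat.cast_inj]
        refine Finset.card_equiv (Equiv.mulLeft y⁻¹) fun b => ?_
        simp only [Finset.mem_filter, Finset.mem_univ, true_and, Equiv.coe_mulLeft]
        constructor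
        · intro h
          calc _ = y⁻¹ * (b * a⁻¹ * b⁻¹) * y := by group
            _ = x := by rw [h]; group
        · intro h
          rw [← h]
          group
      have hreg : ∀ {M : Type} [AddCommGroup M] [Module ℂ M] (F : G → M),
          ∑ x, f x • F x = ∑ b : G, F (b * a⁻¹ * b⁻¹) := by
        intro M _ _ F
        conv_rhs => rw [← Finset.sum_fiberwise Finset.univ (fun b : G => b * a⁻¹ * b⁻¹)]
        refine Finset.sum_congr rfl fun x _ => ?_
        rw [Finset.sum_congr rfl (g := fun _ => F x) fun b hb => by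
          rw [(Finset.mem_filter.1 hb).2], Finset.sum_const, ← Nat.cast_smul_eq_nsmul ℂ]
      have hS := Cfsg.Agent.Char.sum_smul_eq_smul_id ρ hf
      rw [hreg (fun x => ρ x)] at hS
      have hval : ∑ x, f x * ρ.character x = (Nat.card G : ℂ) * ρ.character a⁻¹ := by
        have := hreg (fun x => ρ.character x)
        simp only [smul_eq_mul] at this
        rw [this]
        simp [Representation.char_conj, Nat.card_eq_fintype_card]
      rw [hval, Module.finrank_fin_fun] at hS
      have h2 := congrArg (fun T => LinearMap.trace ℂ (Fin n → ℂ) (ρ a * T)) hS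
      simp only [Finset.mul_sum, map_sum] at h2
      have e : ∀ b : G, ρ.character (a * b * a⁻¹ * b⁻¹) =
          LinearMap.trace ℂ (Fin n → ℂ) (ρ a * ρ (b * a⁻¹ * b⁻¹)) := fun b => by
        rw [Representation.character, ← map_mul]
        congr 2
        group
      simp only [e]
      rw [h2, show (LinearMap.id : Module.End ℂ (Fin n → ℂ)) = 1 from rfl, mul_smul_comm, mul_one,
        map_smul, smul_eq_mul]
      rfl
    have hpair : ∑ x, N x * conj (ρ.character x) = ∑ p : G × G, conj (ρ.character (c p)) := by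
      conv_rhs => rw [← Finset.sum_fiberwise Finset.univ c]
      refine Finset.sum_congr rfl fun x _ => ?_
      rw [Finset.sum_congr rfl (g := fun _ => conj (ρ.character x)) fun b hb => by
        rw [(Finset.mem_filter.1 hb).2], Finset.sum_const, nsmul_eq_mul]
    have hone : ∑ a : G, ρ.character a⁻¹ * ρ.character a = (Nat.card G : ℂ) := by
      have := Cfsg.Agent.Char.classInner_irr_self
        (⟨n, ρ, hρ, rfl⟩ : Cfsg.IsIrrCharacter G ρ.character)
      rw [Cfsg.classInner, inv_mul_eq_one₀ (Nat.cast_ne_zero.2 Nat.card_pos.ne')] at this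
      rw [this]
      exact Finset.sum_congr rfl fun a _ => by rw [Cfsg.Agent.Char.character_inv, mul_comm]
    have htot : ∑ p : G × G, ρ.character (c p) = (Nat.card G : ℂ) * Nat.card G / n := by
      rw [Fintype.sum_prod_type]
      simp only [c, hinner]
      have : ∀ a : G, (Nat.card G : ℂ) * ρ.character a⁻¹ / n * ρ.character a =
          ((Nat.card G : ℂ) / n) * (ρ.character a⁻¹ * ρ.character a) := fun a => by ring
      simp only [this, ← Finset.mul_sum, hone]
      ring
    have hnG : (Nat.card G : ℂ) ≠ 0 := Nat.cast_ne_zero.2 Nat.card_pos.ne'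
    show (Nat.card G : ℂ)⁻¹ * ∑ x, N x * conj (ρ.character x) =
      (Nat.card G : ℂ) / ρ.character 1
    rw [hpair, ← map_sum, htot, Representation.char_one, Module.finrank_fin_fun]
    simp only [map_div₀, map_mul, map_natCast]
    field_simp
  have hexp := congrFun (Cfsg.Agent.Char.eq_sum_classInner_smul hN) g
  simp only [hcoef, Finset.sum_apply, Pi.smul_apply, smul_eq_mul] at hexp
  rw [finsum_eq_sum_of_fintype]
  have hsum : N g = (Nat.card G : ℂ) * ∑ χ : Cfsg.IrrCharacter G, (χ : G → ℂ) g / (χ : G → ℂ) 1 := by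
    rw [hexp, Finset.mul_sum]
    exact Finset.sum_congr rfl fun χ _ => by ring
  rw [← (mul_ne_zero_iff_left (Nat.cast_ne_zero.2 Nat.card_pos.ne' :
    (Nat.card G : ℂ) ≠ 0)), ← hsum]
  simp only [N, ne_eq, Nat.cast_eq_zero, Finset.card_eq_zero, ← Finset.nonempty_iff_ne_empty]
  constructor
  · rintro ⟨a, b, rfl⟩
    exact ⟨(a, b), Finset.mem_filter.2 ⟨Finset.mem_univ _, rfl⟩⟩
  · rintro ⟨p, hp⟩
    exact ⟨p.1, p.2, (Finset.mem_filter.1 hp).2.symm⟩

end Cfsg.Agent.S0167
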