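import Cfsg.Statements.S0170
import Cfsg.Agent.CharInd.Coherence

set_option autoImplicit false
open Cfsg

namespace Cfsg.Agent.S0170

/-- Exceptional characters. Let S be a subset of a finite group contained in its normalizer N and meeting its conjugates by elements outside N only in the identity. Given n ≥ 2 distinct irreducible characters of N of equal degree that vanish on N away from S, there exist a sign ε and n distinct irreducible characters θ_i of G such that inducing χ_i − χ_j to G gives ε (θ_i − θ_j) for all i, j. -/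
theorem result {G : Type*} [Group G] [Fintype G] (S : Set G) (hSN : S ⊆ Subgroup.normalizer S) (hTI : ∀ g : G, g ∉ Subgroup.normalizer S → ∀ s ∈ S, g * s * g⁻¹ ∈ S → s = 1) (n : ℕ) (hn : 2 ≤ n) (χ : Fin n → (Subgroup.normalizer S → ℂ)) (hirr : ∀ i, Cfsg.IsIrrCharacter (Subgroup.normalizer S) (χ i)) (hinj : Function.Injective χ) (hvan : ∀ i, ∀ x : Subgroup.normalizer S, (x : G) ∉ S → χ i x = 0) (hdeg : ∀ i j, χ i 1 = χ j 1) : ∃ ε : ℂ, (ε = 1 ∨ ε = -1) ∧ ∃ θ : Fin n → (G → ℂ), (∀ i, Cfsg.IsIrrCharacter G (θ i)) ∧ Function.Injective θ ∧ ∀ i j, Cfsg.indFun (Subgroup.normalizer S) (χ i) - Cfsg.indFun (Subgroup.normalizer S) (χ j) = ε • (θ i - θ j) := by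
  classical
  let i₀ : Fin n := ⟨0, by omega⟩
  letI := Fintype.ofFinite (Subgroup.normalizer S)
  let Nrm := Subgroup.normalizer S
  let τ : Fin n → G → ℂ := fun i => Cfsg.indFun Nrm (χ i - χ i₀)
  have hclass : ∀ i, Cfsg.IsClassFunction Nrm (χ i - χ i₀) := fun i g h => by
    simp [Cfsg.Agent.Char.irr_isClassFunction (hirr i) g h,
      Cfsg.Agent.Char.irr_isClassFunction (hirr i₀) g h]
  have hv : ∀ i, ∀ x : Nrm, (x : G) ∉ S → (χ i - χ i₀) x = 0 := fun i x hx => by
    simp [hvan i x hx, hvan i₀ x hx]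
  have h1 : ∀ i, (χ i - χ i₀) 1 = 0 := fun i => by simp [hdeg i i₀]
  have hgram : ∀ i j, i ≠ i₀ → j ≠ i₀ →
      Cfsg.classInner (τ i) (τ j) = if i = j then 2 else 1 := by
    intro i j hi hj
    rw [Cfsg.Agent.CharInd.classInner_indFun_ti Nrm S hTI (hclass j) (hv i) (hv j) (h1 i)]
    simp only [Cfsg.Agent.Char.classInner_sub_left, Cfsg.Agent.Char.classInner_sub_right,
      Cfsg.Agent.Char.classInner_irr (hirr _) (hirr _), hinj.eq_iff, if_neg hi, if_neg (Ne.symm hj)]
    split_ifs <;> norm_num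
  obtain ⟨ε, hε, μ, hμ, hμinj, hτ⟩ := Cfsg.Agent.CharInd.coherence_gram n i₀ τ
    (by simp only [τ, sub_self, Cfsg.Agent.CharInd.indFun_zero])
    (fun i => Cfsg.Agent.CharInd.genChar_indFun _ (Cfsg.Agent.CharInd.genChar_sub
      (Cfsg.Agent.CharInd.genChar_irr (hirr i)) (Cfsg.Agent.CharInd.genChar_irr (hirr i₀))))
    (fun i => Cfsg.Agent.CharInd.indFun_one_eq_zero _ (h1 i)) hgram
  refine ⟨ε, hε, μ, hμ, hμinj, fun i j => ?_⟩
  have e : Cfsg.indFun Nrm (χ i) - Cfsg.indFun Nrm (χ j) = τ i - τ j := by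
    simp only [τ, Cfsg.Agent.CharInd.indFun_sub]
    abel
  rw [e, hτ, hτ, ← smul_sub]
  congr 1
  abel

end Cfsg.Agent.S0170
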