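import Cfsg.Statements.S0171
import Cfsg.Agent.CharInd.BrauerPerm
import Cfsg.Agent.CharInd.FrobGroup
import Cfsg.Agent.CharInd.Clifford

set_option autoImplicit false
open Cfsg

namespace Cfsg.Agent.S0171

/-- Let G = K H with K normal, K ⊓ H trivial, and no non-identity element of H commuting with a non-identity element of K (a Frobenius group with kernel K and complement H). Then every non-principal irreducible character of K induces to an irreducible character of G. -/
theorem result {G : Type*} [Group G] [Fintype G] (K H : Subgroup G) [K.Normal] (hKH : K ⊓ H = ⊥) (hKH' : K ⊔ H = ⊤) (hfpf : ∀ h ∈ H, h ≠ 1 → ∀ k ∈ K, h * k = k * h → k = 1) (τ : K → ℂ) (hτ : Cfsg.IsIrrCharacter K τ) (hτ1 : τ ≠ fun _ => 1) : Cfsg.IsIrrCharacter G (Cfsg.indFun K τ) := by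
  classical
  have hstab : ∀ x : G, τ = Cfsg.Agent.CharInd.conjChar K x τ ↔ x ∈ K := by
    intro x
    constructor
    · intro hfix
      by_contra hx
      apply hτ1
      let α : K ≃* K := (MulAut.conjNormal x : MulAut K)
      have hfixed : ∀ C : ConjClasses K, ConjClasses.map α.toMonoidHom C = C →
          C = ConjClasses.mk 1 := by
        intro C hC
        obtain ⟨g, rfl⟩ := ConjClasses.exists_rep C
        change ConjClasses.mk (α g) = ConjClasses.mk g at hC
        obtain ⟨k, hk⟩ := isConj_iff.1 (ConjClasses.mk_eq_mk_iff_isConj.1 hC)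
        have hk' : (k : G) * (x * g * x⁻¹) * (k : G)⁻¹ = g := congrArg Subtype.val hk
        have hnot : (k : G) * x ∉ K := fun h => hx (by
          simpa using K.mul_mem (K.inv_mem k.2) h)
        have hc : (k : G) * x * g = g * ((k : G) * x) := by
          conv_rhs => rw [← hk']
          group
        have := Cfsg.Agent.CharInd.frob_centralizer_free K H hKH' hfpf hnot g.2 hc
        congr 1
        exact Subtype.ext this
      have hcard := Cfsg.Agent.CharInd.brauer_perm α
      have hle : Nat.card {C : ConjClasses K // ConjClasses.map α.toMonoidHom C = C} ≤ 1 :=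
        Finite.card_le_one_iff_subsingleton.2
          ⟨fun a b => Subtype.ext ((hfixed a.1 a.2).trans (hfixed b.1 b.2).symm)⟩
      rw [hcard, Finite.card_le_one_iff_subsingleton] at hle
      have h1 : τ ∘ α = τ := by
        conv_rhs => rw [hfix, Cfsg.Agent.CharInd.conjChar_eq_comp]
        rfl
      have := @Subsingleton.elim _ hle ⟨⟨τ, hτ⟩, h1⟩
        ⟨⟨fun _ => 1, Cfsg.Agent.Char.isIrrCharacter_const_one⟩, rfl⟩
      exact congrArg (fun t => (t.1 : Cfsg.IrrCharacter K).1) this
    · intro hx
      exact (Cfsg.Agent.CharInd.conjChar_isClassFunction_mem K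
        (Cfsg.Agent.Char.irr_isClassFunction hτ) ⟨x, hx⟩).symm
  refine Cfsg.Agent.Char.isIrrCharacter_iff_classInner.2
    ⟨Cfsg.Agent.CharInd.isCharacter_indFun K (Cfsg.Agent.Char.isCharacter_of_irr hτ), ?_⟩
  have h := Cfsg.Agent.CharInd.card_mul_classInner_indFun_normal K τ τ
  simp only [fun x => Cfsg.Agent.Char.classInner_irr hτ (Cfsg.Agent.CharInd.conjChar_irr K x hτ),
    hstab] at h
  rw [Finset.sum_boole, ← Fintype.card_subtype, ← Nat.card_eq_fintype_card] at h
  exact mul_left_cancel₀ (Nat.cast_ne_zero.2 Nat.card_pos.ne') (h.trans (mul_one _).symm)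

end Cfsg.Agent.S0171
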