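import Cfsg.Statements.S0172
import Cfsg.Agent.CharInd.FrobGroup

set_option autoImplicit false
open Cfsg

namespace Cfsg.Agent.S0172

/-- Class number of a Frobenius group: if G = K H with K normal, K ⊓ H trivial and no non-identity element of H commuting with a non-identity element of K, then |H| * k(G) + 1 = |H| * k(H) + k(K), where k denotes the number of conjugacy classes. -/
theorem result {G : Type*} [Group G] [Finite G] (K H : Subgroup G) [K.Normal] (hKH : K ⊓ H = ⊥) (hKH' : K ⊔ H = ⊤) (hfpf : ∀ h ∈ H, h ≠ 1 → ∀ k ∈ K, h * k = k * h → k = 1) : Nat.card H * Nat.card (ConjClasses G) + 1 = Nat.card H * Nat.card (ConjClasses H) + Nat.card (ConjClasses K) := by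
  classical
  letI := Fintype.ofFinite G
  have cards : ∀ (T : Type _) [Group T] [Fintype T],
      ∑ a : T, Nat.card (Subgroup.centralizer ({a} : Set T)) =
        Nat.card (ConjClasses T) * Nat.card T := by
    intro T _ _
    rw [← card_comm_eq_card_conjClasses_mul_card,
      Nat.card_congr (Equiv.subtypeProdEquivSigmaSubtype Commute), Nat.card_sigma]
    refine Finset.sum_congr rfl fun a _ => Nat.card_congr (Equiv.subtypeEquivRight fun b => ?_)
    exact ⟨fun h => (Subgroup.mem_centralizer_singleton_iff.1 h).symm,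
      fun h => Subgroup.mem_centralizer_singleton_iff.2 (Eq.symm h)⟩
  let c : G → ℕ := fun g => Nat.card (Subgroup.centralizer ({g} : Set G))
  have hcK : ∀ g : K, g ≠ 1 → c g = Nat.card (Subgroup.centralizer ({g} : Set K)) := by
    intro g hg
    refine Nat.card_congr
      { toFun := fun a => ⟨⟨a.1, ?_⟩, Subgroup.mem_centralizer_singleton_iff.2
          (Subtype.ext (Subgroup.mem_centralizer_singleton_iff.1 a.2))⟩
        invFun := fun a => ⟨a.1.1, Subgroup.mem_centralizer_singleton_iff.2
          (congrArg Subtype.val (Subgroup.mem_centralizer_singleton_iff.1 a.2))⟩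
        left_inv := fun a => rfl
        right_inv := fun a => rfl }
    by_contra ha
    exact hg (Subtype.ext (Cfsg.Agent.CharInd.frob_centralizer_free K H hKH' hfpf ha g.2
      (Subgroup.mem_centralizer_singleton_iff.1 a.2)))
  have hcH : ∀ (k : K) (h : H), h ≠ 1 →
      c ((k : G) * h * (k : G)⁻¹) = Nat.card (Subgroup.centralizer ({h} : Set H)) := by
    intro k h hh
    symm
    refine Nat.card_congr (Equiv.ofBijective
      (fun b => ⟨(k : G) * ((b.1 : H) : G) * (k : G)⁻¹, ?_⟩) ⟨?_, ?_⟩)
    · have hb : ((b.1 : H) : G) * h = h * (b.1 : H) :=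
        congrArg Subtype.val (Subgroup.mem_centralizer_singleton_iff.1 b.2)
      rw [Subgroup.mem_centralizer_singleton_iff]
      calc (k : G) * ((b.1 : H) : G) * (k : G)⁻¹ * ((k : G) * h * (k : G)⁻¹)
          = (k : G) * (((b.1 : H) : G) * h) * (k : G)⁻¹ := by group
        _ = (k : G) * (h * ((b.1 : H) : G)) * (k : G)⁻¹ := by rw [hb]
        _ = (k : G) * h * (k : G)⁻¹ * ((k : G) * ((b.1 : H) : G) * (k : G)⁻¹) := by group
    · intro a b e
      have e' : (k : G) * ((a.1 : H) : G) * (k : G)⁻¹ = (k : G) * ((b.1 : H) : G) * (k : G)⁻¹ :=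
        congrArg Subtype.val e
      exact Subtype.ext (Subtype.ext (mul_left_cancel (mul_right_cancel e')))
    · intro y
      have hy := Subgroup.mem_centralizer_singleton_iff.1 y.2
      let z : G := (k : G)⁻¹ * y * k
      have hz : z * h = h * z := by
        calc z * h = (k : G)⁻¹ * ((y : G) * ((k : G) * h * (k : G)⁻¹)) * k := by
              simp [z, mul_assoc]
          _ = h * z := by rw [hy]; simp [z, mul_assoc]
      obtain ⟨a, ha, d, hd, hzad⟩ :=
        Subgroup.mem_sup_of_normal_left.1 (hKH' ▸ Subgroup.mem_top z : z ∈ K ⊔ H)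
      rw [← hzad] at hz
      have hh' : (h : G) ≠ 1 := fun e => hh (Subtype.ext e)
      have hm : (h : G) * d * (h : G)⁻¹ * d⁻¹ ∈ K ⊓ H := by
        refine ⟨?_, H.mul_mem (H.mul_mem (H.mul_mem h.2 hd) (H.inv_mem h.2)) (H.inv_mem hd)⟩
        have : (h : G) * d * (h : G)⁻¹ * d⁻¹ = (h : G) * a⁻¹ * (h : G)⁻¹ * a := by
          calc (h : G) * d * (h : G)⁻¹ * d⁻¹
              = (h : G) * a⁻¹ * ((a * d) * (h : G)⁻¹) * d⁻¹ := by group
            _ = (h : G) * a⁻¹ * ((h : G)⁻¹ * (a * d)) * d⁻¹ := by
              rw [show (a * d) * (h : G)⁻¹ = (h : G)⁻¹ * (a * d) from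
                (Commute.inv_right hz).eq]
            _ = (h : G) * a⁻¹ * (h : G)⁻¹ * a := by group
        rw [this]
        exact K.mul_mem (Subgroup.Normal.conj_mem inferInstance _ (K.inv_mem ha) h) ha
      rw [hKH, Subgroup.mem_bot, mul_inv_eq_one, mul_inv_eq_iff_eq_mul] at hm
      have ha1 : a = 1 := hfpf h h.2 hh' a ha (by
        apply mul_right_cancel (b := d)
        calc (h : G) * a * d = a * d * h := by rw [mul_assoc, ← hz]
          _ = a * h * d := by rw [mul_assoc, ← hm, mul_assoc])
      refine ⟨⟨⟨d, hd⟩, Subgroup.mem_centralizer_singleton_iff.2 (Subtype.ext hm.symm)⟩, ?_⟩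
      apply Subtype.ext
      show (k : G) * d * (k : G)⁻¹ = y
      rw [ha1, one_mul] at hzad
      rw [hzad]
      simp [z, mul_assoc]
  let F : K × {h : H // h ≠ 1} → G := fun p => (p.1 : G) * (p.2.1 : G) * (p.1 : G)⁻¹
  have hFinj : Function.Injective F := by
    intro p q e
    have hp : (p.2.1 : G) ≠ 1 := fun e => p.2.2 (Subtype.ext e)
    obtain ⟨e1, e2⟩ := Cfsg.Agent.CharInd.frob_conj_eq K H hKH hfpf p.1.2 q.1.2
      p.2.1.2 q.2.1.2 hp e
    exact Prod.ext (Subtype.ext e1) (Subtype.ext (Subtype.ext e2))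
  have himg : Finset.univ.image F = Finset.univ.filter (fun g : G => g ∉ K) := by
    ext g
    simp only [Finset.mem_image, Finset.mem_univ, true_and, Finset.mem_filter]
    constructor
    · rintro ⟨p, rfl⟩ hg
      apply p.2.2
      have : (p.2.1 : G) ∈ K ⊓ H := by
        refine ⟨?_, p.2.1.2⟩
        have := K.mul_mem (K.mul_mem (K.inv_mem p.1.2) hg) p.1.2
        simpa [F, mul_assoc] using this
      rw [hKH, Subgroup.mem_bot] at this
      exact Subtype.ext this
    · intro hg
      obtain ⟨k, hk, h, hh, h1, rfl⟩ := Cfsg.Agent.CharInd.frob_exists_conj K H hKH' hfpf hg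
      exact ⟨(⟨k, hk⟩, ⟨⟨h, hh⟩, fun e => h1 (congrArg Subtype.val e)⟩), rfl⟩
  have hout : ∑ g ∈ Finset.univ.filter (fun g : G => g ∉ K), c g + Nat.card K * Nat.card H =
      Nat.card K * (Nat.card (ConjClasses H) * Nat.card H) := by
    rw [← himg, Finset.sum_image (fun p _ q _ e => hFinj e), Fintype.sum_prod_type,
      ← cards H]
    simp only [F, fun (k : K) (h : {h : H // h ≠ 1}) => hcH k h.1 h.2, Finset.sum_const,
      Finset.card_univ, smul_eq_mul, ← Nat.card_eq_fintype_card]
    rw [← mul_add]
    congr 1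
    rw [← Finset.add_sum_erase Finset.univ _ (Finset.mem_univ (1 : H)), add_comm]
    congr 1
    · rw [Nat.card_congr (Equiv.subtypeUnivEquiv (fun b : H => ?_))]
      exact Subgroup.mem_centralizer_singleton_iff.2 (by simp)
    · exact (Finset.sum_subtype (p := fun x : H => x ≠ 1) (Finset.univ.erase (1 : H)) (by simp)
        (fun x : H => Nat.card (Subgroup.centralizer ({x} : Set H)))).symm
  have hin : ∑ g ∈ Finset.univ.filter (fun g : G => g ∈ K), c g + Nat.card K =
      Nat.card G + Nat.card (ConjClasses K) * Nat.card K := by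
    rw [← cards K, Finset.sum_subtype (Finset.univ.filter (fun g : G => g ∈ K)) (p := fun g => g ∈ K)
      (by simp)]
    rw [← Finset.add_sum_erase Finset.univ _ (Finset.mem_univ (1 : K)),
      ← Finset.add_sum_erase Finset.univ _ (Finset.mem_univ (1 : K))]
    have e1 : c ((1 : K) : G) = Nat.card G :=
      Nat.card_congr (Equiv.subtypeUnivEquiv fun b =>
        Subgroup.mem_centralizer_singleton_iff.2 (by simp))
    have e2 : Nat.card (Subgroup.centralizer ({(1 : K)} : Set K)) = Nat.card K :=
      Nat.card_congr (Equiv.subtypeUnivEquiv fun b =>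
        Subgroup.mem_centralizer_singleton_iff.2 (by simp))
    rw [e1, e2, Finset.sum_congr rfl fun g hg => hcK g (Finset.mem_erase.1 hg).1]
    ring
  have hG : Nat.card G = Nat.card K * Nat.card H :=
    (Subgroup.isComplement'_of_disjoint_and_mul_eq_univ (disjoint_iff.2 hKH)
      (by rw [← Subgroup.normal_mul, hKH', Subgroup.coe_top])).card_mul.symm
  have htot := cards G
  rw [← Finset.sum_filter_add_sum_filter_not Finset.univ (fun g : G => g ∈ K)] at htot
  have hpos : 0 < Nat.card K := Nat.card_pos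
  apply Nat.eq_of_mul_eq_mul_left hpos
  rw [hG] at hin htot
  linarith

end Cfsg.Agent.S0172
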