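import Cfsg.Statements.S0175
import Cfsg.Agent.CharInd.Monomial

set_option autoImplicit false
open Cfsg

namespace Cfsg.Agent.S0175

/-- Taketa's Theorem on M-groups: if every irreducible complex character of a finite group is induced from a linear character (a homomorphism to ℂˣ) of some subgroup, the group is solvable. -/
theorem result {G : Type*} [Group G] [Fintype G] (hM : ∀ χ : G → ℂ, Cfsg.IsIrrCharacter G χ → ∃ (H : Subgroup G) (lam : H →* ℂˣ), χ = Cfsg.indFun H (fun h => (lam h : ℂ))) : Group.IsSolvable G := by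
  classical
  choose d hd hd1 using fun χ : Cfsg.IrrCharacter G => Cfsg.Agent.Char.irr_one_pos χ.2
  let D := ∑ χ, d χ
  refine (Group.isSolvable_def G).2 ⟨D, ?_⟩
  rw [Subgroup.eq_bot_iff_forall]
  intro g hg
  by_contra hne
  obtain ⟨χ, hχ⟩ := Cfsg.Agent.Char.exists_irr_ne_degree hne
  refine hχ (Cfsg.Agent.CharInd.derived_le_kernel_of_monomial hM D g hg χ.1 χ.2 ?_)
  rw [hd1, Complex.natCast_re]
  exact_mod_cast Finset.single_le_sum (f := d) (fun _ _ => Nat.zero_le _) (Finset.mem_univ χ)

end Cfsg.Agent.S0175
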