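import Cfsg.Statements.S0177
import Cfsg.Agent.CharInd.Artin

set_option autoImplicit false
open Cfsg

namespace Cfsg.Agent.S0177

/-- The Artin induction Theorem: for a character χ of a finite group, |G| • χ is a ℤ-linear combination of functions induced from homomorphisms of cyclic subgroups into ℂˣ. -/
theorem result {G : Type*} [Group G] [Fintype G] (χ : G → ℂ) (hχ : Cfsg.IsCharacter G χ) : ∃ l : List ((A : Subgroup G) × ((A →* ℂˣ) × ℤ)), (∀ t ∈ l, IsCyclic t.1) ∧ (Nat.card G : ℂ) • χ = (l.map fun t => (t.2.2 : ℂ) • Cfsg.indFun t.1 (fun a => (t.2.1 a : ℂ))).sum := by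
  classical
  letI := Fintype.ofFinite (Subgroup G)
  let Cy := Finset.univ.filter (fun A : Subgroup G => IsCyclic A)
  let ψ : (A : Subgroup G) → A → ℂ := fun A a => Cfsg.Agent.CharInd.artinTheta A a * χ a
  have hdec : ∀ A : Subgroup G, ∃ c : (A →* ℂˣ) →₀ ℤ, A ∈ Cy →
      ψ A = c.sum fun lam k => (k : ℂ) • fun a => (lam a : ℂ) := by
    intro A
    by_cases hA : A ∈ Cy
    swap
    · exact ⟨0, fun h => absurd h hA⟩
    have hcy : IsCyclic A := (Finset.mem_filter.1 hA).2
    have hgen : Cfsg.IsGeneralizedCharacter A (ψ A) :=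
      Cfsg.Agent.CharInd.genChar_mul (Cfsg.Agent.CharInd.artinTheta_genChar _ A rfl hcy)
        (Cfsg.Agent.CharInd.genChar_of_isCharacter
          (Cfsg.Agent.Char.isCharacter_restrict hχ A))
    letI := Fintype.ofFinite A
    obtain ⟨k, hk⟩ := Cfsg.Agent.CharInd.genChar_coef hgen
    have hcomm : ∀ a b : A, a * b = b * a := by
      letI := IsCyclic.commGroup (α := A)
      exact mul_comm
    choose lam hlam using fun ξ : Cfsg.IrrCharacter A =>
      Cfsg.Agent.Char.irr_exists_monoidHom_of_comm hcomm ξ.2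
    refine ⟨∑ ξ, Finsupp.single (lam ξ) (k ξ), fun _ => ?_⟩
    rw [← Finsupp.sum_finset_sum_index (fun _ => by simp) (fun _ _ _ => by simp [add_smul]), hk]
    refine Finset.sum_congr rfl fun ξ _ => ?_
    rw [Finsupp.sum_single_index (by simp)]
    funext a
    simp [hlam ξ a]
  choose c hc using hdec
  let L : Finset ((A : Subgroup G) × (A →* ℂˣ)) := Cy.sigma fun A => (c A).support
  refine ⟨L.toList.map fun p => ⟨p.1, (p.2, c p.1 p.2)⟩, ?_, ?_⟩
  · intro t ht
    obtain ⟨p, hp, rfl⟩ := List.mem_map.1 ht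
    exact (Finset.mem_filter.1 (Finset.mem_sigma.1 (Finset.mem_toList.1 hp)).1).2
  rw [List.map_map, Finset.sum_map_toList, Finset.sum_sigma]
  have hid := Cfsg.Agent.CharInd.artin_identity G
  have hmain : (Nat.card G : ℂ) • χ = ∑ A ∈ Cy, Cfsg.indFun A (ψ A) := by
    rw [show (∑ A ∈ Cy, Cfsg.indFun A (ψ A)) =
      ∑ A ∈ Cy, Cfsg.indFun A (Cfsg.Agent.CharInd.artinTheta A) * χ from
      Finset.sum_congr rfl fun A _ => Cfsg.Agent.CharInd.indFun_mul_res A _
        (Cfsg.Agent.Char.isCharacter_isClassFunction hχ), ← Finset.sum_mul, hid]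
    funext g
    simp
  rw [hmain]
  refine Finset.sum_congr rfl fun A hA => ?_
  rw [hc A hA, Finsupp.sum, Cfsg.Agent.CharInd.indFun_sum]
  refine Finset.sum_congr rfl fun lam _ => ?_
  exact Cfsg.Agent.CharInd.indFun_smul A _ _

end Cfsg.Agent.S0177
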