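import Cfsg.Statements.S0178
import Cfsg.Agent.CharInd.Linear
import Cfsg.Agent.CharInd.Induced
import Cfsg.Agent.CharInd.Clifford

set_option autoImplicit false
open Cfsg

namespace Cfsg.Agent.S0178

/-- The degree of an irreducible complex representation of a finite group is at most the index of any abelian subgroup. -/
theorem result {G : Type*} [Group G] [Finite G] {V : Type*} [AddCommGroup V] [Module ℂ V] [FiniteDimensional ℂ V] (ρ : Representation ℂ G V) [ρ.IsIrreducible] (A : Subgroup G) (hA : ∀ a ∈ A, ∀ b ∈ A, a * b = b * a) : Module.finrank ℂ V ≤ A.index := by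
  classical
  letI := Fintype.ofFinite G
  letI := Fintype.ofFinite A
  have hχ := Cfsg.Agent.Char.isIrrCharacter_character ρ
  obtain ⟨lam, m, hm, hlam⟩ := Cfsg.Agent.Char.exists_irr_constituent
    (Cfsg.Agent.CharInd.isCharacter_res A (Cfsg.Agent.Char.isCharacter_of_irr hχ)) (by
      intro h
      exact Cfsg.Agent.Char.irr_one_ne_zero hχ (congrFun h 1))
  have hl1 : (lam : A → ℂ) 1 = 1 := Cfsg.Agent.CharInd.irr_one_of_comm
    (fun x y => Subtype.ext (hA x x.2 y y.2)) lam.2
  obtain ⟨c, hc, hc'⟩ := Cfsg.Agent.Char.isCharacter_exists_coeff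
    (Cfsg.Agent.CharInd.isCharacter_indFun A (Cfsg.Agent.Char.isCharacter_of_irr lam.2))
  choose d hd hd1 using fun χ : Cfsg.IrrCharacter G => Cfsg.Agent.Char.irr_one_pos χ.2
  let X : Cfsg.IrrCharacter G := ⟨_, hχ⟩
  have hsum : A.index = ∑ ψ, c ψ * d ψ := by
    have h1 := congrFun hc 1
    rw [Cfsg.Agent.CharInd.indFun_one_apply, hl1, mul_one, Finset.sum_apply] at h1
    simp only [Pi.smul_apply, hd1, nsmul_eq_mul] at h1
    exact_mod_cast h1
  have hcX : c X = m := by
    have := hc' X
    rw [Cfsg.Agent.CharInd.classInner_indFun_left A _ (Cfsg.Agent.Char.irr_isClassFunction hχ),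
      ← Cfsg.Agent.CharInd.classInner_swap] at this
    simp only [X] at this
    rw [hlam, map_natCast] at this
    exact_mod_cast this.symm
  have hdX : d X = Module.finrank ℂ V := by
    have := hd1 X
    simp only [X, Representation.char_one] at this
    exact_mod_cast this.symm
  rw [hsum, ← hdX]
  refine le_trans ?_ (Finset.single_le_sum (f := fun ψ => c ψ * d ψ) (fun _ _ => Nat.zero_le _)
    (Finset.mem_univ X))
  rw [hcX]
  exact Nat.le_mul_of_pos_left _ hm

end Cfsg.Agent.S0178
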