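import Cfsg.Statements.S0180
import Cfsg.Agent.BlkChar.GalAvg
import Cfsg.Agent.Char.Integrality
import Cfsg.Agent.Char.Orthogonality

set_option autoImplicit false
open Cfsg

namespace Cfsg.Agent.S0180

/-- Every irreducible complex character of a finite group takes only rational values if and only if g is conjugate to g ^ m for every element g and every m coprime to the group order. -/
theorem result {G : Type*} [Group G] [Finite G] : (∀ χ : Cfsg.IrrCharacter G, ∀ g : G, ∃ q : ℚ, (χ : G → ℂ) g = (q : ℂ)) ↔ ∀ m : ℕ, m.Coprime (Nat.card G) → ∀ g : G, IsConj g (g ^ m) := by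
  classical
  letI := Fintype.ofFinite G
  haveI : NeZero (Nat.card G) := ⟨Nat.card_pos.ne'⟩
  let val : (ZMod (Nat.card G))ˣ → ℕ := fun a => (a : ZMod (Nat.card G)).val
  have hfam : ∀ (χ : Cfsg.IrrCharacter G) (g : G),
      (fun a => (χ : G → ℂ) (g ^ val a)) ∈ Cfsg.Agent.GalAvg.cycFun (Nat.card G) := fun χ g =>
    Cfsg.Agent.GalAvg.isCharacter_pow_mem (Cfsg.Agent.Char.isCharacter_of_irr χ.2) g
      pow_card_eq_one'
  have hone : ∀ (χ : Cfsg.IrrCharacter G) (g : G), (χ : G → ℂ) (g ^ val 1) = (χ : G → ℂ) g := by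
    intro χ g
    rw [← pow_mod_natCard, show val 1 = 1 % Nat.card G by
      simp only [val, Units.val_one, ZMod.val_one_eq_one_mod], Nat.mod_mod, pow_mod_natCard,
      pow_one]
  constructor
  · intro h m hm g
    by_contra hnc
    have h0 := Cfsg.Agent.Char.sum_irr_mul_conj g (g ^ m)
    have h1 := Cfsg.Agent.Char.sum_irr_mul_conj g g
    rw [if_neg hnc] at h0
    rw [if_pos (IsConj.refl g)] at h1
    have heq : ∀ χ : Cfsg.IrrCharacter G, (χ : G → ℂ) (g ^ m) = (χ : G → ℂ) g := by
      intro χ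
      obtain ⟨q, hq⟩ := h χ g
      obtain ⟨z, hz⟩ := Cfsg.Agent.Char.exists_int_of_isIntegral_rat
        (hq ▸ Cfsg.Agent.Char.isCharacter_isIntegral (Cfsg.Agent.Char.isCharacter_of_irr χ.2) g)
      have hconst : (fun _ : (ZMod (Nat.card G))ˣ => (z : ℂ)) ∈
          Cfsg.Agent.GalAvg.cycFun (Nat.card G) := by
        have e : (fun _ : (ZMod (Nat.card G))ˣ => (z : ℂ)) =
            algebraMap ℤ ((ZMod (Nat.card G))ˣ → ℂ) z := by funext a; simp
        rw [e]
        exact Subalgebra.algebraMap_mem _ z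
      have hx := sub_mem (hfam χ g) hconst
      have h1 : (χ : G → ℂ) g = (z : ℂ) := by rw [hq, hz]; simp
      have := Cfsg.Agent.GalAvg.eq_zero_of_eq_zero hx (a := 1) (by simp [hone, h1])
      have h2 := this (ZMod.unitOfCoprime m hm)
      simp only [Pi.sub_apply, Pi.zero_apply, sub_eq_zero, val, ZMod.coe_unitOfCoprime,
        ZMod.val_natCast, pow_mod_natCard] at h2
      rw [h2, h1]
    simp only [heq] at h0
    rw [h1] at h0
    exact Nat.cast_ne_zero.2 Nat.card_pos.ne' h0
  · intro h χ g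
    have hc : ∀ a, (χ : G → ℂ) (g ^ val a) = (χ : G → ℂ) g := fun a =>
      (Cfsg.Agent.Char.isClassFunction_eq_of_isConj (Cfsg.Agent.Char.irr_isClassFunction χ.2)
        (h (val a) (ZMod.val_coe_unit_coprime a) g)).symm
    obtain ⟨z, hz⟩ := Cfsg.Agent.GalAvg.exists_int_of_const (hfam χ g) (c := (χ : G → ℂ) g) hc
    exact ⟨z, by rw [hz]; simp⟩

end Cfsg.Agent.S0180
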