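import Cfsg.Statements.S0181
import Cfsg.Agent.Char.Kernel

set_option autoImplicit false
open Cfsg

namespace Cfsg.Agent.S0181

/-- Let H be a normal subgroup of a finite group G and ρ an irreducible complex representation whose kernel does not contain H. If g commutes with no non-identity element of H, then the character of ρ vanishes at g. -/
theorem result {G : Type*} [Group G] [Finite G] {V : Type*} [AddCommGroup V] [Module ℂ V] [FiniteDimensional ℂ V] (ρ : Representation ℂ G V) [ρ.IsIrreducible] (H : Subgroup G) [H.Normal] (hker : ∃ h ∈ H, ρ h ≠ LinearMap.id) (g : G) (hg : ∀ h ∈ H, h * g = g * h → h = 1) : ρ.character g = 0 := by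
  classical
  letI := Fintype.ofFinite G
  letI := Fintype.ofFinite (G ⧸ H)
  let X : Cfsg.IrrCharacter G := ⟨ρ.character, Cfsg.Agent.Char.isIrrCharacter_character ρ⟩
  let q : Cfsg.IrrCharacter G → Prop :=
    fun χ => ∀ n ∈ H, (χ : G → ℂ) n = (χ : G → ℂ) 1
  have hXq : ¬ q X := by
    intro h
    obtain ⟨a, ha, hne⟩ := hker
    exact hne ((Cfsg.Agent.Char.character_eq_degree_iff ρ a).1 (by
      rw [← Representation.char_one ρ]; exact h a ha))
  let w : Cfsg.IrrCharacter G → ℝ := fun χ => ‖(χ : G → ℂ) g‖ ^ 2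
  have hall : ∑ χ, w χ = (Nat.card (Subgroup.centralizer ({g} : Set G)) : ℝ) := by
    have := Cfsg.Agent.Char.sum_irr_mul_conj g g
    rw [if_pos (IsConj.refl g)] at this
    simp only [Complex.mul_conj'] at this
    exact_mod_cast this
  have hquot : ∑ χ ∈ Finset.univ.filter q, w χ =
      (Nat.card (Subgroup.centralizer ({(g : G ⧸ H)} : Set (G ⧸ H))) : ℝ) := by
    have := Cfsg.Agent.Char.sum_irr_mul_conj (g : G ⧸ H) (g : G ⧸ H)
    rw [if_pos (IsConj.refl _)] at this
    simp only [Complex.mul_conj'] at this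
    have e : ∑ χ ∈ Finset.univ.filter q, w χ =
        ∑ ψ : Cfsg.IrrCharacter (G ⧸ H), ‖(ψ : G ⧸ H → ℂ) g‖ ^ 2 := by
      rw [Finset.sum_subtype (Finset.univ.filter q) (p := q) (by simp)]
      symm
      refine Fintype.sum_equiv (Cfsg.Agent.Char.irrEquivQuotient H) _ _ fun ψ => ?_
      simp only [w, Cfsg.Agent.Char.irrEquivQuotient_apply]
    rw [e]
    exact_mod_cast this
  have hle : Nat.card (Subgroup.centralizer ({g} : Set G)) ≤
      Nat.card (Subgroup.centralizer ({(g : G ⧸ H)} : Set (G ⧸ H))) := by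
    refine Nat.card_le_card_of_injective
      (fun c => (⟨((c.1 : G) : G ⧸ H), ?_⟩ :
        Subgroup.centralizer ({(g : G ⧸ H)} : Set (G ⧸ H)))) ?_
    · rw [Subgroup.mem_centralizer_singleton_iff, ← QuotientGroup.mk_mul, ← QuotientGroup.mk_mul,
        Subgroup.mem_centralizer_singleton_iff.1 c.2]
    · intro a b e
      have e' : ((a.1 : G) : G ⧸ H) = b.1 := congrArg Subtype.val e
      rw [QuotientGroup.eq] at e'
      have hm : (a.1 : G)⁻¹ * b.1 ∈ Subgroup.centralizer ({g} : Set G) :=
        (Subgroup.centralizer _).mul_mem ((Subgroup.centralizer _).inv_mem a.2) b.2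
      have := hg _ e' (Subgroup.mem_centralizer_singleton_iff.1 hm)
      exact Subtype.ext (inv_mul_eq_one.1 this)
  have hsub : ∑ χ ∈ Finset.univ.filter (fun χ => ¬ q χ), w χ ≤ 0 := by
    have := Finset.sum_filter_add_sum_filter_not Finset.univ q w
    rw [hall, hquot] at this
    have h' : (Nat.card (Subgroup.centralizer ({g} : Set G)) : ℝ) ≤
      Nat.card (Subgroup.centralizer ({(g : G ⧸ H)} : Set (G ⧸ H))) := by exact_mod_cast hle
    linarith
  have hX : w X ≤ 0 := le_trans (Finset.single_le_sum (f := w) (fun _ _ => sq_nonneg _)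
    (Finset.mem_filter.2 ⟨Finset.mem_univ X, hXq⟩)) hsub
  have : ‖ρ.character g‖ ^ 2 ≤ 0 := hX
  exact norm_eq_zero.1 (pow_eq_zero_iff two_ne_zero |>.1 (le_antisymm this (sq_nonneg _)))

end Cfsg.Agent.S0181
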