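import Cfsg.Statements.S0184
import Cfsg.Agent.PGroup.Basic
import Cfsg.Agent.Char.Kernel

set_option autoImplicit false
open Cfsg

namespace Cfsg.Agent.S0184

/-- A finite p-group admits a faithful irreducible complex representation if and only if its centre is cyclic. -/
theorem result {G : Type*} [Group G] [Finite G] (p : ℕ) [Fact p.Prime] (hG : IsPGroup p G) : (∃ (n : ℕ) (ρ : Representation ℂ G (Fin n → ℂ)), ρ.IsIrreducible ∧ Function.Injective ρ) ↔ IsCyclic (Subgroup.center G) := by
  classical
  letI := Fintype.ofFinite G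
  constructor
  · rintro ⟨n, ρ, hρ, hinj⟩
    choose c hc using fun z : Subgroup.center G =>
      Cfsg.Agent.Char.exists_smul_of_mem_center ρ z.2
    have hne : (LinearMap.id : (Fin n → ℂ) →ₗ[ℂ] _) ≠ 0 := by
      intro h
      haveI := Cfsg.Agent.Char.nontrivial_of_isIrreducible ρ
      obtain ⟨v, hv⟩ := exists_ne (0 : Fin n → ℂ)
      exact hv (LinearMap.congr_fun h v)
    have hsmul := smul_left_injective ℂ hne
    let φ : Subgroup.center G →* ℂ :=
      { toFun := c
        map_one' := hsmul (by
          simp only [← hc, OneMemClass.coe_one, map_one, one_smul]; rfl)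
        map_mul' := fun a b => hsmul (by
          simp only [← hc, Subgroup.coe_mul, map_mul]
          rw [hc a, hc b, smul_mul_smul_comm]
          rfl) }
    refine isCyclic_of_injective_ringHom φ fun a b e => ?_
    exact Subtype.ext (hinj (by rw [hc a, hc b, show c a = c b from e]))
  · intro hcy
    by_cases htriv : Subsingleton G
    · obtain ⟨n, ρ, hρ, -⟩ := Cfsg.Agent.Char.isIrrCharacter_const_one (G := G)
      exact ⟨n, ρ, hρ, fun a b _ => Subsingleton.elim a b⟩
    haveI := not_subsingleton_iff_nontrivial.1 htriv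
    haveI : Nontrivial (Subgroup.center G) := hG.center_nontrivial
    obtain ⟨k, hk⟩ := (IsPGroup.iff_card).1 (hG.to_subgroup (Subgroup.center G))
    have hk1 : p ∣ Nat.card (Subgroup.center G) := by
      have h1 : 1 < Nat.card (Subgroup.center G) := Finite.one_lt_card
      rw [hk] at h1 ⊢
      exact dvd_pow_self p (by rintro rfl; simp at h1)
    obtain ⟨z, hz⟩ := exists_prime_orderOf_dvd_card' p hk1
    have hzne : (z : G) ≠ 1 := by
      intro h
      rw [show z = 1 from Subtype.ext h, orderOf_one] at hz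
      exact (Fact.out : p.Prime).ne_one hz.symm
    obtain ⟨χ, ⟨n, ρ, hρ, rfl⟩, hne⟩ : ∃ χ : G → ℂ, Cfsg.IsIrrCharacter G χ ∧ χ z ≠ χ 1 := by
      obtain ⟨χ, h⟩ := Cfsg.Agent.Char.exists_irr_ne_degree hzne
      exact ⟨χ.1, χ.2, h⟩
    refine ⟨n, ρ, hρ, ?_⟩
    let K := MonoidHom.ker (ρ : G →* Module.End ℂ (Fin n → ℂ))
    have hK : K = ⊥ := by
      by_contra hK
      have hbot : K ⊓ Subgroup.center G ≠ ⊥ := Cfsg.Agent.PGroup.inf_center_ne_bot hG K hK
      obtain ⟨a, ha, ha1⟩ := (Subgroup.bot_or_exists_ne_one _).resolve_left hbot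
      obtain ⟨j, hj⟩ := (IsPGroup.iff_orderOf).1 hG a
      have hj0 : j ≠ 0 := by
        rintro rfl
        rw [pow_zero, orderOf_eq_one_iff] at hj
        exact ha1 hj
      obtain ⟨b, hb⟩ : ∃ b ∈ K ⊓ Subgroup.center G, orderOf b = p := by
        refine ⟨a ^ p ^ (j - 1), Subgroup.pow_mem _ ha _, ?_⟩
        rw [orderOf_pow, hj, Nat.gcd_eq_right (pow_dvd_pow p (Nat.sub_le j 1)),
          Nat.pow_div (Nat.sub_le j 1) (Fact.out : p.Prime).pos, Nat.sub_sub_self (by omega),
          pow_one]
      letI := Fintype.ofFinite (Subgroup.center G)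
      have hset : ∀ w : Subgroup.center G, orderOf w = p →
          (Subgroup.zpowers w : Set (Subgroup.center G)) = {x | x ^ p = 1} := by
        intro w hw
        refine Set.eq_of_subset_of_ncard_le (fun x hx => ?_) ?_
        · obtain ⟨i, rfl⟩ := Subgroup.mem_zpowers_iff.1 hx
          show (w ^ i) ^ p = 1
          rw [← hw, ← zpow_natCast, ← zpow_mul, mul_comm, zpow_mul, zpow_natCast,
            pow_orderOf_eq_one, one_zpow]
        · rw [← Nat.card_coe_set_eq (Subgroup.zpowers w : Set (Subgroup.center G))]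
          show _ ≤ Nat.card (Subgroup.zpowers w)
          rw [Nat.card_zpowers, hw]
          have := IsCyclic.card_pow_eq_one_le (α := Subgroup.center G) (Fact.out : p.Prime).pos
          rw [← Set.ncard_coe_finset] at this
          simpa using this
      have hbz : Subgroup.zpowers (⟨b, hb.1.2⟩ : Subgroup.center G) = Subgroup.zpowers z :=
        SetLike.coe_injective ((hset _ (by rw [← Subgroup.orderOf_coe]; exact hb.2)).trans
          (hset z hz).symm)
      obtain ⟨i, hi⟩ : ∃ i : ℤ, (⟨b, hb.1.2⟩ : Subgroup.center G) ^ i = z :=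
        Subgroup.mem_zpowers_iff.1 (hbz ▸ Subgroup.mem_zpowers z)
      have hzK : (z : G) ∈ K := by
        rw [← hi, Subgroup.coe_zpow]
        exact K.zpow_mem hb.1.1 i
      exact hne (by rw [Representation.character, Representation.character,
        MonoidHom.mem_ker.1 hzK, map_one ρ])
    intro a b e
    have : a⁻¹ * b ∈ K := MonoidHom.mem_ker.2 (by
      rw [map_mul, show ρ b = ρ a from e.symm, ← map_mul, inv_mul_cancel, map_one])
    rw [hK, Subgroup.mem_bot] at this
    exact inv_mul_eq_one.1 this

end Cfsg.Agent.S0184
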