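import Cfsg.Statements.S0186
import Cfsg.Agent.Char.Linear
import Cfsg.Agent.Char.Kernel
import Cfsg.Agent.Char.Integrality
import Cfsg.Agent.PGroup.Basic
import Cfsg.Agent.CharInd.Kernel

set_option autoImplicit false
open Cfsg
open scoped commutatorElement

namespace Cfsg.Agent.S0186

/-- Let G be a finite simple group of order n and p a prime dividing n. If G has more than n / p^2 conjugacy classes, then every Sylow p-subgroup of G is abelian. -/
theorem result {G : Type*} [Group G] [Finite G] [IsSimpleGroup G] (p : ℕ) [Fact p.Prime] (hp : p ∣ Nat.card G) (hmany : Nat.card G < p ^ 2 * Nat.card (ConjClasses G)) (P : Sylow p G) (a b : G) (ha : a ∈ P) (hb : b ∈ P) : a * b = b * a := by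
  classical
  by_contra hab
  letI := Fintype.ofFinite G
  letI := Fintype.ofFinite (P : Subgroup G)
  let Q := (P : Subgroup G)
  have hQna : ∃ x y : Q, x * y ≠ y * x :=
    ⟨⟨a, ha⟩, ⟨b, hb⟩, fun h => hab (congrArg Subtype.val h)⟩
  have hp1 : p.Prime := Fact.out
  -- a central element of order p in the derived subgroup
  have hcne : commutator Q ≠ ⊥ := by
    obtain ⟨x, y, hxy⟩ := hQna
    intro h
    apply hxy
    have : ⁅x, y⁆ ∈ commutator Q := by
      rw [commutator_def]
      exact Subgroup.commutator_mem_commutator (Subgroup.mem_top _) (Subgroup.mem_top _)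
    rw [h, Subgroup.mem_bot, commutatorElement_def, mul_inv_eq_one, mul_inv_eq_iff_eq_mul] at this
    exact this
  have hQp : IsPGroup p Q := P.2
  obtain ⟨w, hw, hw1⟩ := (Subgroup.bot_or_exists_ne_one _).resolve_left
    (Cfsg.Agent.PGroup.inf_center_ne_bot hQp (commutator Q) hcne)
  obtain ⟨j, hj⟩ := (IsPGroup.iff_orderOf).1 hQp w
  have hj0 : j ≠ 0 := by
    rintro rfl
    rw [pow_zero, orderOf_eq_one_iff] at hj
    exact hw1 hj
  let z := w ^ p ^ (j - 1)
  have hz : orderOf z = p := by
    simp only [z]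
    rw [orderOf_pow, hj, Nat.gcd_eq_right (pow_dvd_pow p (Nat.sub_le j 1)),
      Nat.pow_div (Nat.sub_le j 1) hp1.pos, Nat.sub_sub_self (by omega), pow_one]
  have hzC : z ∈ commutator Q ⊓ Subgroup.center Q := Subgroup.pow_mem _ hw _
  have hz1 : (z : G) ≠ 1 := by
    intro h
    rw [show z = 1 from Subtype.ext h, orderOf_one] at hz
    exact hp1.ne_one hz.symm
  -- size bound
  obtain ⟨k, hk⟩ := (IsPGroup.iff_card).1 hQp
  have hk3 : 3 ≤ k := by
    obtain ⟨x, y, hxy⟩ := hQna
    by_contra hlt
    apply hxy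
    interval_cases k
    · haveI : Subsingleton Q := (Nat.card_eq_one_iff_unique.1 (by simpa using hk)).1
      exact Subsingleton.elim _ _
    · haveI : IsCyclic Q := isCyclic_of_prime_card (p := p) (by simpa using hk)
      letI := IsCyclic.commGroup (α := Q)
      exact mul_comm x y
    · exact (IsPGroup.isMulCommutative_of_card_eq_prime_sq hk).1.1 x y
  have hG3 : p ^ 3 ≤ Nat.card G :=
    le_trans (Nat.le_of_dvd (hk ▸ Nat.card_pos) (hk ▸ pow_dvd_pow p hk3))
      (Subgroup.card_le_card_group Q)
  -- analysis of one character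
  let sumj : (G → ℂ) → ℂ := fun f => ∑ i ∈ Finset.range p, f ((z : G) ^ i)
  choose d hd0 hd1 using fun χ : Cfsg.IrrCharacter G => Cfsg.Agent.Char.irr_one_pos χ.2
  have hkey : ∀ χ : Cfsg.IrrCharacter G, (χ : G → ℂ) ≠ (fun _ => 1) →
      ∃ f : ℕ, sumj χ = (p : ℂ) * f ∧ f + p ≤ d χ := by
    intro χ hχ1
    have hres := Cfsg.Agent.Char.isCharacter_restrict (Cfsg.Agent.Char.isCharacter_of_irr χ.2) Q
    obtain ⟨m, hm, -⟩ := Cfsg.Agent.Char.isCharacter_exists_coeff hres
    choose e he0 he1 using fun ξ : Cfsg.IrrCharacter Q => Cfsg.Agent.Char.irr_one_pos ξ.2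
    let good : Cfsg.IrrCharacter Q → Prop := fun ξ => (ξ : Q → ℂ) z = (ξ : Q → ℂ) 1
    have hone : ∀ ξ : Cfsg.IrrCharacter Q,
        (∑ i ∈ Finset.range p, (ξ : Q → ℂ) (z ^ i)) = if good ξ then (p : ℂ) * e ξ else 0 := by
      rintro ⟨_, n, ρ, hρ, rfl⟩
      obtain ⟨ω, hω⟩ := Cfsg.Agent.Char.exists_smul_of_mem_center ρ hzC.2
      have hωi : ∀ i : ℕ, ρ.character (z ^ i) = ω ^ i * ρ.character 1 := by
        intro i
        rw [Representation.character, Representation.character, map_pow, hω,
          show (LinearMap.id : Module.End ℂ (Fin n → ℂ)) = 1 from rfl, smul_pow, one_pow,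
          map_smul, map_one ρ, smul_eq_mul]
      have hne : ρ.character 1 ≠ 0 :=
        Cfsg.Agent.Char.irr_one_ne_zero ⟨n, ρ, hρ, rfl⟩
      have hωp : ω ^ p = 1 := by
        have h := hωi p
        rw [show z ^ p = 1 from hz ▸ pow_orderOf_eq_one z] at h
        exact mul_right_cancel₀ hne (h.symm.trans (one_mul _).symm)
      simp only [hωi, ← Finset.sum_mul]
      have he := he1 ⟨ρ.character, n, ρ, hρ, rfl⟩
      by_cases hg : good ⟨ρ.character, n, ρ, hρ, rfl⟩
      · have hω1 : ω = 1 := by
          have h := hωi 1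
          rw [pow_one, pow_one] at h
          exact mul_right_cancel₀ hne ((h.symm.trans hg).trans (one_mul _).symm)
        rw [if_pos hg, hω1]
        simp only [one_pow, Finset.sum_const, Finset.card_range, nsmul_one]
        rw [show ρ.character 1 = _ from he]
      · rw [if_neg hg, mul_eq_zero]
        left
        have hω1 : ω ≠ 1 := by
          intro h
          apply hg
          have h1 := hωi 1
          rw [pow_one, pow_one, h, one_mul] at h1
          exact h1
        rw [geom_sum_eq hω1, hωp, sub_self, zero_div]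
    have hdeg : d χ = ∑ ξ, m ξ * e ξ := by
      have h := congrFun hm 1
      rw [Finset.sum_apply] at h
      simp only [Pi.smul_apply, he1] at h
      simp only [nsmul_eq_mul, OneMemClass.coe_one, hd1] at h
      exact_mod_cast h
    refine ⟨∑ ξ ∈ Finset.univ.filter good, m ξ * e ξ, ?_, ?_⟩
    · have hval : ∀ i : ℕ, (χ : G → ℂ) ((z : G) ^ i) =
          ∑ ξ : Cfsg.IrrCharacter Q, (m ξ : ℂ) * (ξ : Q → ℂ) (z ^ i) := by
        intro i
        have h := congrFun hm (z ^ i)
        rw [Finset.sum_apply] at h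
        simp only [Pi.smul_apply] at h
        simp only [nsmul_eq_mul, SubmonoidClass.coe_pow] at h
        exact h
      simp only [sumj, hval]
      rw [Finset.sum_comm]
      simp only [← Finset.mul_sum, hone]
      rw [Nat.cast_sum, Finset.mul_sum, Finset.sum_filter]
      refine Finset.sum_congr rfl fun ξ _ => ?_
      split_ifs <;> push_cast <;> ring
    · obtain ⟨ξ, hξm, hξ⟩ : ∃ ξ, m ξ ≠ 0 ∧ ¬ good ξ := by
        by_contra hcon
        push Not at hcon
        have hker : (χ : G → ℂ) (z : G) = (χ : G → ℂ) 1 := by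
          have h := congrFun hm z
          have h' := congrFun hm 1
          rw [Finset.sum_apply] at h h'
          rw [show ((1 : Q) : G) = 1 from rfl] at h'
          rw [h, h']
          refine Finset.sum_congr rfl fun ξ _ => ?_
          simp only [Pi.smul_apply]
          by_cases h0 : m ξ = 0
          · simp [h0]
          · rw [hcon ξ h0]
        obtain ⟨N, hNn, hN⟩ := Cfsg.Agent.CharInd.exists_charKer
          (Cfsg.Agent.Char.isCharacter_of_irr χ.2)
        rcases hNn.eq_bot_or_eq_top with hN' | hN'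
        · exact hz1 (Subgroup.mem_bot.1 (hN' ▸ (hN _).2 hker))
        · have hconst : ∀ g, (χ : G → ℂ) g = (d χ : ℂ) := fun g => by
            rw [← hd1 χ]; exact (hN g).1 (hN' ▸ Subgroup.mem_top g)
          have hn := Cfsg.Agent.Char.classInner_irr_self χ.2
          rw [Cfsg.classInner] at hn
          simp only [hconst, map_natCast, Finset.sum_const, Finset.card_univ, nsmul_eq_mul,
            ← Nat.card_eq_fintype_card] at hn
          rw [inv_mul_cancel_left₀ (Nat.cast_ne_zero.2 Nat.card_pos.ne')] at hn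
          have : d χ * d χ = 1 := by exact_mod_cast hn
          apply hχ1
          funext g
          rw [hconst, Nat.eq_one_of_mul_eq_one_left this, Nat.cast_one]
      have hple : p ≤ e ξ := by
        obtain ⟨n, -, hn, hdvd⟩ := Cfsg.Agent.Char.irr_degree_dvd_card ξ.2
        have hn' : n = e ξ := by exact_mod_cast hn.symm.trans (he1 ξ)
        rw [hn', hk] at hdvd
        obtain ⟨i, -, hi⟩ := (Nat.dvd_prime_pow hp1).1 hdvd
        have hi0 : i ≠ 0 := by
          rintro rfl
          apply hξ
          have h1 : (ξ : Q → ℂ) 1 = 1 := by rw [he1, hi, pow_zero, Nat.cast_one]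
          show (ξ : Q → ℂ) z = (ξ : Q → ℂ) 1
          rw [h1]
          exact Cfsg.Agent.Char.linear_eq_one_of_mem_commutator
            (Cfsg.Agent.Char.isCharacter_of_irr ξ.2) h1 hzC.1
        rw [hi]
        exact Nat.le_of_dvd (pow_pos hp1.pos i) (dvd_pow_self p hi0)
      have hrest : p ≤ ∑ ξ ∈ Finset.univ.filter (fun ξ => ¬ good ξ), m ξ * e ξ :=
        le_trans (le_trans hple (Nat.le_mul_of_pos_left _ (Nat.pos_of_ne_zero hξm)))
          (Finset.single_le_sum (f := fun ξ => m ξ * e ξ) (fun _ _ => Nat.zero_le _)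
            (Finset.mem_filter.2 ⟨Finset.mem_univ _, hξ⟩))
      rw [hdeg, ← Finset.sum_filter_add_sum_filter_not Finset.univ good (fun ξ => m ξ * e ξ)]
      convert Nat.add_le_add_left hrest _ using 3
  choose f hf hfle using hkey
  let one' : Cfsg.IrrCharacter G := ⟨fun _ => 1, Cfsg.Agent.Char.isIrrCharacter_const_one⟩
  let F : Cfsg.IrrCharacter G → ℕ := fun χ => if h : (χ : G → ℂ) = (fun _ => 1) then 1 else f χ h
  have hF : ∀ χ : Cfsg.IrrCharacter G, sumj χ = (p : ℂ) * F χ := by
    intro χ
    simp only [F]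
    split_ifs with h
    · simp [sumj, h]
    · exact hf χ h
  have hd1' : d one' = 1 := by
    have := hd1 one'
    simp only [one'] at this
    exact_mod_cast this.symm
  have hFd : ∀ χ ∈ Finset.univ.erase one', F χ + p ≤ d χ := by
    intro χ hχ
    have hne : (χ : G → ℂ) ≠ (fun _ => 1) := fun h => (Finset.mem_erase.1 hχ).1 (Subtype.ext h)
    simp only [F, dif_neg hne]
    exact hfle χ hne
  have hF1 : F one' = 1 := by simp [F, one']
  have hsq : ∑ χ, d χ * d χ = Nat.card G := by
    have h := Cfsg.Agent.Char.sum_irr_degree_sq (G := G)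
    simp only [hd1, sq] at h
    exact_mod_cast h
  have hreg : ∑ χ, d χ * (p * F χ) = Nat.card G := by
    have h : ∑ χ : Cfsg.IrrCharacter G, (χ : G → ℂ) 1 * sumj χ = (Nat.card G : ℂ) := by
      simp only [sumj, Finset.mul_sum]
      rw [Finset.sum_comm, Finset.sum_eq_single 0]
      · simp only [pow_zero]
        rw [Cfsg.Agent.Char.sum_irr_degree_mul, if_pos rfl]
      · intro i hi hi0
        rw [Cfsg.Agent.Char.sum_irr_degree_mul, if_neg]
        intro h
        have h' : orderOf z ∣ i := orderOf_dvd_of_pow_eq_one (Subtype.ext h)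
        rw [hz] at h'
        have := Nat.le_of_dvd (Nat.pos_of_ne_zero hi0) h'
        have := Finset.mem_range.1 hi
        omega
      · intro h
        exact absurd (Finset.mem_range.2 hp1.pos) h
    simp only [hd1, hF] at h
    exact_mod_cast h
  have hcount : Fintype.card (Cfsg.IrrCharacter G) = Nat.card (ConjClasses G) := by
    rw [← Nat.card_eq_fintype_card]
    exact Cfsg.Agent.Char.card_irr_eq_card_conjClasses
  rw [← Finset.add_sum_erase _ _ (Finset.mem_univ one'), hd1', hF1] at hreg
  rw [← Finset.add_sum_erase _ _ (Finset.mem_univ one'), hd1'] at hsq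
  set S := Finset.univ.erase one'
  have hScard : S.card + 1 = Nat.card (ConjClasses G) := by
    rw [← hcount, Finset.card_erase_of_mem (Finset.mem_univ _), Finset.card_univ]
    have : 0 < Fintype.card (Cfsg.IrrCharacter G) := Fintype.card_pos_iff.2 ⟨one'⟩
    omega
  have hineq : ∑ χ ∈ S, (d χ * (p * F χ) + p * p * d χ) ≤ ∑ χ ∈ S, p * (d χ * d χ) := by
    refine Finset.sum_le_sum fun χ hχ => ?_
    calc d χ * (p * F χ) + p * p * d χ = p * (d χ * (F χ + p)) := by ring
      _ ≤ p * (d χ * d χ) := by gcongr; exact hFd χ hχ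
  rw [Finset.sum_add_distrib, ← Finset.mul_sum, ← Finset.mul_sum] at hineq
  have hDS : S.card * p ≤ ∑ χ ∈ S, d χ := by
    rw [← smul_eq_mul, ← Finset.sum_const]
    exact Finset.sum_le_sum fun χ hχ => le_trans (Nat.le_add_left _ _) (hFd χ hχ)
  set A := ∑ χ ∈ S, d χ * (p * F χ)
  set B := ∑ χ ∈ S, d χ * d χ
  set D := ∑ χ ∈ S, d χ
  set n := Nat.card G
  set k' := Nat.card (ConjClasses G)
  have hp2 := hp1.two_le
  have h1 : p * p * (S.card * p) ≤ p * p * D := Nat.mul_le_mul_left _ hDS
  have hkp : p + 1 ≤ k' := by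
    by_contra h
    have h' : p ^ 2 * k' ≤ p ^ 2 * p := Nat.mul_le_mul_left _ (by omega)
    have : p ^ 3 = p ^ 2 * p := pow_succ p 2
    omega
  nlinarith

end Cfsg.Agent.S0186
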