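import Cfsg.Statements.S0187
import Cfsg.Agent.CharInd.Linear
import Cfsg.Agent.CharInd.Frobenius

set_option autoImplicit false
open Cfsg

namespace Cfsg.Agent.S0187

/-- A finite group is commutative if and only if every irreducible complex character has degree 1. -/
theorem result {G : Type*} [Group G] [Finite G] : (∀ a b : G, a * b = b * a) ↔ ∀ χ : Cfsg.IrrCharacter G, (χ : G → ℂ) 1 = 1 := by
  classical
  letI := Fintype.ofFinite G
  constructor
  · exact fun hc χ => Cfsg.Agent.CharInd.irr_one_of_comm hc χ.2
  · intro h a b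
    have : a * b * a⁻¹ * b⁻¹ = 1 := by
      refine Cfsg.Agent.CharInd.eq_one_of_forall_irr fun χ hχ => ?_
      obtain ⟨lam, hlam⟩ := Cfsg.Agent.CharInd.exists_linHom_of_degree_one
        (Cfsg.Agent.Char.isCharacter_of_irr hχ) (h ⟨χ, hχ⟩)
      rw [← hlam, ← hlam, map_one]
      congr 1
      simp [mul_comm (lam a)]
    exact mul_inv_eq_one.1 (by simpa [mul_assoc] using this)

end Cfsg.Agent.S0187
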