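import Cfsg.Statements.S0188
import Cfsg.Agent.Char.Virtual
import Cfsg.Agent.CharInd.Clifford

set_option autoImplicit false
open Cfsg

namespace Cfsg.Agent.S0188

/-- The irreducible complex characters of G × H are precisely the functions (g, h) ↦ φ g * ψ h with φ, ψ irreducible characters of G and H. -/
theorem result {G : Type*} [Group G] [Finite G] {H : Type*} [Group H] [Finite H] (θ : G × H → ℂ) : Cfsg.IsIrrCharacter (G × H) θ ↔ ∃ (φ : G → ℂ) (ψ : H → ℂ), Cfsg.IsIrrCharacter G φ ∧ Cfsg.IsIrrCharacter H ψ ∧ θ = fun x => φ x.1 * ψ x.2 := by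
  classical
  letI := Fintype.ofFinite G
  letI := Fintype.ofFinite H
  have hprod : ∀ (φ φ' : G → ℂ) (ψ ψ' : H → ℂ),
      Cfsg.classInner (fun x : G × H => φ x.1 * ψ x.2) (fun x => φ' x.1 * ψ' x.2) =
        Cfsg.classInner φ φ' * Cfsg.classInner ψ ψ' := by
    intro φ φ' ψ ψ'
    simp only [Cfsg.classInner, Nat.card_prod, Nat.cast_mul, mul_inv, map_mul,
      Fintype.sum_prod_type]
    rw [mul_mul_mul_comm, Finset.sum_mul_sum]
    congr 1
    refine Finset.sum_congr rfl fun g _ => Finset.sum_congr rfl fun h _ => ?_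
    ring
  have hirr : ∀ (φ : G → ℂ) (ψ : H → ℂ), Cfsg.IsIrrCharacter G φ → Cfsg.IsIrrCharacter H ψ →
      Cfsg.IsIrrCharacter (G × H) (fun x => φ x.1 * ψ x.2) := fun φ ψ hφ hψ =>
    Cfsg.Agent.Char.isIrrCharacter_iff_classInner.2
      ⟨Cfsg.Agent.Char.isCharacter_mul
        (Cfsg.Agent.CharInd.isCharacter_comp (MonoidHom.fst G H)
          (Cfsg.Agent.Char.isCharacter_of_irr hφ))
        (Cfsg.Agent.CharInd.isCharacter_comp (MonoidHom.snd G H)
          (Cfsg.Agent.Char.isCharacter_of_irr hψ)), by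
        rw [hprod, Cfsg.Agent.Char.classInner_irr_self hφ,
          Cfsg.Agent.Char.classInner_irr_self hψ, one_mul]⟩
  refine ⟨fun hθ => ?_, fun ⟨φ, ψ, hφ, hψ, e⟩ => e ▸ hirr φ ψ hφ hψ⟩
  have hθc := Cfsg.Agent.Char.irr_isClassFunction hθ
  by_contra hne
  push Not at hne
  apply Cfsg.Agent.Char.irr_ne_zero hθ
  have horth : ∀ (φ : Cfsg.IrrCharacter G) (ψ : Cfsg.IrrCharacter H),
      Cfsg.classInner θ (fun x : G × H => (φ : G → ℂ) x.1 * (ψ : H → ℂ) x.2) = 0 := fun φ ψ =>
    Cfsg.Agent.Char.classInner_irr_ne hθ (hirr φ ψ φ.2 ψ.2) (hne φ ψ φ.2 ψ.2)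
  let T : Cfsg.IrrCharacter H → G → ℂ := fun ψ g =>
    Cfsg.classInner (fun h => θ (g, h)) (ψ : H → ℂ)
  have hT : ∀ ψ, T ψ = 0 := by
    intro ψ
    refine Cfsg.Agent.Char.eq_zero_of_classInner_irr_eq_zero (fun g x => ?_) fun φ => ?_
    · simp only [T]
      congr 1
      funext h
      have := hθc (g, h) (x, 1)
      simpa using this
    · have h0 := horth φ ψ
      simp only [T, Cfsg.classInner, Nat.card_prod, Nat.cast_mul, mul_inv, map_mul,
        Fintype.sum_prod_type] at h0 ⊢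
      rw [← h0, mul_assoc, Finset.mul_sum (a := (Nat.card H : ℂ)⁻¹)]
      congr 1
      refine Finset.sum_congr rfl fun g _ => ?_
      rw [mul_assoc, Finset.sum_mul]
      congr 1
      exact Finset.sum_congr rfl fun h _ => by ring
  funext x
  have hrow : (fun h => θ (x.1, h)) = 0 := by
    refine Cfsg.Agent.Char.eq_zero_of_classInner_irr_eq_zero (fun g y => ?_) fun ψ =>
      congrFun (hT ψ) x.1
    have := hθc (x.1, g) (1, y)
    simpa using this
  exact congrFun hrow x.2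

end Cfsg.Agent.S0188
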