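import Cfsg.Statements.S0190
import Cfsg.Agent.CharInd.Basic

set_option autoImplicit false
open Cfsg

namespace Cfsg.Agent.S0190

/-- For a transitive action of a finite group on X, the permutation character g ↦ (number of fixed points of g) is the function induced from the principal character of the stabilizer of any point. -/
theorem result {G : Type*} [Group G] [Fintype G] (X : Type*) [MulAction G X] [Finite X] [MulAction.IsPretransitive G X] (x : X) : (fun g : G => (Nat.card (MulAction.fixedBy X g) : ℂ)) = Cfsg.indFun (MulAction.stabilizer G x) (fun _ => 1) := by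
  classical
  funext g
  rw [Cfsg.Agent.CharInd.indFun_apply]
  have e : ∀ y : G, Cfsg.extendByZero (MulAction.stabilizer G x) (fun _ => (1 : ℂ)) (y⁻¹ * g * y)
      = if g • (y • x) = y • x then 1 else 0 := by
    intro y
    have hiff : y⁻¹ * g * y ∈ MulAction.stabilizer G x ↔ g • (y • x) = y • x := by
      rw [MulAction.mem_stabilizer_iff, mul_smul, mul_smul, inv_smul_eq_iff]
    by_cases h : y⁻¹ * g * y ∈ MulAction.stabilizer G x
    · rw [Cfsg.Agent.CharInd.extendByZero_mem _ _ h, if_pos (hiff.1 h)]
    · rw [Cfsg.Agent.CharInd.extendByZero_notMem _ _ h, if_neg (mt hiff.2 h)]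
  simp only [e]
  letI := Fintype.ofFinite X
  have fib : ∀ z : X, ∑ y ∈ Finset.univ.filter (fun y : G => y • x = z),
      (if g • (y • x) = y • x then (1 : ℂ) else 0) =
      (Nat.card (MulAction.stabilizer G x) : ℂ) * (if g • z = z then 1 else 0) := by
    intro z
    obtain ⟨a, rfl⟩ := MulAction.exists_smul_eq G x z
    rw [Finset.sum_congr rfl (g := fun _ => if g • (a • x) = a • x then (1 : ℂ) else 0)
      fun y hy => by rw [(Finset.mem_filter.1 hy).2], Finset.sum_const, nsmul_eq_mul]
    congr 2
    rw [Nat.card_eq_fintype_card, ← Fintype.card_subtype]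
    refine Fintype.card_congr
      { toFun := fun y => ⟨a⁻¹ * y, by
          rw [MulAction.mem_stabilizer_iff, mul_smul, y.2, inv_smul_smul]⟩
        invFun := fun s => ⟨a * s, by
          rw [mul_smul, MulAction.mem_stabilizer_iff.1 s.2]⟩
        left_inv := fun y => Subtype.ext (by simp)
        right_inv := fun s => Subtype.ext (by simp) }
  rw [← Finset.sum_fiberwise Finset.univ (fun y : G => y • x)]
  simp only [fib, ← Finset.mul_sum]
  rw [inv_mul_cancel_left₀ Cfsg.Agent.CharInd.natCard_ne_zero, Finset.sum_boole,
    Nat.card_eq_fintype_card, ← Fintype.card_subtype]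
  congr 1

end Cfsg.Agent.S0190
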