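import Cfsg.Statements.S0192
import Cfsg.Agent.CharInd.Linear

set_option autoImplicit false
open Cfsg

namespace Cfsg.Agent.S0192

/-- Brauer's generation criterion. Let G be a finite simple group, H₁ and H₂ subgroups, and χ a non-principal irreducible character. If the multiplicity of the principal character in χ restricted to H₁ ⊓ H₂ is less than the sum of the corresponding multiplicities for H₁ and H₂, then H₁ and H₂ do not generate G. -/
theorem result {G : Type*} [Group G] [Fintype G] [IsSimpleGroup G] (H₁ H₂ : Subgroup G) [Fintype H₁] [Fintype H₂] [Fintype ↥(H₁ ⊓ H₂)] (χ : G → ℂ) (hχ : Cfsg.IsIrrCharacter G χ) (hχ1 : χ ≠ fun _ => 1) (hlt : (Cfsg.classInner (fun x : ↥(H₁ ⊓ H₂) => χ x) (fun _ => 1)).re < (Cfsg.classInner (fun x : H₁ => χ x) (fun _ => 1)).re + (Cfsg.classInner (fun x : H₂ => χ x) (fun _ => 1)).re) : H₁ ⊔ H₂ ≠ ⊤ := by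
  classical
  obtain ⟨n, ρ, hρ, rfl⟩ := hχ
  intro htop
  let FI := fun K : Subgroup G => Representation.invariants (ρ.comp K.subtype)
  have hfin : ∀ (K : Subgroup G) [Fintype K],
      Cfsg.classInner (fun x : K => ρ.character x) (fun _ => 1) = Module.finrank ℂ (FI K) := by
    intro K _
    haveI : Invertible (Nat.card K : ℂ) :=
      invertibleOfNonzero (Nat.cast_ne_zero.2 Nat.card_pos.ne')
    rw [← Representation.card_inv_mul_sum_char_eq_finrank (ρ.comp K.subtype)]
    simp [Cfsg.classInner]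
    rfl
  rw [hfin, hfin, hfin, Complex.natCast_re, Complex.natCast_re, Complex.natCast_re] at hlt
  have hlt' : Module.finrank ℂ (FI (H₁ ⊓ H₂)) <
      Module.finrank ℂ (FI H₁) + Module.finrank ℂ (FI H₂) := by exact_mod_cast hlt
  have h1 : FI H₁ ≤ FI (H₁ ⊓ H₂) := fun v hv x => hv ⟨x, x.2.1⟩
  have h2 : FI H₂ ≤ FI (H₁ ⊓ H₂) := fun v hv x => hv ⟨x, x.2.2⟩
  have hne : FI H₁ ⊓ FI H₂ ≠ ⊥ := by
    intro hbot
    have e := Submodule.finrank_sup_add_finrank_inf_eq (FI H₁) (FI H₂)
    rw [hbot, finrank_bot] at e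
    have := Submodule.finrank_mono (sup_le h1 h2)
    omega
  obtain ⟨v, hv, hv0⟩ := Submodule.exists_mem_ne_zero_of_ne_bot hne
  have hfix : ∀ g : G, ρ g v = v := by
    intro g
    have hg : g ∈ Subgroup.closure ((H₁ : Set G) ∪ H₂) := by
      rw [Subgroup.closure_union, Subgroup.closure_eq, Subgroup.closure_eq, htop]
      trivial
    induction hg using Subgroup.closure_induction with
    | mem x hx =>
      rcases hx with hx | hx
      · exact hv.1 ⟨x, hx⟩
      · exact hv.2 ⟨x, hx⟩
    | one => simp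
    | mul x y _ _ hx hy => rw [map_mul, Module.End.mul_apply, hy, hx]
    | inv x _ hx =>
      nth_rw 1 [← hx]
      rw [← Module.End.mul_apply, ← map_mul, inv_mul_cancel, map_one, Module.End.one_apply]
  have hspan : (ℂ ∙ v) = ⊤ := by
    refine (((Cfsg.Agent.Char.isIrreducible_iff_forall ρ).1 hρ).2 _ fun g w hw => ?_).resolve_left ?_
    · obtain ⟨c, rfl⟩ := Submodule.mem_span_singleton.1 hw
      rw [map_smul, hfix]
      exact hw
    · simpa using hv0
  apply hχ1
  funext g
  have hid : ρ g = 1 := by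
    apply LinearMap.ext
    intro w
    obtain ⟨c, rfl⟩ := Submodule.mem_span_singleton.1
      (hspan ▸ Submodule.mem_top : w ∈ ℂ ∙ v)
    rw [map_smul, hfix, Module.End.one_apply]
  rw [Representation.character, hid, LinearMap.trace_one]
  have : Module.finrank ℂ (ℂ ∙ v) = 1 := finrank_span_singleton hv0
  rw [hspan, finrank_top] at this
  rw [this, Nat.cast_one]

end Cfsg.Agent.S0192
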