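import Cfsg.Statements.S0194
import Cfsg.Agent.CharInd.Clifford
import Cfsg.Agent.Char.Real

set_option autoImplicit false
open scoped ComplexConjugate
open Cfsg

namespace Cfsg.Agent.S0194

/-- Let G have odd order, H be a normal subgroup and θ a non-principal irreducible character of H. Then the function induced from θ is orthogonal to its complex conjugate. -/
theorem result {G : Type*} [Group G] [Fintype G] (hodd : Odd (Nat.card G)) (H : Subgroup G) [H.Normal] (θ : H → ℂ) (hθ : Cfsg.IsIrrCharacter H θ) (hθ1 : θ ≠ fun _ => 1) : Cfsg.classInner (fun g => conj (Cfsg.indFun H θ g)) (Cfsg.indFun H θ) = 0 := by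
  classical
  have hθ' := Cfsg.Agent.Char.isIrrCharacter_conjFun hθ
  rw [Cfsg.Agent.CharInd.indFun_conj]
  apply (mul_left_cancel₀ (Nat.cast_ne_zero.2 Nat.card_pos.ne' : (Nat.card H : ℂ) ≠ 0))
  rw [Cfsg.Agent.CharInd.card_mul_classInner_indFun_normal, mul_zero]
  refine Finset.sum_eq_zero fun x _ => ?_
  refine Cfsg.Agent.Char.classInner_irr_ne hθ' (Cfsg.Agent.CharInd.conjChar_irr H x hθ) fun e => ?_
  apply hθ1
  have hx2 : Cfsg.Agent.CharInd.conjChar H (x ^ 2) θ = θ := by
    rw [sq, Cfsg.Agent.CharInd.conjChar_mul, ← e]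
    funext n
    have := congrFun e n
    simp only [Cfsg.Agent.CharInd.conjChar_apply] at this ⊢
    rw [← this, starRingEnd_self_apply]
  have hall : ∀ k : ℕ, Cfsg.Agent.CharInd.conjChar H ((x ^ 2) ^ k) θ = θ := by
    intro k
    induction k with
    | zero => rw [pow_zero, Cfsg.Agent.CharInd.conjChar_one]
    | succ k ih => rw [pow_succ, Cfsg.Agent.CharInd.conjChar_mul, ih, hx2]
  obtain ⟨m, hm⟩ := hodd
  have hxx : (x ^ 2) ^ (m + 1) = x := by
    rw [← pow_mul, show 2 * (m + 1) = (2 * m + 1) + 1 by ring, ← hm, pow_succ,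
      pow_card_eq_one', one_mul]
  have hreal := hall (m + 1)
  rw [hxx, ← e] at hreal
  have hoddH : Odd (Nat.card H) :=
    Odd.of_dvd_nat ⟨m, hm⟩ (Subgroup.card_subgroup_dvd_card H)
  have := Cfsg.Agent.Char.real_irr_eq_trivial hoddH ⟨θ, hθ⟩
    (fun h => Complex.conj_eq_iff_im.1 (congrFun hreal h))
  exact congrArg Subtype.val this

end Cfsg.Agent.S0194
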