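import Cfsg.Statements.S0196
import Mathlib

set_option autoImplicit false
open Cfsg

namespace Cfsg.Agent.S0196

/-- Let A be a subgroup of a finite group G that equals the centralizer of each of its non-identity elements, and let N be its normalizer. Then the index of A in N divides |A| − 1 (N/A permutes the non-identity elements of A in orbits of full length). -/
theorem result {G : Type*} [Group G] [Finite G] (A : Subgroup G) (hA : ∀ x ∈ A, x ≠ 1 → Subgroup.centralizer ({x} : Set G) = A) : (A.subgroupOf (Subgroup.normalizer (A : Set G))).index ∣ Nat.card A - 1 := by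
  classical
  by_cases hb : A = ⊥
  · subst hb; simp
  have hab : ∀ a ∈ A, ∀ b ∈ A, a * b = b * a := by
    intro a ha b hb'
    by_cases h : a = 1
    · simp [h]
    · rw [← hA a ha h, Subgroup.mem_centralizer_singleton_iff] at hb'
      exact hb'.symm
  let N := Subgroup.normalizer (A : Set G)
  let Y := {a : G // a ∈ A ∧ a ≠ 1}
  letI : MulAction N Y :=
    { smul := fun g y => ⟨g * y.1 * (g : G)⁻¹, (Subgroup.mem_normalizer_iff.1 g.2 y.1).1 y.2.1,
        fun h => y.2.2 (by simpa using h)⟩
      one_smul := fun y => Subtype.ext (by
        show ((1 : N) : G) * y.1 * ((1 : N) : G)⁻¹ = y.1; simp)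
      mul_smul := fun g g' y => Subtype.ext (by
        show ((g * g' : N) : G) * y.1 * ((g * g' : N) : G)⁻¹ = g * (g' * y.1 * (g' : G)⁻¹) * (g : G)⁻¹
        simp [mul_assoc]) }
  have hstab : ∀ y : Y, MulAction.stabilizer N y = A.subgroupOf N := by
    intro y
    ext g
    rw [MulAction.mem_stabilizer_iff, Subgroup.mem_subgroupOf]
    constructor
    · intro h
      have h' : (g : G) * y.1 * (g : G)⁻¹ = y.1 := congrArg Subtype.val h
      rw [← hA y.1 y.2.1 y.2.2, Subgroup.mem_centralizer_singleton_iff]
      exact mul_inv_eq_iff_eq_mul.1 h'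
    · intro h
      apply Subtype.ext
      show (g : G) * y.1 * (g : G)⁻¹ = y.1
      rw [mul_inv_eq_iff_eq_mul]
      exact hab _ h _ y.2.1
  letI := Fintype.ofFinite (Quotient (MulAction.orbitRel N Y))
  have hY : Nat.card A = Nat.card Y + 1 := by
    rw [← Finite.card_option]
    exact Nat.card_congr
      { toFun := fun a => if h : (a : G) = 1 then none else some ⟨a, a.2, h⟩
        invFun := fun o => o.elim 1 fun y => ⟨y.1, y.2.1⟩
        left_inv := fun a => by
          by_cases h : (a : G) = 1
          · simp only [h, dite_true, Option.elim_none]; exact Subtype.ext h.symm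
          · simp [h]
        right_inv := fun o => by
          cases o with
          | none => simp
          | some y => simp [y.2.2] }
  rw [hY, Nat.add_sub_cancel]
  rw [Nat.card_congr (MulAction.selfEquivSigmaOrbitsQuotientStabilizer N Y), Nat.card_sigma]
  refine Finset.dvd_sum fun q _ => ?_
  rw [hstab, Subgroup.index]

end Cfsg.Agent.S0196
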