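import Cfsg.Statements.S0206
import Cfsg.Agent.Invol.Basic
import Cfsg.Agent.TwoGroups.Recognition

set_option autoImplicit false
open Cfsg

namespace Cfsg.Agent.S0206

/-- Two distinct involutions x, y of a finite group generate a subgroup isomorphic to the dihedral group of order 2·|xy|. -/
theorem result {G : Type*} [Group G] [Finite G] (x y : G) (hx : orderOf x = 2) (hy : orderOf y = 2) (hxy : x ≠ y) : Nonempty (↥(Subgroup.closure ({x, y} : Set G)) ≃* DihedralGroup (orderOf (x * y))) := by
  have he : Subgroup.closure ({x, y} : Set G) = Subgroup.closure ({x * y, x} : Set G) := by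
    refine le_antisymm ((Subgroup.closure_le _).2 ?_) ((Subgroup.closure_le _).2 ?_)
    · have h1 : x ∈ Subgroup.closure ({x * y, x} : Set G) := Subgroup.subset_closure (Or.inr rfl)
      have h2 : x * y ∈ Subgroup.closure ({x * y, x} : Set G) := Subgroup.subset_closure (Or.inl rfl)
      rintro z (rfl | rfl)
      · exact h1
      · have := mul_mem h1 h2
        rwa [Invol.mul_self_cancel hx] at this
    · have h1 : x ∈ Subgroup.closure ({x, y} : Set G) := Subgroup.subset_closure (Or.inl rfl)
      have h2 : y ∈ Subgroup.closure ({x, y} : Set G) := Subgroup.subset_closure (Or.inr rfl)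
      rintro z (rfl | rfl)
      · exact mul_mem h1 h2
      · exact h1
  rw [he]
  exact TwoGroups.closure_equiv_dihedral rfl (Invol.left_notMem_zpowers hx hy)
    (Invol.inv_mul_self hx) (Invol.conj_mul_self hx hy)

end Cfsg.Agent.S0206
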