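import Cfsg.Statements.S0210
import Cfsg.Agent.Invol.Basic

set_option autoImplicit false
open Cfsg

namespace Cfsg.Agent.S0210

/-- If x, y are involutions whose product has even order, no element of the subgroup generated by x and y conjugates x to y. -/
theorem result {G : Type*} [Group G] [Finite G] (x y : G) (hx : orderOf x = 2) (hy : orderOf y = 2) (heven : Even (orderOf (x * y))) (d : G) (hd : d ∈ Subgroup.closure ({x, y} : Set G)) : d * x * d⁻¹ ≠ y := by
  intro h
  obtain ⟨i, hi⟩ := Invol.conj_left_iff hx hy hd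
  rw [h] at hi
  have h1 : x * (x * y) ^ (1 : ℤ) = x * (x * y) ^ (2 * i) := by
    rw [zpow_one, Invol.mul_self_cancel hx]; exact hi
  have h2 := mul_left_cancel h1
  rw [zpow_eq_zpow_iff_modEq, Int.modEq_iff_dvd] at h2
  obtain ⟨m, hm⟩ := heven
  rw [hm] at h2
  have h3 : (2 : ℤ) ∣ 2 * i - 1 := by
    refine dvd_trans ⟨(m : ℤ), ?_⟩ h2
    push_cast; ring
  omega

end Cfsg.Agent.S0210
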