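import Cfsg.Statements.S0211
import Cfsg.Agent.Invol.Basic

set_option autoImplicit false
open Cfsg

namespace Cfsg.Agent.S0211

/-- Let x, y be involutions with xy of even order n and z = (xy)^(n/2). Then xz is conjugate to x by an element of the subgroup generated by x, y if and only if 4 divides n. -/
theorem result {G : Type*} [Group G] [Finite G] (x y : G) (hx : orderOf x = 2) (hy : orderOf y = 2) (heven : Even (orderOf (x * y))) : (∃ d ∈ Subgroup.closure ({x, y} : Set G), d * x * d⁻¹ = x * (x * y) ^ (orderOf (x * y) / 2)) ↔ 4 ∣ orderOf (x * y) := by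
  obtain ⟨m, hm⟩ := heven
  have h2 : orderOf (x * y) / 2 = m := by omega
  rw [h2]
  constructor
  · rintro ⟨d, hd, h⟩
    obtain ⟨i, hi⟩ := Invol.conj_left_iff hx hy hd
    rw [h, ← zpow_natCast] at hi
    have h3 := mul_left_cancel hi
    rw [zpow_eq_zpow_iff_modEq, Int.modEq_iff_dvd] at h3
    have h4 : (2 : ℤ) ∣ 2 * i - (m : ℤ) := by
      refine dvd_trans ⟨(m : ℤ), ?_⟩ h3
      rw [hm]; push_cast; ring
    omega
  · intro h4
    obtain ⟨j, hj⟩ : Even m := by rw [Nat.even_iff]; omega
    refine ⟨(x * y) ^ (-(j : ℤ)), (Invol.mem_closure_pair_iff hx hy).2 ⟨_, Or.inl rfl⟩, ?_⟩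
    rw [Invol.conj_left_zpow hx hy, ← zpow_natCast, hj]
    push_cast
    ring_nf

end Cfsg.Agent.S0211
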