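import Cfsg.Statements.S0212
import Cfsg.Agent.Invol.BrauerFowler

set_option autoImplicit false
open Cfsg

namespace Cfsg.Agent.S0212

/-- The Brauer–Fowler bound: if G is a finite simple group and t an involution of G whose centralizer has order n, then |G| ≤ (2n^2)!. -/
theorem result {G : Type*} [Group G] [Finite G] [IsSimpleGroup G] (t : G) (ht : orderOf t = 2) : Nat.card G ≤ Nat.factorial (2 * (Nat.card (Subgroup.centralizer ({t} : Set G))) ^ 2) := by
  set g := Nat.card G with hg
  set c := Nat.card (Subgroup.centralizer ({t} : Set G)) with hc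
  have hcpos : 0 < c := Nat.card_pos
  have heven : Even g := Invol.even_card_of_orderOf_eq_two ht
  by_cases hp : g.Prime
  · have h2 : g = 2 := ((Nat.prime_dvd_prime_iff_eq Nat.prime_two hp).1 heven.two_dvd).symm
    calc g = 2 := h2
      _ ≤ 2 * c ^ 2 := Nat.le_mul_of_pos_right _ (by positivity)
      _ ≤ Nat.factorial (2 * c ^ 2) := Nat.self_le_factorial _
  have hZ : Odd (Nat.card (Subgroup.center G)) := by
    rw [Invol.center_eq_bot_of_simple hp, Subgroup.card_bot]; exact odd_one
  obtain ⟨H, hH, hb⟩ := Invol.index_bound heven hZ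
  refine (Nat.le_of_dvd (Nat.factorial_pos _) (Invol.card_dvd_factorial_index hH)).trans
    (Nat.factorial_le ?_)
  rcases hb with h2 | hlt
  · rw [h2]; exact Nat.le_mul_of_pos_right _ (by positivity)
  set n := Invol.nInvol G
  have hn : g ≤ n * c := Invol.nInvol_ge_class ht
  have hnpos : 0 < n := Invol.nInvol_pos heven
  have h1 : n ^ 2 * (2 * H.index) < n ^ 2 * (c * (c + 1)) := by
    calc n ^ 2 * (2 * H.index) = 2 * H.index * n ^ 2 := by ring
      _ < g * (g + n) := hlt
      _ ≤ n * c * (n * c + n) := Nat.mul_le_mul hn (Nat.add_le_add_right hn n)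
      _ = n ^ 2 * (c * (c + 1)) := by ring
  have h2 := Nat.lt_of_mul_lt_mul_left h1
  nlinarith

end Cfsg.Agent.S0212
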