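import Cfsg.Statements.S0216
import Cfsg.Agent.Invol.Basic

set_option autoImplicit false
open Cfsg

namespace Cfsg.Agent.S0216

/-- For an involution u in a Sylow 2-subgroup P of a finite group G, the following are equivalent: no G-conjugate of u other than u lies in P; every commutator of u with an element of G has odd order. -/
theorem result {G : Type*} [Group G] [Finite G] (P : Sylow 2 G) (u : G) (hu : orderOf u = 2) (huP : u ∈ P) : (∀ g : G, g * u * g⁻¹ ∈ P → g * u * g⁻¹ = u) ↔ (∀ g : G, Odd (orderOf (u * g * u⁻¹ * g⁻¹))) := by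
  constructor
  · intro hiso g
    rw [Invol.inv_eq hu, mul_assoc u g u, mul_assoc u]
    have hv : orderOf (g * u * g⁻¹) = 2 := (Invol.orderOf_conj g u).trans hu
    by_contra h
    exact (Invol.isolated_half_odd P hu hv huP hiso (Nat.not_odd_iff_even.1 h)).2
      (Invol.isConj_conj g u)
  · intro hodd g hg
    have h1 : u * (g * u * g⁻¹) ∈ (P : Subgroup G) := mul_mem huP hg
    obtain ⟨k, hk⟩ := P.isPGroup' ⟨_, h1⟩
    have h2 : orderOf (u * (g * u * g⁻¹)) ∣ 2 ^ k :=
      orderOf_dvd_of_pow_eq_one (by simpa using congrArg Subtype.val hk)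
    obtain ⟨j, -, hj⟩ := (Nat.dvd_prime_pow Nat.prime_two).1 h2
    have ho := hodd g
    rw [Invol.inv_eq hu, mul_assoc u g u, mul_assoc u, hj] at ho
    rcases Nat.eq_zero_or_pos j with rfl | hpos
    · rw [pow_zero, orderOf_eq_one_iff] at hj
      rw [eq_inv_of_mul_eq_one_right hj, Invol.inv_eq hu]
    · exact absurd (Even.pow_of_ne_zero even_two hpos.ne') (Nat.not_even_iff_odd.2 ho)

end Cfsg.Agent.S0216
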