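import Cfsg.Statements.S0226
import Mathlib.GroupTheory.Perm.Cycle.Type


set_option autoImplicit false
open Cfsg

namespace Cfsg.Agent.S0226

/-- A finite group of even order has an odd number of involutions. -/
theorem result {G : Type*} [Group G] [Finite G] (heven : Even (Nat.card G)) : Odd (Nat.card {t : G // orderOf t = 2}) := by
  classical
  have : Fintype G := Fintype.ofFinite G
  let σ : Equiv.Perm G := Equiv.inv G
  have h1 : Nat.card {t : G // orderOf t = 2} + 1 = Nat.card {t : G // t⁻¹ = t} := by
    rw [Nat.card_eq_fintype_card, Nat.card_eq_fintype_card, Fintype.card_subtype,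
      Fintype.card_subtype, ← Finset.card_insert_of_notMem (a := (1 : G))]
    · congr 1
      ext t
      simp only [Finset.mem_insert, Finset.mem_filter, Finset.mem_univ, true_and]
      constructor
      · rintro (rfl | h)
        · exact inv_one
        · exact inv_eq_of_mul_eq_one_left (by rw [← pow_two, ← h, pow_orderOf_eq_one])
      · intro h
        by_cases ht : t = 1
        · exact Or.inl ht
        · exact Or.inr (orderOf_eq_prime (by rw [pow_two]; exact inv_eq_iff_mul_eq_one.1 h) ht)
    · simp
  have h2 : Nat.card G ≡ Nat.card {t : G // t⁻¹ = t} [MOD 2] := by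
    have h3 := Equiv.Perm.card_compl_support_modEq (p := 2) (n := 1) (σ := σ)
      (Equiv.ext fun t => inv_inv t)
    rw [Nat.card_eq_fintype_card, Nat.card_eq_fintype_card, Fintype.card_subtype]
    have he : σ.supportᶜ = Finset.univ.filter (fun t => t⁻¹ = t) := by
      ext t; simp [σ]
    rw [he] at h3
    exact h3.symm
  rw [Nat.odd_iff]
  rw [Nat.even_iff] at heven
  unfold Nat.ModEq at h2
  omega

end Cfsg.Agent.S0226
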