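import Cfsg.Statements.S0228
import Cfsg.Agent.Invol.Counting
import Mathlib.GroupTheory.SpecificGroups.Alternating
import Mathlib.GroupTheory.Complement
import Mathlib.GroupTheory.SchurZassenhaus

set_option autoImplicit false
open Cfsg

namespace Cfsg.Agent.S0228

/-- A group of order 12 in which no involution is central is isomorphic to the alternating group on four letters. -/
theorem result {G : Type*} [Group G] [Finite G] (hG : Nat.card G = 12) (hz : ∀ z : G, orderOf z = 2 → z ∉ Subgroup.center G) : Nonempty (G ≃* alternatingGroup (Fin 4)) := by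
  classical
  have : Fact (Nat.Prime 3) := ⟨Nat.prime_three⟩
  obtain ⟨Q⟩ : Nonempty (Sylow 3 G) := inferInstance
  have hQ : Nat.card (Q : Subgroup G) = 3 := by
    obtain ⟨k, hk⟩ := Q.isPGroup'.exists_card_eq
    have h1 : 3 ^ k ∣ 12 := hk ▸ hG ▸ Subgroup.card_subgroup_dvd_card (Q : Subgroup G)
    have h2 : 3 ∣ Nat.card (Q : Subgroup G) := Q.dvd_card_of_dvd_card (by rw [hG]; norm_num)
    rw [hk] at h2 ⊢
    match k, h1, h2 with
    | 0, _, h2 => simp at h2
    | 1, _, _ => norm_num
    | k + 2, h1, _ =>
      exfalso
      have := Nat.le_of_dvd (by norm_num) h1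
      have h9 : 9 * 3 ^ k = 3 ^ (k + 2) := by ring
      have h1' : 9 ∣ 12 := (Dvd.intro _ h9).trans h1
      omega
  have hn : Nat.card (Sylow 3 G) = 1 ∨ Nat.card (Sylow 3 G) = 4 := by
    have hd := Q.card_dvd_index
    have hidx : (Q : Subgroup G).index = 4 := by
      have := Subgroup.index_mul_card (Q : Subgroup G)
      rw [hQ, hG] at this
      omega
    rw [hidx] at hd
    have hm := card_sylow_modEq_one 3 G
    have hle := Nat.le_of_dvd (by norm_num) hd
    unfold Nat.ModEq at hm
    omega
  rcases hn with h1 | h4
  · exfalso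
    have : Subsingleton (Sylow 3 G) := (Nat.card_eq_one_iff_unique.1 h1).1
    have hQn : (Q : Subgroup G).Normal := Q.normal_of_subsingleton
    -- the centralizer of `Q` has index at most 2
    have h2 : Nat.card (Q : Subgroup G) = 3 := hQ
    obtain ⟨q, hq, hq1⟩ : ∃ q ∈ (Q : Subgroup G), q ≠ 1 :=
      (Subgroup.bot_or_exists_ne_one _).resolve_left fun e => by rw [e, Subgroup.card_bot] at h2; omega
    have hq3 : orderOf q = 3 := by
      refine orderOf_eq_prime ?_ hq1
      have := pow_card_eq_one' (x := (⟨q, hq⟩ : (Q : Subgroup G)))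
      rw [hQ] at this
      exact (congrArg Subtype.val this :)
    have hz3 : Subgroup.zpowers q = (Q : Subgroup G) := Subgroup.eq_of_le_of_card_ge
      (Subgroup.zpowers_le.2 hq) (by rw [Nat.card_zpowers, hq3, hQ])
    have hconj : ∀ g : G, g * q * g⁻¹ = q ∨ g * q * g⁻¹ = q⁻¹ := by
      intro g
      obtain ⟨k, hk⟩ : g * q * g⁻¹ ∈ Subgroup.zpowers q := hz3 ▸ hQn.conj_mem q hq g
      simp only at hk
      have hmod : q ^ k = q ^ (k % 3) := by
        rw [← zpow_mod_orderOf, hq3]; rfl
      rcases (show k % 3 = 0 ∨ k % 3 = 1 ∨ k % 3 = 2 by omega) with e | e | e <;> rw [e] at hmod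
      · rw [zpow_zero] at hmod
        rw [hmod] at hk
        exact absurd (conj_eq_one_iff.1 hk.symm) hq1
      · left; rw [← hk, hmod, zpow_one]
      · right
        rw [← hk, hmod, eq_inv_iff_mul_eq_one, ← zpow_add_one, ← orderOf_dvd_iff_zpow_eq_one, hq3]
        norm_num
    set C := Subgroup.centralizer ({q} : Set G)
    have hCidx : 6 ≤ Nat.card C := by
      by_cases hreal : IsConj q q⁻¹
      · have hle : Nat.card G ≤ Nat.card C + Nat.card {g : G // g * q * g⁻¹ = q⁻¹} := by
          have : Fintype G := Fintype.ofFinite G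
          rw [show Nat.card C = Nat.card {g : G // g * q * g⁻¹ = q} from
            Nat.card_congr (Equiv.subtypeEquivRight fun g => by
              rw [Invol.mem_centralizer_singleton, Invol.commute_iff_conj])]
          rw [Nat.card_eq_fintype_card, Nat.card_eq_fintype_card, Nat.card_eq_fintype_card,
            Fintype.card_subtype, Fintype.card_subtype, ← Finset.card_univ]
          refine le_trans (Finset.card_le_card fun g _ => ?_) (Finset.card_union_le _ _)
          simp only [Finset.mem_union, Finset.mem_filter, Finset.mem_univ, true_and]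
          exact hconj g
        rw [Invol.card_inverting hreal, hG] at hle
        change 12 ≤ Nat.card C + Nat.card C at hle
        omega
      · have : C = ⊤ := eq_top_iff.2 fun g _ => Invol.mem_centralizer_singleton.2
          (Invol.commute_iff_conj.2 ((hconj g).resolve_right fun e => hreal (isConj_iff.2 ⟨g, e⟩)))
        rw [this, Subgroup.card_top, hG]; norm_num
    have hCcase : Nat.card C = 6 ∨ Nat.card C = 12 := by
      have hd := Subgroup.card_subgroup_dvd_card C
      rw [hG] at hd
      have := Nat.le_of_dvd (by norm_num) hd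
      obtain ⟨j, hj⟩ := hd
      rcases j with _ | _ | _ | j
      · omega
      · omega
      · omega
      · have : Nat.card C * 3 ≤ Nat.card C * (j + 1 + 1 + 1) := Nat.mul_le_mul_left _ (by omega)
        omega
    obtain ⟨⟨t, htC⟩, ht⟩ := Invol.exists_orderOf_two (G := C) (by
      rcases hCcase with e | e <;> rw [e] <;> decide)
    rw [Subgroup.orderOf_mk] at ht
    have hqt : Commute t q := Invol.mem_centralizer_singleton.1 htC
    refine hz t ht (Subgroup.mem_center_iff.2 fun g => ?_)
    have hnorm : C.Normal := by
      refine ⟨fun a ha h => ?_⟩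
      rw [Invol.mem_centralizer_singleton] at ha ⊢
      rcases hconj h⁻¹ with e | e
      · rw [inv_inv] at e
        rw [Invol.commute_iff_conj]
        calc h * a * h⁻¹ * q * (h * a * h⁻¹)⁻¹ = h * (a * (h⁻¹ * q * h) * a⁻¹) * h⁻¹ := by group
          _ = h * q * h⁻¹ := by rw [e, Invol.commute_iff_conj.1 ha]
          _ = q := by nth_rewrite 1 [← e]; group
      · rw [inv_inv] at e
        rw [Invol.commute_iff_conj]
        calc h * a * h⁻¹ * q * (h * a * h⁻¹)⁻¹ = h * (a * (h⁻¹ * q * h) * a⁻¹) * h⁻¹ := by group
          _ = h * q⁻¹ * h⁻¹ := by rw [e, Invol.commute_iff_conj.1 ha.inv_right]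
          _ = q := by nth_rewrite 1 [← e]; group
    rcases hCcase with e6 | e12
    · -- `C` is cyclic of order 6, so `t` is its only involution
      have ho : orderOf (t * q) = 6 := by
        rw [hqt.orderOf_mul_eq_mul_orderOf_of_coprime (by rw [ht, hq3]; decide), ht, hq3]
      have htq : t * q ∈ C := mul_mem htC (Invol.mem_centralizer_singleton.2 (Commute.refl q))
      have heq : Subgroup.zpowers (t * q) = C := Subgroup.eq_of_le_of_card_ge
        (Subgroup.zpowers_le.2 htq) (by rw [Nat.card_zpowers, ho, e6])
      obtain ⟨k, hk⟩ : g * t * g⁻¹ ∈ Subgroup.zpowers (t * q) := heq ▸ hnorm.conj_mem t htC g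
      simp only at hk
      have hk2 : (t * q) ^ (k + k) = 1 := by
        rw [zpow_add, hk, Invol.inv_mul_self ((Invol.orderOf_conj g t).trans ht)]
      rw [← orderOf_dvd_iff_zpow_eq_one, ho] at hk2
      have hne : (t * q) ^ k ≠ 1 := by
        rw [hk]
        exact fun e => Invol.inv_ne_one ht (conj_eq_one_iff.1 e)
      have hk6 : ¬ (6 : ℤ) ∣ k := fun hd => hne (by
        rw [← orderOf_dvd_iff_zpow_eq_one, ho]; exact_mod_cast hd)
      have hkt : (t * q) ^ k = t := by
        rw [← zpow_mod_orderOf, ho]
        have : k % 6 = 3 := by omega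
        rw [show ((6 : ℕ) : ℤ) = 6 from rfl, this, show (3 : ℤ) = ((3 : ℕ) : ℤ) from rfl, zpow_natCast,
          hqt.mul_pow, ← hq3, pow_orderOf_eq_one, mul_one, hq3, pow_succ, pow_two,
          Invol.inv_mul_self ht, one_mul]
      rw [hkt] at hk
      exact mul_inv_eq_iff_eq_mul.1 hk.symm
    · -- `Q` is central and `G = Q × P` is abelian
      have hCtop : C = ⊤ := Subgroup.eq_top_of_card_eq C (by rw [e12, hG])
      have hqc : q ∈ Subgroup.center G := Invol.centralizer_singleton_eq_top_iff.1 hCtop
      have hQc : (Q : Subgroup G) ≤ Subgroup.center G := hz3 ▸ Subgroup.zpowers_le.2 hqc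
      obtain ⟨P, hP⟩ := Subgroup.exists_right_complement'_of_coprime (N := (Q : Subgroup G)) (by
        have := Subgroup.index_mul_card (Q : Subgroup G)
        rw [hQ, hG] at this
        rw [hQ, show (Q : Subgroup G).index = 4 by omega]; decide)
      have hP4 : Nat.card P = 2 ^ 2 := by
        have := hP.card_mul_card
        rw [hQ, hG] at this
        omega
      have : Fact (Nat.Prime 2) := ⟨Nat.prime_two⟩
      have hPc : ∀ a b : P, a * b = b * a := fun a b =>
        (IsPGroup.isMulCommutative_of_card_eq_prime_sq hP4).is_comm.comm a b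
      obtain ⟨⟨a, b⟩, hab, -⟩ := hP.existsUnique g
      obtain ⟨⟨c, d⟩, hcd, -⟩ := hP.existsUnique t
      simp only at hab hcd
      have hac : ∀ x : G, Commute (a : G) x := fun x =>
        (Subgroup.mem_center_iff.1 (hQc a.2) x).symm
      have hcc : ∀ x : G, Commute (c : G) x := fun x =>
        (Subgroup.mem_center_iff.1 (hQc c.2) x).symm
      have hbd : Commute (b : G) d := (congrArg Subtype.val (hPc b d) :)
      rw [← hab, ← hcd]
      exact ((hac _).mul_left ((hcc (b : G)).symm.mul_right hbd)).eq
  · -- four Sylow 3-subgroups: `G` acts faithfully on them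
    let f := MulAction.toPermHom G (Sylow 3 G)
    have hN : ∀ R : Sylow 3 G, Subgroup.normalizer ((R : Subgroup G) : Set G) = R := fun R => by
      symm
      refine Subgroup.eq_of_le_of_card_ge Subgroup.le_normalizer ?_
      have h1 := Subgroup.index_mul_card (Subgroup.normalizer ((R : Subgroup G) : Set G))
      have h2 := R.card_eq_index_normalizer
      rw [h4] at h2
      have h3 : Nat.card (R : Subgroup G) = 3 := by
        rw [R.card_eq_multiplicity, ← Q.card_eq_multiplicity, hQ]
      have h2' : (Subgroup.normalizer ((R : Subgroup G) : Set G)).index = 4 := h2.symm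
      rw [h2', hG] at h1
      omega
    have hinj : Function.Injective f := by
      rw [injective_iff_map_eq_one]
      intro g hg
      have : Nontrivial (Sylow 3 G) := Finite.one_lt_card_iff_nontrivial.1 (by omega)
      obtain ⟨R, hR⟩ := exists_ne Q
      have hmem : ∀ R : Sylow 3 G, g ∈ (R : Subgroup G) := fun R => by
        rw [← hN R]
        exact Sylow.smul_eq_iff_mem_normalizer.1 (by
          have := congrArg (fun σ : Equiv.Perm (Sylow 3 G) => σ R) hg
          simpa [f] using this)
      by_contra hg1
      apply hR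
      have h3 : ∀ R : Sylow 3 G, g ∈ (R : Subgroup G) → Subgroup.zpowers g = (R : Subgroup G) := by
        intro R hgR
        have hR3 : Nat.card (R : Subgroup G) = 3 := by
          rw [R.card_eq_multiplicity, ← Q.card_eq_multiplicity, hQ]
        refine Subgroup.eq_of_le_of_card_ge (Subgroup.zpowers_le.2 hgR) ?_
        have hd := orderOf_dvd_natCard (⟨g, hgR⟩ : (R : Subgroup G))
        rw [Subgroup.orderOf_mk, hR3] at hd
        rcases (Nat.dvd_prime Nat.prime_three).1 hd with e | e
        · exact absurd (orderOf_eq_one_iff.1 e) hg1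
        · rw [Nat.card_zpowers, e, hR3]
      exact Sylow.ext ((h3 R (hmem R)).symm.trans (h3 Q (hmem Q)))
    obtain ⟨e⟩ : Nonempty (Sylow 3 G ≃ Fin 4) := ⟨Finite.equivFinOfCardEq h4⟩
    let f' : G →* Equiv.Perm (Fin 4) := e.permCongrHom.toMonoidHom.comp f
    have hinj' : Function.Injective f' := e.permCongrHom.injective.comp hinj
    have hrange : f'.range = alternatingGroup (Fin 4) := by
      apply Equiv.Perm.eq_alternatingGroup_of_index_eq_two
      have h1 := Subgroup.index_mul_card f'.range
      rw [← Nat.card_congr (MonoidHom.ofInjective hinj').toEquiv, hG, Nat.card_perm,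
        Nat.card_fin] at h1
      simp only [Nat.factorial] at h1
      omega
    exact ⟨(MonoidHom.ofInjective hinj').trans (MulEquiv.subgroupCongr hrange)⟩

end Cfsg.Agent.S0228
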