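import Cfsg.Statements.S0231
import Cfsg.Agent.Invol.Basic
import Mathlib.Algebra.Group.Subgroup.Pointwise

set_option autoImplicit false
open scoped Pointwise
open Cfsg

namespace Cfsg.Agent.S0231

/-- Let T be a Sylow 2-subgroup of the finite group G which is not normal and which intersects every other Sylow 2-subgroup trivially. Then G has a single conjugacy class of involutions. -/
theorem result {G : Type*} [Group G] [Finite G] (T : Sylow 2 G) (hnn : ¬ (T : Subgroup G).Normal) (hTI : ∀ g : G, MulAut.conj g • (T : Subgroup G) ≠ T → MulAut.conj g • (T : Subgroup G) ⊓ T = ⊥) (s t : G) (hs : orderOf s = 2) (ht : orderOf t = 2) : IsConj s t := by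
  by_contra hnc
  obtain ⟨g₀, hg₀⟩ : ∃ g : G, MulAut.conj g • (T : Subgroup G) ≠ T := by
    by_contra! hall
    refine hnn ⟨fun a ha g => ?_⟩
    rw [← hall g]
    exact Subgroup.smul_mem_pointwise_smul a (MulAut.conj g) T ha
  have : Fact (Nat.Prime 2) := ⟨Nat.prime_two⟩
  -- two Sylow 2-subgroups with a common involution are equal
  have huniq : ∀ (P Q : Sylow 2 G) (a : G), orderOf a = 2 → a ∈ P → a ∈ Q → P = Q := by
    intro P Q a ha haP haQ
    obtain ⟨c, rfl⟩ := MulAction.exists_smul_eq G T P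
    obtain ⟨d, rfl⟩ := MulAction.exists_smul_eq G T Q
    refine Sylow.ext ?_
    rw [Sylow.coe_subgroup_smul, Sylow.coe_subgroup_smul]
    by_contra hne
    have h1 := hTI (c⁻¹ * d) fun e => hne (by
      conv_lhs => rw [← e]
      rw [← mul_smul, ← map_mul, mul_inv_cancel_left])
    have h2 : c⁻¹ * a * c ∈ MulAut.conj (c⁻¹ * d) • (T : Subgroup G) ⊓ (T : Subgroup G) := by
      have hP : a ∈ MulAut.conj c • (T : Subgroup G) := haP
      have hQ : a ∈ MulAut.conj d • (T : Subgroup G) := haQ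
      rw [Subgroup.mem_pointwise_smul_iff_inv_smul_mem] at hP hQ
      have hP' : c⁻¹ * a * c ∈ (T : Subgroup G) := by simpa [mul_assoc] using hP
      have hQ' : d⁻¹ * a * d ∈ (T : Subgroup G) := by simpa [mul_assoc] using hQ
      refine Subgroup.mem_inf.2 ⟨?_, hP'⟩
      rw [Subgroup.mem_pointwise_smul_iff_inv_smul_mem, ← map_inv, MulAut.smul_def,
        MulAut.conj_apply]
      rw [show (c⁻¹ * d)⁻¹ * (c⁻¹ * a * c) * (c⁻¹ * d)⁻¹⁻¹ = d⁻¹ * a * d by group]
      exact hQ'
    rw [h1, Subgroup.mem_bot] at h2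
    apply Invol.inv_ne_one ha
    calc a = c * (c⁻¹ * a * c) * c⁻¹ := by group
      _ = 1 := by rw [h2]; group
  -- two nonconjugate involutions lie in the same Sylow 2-subgroups
  have hsame : ∀ a b : G, orderOf a = 2 → orderOf b = 2 → ¬ IsConj a b →
      ∀ P Q : Sylow 2 G, a ∈ P → b ∈ Q → P = Q := by
    intro a b ha hb hab P Q haP hbQ
    obtain ⟨z, hz, hza, hzb⟩ := Invol.exists_common_of_not_isConj ha hb hab
    obtain ⟨R, hzR, haR⟩ := Invol.exists_sylow_of_commute hz ha hza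
    obtain ⟨R', hzR', hbR'⟩ := Invol.exists_sylow_of_commute hz hb hzb
    rw [huniq P R a ha haP haR, huniq R R' z hz hzR hzR', huniq R' Q b hb hbR' hbQ]
  obtain ⟨P, hsP, -⟩ := Invol.exists_sylow_of_commute hs hs (Commute.refl s)
  obtain ⟨c, rfl⟩ := MulAction.exists_smul_eq G T P
  obtain ⟨Q, htQ, -⟩ := Invol.exists_sylow_of_commute ht ht (Commute.refl t)
  have hQ := hsame s t hs ht hnc _ _ hsP htQ
  subst hQ
  have hmem : c * g₀ * c⁻¹ * t * (c * g₀ * c⁻¹)⁻¹ ∈ (c * g₀ * c⁻¹) • (c • T) :=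
    Subgroup.smul_mem_pointwise_smul t (MulAut.conj (c * g₀ * c⁻¹)) _ htQ
  have h1 := hsame s _ hs ((Invol.orderOf_conj _ t).trans ht)
    (fun e => hnc (e.trans (Invol.isConj_conj _ t).symm)) _ _ hsP hmem
  rw [← mul_smul, inv_mul_cancel_right, mul_smul, smul_left_cancel_iff] at h1
  apply hg₀
  rw [← Sylow.coe_subgroup_smul, ← h1]

end Cfsg.Agent.S0231
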