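import Cfsg.Statements.S0234
import Cfsg.Agent.Invol.BrauerFowler
import Cfsg.Agent.Invol.IndexTwo
import Mathlib.GroupTheory.SpecificGroups.Alternating

set_option autoImplicit false
open Cfsg

namespace Cfsg.Agent.S0234

theorem card_invol_alt_five :
    Fintype.card {t : alternatingGroup (Fin 5) // t * t = 1 ∧ t ≠ 1} = 15 := by
  decide

/-- In a finite simple group G of even order greater than 2, the number n of involutions satisfies 3n < |G|. -/
theorem result {G : Type*} [Group G] [Finite G] [IsSimpleGroup G] (heven : Even (Nat.card G)) (hgt : 2 < Nat.card G) : 3 * Nat.card {t : G // orderOf t = 2} < Nat.card G := by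
  classical
  by_contra hcon
  push Not at hcon
  set g := Nat.card G with hg
  set n := Nat.card {t : G // orderOf t = 2}
  have hp : ¬ g.Prime := fun hp => by
    have := (Nat.prime_dvd_prime_iff_eq Nat.prime_two hp).1 heven.two_dvd
    omega
  have hno2 : ∀ H : Subgroup G, H.index ≠ 2 := fun H hH => by
    have hne : H ≠ ⊤ := fun e => by rw [e, Subgroup.index_top] at hH; omega
    have := Nat.le_of_dvd (Nat.factorial_pos _) (Invol.card_dvd_factorial_index hne)
    rw [hH] at this
    simp only [Nat.factorial] at this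
    omega
  have hZ : Odd (Nat.card (Subgroup.center G)) := by
    rw [Invol.center_eq_bot_of_simple hp, Subgroup.card_bot]; exact odd_one
  obtain ⟨H, hH, hb⟩ := Invol.index_bound heven hZ
  have hlt := hb.resolve_left (hno2 H)
  change 2 * H.index * n ^ 2 < g * (g + n) at hlt
  have hs : H.index ≤ 5 := by
    have h1 : n ^ 2 * (2 * H.index) < n ^ 2 * 12 := by
      calc n ^ 2 * (2 * H.index) = 2 * H.index * n ^ 2 := by ring
        _ < g * (g + n) := hlt
        _ ≤ 3 * n * (3 * n + n) := Nat.mul_le_mul hcon (Nat.add_le_add_right hcon n)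
        _ = n ^ 2 * 12 := by ring
    have := Nat.lt_of_mul_lt_mul_left h1
    omega
  obtain ⟨e⟩ : Nonempty ((G ⧸ H) ↪ Fin 5) := ⟨(Finite.equivFinOfCardEq
    (Subgroup.index_eq_card H).symm).toEmbedding.trans (Fin.castLEEmb hs)⟩
  have : Fintype (G ⧸ H) := Fintype.ofFinite _
  let f : G →* Equiv.Perm (Fin 5) :=
    (Equiv.Perm.viaEmbeddingHom e).comp (MulAction.toPermHom G (G ⧸ H))
  have hf : Function.Injective f :=
    (Equiv.Perm.viaEmbeddingHom_injective e).comp (Invol.toPermHom_injective_of_simple hH)
  have halt : ∀ x, f x ∈ alternatingGroup (Fin 5) := by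
    intro x
    rw [Equiv.Perm.mem_alternatingGroup]
    by_contra hx
    obtain ⟨K, hK⟩ := Invol.exists_index_two_of_hom (Equiv.Perm.sign.comp f) (x := x) (by simpa using hx)
    exact hno2 K hK
  let f' : G →* alternatingGroup (Fin 5) := f.codRestrict _ halt
  have hf' : Function.Injective f' := fun a b h => hf (congrArg Subtype.val h :)
  have hdvd : g ∣ 60 := by
    have h1 := Subgroup.card_dvd_of_injective f' hf'
    rwa [show Nat.card (alternatingGroup (Fin 5)) = 60 by
      rw [nat_card_alternatingGroup, Nat.card_fin]; rfl] at h1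
  have hn15 : n ≤ 15 := by
    rw [← card_invol_alt_five, ← Nat.card_eq_fintype_card]
    exact Nat.card_le_card_of_injective
      (fun t => ⟨f' t.1, by rw [← map_mul, Invol.inv_mul_self t.2, map_one], fun h =>
        Invol.inv_ne_one t.2 (hf' (h.trans (map_one f').symm))⟩)
      fun a b h => Subtype.ext (hf' (congrArg Subtype.val h :))
  have hle : g ≤ 45 := by omega
  obtain ⟨k, hk⟩ := heven
  have hcases : g % 4 = 2 ∨ g = 4 ∨ g = 12 ∨ g = 20 := by
    have : g ∈ Nat.divisors 60 := Nat.mem_divisors.2 ⟨hdvd, by norm_num⟩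
    rw [show Nat.divisors 60 = ({1, 2, 3, 4, 5, 6, 10, 12, 15, 20, 30, 60} : Finset ℕ) by decide]
      at this
    simp only [Finset.mem_insert, Finset.mem_singleton] at this
    omega
  have : Fact (Nat.Prime 2) := ⟨Nat.prime_two⟩
  obtain ⟨P⟩ : Nonempty (Sylow 2 G) := inferInstance
  rcases hcases with h4 | h4 | h4 | h4
  · have hc : Nat.card (P : Subgroup G) = 2 := by
      obtain ⟨j, hj⟩ := P.isPGroup'.exists_card_eq
      have h1 : 2 ∣ Nat.card (P : Subgroup G) := P.dvd_card_of_dvd_card (by omega)
      have h2 := Subgroup.card_subgroup_dvd_card (P : Subgroup G)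
      rw [hj] at h1 h2 ⊢
      rcases j with _ | _ | j
      · simp at h1
      · rfl
      · exfalso
        have h9 : 4 * 2 ^ j = 2 ^ (j + 2) := by ring
        have h3 : 4 ∣ g := (Dvd.intro _ h9).trans h2
        omega
    obtain ⟨K, hK⟩ := Invol.exists_index_two_of_cyclic_sylow (by rw [← hg]; exact ⟨k, hk⟩) P
      (isCyclic_of_prime_card hc)
    exact hno2 K hK
  · have hp2 : IsPGroup 2 G := IsPGroup.of_card (n := 2) (by rw [← hg, h4]; rfl)
    have : Nontrivial G := Finite.one_lt_card_iff_nontrivial.1 (by omega)
    have := hp2.center_nontrivial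
    rw [Invol.center_eq_bot_of_simple hp] at this
    exact not_nontrivial (⊥ : Subgroup G) this
  · have hc : Nat.card (P : Subgroup G) = 4 := by
      rw [P.card_eq_multiplicity, ← hg, h4,
        show Nat.factorization 12 2 = 2 by
          rw [show (12 : ℕ) = 2 ^ 2 * 3 by norm_num, Nat.factorization_mul (by norm_num) (by norm_num),
            Nat.Prime.factorization_pow Nat.prime_two, Nat.prime_three.factorization]; simp]
      rfl
    have hne : (P : Subgroup G) ≠ ⊤ := fun e => by rw [e, Subgroup.card_top] at hc; omega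
    have h1 := Subgroup.index_mul_card (P : Subgroup G)
    have h2 := Nat.le_of_dvd (Nat.factorial_pos _) (Invol.card_dvd_factorial_index hne)
    rw [hc, ← hg, h4] at h1
    rw [show (P : Subgroup G).index = 3 by omega, ← hg, h4] at h2
    simp only [Nat.factorial] at h2
    omega
  · have : Fact (Nat.Prime 5) := ⟨by decide⟩
    obtain ⟨R⟩ : Nonempty (Sylow 5 G) := inferInstance
    have h1 : 5 ∣ Nat.card (R : Subgroup G) := R.dvd_card_of_dvd_card (by omega)
    have h2 := Subgroup.index_mul_card (R : Subgroup G)
    have h3 : (R : Subgroup G).index ∣ 4 := by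
      obtain ⟨d, hd⟩ := h1
      refine ⟨d, ?_⟩
      rw [hd, ← hg, h4, ← mul_assoc, mul_comm _ 5, mul_assoc] at h2
      omega
    have h5 := Nat.le_of_dvd (by norm_num) (R.card_dvd_index.trans h3)
    have h6 := card_sylow_modEq_one 5 G
    unfold Nat.ModEq at h6
    have h7 : Nat.card (Sylow 5 G) = 1 := by omega
    have : Subsingleton (Sylow 5 G) := (Nat.card_eq_one_iff_unique.1 h7).1
    rcases R.normal_of_subsingleton.eq_bot_or_eq_top with e | e
    · rw [e, Subgroup.card_bot] at h1; omega
    · rw [e, Subgroup.index_top] at h2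
      rw [e, Subgroup.card_top, ← hg, h4] at h1
      have hp5 : IsPGroup 5 G := by
        have := R.isPGroup'
        rw [e] at this
        exact this.of_equiv Subgroup.topEquiv
      obtain ⟨j, hj⟩ := hp5.exists_card_eq
      rw [← hg, h4] at hj
      have h25 : 5 ^ j % 5 = 0 ∨ j = 0 := by
        rcases j with _ | j
        · exact Or.inr rfl
        · left; simp [pow_succ]
      rcases h25 with h25 | rfl
      · rcases j with _ | _ | j
        · omega
        · omega
        · have : 5 ^ 2 ≤ 5 ^ (j + 2) := Nat.pow_le_pow_right (by norm_num) (by omega)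
          omega
      · simp at hj

end Cfsg.Agent.S0234
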