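import Cfsg.Statements.S0240
import Cfsg.Agent.Invol.Counting

set_option autoImplicit false
open Cfsg

namespace Cfsg.Agent.S0240

/-- Let G be a finite group with n involutions and H a subgroup with |H|·(n+1) > |G|. Then some nontrivial h ∈ H is strongly real in G: an involution t of G satisfies t h t⁻¹ = h⁻¹. -/
theorem result {G : Type*} [Group G] [Finite G] (H : Subgroup G) (hH : Nat.card G < Nat.card H * (Nat.card {t : G // orderOf t = 2} + 1)) : ∃ h : G, h ∈ H ∧ h ≠ 1 ∧ ∃ t : G, orderOf t = 2 ∧ t * h * t⁻¹ = h⁻¹ := by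
  classical
  let f : Option {t : G // orderOf t = 2} → G ⧸ H := fun o =>
    o.elim ((1 : G) : G ⧸ H) (fun t => ((t.1 : G) : G ⧸ H))
  have hlt : Nat.card (G ⧸ H) < Nat.card (Option {t : G // orderOf t = 2}) := by
    rw [Finite.card_option]
    apply Nat.lt_of_mul_lt_mul_left (a := Nat.card H)
    rw [← Subgroup.index_eq_card, mul_comm, Subgroup.index_mul_card]
    exact hH
  have hni : ¬ Function.Injective f := fun hi =>
    hlt.not_ge (Nat.card_le_card_of_injective f hi)
  obtain ⟨a, b, hab, hne⟩ := Function.not_injective_iff.1 hni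
  have key : ∀ t : {t : G // orderOf t = 2}, ((1 : G) : G ⧸ H) = (t.1 : G ⧸ H) →
      ∃ h : G, h ∈ H ∧ h ≠ 1 ∧ ∃ t : G, orderOf t = 2 ∧ t * h * t⁻¹ = h⁻¹ := fun t h => by
    rw [QuotientGroup.eq, inv_one, one_mul] at h
    exact ⟨t, h, Invol.inv_ne_one t.2, t, t.2, by rw [mul_inv_cancel_right, Invol.inv_eq t.2]⟩
  cases a with
  | none => cases b with
    | none => exact absurd rfl hne
    | some t => exact key t hab
  | some s => cases b with
    | none => exact key s hab.symm
    | some t =>
      change ((s.1 : G) : G ⧸ H) = (t.1 : G ⧸ H) at hab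
      rw [QuotientGroup.eq, Invol.inv_eq s.2] at hab
      refine ⟨s.1 * t.1, hab, fun h => hne ?_, s, s.2, Invol.conj_mul_self s.2 t.2⟩
      rw [Option.some_inj]
      apply Subtype.ext
      rw [eq_inv_of_mul_eq_one_left h, Invol.inv_eq t.2]

end Cfsg.Agent.S0240
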