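import Cfsg.Statements.S0244
import Mathlib


set_option autoImplicit false
open Cfsg

namespace Cfsg.Agent.S0244

/-- Sp_2 = SL_2: a matrix on Fin 1 ⊕ Fin 1 lies in Mathlib's symplectic group iff its determinant is 1. -/
theorem result {R : Type*} [CommRing R] (A : Matrix (Fin 1 ⊕ Fin 1) (Fin 1 ⊕ Fin 1) R) : A ∈ Matrix.symplecticGroup (Fin 1) R ↔ A.det = 1 := by
  rw [SymplecticGroup.mem_iff]
  constructor
  · intro h
    have := congrFun (congrFun h (Sum.inr 0)) (Sum.inl 0)
    simp [Matrix.mul_apply, Matrix.J, Fintype.sum_sum_type, Matrix.det_succ_row_zero] at this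
    rw [← Matrix.det_reindex_self finSumFinEquiv, Matrix.det_fin_two]
    simp [Matrix.reindex_apply, finSumFinEquiv, Fin.addCases]
    linear_combination this
  · intro h
    rw [← Matrix.det_reindex_self finSumFinEquiv, Matrix.det_fin_two] at h
    simp [Matrix.reindex_apply, finSumFinEquiv, Fin.addCases] at h
    ext i j
    rcases i with i | i <;> rcases j with j | j <;> fin_cases i <;> fin_cases j <;>
      simp [Matrix.mul_apply, Matrix.J, Fintype.sum_sum_type] <;> grind

end Cfsg.Agent.S0244
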