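import Cfsg.Statements.S0257
import Cfsg.Agent.Linear.SmallIso
import Cfsg.Agent.Linear.Torus

set_option autoImplicit false
open Cfsg

namespace Cfsg.Agent.S0257

/-- SL_2(3) has a normal subgroup of index 3 isomorphic to the quaternion group of order 8, and its centre has order 2. -/
theorem result {F : Type*} [Field F] [Fintype F] (hF : Fintype.card F = 3) : (∃ Q : Subgroup (Matrix.SpecialLinearGroup (Fin 2) F), Q.Normal ∧ Q.index = 3 ∧ Nonempty (Q ≃* QuaternionGroup 2)) ∧ Nat.card (Subgroup.center (Matrix.SpecialLinearGroup (Fin 2) F)) = 2 := by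
  have hodd : Odd (Fintype.card F) := by rw [hF]; decide
  have hcZ : Nat.card (Subgroup.center (Matrix.SpecialLinearGroup (Fin 2) F)) = 2 := by
    rw [Linear.card_center_SL, Fintype.card_fin, hF]; rfl
  refine ⟨?_, hcZ⟩
  have hcard : Nat.card (Matrix.SpecialLinearGroup (Fin 2) F) = 24 := by
    rw [Linear.card_SL_two, hF]
  obtain ⟨e⟩ := Linear.psl_two_three_iso hF
  let π : Matrix.SpecialLinearGroup (Fin 2) F →* alternatingGroup (Fin 4) :=
    e.toMonoidHom.comp (QuotientGroup.mk' (Subgroup.center (Matrix.SpecialLinearGroup (Fin 2) F)))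
  have hπ : Function.Surjective π := e.surjective.comp (QuotientGroup.mk'_surjective _)
  have h4 : Nat.card (Fin 4) = 4 := Nat.card_fin 4
  have := alternatingGroup.normal_kleinFour h4
  let Q := (alternatingGroup.kleinFour (Fin 4)).comap π
  have hi : Q.index = 3 := by
    rw [Subgroup.index_comap_of_surjective _ hπ]
    have h := (alternatingGroup.kleinFour (Fin 4)).index_mul_card
    rw [alternatingGroup.kleinFour_card_of_card_eq_four h4] at h
    have h12 := Linear.card_alternating_fin (N := 4) (by omega)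
    rw [show (4 : ℕ).factorial = 24 from rfl] at h12
    omega
  have hQ : Nat.card Q = 8 := by
    have h := Q.index_mul_card
    rw [hi, hcard] at h
    omega
  have hf : (24 : ℕ).factorization 2 = 3 := by
    rw [show (24 : ℕ) = 2 ^ 3 * 3 from rfl, Nat.factorization_mul (by norm_num) (by norm_num),
      Finsupp.add_apply, Nat.Prime.factorization_pow Nat.prime_two, Finsupp.single_eq_same,
      Nat.factorization_eq_zero_of_not_dvd (by norm_num)]
  let P : Sylow 2 (Matrix.SpecialLinearGroup (Fin 2) F) := Sylow.ofCard Q (by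
    rw [hQ, hcard, hf]; rfl)
  obtain ⟨k, -, ⟨f⟩⟩ := Linear.sylow_two_SL_two_quaternion hodd P
  have : NeZero (2 ^ k) := ⟨by positivity⟩
  have h8 : Nat.card Q = 4 * 2 ^ k := by
    rw [← TwoGroups.nat_card_quaternionGroup (2 ^ k)]
    exact Nat.card_congr f.toEquiv
  have hk : 2 ^ k = 2 := by omega
  rw [hk] at f
  exact ⟨Q, inferInstance, hi, ⟨f⟩⟩

end Cfsg.Agent.S0257
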