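import Cfsg.Statements.S0274
import Cfsg.Agent.Linear.GLTwo
import Cfsg.Agent.Stability.SL2Lite

set_option autoImplicit false
open Cfsg

namespace Cfsg.Agent.S0274

/-- Dickson's Theorem for SL_2: if p is odd and H is a subgroup of SL_2(q), q a power of p, with more than one Sylow p-subgroup, then H contains a copy of SL_2(p). -/
theorem result {F : Type*} [Field F] [Fintype F] (p : ℕ) [Fact p.Prime] [CharP F p] (hp : p ≠ 2) (H : Subgroup (Matrix.SpecialLinearGroup (Fin 2) F)) (hH : 1 < Nat.card (Sylow p H)) : ∃ K : Subgroup (Matrix.SpecialLinearGroup (Fin 2) F), K ≤ H ∧ Nonempty (K ≃* Matrix.SpecialLinearGroup (Fin 2) (ZMod p)) := by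
  have hexp : ∀ x : Matrix.SpecialLinearGroup (Fin 2) F, ∀ k : ℕ, x ^ p ^ k = 1 → x ^ p = 1 := by
    intro x k hx
    set X := Matrix.SpecialLinearGroup.toGL x with hX
    have hk : X ^ p ^ k = 1 := by rw [hX, ← map_pow, hx, map_one]
    have hpg : IsPGroup p (Subgroup.zpowers X) := by
      refine IsPGroup.iff_orderOf.2 fun y => ?_
      obtain ⟨j, hj⟩ := Subgroup.mem_zpowers_iff.1 y.2
      have hd : orderOf y ∣ p ^ k := by
        refine orderOf_dvd_of_pow_eq_one (Subtype.ext ?_)
        rw [SubgroupClass.coe_pow, ← hj, ← zpow_natCast, ← zpow_mul, mul_comm, zpow_mul,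
          zpow_natCast, hk, one_zpow, OneMemClass.coe_one]
      obtain ⟨i, -, hi⟩ := (Nat.dvd_prime_pow Fact.out).1 hd
      exact ⟨i, hi⟩
    obtain ⟨P, hP⟩ := hpg.exists_le_sylow
    obtain ⟨g, hg⟩ := Linear.exists_mem_sylow_iff p P
    obtain ⟨u1, u2, u3⟩ := Linear.mem_upperGL.1 ((hg X).1 (hP (Subgroup.mem_zpowers X)))
    set u := g⁻¹ * X * g with hu
    have key : ∀ n : ℕ, (u ^ n) 1 0 = 0 ∧ (u ^ n) 0 0 = 1 ∧ (u ^ n) 1 1 = 1 ∧
        (u ^ n) 0 1 = n * u 0 1 := by
      intro n
      induction n with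
      | zero => simp
      | succ n ih =>
        obtain ⟨a, b, c, d⟩ := ih
        simp only [pow_succ, Linear.glTwo_mul_apply, a, b, c, d, u1, u2, u3]
        refine ⟨by ring, by ring, by ring, ?_⟩
        push_cast
        ring
    obtain ⟨a, b, c, d⟩ := key p
    rw [CharP.cast_eq_zero F p, zero_mul] at d
    have hu1 : u ^ p = 1 := Linear.glTwo_ext (by simp [b]) (by simp [d]) (by simp [a]) (by simp [c])
    rw [hu, show g⁻¹ * X * g = g⁻¹ * X * g⁻¹⁻¹ by rw [inv_inv], conj_pow, conj_eq_one_iff] at hu1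
    apply Matrix.SpecialLinearGroup.toGL_injective
    rw [map_pow, map_one]
    exact hu1
  by_contra hno
  have hcomm : ∀ x y : H, x ^ p = 1 → y ^ p = 1 → x * y = y * x := by
    intro x y hx hy
    by_contra hxy
    obtain ⟨φ, hφ, hle⟩ := Stability.SL2.hasSL2_of_not_commute hp H x.2 y.2
      (by simpa using congrArg Subtype.val hx) (by simpa using congrArg Subtype.val hy)
      (fun h => hxy (Subtype.ext h))
    exact hno ⟨φ.range, hle, ⟨(MonoidHom.ofInjective hφ).symm⟩⟩
  have hHexp : ∀ (P : Sylow p H), ∀ x ∈ P, x ^ p = 1 := by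
    intro P x hx
    obtain ⟨k, hk⟩ := P.isPGroup' ⟨x, hx⟩
    have hk' : x ^ p ^ k = 1 := congrArg Subtype.val hk
    exact Subtype.ext (hexp x.1 k (by simpa using congrArg Subtype.val hk'))
  have : Subsingleton (Sylow p H) := by
    refine ⟨fun P Q => ?_⟩
    set C := Subgroup.closure {x : H | x ^ p = 1} with hC
    have hcom : IsMulCommutative C := Subgroup.isMulCommutative_closure fun x hx y hy => hcomm x y hx hy
    have hCp : IsPGroup p C := by
      intro z
      refine ⟨1, ?_⟩
      rw [pow_one]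
      obtain ⟨z, hz⟩ := z
      apply Subtype.ext
      rw [SubgroupClass.coe_pow, OneMemClass.coe_one]
      change z ^ p = 1
      induction hz using Subgroup.closure_induction with
      | mem x hx => exact hx
      | one => exact one_pow p
      | mul a b ha hb ih1 ih2 =>
        have hab : Commute a b :=
          congrArg Subtype.val (mul_comm' (⟨a, ha⟩ : C) ⟨b, hb⟩)
        rw [hab.mul_pow, ih1, ih2, one_mul]
      | inv a _ ih => rw [inv_pow, ih, inv_one]
    have hle : ∀ R : Sylow p H, (R : Subgroup H) = C := fun R =>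
      (R.is_maximal' hCp fun x hx => Subgroup.subset_closure (hHexp R x hx)).symm
    exact Sylow.ext ((hle P).trans (hle Q).symm)
  rw [← not_le] at hH
  exact hH (Finite.card_le_one_iff_subsingleton.2 this)

end Cfsg.Agent.S0274
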