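import Cfsg.Statements.S0275
import Cfsg.Agent.S0261
import Cfsg.Agent.S0268
import Cfsg.Agent.S0274
import Cfsg.Agent.TwoGroups.UniqueInvolution
-- import your own Cfsg.Agent.* helpers here

set_option autoImplicit false
open Cfsg

namespace Cfsg.Agent.S0275

open Cfsg.Agent

/-- If p is odd and H is a subgroup of SL_2(q), q a power of p, with more than one Sylow p-subgroup, then the Sylow 2-subgroups of H are generalised quaternion. -/
theorem result {F : Type*} [Field F] [Fintype F] (p : ℕ) [Fact p.Prime] [CharP F p] (hp : p ≠ 2) (H : Subgroup (Matrix.SpecialLinearGroup (Fin 2) F)) (hH : 1 < Nat.card (Sylow p H)) (S : Sylow 2 H) : ∃ k : ℕ, 1 ≤ k ∧ Nonempty ((S : Subgroup H) ≃* QuaternionGroup (2 ^ k)) := by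
  classical
  haveI : Fact (Nat.Prime 2) := ⟨Nat.prime_two⟩
  have hF : Odd (Fintype.card F) := by
    obtain ⟨m, -, hm⟩ := FiniteField.card F p
    rw [hm]
    exact ((Fact.out : p.Prime).odd_of_ne_two hp).pow
  obtain ⟨K, hKH, ⟨e⟩⟩ := S0274.result p hp H hH
  obtain ⟨P⟩ := (inferInstance : Nonempty (Sylow 2 (Matrix.SpecialLinearGroup (Fin 2) (ZMod p))))
  obtain ⟨j, hj, ⟨eP⟩⟩ := S0261.result (F := ZMod p)
    (by rw [ZMod.card]; exact (Fact.out : p.Prime).odd_of_ne_two hp) P
  let ι : QuaternionGroup (2 ^ j) →* H :=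
    (Subgroup.inclusion hKH).comp (e.symm.toMonoidHom.comp
      ((P : Subgroup _).subtype.comp eP.symm.toMonoidHom))
  have hι : Function.Injective ι := (Subgroup.inclusion_injective hKH).comp
    (e.symm.injective.comp ((Subgroup.subtype_injective _).comp eP.symm.injective))
  have hP : IsPGroup 2 ι.range := P.isPGroup'.of_surjective
    ((ι.rangeRestrict).comp eP.toMonoidHom) (ι.rangeRestrict_surjective.comp eP.surjective)
  obtain ⟨T, hT⟩ := hP.exists_le_sylow
  have huniq : ∀ x y : (S : Subgroup H), orderOf x = 2 → orderOf y = 2 → x = y := by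
    have key : ∀ x : (S : Subgroup H), orderOf x = 2 →
        ((x.1.1 : Matrix.SpecialLinearGroup (Fin 2) F) : Matrix (Fin 2) (Fin 2) F) = -1 := by
      intro x hx
      refine S0268.result hF x.1.1 (fun h => ?_) ?_
      · have : x = 1 := Subtype.ext (Subtype.ext h)
        rw [this, orderOf_one] at hx
        omega
      · have := pow_orderOf_eq_one x
        rw [hx, pow_two] at this
        exact congrArg (fun z : (S : Subgroup H) => z.1.1) this
    intro x y hx hy
    exact Subtype.ext (Subtype.ext (Subtype.ext ((key x hx).trans (key y hy).symm)))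
  rcases TwoGroups.cyclic_or_quaternion_of_unique_involution S.isPGroup' huniq with hc | ⟨n, hn, -, hQ⟩
  · exfalso
    let f : QuaternionGroup (2 ^ j) →* (S : Subgroup H) :=
      (T.equiv S).toMonoidHom.comp ((Subgroup.inclusion hT).comp ι.rangeRestrict)
    have hf : Function.Injective f := (T.equiv S).injective.comp
      ((Subgroup.inclusion_injective hT).comp (fun a b h => hι (congrArg Subtype.val h)))
    have hcomm : QuaternionGroup.a 1 * QuaternionGroup.xa 0 =
        (QuaternionGroup.xa 0 * QuaternionGroup.a 1 : QuaternionGroup (2 ^ j)) :=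
      hf (by
        have : IsMulCommutative (S : Subgroup H) := IsCyclic.isMulCommutative
        rw [map_mul, map_mul, mul_comm'])
    rw [QuaternionGroup.a_mul_xa, QuaternionGroup.xa_mul_a, QuaternionGroup.xa.injEq, zero_sub,
      zero_add] at hcomm
    have h4 : 2 < 2 * 2 ^ j := by
      have : 2 ^ 1 ≤ 2 ^ j := Nat.pow_le_pow_right two_pos hj
      omega
    have : Fact (2 < 2 * 2 ^ j) := ⟨h4⟩
    exact ZMod.neg_one_ne_one hcomm
  · exact ⟨n - 1, by omega, hQ⟩

end Cfsg.Agent.S0275
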