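import Cfsg.Statements.S0281
import Cfsg.Agent.Classical.UTwo
-- import your own Cfsg.Agent.* helpers here

set_option autoImplicit false
open Cfsg

namespace Cfsg.Agent.S0281

/-- SU_2(q) is isomorphic to SL_2(q). -/
theorem result {F K : Type*} [Field F] [Fintype F] [Field K] [Fintype K] {q : ℕ} (hF : Fintype.card F = q ^ 2) (hK : Fintype.card K = q) : Nonempty (Cfsg.SU 2 F q ≃* Matrix.SpecialLinearGroup (Fin 2) K) := by
  exact Cfsg.Agent.Classical.U.SU_two_equiv (Cfsg.Agent.Classical.U.sqField_of_fintype hF)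
    (by rw [Nat.card_eq_fintype_card, hK])

end Cfsg.Agent.S0281
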