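import Cfsg.Statements.S0282
import Cfsg.Agent.Classical.UGroup
import Cfsg.Agent.Classical.USimple
import Cfsg.Agent.Char.Burnside
-- import your own Cfsg.Agent.* helpers here

set_option autoImplicit false
open Cfsg

namespace Cfsg.Agent.S0282

open Cfsg.Agent

/-- PSU_3(2) is a solvable group of order 72. -/
theorem result {F : Type*} [Field F] [Fintype F] (hF : Fintype.card F = 4) : Nat.card (Cfsg.PSU 3 F 2) = 72 ∧ Group.IsSolvable (Cfsg.PSU 3 F 2) := by
  have hF' : Fintype.card F = 2 ^ 2 := by rw [hF]; norm_num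
  have hU := Classical.U.sqField_of_fintype hF'
  have hcard : Nat.card (Cfsg.PSU 3 F 2) = 72 := by
    have h := Classical.U.card_PSU hU (n := 3) (by norm_num)
    rw [Classical.U.card_UG hU] at h
    norm_num [Finset.prod_range_succ, show ¬ Even 1 from Nat.not_even_one, show Even 2 from even_two] at h
    omega
  refine ⟨hcard, ?_⟩
  have : Finite (Cfsg.PSU 3 F 2) := Nat.finite_of_card_ne_zero (by rw [hcard]; norm_num)
  refine Char.solvable_of_card_eq_pow_mul_pow 2 3 Nat.prime_two Nat.prime_three 72 hcard ?_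
  intro r hr hd
  have h : r ∈ Nat.primeFactors 72 := Nat.mem_primeFactors.2 ⟨hr, hd, by norm_num⟩
  have e : Nat.primeFactors 72 = {2, 3} := by
    rw [show (72 : ℕ) = 2 ^ 3 * 3 ^ 2 by norm_num, Nat.primeFactors_mul (by norm_num) (by norm_num),
      Nat.primeFactors_prime_pow (by norm_num) Nat.prime_two,
      Nat.primeFactors_prime_pow (by norm_num) Nat.prime_three]
    rfl
  rw [e] at h
  simpa using h

end Cfsg.Agent.S0282
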