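import Cfsg.Statements.S0285
import Cfsg.Agent.Classical.UBasic
import Cfsg.Agent.Classical.UGroup
-- import your own Cfsg.Agent.* helpers here

set_option autoImplicit false
open Cfsg

namespace Cfsg.Agent.S0285

open Cfsg.Agent.Classical.U

/-- The standard Hermitian form on F^n, |F| = q^2, has exactly (q^n - (-1)^n)(q^(n-1) + (-1)^n) non-zero isotropic vectors; counting the zero vector too: -/
theorem result {F : Type*} [Field F] [Fintype F] {q : ℕ} (hF : Fintype.card F = q ^ 2) (n : ℕ) : Nat.card {v : Fin n → F // Cfsg.hermForm n F q v v = 0} = (if Even n then (q ^ n - 1) * (q ^ (n - 1) + 1) else (q ^ n + 1) * (q ^ (n - 1) - 1)) + 1 := by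
  have hF' := sqField_of_fintype hF
  have hq := hF'.one_lt
  cases n with
  | zero =>
    simp only [Even.zero, if_true, pow_zero, Nat.sub_self, zero_mul, zero_add]
    exact Nat.card_eq_one_iff_exists.2 ⟨⟨0, by simp [Cfsg.hermForm]⟩,
      fun v => Subtype.ext (Subsingleton.elim _ _)⟩
  | succ n =>
    refine Int.natCast_inj.1 (mul_left_cancel₀ (show (q : ℤ) ≠ 0 by omega) ?_)
    rw [(hF'.card_values_int (n + 1)).2, Nat.add_sub_cancel]
    split_ifs with he
    · rw [Nat.cast_add, Nat.cast_mul, Nat.cast_sub (Nat.one_le_pow _ _ (by omega)), he.neg_pow]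
      push_cast; ring
    · rw [Nat.cast_add, Nat.cast_mul, Nat.cast_sub (Nat.one_le_pow _ _ (by omega)),
        (Nat.not_even_iff_odd.1 he).neg_pow]
      push_cast; ring

end Cfsg.Agent.S0285
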