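import Cfsg.Statements.S0305
import Cfsg.Agent.Classical.OrthPlane
-- import your own Cfsg.Agent.* helpers here

set_option autoImplicit false
open Cfsg

namespace Cfsg.Agent.S0305

open Cfsg.Agent.Classical

/-- GO^+_2(q) is dihedral of order 2(q-1). -/
theorem result {F : Type*} [Field F] [Fintype F] {q : ℕ} (hF : Fintype.card F = q) : Nonempty (Cfsg.isometryGroup F (Cfsg.quadFormPlus 1 F) ≃* DihedralGroup (q - 1)) := by
  obtain ⟨φ⟩ := hypPlane_dihedral (F := F)
  subst hF
  rw [Nat.card_eq_fintype_card] at φ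
  exact ⟨((isometryGroupEquiv _ (plusQF 1 F) (plusQF_apply 1)).trans
    (OQCongr ((plusEquiv 1).trans ((hypSplit 0).trans (hypAddEquiv hypSpaceZero))) (fun v => by
      rw [LinearEquiv.trans_apply, LinearEquiv.trans_apply,
        hypAddEquiv_spec (Q := hypExt 0 (0 : QuadraticForm F (Fin 0 → F))) _
          (fun x => by simp [hypSpaceZero, hypExt_apply]), hypSplit_spec, plusEquiv_spec]))).trans φ⟩

end Cfsg.Agent.S0305
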