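import Cfsg.Statements.S0307
import Cfsg.Agent.Linear.Orders
-- import your own Cfsg.Agent.* helpers here

set_option autoImplicit false
open Cfsg

namespace Cfsg.Agent.S0307

open Cfsg.Agent

/-- PSL_n(q) is normal in PGL_n(q) with cyclic quotient of order gcd(n, q-1): the image of the natural map PSL_n → PGL_n is the kernel of a surjective homomorphism onto the cyclic group of that order. -/
theorem result {F : Type*} [Field F] [Fintype F] {q : ℕ} (hF : Fintype.card F = q) (n : ℕ) (hn : 1 ≤ n) : ∃ g : Matrix.ProjGenLinGroup (Fin n) F →* Multiplicative (ZMod (Nat.gcd n (q - 1))), Function.Surjective g ∧ g.ker = (Matrix.ProjectiveSpecialLinearGroup.toPGL : Matrix.ProjectiveSpecialLinearGroup (Fin n) F →* Matrix.ProjGenLinGroup (Fin n) F).range := by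
  classical
  subst hF
  haveI : Nonempty (Fin n) := ⟨⟨0, hn⟩⟩
  set S := (powMonoidHom n : Fˣ →* Fˣ).range with hS
  have hcard : Nat.card (Fˣ ⧸ S) = Nat.gcd n (Fintype.card F - 1) := by
    have h := IsCyclic.index_powMonoidHom_range (G := Fˣ) n
    rw [← hS, Nat.card_units, Nat.card_eq_fintype_card (α := F), Nat.gcd_comm] at h
    exact h
  have hcyc : IsCyclic (Fˣ ⧸ S) :=
    isCyclic_of_surjective (QuotientGroup.mk' S) (QuotientGroup.mk'_surjective S)
  let e : (Fˣ ⧸ S) ≃* Multiplicative (ZMod (Nat.gcd n (Fintype.card F - 1))) :=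
    (zmodCyclicMulEquiv hcyc).symm.trans
      (AddEquiv.toMultiplicative (ZMod.ringEquivCongr hcard).toAddEquiv)
  let ψ : GL (Fin n) F →* Multiplicative (ZMod (Nat.gcd n (Fintype.card F - 1))) :=
    e.toMonoidHom.comp ((QuotientGroup.mk' S).comp Matrix.GeneralLinearGroup.det)
  have hψ : ∀ g, ψ g = 1 ↔ Matrix.GeneralLinearGroup.det g ∈ S := fun g => by
    simp only [ψ, MonoidHom.comp_apply, MulEquiv.toMonoidHom_eq_coe, MonoidHom.coe_coe,
      MulEquiv.map_eq_one_iff]
    exact QuotientGroup.eq_one_iff _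
  have hc : Subgroup.center (GL (Fin n) F) ≤ ψ.ker := by
    intro g hg
    rw [Matrix.GeneralLinearGroup.center_eq_range_scalar] at hg
    obtain ⟨u, rfl⟩ := hg
    rw [MonoidHom.mem_ker, hψ, Matrix.GeneralLinearGroup.det_scalar, Fintype.card_fin]
    exact ⟨u, rfl⟩
  refine ⟨QuotientGroup.lift _ ψ hc, fun y => ?_, ?_⟩
  · obtain ⟨x, rfl⟩ := e.surjective y
    obtain ⟨u, rfl⟩ := QuotientGroup.mk'_surjective S x
    let g : GL (Fin n) F := Matrix.GeneralLinearGroup.mkOfDetNeZero
      (Matrix.diagonal (Function.update (fun _ => (1 : F)) ⟨0, hn⟩ (u : F))) (by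
        rw [Matrix.det_diagonal, Finset.prod_update_of_mem (Finset.mem_univ _)]
        simp)
    refine ⟨Matrix.ProjGenLinGroup.mk g, ?_⟩
    have hg : Matrix.GeneralLinearGroup.det g = u := by
      apply Units.ext
      rw [Matrix.GeneralLinearGroup.val_det_apply]
      change (Matrix.diagonal _).det = _
      rw [Matrix.det_diagonal, Finset.prod_update_of_mem (Finset.mem_univ _)]
      simp
    change ψ g = _
    simp [ψ, hg]
  · ext x
    induction x using Matrix.ProjGenLinGroup.induction_on with
    | mk g =>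
    constructor
    · intro hg
      obtain ⟨t, ht⟩ := (hψ g).1 hg
      have hmem : g * (Matrix.GeneralLinearGroup.scalar (Fin n) t)⁻¹ ∈
          (Matrix.SpecialLinearGroup.toGL :
            Matrix.SpecialLinearGroup (Fin n) F →* GL (Fin n) F).range := by
        rw [Linear.range_toGL_eq_ker_det, MonoidHom.mem_ker, map_mul, map_inv,
          Matrix.GeneralLinearGroup.det_scalar, Fintype.card_fin, ← ht, powMonoidHom_apply,
          mul_inv_cancel]
      obtain ⟨s, hs⟩ := hmem
      refine ⟨QuotientGroup.mk s, ?_⟩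
      rw [Matrix.ProjectiveSpecialLinearGroup.toPGL_mk, hs, map_mul, map_inv,
        Matrix.ProjGenLinGroup.mk_scalar, inv_one, mul_one]
    · rintro ⟨y, hy⟩
      obtain ⟨s, rfl⟩ := QuotientGroup.mk_surjective y
      refine Eq.trans (congrArg _ hy.symm) ?_
      change ψ (Matrix.SpecialLinearGroup.toGL s) = 1
      rw [hψ]
      have : Matrix.GeneralLinearGroup.det (Matrix.SpecialLinearGroup.toGL s) = 1 := by
        ext; simp
      rw [this]; exact one_mem S

end Cfsg.Agent.S0307
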