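import Cfsg.Statements.S0316
import Cfsg.Agent.BNPair.Parabolic

set_option autoImplicit false
open Cfsg

namespace Cfsg.Agent.S0316

/-- The map `J ↦ P_J` is a lattice isomorphism from the power set of the set of distinguished generators onto the
subgroups containing `B`. -/
theorem result {G : Type*} [Group G] (P : Cfsg.BNPair G) :
    ∃ e : Set P.S ≃o {M : Subgroup G // P.B ≤ M},
      ∀ J : Set P.S, ((e J : {M : Subgroup G // P.B ≤ M}) : Subgroup G) = P.parabolic (Subtype.val '' J) := by
  have hsub : ∀ J : Set P.S, Subtype.val '' J ⊆ P.S := fun J => by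
    rintro x ⟨y, -, rfl⟩; exact y.2
  refine ⟨{ toFun := fun J => ⟨P.parabolic (Subtype.val '' J), le_sup_left⟩
            invFun := fun M => Subtype.val ⁻¹' (M.1 : Set G)
            left_inv := fun J => ?_
            right_inv := fun M => ?_
            map_rel_iff' := ?_ }, fun J => rfl⟩
  · ext s
    show (s : G) ∈ P.parabolic (Subtype.val '' J) ↔ _
    rw [BNPair.mem_parabolic_of_mem P (hsub J) s]
    exact Subtype.val_injective.mem_set_image
  · refine Subtype.ext ?_
    show P.parabolic _ = M.1
    rw [Subtype.image_preimage_coe]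
    exact (BNPair.eq_parabolic_inter P M.2).symm
  · intro J K
    refine ⟨fun h s hs => ?_, fun h => BNPair.parabolic_mono P (Set.image_mono h)⟩
    have : (s : G) ∈ P.parabolic (Subtype.val '' K) :=
      h (BNPair.subset_parabolic P _ ⟨s, hs, rfl⟩)
    rw [BNPair.mem_parabolic_of_mem P (hsub K) s] at this
    exact Subtype.val_injective.mem_set_image.1 this

end Cfsg.Agent.S0316
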