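import Cfsg.Statements.S0321
import Cfsg.Agent.BNPair.Parabolic

set_option autoImplicit false
open Cfsg

namespace Cfsg.Agent.S0321

/-- For `n ∈ N` not in `B`, the union `B ∪ B n B` is (the underlying set of) a subgroup exactly when `n` agrees
modulo `B ⊓ N` with one of the distinguished representatives; thus the distinguished involutions are
determined by `B` and `N`. -/
theorem result {G : Type*} [Group G] (P : Cfsg.BNPair G) {n : G}
    (hn : n ∈ P.N) (hnB : n ∉ P.B) :
    (∃ H : Subgroup G, (H : Set G) = (P.B : Set G) ∪ DoubleCoset.doubleCoset n (P.B : Set G) P.B) ↔ ∃ s ∈ P.S, s⁻¹ * n ∈ P.B := by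
  constructor
  · rintro ⟨H, hH⟩
    have hB : P.B ≤ H := fun b hb => by
      rw [← SetLike.mem_coe, hH]; exact Or.inl hb
    have hnH : n ∈ H := by
      rw [← SetLike.mem_coe, hH]; exact Or.inr (DoubleCoset.mem_doubleCoset_self _ _ n)
    obtain ⟨l, hl, hlen⟩ := BNPair.exists_reduced P (BNPair.bw P n)
    rcases l with _ | ⟨s, l⟩
    · exact absurd ((BNPair.bw_eq_one_iff P).1 hl.symm) hnB
    · refine ⟨s, s.2, ?_⟩
      have hsH : (s : G) ∈ (H : Set G) :=
        BNPair.word_mem_of_mem P hB hnH hl hlen s (by simp)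
      rw [hH] at hsH
      rcases hsH with h | h
      · exact absurd h (BNPair.not_mem_B P s.2)
      · rw [← BNPair.C_eq_doubleCoset P ⟨n, hn⟩, BNPair.mem_C_iff, BNPair.bw_coe_σ] at h
        exact (BNPair.π_eq_iff P (n := ⟨(s : G), P.subset s.2⟩) (m := ⟨n, hn⟩)).1 h
  · rintro ⟨s, hs, h⟩
    refine ⟨P.parabolic {s}, Set.ext fun g => ?_⟩
    have hσ : BNPair.σ P ⟨s, hs⟩ = BNPair.π P ⟨n, hn⟩ := (BNPair.π_eq_iff P).2 h
    rw [Set.mem_union, ← BNPair.C_eq_doubleCoset P ⟨n, hn⟩, ← hσ, BNPair.mem_C_iff]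
    show g ∈ P.parabolic {s} ↔ g ∈ P.B ∨ _
    constructor
    · intro hg
      rcases BNPair.bw_cases_of_singleton P ⟨s, hs⟩ hg with h1 | h1
      · exact Or.inl ((BNPair.bw_eq_one_iff P).1 h1)
      · exact Or.inr h1
    · rintro (h1 | h1)
      · exact BNPair.B_le_parabolic P _ h1
      · rw [BNPair.mem_parabolic_iff P (Set.singleton_subset_iff.2 hs), h1, BNPair.σ_mem_WJ_iff]
        rfl

end Cfsg.Agent.S0321
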