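import Cfsg.Statements.S0323

set_option autoImplicit false
open scoped Pointwise
open Cfsg

namespace Cfsg.Agent.S0323

/-- A doubly transitive action on a set with at least three points yields a (B,N)-pair of rank one:
`B` is the stabiliser of a point `x`, `N` the setwise stabiliser of a pair `{x, y}`. -/
theorem result {G Ω : Type*} [Group G] [MulAction G Ω]
    (h2 : MulAction.IsMultiplyPretransitive G Ω 2) {x y z : Ω} (hxy : x ≠ y) (hyz : y ≠ z) (hxz : x ≠ z) :
    ∃ P : Cfsg.BNPair G, P.B = MulAction.stabilizer G x ∧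
      P.N = MulAction.stabilizer G ({x, y} : Set Ω) ∧ P.rank = 1 := by
  classical
  rw [MulAction.is_two_pretransitive_iff] at h2
  obtain ⟨s, hsx, hsy⟩ := h2 (a := x) (b := y) (c := y) (d := x) hxy hxy.symm
  set B := MulAction.stabilizer G x with hB
  set N := MulAction.stabilizer G ({x, y} : Set Ω) with hN
  have memN : ∀ n, n ∈ N ↔ (n • x = x ∧ n • y = y) ∨ (n • x = y ∧ n • y = x) := by
    intro n
    rw [hN, MulAction.mem_stabilizer_iff, Set.smul_set_insert, Set.smul_set_singleton,
      Set.pair_eq_pair_iff]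
  have memBN : ∀ t, t ∈ B → t ∈ N → t • x = x ∧ t • y = y := by
    intro t ht ht'
    rcases (memN t).1 ht' with h | h
    · exact h
    · exact absurd ((MulAction.mem_stabilizer_iff.1 ht).symm.trans h.1) hxy
  have hsN : s ∈ N := (memN s).2 (Or.inr ⟨hsx, hsy⟩)
  have hdec : ∀ g : G, g • x ≠ x → g ∈ DoubleCoset.doubleCoset s (B : Set G) B := by
    intro g hg
    obtain ⟨b, hb, hb'⟩ := h2 (a := x) (b := y) (c := x) (d := g • x) hxy (Ne.symm hg)
    refine DoubleCoset.mem_doubleCoset.2
      ⟨b, hb, s⁻¹ * b⁻¹ * g, MulAction.mem_stabilizer_iff.2 ?_, by group⟩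
    rw [mul_smul, mul_smul, inv_smul_eq_iff, inv_smul_eq_iff, hsx, hb']
  have hswap : ∀ n ∈ N, n ∉ B → DoubleCoset.doubleCoset n (B : Set G) B =
      DoubleCoset.doubleCoset s (B : Set G) B := by
    intro n _ hnB
    exact (DoubleCoset.doubleCoset_eq_of_mem (hdec n fun h => hnB h)).symm ▸ rfl
  have hone : DoubleCoset.doubleCoset (1 : G) (B : Set G) B = B := by
    ext g
    rw [DoubleCoset.mem_doubleCoset]
    constructor
    · rintro ⟨a, ha, b, hb, rfl⟩
      exact mul_mem (mul_mem ha (one_mem _)) hb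
    · intro hg
      exact ⟨g, hg, 1, one_mem _, by simp⟩
  refine ⟨{ B := B, N := N, S := {s}
            sup_eq_top := ?_, conj_mem := ?_, subset := ?_, sq_mem := ?_, inj := ?_
            closure_sup := ?_, mul_mem_union := ?_, conj_ne := ?_ }, rfl, rfl, ?_⟩
  · refine eq_top_iff.2 fun g _ => ?_
    by_cases hg : g • x = x
    · exact Subgroup.mem_sup_left hg
    obtain ⟨a, ha, b, hb, e⟩ := DoubleCoset.mem_doubleCoset.1 (hdec g hg)
    rw [e]
    exact mul_mem (mul_mem (Subgroup.mem_sup_left ha) (Subgroup.mem_sup_right hsN))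
      (Subgroup.mem_sup_left hb)
  · intro n hn t ht
    obtain ⟨t1, t2⟩ := memBN t ht.1 ht.2
    rw [hB, MulAction.mem_stabilizer_iff, mul_smul, mul_smul]
    rcases (memN n⁻¹).1 (inv_mem hn) with h | h
    · rw [h.1, t1]; exact (inv_smul_eq_iff.1 h.1).symm
    · rw [h.1, t2]; exact (inv_smul_eq_iff.1 h.1).symm
  · simpa using hsN
  · rintro t rfl
    rw [hB, MulAction.mem_stabilizer_iff, mul_smul, hsx, hsy]
  · rintro a rfl b rfl _; rfl
  · refine le_antisymm (sup_le (by simpa using hsN) inf_le_right) fun n hn => ?_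
    rcases (memN n).1 hn with h | h
    · exact Subgroup.mem_sup_right ⟨h.1, hn⟩
    · have : s⁻¹ * n ∈ B ⊓ N := by
        refine ⟨MulAction.mem_stabilizer_iff.2 ?_, N.mul_mem (N.inv_mem hsN) hn⟩
        rw [mul_smul, inv_smul_eq_iff, hsx, h.1]
      rw [← mul_inv_cancel_left s n]
      exact mul_mem (Subgroup.mem_sup_left (Subgroup.subset_closure rfl)) (Subgroup.mem_sup_right this)
  · rintro t ht n hn b hb
    rw [Set.mem_singleton_iff] at ht; subst ht
    by_cases hnB : n ∈ B
    · have hn2 := memBN n hnB hn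
      have : (t * n) • x ≠ x := by rw [mul_smul, hn2.1, hsx]; exact hxy.symm
      left
      rw [DoubleCoset.doubleCoset_eq_of_mem (hdec _ this)]
      refine hdec _ ?_
      rw [mul_smul, mul_smul, hn2.1, MulAction.mem_stabilizer_iff.1 hb, hsx]
      exact hxy.symm
    · by_cases hg : (t * b * n) • x = x
      · left
        have hnx : n • x = y := by
          rcases (memN n).1 hn with h | h
          · exact absurd h.1 hnB
          · exact h.1
        have : t * n ∈ B := by rw [hB, MulAction.mem_stabilizer_iff, mul_smul, hnx, hsy]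
        refine DoubleCoset.mem_doubleCoset.2 ⟨t * b * n * (t * n)⁻¹, ?_, 1, one_mem _, by group⟩
        exact B.mul_mem (MulAction.mem_stabilizer_iff.2 hg) (B.inv_mem this)
      · right
        rw [hswap n hn hnB]; exact hdec _ hg
  · intro t ht hEq
    rw [Set.mem_singleton_iff] at ht; subst ht
    obtain ⟨b, hb, hb'⟩ := h2 (a := x) (b := y) (c := x) (d := z) hxy hxz
    have : t * b * t ∈ (B : Set G) := hEq ▸ ⟨b, hb, rfl⟩
    have h' : t • z = x := by
      have := MulAction.mem_stabilizer_iff.1 (SetLike.mem_coe.1 this)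
      rwa [mul_smul, mul_smul, hsx, hb'] at this
    exact hyz (MulAction.injective t (hsy.trans h'.symm))
  · simp [Cfsg.BNPair.rank]

end Cfsg.Agent.S0323
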