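import Cfsg.Statements.S0326

set_option autoImplicit false
open Cfsg

namespace Cfsg.Agent.S0326

/-- The Suzuki–Tits ovoid over a finite field with `q` elements has `q² + 1` points. -/
theorem result {F : Type*} [Field F] [Fintype F] (m : ℕ) :
    Nat.card (Cfsg.suzukiOvoid F m) = Fintype.card F ^ 2 + 1 := by
  classical
  let e : Option (F × F) → Cfsg.suzukiOvoid F m := fun o => o.elim
    ⟨Projectivization.mk F ![1, 0, 0, 0] (by simp), _, by simp, rfl, Or.inl rfl⟩
    (fun q => ⟨Projectivization.mk F
        ![q.1 * q.2 + q.1 ^ (2 ^ (m + 1) + 2) + q.2 ^ (2 ^ (m + 1)), q.2, q.1, 1] (by simp),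
      _, by simp, rfl, Or.inr ⟨q.1, q.2, rfl⟩⟩)
  have he : Function.Bijective e := by
    constructor
    · intro o o' h
      have h' := congrArg Subtype.val h
      rcases o with _ | ⟨x, y⟩ <;> rcases o' with _ | ⟨x', y'⟩
      · rfl
      all_goals
        obtain ⟨c, hc⟩ := (Projectivization.mk_eq_mk_iff' F _ _ _ _).1 h'
        have h3 := congrFun hc 3
        have h2 := congrFun hc 2
        have h1 := congrFun hc 1
        have h0 := congrFun hc 0
        simp at h0 h1 h2 h3
      · rw [h3] at h0; simp at h0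
      · subst h3; simp at h1 h2; rw [h1, h2]
    · rintro ⟨p, v, hv, rfl, rfl | ⟨x, y, rfl⟩⟩
      · exact ⟨none, rfl⟩
      · exact ⟨some (x, y), rfl⟩
  rw [← Nat.card_congr (Equiv.ofBijective e he), Nat.card_eq_fintype_card]
  simp [sq]

end Cfsg.Agent.S0326
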