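import Cfsg.Statements.S0335
import Cfsg.Agent.Suzuki.Structure

set_option autoImplicit false
open Cfsg

namespace Cfsg.Agent.S0335

/-- The Suzuki–Tits point set is an ovoid: any three distinct points of it are projectively independent
(no line of projective 3-space meets it in more than two points). -/
theorem result {F : Type*} [Field F] [Fintype F] {m : ℕ} (hm : 1 ≤ m)
    (hF : Fintype.card F = 2 ^ (2 * m + 1)) (p : Fin 3 ↪ Cfsg.suzukiOvoid F m) :
    Projectivization.Independent (fun i => (p i : Projectivization F (Fin 4 → F))) := by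
  haveI : Cfsg.Agent.Suzuki.SuzukiField F m := ⟨hm, hF⟩
  obtain ⟨g, h0, h1⟩ := Cfsg.Agent.Suzuki.exists_smul_pair (p.injective.ne (show (0 : Fin 3) ≠ 1 by decide))
  rcases Cfsg.Agent.Suzuki.ovoid_cases (g • p 2) with h | ⟨x, y, h⟩
  · exact absurd (p.injective (MulAction.injective g (h.trans h0.symm))) (by decide)
  have hxy : x ≠ 0 ∨ y ≠ 0 := by
    by_contra hc
    simp only [not_or, not_not] at hc
    rw [hc.1, hc.2, ← h1] at h
    exact absurd (p.injective (MulAction.injective g h)) (by decide)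
  rw [Projectivization.independent_iff]
  set r : Fin 3 → (Fin 4 → F) := fun i => (p i : Projectivization F (Fin 4 → F)).rep
  show LinearIndependent F r
  set M : Matrix (Fin 4) (Fin 4) F := ((g : Matrix.SpecialLinearGroup (Fin 4) F) : Matrix (Fin 4) (Fin 4) F)
  have hr : ∀ i (v : Fin 4 → F) (hv : v ≠ 0),
      ((g • p i : Cfsg.suzukiOvoid F m) : Projectivization F (Fin 4 → F)) = Projectivization.mk F v hv →
      ∃ c : F, c ≠ 0 ∧ M.mulVec (r i) = c • v := by
    intro i v hv hi
    refine Cfsg.Agent.Suzuki.exists_smul_of_sl_smul_mk_eq (hv := Projectivization.rep_nonzero _) (hw := hv) ?_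
    rw [Projectivization.mk_rep]; exact hi
  obtain ⟨a, ha, ea⟩ := hr 0 _ _ (congrArg Subtype.val h0)
  obtain ⟨b, hb, eb⟩ := hr 1 _ _ (congrArg Subtype.val h1)
  obtain ⟨c, hc, ec⟩ := hr 2 _ _ (congrArg Subtype.val h)
  rw [Fintype.linearIndependent_iff]
  intro t ht
  have hM := congrArg M.mulVec ht
  simp only [Fin.sum_univ_three, Matrix.mulVec_add, Matrix.mulVec_smul, Matrix.mulVec_zero, ea, eb, ec] at hM
  have e0 := congrFun hM 0
  have e1 := congrFun hM 1
  have e2 := congrFun hM 2
  have e3 := congrFun hM 3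
  simp [Cfsg.Agent.Suzuki.ovVec, Cfsg.Agent.Suzuki.ovf_zero] at e0 e1 e2 e3
  have t2 : t 2 = 0 := by
    rcases hxy with hx | hy
    · simpa [hc, hx] using e2
    · simpa [hc, hy] using e1
  simp [t2, ha, hb] at e0 e3
  intro i; fin_cases i <;> simp [e0, e3, t2]

end Cfsg.Agent.S0335
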