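import Cfsg.Statements.S0344
import Cfsg.Agent.Zassenhaus.Even
import Cfsg.Agent.S0742

set_option autoImplicit false
open Cfsg

namespace Cfsg.Agent.S0344

/-- A finite simple Zassenhaus group with a two-point stabiliser of even order is isomorphic to `PSL₂(F)` for a finite
field `F` with more than three elements. -/
theorem result {G Ω : Type*} [Group G] [Finite G] [MulAction G Ω] [Finite Ω]
    (hZ : Cfsg.IsZassenhausGroup G Ω) [IsSimpleGroup G]
    {a b : Ω} (hab : a ≠ b) (heven : Even (Nat.card ↥(MulAction.stabilizer G a ⊓ MulAction.stabilizer G b))) :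
    ∃ (F : Type) (_ : Field F) (_ : Fintype F), 3 < Fintype.card F ∧ Nonempty (G ≃* Matrix.ProjectiveSpecialLinearGroup (Fin 2) F) := by
  haveI : Fintype Ω := Fintype.ofFinite Ω
  have h := Cfsg.Agent.Zassenhaus.two_mul_card_H2 hZ hab heven
  have hd : 2 * Nat.card ↥(MulAction.stabilizer G a ⊓ MulAction.stabilizer G b) ≤
      Fintype.card Ω - 2 := by
    rw [← Nat.card_eq_fintype_card]
    show 2 * Nat.card (Cfsg.Agent.PermB.ZData.H2 (G := G) a b) ≤ _
    omega
  obtain ⟨p, f, K, iK, iF, -, -, hK, hΩ, hiso⟩ := Cfsg.Agent.S0742.result hZ hab heven hd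
  refine ⟨K, iK, iF, ?_, hiso⟩
  obtain ⟨r, hr⟩ := heven
  have hpos : 0 < Nat.card ↥(MulAction.stabilizer G a ⊓ MulAction.stabilizer G b) := Nat.card_pos
  rw [← Nat.card_eq_fintype_card] at hΩ
  change 2 * Nat.card ↥(MulAction.stabilizer G a ⊓ MulAction.stabilizer G b) + 2 = _ at h
  omega

end Cfsg.Agent.S0344
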