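import Cfsg.Statements.S0367
import Cfsg.Agent.Golay.M24

set_option autoImplicit false
open scoped Pointwise
open Cfsg

namespace Cfsg.Agent.S0367

/-- The permutation group preserving the length-24 code is transitive on octads. -/
theorem result (o o' : Finset Cfsg.GolayPt) (ho : o ∈ Cfsg.octads) (ho' : o' ∈ Cfsg.octads) : ∃ g : Cfsg.M24, g • o = o' := by
  have h := fun (s : Finset Cfsg.GolayPt) (hs : s ∈ Cfsg.octads) =>
    Cfsg.Agent.Golay.exists_octad_to_oct0 hs
  obtain ⟨a, ha, ea⟩ := h o ho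
  obtain ⟨b, hb, eb⟩ := h o' ho'
  refine ⟨⟨b⁻¹ * a, mul_mem (inv_mem hb) ha⟩, ?_⟩
  show (b⁻¹ * a) • o = o'
  rw [mul_smul, ea, ← eb, inv_smul_smul]

end Cfsg.Agent.S0367
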