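import Cfsg.Statements.S0371
import Cfsg.Agent.Golay.M24

set_option autoImplicit false
open Cfsg

namespace Cfsg.Agent.S0371

theorem S0371Aux.check : ∀ u : (ZMod 23)ˣ, IsSquare u →
    Cfsg.Agent.Golay.PreservesRows (Equiv.optionCongr (Units.mulLeft u)) := by
  intro u hu
  obtain ⟨r, rfl⟩ := hu
  revert r
  decide +kernel

/-- Multiplication by a nonzero square residue modulo 23, fixing the extra point, lies in the group of the length-24 code. -/
theorem result (u : (ZMod 23)ˣ) (hu : IsSquare u) : Equiv.optionCongr (Units.mulLeft u) ∈ Cfsg.M24 := by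
  exact Cfsg.Agent.Golay.mem_M24_of_preservesRows
    (S0371Aux.check u hu)

end Cfsg.Agent.S0371
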