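import Cfsg.Statements.S0373
import Cfsg.Agent.Golay.Octads
-- import your own Cfsg.Agent.* helpers here

set_option autoImplicit false
open Cfsg

namespace Cfsg.Agent.S0373

open Cfsg.Agent.Golay in
theorem table : ∀ i : Fin 12, ∀ p : Cfsg.GolayPt,
    ofBits (rows.getD i.val 0) (Cfsg.cubeTwistFun p) =
      ofBits (enc (([771, 2880, 530, 2602, 2816, 162, 2086, 3586, 2338, 2336, 800, 288] : List ℕ).getD i.val 0)) p := by
  decide +kernel

/-- The cube-twist permutation (squares t ↦ t^3/9, non-squares t ↦ 9t^3, extra point fixed) lies in the group of the length-24 code. -/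
theorem result : Cfsg.cubeTwist ∈ Cfsg.M24 := by
  rw [← inv_mem_iff]
  refine Cfsg.Agent.Golay.mem_M24_of_rows fun r hr => ?_
  obtain ⟨i, hi, rfl⟩ := List.mem_iff_getElem.mp hr
  have hi' : i < 12 := hi
  have h := table ⟨i, hi'⟩
  simp only [List.getD_eq_getElem _ _ hi] at h
  have e : (fun p => Cfsg.Agent.Golay.ofBits Cfsg.Agent.Golay.rows[i] (Cfsg.cubeTwist⁻¹.symm p)) =
      Cfsg.Agent.Golay.ofBits (Cfsg.Agent.Golay.enc (([771, 2880, 530, 2602, 2816, 162, 2086, 3586, 2338, 2336, 800, 288] : List ℕ).getD i 0)) := funext h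
  refine e.symm ▸ ?_
  exact Cfsg.Agent.Golay.ofBits_enc_mem _

end Cfsg.Agent.S0373
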