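import Cfsg.Statements.S0379
import Cfsg.Agent.Golay.MathieuSimple

set_option autoImplicit false
open Cfsg

namespace Cfsg.Agent.S0379

/-- A two-point stabiliser in the group of the length-24 code is simple. -/
theorem result (p q : Cfsg.GolayPt) (hpq : p ≠ q) : IsSimpleGroup ↥(MulAction.stabilizer Cfsg.M24 p ⊓ MulAction.stabilizer Cfsg.M24 q) := by
  exact (Cfsg.Agent.Golay.stabilizerInfEquiv₂ Cfsg.M24 p q).symm.isSimpleGroup_congr.mp
    (Cfsg.Agent.Golay.isSimpleGroup_inf_two hpq)

end Cfsg.Agent.S0379
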