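import Cfsg.Statements.S0414
import Cfsg.Agent.Design.GroupsLarge

set_option autoImplicit false
open Cfsg

namespace Cfsg.Agent.S0414

/-- Aut of an S(3, 6, 22) has order 887040, is 3-transitive, and contains a simple subgroup of index 2. -/
theorem result {α : Type*} [Fintype α] [DecidableEq α] (hα : Fintype.card α = 22) {B : Set (Finset α)} (hB : Cfsg.IsSteinerSystem 3 6 B) : Nat.card (Cfsg.setSystemAut B) = 887040 ∧ MulAction.IsMultiplyPretransitive (Cfsg.setSystemAut B) α 3 ∧ ∃ H : Subgroup (Cfsg.setSystemAut B), H.index = 2 ∧ Cfsg.IsM22 H := by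
  exact ⟨Cfsg.Agent.Design.card_aut22 hB hα, Cfsg.Agent.Design.three_trans22 hB hα,
    Cfsg.Agent.Design.evenAut B, Cfsg.Agent.Design.index_evenAut hB hα,
    Cfsg.Agent.Design.simple_evenAut hB hα, Cfsg.Agent.Design.card_evenAut hB hα⟩

end Cfsg.Agent.S0414
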