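import Cfsg.Statements.S0429
import Cfsg.Agent.Graphs.SRG77

set_option autoImplicit false
open Cfsg

namespace Cfsg.Agent.S0429

/-- Uniqueness of the strongly regular graph with parameters (77, 16, 0, 4). -/
theorem result {V W : Type*} [Fintype V] [Fintype W] {G : SimpleGraph V} {H : SimpleGraph W} [DecidableRel G.Adj] [DecidableRel H.Adj] (hG : G.IsSRGWith 77 16 0 4) (hH : H.IsSRGWith 77 16 0 4) : Nonempty (G ≃g H) := by
  classical
  obtain ⟨hB, hv, ⟨φ⟩⟩ := Cfsg.Agent.Graphs.reconstruct77 hG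
  obtain ⟨hB', hv', ⟨ψ⟩⟩ := Cfsg.Agent.Graphs.reconstruct77 hH
  obtain ⟨χ⟩ := Cfsg.Agent.Graphs.exists_blockGraphIso hB hv hB' hv'
  exact ⟨φ.trans (χ.trans ψ.symm)⟩

end Cfsg.Agent.S0429
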