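import Cfsg.Statements.S0430
import Cfsg.Agent.Graphs.SRG100

set_option autoImplicit false
open Cfsg

namespace Cfsg.Agent.S0430

/-- Uniqueness of the strongly regular graph with parameters (100, 22, 0, 6). -/
theorem result {V W : Type*} [Fintype V] [Fintype W] {G : SimpleGraph V} {H : SimpleGraph W} [DecidableRel G.Adj] [DecidableRel H.Adj] (hG : G.IsSRGWith 100 22 0 6) (hH : H.IsSRGWith 100 22 0 6) : Nonempty (G ≃g H) := by
  classical
  have hVne : Nonempty V := Fintype.card_pos_iff.mp (by rw [hG.card]; norm_num)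
  have hWne : Nonempty W := Fintype.card_pos_iff.mp (by rw [hH.card]; norm_num)
  obtain ⟨v⟩ := hVne
  obtain ⟨w⟩ := hWne
  obtain ⟨hB, hv, φ, -⟩ := Cfsg.Agent.Graphs.reconstruct hG v
  obtain ⟨hB', hv', ψ, -⟩ := Cfsg.Agent.Graphs.reconstruct hH w
  obtain ⟨χ, -⟩ := Cfsg.Agent.Graphs.exists_pointBlockIso hB hv hB' hv'
  exact ⟨φ.symm.trans (χ.trans ψ)⟩

end Cfsg.Agent.S0430
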