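import Cfsg.Statements.S0439

set_option autoImplicit false
open Cfsg

namespace Cfsg.Agent.S0439

/-- In the symmetric group of degree n ≥ 2, the set of transpositions is a conjugacy class of 3-transpositions which generates the group. -/
theorem result (n : ℕ) (hn : 2 ≤ n) : Cfsg.IsThreeTranspositionClass {σ : Equiv.Perm (Fin n) | σ.IsSwap} := by
  have hsw : ∀ σ : Equiv.Perm (Fin n), σ.IsSwap → orderOf σ = 2 := by
    rintro σ ⟨x, y, hxy, rfl⟩
    refine orderOf_eq_prime (by rw [pow_two, Equiv.swap_mul_self]) ?_
    intro h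
    have := Equiv.congr_fun h x
    simp at this
    exact hxy this.symm
  refine ⟨⟨fun σ hσ => hsw σ hσ, ?_⟩, ?_, Equiv.Perm.closure_isSwap⟩
  · rintro d ⟨a, b, hab, rfl⟩ e ⟨c, f, hcf, rfl⟩
    by_cases hd : Disjoint ({a, b} : Finset (Fin n)) {c, f}
    · left
      have hc : Commute (Equiv.swap a b) (Equiv.swap c f) := by
        apply Equiv.Perm.Disjoint.commute
        rw [Equiv.Perm.disjoint_iff_disjoint_support, Equiv.Perm.support_swap hab,
          Equiv.Perm.support_swap hcf]
        exact hd
      rw [hc.mul_pow, pow_two, pow_two, Equiv.swap_mul_self, Equiv.swap_mul_self, one_mul]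
    · have h3 : ∀ x y z : Fin n, x ≠ y → x ≠ z → y ≠ z →
          (Equiv.swap x y * Equiv.swap x z) ^ 3 = 1 := by
        intro x y z h1 h2 h3
        have := (Equiv.Perm.isThreeCycle_swap_mul_swap_same h1 h2 h3).orderOf
        rw [← this, pow_orderOf_eq_one]
      simp only [Finset.disjoint_insert_left, Finset.disjoint_singleton_left, Finset.mem_insert,
        Finset.mem_singleton, not_and_or, not_not] at hd
      rcases hd with (rfl | rfl) | (rfl | rfl)
      · by_cases hbf : b = f
        · left; subst hbf; simp [Equiv.swap_mul_self]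
        · right; exact h3 _ _ _ hab hcf hbf
      · by_cases hbc : b = c
        · left; subst hbc; simp [Equiv.swap_comm, Equiv.swap_mul_self]
        · right; rw [Equiv.swap_comm c a]; exact h3 _ _ _ hab hcf.symm hbc
      · by_cases haf : a = f
        · left; subst haf; simp [Equiv.swap_comm, Equiv.swap_mul_self]
        · right; rw [Equiv.swap_comm a b]; exact h3 _ _ _ hab.symm hcf haf
      · by_cases hac : a = c
        · left; subst hac; simp [Equiv.swap_mul_self]
        · right; rw [Equiv.swap_comm a b, Equiv.swap_comm c b]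
          exact h3 _ _ _ hab.symm hcf.symm hac
  · have hne : (⟨0, by omega⟩ : Fin n) ≠ ⟨1, by omega⟩ := by simp
    refine ⟨Equiv.swap _ _, ⟨_, _, hne, rfl⟩, ?_⟩
    ext τ
    show τ.IsSwap ↔ IsConj _ τ
    constructor
    · rintro ⟨x, y, hxy, rfl⟩
      exact Equiv.Perm.isConj_swap hne hxy
    · intro h
      obtain ⟨g, rfl⟩ := isConj_iff.1 h
      rw [← Equiv.swap_apply_apply]
      exact ⟨_, _, g.injective.ne hne, rfl⟩

end Cfsg.Agent.S0439
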