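import Cfsg.Statements.S0442

set_option autoImplicit false
open Cfsg

namespace Cfsg.Agent.S0442

/-- A standard trick for producing elements of an involution centraliser: for an involution a and an element g, let b be the conjugate g⁻¹ * a * g. If a * b has odd order 2m + 1 then g * (a * b) ^ m commutes with a; if a * b has even order 2m then (a * b) ^ m and (a * (g * a * g⁻¹)) ^ m commute with a. -/
theorem result {G : Type*} [Group G] (a g : G) (ha : orderOf a = 2) : (∀ m : ℕ, orderOf (a * (g⁻¹ * a * g)) = 2 * m + 1 → Commute (g * (a * (g⁻¹ * a * g)) ^ m) a) ∧ (∀ m : ℕ, orderOf (a * (g⁻¹ * a * g)) = 2 * m → Commute ((a * (g⁻¹ * a * g)) ^ m) a ∧ Commute ((a * (g * a * g⁻¹)) ^ m) a) := by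
  have ha2 : a * a = 1 := by
    have := pow_orderOf_eq_one a
    rwa [ha, pow_two] at this
  have hai : a⁻¹ = a := inv_eq_of_mul_eq_one_right ha2
  have key : ∀ h : G, ∀ m : ℕ, orderOf (a * (h⁻¹ * a * h)) = 2 * m →
      Commute ((a * (h⁻¹ * a * h)) ^ m) a := by
    intro h m hm
    set b := h⁻¹ * a * h with hb
    have hbi : b⁻¹ = b := by rw [hb]; simp [mul_inv_rev, hai, mul_assoc]
    have hc : ((a * b) ^ m)⁻¹ = (a * b) ^ m := by
      apply inv_eq_of_mul_eq_one_right
      rw [← pow_add, ← two_mul, ← hm, pow_orderOf_eq_one]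
    have h1 : a * (a * b) ^ m * a⁻¹ = ((a * b) ^ m)⁻¹ := by
      rw [← conj_pow, ← inv_pow, mul_inv_rev, hbi, hai]
      simp [← mul_assoc, ha2]
    rw [hc] at h1
    exact (mul_inv_eq_iff_eq_mul.1 h1).symm
  refine ⟨fun m hm => ?_, fun m hm => ⟨key g m hm, ?_⟩⟩
  · set b := g⁻¹ * a * g with hb
    have hbi : b⁻¹ = b := by rw [hb]; simp [mul_inv_rev, hai, mul_assoc]
    have h1 : ∀ k : ℕ, a * (a * b) ^ k = ((a * b) ^ k)⁻¹ * a := by
      intro k
      rw [← mul_inv_eq_iff_eq_mul, ← conj_pow, ← inv_pow, mul_inv_rev, hbi, hai]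
      simp [← mul_assoc, ha2]
    have h2 : (a * b) ^ m * a = b * (a * b) ^ m := by
      have h3 : (a * b) ^ m * (a * b) * (a * b) ^ m = 1 := by
        rw [← pow_succ, ← pow_add]
        have : m + 1 + m = 2 * m + 1 := by omega
        rw [this, ← hm, pow_orderOf_eq_one]
      have h4 : ((a * b) ^ m)⁻¹ = (a * b) * (a * b) ^ m :=
        inv_eq_of_mul_eq_one_right (by rw [← mul_assoc]; exact h3)
      calc (a * b) ^ m * a = a * (a * ((a * b) ^ m * a)) := by rw [← mul_assoc a a, ha2, one_mul]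
        _ = a * (a * (a * b) ^ m * a) := by rw [← mul_assoc a _ a]
        _ = a * ((a * b) * (a * b) ^ m) := by
            rw [h1, mul_assoc, ha2, mul_one, h4]
        _ = b * (a * b) ^ m := by rw [← mul_assoc, ← mul_assoc, ha2, one_mul]
    show g * (a * b) ^ m * a = a * (g * (a * b) ^ m)
    rw [mul_assoc, h2, hb]
    simp [← mul_assoc]
  · have := key g⁻¹ m ?_
    · simpa using this
    · rw [inv_inv]
      have h1 : a * (g * a * g⁻¹) = g * (g⁻¹ * a * g * a) * g⁻¹ := by simp [mul_assoc]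
      have h2 : g⁻¹ * a * g * a = (a * (g⁻¹ * a * g))⁻¹ := by simp [mul_inv_rev, hai, mul_assoc]
      rw [h1, h2]
      have := orderOf_injective (MulAut.conj g).toMonoidHom (MulAut.conj g).injective (a * (g⁻¹ * a * g))⁻¹
      simp only [MulEquiv.coe_toMonoidHom, MulAut.conj_apply] at this
      rw [this, orderOf_inv, hm]

end Cfsg.Agent.S0442
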