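import Cfsg.Statements.S0443

set_option autoImplicit false
open Cfsg

namespace Cfsg.Agent.S0443

/-- Two definitions of a 2-central involution agree: an element t of order 2 of a finite group lies in the centre of some Sylow 2-subgroup if and only if its centraliser contains some Sylow 2-subgroup. -/
theorem result {G : Type*} [Group G] [Finite G] (t : G) (ht : orderOf t = 2) : Cfsg.IsTwoCentralInvolution t ↔ ∃ P : Sylow 2 G, (P : Subgroup G) ≤ Subgroup.centralizer ({t} : Set G) := by
  classical
  haveI : Fact (Nat.Prime 2) := ⟨Nat.prime_two⟩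
  constructor
  · rintro ⟨-, P, -, hc⟩
    refine ⟨P, fun x hx => Subgroup.mem_centralizer_iff.2 fun g hg => ?_⟩
    rw [Set.mem_singleton_iff.1 hg]
    exact (hc x hx).symm
  · rintro ⟨P, hP⟩
    have hcomm : ∀ x ∈ P, x * t = t * x := fun x hx =>
      (Subgroup.mem_centralizer_iff.1 (hP hx) t rfl).symm
    refine ⟨ht, P, ?_, hcomm⟩
    have hT : IsPGroup 2 (Subgroup.zpowers t) := by
      apply IsPGroup.of_card (n := 1)
      rw [Nat.card_zpowers, ht, pow_one]
    have hn : Subgroup.zpowers t ≤ Subgroup.normalizer ((P : Subgroup G) : Set G) := by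
      rw [Subgroup.zpowers_le, Subgroup.mem_normalizer_iff]
      intro x
      have e : ∀ y ∈ P, t * y * t⁻¹ = y := fun y hy => by rw [← hcomm y hy, mul_inv_cancel_right]
      refine ⟨fun hx => ?_, fun hx => ?_⟩
      · rwa [e x hx]
      · have := e _ hx
        have h' : t * x * t⁻¹ = x := by
          have h2 : t * (t * x * t⁻¹) * t⁻¹ = t * x * t⁻¹ := this
          rw [mul_left_inj, mul_right_inj] at h2
          exact h2
        rwa [h'] at hx
    have hK : IsPGroup 2 ((P : Subgroup G) ⊔ Subgroup.zpowers t : Subgroup G) :=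
      IsPGroup.to_sup_of_normal_left' P.2 hT hn
    have := P.3 hK le_sup_left
    show t ∈ (P : Subgroup G)
    rw [← this]
    exact le_sup_right (a := (P : Subgroup G)) (Subgroup.mem_zpowers t)

end Cfsg.Agent.S0443
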