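import Cfsg.Statements.S0445
-- import your own Cfsg.Agent.* helpers here

set_option autoImplicit false
open Cfsg

namespace Cfsg.Agent.S0445

/-- In the special linear group of dimension 5 over the field with two elements, the centraliser of a transvection has order 21504 = 2 ^ 7 · 168 (it is an extension of an extraspecial group of order 2 ^ 7 by the simple group of order 168). -/
theorem result (s : Matrix.SpecialLinearGroup (Fin 5) (ZMod 2)) (hs : (s : Matrix (Fin 5) (Fin 5) (ZMod 2)) = Matrix.transvection 0 1 1) : Nat.card (Subgroup.centralizer ({s} : Set (Matrix.SpecialLinearGroup (Fin 5) (ZMod 2)))) = 21504 := by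
  classical
  let Z := ZMod 2
  have hA : Fintype.card {A : Matrix (Fin 3) (Fin 3) Z // A.det = 1} = 168 := by
    decide +kernel
  have hcent : ∀ g : Matrix.SpecialLinearGroup (Fin 5) Z,
      g ∈ Subgroup.centralizer ({s} : Set (Matrix.SpecialLinearGroup (Fin 5) Z)) ↔
        (∀ i : Fin 5, i ≠ 0 → g i 0 = 0) ∧ (∀ j : Fin 5, j ≠ 1 → g 1 j = 0) ∧ g 0 0 = g 1 1 := by
    intro g
    rw [Subgroup.mem_centralizer_singleton_iff]
    have hs' : (s : Matrix (Fin 5) (Fin 5) Z) = 1 + Matrix.single 0 1 1 := hs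
    have key : (g * s = s * g) ↔ ∀ i j : Fin 5,
        (if j = 1 then (g : Matrix (Fin 5) (Fin 5) Z) i 0 else 0)
          = (if i = 0 then (g : Matrix (Fin 5) (Fin 5) Z) 1 j else 0) := by
      have e1 : ∀ i j : Fin 5, ((g : Matrix (Fin 5) (Fin 5) Z) * Matrix.single (0 : Fin 5) (1 : Fin 5) (1 : Z)) i j
          = if j = 1 then (g : Matrix (Fin 5) (Fin 5) Z) i 0 else 0 := fun i j => by
        by_cases h : j = 1
        · subst h; simp
        · simp [h]
      have e2 : ∀ i j : Fin 5, (Matrix.single (0 : Fin 5) (1 : Fin 5) (1 : Z) *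
          (g : Matrix (Fin 5) (Fin 5) Z)) i j
          = if i = 0 then (g : Matrix (Fin 5) (Fin 5) Z) 1 j else 0 := fun i j => by
        by_cases h : i = 0
        · subst h; simp
        · simp [h]
      have e3 : (g * s = s * g) ↔
          (g : Matrix (Fin 5) (Fin 5) Z) * s = (s : Matrix (Fin 5) (Fin 5) Z) * g :=
        ⟨fun h => congrArg Subtype.val h, fun h => Subtype.ext h⟩
      rw [e3, hs', mul_add, add_mul, mul_one, one_mul, add_right_inj, ← Matrix.ext_iff]
      exact forall_congr' fun i => forall_congr' fun j => by rw [e1, e2]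
    refine (Iff.trans key ?_)
    constructor
    · intro h
      refine ⟨fun i hi => by simpa [hi] using h i 1, fun j hj => by simpa [hj] using (h 0 j).symm,
        by simpa using h 0 1⟩
    · rintro ⟨h0, h1, h01⟩ i j
      by_cases hi : i = 0 <;> by_cases hj : j = 1
      · subst hi hj; simpa using h01
      · subst hi; simp [hj, h1 j hj]
      · subst hj; simp [hi, h0 i hi]
      · simp [hi, hj]
  let M : Z × (Fin 3 → Z) × (Fin 3 → Z) × {A : Matrix (Fin 3) (Fin 3) Z // A.det = 1} →
      Matrix (Fin 5) (Fin 5) Z := fun p =>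
    !![1, p.1, p.2.1 0, p.2.1 1, p.2.1 2;
       0, 1, 0, 0, 0;
       0, p.2.2.1 0, p.2.2.2.1 0 0, p.2.2.2.1 0 1, p.2.2.2.1 0 2;
       0, p.2.2.1 1, p.2.2.2.1 1 0, p.2.2.2.1 1 1, p.2.2.2.1 1 2;
       0, p.2.2.1 2, p.2.2.2.1 2 0, p.2.2.2.1 2 1, p.2.2.2.1 2 2]
  have det5 : ∀ (a : Z) (u v : Fin 3 → Z) (A : Matrix (Fin 3) (Fin 3) Z),
      (!![1, a, u 0, u 1, u 2;
          0, 1, 0, 0, 0;
          0, v 0, A 0 0, A 0 1, A 0 2;
          0, v 1, A 1 0, A 1 1, A 1 2;
          0, v 2, A 2 0, A 2 1, A 2 2] : Matrix (Fin 5) (Fin 5) Z).det = A.det := by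
    intro a u v A
    rw [Matrix.det_succ_column_zero]
    simp [Fin.sum_univ_succ, Matrix.det_succ_row_zero, Fin.succAbove]
  have hM : ∀ p, (M p).det = 1 := fun p => (det5 _ _ _ _).trans p.2.2.2.2
  let F : Z × (Fin 3 → Z) × (Fin 3 → Z) × {A : Matrix (Fin 3) (Fin 3) Z // A.det = 1} →
      Subgroup.centralizer ({s} : Set (Matrix.SpecialLinearGroup (Fin 5) Z)) := fun p =>
    ⟨⟨M p, hM p⟩, (hcent _).2 ⟨fun i hi => by fin_cases i <;> simp [M] at hi ⊢,
      fun j hj => by fin_cases j <;> simp [M] at hj ⊢, by simp [M]⟩⟩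
  have hF : Function.Bijective F := by
    constructor
    · intro p q h
      have e : ∀ i j, M p i j = M q i j := fun i j => congrArg
        (fun t : Subgroup.centralizer ({s} : Set (Matrix.SpecialLinearGroup (Fin 5) Z)) =>
          ((t : Matrix.SpecialLinearGroup (Fin 5) Z) : Matrix (Fin 5) (Fin 5) Z) i j) h
      obtain ⟨a, u, v, A, hA'⟩ := p
      obtain ⟨b, u', v', B, hB'⟩ := q
      simp only [Prod.mk.injEq, Subtype.mk.injEq]
      refine ⟨?_, ?_, ?_, ?_⟩
      · simpa [M] using e 0 1
      · funext i; fin_cases i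
        exacts [by simpa [M] using e 0 2, by simpa [M] using e 0 3, by simpa [M] using e 0 4]
      · funext i; fin_cases i
        exacts [by simpa [M] using e 2 1, by simpa [M] using e 3 1, by simpa [M] using e 4 1]
      · ext i j; fin_cases i <;> fin_cases j
        exacts [by simpa [M] using e 2 2, by simpa [M] using e 2 3, by simpa [M] using e 2 4,
          by simpa [M] using e 3 2, by simpa [M] using e 3 3, by simpa [M] using e 3 4,
          by simpa [M] using e 4 2, by simpa [M] using e 4 3, by simpa [M] using e 4 4]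
    · rintro ⟨g, hg⟩
      obtain ⟨h0, h1, h01⟩ := (hcent g).1 hg
      have hg00 : g 0 0 = 1 := by
        have hne : g 0 0 ≠ 0 := by
          intro h
          have : (g : Matrix (Fin 5) (Fin 5) Z).det = 0 := Matrix.det_eq_zero_of_column_eq_zero 0
            (fun i => by by_cases hi : i = 0 <;> [(subst hi; exact h); exact h0 i hi])
          rw [g.2] at this
          exact one_ne_zero this
        revert hne
        generalize g 0 0 = x
        revert x
        decide
      have hg11 : g 1 1 = 1 := h01 ▸ hg00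
      let A : Matrix (Fin 3) (Fin 3) Z := Matrix.of ![![g 2 2, g 2 3, g 2 4],
        ![g 3 2, g 3 3, g 3 4], ![g 4 2, g 4 3, g 4 4]]
      have hgM : ∀ h : A.det = 1,
          M (g 0 1, ![g 0 2, g 0 3, g 0 4], ![g 2 1, g 3 1, g 4 1], ⟨A, h⟩)
            = (g : Matrix (Fin 5) (Fin 5) Z) := by
        intro h
        ext i j
        fin_cases i <;> fin_cases j <;> simp [M, A, hg00, hg11, h0, h1]
      have hd : A.det = 1 := by
        have e : (g : Matrix (Fin 5) (Fin 5) Z) = !![1, g 0 1, g 0 2, g 0 3, g 0 4;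
            0, 1, 0, 0, 0;
            0, g 2 1, A 0 0, A 0 1, A 0 2;
            0, g 3 1, A 1 0, A 1 1, A 1 2;
            0, g 4 1, A 2 0, A 2 1, A 2 2] := by
          ext i j
          fin_cases i <;> fin_cases j <;> simp [A, hg00, hg11, h0, h1]
        have := det5 (g 0 1) ![g 0 2, g 0 3, g 0 4] ![g 2 1, g 3 1, g 4 1] A
        rw [← this]
        simp only [Matrix.cons_val_zero, Matrix.cons_val_one, Matrix.cons_val]
        rw [← e, g.2]
      exact ⟨_, Subtype.ext (Subtype.ext (hgM hd))⟩
  rw [← Nat.card_congr (Equiv.ofBijective F hF), Nat.card_eq_fintype_card, Fintype.card_prod,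
    Fintype.card_prod, Fintype.card_prod, hA]
  simp [Z]

end Cfsg.Agent.S0445
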