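import Cfsg.Statements.S0446

set_option autoImplicit false
open Cfsg

namespace Cfsg.Agent.S0446

/-- Every finite group of even order contains a 2-central involution, i.e. an element of order 2 in the centre of some Sylow 2-subgroup. -/
theorem result {G : Type*} [Group G] [Finite G] (h : Even (Nat.card G)) : ∃ t : G, Cfsg.IsTwoCentralInvolution t := by
  classical
  haveI : Fact (Nat.Prime 2) := ⟨Nat.prime_two⟩
  obtain ⟨P⟩ := (inferInstance : Nonempty (Sylow 2 G))
  haveI : Nontrivial P := by
    have h2 : (2 : ℕ) ∣ Nat.card G := even_iff_two_dvd.1 h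
    have hd : 2 ∣ Nat.card (P : Subgroup G) := P.dvd_card_of_dvd_card h2
    by_contra hn
    rw [not_nontrivial_iff_subsingleton] at hn
    have : Nat.card (P : Subgroup G) = 1 := Nat.card_eq_one_iff_unique.2 ⟨hn, ⟨1⟩⟩
    omega
  haveI : Nontrivial (Subgroup.center P) := P.2.center_nontrivial
  obtain ⟨n, hn, hc⟩ := (P.2.to_subgroup (Subgroup.center P)).nontrivial_iff_card.1 inferInstance
  obtain ⟨z, hz⟩ := exists_prime_orderOf_dvd_card' (G := Subgroup.center P) 2
    (by rw [hc]; exact dvd_pow_self 2 (by omega))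
  refine ⟨((z : P) : G), ?_, P, (z : P).2, fun x hx => ?_⟩
  · rw [Subgroup.orderOf_coe, Subgroup.orderOf_coe, hz]
  · exact congrArg Subtype.val (Subgroup.mem_center_iff.1 z.2 ⟨x, hx⟩)

end Cfsg.Agent.S0446
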