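import Cfsg.Statements.S0481

set_option autoImplicit false
open Cfsg

namespace Cfsg.Agent.S0481

/-- Large extraspecial subgroups: let z be an involution of a finite group G whose centraliser C contains a normal 2-subgroup Q with centre of order 2 and all squares central, such that every element of G centralising Q lies in Q. Then C contains a Sylow 2-subgroup of G, and any involution of G whose centraliser contains a Sylow 2-subgroup of G is conjugate to z. -/
theorem result {G : Type*} [Group G] [Finite G] (z : G) (hz : orderOf z = 2) (Q : Subgroup G) (hQC : Q ≤ Subgroup.centralizer ({z} : Set G)) (hQn : ∀ g ∈ Subgroup.centralizer ({z} : Set G), ∀ q ∈ Q, g * q * g⁻¹ ∈ Q) (hQ2 : IsPGroup 2 Q) (hZ : Nat.card (Subgroup.center Q) = 2) (hsq : ∀ x : Q, x ^ 2 ∈ Subgroup.center Q) (hlarge : Subgroup.centralizer (Q : Set G) ≤ Q) : (∃ P : Sylow 2 G, (P : Subgroup G) ≤ Subgroup.centralizer ({z} : Set G)) ∧ ∀ u : G, orderOf u = 2 → (∃ P : Sylow 2 G, (P : Subgroup G) ≤ Subgroup.centralizer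 ({u} : Set G)) → IsConj z u := by
  classical
  haveI : Fact (Nat.Prime 2) := ⟨Nat.prime_two⟩
  have hzQ : z ∈ Q := hlarge (Subgroup.mem_centralizer_iff.2 fun q hq =>
    (Subgroup.mem_centralizer_iff.1 (hQC hq) z rfl).symm)
  have hz1 : z ≠ 1 := fun h => by rw [h, orderOf_one] at hz; omega
  have hzZ : (⟨z, hzQ⟩ : Q) ∈ Subgroup.center Q := Subgroup.mem_center_iff.2 fun q =>
    Subtype.ext (Subgroup.mem_centralizer_iff.1 (hQC q.2) z rfl).symm
  have hcen : ∀ y : G, (∀ q ∈ Q, q * y = y * q) → y ≠ 1 → y = z := by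
    intro y hy hy1
    have hyQ : y ∈ Q := hlarge (Subgroup.mem_centralizer_iff.2 hy)
    have hyZ : (⟨y, hyQ⟩ : Q) ∈ Subgroup.center Q :=
      Subgroup.mem_center_iff.2 fun q => Subtype.ext (hy q q.2)
    obtain ⟨w, hw, huniq⟩ := (Nat.card_eq_two_iff' (1 : Subgroup.center Q)).1 hZ
    have h1 := huniq ⟨_, hyZ⟩ (fun h => hy1 (congrArg (fun v : Subgroup.center Q => ((v : Q) : G)) h))
    have h2 := huniq ⟨_, hzZ⟩ (fun h => hz1 (congrArg (fun v : Subgroup.center Q => ((v : Q) : G)) h))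
    exact congrArg (fun v : Subgroup.center Q => ((v : Q) : G)) (h1.trans h2.symm)
  obtain ⟨T, hT⟩ := hQ2.exists_le_sylow
  -- every non-trivial element of the centre of a Sylow 2-subgroup containing `Q` is `z`
  have hTz : ∀ y : G, (∀ x ∈ T, x * y = y * x) → y ≠ 1 → y = z :=
    fun y hy => hcen y (fun q hq => hy q (hT hq))
  haveI : Nontrivial T := by
    refine ⟨⟨⟨z, hT hzQ⟩, 1, fun h => hz1 (congrArg Subtype.val h)⟩⟩
  haveI : Nontrivial (Subgroup.center T) := T.2.center_nontrivial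
  obtain ⟨w, hw⟩ := exists_ne (1 : Subgroup.center T)
  have hwz : ((w : T) : G) = z := hTz _
    (fun x hx => congrArg Subtype.val (Subgroup.mem_center_iff.1 w.2 ⟨x, hx⟩))
    (fun h => hw (Subtype.ext (Subtype.ext h)))
  have hTC : (T : Subgroup G) ≤ Subgroup.centralizer ({z} : Set G) := by
    intro x hx
    refine Subgroup.mem_centralizer_iff.2 fun g hg => ?_
    rw [Set.mem_singleton_iff.1 hg, ← hwz]
    exact (congrArg Subtype.val (Subgroup.mem_center_iff.1 w.2 ⟨x, hx⟩)).symm
  refine ⟨⟨T, hTC⟩, fun u hu ⟨P, hP⟩ => ?_⟩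
  obtain ⟨g, hg⟩ := MulAction.exists_smul_eq G P T
  refine (isConj_iff.2 ⟨g, ?_⟩).symm
  apply hTz
  · intro x hx
    rw [← hg] at hx
    obtain ⟨y, hy, rfl⟩ : ∃ y ∈ P, g * y * g⁻¹ = x := by
      have hx' : x ∈ ((g • P : Sylow 2 G) : Subgroup G) := hx
      rw [Sylow.coe_subgroup_smul] at hx'
      refine ⟨g⁻¹ * x * g, ?_, by group⟩
      show g⁻¹ * x * g ∈ (P : Subgroup G)
      simpa [Subgroup.mem_pointwise_smul_iff_inv_smul_mem] using hx'
    have hyu := Subgroup.mem_centralizer_iff.1 (hP hy) u rfl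
    rw [← MulAut.conj_apply, ← MulAut.conj_apply, ← map_mul, ← map_mul, hyu]
  · intro h
    have : u = 1 := by simpa using h
    rw [this, orderOf_one] at hu
    omega

end Cfsg.Agent.S0481
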