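import Cfsg.Statements.S0493
import Cfsg.Agent.SmallGroups.Basic

set_option autoImplicit false
set_option maxRecDepth 10000
open Cfsg

namespace Cfsg.Agent.S0493

variable {G : Type*} [Group G] [Finite G] [IsSimpleGroup G]

theorem kill (hc : ¬ IsMulCommutative G) (p a m : ℕ) (hp : p.Prime)
    (h : Nat.card G = p ^ (a + 1) * m) (hm : m ≠ 0)
    (hd : ∀ d ∈ List.range (m + 1), m % d = 0 → d % p = 1 → 1 < d →
      d.factorial % (2 * (p ^ (a + 1) * m)) ≠ 0) : False := by
  have := Fact.mk hp
  have h1 := SmallGroups.card_sylow_mem hc h hm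
  have hdv : p ∣ Nat.card G := h ▸ Dvd.intro (p ^ a * m) (by ring)
  have h2 := SmallGroups.two_mul_card_dvd_factorial_card_sylow hc hdv
  simp only [Finset.mem_filter, Nat.mem_divisors] at h1
  obtain ⟨⟨hdm, -⟩, hmod, hlt⟩ := h1
  refine hd _ (List.mem_range.2 (Nat.lt_succ_of_le (Nat.le_of_dvd (Nat.pos_of_ne_zero hm) hdm)))
    (Nat.mod_eq_zero_of_dvd hdm) hmod hlt ?_
  rw [← h]
  exact Nat.mod_eq_zero_of_dvd h2

theorem kill_min (hc : ¬ IsMulCommutative G) (p : ℕ) (hp : p.Prime)
    (hmin : (Nat.card G).minFac = p) (hn : ¬ p ^ 2 ∣ Nat.card G) : False := by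
  have := Fact.mk hp
  let P : Sylow p G := default
  have hd : p ∣ Nat.card G := hmin ▸ Nat.minFac_dvd _
  obtain ⟨m, hm⟩ := hd
  have hpm : ¬ p ∣ m := fun ⟨k, hk⟩ => hn ⟨k, by rw [hm, hk]; ring⟩
  have hP := SmallGroups.card_sylow_subgroup (a := 1) (by rw [pow_one]; exact hm) hpm P
  rw [pow_one] at hP
  exact SmallGroups.not_isCyclic_sylow_minFac hc hmin P (isCyclic_of_prime_card hP)

theorem fifty_six (hc : ¬ IsMulCommutative G) (h : Nat.card G = 56) : False := by
  classical
  have : Fact (Nat.Prime 7) := ⟨by norm_num⟩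
  have : Fact (Nat.Prime 2) := ⟨by norm_num⟩
  have h7 : Nat.card (Sylow 7 G) = 8 := by
    have := SmallGroups.card_sylow_mem hc (p := 7) (a := 0) (m := 8) (by rw [h]; norm_num) (by norm_num)
    revert this
    generalize Nat.card (Sylow 7 G) = k
    intro hk
    simp only [Finset.mem_filter, Nat.mem_divisors] at hk
    have hle := Nat.le_of_dvd (by norm_num) hk.1.1
    omega
  have hP7 : ∀ P : Sylow 7 G, Nat.card ↥(P : Subgroup G) = 7 := fun P =>
    (SmallGroups.card_sylow_subgroup (a := 1) (m := 8) (by rw [h]; norm_num) (by norm_num) P).trans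
      (pow_one 7)
  have h48 := SmallGroups.card_orderOf_eq_prime hP7
  rw [h7] at h48
  have hP2 : ∀ P : Sylow 2 G, Nat.card ↥(P : Subgroup G) = 8 := fun P =>
    SmallGroups.card_sylow_subgroup (a := 3) (m := 7) (by rw [h]; norm_num) (by norm_num) P
  have hs : Nat.card {g : G // ¬ orderOf g = 7} = 8 := by
    have e := Nat.card_congr (Equiv.sumCompl (fun g : G => orderOf g = 7))
    rw [Nat.card_sum, h48, h] at e
    omega
  have hlt : 1 < Nat.card (Sylow 2 G) := SmallGroups.one_lt_card_sylow hc (by rw [h]; norm_num)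
  have hsub : ∀ (P : Sylow 2 G) (g : G), g ∈ (P : Subgroup G) → ¬ orderOf g = 7 := by
    intro P g hg h'
    have := Subgroup.orderOf_dvd_natCard _ hg
    rw [hP2 P, h'] at this
    norm_num at this
  have hall : ∀ (P : Sylow 2 G) (g : G), ¬ orderOf g = 7 → g ∈ (P : Subgroup G) := by
    intro P g hg
    let e : ↥(P : Subgroup G) → {g : G // ¬ orderOf g = 7} := fun x => ⟨x.1, hsub P x.1 x.2⟩
    have hb : Function.Bijective e := (Nat.bijective_iff_injective_and_card e).2
      ⟨fun x y hxy => Subtype.ext (congrArg (fun z : {g : G // ¬ orderOf g = 7} => z.1) hxy), by rw [hP2 P, hs]⟩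
    obtain ⟨x, hx⟩ := hb.2 ⟨g, hg⟩
    have : x.1 = g := congrArg Subtype.val hx
    exact this ▸ x.2
  have : Subsingleton (Sylow 2 G) := ⟨fun P Q => Sylow.ext (SetLike.ext fun g =>
    ⟨fun hg => hall Q g (hsub P g hg), fun hg => hall P g (hsub Q g hg)⟩)⟩
  have := Nat.card_of_subsingleton (default : Sylow 2 G)
  omega

/-- A finite simple group of order at most 100 that is not cyclic has order 60. -/
theorem result {G : Type*} [Group G] [Finite G] [IsSimpleGroup G]
    (hG : ¬ IsCyclic G) (h : Nat.card G ≤ 100) : Nat.card G = 60 := by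
  have hc : ¬ IsMulCommutative G := fun hc =>
    hG (isCyclic_of_prime_card (hp := ⟨SmallGroups.prime_card_of_isMulCommutative hc⟩) rfl)
  by_contra hne
  have h1 : 1 < Nat.card G := Finite.one_lt_card
  generalize hn : Nat.card G = n at h h1 hne
  match n, h, h1, hne, hn with
  | 0, _, h1, _, _ => exact absurd h1 (by norm_num)
  | 1, _, h1, hne, hn =>
    exact absurd h1 (Nat.lt_irrefl 1)
  | 2, _, h1, hne, hn =>
    exact hG (isCyclic_of_prime_card (hp := ⟨by norm_num⟩) hn)
  | 3, _, h1, hne, hn =>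
    exact hG (isCyclic_of_prime_card (hp := ⟨by norm_num⟩) hn)
  | 4, _, h1, hne, hn =>
    exact kill hc 2 1 1 (by norm_num) (by rw [hn]; norm_num) (by norm_num) (by decide)
  | 5, _, h1, hne, hn =>
    exact hG (isCyclic_of_prime_card (hp := ⟨by norm_num⟩) hn)
  | 6, _, h1, hne, hn =>
    exact kill hc 3 0 2 (by norm_num) (by rw [hn]; norm_num) (by norm_num) (by decide)
  | 7, _, h1, hne, hn =>
    exact hG (isCyclic_of_prime_card (hp := ⟨by norm_num⟩) hn)
  | 8, _, h1, hne, hn =>
    exact kill hc 2 2 1 (by norm_num) (by rw [hn]; norm_num) (by norm_num) (by decide)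
  | 9, _, h1, hne, hn =>
    exact kill hc 3 1 1 (by norm_num) (by rw [hn]; norm_num) (by norm_num) (by decide)
  | 10, _, h1, hne, hn =>
    exact kill hc 5 0 2 (by norm_num) (by rw [hn]; norm_num) (by norm_num) (by decide)
  | 11, _, h1, hne, hn =>
    exact hG (isCyclic_of_prime_card (hp := ⟨by norm_num⟩) hn)
  | 12, _, h1, hne, hn =>
    exact kill hc 2 1 3 (by norm_num) (by rw [hn]; norm_num) (by norm_num) (by decide)
  | 13, _, h1, hne, hn =>
    exact hG (isCyclic_of_prime_card (hp := ⟨by norm_num⟩) hn)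
  | 14, _, h1, hne, hn =>
    exact kill hc 7 0 2 (by norm_num) (by rw [hn]; norm_num) (by norm_num) (by decide)
  | 15, _, h1, hne, hn =>
    exact kill hc 5 0 3 (by norm_num) (by rw [hn]; norm_num) (by norm_num) (by decide)
  | 16, _, h1, hne, hn =>
    exact kill hc 2 3 1 (by norm_num) (by rw [hn]; norm_num) (by norm_num) (by decide)
  | 17, _, h1, hne, hn =>
    exact hG (isCyclic_of_prime_card (hp := ⟨by norm_num⟩) hn)
  | 18, _, h1, hne, hn =>
    exact kill hc 3 1 2 (by norm_num) (by rw [hn]; norm_num) (by norm_num) (by decide)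
  | 19, _, h1, hne, hn =>
    exact hG (isCyclic_of_prime_card (hp := ⟨by norm_num⟩) hn)
  | 20, _, h1, hne, hn =>
    exact kill hc 5 0 4 (by norm_num) (by rw [hn]; norm_num) (by norm_num) (by decide)
  | 21, _, h1, hne, hn =>
    exact kill hc 7 0 3 (by norm_num) (by rw [hn]; norm_num) (by norm_num) (by decide)
  | 22, _, h1, hne, hn =>
    exact kill hc 11 0 2 (by norm_num) (by rw [hn]; norm_num) (by norm_num) (by decide)
  | 23, _, h1, hne, hn =>
    exact hG (isCyclic_of_prime_card (hp := ⟨by norm_num⟩) hn)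
  | 24, _, h1, hne, hn =>
    exact kill hc 3 0 8 (by norm_num) (by rw [hn]; norm_num) (by norm_num) (by decide)
  | 25, _, h1, hne, hn =>
    exact kill hc 5 1 1 (by norm_num) (by rw [hn]; norm_num) (by norm_num) (by decide)
  | 26, _, h1, hne, hn =>
    exact kill hc 13 0 2 (by norm_num) (by rw [hn]; norm_num) (by norm_num) (by decide)
  | 27, _, h1, hne, hn =>
    exact kill hc 3 2 1 (by norm_num) (by rw [hn]; norm_num) (by norm_num) (by decide)
  | 28, _, h1, hne, hn =>
    exact kill hc 7 0 4 (by norm_num) (by rw [hn]; norm_num) (by norm_num) (by decide)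
  | 29, _, h1, hne, hn =>
    exact hG (isCyclic_of_prime_card (hp := ⟨by norm_num⟩) hn)
  | 30, _, h1, hne, hn =>
    exact kill_min hc 2 (by norm_num) (by rw [hn]; norm_num) (by rw [hn]; norm_num)
  | 31, _, h1, hne, hn =>
    exact hG (isCyclic_of_prime_card (hp := ⟨by norm_num⟩) hn)
  | 32, _, h1, hne, hn =>
    exact kill hc 2 4 1 (by norm_num) (by rw [hn]; norm_num) (by norm_num) (by decide)
  | 33, _, h1, hne, hn =>
    exact kill hc 11 0 3 (by norm_num) (by rw [hn]; norm_num) (by norm_num) (by decide)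
  | 34, _, h1, hne, hn =>
    exact kill hc 17 0 2 (by norm_num) (by rw [hn]; norm_num) (by norm_num) (by decide)
  | 35, _, h1, hne, hn =>
    exact kill hc 7 0 5 (by norm_num) (by rw [hn]; norm_num) (by norm_num) (by decide)
  | 36, _, h1, hne, hn =>
    exact kill hc 3 1 4 (by norm_num) (by rw [hn]; norm_num) (by norm_num) (by decide)
  | 37, _, h1, hne, hn =>
    exact hG (isCyclic_of_prime_card (hp := ⟨by norm_num⟩) hn)
  | 38, _, h1, hne, hn =>
    exact kill hc 19 0 2 (by norm_num) (by rw [hn]; norm_num) (by norm_num) (by decide)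
  | 39, _, h1, hne, hn =>
    exact kill hc 13 0 3 (by norm_num) (by rw [hn]; norm_num) (by norm_num) (by decide)
  | 40, _, h1, hne, hn =>
    exact kill hc 5 0 8 (by norm_num) (by rw [hn]; norm_num) (by norm_num) (by decide)
  | 41, _, h1, hne, hn =>
    exact hG (isCyclic_of_prime_card (hp := ⟨by norm_num⟩) hn)
  | 42, _, h1, hne, hn =>
    exact kill hc 7 0 6 (by norm_num) (by rw [hn]; norm_num) (by norm_num) (by decide)
  | 43, _, h1, hne, hn =>
    exact hG (isCyclic_of_prime_card (hp := ⟨by norm_num⟩) hn)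
  | 44, _, h1, hne, hn =>
    exact kill hc 11 0 4 (by norm_num) (by rw [hn]; norm_num) (by norm_num) (by decide)
  | 45, _, h1, hne, hn =>
    exact kill hc 5 0 9 (by norm_num) (by rw [hn]; norm_num) (by norm_num) (by decide)
  | 46, _, h1, hne, hn =>
    exact kill hc 23 0 2 (by norm_num) (by rw [hn]; norm_num) (by norm_num) (by decide)
  | 47, _, h1, hne, hn =>
    exact hG (isCyclic_of_prime_card (hp := ⟨by norm_num⟩) hn)
  | 48, _, h1, hne, hn =>
    exact kill hc 2 3 3 (by norm_num) (by rw [hn]; norm_num) (by norm_num) (by decide)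
  | 49, _, h1, hne, hn =>
    exact kill hc 7 1 1 (by norm_num) (by rw [hn]; norm_num) (by norm_num) (by decide)
  | 50, _, h1, hne, hn =>
    exact kill hc 5 1 2 (by norm_num) (by rw [hn]; norm_num) (by norm_num) (by decide)
  | 51, _, h1, hne, hn =>
    exact kill hc 17 0 3 (by norm_num) (by rw [hn]; norm_num) (by norm_num) (by decide)
  | 52, _, h1, hne, hn =>
    exact kill hc 13 0 4 (by norm_num) (by rw [hn]; norm_num) (by norm_num) (by decide)
  | 53, _, h1, hne, hn =>
    exact hG (isCyclic_of_prime_card (hp := ⟨by norm_num⟩) hn)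
  | 54, _, h1, hne, hn =>
    exact kill hc 3 2 2 (by norm_num) (by rw [hn]; norm_num) (by norm_num) (by decide)
  | 55, _, h1, hne, hn =>
    exact kill hc 11 0 5 (by norm_num) (by rw [hn]; norm_num) (by norm_num) (by decide)
  | 56, _, h1, hne, hn =>
    exact fifty_six hc hn
  | 57, _, h1, hne, hn =>
    exact kill hc 19 0 3 (by norm_num) (by rw [hn]; norm_num) (by norm_num) (by decide)
  | 58, _, h1, hne, hn =>
    exact kill hc 29 0 2 (by norm_num) (by rw [hn]; norm_num) (by norm_num) (by decide)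
  | 59, _, h1, hne, hn =>
    exact hG (isCyclic_of_prime_card (hp := ⟨by norm_num⟩) hn)
  | 60, _, h1, hne, hn =>
    exact hne rfl
  | 61, _, h1, hne, hn =>
    exact hG (isCyclic_of_prime_card (hp := ⟨by norm_num⟩) hn)
  | 62, _, h1, hne, hn =>
    exact kill hc 31 0 2 (by norm_num) (by rw [hn]; norm_num) (by norm_num) (by decide)
  | 63, _, h1, hne, hn =>
    exact kill hc 7 0 9 (by norm_num) (by rw [hn]; norm_num) (by norm_num) (by decide)
  | 64, _, h1, hne, hn =>
    exact kill hc 2 5 1 (by norm_num) (by rw [hn]; norm_num) (by norm_num) (by decide)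
  | 65, _, h1, hne, hn =>
    exact kill hc 13 0 5 (by norm_num) (by rw [hn]; norm_num) (by norm_num) (by decide)
  | 66, _, h1, hne, hn =>
    exact kill hc 11 0 6 (by norm_num) (by rw [hn]; norm_num) (by norm_num) (by decide)
  | 67, _, h1, hne, hn =>
    exact hG (isCyclic_of_prime_card (hp := ⟨by norm_num⟩) hn)
  | 68, _, h1, hne, hn =>
    exact kill hc 17 0 4 (by norm_num) (by rw [hn]; norm_num) (by norm_num) (by decide)
  | 69, _, h1, hne, hn =>
    exact kill hc 23 0 3 (by norm_num) (by rw [hn]; norm_num) (by norm_num) (by decide)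
  | 70, _, h1, hne, hn =>
    exact kill hc 7 0 10 (by norm_num) (by rw [hn]; norm_num) (by norm_num) (by decide)
  | 71, _, h1, hne, hn =>
    exact hG (isCyclic_of_prime_card (hp := ⟨by norm_num⟩) hn)
  | 72, _, h1, hne, hn =>
    exact kill hc 3 1 8 (by norm_num) (by rw [hn]; norm_num) (by norm_num) (by decide)
  | 73, _, h1, hne, hn =>
    exact hG (isCyclic_of_prime_card (hp := ⟨by norm_num⟩) hn)
  | 74, _, h1, hne, hn =>
    exact kill hc 37 0 2 (by norm_num) (by rw [hn]; norm_num) (by norm_num) (by decide)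
  | 75, _, h1, hne, hn =>
    exact kill hc 5 1 3 (by norm_num) (by rw [hn]; norm_num) (by norm_num) (by decide)
  | 76, _, h1, hne, hn =>
    exact kill hc 19 0 4 (by norm_num) (by rw [hn]; norm_num) (by norm_num) (by decide)
  | 77, _, h1, hne, hn =>
    exact kill hc 11 0 7 (by norm_num) (by rw [hn]; norm_num) (by norm_num) (by decide)
  | 78, _, h1, hne, hn =>
    exact kill hc 13 0 6 (by norm_num) (by rw [hn]; norm_num) (by norm_num) (by decide)
  | 79, _, h1, hne, hn =>
    exact hG (isCyclic_of_prime_card (hp := ⟨by norm_num⟩) hn)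
  | 80, _, h1, hne, hn =>
    exact kill hc 2 3 5 (by norm_num) (by rw [hn]; norm_num) (by norm_num) (by decide)
  | 81, _, h1, hne, hn =>
    exact kill hc 3 3 1 (by norm_num) (by rw [hn]; norm_num) (by norm_num) (by decide)
  | 82, _, h1, hne, hn =>
    exact kill hc 41 0 2 (by norm_num) (by rw [hn]; norm_num) (by norm_num) (by decide)
  | 83, _, h1, hne, hn =>
    exact hG (isCyclic_of_prime_card (hp := ⟨by norm_num⟩) hn)
  | 84, _, h1, hne, hn =>
    exact kill hc 7 0 12 (by norm_num) (by rw [hn]; norm_num) (by norm_num) (by decide)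
  | 85, _, h1, hne, hn =>
    exact kill hc 17 0 5 (by norm_num) (by rw [hn]; norm_num) (by norm_num) (by decide)
  | 86, _, h1, hne, hn =>
    exact kill hc 43 0 2 (by norm_num) (by rw [hn]; norm_num) (by norm_num) (by decide)
  | 87, _, h1, hne, hn =>
    exact kill hc 29 0 3 (by norm_num) (by rw [hn]; norm_num) (by norm_num) (by decide)
  | 88, _, h1, hne, hn =>
    exact kill hc 11 0 8 (by norm_num) (by rw [hn]; norm_num) (by norm_num) (by decide)
  | 89, _, h1, hne, hn =>
    exact hG (isCyclic_of_prime_card (hp := ⟨by norm_num⟩) hn)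
  | 90, _, h1, hne, hn =>
    exact kill_min hc 2 (by norm_num) (by rw [hn]; norm_num) (by rw [hn]; norm_num)
  | 91, _, h1, hne, hn =>
    exact kill hc 13 0 7 (by norm_num) (by rw [hn]; norm_num) (by norm_num) (by decide)
  | 92, _, h1, hne, hn =>
    exact kill hc 23 0 4 (by norm_num) (by rw [hn]; norm_num) (by norm_num) (by decide)
  | 93, _, h1, hne, hn =>
    exact kill hc 31 0 3 (by norm_num) (by rw [hn]; norm_num) (by norm_num) (by decide)
  | 94, _, h1, hne, hn =>
    exact kill hc 47 0 2 (by norm_num) (by rw [hn]; norm_num) (by norm_num) (by decide)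
  | 95, _, h1, hne, hn =>
    exact kill hc 19 0 5 (by norm_num) (by rw [hn]; norm_num) (by norm_num) (by decide)
  | 96, _, h1, hne, hn =>
    exact kill hc 2 4 3 (by norm_num) (by rw [hn]; norm_num) (by norm_num) (by decide)
  | 97, _, h1, hne, hn =>
    exact hG (isCyclic_of_prime_card (hp := ⟨by norm_num⟩) hn)
  | 98, _, h1, hne, hn =>
    exact kill hc 7 1 2 (by norm_num) (by rw [hn]; norm_num) (by norm_num) (by decide)
  | 99, _, h1, hne, hn =>
    exact kill hc 11 0 9 (by norm_num) (by rw [hn]; norm_num) (by norm_num) (by decide)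
  | 100, _, h1, hne, hn =>
    exact kill hc 5 1 4 (by norm_num) (by rw [hn]; norm_num) (by norm_num) (by decide)
  | n + 101, h, _, _, _ => omega

end Cfsg.Agent.S0493
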