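import Cfsg.Statements.S0499
import Cfsg.Agent.SmallGroups.Basic
import Cfsg.Agent.S0992
import Cfsg.Agent.Transfer.Frobenius
import Mathlib.GroupTheory.Perm.Cycle.Type

set_option autoImplicit false
open Cfsg

namespace Cfsg.Agent.S0499

/-- An automorphism of prime order `q ≥ 5` of a group of order dividing 8 has order 7. -/
theorem order_seven {Q : Type*} [Group Q] [Finite Q] (hQ : Nat.card Q ∣ 8) {q : ℕ} (hq : q.Prime)
    (hq5 : 5 ≤ q) (ψ : MulAut Q) (hψ : orderOf ψ = q) : q = 7 := by
  classical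
  have := Fintype.ofFinite Q
  let toP : MulAut Q →* Equiv.Perm Q :=
    { toFun := fun e => e.toEquiv
      map_one' := rfl
      map_mul' := fun _ _ => rfl }
  have hinj : Function.Injective toP := fun a b h => MulEquiv.toEquiv_injective h
  set σ := toP ψ with hσ
  have hord : orderOf σ = q := by rw [hσ, orderOf_injective toP hinj, hψ]
  obtain ⟨m, hm⟩ := Equiv.Perm.cycleType_prime_order (hord.symm ▸ hq)
  have hsum := Equiv.Perm.sum_cycleType σ
  rw [hm, hord, Multiset.sum_replicate, smul_eq_mul] at hsum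
  have hfix : Nat.card (MonoidHom.eqLocus ψ.toMonoidHom (MonoidHom.id Q)) =
      Fintype.card Q - σ.support.card := by
    rw [Nat.card_eq_fintype_card, ← Finset.card_compl]
    refine Fintype.card_of_subtype _ fun x => ?_
    rw [Finset.mem_compl, Equiv.Perm.mem_support, not_not]
    exact Iff.rfl
  have hle : Fintype.card Q ≤ 8 := by
    rw [← Nat.card_eq_fintype_card]; exact Nat.le_of_dvd (by norm_num) hQ
  have hpos : 0 < Fintype.card Q - σ.support.card := hfix ▸ Nat.card_pos
  have hmq : q ≤ (m + 1) * q := Nat.le_mul_of_pos_left q (by omega)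
  have hq7 : q ≤ 7 := by omega
  interval_cases q
  · exfalso
    have hm0 : m = 0 := by omega
    subst hm0
    have hd : Nat.card (MonoidHom.eqLocus ψ.toMonoidHom (MonoidHom.id Q)) ∣ Fintype.card Q := by
      rw [← Nat.card_eq_fintype_card]; exact Subgroup.card_subgroup_dvd_card _
    rw [hfix] at hd
    rw [Nat.card_eq_fintype_card] at hQ
    have h8 : Fintype.card Q = 8 := by
      have : Fintype.card Q ∈ Nat.divisors 8 := Nat.mem_divisors.2 ⟨hQ, by norm_num⟩
      have h6 : 6 ≤ Fintype.card Q := by omega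
      rw [show Nat.divisors 8 = {1, 2, 4, 8} by decide] at this
      simp only [Finset.mem_insert, Finset.mem_singleton] at this
      omega
    rw [h8] at hd
    have : σ.support.card = 5 := by omega
    rw [this] at hd
    norm_num at hd
  · norm_num at hq
  · rfl

/-- A non-abelian finite simple group of even order has order divisible by 12, 16 or 56. -/
theorem result {G : Type*} [Group G] [Finite G] [IsSimpleGroup G]
    (hG : ¬ IsMulCommutative G) (h2 : Even (Nat.card G)) :
    12 ∣ Nat.card G ∨ 16 ∣ Nat.card G ∨ 56 ∣ Nat.card G := by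
  classical
  have : Fact (Nat.Prime 2) := ⟨Nat.prime_two⟩
  have h4 := SmallGroups.four_dvd_card hG h2.two_dvd
  have h12 : 3 ∣ Nat.card G → 12 ∣ Nat.card G := fun h3 =>
    Nat.Coprime.mul_dvd_of_dvd_of_dvd (by norm_num) h4 h3
  by_cases h8 : 8 ∣ Nat.card G
  swap
  · obtain ⟨T⟩ : Nonempty (Sylow 2 G) := inferInstance
    have h3 := (S0992.result hG h2 h8 T).2
    exact Or.inl (h12 (h3 ▸ (Subgroup.relIndex_dvd_card _ _).trans (Subgroup.card_subgroup_dvd_card _)))
  by_cases h16 : 16 ∣ Nat.card G
  · exact Or.inr (Or.inl h16)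
  by_cases h3 : 3 ∣ Nat.card G
  · exact Or.inl (h12 h3)
  refine Or.inr (Or.inr (Nat.Coprime.mul_dvd_of_dvd_of_dvd (show Nat.Coprime 8 7 by norm_num) h8 ?_))
  have hnot : ¬ Cfsg.HasNormalPComplement 2 G := by
    rintro ⟨P, N, hN, hc⟩
    rcases hN.eq_bot_or_eq_top with h | h
    · have hmul := hc.card_mul_card
      rw [h, Subgroup.card_bot, one_mul] at hmul
      have hPG : IsPGroup 2 G := by
        obtain ⟨k, hk⟩ := P.isPGroup'.exists_card_eq
        exact IsPGroup.of_card (n := k) (hmul ▸ hk)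
      have hc2 := SmallGroups.card_eq_prime_of_isPGroup hPG
      rw [hc2] at h4
      norm_num at h4
    · have hmul := hc.card_mul_card
      rw [h, Subgroup.card_top] at hmul
      exact P.ne_bot_of_dvd_card h2.two_dvd
        (Subgroup.card_eq_one.1 ((mul_eq_left₀ (Nat.card_pos (α := G)).ne').mp hmul))
  by_contra h7
  apply hnot
  refine Transfer.hasNormalPComplement_of_coprime_centralize fun Q hQ _ g hg hgo => ?_
  have hQ8 : Nat.card Q ∣ 8 := by
    obtain ⟨k, hk⟩ := hQ.exists_card_eq
    have hdvd := Subgroup.card_subgroup_dvd_card Q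
    rw [hk] at hdvd ⊢
    have : k ≤ 3 := by
      by_contra hlt
      exact h16 (dvd_trans (pow_dvd_pow 2 (show 4 ≤ k by omega)) hdvd)
    exact pow_dvd_pow 2 this
  set φ : MulAut Q := Q.normalizerMonoidHom ⟨g, hg⟩ with hφ
  have hdiv : orderOf φ ∣ orderOf g := by
    have := orderOf_map_dvd Q.normalizerMonoidHom (⟨g, hg⟩ : Subgroup.normalizer (Q : Set G))
    rwa [Subgroup.orderOf_mk] at this
  have hone : φ = 1 := by
    by_contra hne
    obtain ⟨q, hq, hqd⟩ := Nat.exists_prime_and_dvd (show orderOf φ ≠ 1 by rwa [Ne, orderOf_eq_one_iff])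
    have hqg : q ∣ orderOf g := hqd.trans hdiv
    have hqG : q ∣ Nat.card G := hqg.trans (orderOf_dvd_natCard g)
    have hq2 : q ≠ 2 := by
      rintro rfl
      have : 2 ∣ Nat.gcd (orderOf g) 2 := Nat.dvd_gcd hqg dvd_rfl
      rw [Nat.Coprime.gcd_eq_one hgo] at this
      norm_num at this
    have hq3 : q ≠ 3 := fun h => h3 (h ▸ hqG)
    have hq5 : 5 ≤ q := by
      have := hq.two_le
      rcases Nat.lt_or_ge q 5 with h | h
      · interval_cases q
        · exact absurd rfl hq2
        · exact absurd rfl hq3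
        · norm_num at hq
      · exact h
    have hψ : orderOf (φ ^ (orderOf φ / q)) = q :=
      orderOf_pow_orderOf_div (orderOf_pos φ).ne' hqd
    exact h7 (order_seven hQ8 hq hq5 _ hψ ▸ hqG)
  refine Subgroup.mem_centralizer_iff.2 fun q hq => ?_
  have h1 : φ ⟨q, hq⟩ = ⟨q, hq⟩ := by rw [hone, MulAut.one_apply]
  have h2 : g * q * g⁻¹ = q := congrArg Subtype.val h1
  calc q * g = g * q * g⁻¹ * g := by rw [h2]
    _ = g * q := by rw [inv_mul_cancel_right]

end Cfsg.Agent.S0499
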