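import Cfsg.Statements.S0502
import Cfsg.Agent.Classif.Elementary
import Cfsg.Agent.PGroup.Basic
import Cfsg.Agent.Fusion.Basic

set_option autoImplicit false
open Cfsg

namespace Cfsg.Agent.S0502

/-- If a finite 2-group has a normal elementary abelian subgroup of order at least 8, then any two of its Klein
four-subgroups are joined by a chain of Klein four-subgroups with consecutive members commuting elementwise. -/
theorem result {P : Type*} [Group P] [Finite P] (hP : IsPGroup 2 P)
    (E : Subgroup P) [E.Normal] (hE : IsMulCommutative E) (hE2 : ∀ e ∈ E, e ^ 2 = 1) (hE8 : 8 ≤ Nat.card E) :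
    Cfsg.IsFourConnected P := by
  classical
  haveI : Fact (Nat.Prime 2) := ⟨Nat.prime_two⟩
  have hE' : Cfsg.IsElementaryAbelian 2 E := ⟨hE, hE2⟩
  have hklein : ∀ W : Subgroup P, Cfsg.IsElementaryAbelian 2 W → Nat.card W = 4 → IsKleinFour ↥W := by
    intro W hW h4
    refine ⟨h4, ?_⟩
    have hd : Monoid.exponent ↥W ∣ 2 :=
      Monoid.exponent_dvd_of_forall_pow_eq_one (fun w => Subtype.ext (hW.2 w w.2))
    rcases (Nat.dvd_prime Nat.prime_two).mp hd with h | h
    · rw [Monoid.exp_eq_one_iff] at h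
      rw [Nat.card_of_subsingleton (1 : ↥W)] at h4
      omega
    · exact h
  have helem : ∀ W : Subgroup P, IsKleinFour ↥W → Cfsg.IsElementaryAbelian 2 W := by
    intro W hW
    have hsq : ∀ c : ↥W, c⁻¹ = c := fun c => inv_eq_of_mul_eq_one_right (by
      rw [← pow_two, ← hW.exponent_two]; exact Monoid.pow_exponent_eq_one c)
    refine ⟨isMulCommutative_iff.mpr fun a b => ?_, fun w hw => ?_⟩
    · calc a * b = (a * b)⁻¹ := (hsq _).symm
        _ = b * a := by rw [mul_inv_rev, hsq, hsq]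
    · have h := Monoid.pow_exponent_eq_one (⟨w, hw⟩ : ↥W)
      rw [hW.exponent_two] at h
      exact congrArg Subtype.val h
  obtain ⟨z, hzE, hzZ, hz1⟩ : ∃ z : P, z ∈ E ∧ z ∈ Subgroup.center P ∧ z ≠ 1 := by
    have hne : E ⊓ Subgroup.center P ≠ ⊥ := Cfsg.Agent.PGroup.inf_center_ne_bot hP E (fun h => by
      rw [h, Subgroup.card_bot] at hE8; omega)
    obtain ⟨z, hz, hz1⟩ := (Subgroup.bot_or_exists_ne_one _).resolve_left hne
    exact ⟨z, hz.1, hz.2, hz1⟩
  have hzc : ∀ x : P, x * z = z * x := fun x => Subgroup.mem_center_iff.mp hzZ x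
  have hz2 : orderOf z = 2 := orderOf_eq_prime (hE2 z hzE) hz1
  set R := fun A B : Subgroup P => IsKleinFour A ∧ IsKleinFour B ∧ ∀ a ∈ A, ∀ b ∈ B, a * b = b * a with hR
  have hstep : ∀ C D F : Subgroup P, Cfsg.IsElementaryAbelian 2 F → C ≤ F → D ≤ F →
      IsKleinFour ↥C → IsKleinFour ↥D → R C D := fun C D F hF hC hD h1 h2 =>
    ⟨h1, h2, fun a ha b hb => Cfsg.Agent.Classif.elemAb_commute hF (hC ha) (hD hb)⟩
  have hsymm : ∀ C D : Subgroup P, R C D → R D C := fun C D h =>
    ⟨h.2.1, h.1, fun a ha b hb => (h.2.2 b hb a ha).symm⟩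
  have hmain : ∀ C : Subgroup P, IsKleinFour ↥C → ∃ D : Subgroup P, D ≤ E ∧ IsKleinFour ↥D ∧
      Relation.ReflTransGen R C D ∧ Relation.ReflTransGen R D C := by
    intro C hC
    have hC' := helem C hC
    have hCz : Cfsg.IsElementaryAbelian 2 (C ⊔ Subgroup.zpowers z) :=
      Cfsg.Agent.Classif.elemAb_sup hC'
        (Cfsg.Agent.Classif.elemAb_of_le hE' (Subgroup.zpowers_le.mpr hzE))
        (fun a _ b hb => by
          obtain ⟨i, rfl⟩ := Subgroup.mem_zpowers_iff.mp hb
          exact ((show Commute a z from hzc a).zpow_right i).eq)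
    obtain ⟨C1, hzC1, hC1F, hC14, hC1⟩ := Cfsg.Agent.Classif.exists_le_card (m := 2) hCz
      (le_sup_right : Subgroup.zpowers z ≤ _)
      (le_trans (le_of_eq hC.card_four.symm) (Nat.le_of_dvd Nat.card_pos (Subgroup.card_dvd_of_le le_sup_left)))
      (by rw [Nat.card_zpowers, hz2]; norm_num)
    have hk1 := hklein C1 hC1 hC14
    have s1 := hstep C C1 _ hCz le_sup_left hC1F hC hk1
    obtain ⟨u, huC, huz⟩ : ∃ u ∈ C1, u ∉ Subgroup.zpowers z := by
      by_contra h
      push Not at h
      have hle := Nat.le_of_dvd Nat.card_pos (Subgroup.card_dvd_of_le (show C1 ≤ Subgroup.zpowers z from h))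
      rw [Nat.card_zpowers, hz2, hC14] at hle
      omega
    have hsub : ∀ d : P, d ∈ E ⊓ Subgroup.centralizer ({u} : Set P) → C1 ≤ Subgroup.centralizer ({d} : Set P) := by
      intro d hd
      have hgen : Subgroup.closure ({z, u} : Set P) = C1 := by
        have hle : Subgroup.closure ({z, u} : Set P) ≤ C1 := (Subgroup.closure_le _).mpr (by
          rintro a (rfl | rfl)
          · exact hzC1 (Subgroup.mem_zpowers _)
          · exact huC)
        have h01 : Subgroup.zpowers z < Subgroup.closure ({z, u} : Set P) :=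
          lt_of_le_of_ne (Subgroup.zpowers_le.mpr (Subgroup.subset_closure (by simp))) fun h =>
            huz (h ▸ Subgroup.subset_closure (by simp))
        refine Subgroup.eq_of_le_of_card_ge hle ?_
        have c1 := Cfsg.Agent.Fusion.card_lt_card h01
        obtain ⟨n1, e1⟩ := IsPGroup.iff_card.mp (hP.to_subgroup (Subgroup.closure ({z, u} : Set P)))
        rw [Nat.card_zpowers, hz2, e1] at c1
        rw [hC14, e1]
        have d1 : 2 ≤ n1 := Nat.succ_le_of_lt ((Nat.pow_lt_pow_iff_right (le_refl 2)).mp (by rwa [pow_one]))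
        calc 4 = 2 ^ 2 := rfl
          _ ≤ 2 ^ n1 := Nat.pow_le_pow_right (by norm_num) d1
      rw [← hgen, Subgroup.closure_le]
      rintro c (rfl | rfl)
      · exact Subgroup.mem_centralizer_singleton_iff.mpr (hzc d).symm
      · exact Subgroup.mem_centralizer_singleton_iff.mpr (Subgroup.mem_centralizer_singleton_iff.mp hd.2).symm
    have h4 : 2 ^ 2 ≤ Nat.card ↥(E ⊓ Subgroup.centralizer ({u} : Set P)) := by
      have h := Cfsg.Agent.Classif.card_le_sq_centralizer hE'
        (fun e he => (inferInstance : E.Normal).conj_mem e he u) (hC1.2 u huC)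
      obtain ⟨n, hn⟩ := IsPGroup.iff_card.mp (hP.to_subgroup (E ⊓ Subgroup.centralizer ({u} : Set P)))
      rw [hn, ← pow_mul] at h
      rw [hn]
      have h3 := (Nat.pow_le_pow_iff_right (le_refl 2)).mp ((show 2 ^ 3 ≤ Nat.card E from hE8).trans h)
      exact Nat.pow_le_pow_right (by norm_num) (by omega)
    obtain ⟨D, -, hDW, hD4, hD⟩ := Cfsg.Agent.Classif.exists_le_card (m := 2)
      (Cfsg.Agent.Classif.elemAb_of_le hE' (inf_le_left : E ⊓ Subgroup.centralizer ({u} : Set P) ≤ E))
      (bot_le : (⊥ : Subgroup P) ≤ _) h4 (by rw [Subgroup.card_bot]; norm_num)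
    have hkD := hklein D hD hD4
    have s2 : R C1 D := ⟨hk1, hkD, fun a ha b hb =>
      Subgroup.mem_centralizer_singleton_iff.mp (hsub b (hDW hb) ha)⟩
    exact ⟨D, hDW.trans inf_le_left, hkD, (Relation.ReflTransGen.single s1).tail s2,
      (Relation.ReflTransGen.single (hsymm _ _ s2)).tail (hsymm _ _ s1)⟩
  intro U V hU hV
  obtain ⟨D1, hD1E, hD1, h1, -⟩ := hmain U hU
  obtain ⟨D2, hD2E, hD2, -, h2⟩ := hmain V hV
  exact (h1.tail (hstep D1 D2 E hE' hD1E hD2E hD1 hD2)).trans h2

end Cfsg.Agent.S0502
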