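import Cfsg.Statements.S0520
import Cfsg.Agent.Invol.FourGroup
import Cfsg.Agent.Fusion.Basic

set_option autoImplicit false
open Cfsg

namespace Cfsg.Agent.S0520

open Subgroup Cfsg.Agent.Fusion

variable {G : Type*} [Group G]

/-- The edge relation of the commuting graph of four-subgroups. -/
def Adj (A B : Subgroup G) : Prop :=
  IsKleinFour A ∧ IsKleinFour B ∧ ∀ a ∈ A, ∀ b ∈ B, a * b = b * a

theorem adj_symm {A B : Subgroup G} (h : Adj A B) : Adj B A :=
  ⟨h.2.1, h.1, fun b hb a ha => (h.2.2 a ha b hb).symm⟩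

theorem conn_symm {A B : Subgroup G} (h : Relation.ReflTransGen Adj A B) :
    Relation.ReflTransGen Adj B A := by
  induction h with
  | refl => exact .refl
  | tail _ hbc ih => exact .head (adj_symm hbc) ih

theorem klein_iff {U : Subgroup G} :
    IsKleinFour U ↔ Nat.card U = 4 ∧ ∀ a ∈ U, a ^ 2 = 1 := by
  constructor
  · intro h
    refine ⟨h.card_four, fun a ha => ?_⟩
    exact congrArg Subtype.val (h.exponent_two ▸ Monoid.pow_exponent_eq_one (⟨a, ha⟩ : U))
  · rintro ⟨h4, h2⟩
    refine ⟨h4, ?_⟩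
    have hd : Monoid.exponent U ∣ 2 :=
      Monoid.exponent_dvd_of_forall_pow_eq_one fun a => Subtype.ext (h2 a.1 a.2)
    rcases (Nat.dvd_prime Nat.prime_two).1 hd with h1 | h1
    · have : Subsingleton U := Monoid.exp_eq_one_iff.1 h1
      rw [Nat.card_of_subsingleton (1 : U)] at h4
      omega
    · exact h1

theorem klein_map {K : Type*} [Group K] {f : G →* K} (hf : Function.Injective f) {U : Subgroup G}
    (hU : IsKleinFour U) : IsKleinFour (U.map f) := by
  obtain ⟨h4, h2⟩ := klein_iff.1 hU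
  refine klein_iff.2 ⟨by rw [card_map_of_injective hf, h4], ?_⟩
  rintro _ ⟨a, ha, rfl⟩
  rw [← map_pow, h2 a ha, map_one]

theorem conn_map {K : Type*} [Group K] {f : G →* K} (hf : Function.Injective f)
    {A B : Subgroup G} (h : Relation.ReflTransGen Adj A B) :
    Relation.ReflTransGen Adj (A.map f) (B.map f) := by
  refine h.lift (fun U : Subgroup G => U.map f) ?_
  rintro a b ⟨ha, hb, hc⟩
  refine ⟨klein_map hf ha, klein_map hf hb, ?_⟩
  rintro _ ⟨x, hx, rfl⟩ _ ⟨y, hy, rfl⟩
  rw [← map_mul, hc x hx y hy, map_mul]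

theorem conn_cj (g : G) {A B : Subgroup G} (h : Relation.ReflTransGen Adj A B) :
    Relation.ReflTransGen Adj (cj g A) (cj g B) :=
  conn_map (MulAut.conj g).injective h

theorem not_rank_of_klein {U Q : Subgroup G} (hU : IsKleinFour U) (hUQ : U ≤ Q) :
    ¬ PRankLE 2 1 Q := by
  intro h
  obtain ⟨h4, h2⟩ := klein_iff.1 hU
  have h1 : IsMulCommutative U := ⟨⟨fun a b => Subtype.ext (by
    have ha := h2 a.1 a.2
    have hb := h2 b.1 b.2
    have hab := h2 (a.1 * b.1) (U.mul_mem a.2 b.2)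
    rw [pow_two] at ha hb hab
    show a.1 * b.1 = b.1 * a.1
    rw [eq_inv_of_mul_eq_one_left hab, mul_inv_rev, ← eq_inv_of_mul_eq_one_left ha,
      ← eq_inv_of_mul_eq_one_left hb])⟩⟩
  have h3 : IsMulCommutative (U.subgroupOf Q) := ⟨⟨fun a b => Subtype.ext (Subtype.ext
    (congrArg (fun x : U => (x : G)) (h1.is_comm.comm (⟨a.1.1, a.2⟩ : U) ⟨b.1.1, b.2⟩)))⟩⟩
  have := h (U.subgroupOf Q) h3 fun a ha => Subtype.ext (h2 a.1 ha)
  rw [Nat.card_congr (subgroupOfEquivOfLe hUQ).toEquiv, h4] at this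
  norm_num at this

theorem exists_klein [Finite G] {Q : Subgroup G} (hQ : ¬ PRankLE 2 1 Q) :
    ∃ U : Subgroup G, U ≤ Q ∧ IsKleinFour U := by
  classical
  unfold PRankLE at hQ
  push Not at hQ
  obtain ⟨A, hAc, hA2, hA⟩ := hQ
  obtain ⟨z, hz⟩ : ∃ z : A, z ≠ 1 := by
    by_contra h
    push Not at h
    have : Subsingleton A := ⟨fun a b => (h a).trans (h b).symm⟩
    rw [Nat.card_of_subsingleton (1 : A)] at hA
    norm_num at hA
  have horder : ∀ x : A, x ≠ 1 → orderOf (x.1.1 : G) = 2 := fun x hx =>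
    orderOf_eq_prime (congrArg Subtype.val (hA2 x.1 x.2))
      fun h => hx (Subtype.ext (Subtype.ext h))
  obtain ⟨e, he1, hez⟩ : ∃ e : A, e ≠ 1 ∧ e ≠ z := by
    by_contra h
    push Not at h
    have hle : Nat.card A ≤ Nat.card ({1, z} : Set A) := by
      refine Nat.card_le_card_of_injective (fun x => ⟨x, ?_⟩) fun a b hab =>
        congrArg Subtype.val hab
      by_cases hx : x = 1
      · exact Or.inl hx
      · exact Or.inr (h x hx)
    rw [Nat.card_coe_set_eq, Set.ncard_pair (Ne.symm hz)] at hle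
    omega
  have hne : (e.1.1 : G) ≠ z.1.1 := fun h => hez (Subtype.ext (Subtype.ext h))
  have hc : Commute (z.1.1 : G) e.1.1 :=
    congrArg (fun x : A => (x.1.1 : G)) (hAc.is_comm.comm z e)
  obtain ⟨h4, h2⟩ := Invol.fourGroup_props _ _ (horder z hz) (horder e he1) hne hc
  refine ⟨_, ?_, klein_iff.2 ⟨h4, h2⟩⟩
  rintro a (rfl | rfl | rfl | rfl)
  · exact Q.one_mem
  · exact z.1.2
  · exact e.1.2
  · exact Q.mul_mem z.1.2 e.1.2

/-- Let G be a finite group of 2-rank at least 2 and S a Sylow 2-subgroup whose commuting graph of Klein four-subgroups is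
connected. Then the commuting graph of Klein four-subgroups of G is disconnected if and only if the 2-generated core — the
subgroup generated by the normalizers N_G(Q) of the subgroups Q of S that contain a Klein four-group — is a proper
subgroup of G. -/
theorem result {G : Type*} [Group G] [Finite G] (h2 : ¬ Cfsg.PRankLE 2 1 G)
    (S : Sylow 2 G) (hS : Cfsg.IsFourConnected (S : Subgroup G)) :
    ¬ Cfsg.IsFourConnected G ↔
      (⨆ Q : {Q : Subgroup G // Q ≤ (S : Subgroup G) ∧ ¬ Cfsg.PRankLE 2 1 Q},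
          Subgroup.normalizer ((Q : Subgroup G) : Set G)) ≠ ⊤ := by
  classical
  have : Fact (Nat.Prime 2) := ⟨Nat.prime_two⟩
  set M := ⨆ Q : {Q : Subgroup G // Q ≤ (S : Subgroup G) ∧ ¬ Cfsg.PRankLE 2 1 Q},
    Subgroup.normalizer ((Q : Subgroup G) : Set G) with hM
  have hNle : ∀ Q : Subgroup G, Q ≤ (S : Subgroup G) → ¬ PRankLE 2 1 Q →
      normalizer (Q : Set G) ≤ M := fun Q h1 h2 =>
    le_iSup (fun Q : {Q : Subgroup G // Q ≤ (S : Subgroup G) ∧ ¬ Cfsg.PRankLE 2 1 Q} =>
      Subgroup.normalizer ((Q : Subgroup G) : Set G)) ⟨Q, h1, h2⟩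
  have hklein_cj : ∀ (g : G) (U : Subgroup G), IsKleinFour U → IsKleinFour (cj g U) :=
    fun g U hU => klein_map (MulAut.conj g).injective hU
  -- every four-subgroup lies in a conjugate of `S`
  have hinS : ∀ U : Subgroup G, IsKleinFour U → ∃ g : G, U ≤ cj g (S : Subgroup G) := by
    intro U hU
    obtain ⟨T, hT⟩ := (IsPGroup.of_card (p := 2) (n := 2) (G := U) hU.card_four).exists_le_sylow
    obtain ⟨g, hg⟩ := exists_cj_sylow S T
    exact ⟨g, hg ▸ hT⟩
  -- four-subgroups of `S` are connected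
  have hSconn : ∀ U V : Subgroup G, U ≤ (S : Subgroup G) → V ≤ (S : Subgroup G) →
      IsKleinFour U → IsKleinFour V → Relation.ReflTransGen Adj U V := by
    intro U V hU hV hkU hkV
    have hk : ∀ W : Subgroup G, W ≤ (S : Subgroup G) → IsKleinFour W →
        IsKleinFour (W.subgroupOf (S : Subgroup G)) := by
      intro W hW hkW
      obtain ⟨a, b⟩ := klein_iff.1 hkW
      exact klein_iff.2 ⟨by rw [Nat.card_congr (subgroupOfEquivOfLe hW).toEquiv, a],
        fun x hx => Subtype.ext (b x.1 hx)⟩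
    have := conn_map (f := (S : Subgroup G).subtype) Subtype.val_injective
      (hS _ _ (hk U hU hkU) (hk V hV hkV))
    rwa [map_subgroupOf_eq_of_le hU, map_subgroupOf_eq_of_le hV] at this
  obtain ⟨V₀, hV₀⟩ : ∃ V : Subgroup G, IsKleinFour V := by
    have h : ¬ PRankLE 2 1 (⊤ : Subgroup G) := fun h => h2 fun A hA hA2 => by
      have : IsMulCommutative (A.subgroupOf ⊤) := ⟨⟨fun a b => Subtype.ext (Subtype.ext
        (congrArg (fun x : A => (x : G)) (hA.is_comm.comm (⟨a.1.1, a.2⟩ : A) ⟨b.1.1, b.2⟩)))⟩⟩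
      have := h (A.subgroupOf ⊤) this fun a ha => Subtype.ext (hA2 a.1 ha)
      rwa [Nat.card_congr (subgroupOfEquivOfLe le_top).toEquiv] at this
    obtain ⟨U, -, hU⟩ := exists_klein h
    exact ⟨U, hU⟩
  obtain ⟨g₀, hg₀⟩ := hinS V₀ hV₀
  obtain ⟨U₀, hU₀S, hkU₀⟩ : ∃ U : Subgroup G, U ≤ (S : Subgroup G) ∧ IsKleinFour U :=
    ⟨cj g₀⁻¹ V₀, le_cj_iff.1 hg₀, hklein_cj _ _ hV₀⟩
  rw [not_iff_comm, not_not]
  constructor
  · -- `M = ⊤` implies connected
    intro htop
    let H : Subgroup G :=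
      { carrier := {g | Relation.ReflTransGen Adj U₀ (cj g U₀)}
        one_mem' := by
          show Relation.ReflTransGen Adj U₀ (cj 1 U₀)
          rw [cj_one]
        mul_mem' := fun {a b} ha hb => by
          show Relation.ReflTransGen Adj U₀ (cj (a * b) U₀)
          have := conn_cj a hb
          rw [cj_cj] at this
          exact ha.trans this
        inv_mem' := fun {a} ha => by
          show Relation.ReflTransGen Adj U₀ (cj a⁻¹ U₀)
          have := conn_cj a⁻¹ ha
          rw [cj_inv_cj] at this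
          exact conn_symm this }
    have hMH : M ≤ H := iSup_le fun Q => by
      obtain ⟨U, hUQ, hU⟩ := exists_klein Q.2.2
      intro g hg
      have hgU : cj g U ≤ (S : Subgroup G) := ((cj_mono g hUQ).trans (cj_eq_of_mem hg).le).trans Q.2.1
      show Relation.ReflTransGen Adj U₀ (cj g U₀)
      exact (hSconn _ _ hU₀S hgU hkU₀ (hklein_cj g U hU)).trans
        (conn_cj g (hSconn _ _ (hUQ.trans Q.2.1) hU₀S hU hkU₀))
    have key : ∀ V : Subgroup G, IsKleinFour V → Relation.ReflTransGen Adj U₀ V := by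
      intro V hV
      obtain ⟨g, hg⟩ := hinS V hV
      have hg' : g ∈ H := hMH (htop ▸ mem_top g)
      have hV' := le_cj_iff.1 hg
      have := conn_cj g (hSconn _ _ hU₀S hV' hkU₀ (hklein_cj _ _ hV))
      rw [cj_cj_inv] at this
      exact (show Relation.ReflTransGen Adj U₀ (cj g U₀) from hg').trans this
    intro U V hU hV
    exact (conn_symm (key U hU)).trans (key V hV)
  · -- connected implies `M = ⊤`
    intro hG
    have hSM : (S : Subgroup G) ≤ M :=
      le_normalizer.trans (hNle _ le_rfl (not_rank_of_klein hkU₀ hU₀S))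
    have hNS : normalizer ((S : Subgroup G) : Set G) ≤ M :=
      hNle _ le_rfl (not_rank_of_klein hkU₀ hU₀S)
    have hMsyl : ∀ R : Subgroup G, R ≤ M → IsPGroup 2 R → ∃ m ∈ M, cj m R ≤ (S : Subgroup G) := by
      intro R hR hRp
      obtain ⟨T, hT⟩ := (hRp.of_equiv (subgroupOfEquivOfLe hR).symm).exists_le_sylow
      obtain ⟨m, hm⟩ := MulAction.exists_smul_eq M T (S.subtype hSM)
      refine ⟨m, m.2, fun x hx => ?_⟩
      obtain ⟨y, hy, rfl⟩ := hx
      have h1 : MulAut.conj m ⟨y, hR hy⟩ ∈ ((m • T : Sylow 2 M) : Subgroup M) :=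
        ⟨⟨y, hR hy⟩, hT (mem_subgroupOf.2 hy), rfl⟩
      rw [hm, Sylow.coe_subtype, mem_subgroupOf] at h1
      exact h1
    have step : ∀ V : Subgroup G, Relation.ReflTransGen Adj U₀ V →
        ∃ m ∈ M, cj m V ≤ (S : Subgroup G) := by
      intro V hV
      induction hV with
      | refl => exact ⟨1, M.one_mem, by rw [cj_one]; exact hU₀S⟩
      | @tail A B _ hAB ih =>
        obtain ⟨m, hm, hmA⟩ := ih
        have hN := hNle _ hmA (not_rank_of_klein (hklein_cj m A hAB.1) le_rfl)
        refine hMsyl B (fun b hb => ?_) (IsPGroup.of_card (n := 2) hAB.2.1.card_four)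
        have hb' : b ∈ normalizer (A : Set G) := by
          refine mem_normalizer_iff.2 fun a => ⟨fun ha => ?_, fun ha => ?_⟩
          · rw [← hAB.2.2 a ha b hb, mul_inv_cancel_right]; exact ha
          · have := hAB.2.2 _ ha b hb
            rw [inv_mul_cancel_right] at this
            have e : a = b * a * b⁻¹ := mul_left_cancel this
            rw [e]; exact ha
        have : m * b * m⁻¹ ∈ M := hN (by rw [← cj_normalizer]; exact conj_mem_cj.2 hb')
        simpa [mul_assoc] using M.mul_mem (M.mul_mem (M.inv_mem hm) this) hm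
    refine eq_top_iff.2 fun g _ => ?_
    set T : Subgroup G := cj g (S : Subgroup G) with hT
    have hTp : IsPGroup 2 T := isPGroup_cj S.2 g
    set W : Subgroup G := cj g U₀ with hW
    have hkW : IsKleinFour W := hklein_cj g U₀ hkU₀
    obtain ⟨w, hw, hwS⟩ := step W (hG U₀ W hkU₀ hkW)
    have hWM : W ≤ M := fun x hx => by
      have := hSM (hwS (conj_mem_cj.2 hx))
      simpa [mul_assoc] using M.mul_mem (M.mul_mem (M.inv_mem hw) this) hw
    have hWT : W ≤ T := cj_mono g hU₀S
    have hTM : T ≤ M := by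
      by_contra hn
      have hlt : T ⊓ M < T := inf_le_left.lt_of_ne fun h => hn (inf_eq_left.1 h)
      have hgrow := lt_normalizer_inf hTp hlt
      obtain ⟨m, hm, hmR⟩ := hMsyl (T ⊓ M) inf_le_right (hTp.to_le inf_le_left)
      have hN := hNle _ hmR (not_rank_of_klein (hklein_cj m W hkW) (cj_mono m (le_inf hWT hWM)))
      refine hgrow.not_ge (le_inf inf_le_left fun x hx => ?_)
      have : m * x * m⁻¹ ∈ M := hN (by rw [← cj_normalizer]; exact conj_mem_cj.2 hx.2)
      simpa [mul_assoc] using M.mul_mem (M.mul_mem (M.inv_mem hm) this) hm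
    obtain ⟨m, hm, hmT⟩ := hMsyl T hTM hTp
    have hmg : m * g ∈ normalizer ((S : Subgroup G) : Set G) := by
      rw [← cj_eq_iff_mem_normalizer]
      rw [hT, cj_cj] at hmT
      exact eq_of_le_of_card_ge hmT (by rw [card_cj])
    have := M.mul_mem (M.inv_mem hm) (hNS hmg)
    rwa [inv_mul_cancel_left] at this

end Cfsg.Agent.S0520
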