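import Cfsg.Statements.S0521
import Cfsg.Agent.S1457
import Cfsg.Agent.OddPre.QuadraticGroup
import Cfsg.Agent.PSolv.HallHigman
import Cfsg.Agent.PGroup.Frattini
import Cfsg.Agent.PGroup.Basic

set_option autoImplicit false
open Cfsg

namespace Cfsg.Agent.S0521

open Subgroup
open scoped commutatorElement

theorem reduced {Y : Type*} [Group Y] [Finite Y] [Group.IsSolvable Y] (hY : Odd (Nat.card Y)) (p : ℕ)
    [Fact p.Prime] (hO : Cfsg.pPrimeCore p Y = ⊥) (S : Sylow p Y)
    (hS : IsCyclic (commutator (S : Subgroup Y))) : (S : Subgroup Y) = Cfsg.pCore p Y := by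
  classical
  have hp : p.Prime := Fact.out
  set P := Cfsg.pCore p Y with hPdef
  haveI hPn : P.Normal := Cfsg.pCore_normal p Y
  have hPp : IsPGroup p P := Cores.pCore_isPGroup
  have hPS : P ≤ (S : Subgroup Y) := by
    have := Cores.pCore_eq_iInf_sylow (p := p) (G := Y)
    rw [hPdef, this]
    exact iInf_le _ S
  refine le_antisymm ?_ hPS
  by_cases hp2 : p = 2
  · subst hp2
    have : Nat.card (S : Subgroup Y) = 1 := by
      obtain ⟨n, hn⟩ := S.isPGroup'.exists_card_eq
      rcases n with _ | n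
      · simpa using hn
      · exfalso
        have h2 : 2 ∣ Nat.card Y :=
          ((dvd_pow_self 2 n.succ_ne_zero).trans hn.symm.dvd).trans (card_subgroup_dvd_card _)
        exact Nat.not_even_iff_odd.2 hY (even_iff_two_dvd.2 h2)
    rw [card_eq_one.1 this]
    exact bot_le
  set C : Subgroup Y := (commutator (S : Subgroup Y)).map (S : Subgroup Y).subtype with hCdef
  have hCS : C ≤ (S : Subgroup Y) := map_subtype_le _
  have hCn : (S : Subgroup Y) ≤ normalizer (C : Set Y) := by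
    rw [le_normalizer_iff]
    rintro s hs _ ⟨c, hc, rfl⟩
    exact ⟨⟨s, hs⟩ * c * ⟨s, hs⟩⁻¹, (inferInstance : (commutator (S : Subgroup Y)).Normal).conj_mem c hc _, rfl⟩
  have hCc : IsMulCommutative C := by
    refine ⟨⟨?_⟩⟩
    rintro ⟨_, a, ha, rfl⟩ ⟨_, b, hb, rfl⟩
    have hab := congrArg (fun z : commutator (S : Subgroup Y) => ((z : (S : Subgroup Y)) : Y))
      ((hS.isMulCommutative).is_comm.comm ⟨a, ha⟩ ⟨b, hb⟩)
    exact Subtype.ext hab
  have hCP : C ≤ P := by
    have := S1457.result hY p S C hCS hCc hCn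
    rwa [PSolv.pPrimePCore_eq_pCore hO] at this
  set Φ : Subgroup Y := (frattini P).map P.subtype with hΦdef
  haveI hΦn : Φ.Normal := inferInstance
  have hΦP : Φ ≤ P := map_subtype_le _
  have hΦp : IsPGroup p Φ := hPp.to_le hΦP
  -- commutators of the derived subgroup with the Sylow subgroup are in the Frattini subgroup
  have hkey : ∀ c ∈ C, ∀ x ∈ (S : Subgroup Y), ⁅c, x⁆ ∈ Φ := by
    rintro _ ⟨c, hc, rfl⟩ x hx
    by_cases hN : commutator (S : Subgroup Y) = ⊥
    · rw [hN] at hc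
      have hc1 : c = 1 := hc
      subst hc1
      simp [one_mem]
    have hlt := PGroup.commutator_top_lt S.isPGroup' hN
    obtain ⟨g, hg⟩ := hS.exists_generator
    set d : (S : Subgroup Y) := ⁅c, (⟨x, hx⟩ : (S : Subgroup Y))⁆ with hd
    have hdm : d ∈ ⁅commutator (S : Subgroup Y), (⊤ : Subgroup (S : Subgroup Y))⁆ :=
      commutator_mem_commutator hc (mem_top _)
    obtain ⟨i, hi⟩ := mem_zpowers_iff.1 (hg ⟨d, hlt.le hdm⟩)
    have hpi : (p : ℤ) ∣ i := by
      by_contra hni
      obtain ⟨k, hk⟩ := IsPGroup.iff_orderOf.1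
        S.isPGroup' (g : (S : Subgroup Y))
      obtain ⟨u, v, huv⟩ : IsCoprime i ((p : ℤ) ^ k) :=
        (((Nat.prime_iff_prime_int.1 hp).coprime_iff_not_dvd.2 hni).pow_left).symm
      apply hlt.not_ge
      intro z hz
      obtain ⟨j, hj⟩ := mem_zpowers_iff.1 (hg ⟨z, hz⟩)
      have hj' : (g : (S : Subgroup Y)) ^ j = z := congrArg Subtype.val hj
      have hi' : (g : (S : Subgroup Y)) ^ i = d := congrArg Subtype.val hi
      have hgk : (g : (S : Subgroup Y)) ^ ((p : ℤ) ^ k) = 1 := by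
        rw [← Nat.cast_pow, zpow_natCast, ← hk, pow_orderOf_eq_one]
      have hgd : (g : (S : Subgroup Y)) = d ^ u := by
        rw [← hi', ← zpow_mul]
        calc (g : (S : Subgroup Y)) = g.1 ^ (u * i + v * (p : ℤ) ^ k) := by rw [huv, zpow_one]
          _ = g.1 ^ (i * u) := by
            rw [zpow_add, mul_comm v, zpow_mul g.1 ((p : ℤ) ^ k), hgk, one_zpow, mul_one, mul_comm]
      rw [← hj', hgd]
      exact zpow_mem (zpow_mem hdm u) j
    obtain ⟨m, rfl⟩ := hpi
    have hgC : ((g : (S : Subgroup Y)) : Y) ^ m ∈ C :=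
      zpow_mem (show ((g : (S : Subgroup Y)) : Y) ∈ C from ⟨g.1, g.2, rfl⟩) m
    have hd' : ((d : (S : Subgroup Y)) : Y) = (((g : (S : Subgroup Y)) : Y) ^ m) ^ p := by
      have h := congrArg (fun z : commutator (S : Subgroup Y) => ((z : (S : Subgroup Y)) : Y)) hi
      simp only [SubgroupClass.coe_zpow] at h
      rw [← h, ← zpow_natCast, ← zpow_mul, mul_comm]
    have hde : ⁅((c : (S : Subgroup Y)) : Y), x⁆ = ((d : (S : Subgroup Y)) : Y) := by
      rw [hd]; rfl
    show ⁅((c : (S : Subgroup Y)) : Y), x⁆ ∈ Φ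
    rw [hde, hd']
    exact ⟨⟨_, hCP hgC⟩ ^ p, PGroup.pow_mem_frattini hPp _, rfl⟩
  -- the quotient by the Frattini subgroup
  set π := QuotientGroup.mk' Φ with hπ
  haveI hPqn : (P.map π).Normal := hPn.map π (QuotientGroup.mk'_surjective Φ)
  set K := centralizer ((P.map π : Subgroup (Y ⧸ Φ)) : Set (Y ⧸ Φ)) with hKdef
  haveI hKn : K.Normal := inferInstance
  set N₀ := K.comap π with hN₀def
  haveI hN₀n : N₀.Normal := hKn.comap π
  have hN₀ : IsPGroup p N₀ := by
    intro y
    obtain ⟨k, m, hpm, hord⟩ : ∃ k m : ℕ, ¬ p ∣ m ∧ orderOf y = p ^ k * m := by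
      obtain ⟨k, m, h1, h2⟩ := Nat.exists_eq_pow_mul_and_not_dvd (orderOf_pos y).ne' p hp.ne_one
      exact ⟨k, m, h1, h2⟩
    refine ⟨k, ?_⟩
    have hym : (orderOf ((y : Y) ^ p ^ k)).Coprime p := by
      rw [orderOf_pow' _ (pow_ne_zero k hp.ne_zero), ← Subgroup.orderOf_coe] at *
      rw [hord, Nat.gcd_eq_right (dvd_mul_right _ _), Nat.mul_div_cancel_left _ (pow_pos hp.pos k)]
      exact (hp.coprime_iff_not_dvd.2 hpm).symm
    have hmem : (y : Y) ^ p ^ k ∈ N₀ := pow_mem y.2 _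
    have hcomm : ∀ u ∈ P, Commute ((y : Y) ^ p ^ k) u :=
      PGroup.commute_of_coprime_of_frattini hPp hym
        ((normalizer_eq_top_iff.2 hPn).symm ▸ mem_top _) fun u hu => by
        have h : π u * π ((y : Y) ^ p ^ k) = π ((y : Y) ^ p ^ k) * π u :=
          mem_centralizer_iff.1 (mem_comap.1 hmem) (π u) ⟨u, hu, rfl⟩
        refine (QuotientGroup.eq_one_iff (N := Φ) _).1 ?_
        show π (u⁻¹ * ((y : Y) ^ p ^ k * u * ((y : Y) ^ p ^ k)⁻¹)) = 1
        rw [map_mul, map_mul, map_mul, map_inv, map_inv, ← h, mul_inv_cancel_right, inv_mul_cancel]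
    have hcP : (y : Y) ^ p ^ k ∈ P := by
      refine PSolv.centralizer_pCore_le (PSolv.isPSolvable_of_isSolvable inferInstance) hO ?_
      exact mem_centralizer_iff.2 fun u hu => (hcomm u hu).eq.symm
    obtain ⟨j, hj⟩ := hPp ⟨_, hcP⟩
    have h1 : orderOf ((y : Y) ^ p ^ k) ∣ p ^ j :=
      orderOf_dvd_of_pow_eq_one (congrArg Subtype.val hj)
    exact Subtype.ext (orderOf_eq_one_iff.1 (Nat.eq_one_of_dvd_coprimes (hym.pow_right j) dvd_rfl h1))
  intro x hx
  have hq : QuotientGroup.mk' K (π x) ∈ Cfsg.pCore p ((Y ⧸ Φ) ⧸ K) := by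
    refine OddPre.Quad.quad_map_mem_pCore hp2 ?_ (P.map π) (hPp.map π) K rfl (π x) ?_
    · rw [← Nat.not_even_iff_odd, even_iff_two_dvd] at hY ⊢
      exact fun h => hY (h.trans (card_quotient_dvd_card Φ))
    · rintro _ ⟨u, hu, rfl⟩
      rw [← map_commutatorElement, ← map_commutatorElement]
      have h1 : ⁅u, x⁆ ∈ C := ⟨⁅(⟨u, hPS hu⟩ : (S : Subgroup Y)), ⟨x, hx⟩⁆,
        commutator_mem_commutator (mem_top _) (mem_top _), rfl⟩
      exact (QuotientGroup.eq_one_iff _).2 (hkey _ h1 x hx)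
  set f := (QuotientGroup.mk' K).comp π with hf
  set N₁ := (Cfsg.pCore p ((Y ⧸ Φ) ⧸ K)).comap f with hN₁def
  haveI : N₁.Normal := (Cfsg.pCore_normal p _).comap f
  have hN₁ : IsPGroup p N₁ := by
    refine IsPGroup.comap_of_ker_isPGroup Cores.pCore_isPGroup f ?_
    rw [hf, ← MonoidHom.comap_ker, QuotientGroup.ker_mk']
    exact hN₀
  exact Cores.le_pCore inferInstance hN₁ hq

/-- A finite solvable group of odd order whose Sylow p-subgroup has cyclic derived group has p-length at most one. -/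
theorem result {X : Type*} [Group X] [Finite X] [Group.IsSolvable X]
    (hX : Odd (Nat.card X)) (p : ℕ) [Fact p.Prime] (S : Sylow p X) (hS : IsCyclic (commutator (S : Subgroup X))) :
    (Cfsg.pPrimeCore p X ⊔ (S : Subgroup X)).Normal := by
  set N := Cfsg.pPrimeCore p X
  set q := QuotientGroup.mk' N
  set T : Sylow p (X ⧸ N) := S.mapSurjective (QuotientGroup.mk'_surjective N) with hT
  have hTeq : (T : Subgroup (X ⧸ N)) = (S : Subgroup X).map q := rfl
  have hTc : IsCyclic (commutator (T : Subgroup (X ⧸ N))) := by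
    let f : (S : Subgroup X) →* (T : Subgroup (X ⧸ N)) :=
      (q.comp (S : Subgroup X).subtype).codRestrict _ fun s => ⟨s, s.2, rfl⟩
    have hf : Function.Surjective f := by
      rintro ⟨_, s, hs, rfl⟩
      exact ⟨⟨s, hs⟩, rfl⟩
    have e : (commutator (S : Subgroup X)).map f = commutator (T : Subgroup (X ⧸ N)) := by
      rw [commutator_def, commutator_def, map_commutator, map_top_of_surjective f hf]
    rw [← e]
    exact isCyclic_of_surjective _ (f.subgroupMap_surjective _)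
  have hodd : Odd (Nat.card (X ⧸ N)) := by
    rw [← Nat.not_even_iff_odd, even_iff_two_dvd] at hX ⊢
    exact fun h => hX (h.trans (card_quotient_dvd_card N))
  have h := reduced hodd p (PSolv.pPrimeCore_quotient_eq_bot p X) T hTc
  have e : N ⊔ (S : Subgroup X) = (Cfsg.pCore p (X ⧸ N)).comap q := by
    rw [← h, hTeq, comap_map_eq, QuotientGroup.ker_mk', sup_comm]
  rw [e]
  exact (Cfsg.pCore_normal p _).comap q

end Cfsg.Agent.S0521
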