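import Cfsg.Statements.S0522
import Cfsg.Agent.Classif.OddSCN
import Cfsg.Agent.Fusion.Basic

set_option autoImplicit false
open Cfsg

namespace Cfsg.Agent.S0522

open Subgroup
open scoped Pointwise
open Cfsg.Agent.Fusion (cj cj_normalizer cj_inf card_cj cj_cj cj_one cj_mono cj_eq_of_mem cj_inv_cj)

variable {X : Type*} [Group X]

/-- `Q` is maximal among the `q`-subgroups normalised by `B`. -/
def IsMaxInv (q : ℕ) (B Q : Subgroup X) : Prop :=
  IsPGroup q Q ∧ B ≤ normalizer (Q : Set X) ∧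
    ∀ R : Subgroup X, IsPGroup q R → B ≤ normalizer (R : Set X) → Q ≤ R → R = Q

theorem mem_centralizer_normalizer {B : Subgroup X} {c : X}
    (hc : c ∈ centralizer (B : Set X)) {Q : Subgroup X} (h : B ≤ normalizer (Q : Set X)) :
    B ≤ normalizer ((cj c Q : Subgroup X) : Set X) := by
  intro b hb
  rw [← cj_normalizer, Fusion.mem_cj]
  have h1 : b * c = c * b := mem_centralizer_iff.1 hc b hb
  rw [mul_assoc, h1, inv_mul_cancel_left]
  exact h hb

theorem IsMaxInv.cj {q : ℕ} {B Q : Subgroup X} (h : IsMaxInv q B Q) {c : X}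
    (hc : c ∈ centralizer (B : Set X)) : IsMaxInv q B (Fusion.cj c Q) := by
  refine ⟨Fusion.isPGroup_cj h.1 c, mem_centralizer_normalizer hc h.2.1, fun R hR hRB hle => ?_⟩
  have hc' := (centralizer (B : Set X)).inv_mem hc
  have h1 := h.2.2 (Fusion.cj c⁻¹ R) (Fusion.isPGroup_cj hR _) (mem_centralizer_normalizer hc' hRB)
    (by rw [← cj_inv_cj c Q]; exact cj_mono _ hle)
  rw [← h1, Fusion.cj_cj_inv]

theorem lt_card_of_le_not_le [Finite X] {D V W : Subgroup X} (hD : D ≤ W) (hV : V ≤ W)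
    (h : ¬ V ≤ D) : Nat.card D < Nat.card W :=
  Fusion.card_lt_card (lt_of_le_of_ne hD fun e => h (e ▸ hV))

theorem result {X : Type*} [Group X] [Finite X] (hX : Odd (Nat.card X)) (p : ℕ)
    [Fact p.Prime] (hloc : ∀ T : Subgroup X, IsPGroup p T → T ≠ ⊥ → Group.IsSolvable (Subgroup.normalizer (T : Set X)))
    (P : Sylow p X) (B : Subgroup X) (hBP : B ≤ (P : Subgroup X))
    (hBn : ∀ x ∈ (P : Subgroup X), ∀ b ∈ B, x * b * x⁻¹ ∈ B) (hBa : IsMulCommutative B)
    (hBc : (P : Subgroup X) ⊓ Subgroup.centralizer (B : Set X) = B)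
    (hB3 : ∃ E : Subgroup X, E ≤ B ∧ (∀ e ∈ E, e ^ p = 1) ∧ p ^ 3 ≤ Nat.card E)
    (q : ℕ) [Fact q.Prime] (hqp : q ≠ p) (Q₁ Q₂ : Subgroup X)
    (h₁ : IsPGroup q Q₁ ∧ B ≤ Subgroup.normalizer (Q₁ : Set X) ∧
      ∀ R : Subgroup X, IsPGroup q R → B ≤ Subgroup.normalizer (R : Set X) → Q₁ ≤ R → R = Q₁)
    (h₂ : IsPGroup q Q₂ ∧ B ≤ Subgroup.normalizer (Q₂ : Set X) ∧
      ∀ R : Subgroup X, IsPGroup q R → B ≤ Subgroup.normalizer (R : Set X) → Q₂ ≤ R → R = Q₂) :
    ∃ c ∈ Subgroup.centralizer (B : Set X), Q₂ = Q₁.map (MulAut.conj c).toMonoidHom := by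
  classical
  obtain ⟨E, hEB, hEe, hE3⟩ := hB3
  have hp : p.Prime := Fact.out
  have hq : q.Prime := Fact.out
  have hBp : IsPGroup p B := P.2.to_le hBP
  have hEp : IsPGroup p E := hBp.to_le hEB
  have hEc : IsMulCommutative E := OddLocal.isMulComm_of_le hBa hEB
  have hscn : Cfsg.IsSCN (P : Subgroup X) B := by
    refine ⟨hBP, ?_, hBc⟩
    rw [le_normalizer_iff]
    exact hBn
  have hr : ¬ Cfsg.PRankLE p 1 B := by
    intro h
    have h1 := h (E.subgroupOf B) (OddLocal.isMulComm_subgroupOf hEc B)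
      (fun a ha => Subtype.ext (by simpa using hEe a.1 ha))
    rw [Nat.card_congr (subgroupOfEquivOfLe hEB).toEquiv] at h1
    exact absurd (hE3.trans h1) (not_le.2 (Nat.pow_lt_pow_right hp.one_lt (by norm_num)))
  have hsolv : ∀ e : X, e ≠ 1 → IsPGroup p (zpowers e) →
      Group.IsSolvable (centralizer ({e} : Set X)) := by
    intro e he hep
    have hle : centralizer ({e} : Set X) ≤ normalizer (zpowers e : Set X) := by
      refine le_trans ?_ (centralizer_le_normalizer _)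
      rw [zpowers_eq_closure, centralizer_closure]
    have := hloc (zpowers e) hep (fun h => he (zpowers_eq_bot.1 h))
    exact Group.isSolvable_of_isSolvable_injective (f := inclusion hle) (inclusion_injective hle)
  have hcop : ∀ {Y : Subgroup X}, IsPGroup q Y → (Nat.card Y).Coprime p := by
    intro Y hY
    obtain ⟨n, hn⟩ := hY.exists_card_eq
    rw [hn]
    exact Nat.Coprime.pow_left n ((Nat.coprime_primes hq hp).2 hqp)
  suffices key : ∀ (n : ℕ) (R₁ R₂ : Subgroup X), Nat.card X - Nat.card ↥(R₁ ⊓ R₂) = n →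
      IsMaxInv q B R₁ → IsMaxInv q B R₂ → ∃ c ∈ centralizer (B : Set X), R₂ = cj c R₁ from
    key _ Q₁ Q₂ rfl h₁ h₂
  intro n
  induction n using Nat.strong_induction_on with
  | _ n ih =>
  intro R₁ R₂ hn hR₁ hR₂
  set D := R₁ ⊓ R₂ with hD
  have hDlt : Nat.card D ≤ Nat.card X := Nat.le_of_dvd Nat.card_pos D.card_subgroup_dvd_card
  by_cases heq : R₁ = R₂
  · exact ⟨1, one_mem _, by rw [cj_one, heq]⟩
  have hlt₁ : D < R₁ := inf_le_left.lt_of_ne fun h =>
    heq (hR₁.2.2 R₂ hR₂.1 hR₂.2.1 (inf_eq_left.1 h)).symm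
  have hlt₂ : D < R₂ := inf_le_right.lt_of_ne fun h =>
    heq (hR₂.2.2 R₁ hR₁.1 hR₁.2.1 (inf_eq_right.1 h))
  have hBD : B ≤ normalizer (D : Set X) := Signalizer.le_normalizer_inf hR₁.2.1 hR₂.2.1
  set N₁ := R₁ ⊓ normalizer (D : Set X) with hN₁
  set N₂ := R₂ ⊓ normalizer (D : Set X) with hN₂
  have hN₁D : ¬ N₁ ≤ D := (Fusion.lt_normalizer_inf hR₁.1 hlt₁).not_ge
  have hN₂D : ¬ N₂ ≤ D := (Fusion.lt_normalizer_inf hR₂.1 hlt₂).not_ge
  have hBND : B ≤ normalizer ((normalizer (D : Set X) : Subgroup X) : Set X) :=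
    hBD.trans le_normalizer
  have hBN₁ : B ≤ normalizer (N₁ : Set X) := Signalizer.le_normalizer_inf hR₁.2.1 hBND
  have hBN₂ : B ≤ normalizer (N₂ : Set X) := Signalizer.le_normalizer_inf hR₂.2.1 hBND
  have hcomm : ∀ x ∈ B, ∀ y ∈ B, x * y = y * x := fun x hx y hy => OddLocal.comm_of_mem hBa hx hy
  have hBCa : ∀ a ∈ B, B ≤ centralizer ({a} : Set X) := fun a ha x hx =>
    mem_centralizer_singleton_iff.2 (hcomm x hx a ha)
  -- an element of `E` with fixed points on both `Nᵢ` modulo `D`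
  have hElem : ∀ F : Subgroup X, F ≤ E → Cfsg.IsElementaryAbelian p F := fun F hF =>
    ⟨OddLocal.isMulComm_of_le hEc hF, fun x hx => hEe x (hF hx)⟩
  have hqd : ∀ {Y : Subgroup X}, IsPGroup q Y → ¬ p ∣ Nat.card Y := fun hY =>
    hp.coprime_iff_not_dvd.1 (hcop hY).symm
  have hfind : ∀ (F V : Subgroup X), F ≤ E → p ^ 2 ≤ Nat.card F → IsPGroup q V →
      B ≤ normalizer (V : Set X) → ¬ V ≤ D →
      ∃ e ∈ F, e ≠ 1 ∧ ¬ V ⊓ centralizer ({e} : Set X) ≤ D := by
    intro F V hF hF2 hV hBV hVD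
    by_contra hcon
    push Not at hcon
    exact hVD (Signalizer.le_of_forall_centralizer (hElem F hF) hF2 ((hF.trans hEB).trans hBV)
      (hqd hV) hcon)
  have hN₁q : IsPGroup q N₁ := hR₁.1.to_le inf_le_left
  have hN₂q : IsPGroup q N₂ := hR₂.1.to_le inf_le_left
  obtain ⟨e₁, he₁E, he₁1, he₁⟩ := hfind E N₁ le_rfl
    (le_trans (Nat.pow_le_pow_right hp.pos (by norm_num)) hE3) hN₁q hBN₁ hN₁D
  -- a subgroup of order at least `p ^ 2` meeting `⟨e₁⟩` trivially
  have hexE : ∀ F : Subgroup X, F ≤ E → Nat.card F < p ^ 3 → ∃ x ∈ E, x ∉ F := by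
    intro F hF hlt
    by_contra h
    push Not at h
    exact absurd (hE3.trans (card_le_of_le h)) (not_le.2 hlt)
  have hzc : ∀ x ∈ E, x ≠ 1 → Nat.card (zpowers x) = p := by
    intro x hx hx1
    rw [Nat.card_zpowers, orderOf_eq_prime (hEe x hx) hx1]
  have hsupc : ∀ x ∈ E, ∀ y ∈ E, Nat.card ↥(zpowers x ⊔ zpowers y : Subgroup X) ≤ p ^ 2 :=
    fun x hx y hy => OddLocal.Trans.card_closure_pair_le hp (hEe x hx) (hEe y hy)
      (hcomm x (hEB hx) y (hEB hy))
  obtain ⟨x, hxE, hx⟩ := hexE (zpowers e₁) (zpowers_le.2 he₁E) (by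
    rw [hzc e₁ he₁E he₁1]; exact lt_self_pow₀ hp.one_lt (by norm_num))
  obtain ⟨y, hyE, hy⟩ := hexE (zpowers e₁ ⊔ zpowers x) (sup_le (zpowers_le.2 he₁E) (zpowers_le.2 hxE))
    (lt_of_le_of_lt (hsupc e₁ he₁E x hxE) (Nat.pow_lt_pow_right hp.one_lt (by norm_num)))
  have hx1 : x ≠ 1 := fun h => hx (h ▸ one_mem _)
  set F := zpowers x ⊔ zpowers y with hF
  have hFE : F ≤ E := sup_le (zpowers_le.2 hxE) (zpowers_le.2 hyE)
  have hF2 : p ^ 2 ≤ Nat.card F := by
    have hlt : zpowers x < F := lt_of_le_not_ge le_sup_left fun h =>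
      hy (mem_sup_right (h (mem_sup_right (mem_zpowers y))))
    have := Signalizer.mul_prime_le_card_of_lt (hEp.to_le hFE) hlt
    rwa [hzc x hxE hx1, ← sq] at this
  set V := N₁ ⊓ centralizer ({e₁} : Set X) with hV
  have hBV : B ≤ normalizer (V : Set X) :=
    Signalizer.le_normalizer_inf hBN₁ ((hBCa e₁ (hEB he₁E)).trans le_normalizer)
  obtain ⟨f, hfF, hf1, hf⟩ := hfind F V hFE hF2 (hN₁q.to_le inf_le_left) hBV he₁
  have hfe : f ∉ zpowers e₁ := by
    intro hfz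
    obtain ⟨u, hu, v, hv, huv⟩ : ∃ u ∈ zpowers x, ∃ v ∈ zpowers y, u * v = f := by
      have hle : zpowers y ≤ normalizer (zpowers x : Set X) := by
        refine (zpowers_le.2 ?_).trans (centralizer_le_normalizer _)
        rw [zpowers_eq_closure, centralizer_closure]
        exact mem_centralizer_singleton_iff.2 (hcomm y (hEB hyE) x (hEB hxE))
      have hmem : f ∈ (↑(zpowers x ⊔ zpowers y) : Set X) := hfF
      rw [coe_mul_of_right_le_normalizer_left _ _ hle] at hmem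
      exact Set.mem_mul.1 hmem
    have hv' : v ∈ zpowers e₁ ⊔ zpowers x := by
      rw [show v = u⁻¹ * f by rw [← huv, inv_mul_cancel_left]]
      exact mul_mem (mem_sup_right (inv_mem hu)) (mem_sup_left hfz)
    have hy1 : y ≠ 1 := fun h => hy (h ▸ one_mem _)
    by_cases hv1 : v = 1
    · rw [hv1, mul_one] at huv
      subst huv
      apply hx
      have : zpowers u = zpowers x := eq_of_le_of_card_ge (zpowers_le.2 hu)
        (by rw [hzc x hxE hx1, hzc u (hFE hfF) hf1])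
      exact zpowers_le.2 hfz (this ▸ mem_zpowers x)
    · apply hy
      have hvE : v ∈ E := zpowers_le.2 hyE hv
      have : zpowers v = zpowers y := eq_of_le_of_card_ge (zpowers_le.2 hv)
        (by rw [hzc y hyE hy1, hzc v hvE hv1])
      exact zpowers_le.2 hv' (this ▸ mem_zpowers y)
  set F' := zpowers e₁ ⊔ zpowers f with hF'
  have hF'E : F' ≤ E := sup_le (zpowers_le.2 he₁E) (zpowers_le.2 (hFE hfF))
  have hF'2 : p ^ 2 ≤ Nat.card F' := by
    have hlt : zpowers e₁ < F' := lt_of_le_not_ge le_sup_left fun h =>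
      hfe (h (mem_sup_right (mem_zpowers f)))
    have := Signalizer.mul_prime_le_card_of_lt (hEp.to_le hF'E) hlt
    rwa [hzc e₁ he₁E he₁1, ← sq] at this
  obtain ⟨e, heF, he1, he₂⟩ := hfind F' N₂ hF'E hF'2 hN₂q hBN₂ hN₂D
  have heB : e ∈ B := hEB (hF'E heF)
  set U₁ := N₁ ⊓ centralizer ({e} : Set X) with hU₁
  set U₂ := N₂ ⊓ centralizer ({e} : Set X) with hU₂
  have hU₁D : ¬ U₁ ≤ D := fun h => hf fun u hu => h ⟨hu.1.1, by
    have h2 : F' ≤ centralizer ({u} : Set X) := sup_le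
      (zpowers_le.2 (mem_centralizer_singleton_iff.2 (mem_centralizer_singleton_iff.1 hu.1.2).symm))
      (zpowers_le.2 (mem_centralizer_singleton_iff.2 (mem_centralizer_singleton_iff.1 hu.2).symm))
    exact mem_centralizer_singleton_iff.2 (mem_centralizer_singleton_iff.1 (h2 heF)).symm⟩
  have hBU₁ : B ≤ normalizer (U₁ : Set X) :=
    Signalizer.le_normalizer_inf hBN₁ ((hBCa e heB).trans le_normalizer)
  have hBU₂ : B ≤ normalizer (U₂ : Set X) :=
    Signalizer.le_normalizer_inf hBN₂ ((hBCa e heB).trans le_normalizer)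
  have hU₁q : IsPGroup q U₁ := hN₁q.to_le inf_le_left
  have hU₂q : IsPGroup q U₂ := hN₂q.to_le inf_le_left
  set K := Cfsg.piCoreOf {r : ℕ | r.Prime ∧ r ≠ p} (centralizer ({e} : Set X)) with hK
  set W := K ⊓ normalizer (D : Set X) with hW
  have hU₁W : U₁ ≤ W := le_inf
    (Classif.OddSCN.invariant_le_core hX hsolv P hBa hscn hr heB he1 inf_le_right hBU₁ (hcop hU₁q))
    (inf_le_left.trans inf_le_right)
  have hU₂W : U₂ ≤ W := le_inf
    (Classif.OddSCN.invariant_le_core hX hsolv P hBa hscn hr heB he1 inf_le_right hBU₂ (hcop hU₂q))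
    (inf_le_left.trans inf_le_right)
  have hBW : B ≤ normalizer (W : Set X) :=
    Signalizer.le_normalizer_inf ((hBCa e heB).trans (OddLocal.le_normalizer_piCoreOf _ _)) hBND
  have hWD : W ≤ normalizer (D : Set X) := inf_le_right
  set L := W ⊔ D with hL
  have hBL : B ≤ normalizer (L : Set X) := fun b hb => by
    rw [← Fusion.cj_eq_iff_mem_normalizer, hL, cj, Subgroup.map_sup]
    show cj b W ⊔ cj b D = W ⊔ D
    rw [cj_eq_of_mem (hBW hb), cj_eq_of_mem (hBD hb)]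
  have hsW : Group.IsSolvable W := by
    have := hsolv e he1 (hBp.to_le (zpowers_le.2 heB))
    have hle : W ≤ centralizer ({e} : Set X) := inf_le_left.trans (OddLocal.piCoreOf_le _ _)
    exact Group.isSolvable_of_isSolvable_injective (f := inclusion hle) (inclusion_injective hle)
  have hsL : Group.IsSolvable L := by
    haveI hnor : (D.subgroupOf L).Normal :=
      (normal_subgroupOf_iff_le_normalizer le_sup_right).2 (sup_le hWD le_normalizer)
    haveI : Group.IsSolvable W := hsW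
    have hsD : Group.IsSolvable (D.subgroupOf L) := by
      have : IsPGroup q (D.subgroupOf L) := (hR₁.1.to_le inf_le_left).comap_subtype
      have := this.isNilpotent
      infer_instance
    let f₀ : W →* L ⧸ D.subgroupOf L :=
      (QuotientGroup.mk' (D.subgroupOf L)).comp (inclusion le_sup_left)
    have hsurj : Function.Surjective f₀ := by
      rintro ⟨⟨l, hl⟩⟩
      obtain ⟨w, hw, d, hd, rfl⟩ : ∃ w ∈ W, ∃ d ∈ D, w * d = l := by
        have hmem : l ∈ (↑(W ⊔ D) : Set X) := hl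
        rw [coe_mul_of_left_le_normalizer_right _ _ hWD] at hmem
        exact Set.mem_mul.1 hmem
      refine ⟨⟨w, hw⟩, QuotientGroup.eq.2 ?_⟩
      rw [mem_subgroupOf]
      simpa using hd
    have hquot : Group.IsSolvable (L ⧸ D.subgroupOf L) :=
      Group.isSolvable_of_surjective hsurj
    haveI := hsD
    haveI := hquot
    exact Group.isSolvable_of_ker_le_range (D.subgroupOf L).subtype (QuotientGroup.mk' (D.subgroupOf L))
      (by rw [QuotientGroup.ker_mk', range_subtype])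
  have hcopL : (Nat.card L).Coprime (Nat.card B) := by
    obtain ⟨k, hk⟩ := hBp.exists_card_eq
    rw [hk]
    refine Nat.Coprime.pow_right k ?_
    refine Nat.Coprime.coprime_dvd_left (OddLocal.card_sup_dvd_mul_of_normalizes hWD) ?_
    exact ((OddLocal.coprime_iff_isPi.2 (OddLocal.isPi_piCoreOf _ _)).coprime_dvd_left
      (card_dvd_of_le inf_le_left)).mul_left (hcop (hR₁.1.to_le inf_le_left))
  have hDq : IsPGroup q D := hR₁.1.to_le inf_le_left
  have hjoin : ∀ (U : Subgroup X), IsPGroup q U → U ≤ W → B ≤ normalizer (U : Set X) →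
      ∃ T : Sylow q L, U ⊔ D ≤ (T : Subgroup L).map L.subtype ∧
        B ≤ normalizer (((T : Subgroup L).map L.subtype : Subgroup X) : Set X) := by
    intro U hU hUW hBU
    refine OddLocal.Trans.exists_invSylow_ge hBL hsL hcopL (sup_le_sup_right hUW D)
      (hU.to_sup_of_normal_right' hDq (hUW.trans hWD)) fun b hb => ?_
    rw [← Fusion.cj_eq_iff_mem_normalizer, cj, Subgroup.map_sup]
    show cj b U ⊔ cj b D = U ⊔ D
    rw [cj_eq_of_mem (hBU hb), cj_eq_of_mem (hBD hb)]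
  obtain ⟨T₁, hT₁, hT₁B⟩ := hjoin U₁ hU₁q hU₁W hBU₁
  obtain ⟨T₂, hT₂, hT₂B⟩ := hjoin U₂ hU₂q hU₂W hBU₂
  obtain ⟨c, hc, hcT⟩ := OddLocal.Trans.invSylow_conj hBL hsL hcopL T₁ T₂ hT₁B hT₂B
  set M₂ := (T₂ : Subgroup L).map L.subtype with hM₂
  obtain ⟨R₃, hM₂R, hR₃⟩ : ∃ R : Subgroup X, M₂ ≤ R ∧ IsMaxInv q B R := by
    obtain ⟨R, hle, hR⟩ := Set.Finite.exists_le_maximal
      (s := {R : Subgroup X | IsPGroup q R ∧ B ≤ normalizer (R : Set X)}) (Set.toFinite _)
      (show M₂ ∈ _ from ⟨T₂.isPGroup'.map _, hT₂B⟩)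
    exact ⟨R, hle, hR.prop.1, hR.prop.2, fun S hS hSB hRS => le_antisymm (hR.2 ⟨hS, hSB⟩ hRS) hRS⟩
  have hbig₂ : Nat.card D < Nat.card ↥(R₂ ⊓ R₃) := lt_card_of_le_not_le
    (le_inf inf_le_right ((le_sup_right.trans hT₂).trans hM₂R))
    (le_inf (inf_le_left.trans inf_le_left) ((le_sup_left.trans hT₂).trans hM₂R)) he₂
  have hbig₁ : Nat.card D < Nat.card ↥(cj (c : X) R₁ ⊓ R₃) := by
    rw [← card_cj (c : X) D]
    refine lt_card_of_le_not_le (V := cj (c : X) U₁)
      (le_inf (cj_mono _ inf_le_left) ?_) (le_inf (cj_mono _ (inf_le_left.trans inf_le_left)) ?_) ?_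
    · exact ((cj_mono _ (le_sup_right.trans hT₁)).trans hcT.ge).trans hM₂R
    · exact ((cj_mono _ (le_sup_left.trans hT₁)).trans hcT.ge).trans hM₂R
    · exact fun h => hU₁D ((Subgroup.map_le_map_iff_of_injective (MulAut.conj (c : X)).injective).1 h)
  have hstep : ∀ {A₁ A₂ : Subgroup X}, Nat.card D < Nat.card ↥(A₁ ⊓ A₂) → IsMaxInv q B A₁ →
      IsMaxInv q B A₂ → ∃ k ∈ centralizer (B : Set X), A₂ = cj k A₁ := by
    intro A₁ A₂ hlt h1 h2
    refine ih _ ?_ A₁ A₂ rfl h1 h2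
    have := Nat.le_of_dvd Nat.card_pos (A₁ ⊓ A₂).card_subgroup_dvd_card
    omega
  obtain ⟨k₁, hk₁, hk₁e⟩ := hstep hbig₁ (hR₁.cj hc) hR₃
  obtain ⟨k₂, hk₂, hk₂e⟩ := hstep hbig₂ hR₂ hR₃
  refine ⟨k₂⁻¹ * (k₁ * c), mul_mem (inv_mem hk₂) (mul_mem hk₁ hc), ?_⟩
  rw [← cj_cj, ← cj_cj, ← hk₁e, hk₂e, cj_inv_cj]

end Cfsg.Agent.S0522
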