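import Cfsg.Statements.S0534
import Cfsg.Agent.Supersolv.CLT
import Cfsg.Agent.Lib.Hall

set_option autoImplicit false
open Cfsg

namespace Cfsg.Agent.S0534

/-- Let G be a finite solvable group and A a finite abelian group such that every prime dividing the order of A divides the order of G and, for each prime p dividing the order of G, the exponent of p in the order of A is one less than its exponent in the order of G. Then G × A has a subgroup of every order dividing its order. -/
theorem result {G A : Type*} [Group G] [CommGroup A] [Finite G] [Finite A] [Group.IsSolvable G] (hA : ∀ p : ℕ, p.Prime → p ∣ Nat.card A → p ∣ Nat.card G) (hexp : ∀ p : ℕ, p.Prime → p ∣ Nat.card G → (Nat.card A).factorization p + 1 = (Nat.card G).factorization p) : Cfsg.HasSubgroupOfEveryOrder (G × A) := by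
  classical
  intro d hd
  rw [Nat.card_prod] at hd
  have hd0 : d ≠ 0 := by
    rintro rfl
    exact mul_ne_zero Nat.card_pos.ne' Nat.card_pos.ne' (zero_dvd_iff.1 hd)
  let s : Set ℕ := {p | (Nat.card G).factorization p ≤ d.factorization p}
  obtain ⟨H, hH1, hH2⟩ := Hall.exists_isPiHall (G := G) s
  have hHf : ∀ p : ℕ, p.Prime → (Nat.card H).factorization p =
      if p ∈ s then (Nat.card G).factorization p else 0 := by
    intro p hp
    split_ifs with hps
    · conv_rhs => rw [← H.card_mul_index, Nat.factorization_mul Nat.card_pos.ne'
        Subgroup.index_ne_zero_of_finite, Finsupp.add_apply,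
        Nat.factorization_eq_zero_of_not_dvd (hH2 p hp hps), add_zero]
    · exact Nat.factorization_eq_zero_of_not_dvd fun h => hps (hH1 p hp h)
  have hHd : Nat.card H ∣ d := by
    rw [← Nat.factorization_le_iff_dvd Nat.card_pos.ne' hd0]
    intro p
    by_cases hp : p.Prime
    · rw [hHf p hp]; split_ifs with hps
      · exact hps
      · exact Nat.zero_le _
    · simp [Nat.factorization_eq_zero_of_not_prime _ hp]
  obtain ⟨e, he⟩ := hHd
  have he0 : e ≠ 0 := fun h => hd0 (by rw [he, h, mul_zero])
  have hfac : ∀ p : ℕ, p.Prime → d.factorization p =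
      (Nat.card H).factorization p + e.factorization p := fun p hp => by
    rw [he, Nat.factorization_mul Nat.card_pos.ne' he0, Finsupp.add_apply]
  have hea : e ∣ Nat.card A := by
    rw [← Nat.factorization_le_iff_dvd he0 Nat.card_pos.ne']
    intro p
    by_cases hp : p.Prime
    · have h1 := (Nat.factorization_le_iff_dvd hd0
        (mul_ne_zero Nat.card_pos.ne' Nat.card_pos.ne')).2 hd p
      rw [Nat.factorization_mul Nat.card_pos.ne' Nat.card_pos.ne', Finsupp.add_apply,
        hfac p hp] at h1
      have h2 := hfac p hp
      by_cases hps : p ∈ s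
      · rw [hHf p hp, if_pos hps] at h1
        omega
      · rw [hHf p hp, if_neg hps, zero_add] at h2
        have hlt : d.factorization p < (Nat.card G).factorization p := not_le.1 hps
        have hpG : p ∣ Nat.card G := by
          by_contra hnd
          rw [Nat.factorization_eq_zero_of_not_dvd hnd] at hlt
          exact Nat.not_lt_zero _ hlt
        have := hexp p hp hpG
        omega
    · simp [Nat.factorization_eq_zero_of_not_prime _ hp]
  obtain ⟨B, hB⟩ := Supersolv.everyOrder (Supersolv.supersolvable_of_comm (G := A) mul_comm) e hea
  refine ⟨H.prod B, ?_⟩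
  rw [Nat.card_congr (Subgroup.prodEquiv H B).toEquiv, Nat.card_prod, hB, he]

end Cfsg.Agent.S0534
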