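import Cfsg.Statements.S0535
import Cfsg.Agent.Supersolv.Wielandt
import Cfsg.Agent.Char.Burnside

set_option autoImplicit false
open Cfsg

namespace Cfsg.Agent.S0535

/-- Suppose that for every nontrivial subgroup H of a finite group and every prime p dividing the order of H there is a proper subgroup of H whose index in H is a power of p. Then the group is solvable. -/
theorem result {G : Type*} [Group G] [Finite G] (h : ∀ H : Subgroup G, H ≠ ⊥ → ∀ p : ℕ, p.Prime → p ∣ Nat.card H → ∃ K : Subgroup H, K ≠ ⊤ ∧ ∃ k : ℕ, K.index = p ^ k) : Group.IsSolvable G := by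
  classical
  induction hn : Nat.card G using Nat.strong_induction_on generalizing G with
  | _ n ih =>
  subst hn
  -- proper subgroups inherit the hypothesis
  have hprop : ∀ L : Subgroup G, L ≠ ⊤ → Group.IsSolvable L := by
    intro L hL
    refine ih (Nat.card L) (lt_of_le_of_ne (Subgroup.card_le_card_group L)
      (fun e => hL (Subgroup.eq_top_of_card_eq L e))) ?_ rfl
    intro H hH p hp hpd
    let e := H.equivMapOfInjective L.subtype L.subtype_injective
    have hne : H.map L.subtype ≠ ⊥ := fun e' =>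
      hH ((Subgroup.map_eq_bot_iff_of_injective _ L.subtype_injective).1 e')
    obtain ⟨K, hK, k, hk⟩ := h (H.map L.subtype) hne p hp (by rwa [← Nat.card_congr e.toEquiv])
    refine ⟨K.map e.symm.toMonoidHom, fun ht => hK ?_, k, ?_⟩
    · refine Subgroup.map_injective e.symm.injective (ht.trans ?_)
      exact (Subgroup.map_top_of_surjective e.symm.toMonoidHom e.symm.surjective).symm
    · rw [← hk]
      exact Subgroup.index_map_equiv K e.symm
  rcases subsingleton_or_nontrivial G with hs | hs
  · infer_instance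
  have hget : ∀ p : ℕ, p.Prime → p ∣ Nat.card G →
      ∃ (K : Subgroup G) (k : ℕ), Group.IsSolvable K ∧ K.index = p ^ k := by
    intro p hp hpd
    obtain ⟨K, hK, k, hk⟩ := h ⊤ top_ne_bot p hp (by rwa [Subgroup.card_top])
    refine ⟨K.map (Subgroup.topEquiv (G := G)).toMonoidHom, k, hprop _ fun ht => hK ?_, ?_⟩
    · refine Subgroup.map_injective (Subgroup.topEquiv (G := G)).injective (ht.trans ?_)
      exact (Subgroup.map_top_of_surjective _ (Subgroup.topEquiv (G := G)).surjective).symm
    · rw [← hk]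
      exact Subgroup.index_map_equiv K Subgroup.topEquiv
  have hcop : ∀ {p q : ℕ}, p.Prime → q.Prime → p ≠ q → ∀ {a b : ℕ},
      (p ^ a).Coprime (q ^ b) := fun hp hq hne => ((Nat.coprime_primes hp hq).2 hne).pow _ _
  obtain ⟨p, hp, hpd⟩ := Nat.exists_prime_and_dvd (Finite.one_lt_card (α := G)).ne'
  by_cases h2 : ∃ q, q.Prime ∧ q ∣ Nat.card G ∧ q ≠ p
  · obtain ⟨q, hq, hqd, hqp⟩ := h2
    by_cases h3 : ∃ r, r.Prime ∧ r ∣ Nat.card G ∧ r ≠ p ∧ r ≠ q
    · obtain ⟨r, hr, hrd, hrp, hrq⟩ := h3
      obtain ⟨H1, a, hs1, ha⟩ := hget p hp hpd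
      obtain ⟨H2, b, hs2, hb⟩ := hget q hq hqd
      obtain ⟨H3, c, hs3, hc⟩ := hget r hr hrd
      exact Supersolv.isSolvable_of_three H1 H2 H3 hs1 hs2 hs3
        (by rw [ha, hb]; exact hcop hp hq hqp.symm) (by rw [ha, hc]; exact hcop hp hr hrp.symm)
        (by rw [hb, hc]; exact hcop hq hr hrq.symm)
    · push Not at h3
      exact Char.solvable_of_card_eq_pow_mul_pow p q hp hq _ rfl fun r hr hrd => by
        by_cases e : r = p
        · exact Or.inl e
        · exact Or.inr (h3 r hr hrd e)
  · push Not at h2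
    exact Char.solvable_of_card_eq_pow_mul_pow p p hp hp _ rfl fun r hr hrd =>
      Or.inl (h2 r hr hrd)

end Cfsg.Agent.S0535
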