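import Cfsg.Statements.S0541
import Cfsg.Agent.Subnormal.Join

set_option autoImplicit false
open Pointwise
open Cfsg

namespace Cfsg.Agent.S0541

/-- Let Z and Y be subgroups of a finite group G and p a prime. Suppose that for every g in G the subgroup generated by the conjugates of g Z g⁻¹ under Y is a p-group. Then there is a Sylow p-subgroup P of G such that Y normalizes the subgroup generated by all conjugates of Z contained in P. -/
theorem result {G : Type*} [Group G] [Finite G] (p : ℕ) [Fact p.Prime] (Z Y : Subgroup G) (h : ∀ g : G, IsPGroup p ↥(⨆ y ∈ Y, MulAut.conj (y * g) • Z)) : ∃ P : Sylow p G, Y ≤ Subgroup.normalizer ((⨆ g ∈ {g : G | MulAut.conj g • Z ≤ (P : Subgroup G)}, MulAut.conj g • Z : Subgroup G) : Set G) := by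
  classical
  let gen : Subgroup G → Subgroup G :=
    fun D => ⨆ g ∈ {g : G | MulAut.conj g • Z ≤ D}, MulAut.conj g • Z
  have hgen_le : ∀ D, gen D ≤ D := fun D => iSup₂_le fun g hg => hg
  have hle_gen : ∀ D (g : G), MulAut.conj g • Z ≤ D → MulAut.conj g • Z ≤ gen D :=
    fun D g hg => le_iSup₂_of_le g hg le_rfl
  obtain ⟨D, -, hD⟩ := Finite.exists_le_maximal (a := (⊥ : Subgroup G))
    (p := fun D : Subgroup G => Y ≤ Subgroup.normalizer (D : Set G) ∧ IsPGroup p D ∧ gen D = D)
    ⟨by rw [Subgroup.normalizer_eq_top_iff.2 inferInstance]; exact le_top, IsPGroup.of_bot,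
      le_antisymm (hgen_le ⊥) bot_le⟩
  obtain ⟨hDY, hDp, hDgen⟩ := hD.1
  obtain ⟨P, hP⟩ := hDp.exists_le_sylow
  refine ⟨P, ?_⟩
  show Y ≤ Subgroup.normalizer ((gen (P : Subgroup G) : Subgroup G) : Set G)
  suffices key : gen (P : Subgroup G) = D by rw [key]; exact hDY
  by_contra hne
  haveI : Group.IsNilpotent (P : Subgroup G) := P.2.isNilpotent
  have hsn : ∀ H : Subgroup (P : Subgroup G), H.IsSubnormal := by
    intro H
    induction H using WellFoundedGT.induction with
    | _ H ih =>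
      rcases eq_or_ne H ⊤ with rfl | hH
      · exact Subgroup.IsSubnormal.top
      · exact Subgroup.IsSubnormal.step H _ Subgroup.le_normalizer
          (ih _ (Group.normalizerCondition_of_isNilpotent H (lt_top_iff_ne_top.2 hH)))
          Subgroup.normal_in_normalizer
  let S : Set (Subgroup (P : Subgroup G)) :=
    {X | ∃ g : G, X.map (P : Subgroup G).subtype = MulAut.conj g • Z}
  let S₀ : Set (Subgroup (P : Subgroup G)) :=
    {X | X ∈ S ∧ X.map (P : Subgroup G).subtype ≤ D}
  have hproper : S₀ ⊂ S := by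
    refine ⟨fun X hX => hX.1, fun hsub => hne (le_antisymm ?_ ?_)⟩
    · refine iSup₂_le fun g hg => ?_
      have hm : (MulAut.conj g • Z).subgroupOf (P : Subgroup G) ∈ S :=
        ⟨g, Subgroup.map_subgroupOf_eq_of_le hg⟩
      have := (hsub hm).2
      rwa [Subgroup.map_subgroupOf_eq_of_le hg] at this
    · rw [← hDgen]
      exact iSup₂_le fun g hg => hle_gen _ g ((hg : _ ≤ D).trans hP)
  obtain ⟨X, ⟨g, hg⟩, hX0, hXn⟩ := SubnormalLib.exists_normalizing_member (S := S) (S₀ := S₀)
    (fun X _ => hsn X) (fun X ⟨g, hg⟩ v => ⟨v * g, by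
      rw [Coprime.map_subtype_conj_smul, hg, Coprime.conj_smul_conj_smul]⟩) hproper
  have hJ : (sSup S₀ : Subgroup (P : Subgroup G)).map (P : Subgroup G).subtype = D := by
    refine le_antisymm (Subgroup.map_le_iff_le_comap.2 (sSup_le fun X hX =>
      Subgroup.map_le_iff_le_comap.1 hX.2)) ?_
    rw [← hDgen]
    refine iSup₂_le fun g' hg' => ?_
    have hgP : MulAut.conj g' • Z ≤ (P : Subgroup G) := (hg' : _ ≤ D).trans hP
    rw [← Subgroup.map_subgroupOf_eq_of_le hgP]
    refine Subgroup.map_mono (le_sSup ⟨⟨g', Subgroup.map_subgroupOf_eq_of_le hgP⟩, ?_⟩)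
    rw [Subgroup.map_subgroupOf_eq_of_le hgP]
    exact hg'
  have hgn : MulAut.conj g • Z ≤ Subgroup.normalizer (D : Set G) := by
    rw [← hg, ← hJ]
    exact (Subgroup.map_mono hXn).trans (Subgroup.le_normalizer_map _)
  have hgD : ¬ MulAut.conj g • Z ≤ D := fun h => hX0 ⟨⟨g, hg⟩, hg.le.trans h⟩
  set E := ⨆ y ∈ Y, MulAut.conj (y * g) • Z with hE
  have hEn : E ≤ Subgroup.normalizer (D : Set G) := by
    refine iSup₂_le fun y hy => ?_
    rw [← Coprime.conj_smul_conj_smul]
    refine (Coprime.conj_smul_mono hgn y).trans ?_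
    rw [Coprime.conj_smul_normalizer, Coprime.conj_smul_eq_self_iff.2 (hDY hy)]
  have hEY : Y ≤ Subgroup.normalizer (E : Set G) := by
    intro y hy
    have hle' : MulAut.conj y • E ≤ E := by
      rw [← inv_inv y, Coprime.conj_inv_smul_le]
      refine iSup₂_le fun z hz => ?_
      rw [← Coprime.conj_inv_smul_le, inv_inv, Coprime.conj_smul_conj_smul, ← mul_assoc]
      exact le_iSup₂_of_le (y * z) (Y.mul_mem hy hz) le_rfl
    exact Coprime.conj_smul_eq_self_iff.1
      (Subgroup.eq_of_le_of_card_ge hle' (Coprime.card_conj_smul E y).ge)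
  have hgE : MulAut.conj g • Z ≤ E := le_iSup₂_of_le 1 Y.one_mem (by rw [one_mul])
  have hbig := hD.2 (y := E ⊔ D)
    ⟨(le_inf hEY hDY).trans (Subgroup.normalizer_inf_normalizer_le_normalizer_sup _ _),
      (h g).to_sup_of_normal_right' hDp hEn,
      le_antisymm (hgen_le _) (sup_le (iSup₂_le fun y hy =>
          hle_gen _ (y * g) ((le_iSup₂_of_le y hy le_rfl : _ ≤ E).trans le_sup_left))
        (hDgen.ge.trans (iSup₂_le fun g' hg' =>
          hle_gen _ g' ((hg' : _ ≤ D).trans le_sup_right))))⟩ le_sup_right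
  exact hgD (hgE.trans (le_sup_left.trans hbig))

end Cfsg.Agent.S0541
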