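import Cfsg.Statements.S0547
import Cfsg.Agent.Perm.Regular
import Cfsg.Agent.Lib.MinimalNormal

set_option autoImplicit false
open Cfsg

namespace Cfsg.Agent.S0547

/-- Let a finite solvable group G act faithfully and primitively on a set, and let M be a minimal normal subgroup of G. Then M is transitive with trivial point stabilizers, and the number of points equals the order of M, which is a prime power p ^ d with d ≥ 1. -/
theorem result {G : Type*} [Group G] [Finite G] [Group.IsSolvable G] {Ω : Type*} [Nonempty Ω] [MulAction G Ω] [FaithfulSMul G Ω] (hprim : MulAction.IsPreprimitive G Ω) (M : Subgroup G) [M.Normal] (hM : M ≠ ⊥) (hmin : ∀ K : Subgroup G, K.Normal → K ≤ M → K = ⊥ ∨ K = M) : MulAction.IsPretransitive M Ω ∧ (∀ ω : Ω, MulAction.stabilizer M ω = ⊥) ∧ ∃ p d : ℕ, p.Prime ∧ 0 < d ∧ Nat.card Ω = p ^ d ∧ Nat.card M = p ^ d := by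
  haveI := hprim
  obtain ⟨hab, p, hp, -, hpg⟩ := MinNormal.elementary_abelian' M hM hmin
  haveI : MulAction.IsPretransitive M Ω :=
    PermLib.isPretransitive_of_normal_ne_bot (G := G) hM
  have hreg : ∀ ω : Ω, MulAction.stabilizer M ω = ⊥ :=
    fun ω => PermLib.stabilizer_eq_bot_of_isMulCommutative hab ω
  refine ⟨inferInstance, hreg, ?_⟩
  haveI : Fact p.Prime := ⟨hp⟩
  obtain ⟨d, hd⟩ := hpg.exists_card_eq
  obtain ⟨ω⟩ := ‹Nonempty Ω›
  refine ⟨p, d, hp, Nat.pos_of_ne_zero ?_, ?_, hd⟩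
  · rintro rfl
    exact hM (Subgroup.eq_bot_of_card_eq _ (by simpa using hd))
  · rw [← PermLib.card_eq_of_regular (hreg ω), hd]

end Cfsg.Agent.S0547
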