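import Cfsg.Statements.S0548
import Cfsg.Agent.Perm.Regular
import Cfsg.Agent.Lib.MinimalNormal

set_option autoImplicit false
open Cfsg

namespace Cfsg.Agent.S0548

/-- Let a finite solvable group G act faithfully and primitively on a set, let M be a minimal normal subgroup and H the stabilizer of a point. Then H is a complement to M, no non-identity element of H centralizes M, and the only subgroups of M normalized by H are the trivial subgroup and M. -/
theorem result {G : Type*} [Group G] [Finite G] [Group.IsSolvable G] {Ω : Type*} [MulAction G Ω] [FaithfulSMul G Ω] (hprim : MulAction.IsPreprimitive G Ω) (M : Subgroup G) [M.Normal] (hM : M ≠ ⊥) (hmin : ∀ K : Subgroup G, K.Normal → K ≤ M → K = ⊥ ∨ K = M) (ω : Ω) : Subgroup.IsComplement' M (MulAction.stabilizer G ω) ∧ MulAction.stabilizer G ω ⊓ Subgroup.centralizer (M : Set G) = ⊥ ∧ ∀ K : Subgroup G, K ≤ M → MulAction.stabilizer G ω ≤ Subgroup.normalizer (K : Set G) → K = ⊥ ∨ K = M := by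
  haveI := hprim
  obtain ⟨hab, p, hp, -, hpg⟩ := MinNormal.elementary_abelian' M hM hmin
  haveI : MulAction.IsPretransitive M Ω :=
    PermLib.isPretransitive_of_normal_ne_bot (G := G) hM
  have hreg := PermLib.stabilizer_eq_bot_of_isMulCommutative (G := G) (α := Ω) hab ω
  have hsup := PermLib.sup_stabilizer_eq_top (G := G) M ω
  have hdisj : Disjoint M (MulAction.stabilizer G ω) := by
    rw [disjoint_iff, Subgroup.eq_bot_iff_forall]
    rintro x ⟨hxM, hxS⟩
    have : (⟨x, hxM⟩ : M) ∈ MulAction.stabilizer M ω := hxS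
    rw [hreg, Subgroup.mem_bot] at this
    exact congrArg Subtype.val this
  refine ⟨Subgroup.isComplement'_of_disjoint_and_mul_eq_univ hdisj ?_, ?_, ?_⟩
  · rw [← Subgroup.normal_mul, hsup, Subgroup.coe_top]
  · rw [Subgroup.eq_bot_iff_forall]
    rintro x ⟨hxS, hxC⟩
    have h : (⟨x, hxC⟩ : Subgroup.centralizer (M : Set G)) ∈
        MulAction.stabilizer (Subgroup.centralizer (M : Set G)) ω := hxS
    rw [PermLib.stabilizer_centralizer_eq_bot, Subgroup.mem_bot] at h
    exact congrArg Subtype.val h
  · intro K hK hSK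
    refine hmin K (Subgroup.normalizer_eq_top_iff.1 (eq_top_iff.2 (hsup.symm.le.trans
      (sup_le ?_ hSK)))) hK
    intro m hm
    rw [Subgroup.mem_normalizer_iff]
    intro k
    constructor
    · intro hk
      have : m * k = k * m := congrArg Subtype.val (hab.is_comm.comm ⟨m, hm⟩ ⟨k, hK hk⟩)
      rwa [this, mul_inv_cancel_right]
    · intro hk
      have hkM : k ∈ M := by
        have := (inferInstance : M.Normal).conj_mem _ (hK hk) m⁻¹
        simpa [mul_assoc] using this
      have : m * k = k * m := congrArg Subtype.val (hab.is_comm.comm ⟨m, hm⟩ ⟨k, hkM⟩)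
      rwa [this, mul_inv_cancel_right] at hk

end Cfsg.Agent.S0548
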