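import Cfsg.Statements.S0587
import Cfsg.Agent.SolvStruct.Basic
import Cfsg.Agent.Cores.Basic
import Cfsg.Agent.Lib.MinimalNormal

set_option autoImplicit false
open Cfsg
open scoped Pointwise commutatorElement

namespace Cfsg.Agent.S0587

/-- Let G be a finite group whose largest normal p-subgroup L is nontrivial, and M a maximal subgroup of G with trivial normal core. Then L is elementary abelian, M is a complement to L, L is a minimal normal subgroup of G, the centralizer of L is L, and for every prime q such that the largest normal q-subgroup of M is nontrivial, the order of L is congruent to 1 modulo q and q ≠ p. -/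
theorem result {G : Type*} [Group G] [Finite G] (p : ℕ) [Fact p.Prime] (hL : Cfsg.pCore p G ≠ ⊥) (M : Subgroup G) (hM : IsCoatom M) (hcore : M.normalCore = ⊥) : Cfsg.IsElementaryAbelian p (Cfsg.pCore p G) ∧ Subgroup.IsComplement' (Cfsg.pCore p G) M ∧ (∀ K : Subgroup G, K.Normal → K ≤ Cfsg.pCore p G → K = ⊥ ∨ K = Cfsg.pCore p G) ∧ Subgroup.centralizer ((Cfsg.pCore p G : Subgroup G) : Set G) = Cfsg.pCore p G ∧ ∀ (q : ℕ) [Fact q.Prime], Cfsg.pCore q ↥M ≠ ⊥ → Nat.card (Cfsg.pCore p G) % q = 1 % q ∧ q ≠ p := by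
  haveI := Cores.pCore_normal_inst (p := p) G
  set L := Cfsg.pCore p G with hLdef
  have hLp : IsPGroup p L := Cores.pCore_isPGroup
  obtain ⟨N, hNn, hNne, hNle, hNmin⟩ :=
    MinNormal.exists_minimal_normal_le (L ⊓ Subgroup.centralizer (L : Set G)) (by
      intro hbot
      haveI : Nontrivial L := (Subgroup.nontrivial_iff_ne_bot L).2 hL
      haveI := hLp.center_nontrivial
      obtain ⟨z, hz⟩ := exists_ne (1 : Subgroup.center L)
      have : (z : L).1 ∈ L ⊓ Subgroup.centralizer (L : Set G) := ⟨(z : L).2,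
        Subgroup.mem_centralizer_iff.2 fun l hl =>
          congrArg Subtype.val (Subgroup.mem_center_iff.1 z.2 ⟨l, hl⟩)⟩
      rw [hbot, Subgroup.mem_bot] at this
      exact hz (Subtype.ext (Subtype.ext this)))
  have hNL : N ≤ L := hNle.trans inf_le_left
  have hLC : L ≤ Subgroup.centralizer (N : Set G) :=
    Subgroup.le_centralizer_iff.1 (hNle.trans inf_le_right)
  haveI := hNn
  have hCN : Subgroup.centralizer (N : Set G) = N :=
    ((SolvStruct.corefree_centralizer_minimal hM hcore hNne N hNn (hNL.trans hLC)).resolve_left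
      hNne).symm
  have hLN : L = N := le_antisymm (hLC.trans hCN.le) hNL
  clear hNle hLC
  subst N
  haveI hab : IsMulCommutative L := Subgroup.le_centralizer_iff_isMulCommutative.1 hCN.ge
  have hdis : L ⊓ M = ⊥ := by
    have := SolvStruct.centralizer_inf_corefree_eq_bot (N := L) hM hcore hL
    rwa [hCN] at this
  have htop : M ⊔ L = ⊤ := SolvStruct.sup_normal_eq_top_of_corefree hM hcore hL
  have hcomp : Subgroup.IsComplement' L M :=
    Subgroup.isComplement'_of_disjoint_and_mul_eq_univ (disjoint_iff.2 hdis)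
      (by rw [← Subgroup.normal_mul, sup_comm, htop, Subgroup.coe_top])
  refine ⟨⟨hab, ?_⟩, hcomp, hNmin, hCN, ?_⟩
  · haveI : Group.IsNilpotent L := hLp.isNilpotent
    obtain ⟨-, r, hr, hexp, hrp⟩ := MinNormal.elementary_abelian L hL hNmin
    have : r = p := by
      haveI : Fact r.Prime := ⟨hr⟩
      haveI : Nontrivial L := (Subgroup.nontrivial_iff_ne_bot L).2 hL
      obtain ⟨m, hm, hcard⟩ := hrp.nontrivial_iff_card.1 inferInstance
      obtain ⟨n, hn, hcard'⟩ := hLp.nontrivial_iff_card.1 inferInstance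
      rw [hcard] at hcard'
      exact (Nat.prime_dvd_prime_iff_eq hr Fact.out).1 (hr.dvd_of_dvd_pow (hcard' ▸ dvd_pow_self r hm.ne'))
    intro a ha
    exact this ▸ hexp a ha
  intro q hq hQ
  haveI := Cores.pCore_normal_inst (p := q) M
  set Q := Cfsg.pCore q M with hQdef
  set Q' := Q.map M.subtype with hQ'
  have hQp : IsPGroup q Q' := (Cores.pCore_isPGroup).map M.subtype
  have hQM : Q' ≤ M := Subgroup.map_subtype_le _
  have hQn : M ≤ Subgroup.normalizer (Q' : Set G) := by
    refine Subgroup.le_normalizer_iff.2 ?_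
    rintro m hm _ ⟨y, hy, rfl⟩
    exact ⟨⟨m, hm⟩ * y * ⟨m, hm⟩⁻¹, (inferInstance : Q.Normal).conj_mem y hy _, by simp⟩
  have hqp : q ≠ p := by
    rintro rfl
    haveI hn : (Q' ⊔ L).Normal := Subgroup.normalizer_eq_top_iff.1 (top_unique
      (htop.ge.trans (sup_le (Subgroup.le_normalizer_iff.2 fun m hm x hx => by
        rw [← SetLike.mem_coe, Subgroup.mul_normal] at hx
        obtain ⟨a, ha, l, hl, rfl⟩ := hx
        have e : m * (a * l) * m⁻¹ = (m * a * m⁻¹) * (m * l * m⁻¹) := by simp [mul_assoc]
        show m * (a * l) * m⁻¹ ∈ Q' ⊔ L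
        rw [e]
        exact mul_mem (Subgroup.mem_sup_left (Subgroup.le_normalizer_iff.1 hQn m hm a ha))
          (Subgroup.mem_sup_right ((inferInstance : L.Normal).conj_mem l hl m)))
        ((le_sup_right : L ≤ Q' ⊔ L).trans Subgroup.le_normalizer))))
    have hpg : IsPGroup q ↥(Q' ⊔ L) := hQp.to_sup_of_normal_right hLp
    have : Q' ≤ L := le_sup_left.trans (Cores.le_pCore hn hpg)
    have hbot : Q' = ⊥ := le_bot_iff.1 (hdis ▸ le_inf this hQM)
    exact hQ ((Subgroup.map_eq_bot_iff_of_injective _ M.subtype_injective).1 hbot)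
  refine ⟨?_, hqp⟩
  have hfix : ∀ l ∈ L, (∀ y ∈ Q', y * l * y⁻¹ = l) → l = 1 := by
    set C := L ⊓ Subgroup.centralizer (Q' : Set G) with hC
    haveI hCn : C.Normal := Subgroup.normalizer_eq_top_iff.1 (top_unique
      (htop.ge.trans (sup_le (Subgroup.le_normalizer_iff.2 fun m hm x hx =>
        ⟨(inferInstance : L.Normal).conj_mem x hx.1 m,
          Subgroup.mem_centralizer_iff.2 fun y hy => by
            have hy' : m⁻¹ * y * m ∈ Q' := by
              simpa using Subgroup.le_normalizer_iff.1 hQn m⁻¹ (M.inv_mem hm) y hy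
            have := Subgroup.mem_centralizer_iff.1 hx.2 _ hy'
            have h3 := congrArg (fun z => m * z * m⁻¹) this
            simpa [mul_assoc] using h3⟩)
        (Subgroup.le_normalizer_iff.2 fun a ha x hx => by
          have := Subgroup.mem_centralizer_iff.1
            (Subgroup.le_centralizer_iff_isMulCommutative.2 hab hx.1) a ha
          rw [this, mul_inv_cancel_right]; exact hx))))
    intro l hl hl'
    have hmem : l ∈ C := ⟨hl, Subgroup.mem_centralizer_iff.2 fun y hy =>
      mul_inv_eq_iff_eq_mul.1 (hl' y hy)⟩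
    rcases hNmin C hCn inf_le_left with h | h
    · exact (h ▸ hmem : l ∈ (⊥ : Subgroup G))
    · exfalso
      have hQC : Q' ≤ Subgroup.centralizer (L : Set G) :=
        Subgroup.le_centralizer_iff.1 (h ▸ inf_le_right)
      rw [hCN] at hQC
      have hbot : Q' = ⊥ := le_bot_iff.1 (hdis ▸ le_inf hQC hQM)
      exact hQ ((Subgroup.map_eq_bot_iff_of_injective _ M.subtype_injective).1 hbot)
  letI act : MulAction Q' L := MulAction.compHom L
    (((MulAut.conjNormal : G →* MulAut L).comp Q'.subtype))
  have hmod := hQp.card_modEq_card_fixedPoints L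
  have hone : Nat.card (MulAction.fixedPoints Q' L) = 1 := by
    rw [Nat.card_eq_one_iff_unique]
    refine ⟨⟨fun a b => ?_⟩, ⟨⟨1, fun y => ?_⟩⟩⟩
    · have : ∀ c : MulAction.fixedPoints Q' L, (c : L) = 1 := fun c => Subtype.ext <|
        hfix _ (c : L).2 fun y hy => congrArg Subtype.val (c.2 ⟨y, hy⟩)
      exact Subtype.ext ((this a).trans (this b).symm)
    · show MulAut.conjNormal (y : G) (1 : L) = 1
      exact map_one _
  rw [hone] at hmod
  exact hmod

end Cfsg.Agent.S0587
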