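import Cfsg.Statements.S0551
import Cfsg.Agent.SolvStruct.Basic
import Cfsg.Agent.SolvStruct.Products
import Cfsg.Agent.Cores.Basic
import Cfsg.Agent.Lib.MinimalNormal
import Cfsg.Agent.Lib.SchurZassenhaus
import Cfsg.Agent.S0587

set_option autoImplicit false
open Pointwise
open Cfsg
open scoped Pointwise commutatorElement

namespace Cfsg.Agent.S0551

/-- In a finite solvable group all core-free maximal subgroups are conjugate. -/
theorem result {G : Type*} [Group G] [Finite G] [Group.IsSolvable G] (U V : Subgroup G) (hU : IsCoatom U) (hV : IsCoatom V) (hUc : U.normalCore = ⊥) (hVc : V.normalCore = ⊥) : ∃ g : G, MulAut.conj g • U = V := by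
  rcases subsingleton_or_nontrivial G with hG | hG
  · exact ⟨1, Subsingleton.elim _ _⟩
  obtain ⟨N, hNn, hNne, hNmin, hNab, p, hp, -, hNp⟩ :=
    MinNormal.exists_elementary_abelian (G := G)
  haveI := hNn
  haveI : Fact p.Prime := ⟨hp⟩
  have hCN : Subgroup.centralizer (N : Set G) = N :=
    ((SolvStruct.corefree_centralizer_minimal hU hUc hNne N hNn
      (Subgroup.le_centralizer_iff_isMulCommutative.2 hNab)).resolve_left hNne).symm
  have hcompl : ∀ W : Subgroup G, IsCoatom W → W.normalCore = ⊥ → Subgroup.IsComplement' N W := by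
    intro W hW hWc
    have hd : N ⊓ W = ⊥ := by
      have := SolvStruct.centralizer_inf_corefree_eq_bot (N := N) hW hWc hNne
      rwa [hCN] at this
    exact Subgroup.isComplement'_of_disjoint_and_mul_eq_univ (disjoint_iff.2 hd)
      (by rw [← Subgroup.normal_mul, sup_comm,
        SolvStruct.sup_normal_eq_top_of_corefree hW hWc hNne, Subgroup.coe_top])
  have hcU := hcompl U hU hUc
  have hcV := hcompl V hV hVc
  by_cases hNtop : N = ⊤
  · subst hNtop
    exact ⟨1, by rw [map_one, one_smul, Subgroup.isComplement'_top_left.1 hcU,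
      Subgroup.isComplement'_top_left.1 hcV]⟩
  haveI : Nontrivial (G ⧸ N) := QuotientGroup.nontrivial_iff.2 hNtop
  obtain ⟨Mq, hMqn, hMqne, hMqmin, -, q, hq, -, hMqp⟩ :=
    MinNormal.exists_elementary_abelian (G := G ⧸ N)
  set M := Mq.comap (QuotientGroup.mk' N) with hM
  haveI : M.Normal := hMqn.comap _
  have hNM : N ≤ M := by
    intro z hz
    rw [hM, Subgroup.mem_comap, QuotientGroup.mk'_apply, (QuotientGroup.eq_one_iff z).2 hz]
    exact one_mem _
  have hMneN : M ≠ N := fun he => hMqne (by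
    rw [← Subgroup.map_comap_eq_self_of_surjective (QuotientGroup.mk'_surjective N) Mq, ← hM, he,
      QuotientGroup.map_mk'_self])
  haveI : Fact q.Prime := ⟨hq⟩
  obtain ⟨a, ha⟩ := IsPGroup.iff_card.1 hNp
  obtain ⟨b, hb⟩ := IsPGroup.iff_card.1 hMqp
  have hrel : (N.subgroupOf M).index = q ^ b := by
    have h1 := Subgroup.card_mul_index (N.subgroupOf M)
    rw [Nat.card_congr (Subgroup.subgroupOfEquivOfLe hNM).toEquiv, hM,
      Cores.card_comap_mk_eq] at h1
    rw [← hb]
    exact Nat.eq_of_mul_eq_mul_left Nat.card_pos h1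
  have hqp : q ≠ p := by
    rintro rfl
    have hMp : IsPGroup q M := IsPGroup.of_card (n := a + b) (by
      rw [hM, Cores.card_comap_mk_eq, ha, hb, pow_add])
    have hLne : Cfsg.pCore q G ≠ ⊥ := fun he =>
      hNne (le_bot_iff.1 (he ▸ Cores.le_pCore hNn hNp))
    obtain ⟨-, -, hmin, -, -⟩ := S0587.result q hLne U hU hUc
    have hNL := (hmin N hNn (Cores.le_pCore hNn hNp)).resolve_left hNne
    exact hMneN (le_antisymm (hNL ▸ Cores.le_pCore inferInstance hMp) hNM)
  have hcop : (Nat.card (N.subgroupOf M)).Coprime (N.subgroupOf M).index := by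
    rw [Nat.card_congr (Subgroup.subgroupOfEquivOfLe hNM).toEquiv, hrel, ha]
    exact ((Nat.coprime_primes hp hq).2 (Ne.symm hqp)).pow _ _
  obtain ⟨⟨m, hm⟩, -, hmeq⟩ := SZ.conj_complement (N.subgroupOf M) (U.subgroupOf M)
    (V.subgroupOf M) (SZ.isComplement'_subgroupOf hcU M (Or.inl hNM))
    (SZ.isComplement'_subgroupOf hcV M (Or.inl hNM)) hcop (Or.inl inferInstance)
  refine ⟨m, ?_⟩
  set W := V ⊓ M with hW
  have hWU : W = MulAut.conj m • (U ⊓ M) := by
    ext z
    rw [SolvStruct.mem_conj_smul]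
    constructor
    · rintro ⟨hzV, hzM⟩
      have : (⟨z, hzM⟩ : M) ∈ V.subgroupOf M := hzV
      rw [← hmeq, SolvStruct.mem_conj_smul] at this
      exact ⟨this, M.mul_mem (M.mul_mem (M.inv_mem hm) hzM) hm⟩
    · rintro ⟨hzU, hzM⟩
      have hz : z ∈ M := by
        simpa [mul_assoc] using M.mul_mem (M.mul_mem hm hzM) (M.inv_mem hm)
      have : (⟨z, hz⟩ : M) ∈ MulAut.conj (⟨m, hm⟩ : M) • U.subgroupOf M :=
        SolvStruct.mem_conj_smul.2 hzU
      rw [hmeq] at this
      exact ⟨this, hz⟩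
  have hN1 : V ≤ Subgroup.normalizer (W : Set G) := Subgroup.le_normalizer_iff.2 fun v hv w hw =>
    ⟨V.mul_mem (V.mul_mem hv hw.1) (V.inv_mem hv), (inferInstance : M.Normal).conj_mem w hw.2 v⟩
  have hN2 : MulAut.conj m • U ≤ Subgroup.normalizer (W : Set G) :=
    Subgroup.le_normalizer_iff.2 fun v hv w hw => by
      rw [hWU, SolvStruct.mem_conj_smul] at hw
      rw [SolvStruct.mem_conj_smul] at hv
      rw [hWU, SolvStruct.mem_conj_smul]
      have e : m⁻¹ * (v * w * v⁻¹) * m = (m⁻¹ * v * m) * (m⁻¹ * w * m) * (m⁻¹ * v * m)⁻¹ := by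
        simp [mul_assoc]
      rw [e]
      exact ⟨U.mul_mem (U.mul_mem hv hw.1) (U.inv_mem hv),
        (inferInstance : M.Normal).conj_mem _ hw.2 _⟩
  have hne : Subgroup.normalizer (W : Set G) ≠ ⊤ := by
    intro he
    haveI : W.Normal := Subgroup.normalizer_eq_top_iff.1 he
    have hWbot : W = ⊥ := SolvStruct.eq_bot_of_normal_le_corefree hVc inf_le_left
    refine hMneN (SolvStruct.eq_of_le_of_sup_eq_top hNM ?_ (show M ⊓ V = ⊥ by rw [inf_comm, ← hW, hWbot])).symm
    exact SolvStruct.sup_normal_eq_top_of_corefree hV hVc hNne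
  have hV' : Subgroup.normalizer (W : Set G) = V :=
    ((hV.le_iff).1 hN1).resolve_left hne
  have hle : MulAut.conj m • U ≤ V := hN2.trans hV'.le
  refine Subgroup.eq_of_le_of_card_ge hle ?_
  rw [SolvStruct.card_conj_smul]
  exact Nat.le_of_mul_le_mul_left
    (hcV.card_mul_card.le.trans hcU.card_mul_card.ge) Nat.card_pos

end Cfsg.Agent.S0551
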