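import Cfsg.Statements.S0552
import Cfsg.Agent.Cores.Fitting

set_option autoImplicit false
open Cfsg
open scoped Pointwise commutatorElement

namespace Cfsg.Agent.S0552

/-- Let σ be an automorphism of a finite solvable group G fixing every element of the Fitting subgroup. If σ is not the identity then the order of σ and the order of G have a common prime factor. -/
theorem result {G : Type*} [Group G] [Finite G] [Group.IsSolvable G] (σ : G ≃* G) (hσ : ∀ x ∈ Cfsg.fittingSubgroup G, σ x = x) (hne : σ ≠ MulEquiv.refl G) : ¬ (orderOf σ).Coprime (Nat.card G) := by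
  intro hcop
  refine hne (MulEquiv.ext fun g => ?_)
  haveI := Cores.fittingSubgroup_normal_inst G
  set F := Cfsg.fittingSubgroup G with hF
  set z := g⁻¹ * σ g with hz
  have hzF : z ∈ F := by
    refine Cores.centralizer_fittingSubgroup_le ?_
    refine Subgroup.mem_centralizer_iff.2 fun x hx => ?_
    have h1 := hσ _ ((inferInstance : F.Normal).conj_mem x hx g)
    rw [map_mul, map_mul, map_inv, hσ x hx] at h1
    have h2 := congrArg (fun y => g⁻¹ * y * σ g) h1
    simpa [hz, mul_assoc] using h2.symm
  have hpow : ∀ n : ℕ, (σ ^ n : MulAut G) g = g * z ^ n := by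
    intro n
    induction n with
    | zero => simp
    | succ n ih =>
      have e : (σ ^ (n + 1) : MulAut G) g = σ ((σ ^ n : MulAut G) g) := by
        rw [pow_succ']; rfl
      rw [e, ih, map_mul, map_pow, hσ z hzF, hz, pow_succ']
      simp [mul_assoc]
  have h1 : z ^ orderOf σ = 1 := by
    have := hpow (orderOf σ)
    rw [show (σ : MulAut G) ^ orderOf σ = 1 from pow_orderOf_eq_one σ] at this
    simpa using this.symm
  have h3 : z = 1 := by
    have := Nat.eq_one_of_dvd_coprimes hcop (orderOf_dvd_of_pow_eq_one h1)
      (orderOf_dvd_natCard z)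
    exact orderOf_eq_one_iff.1 this
  exact (inv_mul_eq_one.1 h3).symm

end Cfsg.Agent.S0552
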