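import Cfsg.Statements.S0553
import Cfsg.Agent.Lib.MinimalNormal
import Cfsg.Agent.SolvStruct.Products

set_option autoImplicit false
open Cfsg
open scoped Pointwise commutatorElement

namespace Cfsg.Agent.S0553

/-- Let G be a nontrivial finite solvable group in which every maximal subgroup has order coprime to its index. Then for some prime p dividing the order of G the Sylow p-subgroups of G are normal. -/
theorem result {G : Type*} [Group G] [Finite G] [Group.IsSolvable G] [Nontrivial G] (h : ∀ M : Subgroup G, IsCoatom M → (Nat.card M).Coprime M.index) : ∃ p : ℕ, p.Prime ∧ p ∣ Nat.card G ∧ ∀ P : Sylow p G, (P : Subgroup G).Normal := by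
  classical
  induction hn : Nat.card G using Nat.strong_induction_on generalizing G with
  | _ n ih =>
    subst hn
    obtain ⟨N, hNn, hNne, hNmin, hNab, p, hp, -, hNp⟩ :=
      MinNormal.exists_elementary_abelian (G := G)
    haveI : Fact p.Prime := ⟨hp⟩
    haveI := hNn
    have hpN : p ∣ Nat.card N := by
      haveI : Nontrivial N := (Subgroup.nontrivial_iff_ne_bot N).2 hNne
      obtain ⟨m, hm, hc⟩ := hNp.nontrivial_iff_card.1 inferInstance
      rw [hc]; exact dvd_pow_self _ hm.ne'
    have hpd : p ∣ Nat.card G := hpN.trans N.card_subgroup_dvd_card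
    by_cases hsylN : ∀ P : Sylow p G, (P : Subgroup G) = N
    · exact ⟨p, hp, hpd, fun P => by rw [hsylN P]; exact hNn⟩
    have hnotp : ∀ M : Subgroup G, IsCoatom M → ¬ N ≤ M → False := by
      intro M hM hNM
      have htop : N ⊔ M = ⊤ := hM.2 _ (right_lt_sup.2 hNM)
      have hidx : M.index ∣ Nat.card N := by
        have hcard : Nat.card (⊤ : Subgroup G) ∣ Nat.card N * Nat.card M := by
          have huniv : (N : Set G) * (M : Set G) = Set.univ := by
            rw [← Subgroup.normal_mul, htop, Subgroup.coe_top]
          refine ⟨Nat.card ↥(N ⊓ M), ?_⟩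
          rw [← SolvStruct.card_mul_set_mul_card_inf N M, huniv, Subgroup.card_top,
            Nat.card_congr (Equiv.Set.univ G)]
        rw [Subgroup.card_top, ← Subgroup.card_mul_index M, mul_comm (Nat.card N)] at hcard
        exact Nat.dvd_of_mul_dvd_mul_left Nat.card_pos hcard
      obtain ⟨k, hk⟩ := IsPGroup.iff_card.1 hNp
      rw [hk] at hidx
      obtain ⟨j, hjk, hj⟩ := (Nat.dvd_prime_pow hp).1 hidx
      have hj0 : j ≠ 0 := by
        rintro rfl
        exact hM.1 (Subgroup.index_eq_one.1 (by simpa using hj))
      have hcopM := h M hM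
      rw [hj, Nat.coprime_pow_right_iff (Nat.pos_of_ne_zero hj0)] at hcopM
      refine hsylN fun P => (Subgroup.eq_of_le_of_card_ge (hNp.le_sylow_of_normal P) ?_).symm
      have hfac : (Nat.card G).factorization p = j := by
        rw [← Subgroup.card_mul_index M, Nat.factorization_mul Nat.card_pos.ne'
          Subgroup.FiniteIndex.index_ne_zero, Finsupp.add_apply, hj,
          Nat.Prime.factorization_pow hp, Finsupp.single_eq_same,
          Nat.factorization_eq_zero_of_not_dvd ((hp.coprime_iff_not_dvd).1 hcopM.symm), zero_add]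
      rw [P.card_eq_multiplicity, hfac, hk]
      exact Nat.pow_le_pow_right hp.pos hjk
    rcases subsingleton_or_nontrivial (G ⧸ N) with hq | hq
    · exfalso
      have hNtop : N = ⊤ := QuotientGroup.subgroup_eq_top_of_subsingleton N hq
      exact hsylN fun P => le_antisymm (hNtop ▸ le_top) (hNp.le_sylow_of_normal P)
    have hlt : Nat.card (G ⧸ N) < Nat.card G := by
      rw [Subgroup.card_eq_card_quotient_mul_card_subgroup N]
      exact lt_mul_of_one_lt_right Nat.card_pos (N.one_lt_card_iff_ne_bot.2 hNne)
    obtain ⟨q, hqp, hqd, hqn⟩ := ih _ hlt (fun M hM => by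
      have h1 := h _ (Subgroup.isCoatom_comap_of_surjective (QuotientGroup.mk'_surjective N) hM)
      rw [Subgroup.index_comap_of_surjective _ (QuotientGroup.mk'_surjective _)] at h1
      refine h1.coprime_dvd_left ?_
      conv_lhs => rw [← Subgroup.map_comap_eq_self_of_surjective (QuotientGroup.mk'_surjective N) M]
      exact Subgroup.card_map_dvd _ _) rfl
    haveI : Fact q.Prime := ⟨hqp⟩
    refine ⟨q, hqp, hqd.trans (Subgroup.card_quotient_dvd_card N), fun P => ?_⟩
    set X := ((P : Subgroup G).map (QuotientGroup.mk' N)).comap (QuotientGroup.mk' N) with hXdef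
    haveI hX : X.Normal :=
      (hqn (P.mapSurjective (QuotientGroup.mk'_surjective N))).comap _
    rw [← Subgroup.normalizer_eq_top_iff]
    by_contra hnt
    obtain ⟨M, hM, hle⟩ :=
      (eq_top_or_exists_le_coatom (Subgroup.normalizer ((P : Subgroup G) : Set G))).resolve_left hnt
    refine hnotp M hM fun hNM => hM.1 (top_unique ?_)
    have hPX : (P : Subgroup G) ≤ X := Subgroup.le_comap_map _ _
    have hFr := Sylow.normalizer_sup_eq_top' P hPX
    refine hFr.ge.trans (sup_le hle ?_)
    rw [hXdef, Subgroup.comap_map_eq, QuotientGroup.ker_mk']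
    exact sup_le (Subgroup.le_normalizer.trans hle) hNM

end Cfsg.Agent.S0553
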