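import Cfsg.Statements.S0554
import Cfsg.Agent.Lib.MinimalNormal

set_option autoImplicit false
open Cfsg
open scoped Pointwise commutatorElement

namespace Cfsg.Agent.S0554

/-- Let G be a finite solvable group and let S assign to each of t distinct primes, including every prime divisor of the order of G, a Sylow subgroup of G. Then every element of G is a product s_0 s_1 ⋯ s_(t-1) with s_i in S i, the factors taken in the given order. -/
theorem result {G : Type*} [Group G] [Finite G] [Group.IsSolvable G] (t : ℕ) (p : Fin t → ℕ) (hp : ∀ i, (p i).Prime) (hinj : Function.Injective p) (hall : ∀ q : ℕ, q.Prime → q ∣ Nat.card G → ∃ i, p i = q) (S : (i : Fin t) → Sylow (p i) G) : ∀ g : G, ∃ s : (i : Fin t) → G, (∀ i, s i ∈ (S i : Subgroup G)) ∧ g = (List.ofFn s).prod := by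
  classical
  induction hn : Nat.card G using Nat.strong_induction_on generalizing G with
  | _ n ih =>
    rcases subsingleton_or_nontrivial G with hG | hG
    · exact fun g => ⟨fun _ => 1, fun i => one_mem _, Subsingleton.elim _ _⟩
    obtain ⟨N, hNn, hNne, hNmin, hNab, q, hq, -, hNq⟩ :=
      MinNormal.exists_elementary_abelian (G := G)
    have hlt : Nat.card (G ⧸ N) < n := by
      rw [← hn, Subgroup.card_eq_card_quotient_mul_card_subgroup N]
      exact lt_mul_of_one_lt_right Nat.card_pos (N.one_lt_card_iff_ne_bot.2 hNne)
    intro g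
    haveI : ∀ i, Fact (p i).Prime := fun i => ⟨hp i⟩
    obtain ⟨s, hs, hprod⟩ := ih _ hlt
      (fun r hr hrd => hall r hr (hrd.trans (Subgroup.card_quotient_dvd_card N)))
      (fun i => (S i).mapSurjective (QuotientGroup.mk'_surjective N)) rfl (g : G ⧸ N)
    choose u hu hus using fun i => Subgroup.mem_map.1 (hs i)
    obtain ⟨j, hj⟩ := hall q hq (by
      haveI : Nontrivial N := (Subgroup.nontrivial_iff_ne_bot N).2 hNne
      haveI : Fact q.Prime := ⟨hq⟩
      obtain ⟨m, hm, hc⟩ := hNq.nontrivial_iff_card.1 inferInstance
      exact (hc ▸ dvd_pow_self _ hm.ne').trans N.card_subgroup_dvd_card)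
    subst hj
    have hNS : N ≤ (S j : Subgroup G) := hNq.le_sylow_of_normal (S j)
    have key : ∀ (l : List (Fin t)) (f : Fin t → G), j ∈ l → l.Nodup → ∀ x ∈ N,
        ∃ y ∈ N, (l.map (Function.update f j (f j * y))).prod = (l.map f).prod * x := by
      intro l f
      induction l with
      | nil => intro hj; exact absurd hj (List.not_mem_nil)
      | cons a l ihl =>
        intro hj hnd x hx
        obtain ⟨hal, hnd'⟩ := List.nodup_cons.1 hnd
        by_cases hja : j = a
        · subst hja
          refine ⟨(l.map f).prod * x * ((l.map f).prod)⁻¹, hNn.conj_mem x hx _, ?_⟩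
          have hmap : l.map (Function.update f j (f j * ((l.map f).prod * x * ((l.map f).prod)⁻¹)))
              = l.map f := List.map_congr_left fun b hb =>
            Function.update_of_ne (fun hbj => hal (by subst hbj; exact hb)) _ _
          rw [List.map_cons, List.prod_cons, hmap, Function.update_self, List.map_cons, List.prod_cons]
          simp [mul_assoc]
        · obtain ⟨y, hy, he⟩ := ihl (List.mem_of_ne_of_mem hja hj) hnd' x hx
          refine ⟨y, hy, ?_⟩
          simp [Function.update_of_ne (Ne.symm hja), he, mul_assoc]
    have hx : ((List.ofFn u).prod)⁻¹ * g ∈ N := by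
      rw [← QuotientGroup.eq, hprod, ← QuotientGroup.mk'_apply, map_list_prod, List.map_ofFn]
      congr 1
      exact congrArg List.ofFn (funext hus)
    obtain ⟨y, hy, he⟩ := key (List.finRange t) u (List.mem_finRange j) (List.nodup_finRange t) _ hx
    refine ⟨Function.update u j (u j * y), fun i => ?_, ?_⟩
    · rcases eq_or_ne i j with rfl | hij
      · rw [Function.update_self]; exact mul_mem (hu _) (hNS hy)
      · rw [Function.update_of_ne hij]; exact hu i
    · rw [List.ofFn_eq_map] at he ⊢
      rw [he, mul_inv_cancel_left]

end Cfsg.Agent.S0554
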