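import Cfsg.Statements.S0555
import Cfsg.Agent.SolvStruct.Products

set_option autoImplicit false
open Cfsg
open scoped Pointwise commutatorElement

namespace Cfsg.Agent.S0555

/-- Let i ≥ 1. If in the derived series of a group the quotient of the i-th term by the (i+1)-st and the quotient of the (i+1)-st by the (i+2)-nd are both cyclic, then the (i+1)-st and (i+2)-nd terms coincide. -/
theorem result {G : Type*} [Group G] (i : ℕ) (hi : 1 ≤ i) (h₁ : IsCyclic (↥(derivedSeries G i) ⧸ (derivedSeries G (i + 1)).subgroupOf (derivedSeries G i))) (h₂ : IsCyclic (↥(derivedSeries G (i + 1)) ⧸ (derivedSeries G (i + 2)).subgroupOf (derivedSeries G (i + 1)))) : derivedSeries G (i + 1) = derivedSeries G (i + 2) := by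
  obtain ⟨j, rfl⟩ : ∃ j, i = j + 1 := ⟨i - 1, by omega⟩
  set A := derivedSeries G (j + 1) with hA
  set B := derivedSeries G (j + 1 + 1) with hB
  haveI hCn : (derivedSeries G (j + 1 + 2)).Normal := derivedSeries_normal G _
  set C := derivedSeries G (j + 1 + 2) with hC
  haveI hBn : B.Normal := derivedSeries_normal G _
  haveI : (C.subgroupOf B).Normal := hCn.subgroupOf B
  haveI : (B.subgroupOf A).Normal := hBn.subgroupOf A
  obtain ⟨bq, hbq⟩ := IsCyclic.exists_generator (α := ↥B ⧸ C.subgroupOf B)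
  obtain ⟨b0, rfl⟩ := QuotientGroup.mk_surjective bq
  obtain ⟨aq, haq⟩ := IsCyclic.exists_generator (α := ↥A ⧸ B.subgroupOf A)
  obtain ⟨a0, rfl⟩ := QuotientGroup.mk_surjective aq
  let π := QuotientGroup.mk' C
  have hgenB : ∀ b ∈ B, ∃ k : ℤ, π b = π (b0 : G) ^ k := by
    intro b hb
    obtain ⟨k, hk⟩ := Subgroup.mem_zpowers_iff.1 (hbq ((⟨b, hb⟩ : B) : ↥B ⧸ C.subgroupOf B))
    refine ⟨k, ?_⟩
    rw [← QuotientGroup.mk_zpow, QuotientGroup.eq] at hk
    rw [← map_zpow, eq_comm, QuotientGroup.mk'_apply, QuotientGroup.mk'_apply, QuotientGroup.eq]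
    simpa [Subgroup.mem_subgroupOf] using hk
  have hact : ∀ g : G, ∃ m : ℤ, ∀ b ∈ B, π g * π b * (π g)⁻¹ = π b ^ m := by
    intro g
    obtain ⟨m, hm⟩ := hgenB _ (hBn.conj_mem _ b0.2 g)
    refine ⟨m, fun b hb => ?_⟩
    obtain ⟨k, hk⟩ := hgenB b hb
    rw [hk, ← conj_zpow, ← map_inv, ← map_mul, ← map_mul, hm, ← zpow_mul, ← zpow_mul, mul_comm m k]
  have hcent : (commutator G).map π ≤ Subgroup.centralizer ((B.map π : Subgroup (G ⧸ C)) : Set (G ⧸ C)) := by
    rw [commutator_def, Subgroup.map_le_iff_le_comap, Subgroup.commutator_le]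
    intro g _ h _
    rw [Subgroup.mem_comap, map_commutatorElement, Subgroup.mem_centralizer_iff]
    rintro _ ⟨b, hb, rfl⟩
    obtain ⟨m, hm⟩ := hact g
    obtain ⟨n, hn⟩ := hact h
    have key : ∀ c ∈ B, (π g * π h) * π c * (π g * π h)⁻¹ = (π h * π g) * π c * (π h * π g)⁻¹ := by
      intro c hc
      have e1 : π g * (π h * π c * (π h)⁻¹) * (π g)⁻¹ = π c ^ (m * n) := by
        rw [hn c hc, ← conj_zpow, hm c hc, zpow_mul]
      have e2 : π h * (π g * π c * (π g)⁻¹) * (π h)⁻¹ = π c ^ (m * n) := by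
        rw [hm c hc, ← conj_zpow, hn c hc, ← zpow_mul, mul_comm]
      simpa [mul_assoc] using e1.trans e2.symm
    have hk := key _ (hBn.conj_mem b hb (h * g)⁻¹)
    have hfix : ⁅π g, π h⁆ * π b * ⁅π g, π h⁆⁻¹ = π b := by
      simpa [commutatorElement_def, mul_assoc] using hk
    exact (mul_inv_eq_iff_eq_mul.1 hfix).symm
  have hAle : A ≤ commutator G := by
    rw [hA, ← derivedSeries_one]; exact derivedSeries_antitone G (by omega)
  have hgenA : ∀ a ∈ A, ∃ k : ℤ, ∃ b ∈ B, a = (a0 : G) ^ k * b := by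
    intro a ha
    obtain ⟨k, hk⟩ := Subgroup.mem_zpowers_iff.1 (haq ((⟨a, ha⟩ : A) : ↥A ⧸ B.subgroupOf A))
    rw [← QuotientGroup.mk_zpow, QuotientGroup.eq] at hk
    exact ⟨k, _, (by simpa [Subgroup.mem_subgroupOf] using hk : ((a0 : G) ^ k)⁻¹ * a ∈ B), by simp⟩
  refine le_antisymm ?_ (derivedSeries_antitone G (by omega))
  show B ≤ C
  have hBA : B ≤ A := derivedSeries_antitone G (by omega)
  rw [hB, derivedSeries_succ, Subgroup.commutator_le]
  intro x hx y hy
  obtain ⟨k, b, hb, rfl⟩ := hgenA x hx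
  obtain ⟨l, b', hb', rfl⟩ := hgenA y hy
  have hab : ∀ {a c : G}, a ∈ A → c ∈ B → Commute (π a) (π c) := fun ha hc => by
    have := hcent (Subgroup.mem_map_of_mem π (hAle ha))
    exact (Subgroup.mem_centralizer_iff.1 this _ (Subgroup.mem_map_of_mem π hc)).symm
  rw [← QuotientGroup.eq_one_iff (N := C), ← QuotientGroup.mk'_apply, map_commutatorElement,
    commutatorElement_eq_one_iff_mul_comm]
  show π ((a0 : G) ^ k * b) * π ((a0 : G) ^ l * b') = π ((a0 : G) ^ l * b') * π ((a0 : G) ^ k * b)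
  rw [map_mul, map_mul, map_zpow, map_zpow]
  have ha0 := a0.2
  have c1 : Commute (π (a0:G) ^ k) (π (a0:G) ^ l) := Commute.zpow_zpow_self _ _ _
  have c2 : Commute (π (a0:G) ^ k) (π b') := (hab ha0 hb').zpow_left k
  have c3 : Commute (π b) (π (a0:G) ^ l) := ((hab ha0 hb).zpow_left l).symm
  exact ((c1.mul_right c2).mul_left (c3.mul_right (hab (hBA hb) hb')) : Commute _ _)

end Cfsg.Agent.S0555
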