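import Cfsg.Statements.S0556
import Cfsg.Agent.Lib.FrobeniusGroup
import Cfsg.Agent.Coprime.Action
import Cfsg.Agent.SolvStruct.Nilpotent
import Cfsg.Agent.SolvStruct.Basic

set_option autoImplicit false
open Cfsg
open scoped Pointwise commutatorElement

namespace Cfsg.Agent.S0556

/-- If a finite group has a maximal subgroup that is abelian, then the third term of its derived series is trivial (so the group is solvable of derived length at most three). -/
theorem result {G : Type*} [Group G] [Finite G] (A : Subgroup G) (hA : IsCoatom A) [IsMulCommutative A] : derivedSeries G 3 = ⊥ := by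
  have hcA : ∀ a ∈ A, ∀ a' ∈ A, a * a' = a' * a := fun a ha a' ha' =>
    congrArg Subtype.val (IsMulCommutative.is_comm.comm (⟨a, ha⟩ : A) ⟨a', ha'⟩)
  suffices h : ∃ Z : Subgroup G, ⁅derivedSeries G 1, derivedSeries G 1⁆ ≤ Z ∧
      ∀ x ∈ Z, ∀ y ∈ Z, x * y = y * x by
    obtain ⟨Z, hZ, hZc⟩ := h
    rw [eq_bot_iff, derivedSeries_succ, derivedSeries_succ]
    refine Subgroup.commutator_le.2 fun x hx y hy => ?_
    exact Subgroup.mem_bot.2 (commutatorElement_eq_one_iff_mul_comm.2 (hZc x (hZ hx) y (hZ hy)))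
  by_cases hAn : A.Normal
  · haveI := hAn
    have hab : derivedSeries G 1 ≤ A := by
      rw [derivedSeries_one, commutator_def]
      refine Subgroup.commutator_le.2 fun x _ y _ => ?_
      rw [← QuotientGroup.eq_one_iff]
      by_cases hx : (x : G ⧸ A) = 1
      · show QuotientGroup.mk' A ⁅x, y⁆ = 1
        rw [map_commutatorElement, QuotientGroup.mk'_apply, hx, commutatorElement_one_left]
      · have hz : A ⊔ Subgroup.zpowers x = ⊤ := hA.2 _ (lt_of_le_of_ne le_sup_left fun h =>
          hx ((QuotientGroup.eq_one_iff x).2 (h ▸ Subgroup.mem_sup_right (Subgroup.mem_zpowers x))))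
        have hy : y ∈ A ⊔ Subgroup.zpowers x := hz ▸ Subgroup.mem_top y
        rw [← SetLike.mem_coe, Subgroup.normal_mul] at hy
        obtain ⟨a, ha, z, hz', rfl⟩ := hy
        obtain ⟨k, rfl⟩ := Subgroup.mem_zpowers_iff.1 hz'
        show QuotientGroup.mk' A ⁅x, a * x ^ k⁆ = 1
        rw [map_commutatorElement, commutatorElement_eq_one_iff_mul_comm, map_mul,
          QuotientGroup.mk'_apply, QuotientGroup.mk'_apply, (QuotientGroup.eq_one_iff a).2 ha,
          one_mul, map_zpow, QuotientGroup.mk'_apply]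
        exact ((Commute.refl _).zpow_right k).eq
    exact ⟨A, (Subgroup.commutator_mono hab hab).trans
      (Subgroup.commutator_le.2 fun x hx y hy => A.mul_mem (A.mul_mem (A.mul_mem hx hy)
        (A.inv_mem hx)) (A.inv_mem hy)), hcA⟩
  -- `A` is not normal
  have hNA : Subgroup.normalizer (A : Set G) = A := by
    by_contra hne
    exact hAn (Subgroup.normalizer_eq_top_iff.1
      (hA.2 _ (lt_of_le_of_ne Subgroup.le_normalizer (Ne.symm hne))))
  set Z := Subgroup.center G with hZdef
  have hZA : Z ≤ A := fun z hz => by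
    rw [← hNA, Subgroup.mem_normalizer_iff'']
    intro x
    rw [mul_assoc, Subgroup.mem_center_iff.1 hz x, inv_mul_cancel_left]
  let f := QuotientGroup.mk' Z
  have hf : Function.Surjective f := QuotientGroup.mk'_surjective Z
  set Ab := A.map f with hAb
  have hker : f.ker ≤ A := (QuotientGroup.ker_mk' Z).le.trans hZA
  have hcom : Ab.comap f = A := Subgroup.comap_map_eq_self hker
  have hcoatom : IsCoatom Ab := ⟨fun h => hA.1 (by rw [← hcom, h, Subgroup.comap_top]),
    fun B hB => by
      have hlt : A < B.comap f := hcom ▸ (Subgroup.comap_lt_comap_of_surjective hf).2 hB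
      rw [← Subgroup.map_comap_eq_self_of_surjective hf B, hA.2 _ hlt,
        Subgroup.map_top_of_surjective f hf]⟩
  have hfro : Cfsg.IsFrobeniusComplement Ab := by
    refine Frobenius.isFrobeniusComplement_of_ti (fun h => hAn ?_) hcoatom.1 ?_
    · have hAZ : A = Z := le_antisymm (by
        rw [← hcom, h, MonoidHom.comap_bot, QuotientGroup.ker_mk']) hZA
      rw [hAZ]; infer_instance
    · intro g hg x hx hgx
      obtain ⟨g, rfl⟩ := hf g
      obtain ⟨x, hxA, rfl⟩ := hx
      have hgA : g ∉ A := fun h => hg (Subgroup.mem_map_of_mem f h)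
      have hgxA : g * x * g⁻¹ ∈ A := by
        rw [← hcom, Subgroup.mem_comap, map_mul, map_mul, map_inv]; exact hgx
      refine (QuotientGroup.eq_one_iff x).2 ?_
      have hC : Subgroup.centralizer ({g * x * g⁻¹} : Set G) = ⊤ := by
        set C := Subgroup.centralizer ({g * x * g⁻¹} : Set G) with hCdef
        have h1 : A ≤ C := fun a ha => Subgroup.mem_centralizer_singleton_iff.2 (hcA a ha _ hgxA)
        refine hA.2 _ (lt_of_le_of_ne h1 fun e => hgA ?_)
        rw [← hNA]
        refine Subgroup.mem_normalizer_iff_map_conj_eq.2 (Subgroup.eq_of_le_of_card_ge ?_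
          (Subgroup.card_map_of_injective (MulAut.conj g).injective).ge)
        rintro _ ⟨a, ha, rfl⟩
        show g * a * g⁻¹ ∈ A
        rw [e]
        refine Subgroup.mem_centralizer_singleton_iff.2 ?_
        have := hcA a ha x hxA
        calc g * a * g⁻¹ * (g * x * g⁻¹) = g * (a * x) * g⁻¹ := by group
          _ = g * x * g⁻¹ * (g * a * g⁻¹) := by rw [this]; group
      have hcen : g * x * g⁻¹ ∈ Z := Subgroup.mem_center_iff.2 fun y =>
        Subgroup.mem_centralizer_singleton_iff.1 (hC ▸ Subgroup.mem_top y)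
      have := (inferInstance : Z.Normal).conj_mem _ hcen g⁻¹
      simpa [mul_assoc] using this
  obtain ⟨N, -, hNn, hNc⟩ := Frobenius.exists_kernel hfro
  haveI := hNn
  have hAbc : ∀ a ∈ Ab, ∀ a' ∈ Ab, a * a' = a' * a := by
    rintro _ ⟨a, ha, rfl⟩ _ ⟨a', ha', rfl⟩
    rw [← map_mul, hcA a ha a' ha', map_mul]
  have hsolA : Group.IsSolvable Ab :=
    Group.isSolvable_of_comm fun a b => Subtype.ext (hAbc a a.2 b b.2)
  have hcop : (Nat.card Ab).Coprime (Nat.card N) :=
    (Frobenius.coprime_of_fpf Subgroup.le_normalizer_of_normal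
      fun h hh h1 => Frobenius.fpf_of_disjoint hfro hNc.disjoint hh h1).symm
  have hNne := Frobenius.ne_bot_of_isComplement' hfro hNc
  have hNtop : N ⊔ Ab = ⊤ := hNc.sup_eq_top
  have hinf : N ⊓ Ab = ⊥ := hNc.disjoint.eq_bot
  -- a nontrivial `A`-invariant subgroup of `N` is all of `N`
  have hirr : ∀ M : Subgroup (G ⧸ Z), M ≤ N → M ≠ ⊥ → Ab ≤ Subgroup.normalizer (M : Set (G ⧸ Z)) →
      M = N := by
    intro M hMN hM hAM
    have hsup : Ab ⊔ M = ⊤ := hcoatom.2 _ (lt_of_le_of_ne le_sup_left fun h => hM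
      (le_bot_iff.1 (hinf ▸ le_inf hMN (h ▸ le_sup_right))))
    refine le_antisymm hMN fun n hn => ?_
    have hn' : n ∈ ((Ab ⊔ M : Subgroup (G ⧸ Z)) : Set (G ⧸ Z)) := hsup ▸ Subgroup.mem_top n
    rw [Subgroup.coe_mul_of_left_le_normalizer_right Ab M hAM] at hn'
    obtain ⟨a, ha, m, hm, rfl⟩ := hn'
    have ha1 : a ∈ N := (N.mul_mem_cancel_right (hMN hm)).1 hn
    have : a = 1 := Subgroup.mem_bot.1 (hinf ▸ ⟨ha1, ha⟩)
    show a * m ∈ M
    rw [this, one_mul]; exact hm
  obtain ⟨q, hq, hqd⟩ := Nat.exists_prime_and_dvd (N.one_lt_card_iff_ne_bot.2 hNne).ne'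
  haveI : Fact q.Prime := ⟨hq⟩
  obtain ⟨Q, hQ⟩ := Coprime.exists_invariant_sylow q (A := Ab) (K := N)
    Subgroup.le_normalizer_of_normal hcop (Or.inl hsolA)
  have hQN := hirr _ (Subgroup.map_subtype_le _) (by
    rw [Ne, Subgroup.map_eq_bot_iff_of_injective _ N.subtype_injective]
    exact Q.ne_bot_of_dvd_card hqd) hQ
  have hNp : IsPGroup q N := hQN ▸ Q.isPGroup'.map N.subtype
  haveI : Group.IsNilpotent N := hNp.isNilpotent
  haveI : Nontrivial N := (N.nontrivial_iff_ne_bot).2 hNne
  have hcNne : (Subgroup.center N).map N.subtype ≠ ⊥ := by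
    rw [Ne, Subgroup.map_eq_bot_iff_of_injective _ N.subtype_injective]
    intro hh
    exact SolvStruct.nilpotent_inf_center_ne_bot (G := N) ⊤ top_ne_bot (by rw [hh, inf_bot_eq])
  have hNab := hirr _ (Subgroup.map_subtype_le _) hcNne
    (Subgroup.le_normalizer_of_normal.trans le_rfl)
  have hNcomm : ∀ x ∈ N, ∀ y ∈ N, x * y = y * x := by
    intro x hx y hy
    rw [← hNab] at hx
    obtain ⟨x', hx', rfl⟩ := hx
    exact (congrArg Subtype.val (Subgroup.mem_center_iff.1 hx' ⟨y, hy⟩)).symm
  have hder : commutator (G ⧸ Z) ≤ N := by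
    rw [commutator_def]
    refine Subgroup.commutator_le.2 fun x _ y _ => ?_
    rw [← QuotientGroup.eq_one_iff]
    show QuotientGroup.mk' N ⁅x, y⁆ = 1
    rw [map_commutatorElement, commutatorElement_eq_one_iff_mul_comm]
    have hgen : ∀ z : G ⧸ Z, ∃ a ∈ Ab, QuotientGroup.mk' N z = QuotientGroup.mk' N a := by
      intro z
      have hz : z ∈ N ⊔ Ab := hNtop ▸ Subgroup.mem_top z
      rw [← SetLike.mem_coe, Subgroup.normal_mul] at hz
      obtain ⟨n, hn, a, ha, rfl⟩ := hz
      refine ⟨a, ha, ?_⟩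
      rw [map_mul, show QuotientGroup.mk' N n = 1 from (QuotientGroup.eq_one_iff n).2 hn, one_mul]
    obtain ⟨a, ha, ea⟩ := hgen x
    obtain ⟨b, hb, eb⟩ := hgen y
    rw [ea, eb, ← map_mul, ← map_mul, hAbc a ha b hb]
  refine ⟨Z, ?_, fun x _ y hy => Subgroup.mem_center_iff.1 hy x⟩
  refine Subgroup.commutator_le.2 fun x hx y hy => ?_
  rw [← QuotientGroup.eq_one_iff]
  show f ⁅x, y⁆ = 1
  have hle : (derivedSeries G 1).map f ≤ N :=
    (map_derivedSeries_le_derivedSeries f 1).trans (by rw [derivedSeries_one]; exact hder)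
  rw [map_commutatorElement, commutatorElement_eq_one_iff_mul_comm]
  exact hNcomm _ (hle (Subgroup.mem_map_of_mem f hx)) _ (hle (Subgroup.mem_map_of_mem f hy))

end Cfsg.Agent.S0556
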