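import Cfsg.Statements.S0557
import Cfsg.Agent.SolvStruct.Products
import Cfsg.Agent.SolvStruct.Hall
import Cfsg.Agent.S0080

set_option autoImplicit false
open Cfsg
open scoped Pointwise commutatorElement

namespace Cfsg.Agent.S0557

/-- Let H be a subgroup of a finite group G with order coprime to its index. If iterating the focal-subgroup construction starting from H reaches the trivial subgroup after finitely many steps, then H has a normal complement in G. -/
theorem result {G : Type*} [Group G] [Finite G] (H : Subgroup G) (hHall : (Nat.card H).Coprime H.index) (n : ℕ) (hfoc : (fun K : Subgroup G => Subgroup.focalSubgroup K)^[n] H = ⊥) : ∃ N : Subgroup G, N.Normal ∧ Subgroup.IsComplement' N H := by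
  classical
  induction n generalizing G with
  | zero =>
    rw [Function.iterate_zero_apply] at hfoc
    subst hfoc
    exact ⟨⊤, inferInstance, Subgroup.isComplement'_top_bot⟩
  | succ n ih =>
    rw [Function.iterate_succ_apply] at hfoc
    have hco : Nat.Coprime H.index (⁅H, H⁆.relIndex H) :=
      (hHall.coprime_dvd_left (Subgroup.index_dvd_card _)).symm
    obtain ⟨hF, N, hN, hNH, hNtop⟩ := S0080.result H hco
    rw [← hF] at hNH
    haveI := hN
    set F := Subgroup.focalSubgroup H with hFdef
    have hFN : F ≤ N := hNH ▸ inf_le_left
    have hFH : F ≤ H := hNH ▸ inf_le_right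
    have huniv : (N : Set G) * (H : Set G) = Set.univ := by
      rw [← Subgroup.normal_mul, hNtop, Subgroup.coe_top]
    have hcardN : Nat.card N = H.index * Nat.card F := by
      have e := SolvStruct.card_mul_set_mul_card_inf N H
      rw [huniv, Nat.card_congr (Equiv.Set.univ G), hNH, ← H.card_mul_index] at e
      refine Nat.eq_of_mul_eq_mul_right (Nat.card_pos (α := H)) ?_
      rw [← e]; ring
    have hidx : (F.subgroupOf N).index = H.index := by
      refine Nat.eq_of_mul_eq_mul_left (Nat.card_pos (α := F.subgroupOf N)) ?_
      rw [Subgroup.card_mul_index, Nat.card_congr (Subgroup.subgroupOfEquivOfLe hFN).toEquiv,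
        hcardN, mul_comm]
    have hHall' : (Nat.card (F.subgroupOf N)).Coprime (F.subgroupOf N).index := by
      rw [hidx, Nat.card_congr (Subgroup.subgroupOfEquivOfLe hFN).toEquiv]
      exact hHall.coprime_dvd_left (Subgroup.card_dvd_of_le hFH)
    have hmono : ∀ m : ℕ,
        ((fun K : Subgroup N => Subgroup.focalSubgroup K)^[m] (F.subgroupOf N)).map N.subtype ≤
          (fun K : Subgroup G => Subgroup.focalSubgroup K)^[m] F := by
      intro m
      induction m with
      | zero =>
        exact (Subgroup.map_subgroupOf_eq_of_le hFN).le
      | succ m ihm =>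
        rw [Function.iterate_succ_apply', Function.iterate_succ_apply']
        generalize (fun K : Subgroup N => Subgroup.focalSubgroup K)^[m] (F.subgroupOf N) = X at ihm
        simp only [Subgroup.focalSubgroup_def]
        rw [MonoidHom.map_closure, Subgroup.closure_le]
        rintro _ ⟨g, ⟨hg, z, hz, u, rfl⟩, rfl⟩
        exact Subgroup.subset_closure ⟨ihm (Subgroup.mem_map_of_mem _ hg), z,
          ihm (Subgroup.mem_map_of_mem _ hz), u, map_commutatorElement _ _ _⟩
    have hbot : (fun K : Subgroup N => Subgroup.focalSubgroup K)^[n] (F.subgroupOf N) = ⊥ := by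
      rw [← Subgroup.map_eq_bot_iff_of_injective _ N.subtype_injective]
      exact le_bot_iff.1 ((hmono n).trans hfoc.le)
    obtain ⟨C, hC, hcompl⟩ := ih (F.subgroupOf N) hHall' hbot
    haveI := hC
    have hCcard : Nat.card C = H.index := by rw [← hcompl.index_eq_card, hidx]
    have hCchar : C.Characteristic := by
      refine SolvStruct.characteristic_of_coprime_index ?_
      rw [hcompl.symm.index_eq_card]
      rw [hidx] at hHall'
      exact (hCcard.symm ▸ hHall').symm
    refine ⟨C.map N.subtype, inferInstance, ?_⟩
    have hcard' : Nat.card (C.map N.subtype) = H.index := by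
      rw [← Nat.card_congr (Subgroup.equivMapOfInjective _ _ N.subtype_injective).toEquiv, hCcard]
    refine Subgroup.isComplement'_of_coprime ?_ ?_
    · rw [hcard', mul_comm, H.card_mul_index]
    · rw [hcard']; exact hHall.symm

end Cfsg.Agent.S0557
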