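import Cfsg.Statements.S0558
import Cfsg.Agent.SolvStruct.NilHall

set_option autoImplicit false
open Cfsg
open scoped Pointwise commutatorElement

namespace Cfsg.Agent.S0558

/-- Let H be a subgroup of a finite group G that is not a Sylow subgroup of G for any prime, and suppose that for every prime p dividing the order of H and every Sylow p-subgroup P of H the normalizer of P in G is exactly H. Then some normal subgroup of G is a complement to H. -/
theorem result {G : Type*} [Group G] [Finite G] (H : Subgroup G) (hnot : ∀ p : ℕ, p.Prime → ∀ P : Sylow p G, (P : Subgroup G) ≠ H) (hnorm : ∀ p : ℕ, p.Prime → p ∣ Nat.card H → ∀ P : Sylow p H, Subgroup.normalizer (((P : Subgroup H).map H.subtype : Subgroup G) : Set G) = H) : ∃ N : Subgroup G, N.Normal ∧ Subgroup.IsComplement' N H := by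
  have hnil : Group.IsNilpotent H := by
    rw [Group.isNilpotent_of_finite_tfae.out 0 3 rfl rfl]
    intro p hp P
    by_cases hd : p ∣ Nat.card H
    · refine ⟨fun y hy x => ?_⟩
      have hx : (x : G) ∈ Subgroup.normalizer (((P : Subgroup H).map H.subtype : Subgroup G) : Set G) := by
        rw [hnorm p hp.out hd P]; exact x.2
      obtain ⟨z, hz, hze⟩ :=
        (Subgroup.mem_normalizer_iff.1 hx (y : G)).1 (Subgroup.mem_map_of_mem H.subtype hy)
      have : z = x * y * x⁻¹ := Subtype.ext hze
      rwa [← this]
    · obtain ⟨k, hk⟩ := IsPGroup.iff_card.1 P.isPGroup'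
      rcases Nat.eq_zero_or_pos k with rfl | hk0
      · rw [Subgroup.eq_bot_of_card_eq (P : Subgroup H) (by simpa using hk)]
        infer_instance
      · exact absurd ((hk ▸ dvd_pow_self p hk0.ne').trans (Subgroup.card_subgroup_dvd_card _)) hd
  have hHall : (Nat.card H).Coprime H.index := by
    refine Nat.coprime_of_dvd fun p hp hpH hpi => ?_
    haveI : Fact p.Prime := ⟨hp⟩
    obtain ⟨P⟩ : Nonempty (Sylow p H) := inferInstance
    set P' := (P : Subgroup H).map H.subtype with hP'
    have hcard : Nat.card P' = p ^ (Nat.card H).factorization p := by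
      rw [← Nat.card_congr (Subgroup.equivMapOfInjective _ _ H.subtype_injective).toEquiv,
        P.card_eq_multiplicity]
    have hdvd : p ^ ((Nat.card H).factorization p + 1) ∣ Nat.card G := by
      rw [pow_succ, ← H.card_mul_index]
      exact Nat.mul_dvd_mul (Nat.ordProj_dvd _ _) hpi
    have h1 := Sylow.prime_pow_dvd_card_normalizer hdvd hcard
    rw [hnorm p hp hpH P] at h1
    exact Nat.pow_succ_factorization_not_dvd (Nat.card_pos.ne' : Nat.card H ≠ 0) hp h1
  refine SolvStruct.exists_normal_complement_of_sylow_normalizers hnil hHall (fun p hp hpd => ?_)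
    (fun p hp hpd P hP => ?_)
  · by_contra hc
    push Not at hc
    haveI : Fact p.Prime := ⟨hp⟩
    obtain ⟨P, hP⟩ := SolvStruct.hall_exists_sylow_le hHall hpd
    refine hnot p hp P (le_antisymm hP (SolvStruct.hall_le_of_sylows hHall fun q hq hqd Q hQ => ?_))
    by_cases hqp : q = p
    · subst hqp
      exact SolvStruct.nil_pgroup_le_sylow hnil hP Q.isPGroup' hQ
    · exact absurd hqd (hc q hq.out hqp)
  · have := hnorm p hp.out hpd (P.subtype hP)
    rw [Sylow.coe_subtype, Subgroup.map_subgroupOf_eq_of_le hP] at this
    exact this.le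

end Cfsg.Agent.S0558
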