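import Cfsg.Statements.S0563
import Cfsg.Agent.SolvStruct.CoprimeProduct
import Cfsg.Agent.S0561

set_option autoImplicit false
open Pointwise
open Cfsg
open scoped Pointwise commutatorElement

namespace Cfsg.Agent.S0563

/-- If a finite group G is the product AB of two nilpotent subgroups of coprime orders, then G is solvable, and for every Sylow p-subgroup P of A and Sylow q-subgroup Q of B the product set PQ is a subgroup. -/
theorem result {G : Type*} [Group G] [Finite G] (A B : Subgroup G) (hA : Group.IsNilpotent A) (hB : Group.IsNilpotent B) (hcop : (Nat.card A).Coprime (Nat.card B)) (hAB : ∀ g : G, ∃ a ∈ A, ∃ b ∈ B, g = a * b) : Group.IsSolvable G ∧ ∀ (p q : ℕ) [Fact p.Prime] [Fact q.Prime] (P : Sylow p A) (Q : Sylow q B), ∃ S : Subgroup G, (S : Set G) = (((P : Subgroup A).map A.subtype : Subgroup G) : Set G) * (((Q : Subgroup B).map B.subtype : Subgroup G) : Set G) := by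
  have hsol := SolvStruct.isSolvable_of_coprime_nilpotent_product hA hB hcop hAB
  refine ⟨hsol, fun p q _ _ P Q => ?_⟩
  haveI := hsol
  haveI := hA
  haveI := hB
  have hG := SolvStruct.card_eq_of_coprime_factorization hcop hAB
  have hiA : A.index = Nat.card B :=
    Nat.eq_of_mul_eq_mul_left Nat.card_pos (A.card_mul_index.trans hG)
  have hiB : B.index = Nat.card A :=
    Nat.eq_of_mul_eq_mul_left Nat.card_pos (B.card_mul_index.trans (hG.trans (mul_comm _ _)))
  have hall : ∀ (C : Subgroup G) (R : Subgroup C), (Nat.card R).Coprime R.index →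
      (Nat.card C).Coprime C.index →
      (Nat.card (R.map C.subtype)).Coprime (R.map C.subtype).index := by
    intro C R h1 h2
    rw [Subgroup.index_map_subtype, ← Nat.card_congr
      (Subgroup.equivMapOfInjective R C.subtype C.subtype_injective).toEquiv]
    exact h1.mul_right (h2.coprime_dvd_left R.card_subgroup_dvd_card)
  have hPn : (P : Subgroup A).Normal := inferInstance
  have hQn : (Q : Subgroup B).Normal := inferInstance
  obtain ⟨S, hS⟩ := S0561.result A B ((P : Subgroup A).map A.subtype) ((Q : Subgroup B).map B.subtype)
    hAB (Subgroup.map_subtype_le _)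
    (by rwa [Subgroup.subgroupOf, Subgroup.comap_map_eq_self_of_injective A.subtype_injective])
    (Subgroup.map_subtype_le _)
    (by rwa [Subgroup.subgroupOf, Subgroup.comap_map_eq_self_of_injective B.subtype_injective])
    (hall A P P.card_coprime_index (by rw [hiA]; exact hcop))
    (hall B Q Q.card_coprime_index (by rw [hiB]; exact hcop.symm)) 1 1
  exact ⟨S, by simpa using hS⟩

end Cfsg.Agent.S0563
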