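import Cfsg.Statements.S0567
import Cfsg.Agent.SolvStruct.Products

set_option autoImplicit false
open Cfsg
open scoped Pointwise commutatorElement

namespace Cfsg.Agent.S0567

/-- A subgroup H of a group G is subnormal exactly when, for some m, the subgroup obtained from G by taking the commutator with H m times in succession is contained in H. -/
theorem result {G : Type*} [Group G] (H : Subgroup G) : H.IsSubnormal ↔ ∃ m : ℕ, (fun K : Subgroup G => ⁅K, H⁆)^[m] ⊤ ≤ H := by
  let F : Subgroup G → Subgroup G := fun K => ⁅K, H⁆
  have hmono : ∀ (H' : Subgroup G), H ≤ H' → ∀ m : ℕ,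
      F^[m] ⊤ ≤ (fun K : Subgroup G => ⁅K, H'⁆)^[m] ⊤ := by
    intro H' hle m
    induction m with
    | zero => exact le_rfl
    | succ m ih =>
      rw [Function.iterate_succ_apply', Function.iterate_succ_apply']
      exact Subgroup.commutator_mono ih hle
  constructor
  · intro hs
    clear hmono F
    induction hs with
    | top => exact ⟨0, le_rfl⟩
    | step H K hHK hK hN ih =>
      obtain ⟨m, hm⟩ := ih
      refine ⟨m + 1, ?_⟩
      rw [Function.iterate_succ_apply']
      have hle : (fun X : Subgroup G => ⁅X, H⁆)^[m] ⊤ ≤ K := by
        refine le_trans ?_ hm
        clear hm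
        induction m with
        | zero => exact le_rfl
        | succ m ih =>
          rw [Function.iterate_succ_apply', Function.iterate_succ_apply']
          exact Subgroup.commutator_mono ih hHK
      refine (Subgroup.commutator_mono hle le_rfl).trans ?_
      exact Subgroup.le_normalizer_iff_commutator_le_right.1
        ((Subgroup.normal_subgroupOf_iff_le_normalizer hHK).1 hN)
  · rintro ⟨m, hm⟩
    have hHn : ∀ j, H ≤ Subgroup.normalizer ((F^[j] ⊤ : Subgroup G) : Set G) := by
      intro j
      cases j with
      | zero => rw [Function.iterate_zero_apply]; exact Subgroup.le_normalizer_of_normal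
      | succ j =>
        rw [Function.iterate_succ_apply']
        exact SolvStruct.commutator_normalized_right _ H
    have hdec : ∀ j, F^[j + 1] ⊤ ≤ F^[j] ⊤ := fun j => by
      rw [Function.iterate_succ_apply']
      exact Subgroup.le_normalizer_iff_commutator_le_left.1 (hHn j)
    have hsub : ∀ j, (F^[j] ⊤ ⊔ H).IsSubnormal := by
      intro j
      induction j with
      | zero => rw [Function.iterate_zero_apply, top_sup_eq]; exact Subgroup.IsSubnormal.top
      | succ j ih =>
        have hle : F^[j + 1] ⊤ ⊔ H ≤ F^[j] ⊤ ⊔ H := sup_le_sup_right (hdec j) H
        refine Subgroup.IsSubnormal.step _ _ hle ih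
          ((Subgroup.normal_subgroupOf_iff_le_normalizer hle).2 (sup_le ?_ ?_))
        · have hn : F^[j] ⊤ ≤ Subgroup.normalizer ((F^[j + 1] ⊤ : Subgroup G) : Set G) := by
            rw [Function.iterate_succ_apply']
            exact SolvStruct.commutator_normalized_left _ H
          have key : ∀ k ∈ F^[j] ⊤, ∀ x ∈ F^[j + 1] ⊤ ⊔ H,
              k * x * k⁻¹ ∈ F^[j + 1] ⊤ ⊔ H := by
            intro k hk x hx
            rw [Subgroup.sup_eq_closure] at hx
            induction hx using Subgroup.closure_induction with
            | mem y hy =>
              rcases hy with hy | hy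
              · exact Subgroup.mem_sup_left (Subgroup.le_normalizer_iff.1 hn k hk y hy)
              · have e : k * y * k⁻¹ = ⁅k, y⁆ * y := by simp [commutatorElement_def, mul_assoc]
                rw [e]
                refine mul_mem (Subgroup.mem_sup_left ?_) (Subgroup.mem_sup_right hy)
                rw [Function.iterate_succ_apply']
                exact Subgroup.commutator_mem_commutator hk hy
            | one => simpa using one_mem _
            | mul a b _ _ iha ihb =>
              have := mul_mem iha ihb
              simpa [mul_assoc] using this
            | inv a _ iha =>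
              have := inv_mem iha
              simpa [mul_assoc] using this
          exact Subgroup.le_normalizer_iff.2 key
        · exact le_sup_right.trans Subgroup.le_normalizer
    have := hsub m
    rwa [sup_eq_right.2 hm] at this

end Cfsg.Agent.S0567
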