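import Cfsg.Statements.S0568
import Cfsg.Agent.SolvStruct.Covering

set_option autoImplicit false
open Cfsg
open scoped Pointwise commutatorElement

namespace Cfsg.Agent.S0568

/-- Let D be the system normalizer of a Hall complement system of a finite solvable group G, and let A < B be normal subgroups with no normal subgroup of G strictly between them (a chief factor). If G centralizes B modulo A then B ≤ A ⊔ D (D covers the factor); otherwise B ∩ D ≤ A (D avoids it). -/
theorem result {G : Type*} [Group G] [Finite G] [Group.IsSolvable G] (K : Nat.Primes → Subgroup G) (hK : Cfsg.IsComplementSystem K) (A B : Subgroup G) [A.Normal] [B.Normal] (hAB : A < B) (hchief : ∀ N : Subgroup G, N.Normal → A ≤ N → N ≤ B → N = A ∨ N = B) : (⁅B, (⊤ : Subgroup G)⁆ ≤ A → B ≤ A ⊔ Cfsg.systemNormalizer K) ∧ (¬ ⁅B, (⊤ : Subgroup G)⁆ ≤ A → B ⊓ Cfsg.systemNormalizer K ≤ A) := by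
  let f := QuotientGroup.mk' A
  have hf : Function.Surjective f := QuotientGroup.mk'_surjective A
  have hKq := SysNorm.map_isComplementSystem hK hf
  have hD := SysNorm.systemNormalizer_map hK A
  haveI : (B.map f).Normal := (inferInstance : B.Normal).map f hf
  refine ⟨fun hcen => ?_, fun hnc x hx => ?_⟩
  · have hBc : B.map f ≤ Subgroup.center (G ⧸ A) := by
      rintro _ ⟨b, hb, rfl⟩
      refine Subgroup.mem_center_iff.2 fun y => ?_
      obtain ⟨g, rfl⟩ := hf y
      symm
      rw [← commutatorElement_eq_one_iff_mul_comm, ← map_commutatorElement]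
      exact (QuotientGroup.eq_one_iff _).2
        (hcen (Subgroup.commutator_mem_commutator hb (Subgroup.mem_top g)))
    have h := hBc.trans (SolvStruct.center_le_systemNormalizer (fun p => (K p).map f))
    rw [hD] at h
    have h' := Subgroup.map_le_iff_le_comap.1 h
    rwa [QuotientGroup.comap_map_mk'] at h'
  · by_contra hxA
    have hmem : f x ∈ B.map f ⊓ Cfsg.systemNormalizer (fun p => (K p).map f) :=
      ⟨Subgroup.mem_map_of_mem f hx.1, hD ▸ Subgroup.mem_map_of_mem f hx.2⟩
    rw [SolvStruct.inf_systemNormalizer_eq_bot hKq (B.map f) ?_ ?_ ?_, Subgroup.mem_bot] at hmem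
    · exact hxA ((QuotientGroup.eq_one_iff x).1 hmem)
    · intro h
      rw [Subgroup.map_eq_bot_iff, QuotientGroup.ker_mk'] at h
      exact hAB.not_ge h
    · intro M hM hMB
      have h1 : A ≤ M.comap f := (QuotientGroup.ker_mk' A).ge.trans (Subgroup.ker_le_comap f M)
      have h2 : M.comap f ≤ B := by
        refine (Subgroup.comap_mono hMB).trans (le_of_eq ?_)
        rw [QuotientGroup.comap_map_mk', sup_eq_right.2 hAB.le]
      rcases hchief _ (hM.comap f) h1 h2 with h | h
      · left
        rw [← Subgroup.map_comap_eq_self_of_surjective hf M, h, Subgroup.map_eq_bot_iff,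
          QuotientGroup.ker_mk']
      · right
        rw [← Subgroup.map_comap_eq_self_of_surjective hf M, h]
    · intro hc
      refine hnc (Subgroup.commutator_le.2 fun b hb g _ => ?_)
      rw [← QuotientGroup.eq_one_iff]
      show f ⁅b, g⁆ = 1
      rw [map_commutatorElement, commutatorElement_eq_one_iff_mul_comm]
      exact (Subgroup.mem_center_iff.1 (hc (Subgroup.mem_map_of_mem f hb)) (f g)).symm

end Cfsg.Agent.S0568
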