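import Cfsg.Statements.S0569
import Cfsg.Agent.SolvStruct.CarterSystem

set_option autoImplicit false
open Cfsg
open scoped Pointwise commutatorElement

namespace Cfsg.Agent.S0569

/-- In a finite solvable group: each nilpotent self-normalizing subgroup contains the system normalizer of some Hall complement system, and the system normalizer of any Hall complement system lies in some nilpotent self-normalizing subgroup. -/
theorem result {G : Type*} [Group G] [Finite G] [Group.IsSolvable G] : (∀ C : Subgroup G, Cfsg.IsCarterSubgroup C → ∃ K : Nat.Primes → Subgroup G, Cfsg.IsComplementSystem K ∧ Cfsg.systemNormalizer K ≤ C) ∧ ∀ K : Nat.Primes → Subgroup G, Cfsg.IsComplementSystem K → ∃ C : Subgroup G, Cfsg.IsCarterSubgroup C ∧ Cfsg.systemNormalizer K ≤ C := by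
  refine ⟨fun C hC => ?_, fun K hK => ?_⟩
  · obtain ⟨K, hK, hred⟩ := SolvStruct.exists_reducesInto C hC.1
    exact ⟨K, hK, SolvStruct.systemNormalizer_le_carter_aux _ G rfl K C hK hC hred⟩
  · obtain ⟨C, hC⟩ := Carter.exists_carter (G := G)
    obtain ⟨K0, hK0, hred⟩ := SolvStruct.exists_reducesInto C hC.1
    have hle := SolvStruct.systemNormalizer_le_carter_aux _ G rfl K0 C hK0 hC hred
    obtain ⟨g, hg⟩ := SysNorm.systems_conjugate hK0 hK
    refine ⟨MulAut.conj g • C, Carter.isCarter_conj hC g, ?_⟩
    rw [show K = fun p => MulAut.conj g • K0 p from funext fun p => (hg p).symm,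
      SolvStruct.systemNormalizer_conj]
    exact SolvStruct.conj_smul_mono hle g

end Cfsg.Agent.S0569
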