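import Cfsg.Statements.S0570
import Cfsg.Agent.SolvStruct.CarterMetanilpotent

set_option autoImplicit false
open Cfsg
open scoped Pointwise commutatorElement

namespace Cfsg.Agent.S0570

/-- Let G be a finite group with a nilpotent normal subgroup F such that G modulo F is nilpotent (nilpotent length at most two). Then a subgroup of G is a Carter subgroup if and only if it is the system normalizer of some Hall complement system. -/
theorem result {G : Type*} [Group G] [Finite G] (F : Subgroup G) [F.Normal] (hF : Group.IsNilpotent F) (hGF : Group.IsNilpotent (G ⧸ F)) (C : Subgroup G) : Cfsg.IsCarterSubgroup C ↔ ∃ K : Nat.Primes → Subgroup G, Cfsg.IsComplementSystem K ∧ C = Cfsg.systemNormalizer K := by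
  haveI := hF
  haveI := hGF
  haveI : Group.IsSolvable G :=
    (Group.isSolvable_iff_subgroup_quotient F).2 ⟨inferInstance, inferInstance⟩
  have key : ∀ C : Subgroup G, Cfsg.IsCarterSubgroup C →
      ∃ K, Cfsg.IsComplementSystem K ∧ C = Cfsg.systemNormalizer K := by
    intro C hC
    obtain ⟨K, hK, hred⟩ := SolvStruct.exists_reducesInto C hC.1
    exact ⟨K, hK, le_antisymm (SolvStruct.carter_le_systemNormalizer F hF hGF hC hK hred)
      (SolvStruct.systemNormalizer_le_carter_aux _ G rfl K C hK hC hred)⟩
  refine ⟨key C, ?_⟩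
  rintro ⟨K, hK, rfl⟩
  obtain ⟨C, hC⟩ := Carter.exists_carter (G := G)
  obtain ⟨K0, hK0, e⟩ := key C hC
  obtain ⟨g, hg⟩ := SysNorm.systems_conjugate hK0 hK
  rw [show K = fun p => MulAut.conj g • K0 p from funext fun p => (hg p).symm,
    SolvStruct.systemNormalizer_conj, ← e]
  exact Carter.isCarter_conj hC g

end Cfsg.Agent.S0570
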