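import Cfsg.Statements.S0571
import Cfsg.Agent.SolvStruct.CyclicProduct

set_option autoImplicit false
open Cfsg
open scoped Pointwise commutatorElement

namespace Cfsg.Agent.S0571

/-- If a finite group G is the product AB of two cyclic subgroups (every element is a product ab), then G is supersolvable. -/
theorem result {G : Type*} [Group G] [Finite G] (A B : Subgroup G) [IsCyclic A] [IsCyclic B] (hAB : ∀ g : G, ∃ a ∈ A, ∃ b ∈ B, g = a * b) : Cfsg.IsSupersolvable G := by
  exact SolvStruct.supersolvable_cyclic_product_aux _ G rfl A B ‹IsCyclic A› ‹IsCyclic B› hAB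

end Cfsg.Agent.S0571
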