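import Cfsg.Statements.S0574
import Cfsg.Agent.SolvStruct.DerivedLength

set_option autoImplicit false
open Cfsg
open scoped Pointwise commutatorElement

namespace Cfsg.Agent.S0574

/-- Let the finite group G be the product AB of an abelian subgroup A and a subgroup B of nilpotency class at most two, and let Ω be the number of prime factors, with multiplicity, of the order of the commutator subgroup of B. Then the term of index 2(1 + Ω) of the derived series of G is trivial. -/
theorem result {G : Type*} [Group G] [Finite G] (A B : Subgroup G) [IsMulCommutative A] (hB : commutator ↥B ≤ Subgroup.center ↥B) (hAB : ∀ g : G, ∃ a ∈ A, ∃ b ∈ B, g = a * b) : derivedSeries G (2 * (1 + (Nat.card ↥(commutator ↥B)).primeFactorsList.length)) = ⊥ := by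
  have hBc : ⁅⁅B, B⁆, B⁆ = ⊥ := by
    refine le_bot_iff.1 (Subgroup.commutator_le.2 fun x hx y hy => ?_)
    have hmap : (commutator ↥B).map B.subtype = ⁅B, B⁆ := Subgroup.map_subtype_commutator B
    rw [← hmap] at hx
    obtain ⟨x', hx', rfl⟩ := hx
    exact Subgroup.mem_bot.2 (commutatorElement_eq_one_iff_mul_comm.2
      (congrArg Subtype.val (Subgroup.mem_center_iff.1 (hB hx') ⟨y, hy⟩)).symm)
  refine SolvStruct.derivedSeries_product_class_two_aux _ G A B
    (fun a ha a' ha' => congrArg Subtype.val (IsMulCommutative.is_comm.comm (⟨a, ha⟩ : A) ⟨a', ha'⟩))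
    hBc hAB ?_
  rw [← Subgroup.map_subtype_commutator B, Subgroup.card_map_of_injective B.subtype_injective]

end Cfsg.Agent.S0574
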