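import Cfsg.Statements.S0576
import Cfsg.Agent.SolvStruct.Products

set_option autoImplicit false
open Cfsg
open scoped Pointwise commutatorElement

namespace Cfsg.Agent.S0576

/-- Let H be a normal subgroup of a finite group G with H contained in the Frattini subgroup of G. Then the group of inner automorphisms of H is contained in the Frattini subgroup of the automorphism group of H. -/
theorem result {G : Type*} [Group G] [Finite G] (H : Subgroup G) [H.Normal] (hH : H ≤ frattini G) : (MulAut.conj : ↥H →* MulAut ↥H).range ≤ frattini (MulAut ↥H) := by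
  haveI : Finite (MulAut ↥H) := Finite.of_injective _ DFunLike.coe_injective
  simp only [frattini, Order.radical, le_iInf_iff]
  intro U hU
  by_contra hc
  let α : G →* MulAut ↥H := MulAut.conjNormal
  haveI : (MulAut.conj : ↥H →* MulAut ↥H).range.Normal := ⟨by
    rintro _ ⟨h, rfl⟩ f
    exact ⟨f h, MulEquiv.ext fun x => by simp⟩⟩
  have htop := hU.2 _ (left_lt_sup.2 hc)
  have hG : U.comap α ⊔ frattini G = ⊤ := by
    refine top_unique fun g _ => ?_
    have hg : α g ∈ ((U ⊔ (MulAut.conj : ↥H →* MulAut ↥H).range : Subgroup (MulAut ↥H)) : Set _) :=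
      htop ▸ Subgroup.mem_top _
    rw [Subgroup.mul_normal] at hg
    obtain ⟨u, hu, _, ⟨h, rfl⟩, e⟩ := hg
    have hh : α (h : G) = MulAut.conj h := MulEquiv.ext fun x => Subtype.ext (by simp [α])
    rw [← inv_mul_cancel_right g (h : G)]
    refine mul_mem (Subgroup.mem_sup_left ?_) (Subgroup.mem_sup_right (hH h.2))
    rw [Subgroup.mem_comap, map_mul, map_inv, hh, ← e]
    simpa using hu
  have := frattini_nongenerating hG
  refine hc ?_
  rintro _ ⟨h, rfl⟩
  have hh : α (h : G) = MulAut.conj h := MulEquiv.ext fun x => Subtype.ext (by simp [α])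
  rw [← hh]
  exact (this ▸ Subgroup.mem_top _ : (h : G) ∈ U.comap α)

end Cfsg.Agent.S0576
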