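import Cfsg.Statements.S0577
import Cfsg.Agent.Supersolv.Schmidt
import Cfsg.Agent.PGroup.Frattini
import Cfsg.Agent.Cores.Basic
import Cfsg.Agent.SolvStruct.Products

set_option autoImplicit false
open Cfsg
open scoped Pointwise commutatorElement

namespace Cfsg.Agent.S0577

/-- Let G be a finite minimal non-nilpotent group and Q a normal Sylow q-subgroup of G, and let D be the commutator subgroup of Q regarded in G (a normal subgroup). Then G modulo D is non-abelian and all its proper subgroups are abelian. -/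
theorem result {G : Type*} [Group G] [Finite G] (hG : Cfsg.IsMinimalNonNilpotent G) (q : ℕ) [Fact q.Prime] (hq : q ∣ Nat.card G) (Q : Sylow q G) (hQ : (Q : Subgroup G).Normal) (D : Subgroup G) [D.Normal] (hD : D = (commutator ↥(Q : Subgroup G)).map (Q : Subgroup G).subtype) : ¬ IsMulCommutative (G ⧸ D) ∧ ∀ K : Subgroup (G ⧸ D), K ≠ ⊤ → IsMulCommutative K := by
  obtain ⟨hnil, hmin⟩ := hG
  haveI := hQ
  obtain ⟨p, r, g, P, R, hp, hr, hpr, hPg, hRn, htop, -⟩ := Schmidt.sylows_of_minimal hnil hmin
  haveI : Fact p.Prime := ⟨hp⟩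
  haveI : Fact r.Prime := ⟨hr⟩
  haveI := hRn
  have hcard : Nat.card G ∣ Nat.card (P : Subgroup G) * Nat.card (R : Subgroup G) := by
    have := Cores.card_sup_dvd_mul (P : Subgroup G) (R : Subgroup G)
    rwa [htop, Subgroup.card_top] at this
  have hprimes : ∀ s : ℕ, s.Prime → s ∣ Nat.card G → s = p ∨ s = r := by
    intro s hs hd
    rw [P.card_eq_multiplicity, R.card_eq_multiplicity] at hcard
    rcases hs.dvd_mul.1 (hd.trans hcard) with h | h
    · exact Or.inl ((Nat.prime_dvd_prime_iff_eq hs hp).1 (hs.dvd_of_dvd_pow h))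
    · exact Or.inr ((Nat.prime_dvd_prime_iff_eq hs hr).1 (hs.dvd_of_dvd_pow h))
  have hqr : q = r := by
    rcases hprimes q Fact.out hq with rfl | h
    · refine absurd ((Group.isNilpotent_of_finite_tfae.out 0 3 rfl rfl).2 ?_) hnil
      intro s hs S
      by_cases hsd : s ∣ Nat.card G
      · rcases hprimes s hs.out hsd with rfl | rfl
        · haveI := Sylow.unique_of_normal Q hQ
          rwa [Subsingleton.elim S Q]
        · haveI := Sylow.unique_of_normal R hRn
          rwa [Subsingleton.elim S R]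
      · have : (S : Subgroup G) = ⊥ := Subgroup.eq_bot_of_card_eq _ (by
          rw [S.card_eq_multiplicity, Nat.factorization_eq_zero_of_not_dvd hsd, pow_zero])
        rw [this]; infer_instance
    · exact h
  subst hqr
  haveI := Sylow.unique_of_normal Q hQ
  have hDQ : D ≤ (Q : Subgroup G) := hD ▸ Subgroup.map_subtype_le _
  refine ⟨fun hab => ?_, fun K hK => ?_⟩
  · refine hnil ((Group.isNilpotent_of_finite_tfae.out 0 2 rfl rfl).2 fun M hM => ?_)
    have hDM : D ≤ M := by
      by_contra hne
      have hQM : ¬ (Q : Subgroup G) ≤ M := fun h => hne (hDQ.trans h)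
      have hsup : D ⊔ M = ⊤ := hM.2 _ (lt_of_le_of_ne le_sup_right fun h => hne (h ▸ le_sup_left))
      have htopQ : M.subgroupOf (Q : Subgroup G) ⊔ frattini ↥(Q : Subgroup G) = ⊤ := by
        refine top_unique fun x _ => ?_
        have hx : (x : G) ∈ D ⊔ M := hsup ▸ Subgroup.mem_top _
        rw [← SetLike.mem_coe, Subgroup.normal_mul] at hx
        obtain ⟨d, hd, m, hm, e⟩ := hx
        have hd' : d ∈ (commutator ↥(Q : Subgroup G)).map (Q : Subgroup G).subtype := hD ▸ hd
        obtain ⟨d', hd'', rfl⟩ := hd'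
        have hx' : x = d' * (d'⁻¹ * x) := (mul_inv_cancel_left d' x).symm
        rw [hx']
        refine Subgroup.mul_mem _ (Subgroup.mem_sup_right
          (PGroup.commutator_le_frattini Q.isPGroup' hd'')) (Subgroup.mem_sup_left ?_)
        show ((d'⁻¹ * x : ↥(Q : Subgroup G)) : G) ∈ M
        have : ((d'⁻¹ * x : ↥(Q : Subgroup G)) : G) = m := by
          rw [Subgroup.coe_mul, Subgroup.coe_inv, ← e]; simp
        rw [this]; exact hm
      exact hQM (Subgroup.subgroupOf_eq_top.1 (frattini_nongenerating htopQ))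
    refine ⟨fun m hm x => ?_⟩
    have h1 : ((x * m * x⁻¹ * m⁻¹ : G) : G ⧸ D) = 1 := by
      have := hab.is_comm.comm (x : G ⧸ D) (m : G ⧸ D)
      rw [QuotientGroup.mk_mul, QuotientGroup.mk_mul, QuotientGroup.mk_mul, this]
      simp
    have h2 := M.mul_mem (hDM ((QuotientGroup.eq_one_iff _).1 h1)) hm
    simpa [mul_assoc] using h2
  · let f := QuotientGroup.mk' D
    have hf : Function.Surjective f := QuotientGroup.mk'_surjective D
    have hH : K.comap f ≠ ⊤ := fun h => hK (by
      rw [← Subgroup.map_comap_eq_self_of_surjective hf K, h, Subgroup.map_top_of_surjective f hf])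
    haveI := hmin _ hH
    have hKn : Group.IsNilpotent K :=
      Group.nilpotent_of_surjective (f.subgroupComap K) (f.subgroupComap_surjective_of_surjective K hf)
    haveI := hKn
    refine Schmidt.comm_of_nilpotent fun s _ S => ?_
    obtain ⟨T, hT⟩ := (S.isPGroup'.map K.subtype).exists_le_sylow
    obtain ⟨U, hU⟩ := Sylow.mapSurjective_surjective hf s T
    suffices hcomm : ∀ a ∈ (U : Subgroup G), ∀ b ∈ (U : Subgroup G), f a * f b = f b * f a by
      refine ⟨⟨fun a b => Subtype.ext (Subtype.ext ?_)⟩⟩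
      have ha : ((a : K) : G ⧸ D) ∈ (T : Subgroup (G ⧸ D)) := hT ⟨a, a.2, rfl⟩
      have hb : ((b : K) : G ⧸ D) ∈ (T : Subgroup (G ⧸ D)) := hT ⟨b, b.2, rfl⟩
      rw [← hU] at ha hb
      obtain ⟨a', ha', hae⟩ := ha
      obtain ⟨b', hb', hbe⟩ := hb
      show ((a : K) : G ⧸ D) * ((b : K) : G ⧸ D) = ((b : K) : G ⧸ D) * ((a : K) : G ⧸ D)
      rw [← hae, ← hbe]
      exact hcomm a' ha' b' hb'
    intro a ha b hb
    by_cases hsd : s ∣ Nat.card G
    · rcases hprimes s Fact.out hsd with rfl | rfl
      · obtain ⟨c, hc⟩ := MulAction.exists_smul_eq G P U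
        have hU' : (U : Subgroup G) = MulAut.conj c • (P : Subgroup G) :=
          (congrArg Sylow.toSubgroup hc).symm
        rw [hU', SolvStruct.mem_conj_smul, hPg] at ha hb
        obtain ⟨i, hi⟩ := Subgroup.mem_zpowers_iff.1 ha
        obtain ⟨j, hj⟩ := Subgroup.mem_zpowers_iff.1 hb
        have ea : a = c * g ^ i * c⁻¹ := by rw [hi]; group
        have eb : b = c * g ^ j * c⁻¹ := by rw [hj]; group
        rw [← map_mul, ← map_mul, ea, eb]
        congr 1
        group
      · rw [Subsingleton.elim U Q] at ha hb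
        have hcm : ⁅a, b⁆ ∈ D := by
          rw [hD]
          exact ⟨⁅(⟨a, ha⟩ : ↥(Q : Subgroup G)), ⟨b, hb⟩⁆,
            Subgroup.commutator_mem_commutator (Subgroup.mem_top _) (Subgroup.mem_top _), rfl⟩
        rw [← commutatorElement_eq_one_iff_mul_comm, ← map_commutatorElement]
        exact (QuotientGroup.eq_one_iff _).2 hcm
    · have hbot : (U : Subgroup G) = ⊥ := Subgroup.eq_bot_of_card_eq _ (by
        rw [U.card_eq_multiplicity, Nat.factorization_eq_zero_of_not_dvd hsd, pow_zero])
      rw [hbot, Subgroup.mem_bot] at ha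
      rw [ha, map_one, one_mul, mul_one]

end Cfsg.Agent.S0577
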