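import Cfsg.Statements.S0578
import Cfsg.Agent.PGroup.Basic

set_option autoImplicit false
open Cfsg
open scoped Pointwise commutatorElement

namespace Cfsg.Agent.S0578

/-- If in a finite group the normalizer of each abelian subgroup coincides with its centralizer, then the group is abelian. -/
theorem result {G : Type*} [Group G] [Finite G] (h : ∀ A : Subgroup G, IsMulCommutative A → Subgroup.normalizer (A : Set G) = Subgroup.centralizer (A : Set G)) : IsMulCommutative G := by
  have hab : ∀ p : ℕ, ∀ _ : Fact p.Prime, ∀ P : Sylow p G, IsMulCommutative (P : Subgroup G) := by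
    intro p hp P
    obtain ⟨A, hAn, hAab, -, hAC⟩ :=
      PGroup.exists_self_centralizing_normal_abelian (G := (P : Subgroup G)) P.isPGroup'
        (A := ⊥) inferInstance
    have hA'ab : IsMulCommutative (A.map (P : Subgroup G).subtype) := inferInstance
    have hsub : ∀ x : (P : Subgroup G), x ∈ A := by
      intro x
      rw [← hAC]
      have hxN : (x : G) ∈ Subgroup.normalizer (A.map (P : Subgroup G).subtype : Set G) :=
        Subgroup.le_normalizer_map (H := A) (P : Subgroup G).subtype
          (Subgroup.mem_map_of_mem _ ((Subgroup.normalizer_eq_top_iff.2 hAn).symm ▸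
            Subgroup.mem_top x : x ∈ Subgroup.normalizer (A : Set (P : Subgroup G))))
      rw [h _ hA'ab] at hxN
      exact Subgroup.mem_centralizer_iff.2 fun a ha =>
        Subtype.ext (Subgroup.mem_centralizer_iff.1 hxN _ (Subgroup.mem_map_of_mem _ ha))
    exact ⟨⟨fun a b => congrArg Subtype.val
      (hAab.is_comm.comm (⟨a, hsub a⟩ : A) ⟨b, hsub b⟩)⟩⟩
  refine ⟨⟨fun a b => ?_⟩⟩
  rw [← commutatorElement_eq_one_iff_mul_comm, ← orderOf_eq_one_iff]
  by_contra hne
  obtain ⟨p, hp, hpd⟩ := Nat.exists_prime_and_dvd hne
  haveI : Fact p.Prime := ⟨hp⟩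
  obtain ⟨P⟩ : Nonempty (Sylow p G) := inferInstance
  have hle : Subgroup.normalizer ((P : Subgroup G) : Set G) ≤
      Subgroup.centralizer ((P : Subgroup G) : Set G) := (h _ (hab p inferInstance P)).le
  set K := (MonoidHom.transferSylow P hle).ker with hK
  have hcomp : Subgroup.IsComplement' K (P : Subgroup G) :=
    MonoidHom.ker_transferSylow_isComplement' P hle
  have hmem : ⁅a, b⁆ ∈ K := by
    rw [hK, MonoidHom.mem_ker, map_commutatorElement, commutatorElement_eq_one_iff_mul_comm]
    exact (hab p inferInstance P).is_comm.comm _ _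
  have hd : p ∣ Nat.card K := hpd.trans (Subgroup.orderOf_dvd_natCard K hmem)
  rw [← hcomp.index_eq_card] at hd
  exact P.not_dvd_index hd

end Cfsg.Agent.S0578
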