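import Cfsg.Statements.S0583
import Cfsg.Agent.SolvStruct.Nilpotent
import Cfsg.Agent.Cores.Fitting

set_option autoImplicit false
open Cfsg
open scoped Pointwise commutatorElement

namespace Cfsg.Agent.S0583

/-- In a finite group the Fitting subgroup is contained in the centralizer of each minimal normal subgroup. -/
theorem result {G : Type*} [Group G] [Finite G] (M : Subgroup G) [M.Normal] (hM : M ≠ ⊥) (hmin : ∀ K : Subgroup G, K.Normal → K ≤ M → K = ⊥ ∨ K = M) : Cfsg.fittingSubgroup G ≤ Subgroup.centralizer (M : Set G) := by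
  rw [Subgroup.le_centralizer_iff]
  haveI := Cores.fittingSubgroup_normal_inst G
  rcases hmin (M ⊓ Cfsg.fittingSubgroup G) inferInstance inf_le_left with h | h
  · intro m hm
    rw [Subgroup.mem_centralizer_iff]
    intro f hf
    exact (Subgroup.commute_of_normal_of_disjoint _ _ inferInstance inferInstance
      (disjoint_iff.2 h) m f hm hf).eq.symm
  · have hMF : M ≤ Cfsg.fittingSubgroup G := h ▸ inf_le_right
    haveI : Group.IsNilpotent (Cfsg.fittingSubgroup G) := Cores.fittingSubgroup_isNilpotent
    set F := Cfsg.fittingSubgroup G with hF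
    let C : Subgroup G := M ⊓ Subgroup.centralizer (F : Set G)
    have hne : C ≠ ⊥ := by
      intro hbot
      haveI : (M.subgroupOf F).Normal := (inferInstance : M.Normal).subgroupOf F
      have hne' : M.subgroupOf F ≠ ⊥ := by
        rw [Ne, Subgroup.subgroupOf_eq_bot]
        intro hd
        exact hM (by simpa [inf_eq_left.2 hMF] using disjoint_iff.1 hd)
      refine SolvStruct.nilpotent_inf_center_ne_bot _ hne' (le_bot_iff.1 fun x hx => ?_)
      have : (x : G) ∈ C := ⟨hx.1, Subgroup.mem_centralizer_iff.2 fun f hf =>
        congrArg Subtype.val (Subgroup.mem_center_iff.1 hx.2 ⟨f, hf⟩)⟩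
      rw [hbot, Subgroup.mem_bot] at this
      exact Subgroup.mem_bot.2 (Subtype.ext this)
    have := (hmin C inferInstance inf_le_left).resolve_left hne
    exact inf_eq_left.1 this

end Cfsg.Agent.S0583
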