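import Cfsg.Statements.S0584
import Cfsg.Agent.SolvStruct.Products

set_option autoImplicit false
open Cfsg
open scoped Pointwise commutatorElement

namespace Cfsg.Agent.S0584

/-- Let B ≤ A be normal subgroups of a finite group G with B contained in the Frattini subgroup of G. If A modulo B is nilpotent then A is nilpotent. -/
theorem result {G : Type*} [Group G] [Finite G] (A B : Subgroup G) [A.Normal] [B.Normal] (hBA : B ≤ A) (hB : B ≤ frattini G) (h : Group.IsNilpotent (↥A ⧸ B.subgroupOf A)) : Group.IsNilpotent A := by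
  rw [Group.isNilpotent_of_finite_tfae.out 0 3 rfl rfl]
  intro p hp P
  haveI : (B.subgroupOf A).Normal := (inferInstance : B.Normal).subgroupOf A
  set π := QuotientGroup.mk' (B.subgroupOf A) with hπ
  haveI := h
  have huniq : ∀ P1 P2 : Sylow p A, (P1 : Subgroup A).map π = (P2 : Subgroup A).map π := by
    intro P1 P2
    haveI hn : ((P1 : Subgroup A).map π).Normal :=
      (Group.isNilpotent_of_finite_tfae.out 0 3 rfl rfl |>.1 h) p hp
        (P1.mapSurjective (QuotientGroup.mk'_surjective (B.subgroupOf A)))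
    obtain ⟨a, ha⟩ := MulAction.exists_smul_eq A P1 P2
    rw [← ha]
    show (P1 : Subgroup A).map π = (MulAut.conj a • (P1 : Subgroup A)).map π
    ext y
    constructor
    · intro hy
      obtain ⟨w, hw, hwe⟩ := hn.conj_mem y hy (π a)⁻¹
      refine ⟨a * w * a⁻¹, SolvStruct.conj_mul_mem_smul hw, ?_⟩
      rw [map_mul, map_mul, map_inv, hwe]; simp [mul_assoc]
    · rintro ⟨_, ⟨w, hw, rfl⟩, rfl⟩
      show π (a * w * a⁻¹) ∈ (P1 : Subgroup A).map π
      rw [map_mul, map_mul, map_inv]
      exact hn.conj_mem _ (Subgroup.mem_map_of_mem π hw) (π a)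
  set P' := (P : Subgroup A).map A.subtype with hP'
  set X := P' ⊔ B with hX
  have hXA : X ≤ A := sup_le (Subgroup.map_subtype_le _) hBA
  haveI hXn : X.Normal := by
    constructor
    intro x hx g
    rw [hX, ← SetLike.mem_coe, Subgroup.mul_normal] at hx
    obtain ⟨y, hy, b, hb, rfl⟩ := hx
    have e : g * (y * b) * g⁻¹ = (g * y * g⁻¹) * (g * b * g⁻¹) := by simp [mul_assoc]
    show g * (y * b) * g⁻¹ ∈ X
    rw [e]
    refine mul_mem ?_ (Subgroup.mem_sup_right ((inferInstance : B.Normal).conj_mem b hb g))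
    obtain ⟨y', hy', rfl⟩ := hy
    let σ : A ≃* A := MulAut.conjNormal g
    let P2 : Sylow p A := P.mapSurjective (f := σ.toMonoidHom) σ.surjective
    have : π (σ y') ∈ (P : Subgroup A).map π := by
      rw [huniq P P2]
      exact Subgroup.mem_map_of_mem π (Subgroup.mem_map_of_mem σ.toMonoidHom hy')
    obtain ⟨w, hw, hwe⟩ := this
    rw [hπ, QuotientGroup.mk'_apply, QuotientGroup.mk'_apply, QuotientGroup.eq,
      Subgroup.mem_subgroupOf] at hwe
    have e2 : g * (y' : G) * g⁻¹ = (w : G) * ((w : G)⁻¹ * (σ y' : G)) := by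
      simp [σ, MulAut.conjNormal_apply]
    show g * (y' : G) * g⁻¹ ∈ X
    rw [e2]
    exact mul_mem (Subgroup.mem_sup_left (Subgroup.mem_map_of_mem A.subtype hw))
      (Subgroup.mem_sup_right (by simpa using hwe))
  have hcard : Nat.card (P'.subgroupOf X) = p ^ (Nat.card X).factorization p := by
    rw [Nat.card_congr (Subgroup.subgroupOfEquivOfLe (le_sup_left : P' ≤ X)).toEquiv]
    have hPc : Nat.card P' = p ^ (Nat.card A).factorization p := by
      rw [hP', ← P.card_eq_multiplicity]
      exact (Nat.card_congr (Subgroup.equivMapOfInjective _ _ A.subtype_injective).toEquiv).symm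
    have h1 : Nat.card P' ∣ Nat.card X := Subgroup.card_dvd_of_le le_sup_left
    have h2 : Nat.card X ∣ Nat.card A := Subgroup.card_dvd_of_le hXA
    rw [hPc] at h1 ⊢
    congr 1
    exact le_antisymm ((hp.out.pow_dvd_iff_le_factorization Nat.card_pos.ne').1 h1)
      ((Nat.factorization_le_iff_dvd Nat.card_pos.ne' Nat.card_pos.ne').2 h2 p)
  let Q : Sylow p X := Sylow.ofCard (P'.subgroupOf X) hcard
  have hQ : (Q : Subgroup X).map X.subtype = P' := by
    show (P'.subgroupOf X).map X.subtype = P'
    exact Subgroup.map_subgroupOf_eq_of_le le_sup_left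
  have hFr := Sylow.normalizer_sup_eq_top Q
  rw [hQ] at hFr
  have htop : Subgroup.normalizer (P' : Set G) = ⊤ := by
    refine frattini_nongenerating (top_unique (hFr.ge.trans (sup_le le_sup_left ?_)))
    exact sup_le (Subgroup.le_normalizer.trans le_sup_left) (hB.trans le_sup_right)
  exact (Subgroup.normalizer_eq_top_iff.1 htop).of_map_subtype

end Cfsg.Agent.S0584
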