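import Cfsg.Statements.S0586
import Cfsg.Agent.SolvStruct.Nilpotent
import Cfsg.Agent.SolvStruct.Basic
import Cfsg.Agent.Cores.Fitting
import Cfsg.Agent.S0575
import Cfsg.Agent.S0585

set_option autoImplicit false
open Cfsg
open scoped Pointwise commutatorElement

namespace Cfsg.Agent.S0586

/-- If the Frattini subgroup of a finite group G is trivial, then the Fitting subgroup of G equals the join of all abelian minimal normal subgroups of G. -/
theorem result {G : Type*} [Group G] [Finite G] (hΦ : frattini G = ⊥) : Cfsg.fittingSubgroup G = sSup {N : Subgroup G | N.Normal ∧ N ≠ ⊥ ∧ IsMulCommutative N ∧ ∀ K : Subgroup G, K.Normal → K ≤ N → K = ⊥ ∨ K = N} := by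
  haveI := Cores.fittingSubgroup_normal_inst G
  set F := Cfsg.fittingSubgroup G with hF
  set T := sSup {N : Subgroup G | N.Normal ∧ N ≠ ⊥ ∧ IsMulCommutative N ∧
    ∀ K : Subgroup G, K.Normal → K ≤ N → K = ⊥ ∨ K = N} with hT
  haveI : Group.IsNilpotent F := Cores.fittingSubgroup_isNilpotent
  have hTF : T ≤ F := sSup_le fun N hN => by
    haveI := hN.2.2.1
    exact Cores.le_fittingSubgroup hN.1 ⟨⟨1, Subgroup.upperCentralSeries_one_eq_top_iff.2 hN.2.2.1⟩⟩
  have hΦF : frattini ↥F = ⊥ := by
    have := S0575.result F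
    rw [hΦ, le_bot_iff] at this
    exact (Subgroup.map_eq_bot_iff_of_injective _ F.subtype_injective).1 this
  haveI hFab : IsMulCommutative F := SolvStruct.isMulCommutative_of_nilpotent_of_frattini_eq_bot hΦF
  haveI hTn : T.Normal := Subgroup.sSup_normal _ fun N hN => hN.1
  haveI hTab : IsMulCommutative T := Subgroup.le_centralizer_iff_isMulCommutative.1
    (hTF.trans ((Subgroup.le_centralizer_iff_isMulCommutative.2 hFab).trans
      (Subgroup.centralizer_le hTF)))
  obtain ⟨H, hH⟩ := S0585.result hΦ T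
  refine le_antisymm ?_ hTF
  have hsup : T ⊔ H = ⊤ := hH.sup_eq_top
  haveI hFHn : (F ⊓ H).Normal := Subgroup.normalizer_eq_top_iff.1 (top_unique (hsup.ge.trans (sup_le
    (Subgroup.le_normalizer_iff.2 fun t ht f hf => by
      have := Subgroup.mem_centralizer_iff.1
        (Subgroup.le_centralizer_iff_isMulCommutative.2 hFab hf.1) t (hTF ht)
      rw [this, mul_inv_cancel_right]; exact hf)
    (Subgroup.le_normalizer_iff.2 fun k hk f hf =>
      ⟨(inferInstance : F.Normal).conj_mem f hf.1 k,
        H.mul_mem (H.mul_mem hk hf.2) (H.inv_mem hk)⟩))))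
  have hFH : F ⊓ H = ⊥ := by
    by_contra hne
    obtain ⟨N, hNle, hNn, hNne, hNmin⟩ := SolvStruct.exists_min_normal_le _ hFHn hne
    have hNab : IsMulCommutative N := Subgroup.le_centralizer_iff_isMulCommutative.1
      ((hNle.trans inf_le_left).trans ((Subgroup.le_centralizer_iff_isMulCommutative.2 hFab).trans
        (Subgroup.centralizer_le (hNle.trans inf_le_left))))
    have hNT : N ≤ T := le_sSup ⟨hNn, hNne, hNab, hNmin⟩
    exact hNne (le_bot_iff.1 (hH.disjoint.eq_bot ▸ le_inf hNT (hNle.trans inf_le_right)))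
  intro f hf
  have : f ∈ ((T ⊔ H : Subgroup G) : Set G) := hsup ▸ Subgroup.mem_top f
  rw [Subgroup.normal_mul] at this
  obtain ⟨t, ht, k, hk, rfl⟩ := this
  have : k ∈ F ⊓ H := ⟨(F.mul_mem_cancel_left (hTF ht)).1 hf, hk⟩
  rw [hFH, Subgroup.mem_bot] at this
  simpa [this] using ht

end Cfsg.Agent.S0586
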