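import Cfsg.Statements.S0592
import Mathlib.LinearAlgebra.Eigenspace.Minpoly
import Mathlib.FieldTheory.Finite.Basic

set_option autoImplicit false
open Cfsg Polynomial

namespace Cfsg.Agent.S0592

theorem exists_eigen {K : Type*} [Field K] [Fintype K] {p : ℕ} [Fact p.Prime] [CharP K p]
    {V : Type*} [AddCommGroup V] [Module K V] [FiniteDimensional K V] [Nontrivial V]
    (c : Module.End K V) (e k : ℕ) (hk : k ∣ Fintype.card K - 1)
    (hc : c ^ (p ^ e * k) = 1) : ∃ (ζ : K) (v : V), v ≠ 0 ∧ c v = ζ • v := by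
  set q := Fintype.card K
  have hq : 1 < q := Fintype.one_lt_card
  have hsq : (X ^ q - X : K[X]).Splits := by
    rw [splits_iff_card_roots, FiniteField.roots_X_pow_card_sub_X,
      FiniteField.X_pow_card_sub_X_natDegree_eq K hq]
    rfl
  have hdvd : (X ^ k - 1 : K[X]) ∣ X ^ q - X := by
    obtain ⟨m, hm⟩ := hk
    have hd : (X ^ k - 1 : K[X]) ∣ (X ^ k) ^ m - 1 := sub_one_dvd_pow_sub_one _ _
    rw [← pow_mul, ← hm] at hd
    have he : (X ^ q - X : K[X]) = X * (X ^ (q - 1) - 1) := by
      rw [mul_sub, mul_one, ← pow_succ']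
      congr 2
      omega
    exact he ▸ hd.mul_left X
  have hk0 : (X ^ k - 1 : K[X]) ≠ 0 :=
    fun h => FiniteField.X_pow_card_sub_X_ne_zero K hq (zero_dvd_iff.1 (h ▸ hdvd))
  have hs : ((X ^ k - 1 : K[X]) ^ (p ^ e)).Splits :=
    (hsq.of_dvd (FiniteField.X_pow_card_sub_X_ne_zero K hq) hdvd).pow _
  have hann : aeval c ((X ^ k - 1 : K[X]) ^ (p ^ e)) = 0 := by
    rw [sub_pow_char_pow, one_pow, ← pow_mul, mul_comm k]
    simp [hc]
  have hint : IsIntegral K c := Algebra.IsIntegral.isIntegral c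
  obtain ⟨ζ, hζ⟩ := (hs.of_dvd (pow_ne_zero _ hk0) (minpoly.dvd K c hann)).exists_eval_eq_zero
    (minpoly.degree_pos hint).ne'
  obtain ⟨v, hv⟩ := (Module.End.hasEigenvalue_of_isRoot hζ).exists_hasEigenvector
  exact ⟨ζ, v, hv.2, hv.apply_eq_smul⟩

theorem smul_quadratic {K : Type*} [Field K] {V : Type*} [AddCommGroup V] [Module K V]
    (B : Module.End K V) (hB : ∀ u, B (B u - u) = B u - u) (u : V) :
    B (B u) = (2 : K) • B u - u := by
  have h := hB u
  rw [map_sub, sub_eq_iff_eq_add] at h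
  rw [h, two_smul]
  abel

theorem pow_apply_add {K : Type*} [Field K] {V : Type*} [AddCommGroup V] [Module K V]
    (h : V ≃ₗ[K] V) (w : V) (hw : h (h w - w) = h w - w) (n : ℕ) :
    (h ^ n) w = w + (n : K) • (h w - w) := by
  induction n with
  | zero => simp
  | succ n ih =>
    rw [pow_succ', LinearEquiv.mul_apply, ih, map_add, map_smul, hw, Nat.cast_succ, add_smul,
      one_smul]
    abel

theorem matrix_det_a {K : Type*} [Field K] :
    (!![0, -1; 1, 2] : Matrix (Fin 2) (Fin 2) K).det = 1 := by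
  simp [Matrix.det_fin_two]

theorem matrix_det_b {K : Type*} [Field K] {ζ : K} (hζ : ζ ≠ 0) :
    (!![2 * ζ, 4 * ζ - 4 + ζ⁻¹; -ζ, 2 - 2 * ζ] : Matrix (Fin 2) (Fin 2) K).det = 1 := by
  simp [Matrix.det_fin_two]
  field_simp
  ring

set_option maxHeartbeats 1600000 in
theorem core {K : Type*} [Field K] [Fintype K] {p : ℕ} [Fact p.Prime] [CharP K p] {W : Type*}
    [AddCommGroup W] [Module K W] [FiniteDimensional K W] (H : Subgroup (W ≃ₗ[K] W))
    (a b : W ≃ₗ[K] W) (hH : H = Subgroup.closure {a, b})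
    (ha : ∀ w : W, a (a w - w) = a w - w) (hb : ∀ w : W, b (b w - w) = b w - w)
    {e k : ℕ} (hk : k ∣ Fintype.card K - 1) (hc : (a * b) ^ (p ^ e * k) = 1)
    (hall : ∀ φ : H →* Matrix.SpecialLinearGroup (Fin 2) K, IsPGroup p φ.range) :
    IsPGroup p H := by
  classical
  have haH : a ∈ H := hH ▸ Subgroup.subset_closure (by simp)
  have hbH : b ∈ H := hH ▸ Subgroup.subset_closure (by simp)
  let Good : Submodule K W → Prop := fun P =>
    (∀ g ∈ H, ∀ w ∈ P, g w ∈ P) ∧ ∀ g ∈ H, ∃ n, ∀ w ∈ P, (g ^ (p ^ n)) w = w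
  have hbot : Good ⊥ := ⟨fun g _ w hw => by simp_all, fun g _ => ⟨0, fun w hw => by simp_all⟩⟩
  obtain ⟨P, ⟨hinv, hgood⟩, hmax⟩ := set_has_maximal_iff_noetherian.2
    (inferInstance : IsNoetherian K W) {P | Good P} ⟨⊥, hbot⟩
  by_cases hP : P = ⊤
  · intro g
    obtain ⟨n, hn⟩ := hgood g.1 g.2
    refine ⟨n, Subtype.ext (LinearEquiv.ext fun w => ?_)⟩
    simpa using hn w (hP ▸ Submodule.mem_top)
  exfalso
  let ρ : H →* Module.End K (W ⧸ P) :=
    { toFun := fun g => P.mapQ P (g : W ≃ₗ[K] W).toLinearMap fun w hw => hinv g g.2 w hw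
      map_one' := LinearMap.ext fun u => by
        obtain ⟨w, rfl⟩ := Submodule.Quotient.mk_surjective P u
        simp
      map_mul' := fun g h => LinearMap.ext fun u => by
        obtain ⟨w, rfl⟩ := Submodule.Quotient.mk_surjective P u
        simp }
  have hρ : ∀ (g : H) (w : W), ρ g (Submodule.Quotient.mk w) =
      Submodule.Quotient.mk ((g : W ≃ₗ[K] W) w) := fun g w => rfl
  let A := ρ ⟨a, haH⟩
  let B := ρ ⟨b, hbH⟩
  have hA : ∀ u, A (A u - u) = A u - u := fun u => by
    obtain ⟨w, rfl⟩ := Submodule.Quotient.mk_surjective P u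
    show ρ _ (ρ _ _ - _) = ρ _ _ - _
    rw [hρ, ← Submodule.Quotient.mk_sub, hρ, ha]
  have hB : ∀ u, B (B u - u) = B u - u := fun u => by
    obtain ⟨w, rfl⟩ := Submodule.Quotient.mk_surjective P u
    show ρ _ (ρ _ _ - _) = ρ _ _ - _
    rw [hρ, ← Submodule.Quotient.mk_sub, hρ, hb]
  have hAB : (A * B) ^ (p ^ e * k) = 1 := by
    rw [← map_mul, ← map_pow,
      show ((⟨a, haH⟩ : H) * ⟨b, hbH⟩) ^ (p ^ e * k) = 1 from Subtype.ext hc, map_one]
  have : Nontrivial (W ⧸ P) := Submodule.Quotient.nontrivial_iff.2 hP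
  obtain ⟨ζ, v, hv, hζv⟩ := exists_eigen (A * B) e k hk hAB
  have hABv : A (B v) = ζ • v := hζv
  have hBv : B v = (2 * ζ) • v - ζ • A v := by
    have h := smul_quadratic A hA (B v)
    rw [hABv, map_smul, mul_smul] at *
    rw [eq_sub_iff_add_eq] at h ⊢
    rw [add_comm]
    exact h
  have hζ : ζ ≠ 0 := by
    intro h0
    have h := smul_quadratic B hB v
    simp [h0] at hBv
    rw [hBv] at h
    simp at h
    exact hv h
  have hBAv : B (A v) = (4 * ζ - 4 + ζ⁻¹) • v + (2 - 2 * ζ) • A v := by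
    have h1 : A v = (2 : K) • v - ζ⁻¹ • B v := by
      rw [hBv, smul_sub, smul_smul, smul_smul, inv_mul_cancel₀ hζ,
        show ζ⁻¹ * (2 * ζ) = 2 by field_simp]
      module
    conv_lhs => rw [h1]
    rw [map_sub, map_smul, map_smul, smul_quadratic B hB, hBv]
    match_scalars <;> field_simp <;> ring
  let L : (Fin 2 → K) →ₗ[K] (W ⧸ P) :=
    { toFun := fun z => z 0 • v + z 1 • A v
      map_add' := fun z z' => by simp [add_smul]; abel
      map_smul' := fun r z => by simp [mul_smul] }
  let Rep : H → Matrix.SpecialLinearGroup (Fin 2) K → Prop := fun g m =>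
    ∀ z, ρ g (L z) = L (m.1.mulVec z)
  have hrep : ∀ g : H, ∃ m, Rep g m := by
    intro g
    have hg : (g : W ≃ₗ[K] W) ∈ Subgroup.closure {a, b} := hH ▸ g.2
    suffices h : ∀ x ∈ Subgroup.closure {a, b}, ∀ hx : x ∈ H, ∃ m, Rep ⟨x, hx⟩ m from h _ hg g.2
    intro x hx
    induction hx using Subgroup.closure_induction with
    | mem x hx =>
      intro hx'
      rcases hx with rfl | rfl
      · refine ⟨⟨_, matrix_det_a⟩, fun z => ?_⟩
        show A (z 0 • v + z 1 • A v) = _
        rw [map_add, map_smul, map_smul, smul_quadratic A hA]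
        simp [L, Matrix.mulVec, dotProduct, Fin.sum_univ_two]
        module
      · refine ⟨⟨_, matrix_det_b hζ⟩, fun z => ?_⟩
        show B (z 0 • v + z 1 • A v) = _
        rw [map_add, map_smul, map_smul, hBAv, hBv]
        simp [L, Matrix.mulVec, dotProduct, Fin.sum_univ_two]
        module
    | one =>
      intro hx'
      refine ⟨1, fun z => ?_⟩
      rw [show (⟨1, hx'⟩ : H) = 1 from rfl, map_one]
      simp
    | mul x y hx hy ihx ihy =>
      intro hxy
      have hxH : x ∈ H := hH ▸ hx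
      have hyH : y ∈ H := hH ▸ hy
      obtain ⟨m, hm⟩ := ihx hxH
      obtain ⟨n, hn⟩ := ihy hyH
      refine ⟨m * n, fun z => ?_⟩
      rw [show (⟨x * y, hxy⟩ : H) = ⟨x, hxH⟩ * ⟨y, hyH⟩ from rfl, map_mul,
        Module.End.mul_apply, hn, hm, Matrix.mulVec_mulVec]
      rfl
    | inv x hx ihx =>
      intro hxi
      have hxH : x ∈ H := hH ▸ hx
      obtain ⟨m, hm⟩ := ihx hxH
      refine ⟨m⁻¹, fun z => ?_⟩
      have h := hm ((m⁻¹).1.mulVec z)
      rw [Matrix.mulVec_mulVec, ← Matrix.SpecialLinearGroup.coe_mul, mul_inv_cancel,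
        Matrix.SpecialLinearGroup.coe_one, Matrix.one_mulVec] at h
      have h' := congrArg (ρ ⟨x⁻¹, hxi⟩) h
      rw [← Module.End.mul_apply, ← map_mul,
        show (⟨x⁻¹, hxi⟩ : H) * ⟨x, hxH⟩ = 1 from Subtype.ext (inv_mul_cancel x), map_one,
        Module.End.one_apply] at h'
      exact h'.symm
  let U : Submodule K W := (LinearMap.range L).comap P.mkQ
  have hPU : P < U := by
    refine lt_of_le_of_ne (fun w hw => ?_) fun h => hv ?_
    · show P.mkQ w ∈ LinearMap.range L
      rw [Submodule.mkQ_apply, (Submodule.Quotient.mk_eq_zero P).2 hw]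
      exact zero_mem _
    · obtain ⟨w, rfl⟩ := Submodule.Quotient.mk_surjective P v
      rw [Submodule.Quotient.mk_eq_zero, h]
      exact ⟨Pi.single 0 1, by simp [L]⟩
  refine hmax U ⟨?_, ?_⟩ hPU
  · intro g hg w hw
    obtain ⟨z, hz⟩ := hw
    obtain ⟨m, hm⟩ := hrep ⟨g, hg⟩
    refine ⟨m.1.mulVec z, ?_⟩
    rw [← hm, hz]
    exact hρ ⟨g, hg⟩ w
  · intro g hg
    have hmfix : ∃ m, ∀ u ∈ LinearMap.range L, (ρ ⟨g, hg⟩ ^ (p ^ m)) u = u := by
      by_cases hL : Function.Injective L
      · have huniq : ∀ {g : H} {m n : Matrix.SpecialLinearGroup (Fin 2) K},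
            Rep g m → Rep g n → m = n := fun hm hn =>
          Subtype.ext (Matrix.toLin'.injective (LinearMap.ext fun z => hL ((hm z).symm.trans (hn z))))
        obtain ⟨φ, hφ⟩ : ∃ φ : H →* Matrix.SpecialLinearGroup (Fin 2) K, ∀ g, Rep g (φ g) :=
          ⟨MonoidHom.mk' (fun g => (hrep g).choose) fun g h =>
            huniq (hrep (g * h)).choose_spec fun z => by
              rw [map_mul, Module.End.mul_apply, (hrep h).choose_spec, (hrep g).choose_spec,
                Matrix.mulVec_mulVec]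
              rfl, fun g => (hrep g).choose_spec⟩
        obtain ⟨m, hm⟩ := hall φ ⟨φ ⟨g, hg⟩, ⟨⟨g, hg⟩, rfl⟩⟩
        have hm' : φ (⟨g, hg⟩ ^ (p ^ m)) = 1 := by
          rw [map_pow]
          have h := congrArg Subtype.val hm
          rw [SubmonoidClass.coe_pow] at h
          exact h
        refine ⟨m, ?_⟩
        rintro u ⟨z, rfl⟩
        rw [← map_pow, hφ, hm', Matrix.SpecialLinearGroup.coe_one, Matrix.one_mulVec]
      · obtain ⟨z, hz, hz0⟩ : ∃ z, L z = 0 ∧ z ≠ 0 := by
          by_contra hn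
          exact hL ((injective_iff_map_eq_zero L).2 fun z hz => by_contra fun h0 => hn ⟨z, hz, h0⟩)
        have hz' : z 0 • v + z 1 • A v = 0 := hz
        have h1 : z 1 ≠ 0 := fun h => by
          have : z 0 = 0 := by simpa [h, hv] using hz'
          exact hz0 (funext fun i => by fin_cases i <;> simp [h, this])
        have hAt : A v = -((z 1)⁻¹ * z 0) • v := by
          rw [neg_smul, mul_smul, eq_neg_iff_add_eq_zero]
          have := congrArg ((z 1)⁻¹ • ·) hz'
          simpa [smul_add, smul_smul, inv_mul_cancel₀ h1, add_comm] using this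
        have hAv : A v = v := by
          generalize -((z 1)⁻¹ * z 0) = t at hAt
          have h := hA v
          rw [hAt, map_sub, map_smul, hAt, smul_smul, ← sub_eq_zero] at h
          have h' : ((t - 1) * (t - 1)) • v = 0 := by rw [← h]; module
          have ht : t = 1 :=
            sub_eq_zero.1 (mul_self_eq_zero.1 ((smul_eq_zero.1 h').resolve_right hv))
          rw [hAt, ht, one_smul]
        have hBv' : B v = ζ • v := by rw [hBv, hAv]; module
        have hζ1 : ζ = 1 := by
          have h := hB v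
          rw [hBv', map_sub, map_smul, hBv', smul_smul, ← sub_eq_zero] at h
          have h' : ((ζ - 1) * (ζ - 1)) • v = 0 := by rw [← h]; module
          exact sub_eq_zero.1 (mul_self_eq_zero.1 ((smul_eq_zero.1 h').resolve_right hv))
        have hfix : ∀ x ∈ Subgroup.closure {a, b}, ∀ hx : x ∈ H, ρ ⟨x, hx⟩ v = v := by
          intro x hx
          induction hx using Subgroup.closure_induction with
          | mem x hx =>
            intro _
            rcases hx with rfl | rfl
            · exact hAv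
            · show B v = v
              rw [hBv', hζ1, one_smul]
          | one => intro hx'; rw [show (⟨1, hx'⟩ : H) = 1 from rfl, map_one]; rfl
          | mul x y hx hy ihx ihy =>
            intro hxy
            rw [show (⟨x * y, hxy⟩ : H) = ⟨x, hH ▸ hx⟩ * ⟨y, hH ▸ hy⟩ from rfl, map_mul,
              Module.End.mul_apply, ihy, ihx]
          | inv x hx ihx =>
            intro hxi
            have hxH : x ∈ H := hH ▸ hx
            conv_lhs => rw [← ihx hxH]
            rw [← Module.End.mul_apply, ← map_mul,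
              show (⟨x⁻¹, hxi⟩ : H) * ⟨x, hxH⟩ = 1 from Subtype.ext (inv_mul_cancel x), map_one]
            rfl
        refine ⟨0, ?_⟩
        rintro u ⟨z', rfl⟩
        have := hfix g (hH ▸ hg) hg
        rw [pow_zero, pow_one]
        simp [L, hAv, this]
    obtain ⟨m, hm⟩ := hmfix
    obtain ⟨n, hn⟩ := hgood (g ^ (p ^ m)) (pow_mem hg _)
    refine ⟨m + (n + 1), fun w hw => ?_⟩
    rw [pow_add, pow_mul, pow_succ, pow_mul]
    set h := (g ^ p ^ m) ^ p ^ n
    have key : ∀ N : ℕ, (Submodule.Quotient.mk ((g ^ N) w) : W ⧸ P) =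
        (ρ ⟨g, hg⟩ ^ N) (Submodule.Quotient.mk w) := by
      intro N
      induction N with
      | zero => simp
      | succ N ih => rw [pow_succ', LinearEquiv.mul_apply, ← hρ ⟨g, hg⟩, ih, pow_succ',
          Module.End.mul_apply]
    have hwP : h w - w ∈ P := by
      rw [← Submodule.Quotient.eq]
      show Submodule.Quotient.mk (((g ^ p ^ m) ^ p ^ n) w) = _
      rw [← pow_mul, key, pow_mul]
      have hfixw := hm (P.mkQ w) hw
      generalize ρ ⟨g, hg⟩ ^ (p ^ m) = F at hfixw ⊢
      generalize p ^ n = N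
      induction N with
      | zero => simp
      | succ j ih => rw [pow_succ, Module.End.mul_apply]; exact (congrArg _ hfixw).trans ih
    rw [pow_apply_add h w (hn _ hwP), CharP.cast_eq_zero, zero_smul, add_zero]

/-- Two quadratically acting generators of a linear group that is not a p-group, with the p'-part of the order of their product dividing q - 1, give a homomorphism onto a subgroup of SL(2, q) that is not a p-group. -/
theorem result {K : Type*} [Field K] [Fintype K] {p : ℕ} [Fact p.Prime] [CharP K p] {W : Type*} [AddCommGroup W] [Module K W] [FiniteDimensional K W] [Finite W] [Nontrivial W] (H : Subgroup (W ≃ₗ[K] W)) (a b : W ≃ₗ[K] W) (hH : H = Subgroup.closure {a, b}) (ha : ∀ w : W, a (a w - w) = a w - w) (hb : ∀ w : W, b (b w - w) = b w - w) (hnp : ¬ IsPGroup p H) (hk : ∃ e k : ℕ, orderOf (a * b) = p ^ e * k ∧ k ∣ Fintype.card K - 1) : ∃ φ : H →* Matrix.SpecialLinearGroup (Fin 2) K, ¬ IsPGroup p φ.range := by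
  by_contra h
  obtain ⟨e, k, he, hk⟩ := hk
  exact hnp (core H a b hH ha hb hk (he ▸ pow_orderOf_eq_one (a * b))
    fun φ => by_contra fun hφ => h ⟨φ, hφ⟩)

end Cfsg.Agent.S0592
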