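import Cfsg.Statements.S0594
import Cfsg.Agent.FF.NaturalSection

set_option autoImplicit false
open Cfsg

namespace Cfsg.Agent.S0594

/-- For odd p, two quadratic generators of a faithful group that is not a p-group, one of which acts nontrivially on a normal subgroup of order prime to p, force p = 3 and a section isomorphic to SL(2,3). -/
theorem result {G : Type*} [Group G] [Finite G] {p : ℕ} [Fact p.Prime] (hp : p ≠ 2) (V H : Subgroup G) (hV : Cfsg.IsElementaryAbelian p V) (hHV : H ≤ Subgroup.normalizer (V : Set G)) (hf : H ⊓ Subgroup.centralizer (V : Set G) = ⊥) (a b : G) (hab : H = Subgroup.closure {a, b}) (ha : ⁅⁅V, Subgroup.zpowers a⁆, Subgroup.zpowers a⁆ = ⊥) (hb : ⁅⁅V, Subgroup.zpowers b⁆, Subgroup.zpowers b⁆ = ⊥) (hnp : ¬ IsPGroup p H) (Q : Subgroup G) (hQH : Q ≤ H) (hQn : H ≤ Subgroup.normalizer (Q : Set G)) (hQ : (Nat.card Q).Coprime p) (hQa : ⁅Q, Subgroup.zpowers a⁆ ≠ ⊥) : p = 3 ∧ ∃ (K L : Subgroup G) (hL : (L.subgroupOf K).Normal),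 K ≤ H ∧ Nonempty ((K ⧸ L.subgroupOf K) ≃* Matrix.SpecialLinearGroup (Fin 2) (ZMod 3)) := by
  set A := Subgroup.zpowers a
  set H1 := Q ⊔ A
  have haH : a ∈ H := hab ▸ Subgroup.subset_closure (by simp)
  have hAH : A ≤ H := Subgroup.zpowers_le.2 haH
  have hH1 : H1 ≤ H := sup_le hQH hAH
  have hAQ : A ≤ Subgroup.normalizer (Q : Set G) := hAH.trans hQn
  have hap : a ^ p = 1 := Subgroup.mem_bot.1 (hf ▸ Subgroup.mem_inf.2 ⟨pow_mem haH p,
    Modules.pow_mem_centralizer_of_quadratic hV (hAH.trans hHV) ha (Subgroup.mem_zpowers a)⟩)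
  have hAp : IsPGroup p A := Modules.elemAb_isPGroup (Modules.elemAb_zpowers hap)
  have hQn1 : (Q.subgroupOf H1).Normal :=
    (Subgroup.normal_subgroupOf_iff_le_normalizer le_sup_left).2 (hH1.trans hQn)
  have hcQ : (Nat.card (Q.subgroupOf H1)).Coprime p := by
    rw [Nat.card_congr (Subgroup.subgroupOfEquivOfLe (le_sup_left : Q ≤ H1)).toEquiv]; exact hQ
  have hsep : Cfsg.IsPSolvable p H1 := by
    refine PSolv.isPSolvable_of_extension (Q.subgroupOf H1) (PSolv.isPSolvable_of_coprime hcQ)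
      (PSolv.isPSolvable_of_isPGroup ?_)
    have hsurj : Function.Surjective ((QuotientGroup.mk' (Q.subgroupOf H1)).comp
        (Subgroup.inclusion (le_sup_right : A ≤ H1))) := by
      intro q
      obtain ⟨x, rfl⟩ := QuotientGroup.mk'_surjective _ q
      obtain ⟨c, hc, d, hd, hcd⟩ := Coprime.exists_mul_of_mem_sup hAQ (sup_comm Q A ▸ x.2 : (x : G) ∈ A ⊔ Q)
      refine ⟨⟨c, hc⟩, QuotientGroup.eq.2 ?_⟩
      show (c⁻¹ * (x : G)) ∈ Q
      rw [hcd, inv_mul_cancel_left]; exact hd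
    exact hAp.of_surjective _ hsurj
  have hf1 : H1 ⊓ Subgroup.centralizer (V : Set G) = ⊥ :=
    le_bot_iff.1 (hf ▸ inf_le_inf_right _ hH1)
  have hna : a ∉ (Cfsg.pCore p H1).map H1.subtype := by
    intro hmem
    apply hQa
    rw [Subgroup.commutator_eq_bot_iff_le_centralizer]
    intro q hq
    rw [Modules.centralizer_zpowers_eq, Subgroup.mem_centralizer_singleton_iff]
    obtain ⟨z, hz, hza⟩ := hmem
    have hqz : (⟨q, Subgroup.mem_sup_left hq⟩ : H1) * z = z * ⟨q, Subgroup.mem_sup_left hq⟩ :=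
      Subgroup.commute_of_normal_of_disjoint _ _ hQn1 (Cfsg.pCore_normal p H1)
        (disjoint_iff.2 ((inf_comm _ _).trans
          (PSolv.sylow_inf_eq_bot hcQ (PSolv.isPGroup_pCore p H1)))) _ _ hq hz
    have := congrArg Subtype.val hqz
    rw [← hza]
    exact this
  obtain ⟨h3, K, L, hL, hK, hiso⟩ := FF.section_of_naturalPair hp hV hsep
    (FF.naturalPair_of_not_pStable hp hV (hH1.trans hHV) hf1 (Subgroup.mem_sup_right (Subgroup.mem_zpowers a)) ha hna)
  exact ⟨h3, K, L, hL, hK.trans hH1, hiso⟩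

end Cfsg.Agent.S0594
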