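import Cfsg.Statements.S0600
import Cfsg.Agent.PSolv.OmegaCenter

set_option autoImplicit false
open Cfsg

namespace Cfsg.Agent.S0600

/-- A normal elementary abelian p-subgroup generated by the fixed points of the Sylow p-subgroups admits no nontrivial normal p-subgroup of G modulo its centralizer. -/
theorem result {G : Type*} [Group G] [Finite G] {p : ℕ} [Fact p.Prime] (V : Subgroup G) [V.Normal] (hV : Cfsg.IsElementaryAbelian p V) (hgen : V = ⨆ S : Sylow p G, V ⊓ Subgroup.centralizer ((S : Subgroup G) : Set G)) : Cfsg.pCore p (G ⧸ Subgroup.centralizer (V : Set G)) = ⊥ := by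
  set π := QuotientGroup.mk' (Subgroup.centralizer (V : Set G))
  set K := Cfsg.pCore p (G ⧸ Subgroup.centralizer (V : Set G))
  have hKn : (K.comap π).Normal := (Cfsg.pCore_normal p _).comap π
  obtain ⟨k, hk⟩ := IsPGroup.iff_card.1 (PSolv.isPGroup_pCore p (G ⧸ Subgroup.centralizer (V : Set G)))
  have h := PSolv.le_centralizer_of_relIndex_pow V (K.comap π) hgen.le (QuotientGroup.le_comap_mk' _ _)
    (k := k) (by rw [← PSolv.card_map_mk_eq_relIndex,
      Subgroup.map_comap_eq_self_of_surjective (QuotientGroup.mk'_surjective _)]; exact hk)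
  have h1 := Subgroup.map_mono (f := π) h
  rw [Subgroup.map_comap_eq_self_of_surjective (QuotientGroup.mk'_surjective _),
    QuotientGroup.map_mk'_self] at h1
  exact le_bot_iff.1 h1

end Cfsg.Agent.S0600
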