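import Cfsg.Statements.S0602
import Cfsg.Prelude.Def_PLocal
import Cfsg.Agent.Modules.Thompson

set_option autoImplicit false
open Cfsg

namespace Cfsg.Agent.S0602

/-- The Thompson subgroup is characteristic, and nontrivial as soon as p divides the group order. -/
theorem result {G : Type*} [Group G] [Finite G] {p : ℕ} [Fact p.Prime] : (Cfsg.thompsonSubgroup p G).Characteristic ∧ (p ∣ Nat.card G → Cfsg.thompsonSubgroup p G ≠ ⊥) := by
  refine ⟨Modules.thompsonSubgroup_characteristic p G, fun hd => ?_⟩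
  intro hbot
  obtain ⟨x, hx⟩ := exists_prime_orderOf_dvd_card' p hd
  obtain ⟨A, hA, hmax⟩ := Set.exists_max_image {A : Subgroup G | Cfsg.IsElementaryAbelian p A}
    (fun A => Nat.card A) (Set.toFinite _) ⟨⊥, Modules.elemAb_bot p⟩
  have hA1 : A = ⊥ := le_bot_iff.1 (hbot ▸ (le_sSup ⟨hA, hmax⟩ : A ≤ Cfsg.thompsonSubgroup p G))
  have hle : Nat.card (Subgroup.zpowers x) ≤ Nat.card A :=
    hmax _ (Modules.elemAb_zpowers (hx ▸ pow_orderOf_eq_one x))
  rw [Nat.card_zpowers, hx, hA1, Subgroup.card_bot] at hle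
  exact absurd hle (not_le.2 (Fact.out : p.Prime).one_lt)

end Cfsg.Agent.S0602
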