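import Cfsg.Statements.S0615
import Cfsg.Agent.FF.SubnormalPair

set_option autoImplicit false
open Cfsg

namespace Cfsg.Agent.S0615

/-- Two subnormal subgroups acting irreducibly on their incomparable commutator modules, in a faithful group with trivial largest normal p-subgroup, generate their direct product, and the commutator module splits accordingly. -/
theorem result {G : Type*} [Group G] [Finite G] {p : ℕ} [Fact p.Prime] (V E E₁ E₂ : Subgroup G) (hV : Cfsg.IsElementaryAbelian p V) (hEV : E ≤ Subgroup.normalizer (V : Set G)) (hf : E ⊓ Subgroup.centralizer (V : Set G) = ⊥) (hgen : E = E₁ ⊔ E₂) (hs₁ : (E₁.subgroupOf E).IsSubnormal) (hs₂ : (E₂.subgroupOf E).IsSubnormal) (hOp : Cfsg.pCore p ↥E = ⊥) (hirr₁ : (∀ U : Subgroup G, U ≤ ⁅V, E₁⁆ → E₁ ≤ Subgroup.normalizer (U : Set G) → U = ⊥ ∨ U = ⁅V, E₁⁆)) (hirr₂ : (∀ U : Subgroup G,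 U ≤ ⁅V, E₂⁆ → E₂ ≤ Subgroup.normalizer (U : Set G) → U = ⊥ ∨ U = ⁅V, E₂⁆)) (h12 : ¬ ⁅V, E₁⁆ ≤ ⁅V, E₂⁆) (h21 : ¬ ⁅V, E₂⁆ ≤ ⁅V, E₁⁆) (hc₁ : 2 < Nat.card E₁) (hc₂ : 2 < Nat.card E₂) : ⁅E₁, E₂⁆ = ⊥ ∧ E₁ ⊓ E₂ = ⊥ ∧ ⁅V, E₁⁆ ⊓ ⁅V, E₂⁆ = ⊥ ∧ ⁅V, E⁆ = ⁅V, E₁⁆ ⊔ ⁅V, E₂⁆ := by
  have h : FF.PairHyp p V E E₁ E₂ :=
    ⟨hV, hEV, hf, hgen, hs₁, hs₂, hOp, hirr₁, hirr₂, h12, h21, hc₁, hc₂⟩
  obtain ⟨hc, hd⟩ := h.main
  have hE1V := h.leA.trans hEV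
  have hE2V := h.leB.trans hEV
  refine ⟨hc, ?_, hd, le_antisymm (hgen ▸ FF.commutator_sup_le hE1V hE2V)
    (sup_le (Subgroup.commutator_mono le_rfl h.leA) (Subgroup.commutator_mono le_rfl h.leB))⟩
  rw [eq_bot_iff, ← hf]
  refine le_inf (inf_le_left.trans h.leA) ?_
  refine Subgroup.le_centralizer_iff.1 (Subgroup.commutator_eq_bot_iff_le_centralizer.1 ?_)
  exact le_bot_iff.1 (hd ▸ le_inf (Subgroup.commutator_mono le_rfl inf_le_left)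
    (Subgroup.commutator_mono le_rfl inf_le_right))

end Cfsg.Agent.S0615
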