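import Cfsg.Statements.S0627
import Cfsg.Agent.Stability.Complement

set_option autoImplicit false
open Cfsg

namespace Cfsg.Agent.S0627

/-- In a p-separable group with p at least 5, the normalizer of W(S) supplements the largest normal subgroup of order prime to p. -/
theorem result {G : Type*} [Group G] [Finite G] {p : ℕ} [Fact p.Prime] (hp : 5 ≤ p) (hsep : Cfsg.IsPSolvable p G) (S : Sylow p G) : Cfsg.pPrimeCore p G ⊔ Subgroup.normalizer (((Cfsg.stableNormalClosure p ↥(S : Subgroup G)).map (S : Subgroup G).subtype) : Set G) = ⊤ := by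
  set π := QuotientGroup.mk' (Cfsg.pPrimeCore p G) with hπ
  have hsep' : Cfsg.IsPSolvable p (G ⧸ Cfsg.pPrimeCore p G) := PSolv.isPSolvable_quotient hsep _
  have hbar := Stability.stableNormalClosure_normal
    (Stability.isActionPStable_of_pairFree (by omega) (Stability.pairFree_of_isPSolvable hp hsep')
      fun H => Stability.pairFree_of_isPSolvable hp (PSolv.isPSolvable_subgroup hsep' H))
    (CharTwo.cfcon_of_isPConstrained (PSolv.isPConstrained_of_isPSolvable hsep')
      Cores.pPrimeCore_quotient_pPrimeCore_eq_bot)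
    (S.mapSurjective (f := π) (QuotientGroup.mk'_surjective _))
  have hker : (S : Subgroup G) ⊓ π.ker = ⊥ := by
    rw [hπ, QuotientGroup.ker_mk', eq_bot_iff]
    exact fun x hx => Subgroup.mem_bot.2
      (Tech.eq_one_of_mem_pPrimeCore_of_isPGroup S.2 hx.1 hx.2)
  have hmap := (Stability.stableClosureFunctor p).W_map π (S : Subgroup G) hker
  have hN := CharTwo.map_normalizer_mk (O := Cfsg.pPrimeCore p G) Cores.pPrimeCore_coprime
    (S.2.to_le (Subgroup.map_subtype_le (Cfsg.stableNormalClosure p ↥(S : Subgroup G))))
  have hN' : (Subgroup.normalizer (((Cfsg.stableNormalClosure p ↥(S : Subgroup G)).map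
      (S : Subgroup G).subtype : Subgroup G) : Set G)).map π = ⊤ := by
    rw [hπ, hN, ← hπ, Subgroup.normalizer_eq_top_iff]
    rw [show ((Cfsg.stableNormalClosure p ↥(S : Subgroup G)).map (S : Subgroup G).subtype).map π =
      (Cfsg.stableNormalClosure p ↥((S : Subgroup G).map π)).map ((S : Subgroup G).map π).subtype
      from hmap]
    exact hbar
  have h3 := congrArg (Subgroup.comap π) hN'
  rw [Subgroup.comap_map_eq, hπ, QuotientGroup.ker_mk', Subgroup.comap_top, sup_comm] at h3
  exact h3

end Cfsg.Agent.S0627
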