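import Cfsg.Statements.S0629
import Cfsg.Agent.Stability.PStable

set_option autoImplicit false
open Cfsg

namespace Cfsg.Agent.S0629

/-- A group in which the centralizer of a Sylow p-subgroup of O_{p',p}(G) is p-solvable is p-constrained. -/
theorem result {G : Type*} [Group G] [Finite G] {p : ℕ} [Fact p.Prime] (P : Sylow p ↥(Cfsg.pPrimePCore p G)) (hsol : Cfsg.IsPSolvable p ↥(Subgroup.centralizer (((P : Subgroup ↥(Cfsg.pPrimePCore p G)).map (Cfsg.pPrimePCore p G).subtype : Subgroup G) : Set G))) : Cfsg.IsPConstrained p G := by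
  rw [CharTwo.isPConstrained_iff]
  set π := QuotientGroup.mk' (Cfsg.pPrimeCore p G) with hπ
  set P' := (P : Subgroup ↥(Cfsg.pPrimePCore p G)).map (Cfsg.pPrimePCore p G).subtype with hP'
  have hR : P'.map π = Cfsg.pCore p (G ⧸ Cfsg.pPrimeCore p G) := PSolv.map_sylow_pPrimePCore P
  have hP'p : IsPGroup p P' := P.2.map _
  set R := Cfsg.pCore p (G ⧸ Cfsg.pPrimeCore p G) with hRdef
  set C := Subgroup.centralizer (R : Set (G ⧸ Cfsg.pPrimeCore p G)) with hC
  have hle : C ≤ (Subgroup.centralizer (P' : Set G)).map π := by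
    intro q hq
    have h1 : q ∈ (Subgroup.normalizer (P' : Set G)).map π := by
      rw [hπ, CharTwo.map_normalizer_mk Cores.pPrimeCore_coprime hP'p, ← hπ, hR]
      exact CharTwo.normalizer_le_centralizer_of_coe _ hq
    obtain ⟨n, hn, rfl⟩ := h1
    refine ⟨n, Stability.ker_of_inf hP'p hn ?_, rfl⟩
    rw [← hπ, hR]
    exact hq
  have hCs : Cfsg.IsPSolvable p C := by
    refine PSolv.isPSolvable_of_injective (Subgroup.inclusion hle) (Subgroup.inclusion_injective hle) ?_
    exact PSolv.isPSolvable_of_surjective (π.subgroupMap _) (π.subgroupMap_surjective _) hsol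
  have hCO : Cfsg.pPrimeCore p C = ⊥ := by
    have h1 := PSolv.map_pPrimeCore_subtype_le (p := p) (N := C)
    rw [Cores.pPrimeCore_quotient_pPrimeCore_eq_bot, le_bot_iff,
      Subgroup.map_eq_bot_iff_of_injective _ C.subtype_injective] at h1
    exact h1
  have hCR := PSolv.map_pCore_subtype_le (p := p) (N := C)
  intro q hq
  have h2 : (⟨q, hq⟩ : C) ∈ Cfsg.pCore p C := by
    refine PSolv.centralizer_pCore_le hCs hCO (Subgroup.mem_centralizer_iff.2 fun x hx => ?_)
    exact Subtype.ext (Subgroup.mem_centralizer_iff.1 hq (x : G ⧸ Cfsg.pPrimeCore p G)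
      (hCR ⟨x, hx, rfl⟩))
  exact hCR ⟨_, h2, rfl⟩

end Cfsg.Agent.S0629
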