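import Cfsg.Statements.S0633
import Cfsg.Agent.Lib.HHPair
-- import your own Cfsg.Agent.* helpers here

set_option autoImplicit false
open Cfsg

namespace Cfsg.Agent.S0633

/-- Theorem B of Hall and Higman on the minimal polynomial of a p-element of order p^n in a p-solvable linear group on a nonzero vector space in characteristic p with no nontrivial normal p-subgroup: its degree is p^n, except when some p^n₀ - 1 (n₀ ≤ n) is a power of a prime q for which the Sylow q-subgroups are non-abelian, in which case the degree is at least p^(n-n₀)(p^n₀ - 1). -/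
theorem result {F : Type*} [Field F] {p : ℕ} [Fact p.Prime] [CharP F p] {V : Type*} [AddCommGroup V] [Module F V] [FiniteDimensional F V] [Nontrivial V] (H : Subgroup (V ≃ₗ[F] V)) [Finite H] (hsol : Cfsg.IsPSolvable p H) (hOp : Cfsg.pCore p H = ⊥) (x : V ≃ₗ[F] V) (hx : x ∈ H) (n : ℕ) (hn : orderOf x = p ^ n) (r : ℕ) (hr : minpoly F (x : Module.End F V) = (Polynomial.X - 1) ^ r) : r = p ^ n ∨ ∃ n₀ q m : ℕ, 1 ≤ n₀ ∧ n₀ ≤ n ∧ q.Prime ∧ 1 ≤ m ∧ p ^ n₀ - 1 = q ^ m ∧ (∀ Q : Sylow q H, ¬ IsMulCommutative Q) ∧ p ^ (n - n₀) * (p ^ n₀ - 1) ≤ r := by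
  have hp : p.Prime := Fact.out
  let ρ : H →* Module.End F V :=
    { toFun := fun h => ((h : V ≃ₗ[F] V) : Module.End F V)
      map_one' := rfl
      map_mul' := fun a b => rfl }
  have hρ : Function.Injective ρ := fun a b h =>
    Subtype.ext (LinearEquiv.ext fun v => congrArg (fun f : Module.End F V => f v) h)
  set T : Module.End F V := (x : Module.End F V) with hT
  have hx0 : (T - 1) ^ r = 0 := by
    have := minpoly.aeval F T
    rw [hr] at this
    simpa using this
  have hTn : (T - 1) ^ p ^ n = 0 := by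
    have := Cfsg.Agent.HH.sub_one_pow_eq_zero ρ (y := (⟨x, hx⟩ : H)) (p := p) (n := n)
      (Subtype.ext (by rw [Subgroup.coe_pow, ← hn, pow_orderOf_eq_one]; rfl))
    exact this
  have hrn : r ≤ p ^ n := by
    have hd : minpoly F T ∣ (Polynomial.X - 1) ^ p ^ n := minpoly.dvd F T (by simpa using hTn)
    rw [hr] at hd
    have hne : ((Polynomial.X : Polynomial F) - 1) ^ p ^ n ≠ 0 := by
      refine pow_ne_zero _ ?_
      simpa using Polynomial.X_sub_C_ne_zero (1 : F)
    have := Polynomial.natDegree_le_of_dvd hd hne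
    rw [Polynomial.natDegree_pow, Polynomial.natDegree_pow,
      show ((Polynomial.X : Polynomial F) - 1).natDegree = 1 by simpa using Polynomial.natDegree_X_sub_C (1 : F)] at this
    simpa using this
  rcases Nat.eq_zero_or_pos n with rfl | hn1
  · left
    rw [pow_zero] at hn hrn ⊢
    refine le_antisymm hrn (Nat.one_le_iff_ne_zero.mpr fun h0 => ?_)
    rw [h0, pow_zero] at hx0
    exact one_ne_zero hx0
  have hxo : orderOf (⟨x, hx⟩ : H) = p ^ n := by rw [← hn, ← Subgroup.orderOf_coe]
  rcases Cfsg.Agent.HH.theoremB_of_pCore_eq_bot hsol hOp ρ hρ hn1 hxo (k := r) hx0 with h | h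
  · exact Or.inl (le_antisymm hrn h)
  · exact Or.inr h

end Cfsg.Agent.S0633
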