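import Cfsg.Statements.S0637
import Cfsg.Agent.Stability.Huppert
import Cfsg.Agent.FT.BG4.Metacyclic

set_option autoImplicit false
open Cfsg

namespace Cfsg.Agent.S0637

/-- For p greater than 3, the bound p² on the order of the subgroup generated by the elements of order dividing p passes from a p-group to all its quotients. -/
theorem result {R : Type*} [Group R] [Finite R] {p : ℕ} [Fact p.Prime] (hp : 3 < p) (hR : IsPGroup p R) (hO : Nat.card ↥(Cfsg.omegaOne p (⊤ : Subgroup R)) ≤ p ^ 2) (T : Subgroup R) [T.Normal] : Nat.card ↥(Cfsg.omegaOne p (⊤ : Subgroup (R ⧸ T))) ≤ p ^ 2 := by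
  have hm : Cfsg.IsMetacyclic (R ⧸ T) := by
    have h1 := Stability.isMetacyclic_of_card_omega_le hp hR hO
    exact Stability.isMetacyclic_of_index_agemo_le (by omega) _ (hR.to_quotient T)
      (Stability.index_agemo_quotient_le p T (FT.BG4.index_agemo_le_of_metacyclic hR h1))
  by_cases hc : IsCyclic (R ⧸ T)
  · have hpp := (Fact.out : p.Prime)
    set D := Cfsg.omegaOne p (⊤ : Subgroup (R ⧸ T)) with hD
    have hDe : ∀ x ∈ D, x ^ p = 1 := by
      intro x hx
      induction hx using Subgroup.closure_induction with
      | mem x hx => exact hx.2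
      | one => exact one_pow p
      | mul x y _ _ hx hy =>
        rw [Commute.mul_pow (show Commute x y from hc.isMulCommutative.is_comm.comm x y), hx, hy, one_mul]
      | inv x _ hx => rw [inv_pow, hx, inv_one]
    obtain ⟨g, hg⟩ := (inferInstance : IsCyclic D).exists_generator
    rw [← orderOf_eq_card_of_forall_mem_zpowers hg]
    calc orderOf g ≤ p := Nat.le_of_dvd hpp.pos
          (orderOf_dvd_of_pow_eq_one (Subtype.ext (by simpa using hDe g g.2)))
      _ ≤ p ^ 2 := Nat.le_self_pow (by norm_num) p
  · exact (Stability.omega_metacyclic (by omega) (hR.to_quotient T) hm hc).2.le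

end Cfsg.Agent.S0637
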