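import Cfsg.Statements.S0640
import Cfsg.Agent.OddPre.Rank2

set_option autoImplicit false
open Cfsg

namespace Cfsg.Agent.S0640

/-- For odd p, a prime q ≠ p dividing the order of the automorphism group of a p-group of rank at most 2 divides p² - 1 and is less than p. -/
theorem result {R : Type*} [Group R] [Finite R] {p : ℕ} [Fact p.Prime] (hp : p ≠ 2) (hR : IsPGroup p R) (hrk : Cfsg.PRankLE p 2 R) (q : ℕ) (hq : q.Prime) (hqp : q ≠ p) (hdvd : q ∣ Nat.card (MulAut R)) : q ∣ p ^ 2 - 1 ∧ q < p := by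
  haveI : Fact q.Prime := ⟨hq⟩
  have hpp : p.Prime := Fact.out
  haveI : Finite (MulAut R) := Finite.of_injective (fun e : MulAut R => (e : R → R))
    DFunLike.coe_injective
  obtain ⟨φ, hφ⟩ := OddPre.Rank2.exists_hom hp hR hrk
  obtain ⟨α, hα⟩ := exists_prime_orderOf_dvd_card' q hdvd
  have h1 : φ α ≠ 1 := by
    intro h
    have hco : (orderOf α).Coprime p := hα ▸ (Nat.coprime_primes hq hpp).2 hqp
    rw [hφ α h hco, orderOf_one] at hα
    exact hq.ne_one hα.symm
  have h2 : orderOf (φ α) = q := by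
    rcases (Nat.dvd_prime hq).1 (hα ▸ orderOf_map_dvd φ α) with h | h
    · exact absurd (orderOf_eq_one_iff.1 h) h1
    · exact h
  have h3 : q ∣ Nat.card (GL (Fin 2) (ZMod p)) := h2 ▸ orderOf_dvd_natCard _
  rw [Matrix.card_GL_field, Fin.prod_univ_two] at h3
  simp only [Fin.val_zero, Fin.val_one, pow_zero, pow_one, ZMod.card] at h3
  have h4 : p ^ 2 - p = p * (p - 1) := by rw [Nat.mul_sub, mul_one, pow_two]
  have h5 : p ^ 2 - 1 = (p + 1) * (p - 1) := by simpa using Nat.sq_sub_sq p 1
  have hq1 : q ∣ p ^ 2 - 1 := by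
    rcases hq.dvd_mul.1 h3 with h | h
    · exact h
    · rw [h4] at h
      rcases hq.dvd_mul.1 h with h | h
      · exact absurd ((Nat.prime_dvd_prime_iff_eq hq hpp).1 h) hqp
      · rw [h5]; exact h.mul_left _
  refine ⟨hq1, ?_⟩
  have h6 := hpp.two_le
  rw [h5] at hq1
  rcases hq.dvd_mul.1 hq1 with h | h
  · have hle := Nat.le_of_dvd (by omega) h
    by_contra hlt
    have hq' : q = p + 1 := by omega
    have hodd := hpp.odd_of_ne_two hp
    have : Even q := hq' ▸ hodd.add_one
    have := (Nat.Prime.even_iff hq).1 this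
    omega
  · have hle := Nat.le_of_dvd (by omega) h
    omega

end Cfsg.Agent.S0640
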