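import Cfsg.Statements.S0641
import Cfsg.Agent.Stability.Regular

set_option autoImplicit false
open Cfsg

namespace Cfsg.Agent.S0641

/-- Regularity of a p-group passes to quotient groups. -/
theorem result {G : Type*} [Group G] {p : ℕ} [Fact p.Prime] (hG : Cfsg.IsRegularPGroup p G) (N : Subgroup G) [N.Normal] : Cfsg.IsRegularPGroup p (G ⧸ N) := by
  refine ⟨hG.1.to_quotient N, fun a b n => ?_⟩
  obtain ⟨a, rfl⟩ := QuotientGroup.mk'_surjective N a
  obtain ⟨b, rfl⟩ := QuotientGroup.mk'_surjective N b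
  obtain ⟨c, hc, he⟩ := hG.2 a b n
  refine ⟨QuotientGroup.mk' N c, ?_, ?_⟩
  · have h := Stability.map_powerClosure_le (p := p) (QuotientGroup.mk' N) n _
      (Subgroup.mem_map_of_mem (QuotientGroup.mk' N) hc)
    rwa [Subgroup.map_commutator, MonoidHom.map_closure, Set.image_pair] at h
  · simp only [← map_mul, ← map_pow, he]

end Cfsg.Agent.S0641
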