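import Cfsg.Statements.S0645
import Cfsg.Agent.H4.CyclicMax

set_option autoImplicit false
open Cfsg

namespace Cfsg.Agent.S0645

theorem isCoatom_of_index {G : Type*} [Group G] [Finite G] {p : ℕ} [Fact p.Prime] {C : Subgroup G}
    (h : C.index = p) : IsCoatom C := by
  have hp : p.Prime := Fact.out
  refine ⟨fun ht => hp.ne_one (by rw [← h, ht, Subgroup.index_top]), fun K hK => ?_⟩
  have hd : K.index ∣ p := h ▸ Subgroup.index_dvd_of_le hK.le
  rcases hp.eq_one_or_self_of_dvd _ hd with h1 | h1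
  · exact Subgroup.index_eq_one.1 h1
  · refine absurd (Subgroup.eq_of_le_of_card_ge hK.le ?_) hK.ne
    have := C.card_mul_index.trans K.card_mul_index.symm
    rw [h, h1] at this
    exact (Nat.eq_of_mul_eq_mul_right hp.pos this).ge

/-- Classification of p-groups with a cyclic maximal subgroup, odd p: a non-abelian one of order p^n has generators a of order p^(n-1) and b of order p, b outside the cyclic subgroup generated by a, with b a b⁻¹ = a^(1 + p^(n-2)). -/
theorem result {G : Type*} [Group G] [Finite G] {p : ℕ} [Fact p.Prime] (hp : p ≠ 2) (n : ℕ) (hn : 3 ≤ n) (hG : Nat.card G = p ^ n) (C : Subgroup G) (hC : IsCyclic C) (hCi : C.index = p) (hna : ∃ x y : G, x * y ≠ y * x) : ∃ a b : G, orderOf a = p ^ (n - 1) ∧ orderOf b = p ∧ b ∉ Subgroup.zpowers a ∧ b * a * b⁻¹ = a ^ (1 + p ^ (n - 2)) := by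
  have hp' : p.Prime := Fact.out
  have hR : IsPGroup p G := IsPGroup.of_card hG
  have hCn : C.Normal := Cfsg.Agent.PGroup.normal_of_commutator_le
    ((Cfsg.Agent.PGroup.commutator_le_frattini hR).trans (frattini_le_coatom (isCoatom_of_index hCi)))
  have hnc : ¬ IsCyclic G := fun h => by
    obtain ⟨x, y, hxy⟩ := hna
    letI := h.commGroup
    exact hxy (mul_comm x y)
  obtain ⟨Ω, hΩ, hΩc⟩ := Cfsg.Agent.H4.omega_card_of_cyclic_max hp hR hnc C hC hCi
  obtain ⟨a, rfl⟩ := C.isCyclic_iff_exists_zpowers_eq_top.1 hC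
  have hord : orderOf a = p ^ (n - 1) := by
    have h := (Subgroup.zpowers a).card_mul_index
    rw [hCi, hG, Nat.card_zpowers, show p ^ n = p ^ (n - 1) * p by
      rw [← pow_succ, Nat.sub_add_cancel (by omega)]] at h
    exact Nat.eq_of_mul_eq_mul_right hp'.pos h
  set z := a ^ p ^ (n - 2) with hz
  have hzo : orderOf z = p := by
    rw [hz, orderOf_pow' a (pow_ne_zero _ hp'.ne_zero), hord,
      Nat.gcd_eq_right (pow_dvd_pow p (by omega)), Nat.pow_div (by omega) hp'.pos,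
      show n - 1 - (n - 2) = 1 by omega, pow_one]
  have hsmall : ∀ x ∈ Subgroup.zpowers a, x ^ p = 1 → x ∈ Subgroup.zpowers z := by
    intro x hx hxp
    obtain ⟨i, rfl⟩ := Subgroup.mem_zpowers_iff.1 hx
    have h1 : (orderOf a : ℤ) ∣ i * (p : ℤ) := by
      rw [orderOf_dvd_iff_zpow_eq_one, zpow_mul, zpow_natCast]; exact hxp
    rw [hord, show ((p ^ (n - 1) : ℕ) : ℤ) = ((p ^ (n - 2) : ℕ) : ℤ) * p by
      rw [← Nat.cast_mul, ← pow_succ, show n - 2 + 1 = n - 1 by omega]] at h1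
    obtain ⟨k, hk⟩ := (mul_dvd_mul_iff_right (by exact_mod_cast hp'.ne_zero)).1 h1
    rw [hk, zpow_mul, zpow_natCast]
    exact Subgroup.zpow_mem _ (Subgroup.mem_zpowers z) k
  obtain ⟨b, hbΩ, hbC⟩ : ∃ b ∈ Ω, b ∉ Subgroup.zpowers a := by
    by_contra! h
    have h1 : Ω ≤ Subgroup.zpowers z := fun x hx => hsmall x (h x hx) (by
      have : x ∈ (Ω : Set G) := hx
      rwa [hΩ] at this)
    have h2 := Subgroup.card_le_of_le h1
    rw [hΩc, Nat.card_zpowers, hzo, pow_two] at h2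
    have := hp'.one_lt
    nlinarith
  have hΩpow : ∀ x, x ∈ Ω ↔ x ^ p = 1 := fun x => Set.ext_iff.1 hΩ x
  have hΩn : ∀ x ∈ Ω, ∀ g : G, g * x * g⁻¹ ∈ Ω := fun x hx g =>
    (hΩpow _).2 (by rw [conj_pow, (hΩpow x).1 hx, mul_one, mul_inv_cancel])
  have hbp : b ^ p = 1 := (hΩpow b).1 hbΩ
  have hbo : orderOf b = p := orderOf_eq_prime hbp fun h => hbC (h ▸ one_mem _)
  -- the commutator of `b` and `a`
  have hmem : b * a * b⁻¹ * a⁻¹ ∈ Subgroup.zpowers z := by
    refine hsmall _ (mul_mem (hCn.conj_mem a (Subgroup.mem_zpowers a) b)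
      (inv_mem (Subgroup.mem_zpowers a))) ((hΩpow _).1 ?_)
    rw [show b * a * b⁻¹ * a⁻¹ = b * (a * b⁻¹ * a⁻¹) by group]
    exact mul_mem hbΩ (hΩn _ (inv_mem hbΩ) a)
  obtain ⟨i, hi⟩ := (Submonoid.mem_powers_iff _ z).1 (mem_powers_iff_mem_zpowers.2 hmem)
  have hconj : b * a * b⁻¹ = z ^ i * a := by rw [hi]; group
  have hbz : b * z * b⁻¹ = z := by
    have hza : Commute z a := (Commute.refl a).pow_left _
    have h1 : z ^ p ^ (n - 2) = 1 := by
      rw [show p ^ (n - 2) = p * p ^ (n - 3) by rw [← pow_succ', show n - 3 + 1 = n - 2 by omega],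
        pow_mul, ← hzo, pow_orderOf_eq_one, one_pow]
    calc b * z * b⁻¹ = (b * a * b⁻¹) ^ p ^ (n - 2) := conj_pow.symm
      _ = (z ^ i) ^ p ^ (n - 2) * a ^ p ^ (n - 2) := by rw [hconj, (hza.pow_left i).mul_pow]
      _ = z := by rw [← pow_mul, mul_comm i, pow_mul, h1, one_pow, one_mul]
  have hip : ¬ p ∣ i := by
    rintro ⟨k, rfl⟩
    rw [pow_mul, ← hzo, pow_orderOf_eq_one, one_pow, one_mul] at hconj
    obtain ⟨x, y, hxy⟩ := hna
    apply hxy
    have hco : IsCoatom (Subgroup.zpowers a) := isCoatom_of_index hCi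
    have htop : Subgroup.closure ({a, b} : Set G) = ⊤ := by
      refine hco.2 _ (lt_of_le_of_ne (Subgroup.zpowers_le.2 (Subgroup.subset_closure (by simp))) fun h => ?_)
      exact hbC (h ▸ Subgroup.subset_closure (by simp))
    have hab : a * b = b * a := (mul_inv_eq_iff_eq_mul.1 hconj).symm
    have hc : IsMulCommutative (Subgroup.closure ({a, b} : Set G)) :=
      Subgroup.isMulCommutative_closure (by
        rintro u (rfl | rfl) v (rfl | rfl)
        · rfl
        · exact hab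
        · exact hab.symm
        · rfl)
    exact congrArg Subtype.val (mul_comm' (⟨x, htop ▸ Subgroup.mem_top x⟩ :
      Subgroup.closure ({a, b} : Set G)) ⟨y, htop ▸ Subgroup.mem_top y⟩)
  obtain ⟨j, hj⟩ := Nat.exists_mul_mod_eq_one_of_coprime
    (Nat.Coprime.symm ((hp'.coprime_iff_not_dvd).2 hip)) hp'.one_lt
  have hbj : ∀ k : ℕ, b ^ k * a * (b ^ k)⁻¹ = z ^ (i * k) * a := by
    intro k
    induction k with
    | zero => simp
    | succ k ih =>
      rw [pow_succ', show b * b ^ k * a * (b * b ^ k)⁻¹ = b * (b ^ k * a * (b ^ k)⁻¹) * b⁻¹ by group,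
        ih, show b * (z ^ (i * k) * a) * b⁻¹ = (b * z ^ (i * k) * b⁻¹) * (b * a * b⁻¹) by group,
        ← conj_pow, hbz, hconj, ← mul_assoc, ← pow_add, Nat.mul_succ]
  have hjp : ¬ p ∣ j := by
    rintro ⟨d, rfl⟩
    have := hj.2
    rw [← mul_assoc, mul_comm i p, mul_assoc, Nat.mul_mod_right] at this
    omega
  refine ⟨a, b ^ j, hord, ?_, fun h => hbC ?_, ?_⟩
  · rw [(show (orderOf b).Coprime j from hbo ▸ hp'.coprime_iff_not_dvd.2 hjp).orderOf_pow, hbo]
  · obtain ⟨m, hm⟩ := exists_pow_eq_self_of_coprime (x := b) (n := j)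
      (by rw [hbo, Nat.coprime_comm]; exact hp'.coprime_iff_not_dvd.2 hjp)
    rw [← hm]
    exact pow_mem h m
  · rw [hbj, ← Nat.mod_add_div (i * j) p, hj.2, pow_add, pow_mul, ← hzo, pow_orderOf_eq_one,
      one_pow, pow_one, mul_one, hzo, hz, ← pow_succ, add_comm]

end Cfsg.Agent.S0645
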