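import Cfsg.Statements.S0646
import Cfsg.Agent.TwoGroups.Classification

set_option autoImplicit false
open Cfsg

namespace Cfsg.Agent.S0646

/-- Classification of non-abelian 2-groups with a cyclic maximal subgroup: dihedral, generalized quaternion, and for order at least 16 the modular group and the semidihedral group, each given by generators a (of index 2) and b with the stated relations. -/
theorem result {G : Type*} [Group G] [Finite G] (n : ℕ) (hn : 3 ≤ n) (hG : Nat.card G = 2 ^ n) (C : Subgroup G) (hC : IsCyclic C) (hCi : C.index = 2) (hna : ∃ x y : G, x * y ≠ y * x) : ∃ a b : G, orderOf a = 2 ^ (n - 1) ∧ b ∉ Subgroup.zpowers a ∧ ((b ^ 2 = 1 ∧ b * a * b⁻¹ = a⁻¹) ∨ (b ^ 2 = a ^ (2 ^ (n - 2)) ∧ b * a * b⁻¹ = a⁻¹) ∨ (4 ≤ n ∧ b ^ 2 = 1 ∧ b * a * b⁻¹ = a ^ (1 + 2 ^ (n - 2))) ∨ (4 ≤ n ∧ b ^ 2 = 1 ∧ b * a * b⁻¹ = a ^ (2 ^ (n - 2) - 1))) := by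
  obtain ⟨a, rfl⟩ := C.isCyclic_iff_exists_zpowers_eq_top.1 hC
  obtain ⟨m, rfl⟩ : ∃ m, n = m + 1 := ⟨n - 1, by omega⟩
  have hord : orderOf a = 2 ^ m := by
    have h := (Subgroup.zpowers a).card_mul_index
    rw [hCi, hG, Nat.card_zpowers, pow_succ] at h
    exact Nat.eq_of_mul_eq_mul_right two_pos h
  rw [show m + 1 - 2 = m - 1 by omega, show m + 1 - 1 = m by omega]
  obtain ⟨b, hb⟩ := Cfsg.Agent.TwoGroups.cyclic_index_two_cases hG hord hna
  refine ⟨a, b, hord, ?_⟩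
  rcases hb with ⟨h, hb | hb⟩ | h | ⟨h3, h, hb⟩
  · exact ⟨h.notMem, Or.inl ⟨by rw [pow_two]; exact hb, by rw [h.conj, zpow_neg_one]⟩⟩
  · exact ⟨h.notMem, Or.inr (Or.inl ⟨by rw [pow_two]; exact hb, by rw [h.conj, zpow_neg_one]⟩)⟩
  · refine ⟨h.notMem, Or.inr (Or.inr (Or.inr ⟨by have := h.three_le; omega, by rw [pow_two]; exact h.y_sq, ?_⟩))⟩
    rw [h.conj, ← zpow_natCast]
    congr 1
    rw [Nat.cast_sub Nat.one_le_two_pow]
    push_cast
    ring
  · refine ⟨h.notMem, Or.inr (Or.inr (Or.inl ⟨by omega, by rw [pow_two]; exact hb, ?_⟩))⟩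
    rw [h.conj, ← zpow_natCast]
    push_cast
    rfl

end Cfsg.Agent.S0646
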