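import Cfsg.Statements.S0656
import Cfsg.Agent.Stability.Action

set_option autoImplicit false
open Cfsg

namespace Cfsg.Agent.S0656

/-- For odd p, a faithful group on an elementary abelian p-group with no nontrivial normal p-subgroup in which some nontrivial p-element acts quadratically has a section isomorphic to SL(2, p). -/
theorem result {G : Type*} [Group G] [Finite G] {p : ℕ} [Fact p.Prime] (hp : p ≠ 2) (V H : Subgroup G) (hV : Cfsg.IsElementaryAbelian p V) (hHV : H ≤ Subgroup.normalizer (V : Set G)) (hf : H ⊓ Subgroup.centralizer (V : Set G) = ⊥) (hO : Cfsg.pCore p ↥H = ⊥) (x : G) (hxH : x ∈ H) (hx1 : x ≠ 1) (hxp : ∃ k : ℕ, orderOf x = p ^ k) (hq : ⁅⁅V, Subgroup.zpowers x⁆, Subgroup.zpowers x⁆ = ⊥) : ∃ (K L : Subgroup G) (hL : (L.subgroupOf K).Normal), K ≤ H ∧ Nonempty ((K ⧸ L.subgroupOf K) ≃* Matrix.SpecialLinearGroup (Fin 2) (ZMod p)) := by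
  obtain ⟨k, hk⟩ := hxp
  set C : Subgroup H := (Subgroup.centralizer (V : Set G)).subgroupOf H with hC
  have hbot : C = ⊥ := by
    rw [hC, ← Subgroup.inf_subgroupOf_left, hf]
    exact Subgroup.bot_subgroupOf H
  haveI : C.Normal := by rw [hbot]; infer_instance
  refine (Stability.natural_pair_of_not_pCore hp hV hHV (C := C) (fun h => Subgroup.mem_subgroupOf)
    (x := ⟨x, hxH⟩) hq fun hmem => hx1 ?_).sl2_section hV
  let e : H ≃* H ⧸ C :=
    ((QuotientGroup.quotientMulEquivOfEq hbot).trans QuotientGroup.quotientBot).symm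
  rw [← Cores.map_pCore_equiv e, hO, Subgroup.map_bot, Subgroup.mem_bot,
    QuotientGroup.eq_one_iff, hbot, Subgroup.mem_bot] at hmem
  exact congrArg Subtype.val hmem

end Cfsg.Agent.S0656
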