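import Cfsg.Statements.S0657
import Cfsg.Agent.Stability.Action

set_option autoImplicit false
open Cfsg

namespace Cfsg.Agent.S0657

/-- For odd p, a group that fails to be p-stable modulo its largest normal subgroup of order prime to p, and whose upper p-series does not stop there, has a section isomorphic to SL(2, p). -/
theorem result {G : Type*} [Group G] [Finite G] {p : ℕ} [Fact p.Prime] (hp : p ≠ 2) (hO : Cfsg.pPrimeCore p G < Cfsg.pPrimePCore p G) (hns : ¬ Cfsg.IsPStable p (G ⧸ Cfsg.pPrimeCore p G)) : ∃ (K L : Subgroup G) (hL : (L.subgroupOf K).Normal), K ≤ ⊤ ∧ Nonempty ((K ⧸ L.subgroupOf K) ≃* Matrix.SpecialLinearGroup (Fin 2) (ZMod p)) := by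
  by_contra hcon
  have hfree : ¬ ∃ (K R : Subgroup (G ⧸ Cfsg.pPrimeCore p G)) (_ : (R.subgroupOf K).Normal),
      Nonempty ((K ⧸ R.subgroupOf K) ≃* Matrix.SpecialLinearGroup (Fin 2) (ZMod p)) := by
    rintro ⟨K, R, hR, ⟨e⟩⟩
    obtain ⟨K', R', hR', he⟩ :=
      Stability.section_comap _ (QuotientGroup.mk'_surjective _) hR e
    exact hcon ⟨K', R', hR', le_top, he⟩
  have hpf := Stability.pairFree_of_sl2Free hfree
  refine hns ⟨(Fact.out : p.Prime).odd_of_ne_two hp, ?_, ?_⟩
  · intro h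
    refine hO.ne ?_
    show _ = Subgroup.comap _ _
    rw [h, MonoidHom.comap_bot, QuotientGroup.ker_mk']
  · intro A P hA hP hAP hPle hn hq
    have h1 : Cfsg.pPrimeCore p (G ⧸ Cfsg.pPrimeCore p G) = ⊥ :=
      PSolv.pPrimeCore_quotient_eq_bot p G
    rw [h1, bot_sup_eq] at hn
    haveI := hn
    rintro _ ⟨a, ha, rfl⟩
    refine Stability.mk_mem_pCore_normalizer (hpf.isPStableOn hp hP _ ?_)
    exact le_bot_iff.1 ((Subgroup.commutator_mono
      (Subgroup.commutator_mono le_rfl (Subgroup.zpowers_le.2 (Subgroup.mem_subgroupOf.1 ha)))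
      (Subgroup.zpowers_le.2 (Subgroup.mem_subgroupOf.1 ha))).trans_eq hq)

end Cfsg.Agent.S0657
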