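import Cfsg.Statements.S0658
import Cfsg.Agent.Stability.ZJ
import Cfsg.Agent.Stability.PStable

set_option autoImplicit false
open Cfsg

namespace Cfsg.Agent.S0658

/-- In a group of characteristic p type all of whose p-locals are p-stable (p odd), the normalizer of Z(J(P)) contains the normalizer of every nontrivial subgroup of the Sylow p-subgroup P. -/
theorem result {G : Type*} [Group G] [Finite G] {p : ℕ} [Fact p.Prime] (hp : p ≠ 2) (hloc : ∀ Q : Subgroup G, IsPGroup p Q → Q ≠ ⊥ → Cfsg.pPrimeCore p ↥(Subgroup.normalizer (Q : Set G)) = ⊥ ∧ Cfsg.IsPConstrained p ↥(Subgroup.normalizer (Q : Set G)) ∧ Cfsg.IsPStable p ↥(Subgroup.normalizer (Q : Set G))) (P : Sylow p G) (Q : Subgroup G) (hQP : Q ≤ (P : Subgroup G)) (hQ1 : Q ≠ ⊥) : Subgroup.normalizer (Q : Set G) ≤ Subgroup.normalizer (Cfsg.centerThompsonAOf ((P : Subgroup G)) : Set G) := by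
  have key : ∀ R : Subgroup G, IsPGroup p R → R ≠ ⊥ → ∀ T : Sylow p ↥(Subgroup.normalizer (R : Set G)),
      Subgroup.normalizer (R : Set G) ≤ Subgroup.normalizer (Cfsg.centerThompsonAOf
        ((T : Subgroup _).map (Subgroup.normalizer (R : Set G)).subtype) : Set G) := by
    intro R hR hR1 T
    obtain ⟨hO, hc, hs⟩ := hloc R hR hR1
    have h := (Stability.abFamily p ↥(Subgroup.normalizer (R : Set G))).sInf_normal hp
      (CharTwo.cfcon_of_isPConstrained hc hO)
      (fun S _ hS => Stability.isPStableOn_of_isPStable hs hS) T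
    change (sInf (Modules.maxAbIn (T : Subgroup ↥(Subgroup.normalizer (R : Set G))))).Normal at h
    rw [Modules.sInf_maxAbIn_eq, ← Modules.centerThompsonAOf_eq_centralizer] at h
    intro g hg
    rw [← Modules.map_centerThompsonAOf (f := (Subgroup.normalizer (R : Set G)).subtype)
      (Subgroup.subtype_injective _)]
    exact Subgroup.le_normalizer_map _ ⟨⟨g, hg⟩, by
      rw [Subgroup.normalizer_eq_top (H := Cfsg.centerThompsonAOf
        (T : Subgroup ↥(Subgroup.normalizer (R : Set G))))]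
      trivial, rfl⟩
  induction hn : Nat.card G - Nat.card ↥((P : Subgroup G) ⊓ Subgroup.normalizer (Q : Set G))
    using Nat.strong_induction_on generalizing Q with
  | _ n ih =>
  subst hn
  set Z := Cfsg.centerThompsonAOf (P : Subgroup G) with hZ
  set M := Subgroup.normalizer (Q : Set G) with hM
  set T₀ := (P : Subgroup G) ⊓ M with hT₀
  have hQp : IsPGroup p Q := P.2.to_le hQP
  have hQT₀ : Q ≤ T₀ := le_inf hQP Subgroup.le_normalizer
  have grow : ∀ R : Subgroup G, R ≤ (P : Subgroup G) → R ≠ ⊥ →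
      Nat.card T₀ < Nat.card ↥((P : Subgroup G) ⊓ Subgroup.normalizer (R : Set G)) →
      Subgroup.normalizer (R : Set G) ≤ Subgroup.normalizer (Z : Set G) := by
    intro R hRP hR1 hlt
    have := Subgroup.card_le_card_group ((P : Subgroup G) ⊓ Subgroup.normalizer (R : Set G))
    exact ih _ (by omega) R hRP hR1 rfl
  by_cases hPM : (P : Subgroup G) ≤ M
  · have hT := key Q hQp hQ1 (P.subtype hPM)
    rwa [Sylow.coe_subtype, Subgroup.map_subgroupOf_eq_of_le hPM] at hT
  have hlt : T₀ < P := lt_of_le_not_ge inf_le_left fun h => hPM (h.trans inf_le_right)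
  have hlt' := PGroup.lt_inf_normalizer P.2 hlt
  have hcard : Nat.card T₀ < Nat.card ↥((P : Subgroup G) ⊓ Subgroup.normalizer (T₀ : Set G)) :=
    Set.ncard_lt_ncard hlt' (Set.toFinite _)
  have hT₀1 : T₀ ≠ ⊥ := ne_bot_of_le_ne_bot hQ1 hQT₀
  have hT₀M : IsPGroup p ↥(T₀.subgroupOf M) :=
    (P.2.to_le inf_le_left).comap_of_injective M.subtype M.subtype_injective
  obtain ⟨T, hT⟩ := hT₀M.exists_le_sylow
  set T' := (T : Subgroup M).map M.subtype with hT'
  have hT₀T : T₀ ≤ T' := fun x hx => ⟨⟨x, hx.2⟩, hT (Subgroup.mem_subgroupOf.2 hx), rfl⟩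
  rcases hT₀T.lt_or_eq with hTlt | hTeq
  · -- the local Sylow subgroup is larger
    have hTp : IsPGroup p T' := T.2.map _
    have hH : Subgroup.normalizer (T₀ : Set G) ≤ Subgroup.normalizer (Z : Set G) :=
      grow T₀ inf_le_left hT₀1 hcard
    set H := Subgroup.normalizer (Z : Set G) with hHdef
    have hPH : (P : Subgroup G) ≤ H :=
      Subgroup.le_normalizer.trans (Modules.normalizer_le_normalizer_centerThompsonAOf _)
    have hlt2 := PGroup.lt_inf_normalizer hTp hTlt
    have hX : T₀ < T' ⊓ H := lt_of_lt_of_le hlt2 (inf_le_inf_left _ hH)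
    obtain ⟨U, hU⟩ := (hTp.to_le (inf_le_left : T' ⊓ H ≤ T')).comap_of_injective H.subtype
      H.subtype_injective |>.exists_le_sylow
    obtain ⟨g, hg⟩ := MulAction.exists_smul_eq H U (P.subtype hPH)
    have hgU : ∀ x : H, x ∈ (U : Subgroup H) → (g : G) * x * (g : G)⁻¹ ∈ (P : Subgroup G) := by
      intro x hx
      have h1 : g * x * g⁻¹ ∈ ((g • U : Sylow p H) : Subgroup H) := by
        rw [Sylow.coe_subgroup_smul]
        exact Subgroup.smul_mem_pointwise_smul x (MulAut.conj g) (U : Subgroup H) hx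
      rw [hg, Sylow.coe_subtype] at h1
      simpa [Subgroup.mem_subgroupOf] using h1
    set c := (MulAut.conj (g : G)).toMonoidHom with hc
    have hsub : (T' ⊓ H).map c ≤ (P : Subgroup G) := by
      rintro _ ⟨x, hx, rfl⟩
      exact hgU ⟨x, hx.2⟩ (hU (Subgroup.mem_subgroupOf.2 hx))
    have hnorm : (T' ⊓ H).map c ≤ Subgroup.normalizer ((Q.map c : Subgroup G) : Set G) :=
      (Subgroup.map_mono (inf_le_left.trans (Subgroup.map_subtype_le _))).trans
        (Subgroup.le_normalizer_map c)
    have hQg : Q.map c ≤ (P : Subgroup G) :=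
      (Subgroup.map_mono (le_inf (hQT₀.trans hT₀T) (hQP.trans hPH))).trans hsub
    have hQg1 : Q.map c ≠ ⊥ := by
      rw [ne_eq, Subgroup.map_eq_bot_iff_of_injective _ (MulAut.conj (g : G)).injective]
      exact hQ1
    have hN := grow _ hQg hQg1 (by
      refine lt_of_lt_of_le ?_ (Subgroup.card_le_of_le (le_inf hsub hnorm))
      rw [Subgroup.card_map_of_injective (MulAut.conj (g : G)).injective]
      exact Set.ncard_lt_ncard hX (Set.toFinite _))
    intro m hm
    have h1 : (g : G) * m * (g : G)⁻¹ ∈ H := hN (Subgroup.le_normalizer_map c ⟨m, hm, rfl⟩)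
    have := H.mul_mem (H.mul_mem (H.inv_mem g.2) h1) g.2
    simpa [mul_assoc] using this
  · -- `T₀` is a Sylow subgroup of the normalizer
    have hk := key Q hQp hQ1 T
    rw [← hT', ← hTeq] at hk
    refine hk.trans (grow _ ((Modules.centerThompsonAOf_le T₀).trans inf_le_left) ?_ ?_)
    · exact Modules.centerThompsonAOf_ne_bot (p := p) (P.2.to_le inf_le_left) hT₀1
    · exact lt_of_lt_of_le hcard (Subgroup.card_le_of_le
        (inf_le_inf_left _ (Modules.normalizer_le_normalizer_centerThompsonAOf T₀)))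

end Cfsg.Agent.S0658
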