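import Cfsg.Statements.S0661
import Cfsg.Agent.Cores.Basic
import Cfsg.Agent.S0028

set_option autoImplicit false
open Cfsg

namespace Cfsg.Agent.S0661

/-- If, modulo the largest normal subgroup of order prime to p, the largest normal p-subgroup contains its centralizer, then for every p-subgroup P the p'-core of N_G(P) is just O_p'(G) ∩ N_G(P). -/
theorem result {G : Type*} [Group G] [Finite G] {p : ℕ} [Fact p.Prime] (hc : Subgroup.centralizer (Cfsg.pCore p (G ⧸ Cfsg.pPrimeCore p G) : Set (G ⧸ Cfsg.pPrimeCore p G)) ≤ Cfsg.pCore p (G ⧸ Cfsg.pPrimeCore p G)) (P : Subgroup G) (hP : IsPGroup p P) : (Cfsg.pPrimeCore p ↥(Subgroup.normalizer (P : Set G))).map (Subgroup.normalizer (P : Set G)).subtype = Cfsg.pPrimeCore p G ⊓ Subgroup.normalizer (P : Set G) := by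
  set N := Subgroup.normalizer (P : Set G)
  set O := Cfsg.pPrimeCore p G
  set X := (Cfsg.pPrimeCore p ↥N).map N.subtype with hX
  have hXN : X ≤ N := Subgroup.map_subtype_le _
  have hXcop : (Nat.card X).Coprime p :=
    Cfsg.Agent.Cores.pPrimeCore_coprime.coprime_dvd_left ((Cfsg.pPrimeCore p ↥N).card_map_dvd _)
  refine le_antisymm ?_ ?_
  swap
  · have h : O.subgroupOf N ≤ Cfsg.pPrimeCore p ↥N := Cfsg.Agent.Cores.le_pPrimeCore inferInstance
      (Cfsg.Agent.Cores.pPrimeCore_coprime.coprime_dvd_left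
        (Subgroup.card_comap_dvd_of_injective _ N.subtype N.subtype_injective))
    have := Subgroup.map_mono (f := N.subtype) h
    rwa [Subgroup.subgroupOf_map_subtype] at this
  refine le_inf ?_ hXN
  have hXn : N ≤ Subgroup.normalizer (X : Set G) := by
    have h := (Cfsg.pPrimeCore p ↥N).le_normalizer_map N.subtype
    rwa [Subgroup.normalizer_eq_top, ← MonoidHom.range_eq_map, Subgroup.range_subtype] at h
  have hPN : P ≤ N := Subgroup.le_normalizer
  have hPX : P ≤ Subgroup.centralizer (X : Set G) := by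
    intro a ha y hy
    have h1 : y * a * y⁻¹ * a⁻¹ ∈ P := mul_mem ((Subgroup.mem_normalizer_iff.1 (hXN hy) a).1 ha) (inv_mem ha)
    have h2 : y * a * y⁻¹ * a⁻¹ ∈ X := by
      rw [show y * a * y⁻¹ * a⁻¹ = y * (a * y⁻¹ * a⁻¹) by group]
      exact mul_mem hy ((Subgroup.mem_normalizer_iff.1 (hXn (hPN ha)) _).1 (inv_mem hy))
    have h3 : y * a * y⁻¹ * a⁻¹ = 1 := by
      obtain ⟨i, hi⟩ := IsPGroup.iff_card.1 hP
      have h4 : Disjoint P X := Subgroup.disjoint_of_coprime_natCard (hi ▸ (hXcop.symm.pow_left i))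
      exact Subgroup.disjoint_def.1 h4 h1 h2
    rwa [mul_inv_eq_one, mul_inv_eq_iff_eq_mul] at h3
  set π := QuotientGroup.mk' O with hπ
  set U := Cfsg.pCore p (G ⧸ O)
  -- centralisers of the image of `P` in `U` come from the normalizer of `P`
  have hlift : ∀ g : G, π g ∈ Subgroup.centralizer ((P.map π : Subgroup (G ⧸ O)) : Set (G ⧸ O)) →
      ∃ o ∈ O, o * g ∈ N := by
    intro g hg
    set L := P ⊔ O
    have hPL : P ≤ L := le_sup_left
    have hgP : P.map (MulAut.conj g).toMonoidHom ≤ L := by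
      rintro _ ⟨a, ha, rfl⟩
      have h1 : π (g * a * g⁻¹) = π a := by
        rw [map_mul, map_mul, map_inv, ← hg _ (Subgroup.mem_map_of_mem π ha), mul_inv_cancel_right]
      have h2 : a⁻¹ * (g * a * g⁻¹) ∈ O := QuotientGroup.eq.1 h1.symm
      have h3 := L.mul_mem (hPL ha) ((le_sup_right : O ≤ L) h2)
      rwa [mul_inv_cancel_left] at h3
    obtain ⟨i, hi⟩ := IsPGroup.iff_card.1 hP
    have hL : ¬ p ∣ P.relIndex L := by
      intro hd
      have h1 : Nat.card P * P.relIndex L = Nat.card L := by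
        rw [← Nat.card_congr (Subgroup.subgroupOfEquivOfLe hPL).toEquiv]
        exact (P.subgroupOf L).card_mul_index
      have h2 := h1 ▸ Cfsg.Agent.Cores.card_sup_dvd_mul P O
      exact Cfsg.Agent.Cores.not_dvd_card_pPrimeCore (p := p) (G := G)
        (hd.trans (Nat.dvd_of_mul_dvd_mul_left Nat.card_pos h2))
    let S : Sylow p L := (hP.comap_subtype (K := L)).toSylow hL
    have hgp : IsPGroup p ((P.map (MulAut.conj g).toMonoidHom).subgroupOf L) :=
      (hP.map _).comap_subtype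
    obtain ⟨T, hT⟩ := hgp.exists_le_sylow
    obtain ⟨l, hl⟩ := MulAction.exists_smul_eq L T S
    obtain ⟨a, ha, o, ho, hao⟩ := Subgroup.mem_sup_of_normal_right.1 l.2
    refine ⟨o, ho, ?_⟩
    have key : ∀ x ∈ P, (o * g) * x * (o * g)⁻¹ ∈ P := by
      intro x hx
      have h1 : (⟨g * x * g⁻¹, hgP ⟨x, hx, rfl⟩⟩ : L) ∈ (T : Subgroup L) := hT ⟨x, hx, rfl⟩
      have h2 : l * ⟨g * x * g⁻¹, hgP ⟨x, hx, rfl⟩⟩ * l⁻¹ ∈ (S : Subgroup L) := by
        rw [← hl]
        exact ⟨_, h1, rfl⟩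
      have h3 : (l : G) * (g * x * g⁻¹) * (l : G)⁻¹ ∈ P := h2
      rw [← hao] at h3
      have h4 := mul_mem (mul_mem (inv_mem ha) h3) ha
      simpa [mul_assoc] using h4
    have hle : P.map (MulAut.conj (o * g)).toMonoidHom ≤ P := by
      rintro _ ⟨x, hx, rfl⟩
      exact key x hx
    exact Subgroup.mem_normalizer_iff_map_conj_eq.2 (Subgroup.eq_of_le_of_card_ge hle
      (Nat.card_congr (P.equivMapOfInjective _ (MulAut.conj (o * g)).injective).toEquiv).le)
  have hcop' : (Nat.card (X.map π)).Coprime p := hXcop.coprime_dvd_left (X.card_map_dvd π)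
  have hUX : X.map π ≤ Subgroup.centralizer (U : Set (G ⧸ O)) := by
    refine Cfsg.Agent.S0028.result p (P.map π) (X.map π) U (hP.map π) hcop'
      Cfsg.Agent.Cores.pCore_isPGroup ?_ Subgroup.le_normalizer_of_normal
      Subgroup.le_normalizer_of_normal ?_
    · rintro _ ⟨a, ha, rfl⟩ _ ⟨y, hy, rfl⟩
      rw [← map_mul, ← map_mul, hPX ha y hy]
    · rintro u ⟨huU, huP⟩
      obtain ⟨g, rfl⟩ := QuotientGroup.mk'_surjective O u
      obtain ⟨o, ho, hog⟩ := hlift g huP
      rintro _ ⟨y, hy, rfl⟩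
      have h1 : π (o * g) = π g := by
        rw [map_mul, show π o = 1 from (QuotientGroup.eq_one_iff o).2 ho, one_mul]
      rw [← h1]
      have hu' : π (o * g) ∈ U := h1.symm ▸ huU
      have h2 : π (y * (o * g) * y⁻¹ * (o * g)⁻¹) ∈ U := by
        rw [map_mul, map_mul, map_mul, map_inv, map_inv]
        exact mul_mem ((inferInstance : U.Normal).conj_mem _ hu' _) (inv_mem hu')
      have h3 : y * (o * g) * y⁻¹ * (o * g)⁻¹ ∈ X := by
        rw [show y * (o * g) * y⁻¹ * (o * g)⁻¹ = y * ((o * g) * y⁻¹ * (o * g)⁻¹) by group]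
        exact mul_mem hy ((Subgroup.mem_normalizer_iff.1 (hXn hog) _).1 (inv_mem hy))
      obtain ⟨i, hi⟩ := IsPGroup.iff_card.1 (Cfsg.Agent.Cores.pCore_isPGroup (p := p) (G := G ⧸ O))
      have h4 : Disjoint U (X.map π) :=
        Subgroup.disjoint_of_coprime_natCard (hi ▸ (hcop'.symm.pow_left i))
      have h5 := Subgroup.disjoint_def.1 h4 h2 (Subgroup.mem_map_of_mem π h3)
      rw [map_mul, map_mul, map_mul, map_inv, map_inv, mul_inv_eq_one, mul_inv_eq_iff_eq_mul] at h5
      rw [map_mul]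
      exact h5
  intro x hx
  have h1 : π x ∈ U ⊓ X.map π := ⟨hc (hUX (Subgroup.mem_map_of_mem π hx)), Subgroup.mem_map_of_mem π hx⟩
  obtain ⟨i, hi⟩ := IsPGroup.iff_card.1 (Cfsg.Agent.Cores.pCore_isPGroup (p := p) (G := G ⧸ O))
  have h4 : Disjoint U (X.map π) :=
    Subgroup.disjoint_of_coprime_natCard (hi ▸ (hcop'.symm.pow_left i))
  exact (QuotientGroup.eq_one_iff x).1 (Subgroup.disjoint_def.1 h4 h1.1 h1.2)

end Cfsg.Agent.S0661
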