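import Cfsg.Statements.S0663
import Cfsg.Agent.PGroupExtra.Uniserial

set_option autoImplicit false
open Cfsg

namespace Cfsg.Agent.S0663

/-- A p-group acts uniserially on a p-group N of order p^n exactly when the iterated commutator chain from N has length n; in that case the chain terms are all the invariant subgroups of N and they are normal in N. -/
theorem result {L : Type*} [Group L] [Finite L] {p : ℕ} [Fact p.Prime] (N G : Subgroup L) (hN : IsPGroup p N) (hG : IsPGroup p G) (hGN : G ≤ Subgroup.normalizer (N : Set L)) (n : ℕ) (hn : Nat.card N = p ^ n) : ((∀ H : Subgroup L, H ≤ N → G ≤ Subgroup.normalizer (H : Set L) → H ≠ ⊥ → (⁅H, G⁆).relIndex H = p) ↔ Cfsg.iterCommutator N G (n - 1) ≠ ⊥ ∨ n = 0) ∧ ((∀ H : Subgroup L, H ≤ N → G ≤ Subgroup.normalizer (H : Set L) → H ≠ ⊥ → (⁅H, G⁆).relIndex H = p) → ∀ H : Subgroup L, H ≤ N → G ≤ Subgroup.normalizer (H : Set L) → (∃ i ≤ n, H = Cfsg.iterCommutator N G i) ∧ N ≤ Subgroup.normalizer (H : Set L)) := by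
  have hp : p.Prime := Fact.out
  have hinv := fun i => Uniserial.invariant_iter hGN i
  have chain_of : (∀ H : Subgroup L, H ≤ N → G ≤ Subgroup.normalizer (H : Set L) → H ≠ ⊥ →
      (⁅H, G⁆).relIndex H = p) → Uniserial.Chain N G p n := by
    intro hu
    refine ⟨hN, hGN, fun i => ?_⟩
    induction i with
    | zero => intro _; exact hn
    | succ i ih =>
      intro hi
      have h1 := ih (by omega)
      have hne : Cfsg.iterCommutator N G i ≠ ⊥ := fun hb => by
        rw [hb, Subgroup.card_bot] at h1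
        exact absurd h1.symm (Nat.one_lt_pow (by omega) hp.one_lt).ne'
      have h2 := hu _ (hinv i).2 (hinv i).1 hne
      have h3 := Subgroup.relIndex_mul_relIndex ⊥ ⁅Cfsg.iterCommutator N G i, G⁆
        (Cfsg.iterCommutator N G i) bot_le (Uniserial.commutator_invariant (hinv i).1).2
      rw [Subgroup.relIndex_bot_left, Subgroup.relIndex_bot_left, h2, h1,
        show n - i = n - (i + 1) + 1 by omega, pow_succ] at h3
      exact Nat.eq_of_mul_eq_mul_right hp.pos h3
  have classify : Uniserial.Chain N G p n → ∀ H : Subgroup L, H ≤ N →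
      G ≤ Subgroup.normalizer (H : Set L) →
      ∃ i ≤ n, H = Cfsg.iterCommutator N G i ∧ N ≤ Subgroup.normalizer (H : Set L) := by
    intro hc H hH hHG
    obtain ⟨h1, h2⟩ := hc.classify n le_rfl
    rw [Nat.sub_self] at h1 h2
    obtain ⟨m, -, hm, rfl⟩ := h2 H hH hHG
    exact ⟨m, hm, rfl, fun x hx => h1 x hx m (Nat.zero_le m) hm⟩
  refine ⟨⟨fun hu => ?_, fun hne H hH hHG hH1 => ?_⟩, fun hu H hH hHG => ?_⟩
  · rcases Nat.eq_zero_or_pos n with h0 | hpos
    · exact Or.inr h0
    · refine Or.inl fun hb => ?_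
      have := (chain_of hu).card (n - 1) (by omega)
      rw [hb, Subgroup.card_bot] at this
      exact absurd this.symm (Nat.one_lt_pow (by omega) hp.one_lt).ne'
  · have hc := Uniserial.Chain.of_ne_bot hN hG hGN hn hne
    obtain ⟨i, hi, rfl, -⟩ := classify hc H hH hHG
    have hlt : i < n := lt_of_le_of_ne hi fun e => hH1 (Subgroup.card_eq_one.mp (by
      rw [hc.card i hi, e, Nat.sub_self, pow_zero]))
    have h3 := Subgroup.relIndex_mul_relIndex ⊥ ⁅Cfsg.iterCommutator N G i, G⁆
      (Cfsg.iterCommutator N G i) bot_le (Uniserial.commutator_invariant (hinv i).1).2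
    rw [Subgroup.relIndex_bot_left, Subgroup.relIndex_bot_left, hc.card i hi,
      show ⁅Cfsg.iterCommutator N G i, G⁆ = Cfsg.iterCommutator N G (i + 1) from rfl,
      hc.card (i + 1) hlt, show n - i = n - (i + 1) + 1 by omega, pow_succ] at h3
    exact Nat.eq_of_mul_eq_mul_left (pow_pos hp.pos _) h3
  · obtain ⟨i, hi, he, hN'⟩ := classify (chain_of hu) H hH hHG
    exact ⟨⟨i, hi, he⟩, hN'⟩

end Cfsg.Agent.S0663
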