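import Cfsg.Statements.S0666
import Cfsg.Agent.S0035
import Mathlib.Algebra.BigOperators.Group.Finset.Basic

set_option autoImplicit false
open Cfsg

namespace Cfsg.Agent.S0666

/-- A Frobenius group acting on a nontrivial abelian group of order prime to that of its kernel, with the kernel acting without nontrivial fixed points, has a complement with a nontrivial fixed point. -/
theorem result {G : Type*} [Group G] [Finite G] (V F : Subgroup G) (hVab : IsMulCommutative V) (hV1 : V ≠ ⊥) (hFV : F ≤ Subgroup.normalizer (V : Set G)) (H : Subgroup ↥F) (hH : Cfsg.IsFrobeniusComplement H) (hcop : (Nat.card V).Coprime (Nat.card (Cfsg.frobeniusKernel H))) (hCK : V ⊓ Subgroup.centralizer (Subtype.val '' Cfsg.frobeniusKernel H : Set G) = ⊥) : V ⊓ Subgroup.centralizer ((H.map F.subtype : Subgroup G) : Set G) ≠ ⊥ := by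
  classical
  obtain ⟨N, hN, hNn, hcompl⟩ := Cfsg.Agent.S0035.result H hH
  intro hCH
  haveI : Fintype H := Fintype.ofFinite H
  haveI : Fintype N := Fintype.ofFinite N
  letI : CommGroup V := { (inferInstance : Group V) with mul_comm := mul_comm' }
  let c : F → V →* V := fun e => ((MulAut.conj (e : G)).toMonoidHom.comp V.subtype).codRestrict V
    (fun x => (Subgroup.mem_normalizer_iff.1 (hFV e.2) x).1 x.2)
  have hc : ∀ (e d : F) (v : V), c e (c d v) = c (e * d) v := fun e d v =>
    Subtype.ext (by simp [c, MulAut.conj_apply, mul_assoc])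
  have hfix : ∀ (v : V) (e : F), c e v = v → (e : G) * (v : G) = (v : G) * e := fun v e h =>
    mul_inv_eq_iff_eq_mul.1 (congrArg Subtype.val h)
  have hH' : ∀ w : V, ∏ h : H, c h w = 1 := by
    intro w
    have hP : ((∏ h : H, c h w : V) : G) ∈ V ⊓ Subgroup.centralizer ((H.map F.subtype : Subgroup G) : Set G) := by
      refine ⟨SetLike.coe_mem _, ?_⟩
      rintro _ ⟨h₀, hh₀, rfl⟩
      refine hfix _ h₀ ?_
      rw [map_prod]
      simp only [hc]
      exact Fintype.prod_equiv (Equiv.mulLeft (⟨h₀, hh₀⟩ : H)) _ _ fun h => rfl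
    rw [hCH, Subgroup.mem_bot] at hP
    exact Subtype.ext hP
  have hN' : ∀ w : V, ∏ k : N, c k w = 1 := by
    intro w
    have hP : ((∏ k : N, c k w : V) : G) ∈ V ⊓ Subgroup.centralizer (Subtype.val '' Cfsg.frobeniusKernel H : Set G) := by
      refine ⟨SetLike.coe_mem _, ?_⟩
      rintro _ ⟨k₀, hk₀, rfl⟩
      refine hfix _ k₀ ?_
      rw [map_prod]
      simp only [hc]
      rw [← hN] at hk₀
      exact Fintype.prod_equiv (Equiv.mulLeft (⟨k₀, hk₀⟩ : N)) _ _ fun k => rfl
    rw [hCK, Subgroup.mem_bot] at hP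
    exact Subtype.ext hP
  obtain ⟨v, hv, hv1⟩ := (Subgroup.bot_or_exists_ne_one V).resolve_left hV1
  set w : V := ⟨v, hv⟩
  have h1 : ∏ h : H, ∏ k : N, c ((k : F) * h * (k : F)⁻¹) w = 1 := by
    rw [Finset.prod_comm]
    refine Finset.prod_eq_one fun k _ => ?_
    have : ∀ h : H, c ((k : F) * h * (k : F)⁻¹) w = c k (c h (c (k : F)⁻¹ w)) := fun h => by
      rw [hc, hc, mul_assoc]
    simp only [this, ← map_prod, hH', map_one]
  rw [Finset.prod_eq_single (1 : H)] at h1
  · have hcard : w ^ Nat.card N = 1 := by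
      rw [← h1]
      have : ∀ k : N, c ((k : F) * ((1 : H) : F) * (k : F)⁻¹) w = w := fun k =>
        Subtype.ext (by simp [c, MulAut.conj_apply])
      simp only [this, Finset.prod_const, Finset.card_univ, Nat.card_eq_fintype_card]
    have hco : (Nat.card V).Coprime (Nat.card N) := by
      rw [← hN] at hcop
      exact hcop
    exact hv1 (congrArg Subtype.val ((powCoprime hco).injective (hcard.trans (one_pow _).symm)) :)
  · intro h _ hne
    let σ : N → N := fun k => ⟨(k : F) * h * (k : F)⁻¹ * (h : F)⁻¹, by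
      rw [show (k : F) * h * (k : F)⁻¹ * (h : F)⁻¹ = (k : F) * ((h : F) * (k : F)⁻¹ * (h : F)⁻¹) by group]
      exact mul_mem k.2 (hNn.conj_mem _ (inv_mem k.2) _)⟩
    have hσ : Function.Bijective σ := by
      refine Finite.injective_iff_bijective.1 fun x y hxy => ?_
      have h2 : (x : F) * h * (x : F)⁻¹ = (y : F) * h * (y : F)⁻¹ :=
        mul_right_cancel (congrArg Subtype.val hxy :)
      by_contra hxy'
      have hm : ((y : F)⁻¹ * x) ∉ H := fun hm => by
        have h4 : ((y : F)⁻¹ * x) ∈ N := mul_mem (inv_mem y.2) x.2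
        exact hxy' (Subtype.ext (inv_mul_eq_one.1 (Subgroup.disjoint_def.1 hcompl.disjoint h4 hm)).symm)
      have h3 : ((y : F)⁻¹ * x) * h * ((y : F)⁻¹ * x)⁻¹ = h := by
        rw [show ((y : F)⁻¹ * x) * h * ((y : F)⁻¹ * x)⁻¹ = (y : F)⁻¹ * ((x : F) * h * (x : F)⁻¹) * y by group, h2]
        group
      exact hne (Subtype.ext (Cfsg.Agent.S0035.ti hH _ hm h h.2 (by rw [h3]; exact h.2)))
    rw [← hN' (c h w)]
    refine Fintype.prod_bijective σ hσ _ _ fun k => ?_
    rw [hc]
    congr 2
    simp [σ]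
  · exact fun h => absurd (Finset.mem_univ _) h

end Cfsg.Agent.S0666
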