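import Cfsg.Statements.S0668
import Cfsg.Agent.Perm.Modules

set_option autoImplicit false
open Cfsg

namespace Cfsg.Agent.S0668

/-- The equivariant linear maps between the permutation modules of two finite `G`-sets form a space whose dimension is the number of `G`-orbits on the product of the two sets. -/
theorem result {G : Type*} [Group G] {K : Type*} [Field K] {Ω₁ Ω₂ : Type*} [Fintype Ω₁] [Fintype Ω₂] [MulAction G Ω₁] [MulAction G Ω₂] : Module.finrank K ((Cfsg.permRep K G Ω₁).linHom (Cfsg.permRep K G Ω₂)).invariants = Nat.card (MulAction.orbitRel.Quotient G (Ω₁ × Ω₂)) := by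
  classical
  let Q := MulAction.orbitRel.Quotient G (Ω₁ × Ω₂)
  have hinv : ∀ (f : ((Cfsg.permRep K G Ω₁).linHom (Cfsg.permRep K G Ω₂)).invariants) (g : G)
      (x : Ω₁) (y : Ω₂),
      f.1 (Pi.single (g • x) 1) (g • y) = f.1 (Pi.single x 1) y := by
    intro f g x y
    have h := congrFun (LinearMap.congr_fun (f.2 g) (Pi.single (g • x) 1)) (g • y)
    have e : Cfsg.permRep K G Ω₁ g⁻¹ (Pi.single (g • x) (1 : K)) = Pi.single x 1 := by
      funext z
      simp [PermLib.permRep_apply, Pi.single_apply]
    rw [Representation.linHom_apply, LinearMap.comp_apply, LinearMap.comp_apply, e,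
      PermLib.permRep_apply, inv_smul_smul] at h
    exact h.symm
  let Φ : ((Cfsg.permRep K G Ω₁).linHom (Cfsg.permRep K G Ω₂)).invariants →ₗ[K] (Q → K) :=
    { toFun := fun f q => Quotient.liftOn' q (fun z => f.1 (Pi.single z.1 1) z.2) (by
        rintro z w ⟨g, rfl⟩
        exact hinv f g w.1 w.2)
      map_add' := fun f₁ f₂ => by ext q; induction q using Quotient.inductionOn'; rfl
      map_smul' := fun c f => by ext q; induction q using Quotient.inductionOn'; rfl }
  have hinj : Function.Injective Φ := by
    intro f₁ f₂ h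
    refine Subtype.ext (LinearMap.pi_ext' fun x => LinearMap.ext_ring ?_)
    funext y
    exact congrFun h (Quotient.mk'' (x, y))
  have hsurj : Function.Surjective Φ := by
    intro c
    let L : (Ω₁ → K) →ₗ[K] (Ω₂ → K) :=
      { toFun := fun v y => ∑ x, v x * c (Quotient.mk'' (x, y))
        map_add' := fun v w => by ext y; simp [add_mul, Finset.sum_add_distrib]
        map_smul' := fun r v => by ext y; simp [Finset.mul_sum, mul_assoc] }
    refine ⟨⟨L, fun g => ?_⟩, ?_⟩
    · refine LinearMap.ext fun v => funext fun y => ?_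
      rw [Representation.linHom_apply]
      change ∑ x, v (g⁻¹⁻¹ • x) * c (Quotient.mk'' (x, g⁻¹ • y))
        = ∑ x, v x * c (Quotient.mk'' (x, y))
      refine Fintype.sum_equiv (MulAction.toPerm g) _ _ fun x => ?_
      rw [inv_inv]
      congr 1
      refine congrArg c (Quotient.sound' ⟨g⁻¹, ?_⟩)
      simp
    · ext q
      induction q using Quotient.inductionOn' with
      | _ z => simp [Φ, L, Pi.single_apply]
  haveI : Fintype Q := Fintype.ofFinite _
  rw [(LinearEquiv.ofBijective Φ ⟨hinj, hsurj⟩).finrank_eq, Module.finrank_fintype_fun_eq_card,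
    Nat.card_eq_fintype_card]

end Cfsg.Agent.S0668
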