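import Cfsg.Statements.S0681
import Cfsg.Agent.Perm.Regular

set_option autoImplicit false
open Cfsg

namespace Cfsg.Agent.S0681

/-- The affine maps `x ↦ x * a + b`, `a ≠ 0`, of a near-field form a sharply doubly transitive permutation group. -/
theorem result {F : Type*} [Cfsg.NearField F] : ∃ H : Subgroup (Equiv.Perm F), (∀ σ : Equiv.Perm F, σ ∈ H ↔ ∃ a b : F, a ≠ 0 ∧ ∀ x : F, σ x = x * a + b) ∧ MulAction.IsMultiplyPretransitive H F 2 ∧ ∀ x : Fin 2 ↪ F, MulAction.stabilizer H x = ⊥ := by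
  classical
  have hinv : ∀ a : F, a ≠ 0 → ∃ b : F, b ≠ 0 ∧ a * b = 1 ∧ b * a = 1 := by
    intro a ha
    obtain ⟨b, h1, h2⟩ := NearField.exists_inv a ha
    refine ⟨b, fun hb => ?_, h1, h2⟩
    rw [hb, NearField.mul_zero] at h1
    exact NearField.zero_ne_one h1
  have hzero : ∀ c : F, (0 : F) * c = 0 := by
    intro c
    have h := NearField.right_distrib (0 : F) 0 c
    rw [add_zero] at h
    exact add_left_cancel (a := (0 : F) * c) (by rw [add_zero]; exact h.symm)
  have hne : ∀ a b : F, a ≠ 0 → b ≠ 0 → a * b ≠ 0 := by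
    intro a b ha hb h
    obtain ⟨a', -, -, h'⟩ := hinv a ha
    exact hb (by rw [← one_mul b, ← h', mul_assoc, h, NearField.mul_zero])
  have hneg : ∀ x c : F, (-x) * c = -(x * c) := by
    intro x c
    refine eq_neg_of_add_eq_zero_left ?_
    rw [← NearField.right_distrib, neg_add_cancel, hzero]
  have hsub : ∀ x y c : F, (x - y) * c = x * c - y * c := by
    intro x y c
    rw [sub_eq_add_neg, NearField.right_distrib, hneg, sub_eq_add_neg]
  let H : Subgroup (Equiv.Perm F) :=
    { carrier := {σ | ∃ a b : F, a ≠ 0 ∧ ∀ x : F, σ x = x * a + b}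
      one_mem' := ⟨1, 0, fun h => NearField.zero_ne_one h.symm, fun x => by simp⟩
      mul_mem' := by
        rintro σ τ ⟨a, b, ha, hσ⟩ ⟨c, d, hc, hτ⟩
        refine ⟨c * a, d * a + b, hne c a hc ha, fun x => ?_⟩
        rw [Equiv.Perm.coe_mul, Function.comp_apply, hτ, hσ, NearField.right_distrib, mul_assoc,
          add_assoc]
      inv_mem' := by
        rintro σ ⟨a, b, ha, hσ⟩
        obtain ⟨a', ha', h1, h2⟩ := hinv a ha
        refine ⟨a', (-b) * a', ha', fun x => ?_⟩
        apply σ.injective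
        rw [Equiv.Perm.inv_def, Equiv.apply_symm_apply, hσ, ← NearField.right_distrib, mul_assoc,
          h2, mul_one, add_assoc, neg_add_cancel, add_zero] }
  have hmem : ∀ a b : F, a ≠ 0 → ∃ g : H, ∀ x : F, g • x = x * a + b := by
    intro a b ha
    obtain ⟨a', -, h1, h2⟩ := hinv a ha
    exact ⟨⟨⟨fun x => x * a + b, fun y => (y - b) * a',
      fun x => by simp [mul_assoc, h1],
      fun y => by simp [mul_assoc, h2]⟩, a, b, ha, fun x => rfl⟩, fun x => rfl⟩
  refine ⟨H, fun σ => Iff.rfl, ?_, ?_⟩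
  · rw [MulAction.is_two_pretransitive_iff]
    intro a b c d hab hcd
    obtain ⟨u, hu, hu1, hu2⟩ := hinv (a - b) (sub_ne_zero.2 hab)
    have hm : u * (c - d) ≠ 0 := hne _ _ hu (sub_ne_zero.2 hcd)
    obtain ⟨g, hg⟩ := hmem (u * (c - d)) (-(b * (u * (c - d))) + d) hm
    have key : ∀ x, g • x = (x - b) * (u * (c - d)) + d := by
      intro x
      rw [hg, hsub, sub_eq_add_neg (x * _), add_assoc]
    exact ⟨g, by rw [key, ← mul_assoc, hu1, one_mul, sub_add_cancel],
      by rw [key, sub_self, hzero, zero_add]⟩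
  · intro z
    rw [Subgroup.eq_bot_iff_forall]
    rintro ⟨σ, a, b, ha, hσ⟩ hs
    have e : ∀ i, σ (z i) = z i := fun i => DFunLike.congr_fun hs i
    have hd : (z 0 - z 1) * a = z 0 - z 1 := by
      conv_rhs => rw [← e 0, ← e 1, hσ, hσ, add_sub_add_right_eq_sub, ← hsub]
    have hzne : z 0 - z 1 ≠ 0 := sub_ne_zero.2 (z.injective.ne (by decide))
    obtain ⟨u, -, -, hu2⟩ := hinv _ hzne
    have ha1 : a = 1 := by
      calc a = u * (z 0 - z 1) * a := by rw [hu2, one_mul]
        _ = u * ((z 0 - z 1) * a) := mul_assoc _ _ _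
        _ = 1 := by rw [hd, hu2]
    have hb : b = 0 := by
      have h := e 0
      rw [hσ, ha1, mul_one] at h
      simpa using h
    refine Subtype.ext (Equiv.ext fun x => ?_)
    change σ x = x
    rw [hσ, ha1, hb, mul_one, add_zero]

end Cfsg.Agent.S0681
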