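import Cfsg.Statements.S0682
import Cfsg.Agent.Perm.Regular

set_option autoImplicit false
open Cfsg

namespace Cfsg.Agent.S0682

/-- A finite near-field has prime-power order; its additive group is commutative of prime exponent. -/
theorem result {F : Type*} [Cfsg.NearField F] [Finite F] : ∃ p j : ℕ, p.Prime ∧ 1 ≤ j ∧ Nat.card F = p ^ j ∧ (∀ x y : F, x + y = y + x) ∧ ∀ x : F, p • x = 0 := by
  haveI : Nontrivial F := ⟨⟨0, 1, NearField.zero_ne_one⟩⟩
  have haut : ∀ x y : Multiplicative F, x ≠ 1 → y ≠ 1 →
      ∃ e : Multiplicative F ≃* Multiplicative F, e x = y := by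
    intro x y hx hy
    obtain ⟨u, hux, hxu⟩ := NearField.exists_inv (Multiplicative.toAdd x) hx
    have hinv : ∀ c : F, c ≠ 0 → Function.Bijective (fun z : F => z * c) := by
      intro c hc
      obtain ⟨d, hcd, hdc⟩ := NearField.exists_inv c hc
      refine ⟨fun s t h => ?_, fun t => ⟨t * d, by
        change t * d * c = t
        rw [mul_assoc, hdc, mul_one]⟩⟩
      calc s = s * c * d := by rw [mul_assoc, hcd, mul_one]
        _ = t * c * d := by rw [show s * c = t * c from h]
        _ = t := by rw [mul_assoc, hcd, mul_one]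
    let c : F := u * Multiplicative.toAdd y
    have hxc : Multiplicative.toAdd x * c = Multiplicative.toAdd y := by
      simp only [c]
      rw [← mul_assoc, hux, one_mul]
    have hc : c ≠ 0 := by
      intro h
      apply hy
      have : Multiplicative.toAdd y = 0 := by rw [← hxc, h, NearField.mul_zero]
      exact this
    let e : F ≃+ F := AddEquiv.mk' (Equiv.ofBijective _ (hinv c hc))
      (fun a b => NearField.right_distrib a b c)
    exact ⟨e.toMultiplicative, congrArg Multiplicative.ofAdd hxc⟩
  obtain ⟨hab, hel⟩ := PermLib.elementary_of_transitive_aut (K := Multiplicative F) haut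
  obtain ⟨p, j, hp, hj, hcard, hpow⟩ := hel inferInstance
  refine ⟨p, j, hp, hj, hcard, fun x y => ?_, fun x => ?_⟩
  · exact congrArg Multiplicative.toAdd
      (hab.is_comm.comm (Multiplicative.ofAdd x) (Multiplicative.ofAdd y))
  · exact congrArg Multiplicative.toAdd (hpow (Multiplicative.ofAdd x))

end Cfsg.Agent.S0682
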