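import Cfsg.Statements.S0683
import Cfsg.Agent.Perm.Sharp
import Mathlib.Algebra.Group.MinimalAxioms

set_option autoImplicit false
open Cfsg

namespace Cfsg.Agent.S0683

/-- A finite sharply doubly transitive permutation group is the affine group of a near-field: the permuted set carries a near-field structure for which the group consists exactly of the maps `x ↦ x * a + b` with `a ≠ 0`. -/
theorem result {α : Type*} [Fintype α] [DecidableEq α] (H : Subgroup (Equiv.Perm α)) [MulAction.IsMultiplyPretransitive H α 2] (hsharp : ∀ x : Fin 2 ↪ α, MulAction.stabilizer H x = ⊥) (h2 : 2 ≤ Fintype.card α) : ∃ _ : Cfsg.NearField α, ∀ σ : Equiv.Perm α, σ ∈ H ↔ ∃ a b : α, a ≠ 0 ∧ ∀ x : α, σ x = x * a + b := by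
  classical
  haveI : Nontrivial α := Fintype.one_lt_card_iff_nontrivial.1 h2
  haveI : MulAction.IsPretransitive H α := MulAction.isPretransitive_of_is_two_pretransitive
  obtain ⟨K, hKn, hKt, hreg, hab, -, p, j, -, -, -, -, -⟩ :=
    PermLib.exists_kernel_of_sharp (G := H) (α := α) inferInstance hsharp
  obtain ⟨o, e, hoe⟩ := exists_pair_ne α
  have hbij := PermLib.smul_bijective_of_regular (hreg o)
  let ψ : K ≃ α := Equiv.ofBijective _ hbij
  have hex : ∀ c : α, ∃ g : H, g • o = o ∧ (c ≠ o → g • e = c) := by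
    intro c
    by_cases hc : c = o
    · exact ⟨1, one_smul _ _, fun h => absurd hc h⟩
    obtain ⟨g, hg, hg'⟩ := (PermLib.two_pretransitive_iff_stabilizer (G := H) o).1 inferInstance
      e c hoe.symm hc
    exact ⟨g, hg, fun _ => hg'⟩
  choose η hη0 hη1 using hex
  have huniq : ∀ g g' : H, g • o = o → g' • o = o → g • e = g' • e → g = g' := by
    intro g g' h h' he
    refine (inv_mul_eq_one.1 (PermLib.eq_one_of_sharp hsharp hoe ?_ ?_)).symm
    · rw [mul_smul, h, inv_smul_eq_iff, h']
    · rw [mul_smul, he, inv_smul_smul]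
  let m : α → α → α := fun x c => if c = o then o else η c • x
  let addm : α → α → α := fun x y => ((ψ.symm x * ψ.symm y : K) : H) • o
  have hm0 : ∀ x, m x o = o := fun x => if_pos rfl
  have hmne : ∀ x c, c ≠ o → m x c = η c • x := fun x c h => if_neg h
  have hom : ∀ c, m o c = o := by
    intro c
    by_cases hc : c = o
    · exact if_pos hc
    · rw [hmne _ _ hc, hη0]
  have hmul_ne : ∀ b c, b ≠ o → c ≠ o → m b c ≠ o := by
    intro b c hb hc h
    rw [hmne _ _ hc] at h
    exact hb (MulAction.injective (η c) (h.trans (hη0 c).symm))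
  have hassoc : ∀ x b c, m (m x b) c = m x (m b c) := by
    intro x b c
    by_cases hc : c = o
    · rw [hc, hm0, hm0, hm0]
    by_cases hb : b = o
    · rw [hb, hm0, hom, hm0]
    rw [hmne _ _ hc, hmne _ _ hb, hmne _ _ (hmul_ne b c hb hc), smul_smul]
    congr 1
    refine huniq _ _ ?_ (hη0 _) ?_
    · rw [mul_smul, hη0, hη0]
    · rw [mul_smul, hη1 b hb, hη1 _ (hmul_ne b c hb hc), hmne _ _ hc]
  have hone : ∀ x, m x e = x := by
    intro x
    rw [hmne _ _ hoe.symm, huniq (η e) 1 (hη0 e) (one_smul _ _) (by rw [hη1 e hoe.symm, one_smul]),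
      one_smul]
  have hone' : ∀ c, m e c = c := by
    intro c
    by_cases hc : c = o
    · rw [hc, hm0]
    · rw [hmne _ _ hc, hη1 c hc]
  have hψ : ∀ k : K, ψ k = (k : H) • o := fun k => rfl
  have hψs : ∀ k : K, ψ.symm ((k : H) • o) = k := fun k => ψ.symm_apply_apply k
  have hψ' : ∀ x, (ψ.symm x : H) • o = x := fun x => ψ.apply_symm_apply x
  letI : Add α := ⟨addm⟩
  letI : Zero α := ⟨o⟩
  letI : Neg α := ⟨fun x => (((ψ.symm x)⁻¹ : K) : H) • o⟩
  letI : AddGroup α := AddGroup.ofLeftAxioms
    (fun x y z => by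
      change addm (addm x y) z = addm x (addm y z)
      simp only [addm]
      rw [hψs, hψs, mul_assoc])
    (fun x => by
      change addm o x = x
      simp only [addm]
      rw [show ψ.symm o = 1 from ψ.symm_apply_eq.2 (one_smul H o).symm, one_mul, hψ'])
    (fun x => by
      change addm ((((ψ.symm x)⁻¹ : K) : H) • o) x = o
      simp only [addm]
      rw [hψs, inv_mul_cancel]
      exact one_smul H o)
  letI : Monoid α :=
    { mul := m
      one := e
      mul_assoc := hassoc
      one_mul := hone'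
      mul_one := hone }
  have hdist : ∀ x y c, m (addm x y) c = addm (m x c) (m y c) := by
    intro x y c
    by_cases hc : c = o
    · simp only [hc, hm0, addm, show ψ.symm o = 1 from ψ.symm_apply_eq.2 (one_smul H o).symm,
        mul_one]
      exact (one_smul H o).symm
    have hs : η c ∈ MulAction.stabilizer H o := hη0 c
    have key : ∀ k : K, η c • ((k : H) • o) = ((MulAut.conjNormal (η c) k : K) : H) • o := by
      intro k
      rw [MulAut.conjNormal_apply, PermLib.conj_smul_of_mem_stabilizer hs]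
    simp only [hmne _ _ hc, addm]
    rw [key, map_mul]
    congr 3 <;> refine (ψ.symm_apply_eq.2 ?_).symm <;> rw [hψ, ← key, hψ']
  let NF : Cfsg.NearField α :=
    { right_distrib := hdist
      mul_zero := hm0
      zero_ne_one := hoe
      exists_inv := fun a ha => by
        obtain ⟨b, hb, hab'⟩ : ∃ b : α, b ≠ o ∧ m b a = e := by
          refine ⟨(η a)⁻¹ • e, fun h => ?_, ?_⟩
          · rw [inv_smul_eq_iff, hη0] at h
            exact hoe h.symm
          · rw [hmne _ _ ha, smul_inv_smul]
        obtain ⟨c, hc⟩ : ∃ c : α, m c b = e :=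
          ⟨(η b)⁻¹ • e, by rw [hmne _ _ hb, smul_inv_smul]⟩
        refine ⟨b, ?_, hab'⟩
        have hca : c = a := by rw [← hone c, ← hab', ← hassoc, hc, hone']
        change m a b = e
        rw [← hca, hc] }
  refine ⟨NF, fun σ => ?_⟩
  have hcomm : ∀ (k : K) (x : α), (k : H) • x = addm x ((k : H) • o) := by
    intro k x
    simp only [addm]
    rw [hψs, hab.is_comm.comm (ψ.symm x) k, Subgroup.coe_mul, mul_smul, hψ']
  constructor
  · intro hσ
    obtain ⟨k, hk, g, hg, hgk⟩ :=
      PermLib.exists_mem_mul_mem_stabilizer (α := α) K o (⟨σ, hσ⟩ : H)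
    have ha : g • e ≠ o := fun h => hoe (MulAction.injective g (hg.trans h.symm))
    refine ⟨g • e, k • o, ha, fun x => ?_⟩
    change σ x = addm (m x (g • e)) (k • o)
    rw [hmne _ _ ha, huniq _ g (hη0 _) hg (hη1 _ ha), ← hcomm ⟨k, hk⟩, ← mul_smul, ← hgk]
    rfl
  · rintro ⟨a, b, ha, hσ⟩
    have he : σ = ((ψ.symm b : H) * η a : H) := by
      refine Equiv.ext fun x => ?_
      rw [hσ]
      change addm (m x a) b = ((ψ.symm b : H) * η a) • x
      rw [hmne _ _ ha, mul_smul, hcomm, hψ']
    rw [he]
    exact SetLike.coe_mem _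

end Cfsg.Agent.S0683
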