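import Cfsg.Statements.S0686
import Cfsg.Agent.PermP.ZassCore
import Cfsg.Agent.Perm.LinearRegular
import Cfsg.Agent.CharTwo.QuaternionQuotient

set_option autoImplicit false
open Cfsg
open scoped commutatorElement

namespace Cfsg.Agent.S0686

/-- A quaternion group of class two has order eight. -/
theorem quaternion_param {m : ℕ} (hm : Even m) (hm0 : m ≠ 0)
    (h : commutator (QuaternionGroup m) ≤ Subgroup.center (QuaternionGroup m)) : m = 2 := by
  haveI : NeZero m := ⟨hm0⟩
  have hc : ⁅(QuaternionGroup.xa 0 : QuaternionGroup m), (QuaternionGroup.a 1 : QuaternionGroup m)⁆ ∈ Subgroup.center _ :=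
    h (Subgroup.commutator_mem_commutator (Subgroup.mem_top _) (Subgroup.mem_top _))
  have h1 := Subgroup.mem_center_iff.mp hc (QuaternionGroup.xa 0)
  have h2 : ⁅(QuaternionGroup.xa 0 : QuaternionGroup m), (QuaternionGroup.a 1 : QuaternionGroup m)⁆ *
      (QuaternionGroup.a 1 * QuaternionGroup.xa 0) = QuaternionGroup.xa 0 * QuaternionGroup.a 1 := by
    rw [commutatorElement_def]; group
  rcases he : ⁅(QuaternionGroup.xa 0 : QuaternionGroup m), (QuaternionGroup.a 1 : QuaternionGroup m)⁆ with k | k <;>
    rw [he] at h1 h2 <;> simp at h1 h2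
  have h4 : ((4 : ℕ) : ZMod (2 * m)) = 0 := by
    push_cast
    linear_combination -h1 - 2 * h2
  have hdvd : 2 * m ∣ 4 := (ZMod.natCast_eq_zero_iff _ _).mp h4
  have := Nat.le_of_dvd (by norm_num) hdvd
  obtain ⟨r, rfl⟩ := hm
  omega

/-- In a linear group over the prime field that is regular on non-zero vectors and has no irreducible cyclic normal subgroup, let `A` be a maximal normal abelian subgroup and `N` a normal subgroup centralising `A` that is minimal among non-abelian normal subgroups centralising `A`. Then `N` is quaternion of order 8 or isomorphic to `SL(2,5)`. -/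
theorem result {p : ℕ} [Fact p.Prime] {V : Type*} [AddCommGroup V] [Module (ZMod p) V] [Finite V] (H : Subgroup (V ≃ₗ[ZMod p] V)) (hreg : ∀ v w : V, v ≠ 0 → w ≠ 0 → ∃! h : H, (h : V ≃ₗ[ZMod p] V) v = w) (hI : ∀ A : Subgroup H, A.Normal → IsCyclic A → ∃ W : Submodule (ZMod p) V, W ≠ ⊥ ∧ W ≠ ⊤ ∧ ∀ a ∈ A, ∀ v ∈ W, ((a : H) : V ≃ₗ[ZMod p] V) v ∈ W) (A : Subgroup H) (hAn : A.Normal) (hAc : IsMulCommutative A) (hAmax : ∀ B : Subgroup H, B.Normal → IsMulCommutative B → A ≤ B → B = A) (N : Subgroup H) (hNn : N.Normal) (hNle : N ≤ Subgroup.centralizer (A : Set H)) (hNna : ¬ IsMulCommutative N) (hNmin : ∀ M : Subgroup H, M.Normal → M ≤ N → ¬ IsMulCommutative M → M = N) : Nonempty (N ≃* QuaternionGroup 2) ∨ Nonempty (N ≃* Matrix.SpecialLinearGroup (Fin 2) (ZMod 5)) := by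
  classical
  obtain ⟨W₁, hW₁, -, -⟩ := hI ⊥ inferInstance inferInstance
  haveI : Nontrivial V := by
    obtain ⟨v, -, hv⟩ := W₁.exists_mem_ne_zero_of_ne_bot hW₁
    exact ⟨⟨v, 0, hv⟩⟩
  haveI : Finite H := PermLib.finite_subgroup
  haveI := hAn
  haveI := hNn
  haveI : Nontrivial N := by
    by_contra hn
    rw [not_nontrivial_iff_subsingleton] at hn
    exact hNna ⟨⟨fun a b => Subsingleton.elim _ _⟩⟩
  let f : N →* AddMonoid.End V :=
    { toFun := fun a => ((((a : N) : H) : V ≃ₗ[ZMod p] V).toAddMonoidHom : V →+ V)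
      map_one' := rfl
      map_mul' := fun _ _ => rfl }
  have hfpf : ∀ a : N, a ≠ 1 → ∀ v : V, f a v = v → v = 0 := by
    intro a ha v hv
    by_contra hv0
    exact ha (Subtype.ext (PermLib.eq_one_of_fixed hreg hv0 hv))
  have hFC : FGS.FC.IsFC N := FGS.FC.isFC_of_fpf f hfpf
  by_cases hperf : commutator N = ⊤
  · exact Or.inr (PermP.Zass.perfect_isFC_equiv_sl hFC hperf)
  left
  -- the derived group is abelian, hence inside A
  set D : Subgroup H := (commutator N).map N.subtype
  have hDle : D ≤ N := Subgroup.map_subtype_le _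
  have hDc : IsMulCommutative D := by
    by_contra hD
    have := hNmin D inferInstance hDle hD
    apply hperf
    apply Subgroup.map_injective N.subtype_injective
    rw [← MonoidHom.range_eq_map, N.range_subtype]
    exact this
  have hDA : D ≤ A := by
    have hAD : IsMulCommutative (A ⊔ D : Subgroup H) := by
      rw [← Subgroup.closure_eq A, ← Subgroup.closure_eq D, ← Subgroup.closure_union]
      refine Subgroup.isMulCommutative_closure ?_
      rintro x (hx | hx) y (hy | hy)
      · exact congrArg Subtype.val (hAc.is_comm.comm (⟨x, hx⟩ : A) ⟨y, hy⟩)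
      · exact (hNle (hDle hy)) x hx
      · exact (hNle (hDle hx) y hy).symm
      · exact congrArg Subtype.val (hDc.is_comm.comm (⟨x, hx⟩ : D) ⟨y, hy⟩)
    exact le_sup_right.trans_eq (hAmax _ inferInstance hAD le_sup_left)
  have hcls : commutator N ≤ Subgroup.center N := by
    intro z hz
    rw [Subgroup.mem_center_iff]
    intro g
    exact Subtype.ext ((hNle g.2) _ (hDA (Subgroup.mem_map_of_mem N.subtype hz))).symm
  haveI hnil : Group.IsNilpotent N := by
    haveI : IsMulCommutative (N ⧸ Subgroup.center N) :=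
      ⟨⟨fun a b => QuotientGroup.induction_on a fun x => QuotientGroup.induction_on b fun y => by
        rw [← QuotientGroup.mk_mul, ← QuotientGroup.mk_mul, QuotientGroup.eq]
        apply hcls
        rw [show (x * y)⁻¹ * (y * x) = ⁅y⁻¹, x⁻¹⁆ by rw [commutatorElement_def]; group]
        exact Subgroup.commutator_mem_commutator (Subgroup.mem_top _) (Subgroup.mem_top _)⟩⟩
    letI : CommGroup (N ⧸ Subgroup.center N) :=
      { (inferInstance : Group (N ⧸ Subgroup.center N)) with mul_comm := mul_comm' }
    exact Group.of_quotient_center_nilpotent inferInstance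
  have hsyl : ∀ {q : ℕ} [Fact q.Prime] (P : Sylow q N), (P : Subgroup N).Normal :=
    fun {q} _ P => by
    have h03 := ((Group.isNilpotent_of_finite_tfae (G := N)).out 0 3 :
      Group.IsNilpotent N ↔ ∀ (p : ℕ), Fact (Nat.Prime p) → ∀ (P : Sylow p N), (P : Subgroup N).Normal)
    exact h03.mp hnil q inferInstance P
  haveI : Fact (Nat.Prime 2) := ⟨Nat.prime_two⟩
  obtain ⟨S⟩ : Nonempty (Sylow 2 N) := inferInstance
  -- the Sylow 2-subgroup is not abelian
  have hSna : ¬ IsMulCommutative S := by
    intro hS
    apply hNna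
    let e := Sylow.directProductOfNormal (G := N) (fun {q} _ P => hsyl P)
    have hall : ∀ (q : {x // x ∈ (Nat.card N).primeFactors}) (P : Sylow q N), IsMulCommutative P := by
      intro q P
      haveI : Fact (q : ℕ).Prime := ⟨Nat.prime_of_mem_primeFactors q.2⟩
      by_cases hq : (q : ℕ) = 2
      · obtain ⟨q, hq'⟩ := q
        subst hq
        haveI := Sylow.unique_of_normal S (hsyl S)
        rw [Subsingleton.elim P S]
        exact hS
      · haveI := PermP.Zass.isCyclic_of_isPGroup hFC hq P.2
        infer_instance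
    refine ⟨⟨fun a b => e.symm.injective ?_⟩⟩
    rw [map_mul, map_mul]
    funext q P
    exact (hall q P).is_comm.comm _ _
  haveI : (S : Subgroup N).Characteristic := Sylow.characteristic_of_normal S (hsyl S)
  have hSN : (S : Subgroup N).map N.subtype = N := by
    refine hNmin _ inferInstance (Subgroup.map_subtype_le _) fun h => hSna ?_
    refine ⟨⟨fun a b => ?_⟩⟩
    have ha := Subgroup.mem_map_of_mem N.subtype a.2
    have hb := Subgroup.mem_map_of_mem N.subtype b.2
    have e := h.is_comm.comm (⟨_, ha⟩ : (S : Subgroup N).map N.subtype) ⟨_, hb⟩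
    exact Subtype.ext (Subtype.ext (congrArg Subtype.val e :))
  have hStop : (S : Subgroup N) = ⊤ := by
    apply Subgroup.map_injective N.subtype_injective
    rw [← MonoidHom.range_eq_map, N.range_subtype]
    exact hSN
  have hN2 : IsPGroup 2 N := by
    have := S.2
    rw [hStop] at this
    exact this.of_equiv Subgroup.topEquiv
  -- the involution is the negation
  have hinv : ∀ x : N, orderOf x = 2 → ∀ v : V, f x v = -v := by
    intro x hx v
    have hx1 : x ≠ 1 := fun h => by rw [h, orderOf_one] at hx; omega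
    have h2 : f x (f x v) = v := by
      have hxx : x * x = 1 := by rw [← pow_two, ← hx, pow_orderOf_eq_one]
      show (f x * f x) v = v
      rw [← map_mul, hxx, map_one]
      rfl
    have := hfpf x hx1 (v + f x v) (by rw [map_add, h2, add_comm])
    exact eq_neg_of_add_eq_zero_right this
  have hu : ∃! x : N, orderOf x = 2 := by
    obtain ⟨x, hx⟩ := exists_prime_orderOf_dvd_card' (G := N) 2 (by
      obtain ⟨n, hn⟩ := IsPGroup.iff_card.mp hN2
      rw [hn]
      refine dvd_pow_self 2 fun h0 => ?_
      rw [h0, pow_zero] at hn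
      exact absurd hn (Finite.one_lt_card (α := N)).ne')
    refine ⟨x, hx, fun y hy => Subtype.ext (Subtype.ext (LinearEquiv.ext fun v => ?_))⟩
    exact (hinv y hy v).trans (hinv x hx v).symm
  obtain ⟨m, hm, hm0, ⟨e⟩⟩ := CharTwo.quaternion_of_existsUnique hN2 hNna hu
  have hm2 : m = 2 := by
    refine quaternion_param hm hm0 ?_
    rw [commutator_def, Subgroup.commutator_le]
    intro a _ b _
    rw [Subgroup.mem_center_iff]
    intro g
    have hc := hcls (Subgroup.commutator_mem_commutator (Subgroup.mem_top (e.symm a)) (Subgroup.mem_top (e.symm b)))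
    have := congrArg e (Subgroup.mem_center_iff.mp hc (e.symm g))
    simpa using this
  subst hm2
  exact ⟨e⟩

end Cfsg.Agent.S0686
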