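import Cfsg.Statements.S0687
import Cfsg.Agent.Perm.LinearRegular
import Mathlib.RingTheory.LittleWedderburn
import Mathlib.Algebra.Algebra.Subalgebra.Centralizer

set_option autoImplicit false
open Cfsg

namespace Cfsg.Agent.S0687

/-- In a linear group over the prime field that is regular on non-zero vectors and has no irreducible cyclic normal subgroup, a normal subgroup `N` minimal among the non-abelian normal subgroups centralising a maximal normal abelian subgroup `A` is irreducible on `V`, and its centraliser is `A`. -/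
theorem result {p : ℕ} [Fact p.Prime] {V : Type*} [AddCommGroup V] [Module (ZMod p) V] [Finite V] (H : Subgroup (V ≃ₗ[ZMod p] V)) (hreg : ∀ v w : V, v ≠ 0 → w ≠ 0 → ∃! h : H, (h : V ≃ₗ[ZMod p] V) v = w) (hI : ∀ A : Subgroup H, A.Normal → IsCyclic A → ∃ W : Submodule (ZMod p) V, W ≠ ⊥ ∧ W ≠ ⊤ ∧ ∀ a ∈ A, ∀ v ∈ W, ((a : H) : V ≃ₗ[ZMod p] V) v ∈ W) (A : Subgroup H) (hAn : A.Normal) (hAc : IsMulCommutative A) (hAmax : ∀ B : Subgroup H, B.Normal → IsMulCommutative B → A ≤ B → B = A) (N : Subgroup H) (hNn : N.Normal) (hNle : N ≤ Subgroup.centralizer (A : Set H)) (hNna : ¬ IsMulCommutative N) (hNmin : ∀ M : Subgroup H, M.Normal → M ≤ N → ¬ IsMulCommutative M → M = N) : (∀ W : Submodule (ZMod p) V, (∀ n ∈ N, ∀ v ∈ W, ((n : H) : V ≃ₗ[ZMod p] V) v ∈ W) → W = ⊥ ∨ W = ⊤) ∧ Subgroup.centralizer (N : Set H) = A := by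
  classical
  have hcomm : ∀ a b : N, ((a : H) * (b : H) = (b : H) * (a : H)) → a * b = b * a :=
    fun a b h => Subtype.ext h
  have act : ∀ (a b : H) (v : V), ((a * b : H) : V ≃ₗ[ZMod p] V) v =
      (a : V ≃ₗ[ZMod p] V) ((b : V ≃ₗ[ZMod p] V) v) := fun _ _ _ => rfl
  let lin : H →* Module.End (ZMod p) V :=
    { toFun := fun h => ((h : V ≃ₗ[ZMod p] V) : V →ₗ[ZMod p] V)
      map_one' := rfl
      map_mul' := fun _ _ => rfl }
  let R : Subalgebra (ZMod p) (Module.End (ZMod p) V) :=
    Algebra.adjoin (ZMod p) (lin '' (N : Set H))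
  have hR : ∀ (W : Submodule (ZMod p) V), PermLib.InvariantUnder H N W →
      ∀ r ∈ R, ∀ v ∈ W, r v ∈ W := by
    intro W hW r hr
    induction hr using Algebra.adjoin_induction with
    | mem x hx =>
      obtain ⟨a, ha, rfl⟩ := hx
      exact hW a ha
    | algebraMap c => exact fun u hu => W.smul_mem c hu
    | add x y _ _ hx hy => exact fun u hu => W.add_mem (hx u hu) (hy u hu)
    | mul x y _ _ hx hy => exact fun u hu => hx _ (hy u hu)
  have hirr : ∀ W : Submodule (ZMod p) V, PermLib.InvariantUnder H N W → W = ⊥ ∨ W = ⊤ := by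
    by_contra hc
    push Not at hc
    obtain ⟨W₀, hW₀, hW₀b, hW₀t⟩ := hc
    haveI : Finite (Submodule (ZMod p) V) := Finite.of_injective _ SetLike.coe_injective
    obtain ⟨W, ⟨hWb, hWt, hW⟩, hmin⟩ := WellFounded.has_min wellFounded_lt
      {W : Submodule (ZMod p) V | W ≠ ⊥ ∧ W ≠ ⊤ ∧ PermLib.InvariantUnder H N W}
      ⟨W₀, hW₀b, hW₀t, hW₀⟩
    have hmin' : ∀ X : Submodule (ZMod p) V, X ≤ W → PermLib.InvariantUnder H N X →
        X = ⊥ ∨ X = W := by
      intro X hXW hX
      refine or_iff_not_imp_left.2 fun hne => ?_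
      by_contra hneq
      exact hmin X ⟨hne, fun e => hWt (top_unique (e ▸ hXW)), hX⟩ (lt_of_le_of_ne hXW hneq)
    obtain ⟨w₁, hw₁W, hw₁⟩ := W.exists_mem_ne_zero_of_ne_bot hWb
    -- every vector lies in a minimal invariant subspace
    have hcover : ∀ v : V, v ≠ 0 → ∃ U : Submodule (ZMod p) V, v ∈ U ∧
        PermLib.InvariantUnder H N U ∧
        ∀ X : Submodule (ZMod p) V, X ≤ U → PermLib.InvariantUnder H N X → X = ⊥ ∨ X = U := by
      intro v hv
      obtain ⟨h, hh, -⟩ := hreg w₁ v hw₁ hv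
      have hconj : ∀ (g : H) (X : Submodule (ZMod p) V), PermLib.InvariantUnder H N X →
          PermLib.InvariantUnder H N (X.map ((g : V ≃ₗ[ZMod p] V) : V →ₗ[ZMod p] V)) := by
        rintro g X hX a ha _ ⟨x, hx, rfl⟩
        refine ⟨((g⁻¹ * a * g : H) : V ≃ₗ[ZMod p] V) x,
          hX _ (by simpa using hNn.conj_mem a ha g⁻¹) x hx, ?_⟩
        show (g : V ≃ₗ[ZMod p] V) (((g⁻¹ * a * g : H) : V ≃ₗ[ZMod p] V) x) =
          (a : V ≃ₗ[ZMod p] V) ((g : V ≃ₗ[ZMod p] V) x)
        rw [← act, ← act]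
        group
      refine ⟨W.map ((h : V ≃ₗ[ZMod p] V) : V →ₗ[ZMod p] V), ⟨w₁, hw₁W, hh⟩, hconj h W hW,
        fun X hXU hX => ?_⟩
      have hinv : ∀ (g : H) (x : V), ((g⁻¹ : H) : V ≃ₗ[ZMod p] V) ((g : V ≃ₗ[ZMod p] V) x) = x :=
        fun g x => by rw [← act, inv_mul_cancel]; rfl
      have hle : X.map (((h⁻¹ : H) : V ≃ₗ[ZMod p] V) : V →ₗ[ZMod p] V) ≤ W := by
        rintro _ ⟨x, hx, rfl⟩
        obtain ⟨y, hy, rfl⟩ := hXU hx
        show ((h⁻¹ : H) : V ≃ₗ[ZMod p] V) ((h : V ≃ₗ[ZMod p] V) y) ∈ W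
        rw [hinv]
        exact hy
      rcases hmin' _ hle (hconj _ X hX) with e | e
      · left
        rw [eq_bot_iff]
        intro x hx
        have := Submodule.mem_map_of_mem (f := (((h⁻¹ : H) : V ≃ₗ[ZMod p] V) : V →ₗ[ZMod p] V)) hx
        rw [e, Submodule.mem_bot] at this
        rw [Submodule.mem_bot]
        simpa using this
      · right
        refine le_antisymm hXU ?_
        rintro _ ⟨y, hy, rfl⟩
        rw [← e] at hy
        obtain ⟨x, hx, rfl⟩ := hy
        have : (h : V ≃ₗ[ZMod p] V) (((h⁻¹ : H) : V ≃ₗ[ZMod p] V) x) = x := by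
          rw [← act, mul_inv_cancel]; rfl
        show (h : V ≃ₗ[ZMod p] V) (((h⁻¹ : H) : V ≃ₗ[ZMod p] V) x) ∈ X
        rw [this]
        exact hx
    -- a second minimal invariant subspace
    obtain ⟨v, hv⟩ : ∃ v : V, v ∉ W := by
      by_contra h
      push Not at h
      exact hWt (Submodule.eq_top_iff'.mpr h)
    have hv0 : v ≠ 0 := fun e => hv (e ▸ W.zero_mem)
    obtain ⟨W', hvW', hW', hminW'⟩ := hcover v hv0
    -- annihilators
    have key : ∀ (X Y : Submodule (ZMod p) V), PermLib.InvariantUnder H N Y →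
        ∀ x ∈ X, ∀ y ∈ Y, x ∉ Y → ∀ r ∈ R, r x = 0 → r y = 0 := by
      intro X Y hY x _ y hy hxy r hr h0
      have hne : x + y ≠ 0 := fun e => hxy (by
        rw [eq_neg_of_add_eq_zero_left e]; exact Y.neg_mem hy)
      obtain ⟨U, hxU, hU, hminU⟩ := hcover _ hne
      have hUY : PermLib.InvariantUnder H N (U ⊓ Y) :=
        fun a ha u hu => ⟨hU a ha u hu.1, hY a ha u hu.2⟩
      rcases hminU _ inf_le_left hUY with e | e
      · have h1 : r (x + y) ∈ U := hR U hU r hr _ hxU
        rw [map_add, h0, zero_add] at h1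
        have : r y ∈ U ⊓ Y := ⟨h1, hR Y hY r hr y hy⟩
        rwa [e, Submodule.mem_bot] at this
      · exfalso
        refine hxy ?_
        have : x + y ∈ Y := (le_of_eq_of_le e.symm inf_le_right : U ≤ Y) hxU
        have := Y.sub_mem this hy
        rwa [add_sub_cancel_right] at this
    have hzero : ∀ r ∈ R, ∀ w ∈ W, w ≠ 0 → r w = 0 → ∀ u ∈ W, r u = 0 := by
      intro r hr w hwW hw h0 u hu
      have hwW' : w ∉ W' := by
        intro hw'
        have hWW' : PermLib.InvariantUnder H N (W ⊓ W') :=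
          fun a ha u hu => ⟨hW a ha u hu.1, hW' a ha u hu.2⟩
        rcases hminW' _ inf_le_right hWW' with e | e
        · have : w ∈ W ⊓ W' := ⟨hwW, hw'⟩
          rw [e, Submodule.mem_bot] at this
          exact hw this
        · exact hv ((le_of_eq_of_le e.symm inf_le_left : W' ≤ W) hvW')
      have h1 : r v = 0 := key W W' hW' w hwW v hvW' hwW' r hr h0
      exact key W' W hW v hvW' u hu hv r hr h1
    -- the restriction is a finite domain
    let φ : R →ₐ[ZMod p] Module.End (ZMod p) W :=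
      { toFun := fun r => (r : Module.End (ZMod p) V).restrict (hR W hW r r.2)
        map_one' := by ext x; rfl
        map_mul' := fun a b => by ext x; rfl
        map_zero' := by ext x; rfl
        map_add' := fun a b => by ext x; rfl
        commutes' := fun c => by ext x; rfl }
    haveI : Finite (Module.End (ZMod p) W) := Finite.of_injective _ DFunLike.coe_injective
    haveI : Finite φ.range := Subtype.finite
    haveI : Nontrivial φ.range := ⟨⟨1, 0, fun e => hw₁ (congrArg
      (fun t : φ.range => (((t : Module.End (ZMod p) W) ⟨w₁, hw₁W⟩ : W) : V)) e)⟩⟩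
    haveI : NoZeroDivisors φ.range := ⟨fun {a b} hab => by
      obtain ⟨_, r, rfl⟩ := a
      obtain ⟨_, s, rfl⟩ := b
      refine or_iff_not_imp_right.2 fun hs => ?_
      obtain ⟨u, hu⟩ : ∃ u : W, φ s u ≠ 0 := by
        by_contra h
        push Not at h
        exact hs (Subtype.ext (LinearMap.ext h))
      have h0 : φ r (φ s u) = 0 := congrArg (fun t : φ.range => (t : Module.End (ZMod p) W) u) hab
      refine Subtype.ext (LinearMap.ext fun x => Subtype.ext ?_)
      exact hzero r r.2 _ (φ s u).2 (fun e => hu (Subtype.ext e)) (congrArg Subtype.val h0) x x.2⟩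
    haveI : IsDomain φ.range := NoZeroDivisors.to_isDomain _
    have hfield := Finite.isDomain_to_isField φ.range
    refine hNna ⟨⟨fun a b => hcomm a b ?_⟩⟩
    have e := hfield.mul_comm
      (⟨φ ⟨lin a, Algebra.subset_adjoin ⟨a, a.2, rfl⟩⟩, ⟨_, rfl⟩⟩ : φ.range)
      ⟨φ ⟨lin b, Algebra.subset_adjoin ⟨b, b.2, rfl⟩⟩, ⟨_, rfl⟩⟩
    have e' := congrArg
      (fun t : φ.range => (((t : Module.End (ZMod p) W) ⟨w₁, hw₁W⟩ : W) : V)) e
    exact (hreg w₁ (((b : H) * a : H).1 w₁) hw₁
      (fun h0 => hw₁ ((LinearEquiv.map_eq_zero_iff _).1 h0))).unique e' rfl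
  refine ⟨hirr, hAmax _ (inferInstance) ?_ (Subgroup.le_centralizer_iff.mp hNle)⟩
  -- Schur
  haveI : Nontrivial V := by
    by_contra h
    rw [not_nontrivial_iff_subsingleton] at h
    exact hNna ⟨⟨fun a b => hcomm a b (Subtype.ext (LinearEquiv.ext fun v => Subsingleton.elim _ _))⟩⟩
  let E : Subalgebra (ZMod p) (Module.End (ZMod p) V) :=
    Subalgebra.centralizer (ZMod p) (lin '' (N : Set H))
  haveI : Finite (Module.End (ZMod p) V) := Finite.of_injective _ DFunLike.coe_injective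
  haveI : Finite E := Subtype.finite
  haveI : Nontrivial E := ⟨⟨1, 0, fun e => by
    obtain ⟨v, hv⟩ := exists_ne (0 : V)
    exact hv (congrArg (fun t : E => (t : Module.End (ZMod p) V) v) e)⟩⟩
  haveI : NoZeroDivisors E := ⟨fun {a b} hab => by
    refine or_iff_not_imp_left.2 fun ha => ?_
    have hk : PermLib.InvariantUnder H N (LinearMap.ker (a : Module.End (ZMod p) V)) := by
      intro n hn v hv
      rw [LinearMap.mem_ker] at hv ⊢
      have := LinearMap.congr_fun ((Subalgebra.mem_centralizer_iff (ZMod p)).1 a.2 _ ⟨n, hn, rfl⟩) v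
      simp only [Module.End.mul_apply, hv, map_zero] at this
      exact this.symm
    rcases hirr _ hk with e | e
    · refine Subtype.ext (LinearMap.ext fun v => ?_)
      have : (b : Module.End (ZMod p) V) v ∈ LinearMap.ker (a : Module.End (ZMod p) V) :=
        congrArg (fun t : E => (t : Module.End (ZMod p) V) v) hab
      rwa [e, Submodule.mem_bot] at this
    · exact absurd (Subtype.ext (LinearMap.ker_eq_top.1 e)) ha⟩
  haveI : IsDomain E := NoZeroDivisors.to_isDomain _
  have hfield := Finite.isDomain_to_isField E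
  have hmem : ∀ k ∈ Subgroup.centralizer (N : Set H), lin k ∈ E := by
    intro k hk
    rw [Subalgebra.mem_centralizer_iff]
    rintro _ ⟨n, hn, rfl⟩
    rw [← map_mul, ← map_mul, hk n hn]
  refine ⟨⟨fun a b => Subtype.ext ?_⟩⟩
  have e := hfield.mul_comm (⟨lin a, hmem a a.2⟩ : E) ⟨lin b, hmem b b.2⟩
  exact Subtype.ext (LinearEquiv.toLinearMap_injective (congrArg Subtype.val e))

end Cfsg.Agent.S0687
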