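import Cfsg.Statements.S0688
import Cfsg.Agent.Recog.HuppertRegular

set_option autoImplicit false
open Cfsg

namespace Cfsg.Agent.S0688

/-- Degrees of the soluble exceptional sharply doubly transitive groups: if a solvable linear group over the prime field is regular on the non-zero vectors of `V` and has no irreducible cyclic normal subgroup, then `V` has 25, 49, 121 or 529 elements. -/
theorem result {p : ℕ} [Fact p.Prime] {V : Type*} [AddCommGroup V] [Module (ZMod p) V] [Finite V] (H : Subgroup (V ≃ₗ[ZMod p] V)) (hreg : ∀ v w : V, v ≠ 0 → w ≠ 0 → ∃! h : H, (h : V ≃ₗ[ZMod p] V) v = w) (hI : ∀ A : Subgroup H, A.Normal → IsCyclic A → ∃ W : Submodule (ZMod p) V, W ≠ ⊥ ∧ W ≠ ⊤ ∧ ∀ a ∈ A, ∀ v ∈ W, ((a : H) : V ≃ₗ[ZMod p] V) v ∈ W) (hsolv : Group.IsSolvable H) : Nat.card V = 25 ∨ Nat.card V = 49 ∨ Nat.card V = 121 ∨ Nat.card V = 529 := by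
  rcases subsingleton_or_nontrivial V with hV | hV
  · exfalso
    obtain ⟨W, hW, -⟩ := hI ⊥ inferInstance inferInstance
    exact hW (Submodule.eq_bot_of_subsingleton)
  have : Finite (V ≃ₗ[ZMod p] V) :=
    Finite.of_injective (fun f : V ≃ₗ[ZMod p] V => (f : V → V)) DFunLike.coe_injective
  let ρ : H →* (V ≃ₗ[ZMod p] V) := H.subtype
  have hρ : Function.Injective ρ := H.subtype_injective
  have htr : Recog.TransLin.IsTrans ρ := fun v w hv hw => (hreg v w hv hw).exists
  have hfree : ∀ v : V, v ≠ 0 → ∀ g : H, ρ g v = v → g = 1 := fun v hv g hg =>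
    (hreg v v hv hv).unique hg (show ρ 1 v = v by rw [map_one]; rfl)
  rcases Recog.TransLin.regular_dichotomy hρ htr hfree hsolv with ⟨B, hBn, hB, hc⟩ | ⟨-, h, -, hp⟩
  · exfalso
    obtain ⟨W, hW0, hW1, hW⟩ := hI B hBn (Recog.TransLin.isCyclic_of_normal htr hBn hB hρ)
    obtain ⟨v, hvW, hv⟩ := Submodule.exists_mem_ne_zero_of_ne_bot hW0
    have hk : ∀ k ∈ Recog.TransLin.spanOp ρ B, ∀ u ∈ W, k u ∈ W := by
      intro k hk
      induction hk using Algebra.adjoin_induction with
      | mem x hx =>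
        obtain ⟨a, ha, rfl⟩ := hx
        exact hW a ha
      | algebraMap r => exact fun u hu => W.smul_mem r hu
      | add x y _ _ hx hy => exact fun u hu => W.add_mem (hx u hu) (hy u hu)
      | mul x y _ _ hx hy => exact fun u hu => hx _ (hy u hu)
    refine hW1 (Submodule.eq_top_iff'.mpr fun w => ?_)
    obtain ⟨k, rfl⟩ :=
      ((Recog.TransLin.span_eval_injective htr hBn hB hv).bijective_of_nat_card_le hc.ge).2 w
    exact hk k k.2 v hvW
  · rw [h]
    rcases hp with rfl | rfl | rfl | rfl <;> norm_num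

end Cfsg.Agent.S0688
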