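import Cfsg.Statements.S0689
import Cfsg.Agent.PermP.ZassDiv
import Cfsg.Agent.Perm.LinearRegular

set_option autoImplicit false
open Cfsg

namespace Cfsg.Agent.S0689

/-- The arithmetic of the regular non-solvable case. -/
theorem arith {p w e m : ℕ} (hp : p.Prime) (h7 : 7 ≤ p) (he : e = 1 ∨ e = 2) (hm : m.Coprime 30)
    (hdiv : m ∣ p ^ w - 1) (heq : p ^ w * p ^ w = 120 * e * m + 1) :
    e = 1 ∧ ((p ^ w = 11 ∧ m = 1) ∨ (p ^ w = 29 ∧ m = 7) ∨ (p ^ w = 59 ∧ m = 29)) := by
  obtain ⟨t, ht⟩ := hdiv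
  have hQ1 : 1 ≤ p ^ w := Nat.one_le_pow _ _ hp.pos
  obtain ⟨Q, hQ⟩ : ∃ Q, Q = p ^ w := ⟨_, rfl⟩
  rw [← hQ] at heq ht hQ1 ⊢
  have hm0 : m ≠ 0 := by rintro rfl; norm_num at hm
  have key : t * (Q + 1) = 120 * e := by
    have h1 : (Q - 1) * (Q + 1) + 1 = Q * Q := by
      obtain ⟨R, rfl⟩ : ∃ R, Q = R + 1 := ⟨Q - 1, by omega⟩
      rw [Nat.add_sub_cancel]; ring
    rw [ht, heq] at h1
    have h2 : m * (t * (Q + 1)) = m * (120 * e) := by
      rw [← mul_assoc, Nat.add_right_cancel h1]; ring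
    exact Nat.eq_of_mul_eq_mul_left (Nat.pos_of_ne_zero hm0) h2
  have hQ240 : Q + 1 ∣ 240 := by
    have : Q + 1 ∣ 120 * e := Dvd.intro_left t key
    rcases he with rfl | rfl
    · exact this.trans (by norm_num)
    · exact this.trans (by norm_num)
  have hmem : Q + 1 ∈ Nat.divisors 240 := Nat.mem_divisors.2 ⟨hQ240, by norm_num⟩
  have hcases : ∀ d ∈ Nat.divisors 240, ∀ e ∈ ({1, 2} : Finset ℕ), 120 * e ∣ (d - 1) * (d - 1) - 1 →
      Nat.Coprime (((d - 1) * (d - 1) - 1) / (120 * e)) 30 →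
      (d = 2 ∨ d = 12 ∧ e = 1 ∨ d = 30 ∧ e = 1 ∨ d = 60 ∧ e = 1) ∨ d = 120 ∨ d = 1 := by decide +kernel
  have hEm : (Q + 1 - 1) * (Q + 1 - 1) - 1 = 120 * e * m := by
    rw [Nat.add_sub_cancel, heq, Nat.add_sub_cancel]
  have := hcases (Q + 1) hmem e (by rcases he with rfl | rfl <;> simp) (by rw [hEm]; exact Dvd.intro m rfl)
    (by rw [hEm, Nat.mul_div_cancel_left m (by rcases he with rfl | rfl <;> norm_num)]; exact hm)
  rcases this with (h | ⟨h, rfl⟩ | ⟨h, rfl⟩ | ⟨h, rfl⟩) | h | h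
  · exfalso
    have hq1 : Q = 1 := by omega
    rw [hq1] at heq
    rcases he with rfl | rfl <;> omega
  · refine ⟨rfl, Or.inl ⟨by omega, ?_⟩⟩
    rw [show Q = 11 by omega] at heq; omega
  · refine ⟨rfl, Or.inr (Or.inl ⟨by omega, ?_⟩)⟩
    rw [show Q = 29 by omega] at heq; omega
  · refine ⟨rfl, Or.inr (Or.inr ⟨by omega, ?_⟩)⟩
    rw [show Q = 59 by omega] at heq; omega
  · exfalso
    have h119 : p ^ w = 119 := by omega
    have h7' : (7 : ℕ) ∣ p ^ w := by rw [h119]; norm_num
    have h17 : (17 : ℕ) ∣ p ^ w := by rw [h119]; norm_num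
    have e7 := (Nat.prime_dvd_prime_iff_eq (by norm_num) hp).1 ((by norm_num : Nat.Prime 7).dvd_of_dvd_pow h7')
    have e17 := (Nat.prime_dvd_prime_iff_eq (by norm_num) hp).1 ((by norm_num : Nat.Prime 17).dvd_of_dvd_pow h17)
    omega
  · omega

set_option maxHeartbeats 1000000 in
open Cfsg.Agent.PermP.Zass in
theorem core {p : ℕ} [Fact p.Prime] {V : Type*} [AddCommGroup V] [Module (ZMod p) V] [Finite V]
    (H : Subgroup (V ≃ₗ[ZMod p] V))
    (hreg : ∀ v w : V, v ≠ 0 → w ≠ 0 → ∃! h : H, (h : V ≃ₗ[ZMod p] V) v = w)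
    (hsolv : ¬ Group.IsSolvable H) :
    ∃ Q m : ℕ, Nat.card V = Q * Q ∧ ((Q = 11 ∧ m = 1) ∨ (Q = 29 ∧ m = 7) ∨ (Q = 59 ∧ m = 29)) ∧
      ∃ S M : Subgroup H, Nat.card M = m ∧ S ⊔ M = ⊤ ∧ S ⊓ M = ⊥ ∧
        (∀ s ∈ S, ∀ x ∈ M, s * x = x * s) ∧
        Nonempty (S ≃* Matrix.SpecialLinearGroup (Fin 2) (ZMod 5)) := by
  classical
  haveI : Finite H := Cfsg.Agent.PermLib.finite_subgroup
  haveI : Nontrivial H := by
    by_contra h
    rw [not_nontrivial_iff_subsingleton] at h
    exact hsolv inferInstance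
  haveI : Nontrivial V := by
    by_contra hV
    rw [not_nontrivial_iff_subsingleton] at hV
    obtain ⟨h, hh⟩ := exists_ne (1 : H)
    exact hh (Subtype.ext (LinearEquiv.ext fun v => Subsingleton.elim _ _))
  haveI : Module.Finite (ZMod p) V := Module.Finite.of_finite
  let σ : H →* Module.End (ZMod p) V :=
    { toFun := fun h => (((h : V ≃ₗ[ZMod p] V)) : V →ₗ[ZMod p] V)
      map_one' := rfl
      map_mul' := fun _ _ => rfl }
  have hfix : ∀ h : H, ∀ v : V, v ≠ 0 → σ h v = v → h = 1 := fun h v hv e =>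
    Cfsg.Agent.PermLib.eq_one_of_fixed hreg hv e
  have hfpf : ∀ h : H, h ≠ 1 → IsUnit (σ h - 1) := by
    intro h hh
    have hinj : Function.Injective (σ h - 1 : Module.End (ZMod p) V) := by
      rw [← LinearMap.ker_eq_bot, LinearMap.ker_eq_bot']
      intro v hv
      by_contra hv0
      rw [LinearMap.sub_apply, Module.End.one_apply, sub_eq_zero] at hv
      exact hh (hfix h v hv0 hv)
    exact (Module.End.isUnit_iff _).2 ⟨hinj, LinearMap.injective_iff_surjective.1 hinj⟩
  let f : H →* AddMonoid.End V :=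
    { toFun := fun h => ((σ h : V →ₗ[ZMod p] V) : V →+ V)
      map_one' := rfl
      map_mul' := fun _ _ => rfl }
  have hFC : Cfsg.Agent.FGS.FC.IsFC H :=
    Cfsg.Agent.FGS.FC.isFC_of_fpf f fun h hh v hv => by
      by_contra hv0
      exact hh (hfix h v hv0 hv)
  obtain ⟨D⟩ := exists_slData hFC hsolv
  obtain ⟨M, hMC, hSM, hcov, -, hcop⟩ := D.exists_odd_complement hFC
  have hcomm : ∀ s ∈ D.S, ∀ x ∈ M, s * x = x * s := fun s hs x hx =>
    Subgroup.mem_centralizer_iff.1 (hMC hx) s hs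
  haveI := D.normal
  have hG0 : D.S ⊔ M = D.S ⊔ D.C := by
    refine le_antisymm (sup_le_sup_left hMC _) (sup_le le_sup_left fun x hx => ?_)
    rcases hcov x hx with h | h
    · exact Subgroup.mem_sup_right h
    · rw [show x = x * D.z * D.z by rw [mul_assoc, D.z_sq, mul_one]]
      exact mul_mem (Subgroup.mem_sup_right h) (Subgroup.mem_sup_left D.z_mem)
  have he : (D.S ⊔ M).index = 1 ∨ (D.S ⊔ M).index = 2 := by
    rw [hG0]
    have : (D.S ⊔ D.C).index ≤ 2 := D.index_le
    have : (D.S ⊔ D.C).index ≠ 0 := Subgroup.index_ne_zero_of_finite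
    omega
  have hcard : Nat.card H = 120 * (D.S ⊔ M).index * Nat.card M := by
    have h1 : Nat.card (D.S ⊔ M : Subgroup H) = 120 * Nat.card M := by
      have h3 := Subgroup.card_mul_index (D.S.subgroupOf (D.S ⊔ M))
      have h4 : D.S.relIndex (D.S ⊔ M) = D.S.relIndex M := by rw [Subgroup.relIndex_sup_left]
      have h5 : D.S.relIndex M = Nat.card M := by
        rw [← Subgroup.inf_relIndex_right, hSM, Subgroup.relIndex_bot_left]
      have h6 : Nat.card (D.S.subgroupOf (D.S ⊔ M)) = 120 :=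
        (Nat.card_congr (Subgroup.subgroupOfEquivOfLe le_sup_left).toEquiv).trans D.card_S
      change Nat.card (D.S.subgroupOf (D.S ⊔ M)) * D.S.relIndex (D.S ⊔ M) = _ at h3
      rw [h4, h5, h6] at h3
      exact h3.symm
    rw [← (D.S ⊔ M).card_mul_index, h1]; ring
  -- splitting of the space
  obtain ⟨q1, q2, q3, q4, q5, -⟩ := sl_quaternion
  have hneg : ((D.e.symm slNeg : D.S) : H) = D.z := by
    refine D.involution_eq ?_ ?_
    · rw [← Subgroup.coe_mul, ← map_mul, q4, map_one]; rfl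
    · intro h
      exact q5 (D.e.symm.injective ((Subtype.ext h).trans (map_one _).symm))
  have hσz : σ D.z = -1 := by
    have e : (σ D.z - 1) * (σ D.z + 1) = (σ D.z - 1) * 0 := by
      rw [mul_zero, sub_mul, mul_add, mul_one, one_mul, ← map_mul, D.z_sq, map_one]; abel
    exact eq_neg_of_add_eq_zero_left ((hfpf D.z D.z_ne_one).mul_left_cancel e)
  let φ : Matrix.SpecialLinearGroup (Fin 2) (ZMod 5) →* Module.End (ZMod p) V :=
    σ.comp (D.S.subtype.comp D.e.symm.toMonoidHom)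
  have hφn : φ slNeg = -1 := by
    change σ ((D.e.symm slNeg : D.S) : H) = -1; rw [hneg, hσz]
  set i := φ slI with hi'
  set j := φ slJ with hj'
  have hi : i * i = -1 := by rw [hi', ← map_mul, q1, hφn]
  have hj : j * j = -1 := by rw [hj', ← map_mul, q2, hφn]
  have hij : j * i = -(i * j) := by rw [hi', hj', ← map_mul, q3, map_mul, hφn, neg_one_mul, map_mul]
  obtain ⟨x, y, hxy⟩ := ZMod.sq_add_sq p (-1)
  set T : Module.End (ZMod p) V := x • i + y • j with hT
  set k := i * j with hk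
  have hT2 : T * T = 1 := by
    simp only [hT, add_mul, mul_add, smul_mul_assoc, mul_smul_comm, smul_smul, hi, hj, hij, smul_neg,
      ← hk, mul_comm y x]
    simp only [smul_add, smul_neg, smul_smul, mul_comm y x]
    rw [show (x * x) • (1 : Module.End (ZMod p) V) = (x ^ 2) • 1 by rw [pow_two],
      show (y * y) • (1 : Module.End (ZMod p) V) = (y ^ 2) • 1 by rw [pow_two]]
    calc -((x ^ 2) • (1 : Module.End (ZMod p) V)) + -((x * y) • k) + ((x * y) • k + -((y ^ 2) • 1))
        = -((x ^ 2 + y ^ 2) • 1) := by rw [add_smul]; abel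
      _ = 1 := by rw [hxy, neg_smul, one_smul, neg_neg]
  have hki : k * i = -(i * k) := by rw [hk, mul_assoc, hij, mul_neg]
  have hkj : k * j = -(j * k) := by rw [hk, ← mul_assoc j i j, hij, neg_mul, neg_neg]
  have hkT : k * T = -(T * k) := by
    simp only [hT, mul_add, add_mul, mul_smul_comm, smul_mul_assoc, hki, hkj, smul_neg, neg_add]
  have hp7 : 7 ≤ p := by
    have hV := Cfsg.Agent.PermLib.card_regular (H := H) hreg
    have h30 : ∀ q : ℕ, q ∣ 120 → p ≠ q ∨ q = 1 := by
      intro q hq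
      by_contra hne
      push Not at hne
      obtain ⟨rfl, hq1⟩ := hne
      have h1 : p ∣ Nat.card H := hq.trans ⟨(D.S ⊔ M).index * Nat.card M, by rw [hcard]; ring⟩
      have h2 : p ∣ Nat.card H + 1 := by
        rw [hV]; exact dvd_pow_self p (Module.finrank_pos).ne'
      exact hq1 ((Nat.dvd_one).1 ((Nat.dvd_add_right h1).1 h2))
    have := (h30 2 (by norm_num)).resolve_right (by norm_num)
    have := (h30 3 (by norm_num)).resolve_right (by norm_num)
    have := (h30 5 (by norm_num)).resolve_right (by norm_num)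
    have hp : p.Prime := Fact.out
    have := hp.two_le
    by_contra h7
    have : p = 4 ∨ p = 6 := by omega
    rcases this with rfl | rfl <;> exact absurd hp (by norm_num)
  have h2 : IsUnit (2 : ZMod p) := by
    refine isUnit_iff_ne_zero.2 ?_
    rw [show (2 : ZMod p) = ((2 : ℕ) : ZMod p) from rfl, ne_eq, ZMod.natCast_eq_zero_iff]
    intro h
    have := Nat.le_of_dvd (by norm_num) h
    omega
  set W := LinearMap.ker (T - 1) with hW
  set W' := LinearMap.ker (T + 1) with hW'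
  have happ : ∀ (A B : Module.End (ZMod p) V) (v : V), (A * B) v = A (B v) := fun _ _ _ => rfl
  have hTT : ∀ v, T (T v) = v := fun v => by rw [← happ, hT2]; rfl
  have hmemW : ∀ v, v ∈ W ↔ T v = v := fun v => by
    simp [hW, LinearMap.mem_ker, sub_eq_zero]
  have hmemW' : ∀ v, v ∈ W' ↔ T v = -v := fun v => by
    simp [hW', LinearMap.mem_ker, add_eq_zero_iff_eq_neg]
  have hkTv : ∀ v, T (k v) = -(k (T v)) := fun v => by
    rw [← happ, ← happ, ← LinearMap.neg_apply, hkT, neg_neg]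
  have hVWW : Nat.card V = Nat.card W * Nat.card W' := by
    rw [← Nat.card_prod]
    refine Nat.card_congr ?_
    refine Equiv.ofBijective
      (fun v => (⟨v + T v, (hmemW _).2 (by rw [map_add, hTT, add_comm])⟩,
        ⟨v - T v, (hmemW' _).2 (by rw [map_sub, hTT, neg_sub])⟩) : V → W × W') ⟨?_, ?_⟩
    · intro u v h
      simp only [Prod.mk.injEq, Subtype.ext_iff] at h
      have e : (2 : ZMod p) • u = (2 : ZMod p) • v := by
        rw [two_smul, two_smul]
        calc u + u = (u + T u) + (u - T u) := by abel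
          _ = (v + T v) + (v - T v) := by rw [h.1, h.2]
          _ = v + v := by abel
      exact (h2.smul_left_cancel).1 e
    · rintro ⟨⟨a, ha⟩, ⟨b, hb⟩⟩
      obtain ⟨u, hu⟩ := h2
      refine ⟨(↑u⁻¹ : ZMod p) • (a + b), ?_⟩
      have e : (↑u⁻¹ : ZMod p) * 2 = 1 := by rw [← hu, Units.inv_mul]
      have ha' := (hmemW a).1 ha
      have hb' := (hmemW' b).1 hb
      simp only [Prod.mk.injEq, Subtype.ext_iff, map_smul, map_add, ha', hb', ← smul_add, ← smul_sub]
      constructor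
      · rw [show a + b + (a + -b) = (2 : ZMod p) • a by rw [two_smul]; abel, smul_smul, e, one_smul]
      · rw [show a + b - (a + -b) = (2 : ZMod p) • b by rw [two_smul]; abel, smul_smul, e, one_smul]
  have hkinj : Function.Injective k := by
    have hku : IsUnit k := by
      have hii : IsUnit i := ⟨⟨i, -i, by rw [mul_neg, hi, neg_neg], by rw [neg_mul, hi, neg_neg]⟩, rfl⟩
      have hjj : IsUnit j := ⟨⟨j, -j, by rw [mul_neg, hj, neg_neg], by rw [neg_mul, hj, neg_neg]⟩, rfl⟩
      exact hii.mul hjj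
    exact ((Module.End.isUnit_iff k).1 hku).1
  have hWW' : Nat.card W = Nat.card W' := by
    refine le_antisymm ?_ ?_
    · refine Nat.card_le_card_of_injective (fun v => ⟨k v.1, (hmemW' _).2 ?_⟩)
        (fun u v h => Subtype.ext (hkinj (congrArg Subtype.val h)))
      rw [hkTv, (hmemW _).1 v.2]
    · refine Nat.card_le_card_of_injective (fun v => ⟨k v.1, (hmemW _).2 ?_⟩)
        (fun u v h => Subtype.ext (hkinj (congrArg Subtype.val h)))
      rw [hkTv, (hmemW' _).1 v.2, map_neg, neg_neg]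
  have hMW : Nat.card M ∣ Nat.card W - 1 := by
    have hcomT : ∀ m ∈ M, ∀ v, T (σ m v) = σ m (T v) := by
      intro m hm v
      have hs : ∀ s : Matrix.SpecialLinearGroup (Fin 2) (ZMod 5), φ s * σ m = σ m * φ s := fun s => by
        change σ ((D.e.symm s : D.S) : H) * σ m = σ m * σ ((D.e.symm s : D.S) : H)
        rw [← map_mul, ← map_mul, hcomm _ (D.e.symm s).2 m hm]
      rw [← happ, ← happ, hT]
      simp only [add_mul, mul_add, smul_mul_assoc, mul_smul_comm, hi', hj', hs]
    have hσ0 : ∀ (m : H) (v : V), v ≠ 0 → σ m v ≠ 0 := fun m v hv h =>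
      hv ((h.trans (map_zero _).symm) |> fun e => ((m : V ≃ₗ[ZMod p] V)).injective e)
    letI : MulAction M {v : W // v ≠ 0} :=
      { smul := fun m v => ⟨⟨σ m.1 v.1.1, (hmemW _).2 (by
            rw [hcomT m.1 m.2, (hmemW _).1 v.1.2])⟩,
          fun h => hσ0 m.1 v.1.1 (fun e => v.2 (Subtype.ext e)) (congrArg Subtype.val h)⟩
        one_smul := fun v => Subtype.ext (Subtype.ext (by change σ 1 v.1.1 = v.1.1; rw [map_one]; rfl))
        mul_smul := fun a b v => Subtype.ext (Subtype.ext (by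
          change σ (a.1 * b.1) v.1.1 = σ a.1 (σ b.1 v.1.1); rw [map_mul]; rfl)) }
    haveI : Fintype {v : W // v ≠ 0} := Fintype.ofFinite _
    haveI : Fintype M := Fintype.ofFinite _
    have hfree : ∀ v : {v : W // v ≠ 0}, MulAction.stabilizer M v = ⊥ := by
      intro v
      rw [eq_bot_iff]
      intro m hm
      rw [Subgroup.mem_bot]
      exact Subtype.ext (hfix m.1 v.1.1 (fun e => v.2 (Subtype.ext e))
        (congrArg (fun u : {v : W // v ≠ 0} => (u.1.1 : V)) hm))
    have h1 : Nat.card {v : W // v ≠ 0} = Nat.card W - 1 := by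
      haveI : Fintype W := Fintype.ofFinite _
      rw [Nat.card_eq_fintype_card, Nat.card_eq_fintype_card, Fintype.card_subtype_compl,
        Fintype.card_subtype_eq]
    rw [← h1, Nat.card_congr (MulAction.selfEquivSigmaOrbits M {v : W // v ≠ 0}), Nat.card_sigma]
    refine Finset.dvd_sum fun o _ => ?_
    have := Nat.card_congr (MulAction.orbitEquivQuotientStabilizer M o.out)
    rw [this, hfree, ← Subgroup.index, Subgroup.index_bot]
  obtain ⟨w, hw⟩ : ∃ w, Nat.card W = p ^ w := by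
    haveI : Fintype W := Fintype.ofFinite _
    exact ⟨_, by rw [Nat.card_eq_fintype_card, Module.card_eq_pow_finrank (K := ZMod p) (V := W),
      ZMod.card]⟩
  have hQQ : p ^ w * p ^ w = 120 * (D.S ⊔ M).index * Nat.card M + 1 := by
    have h1 : Nat.card V = Nat.card H + 1 := by
      haveI : Fintype V := Fintype.ofFinite V
      rw [Cfsg.Agent.PermLib.card_regular (H := H) hreg, Nat.card_eq_fintype_card,
        Module.card_eq_pow_finrank (K := ZMod p) (V := V), ZMod.card]
    rw [← hcard, ← h1, hVWW, ← hWW', hw]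
  obtain ⟨he1, hcases⟩ := arith Fact.out hp7 he hcop (hw ▸ hMW) hQQ
  exact ⟨p ^ w, Nat.card M, by rw [hVWW, ← hWW', hw], hcases, D.S, M, rfl,
    Subgroup.index_eq_one.1 he1, hSM, hcomm, ⟨D.e⟩⟩

/-- The insoluble sharply doubly transitive groups: a non-solvable linear group over the prime field that is regular on the non-zero vectors of `V` occurs only for `|V| = 11², 29², 59²`, and is `SL(2,5) × C_m` with `m = 1, 7, 29` respectively. -/
theorem result {p : ℕ} [Fact p.Prime] {V : Type*} [AddCommGroup V] [Module (ZMod p) V] [Finite V] (H : Subgroup (V ≃ₗ[ZMod p] V)) (hreg : ∀ v w : V, v ≠ 0 → w ≠ 0 → ∃! h : H, (h : V ≃ₗ[ZMod p] V) v = w) (hsolv : ¬ Group.IsSolvable H) : (Nat.card V = 121 ∧ Nonempty (H ≃* Matrix.SpecialLinearGroup (Fin 2) (ZMod 5))) ∨ (Nat.card V = 841 ∧ Nonempty (H ≃* Matrix.SpecialLinearGroup (Fin 2) (ZMod 5) × Multiplicative (ZMod 7))) ∨ (Nat.card V = 3481 ∧ Nonempty (H ≃* Matrix.SpecialLinearGroup (Fin 2) (ZMod 5) × Multiplicative (ZMod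 29))) := by
  obtain ⟨Q, m, hV, hcases, S, M, hMm, hsup, hinf, hcomm, ⟨e⟩⟩ := core H hreg hsolv
  haveI : Finite H := Cfsg.Agent.PermLib.finite_subgroup
  -- the direct product
  let f : S × M →* H :=
    { toFun := fun x => (x.1 : H) * x.2
      map_one' := by simp
      map_mul' := fun x y => by
        simp only [Prod.fst_mul, Prod.snd_mul, Subgroup.coe_mul]
        rw [mul_assoc (x.1 : H) y.1, ← mul_assoc (y.1 : H), hcomm y.1 y.1.2 x.2 x.2.2]
        simp only [mul_assoc] }
  have hinj : Function.Injective f := by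
    rw [injective_iff_map_eq_one]
    rintro ⟨s, x⟩ h
    change (s : H) * x = 1 at h
    have hs : (s : H) ∈ S ⊓ M := ⟨s.2, by
      rw [eq_inv_of_mul_eq_one_left h]; exact M.inv_mem x.2⟩
    rw [hinf, Subgroup.mem_bot] at hs
    rw [hs, one_mul] at h
    exact Prod.ext (Subtype.ext hs) (Subtype.ext h)
  have hsurj : Function.Surjective f := by
    rw [← MonoidHom.range_eq_top, eq_top_iff, ← hsup, sup_le_iff]
    exact ⟨fun s hs => ⟨(⟨s, hs⟩, 1), by simp [f]⟩, fun x hx => ⟨(1, ⟨x, hx⟩), by simp [f]⟩⟩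
  let eH : H ≃* S × M := (MulEquiv.ofBijective f ⟨hinj, hsurj⟩).symm
  rcases hcases with ⟨rfl, rfl⟩ | ⟨rfl, rfl⟩ | ⟨rfl, rfl⟩
  · left
    haveI : Subsingleton M := (Nat.card_eq_one_iff_unique.1 hMm).1
    haveI : Unique M := uniqueOfSubsingleton 1
    exact ⟨hV.trans (by norm_num), ⟨(eH.trans MulEquiv.prodUnique).trans e⟩⟩
  · right; left
    haveI : Fact (Nat.Prime 7) := ⟨by norm_num⟩
    haveI : IsCyclic M := isCyclic_of_prime_card hMm
    refine ⟨hV.trans (by norm_num), ⟨eH.trans (e.prodCongr (mulEquivOfCyclicCardEq ?_))⟩⟩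
    rw [hMm]; simp
  · right; right
    haveI : Fact (Nat.Prime 29) := ⟨by norm_num⟩
    haveI : IsCyclic M := isCyclic_of_prime_card hMm
    refine ⟨hV.trans (by norm_num), ⟨eH.trans (e.prodCongr (mulEquivOfCyclicCardEq ?_))⟩⟩
    rw [hMm]; simp

end Cfsg.Agent.S0689
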