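import Cfsg.Statements.S0690
import Cfsg.Agent.PermP.ZassCore

set_option autoImplicit false
open Cfsg

namespace Cfsg.Agent.S0690

/-- Zassenhaus: a perfect non-trivial group of fixed-point-free automorphisms of a finite group is isomorphic to `SL(2,5)`. -/
theorem result {K : Type*} [Group K] [Finite K] (G : Subgroup (MulAut K)) (hfpf : ∀ φ ∈ G, φ ≠ 1 → ∀ k : K, φ k = k → k = 1) (hperf : commutator G = ⊤) (hne : G ≠ ⊥) : Nonempty (G ≃* Matrix.SpecialLinearGroup (Fin 2) (ZMod 5)) := by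
  haveI : Nontrivial G := (Subgroup.nontrivial_iff_ne_bot G).2 hne
  have : Nontrivial K := by
    by_contra hK
    rw [not_nontrivial_iff_subsingleton] at hK
    obtain ⟨φ, hφ⟩ := exists_ne (1 : G)
    exact hφ (Subtype.ext (MulEquiv.ext fun k => Subsingleton.elim _ _))
  have hfc : Cfsg.Agent.FGS.FC.IsFC G :=
    Cfsg.Agent.PermP.Zass.isFC_of_fpf_mulAut G.subtype
      (fun h hh k hk => hfpf h.1 h.2 (fun e => hh (Subtype.ext e)) k hk)
  exact Cfsg.Agent.PermP.Zass.perfect_isFC_equiv_sl hfc hperf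

end Cfsg.Agent.S0690
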