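import Cfsg.Statements.S0691
import Cfsg.Agent.PermP.GLTwoRegular

set_option autoImplicit false
open Cfsg

namespace Cfsg.Agent.S0691

/-- Words for the elements of the group. -/
def words : List (List ℕ) :=
  [ [],
    [0],
    [1],
    [2],
    [0,0],
    [1,0],
    [2,0],
    [0,1],
    [2,1],
    [1,2],
    [2,2],
    [0,0,0],
    [1,0,0],
    [2,0,0],
    [1,2,0],
    [2,2,0],
    [2,0,1],
    [2,2,1],
    [0,1,2],
    [2,1,2],
    [2,2,0,0],
    [2,1,2,0],
    [2,2,0,1],
    [2,0,1,2] ]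

instance fact_prime : Fact (Nat.Prime 5) := ⟨by norm_num⟩

/-- The generators as quadruples. -/
def gens : List (ZMod 5 × ZMod 5 × ZMod 5 × ZMod 5) := [(2, 0, 0, -2), (0, -1, 1, 0), (1, 2, 1, -2)]


/-- An exceptional sharply doubly transitive group of degree 5^2: the listed matrices generate a subgroup of GL(2,5) of order 24 acting regularly on the non-zero vectors. -/
theorem result (A : Matrix.GeneralLinearGroup (Fin 2) (ZMod 5)) (B : Matrix.GeneralLinearGroup (Fin 2) (ZMod 5)) (C : Matrix.GeneralLinearGroup (Fin 2) (ZMod 5)) (hA : (A : Matrix (Fin 2) (Fin 2) (ZMod 5)) = !![2, 0; 0, -2]) (hB : (B : Matrix (Fin 2) (Fin 2) (ZMod 5)) = !![0, -1; 1, 0]) (hC : (C : Matrix (Fin 2) (Fin 2) (ZMod 5)) = !![1, 2; 1, -2]) : Nat.card (Subgroup.closure ({A, B, C} : Set (Matrix.GeneralLinearGroup (Fin 2) (ZMod 5)))) = 24 ∧ ∀ v w : Fin 2 → ZMod 5, v ≠ 0 → w ≠ 0 → ∃! h : Subgroup.closure ({A, B, C} : Set (Matrix.GeneralLinearGroup (Fin 2) (ZMod 5))), Matrix.mulVec ((h : Matrix.GeneralLinearGroup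 (Fin 2) (ZMod 5)) : Matrix (Fin 2) (Fin 2) (ZMod 5)) v = w := by
  have h := PermP.regular_of_certificate [A, B, C] 1 gens (1 : ZMod 5)
    (by simp [gens, PermP.quadMat, hA, hB, hC])
    (by rw [Units.val_one, ← PermP.quadMat_one]) words 1
    (by decide +kernel) (by decide +kernel) (by decide +kernel) (by decide +kernel)
    (by norm_num) (by decide +kernel) (by decide +kernel) (by decide +kernel)
    ({A, B, C} : Set _)
    (by intro x hx; simp at hx ⊢; tauto)
    (fun x hx => Subgroup.subset_closure (by simp at hx ⊢; tauto))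
    (one_mem _)
  have hl : 1 * words.length = 24 := by decide +kernel
  exact ⟨h.1.trans hl, h.2⟩

end Cfsg.Agent.S0691
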