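import Cfsg.Statements.S0697
import Cfsg.Agent.PermP.NormalTrans

set_option autoImplicit false
open Cfsg

namespace Cfsg.Agent.S0697

/-- In a `k`-primitive permutation group which is not the whole symmetric group, a non-trivial non-regular normal subgroup is `k`-transitive. -/
theorem result {α : Type*} [Fintype α] [DecidableEq α] (G : Subgroup (Equiv.Perm α)) {k : ℕ} (hk : 1 ≤ k) (hkn : k ≤ Fintype.card α) (hG : MulAction.IsMultiplyPreprimitive G α k) (htop : G ≠ ⊤) (H : Subgroup G) [H.Normal] (hH : H ≠ ⊥) (hnr : ∃ a : α, MulAction.stabilizer H a ≠ ⊥) : MulAction.IsMultiplyPretransitive H α k := by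
  refine PermP.normal_multiplyPretransitive k hk (by rwa [Nat.card_eq_fintype_card]) hG ?_ H hH
    (Or.inr hnr)
  refine Or.inr fun hs => htop ?_
  rw [eq_top_iff]
  intro π _
  obtain ⟨g, rfl⟩ := hs π
  exact g.2

end Cfsg.Agent.S0697
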