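import Cfsg.Statements.S0700
import Cfsg.Agent.PermP.BurnsideMinimal

set_option autoImplicit false
open Cfsg

namespace Cfsg.Agent.S0700

/-- Burnside's Theorem on doubly transitive groups: a minimal normal subgroup of a finite doubly transitive permutation group is elementary abelian and regular, or simple and primitive. -/
theorem result {α : Type*} [Fintype α] [DecidableEq α] (G : Subgroup (Equiv.Perm α)) (hG : MulAction.IsMultiplyPretransitive G α 2) (N : Subgroup G) [N.Normal] (hN : N ≠ ⊥) (hmin : ∀ M : Subgroup G, M.Normal → M ≤ N → M = ⊥ ∨ M = N) : (IsMulCommutative N ∧ (∃ p : ℕ, p.Prime ∧ ∀ n ∈ N, n ^ p = 1) ∧ ∀ a : α, MulAction.stabilizer N a = ⊥) ∨ (IsSimpleGroup N ∧ MulAction.IsPreprimitive N α) := by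
  have : Nontrivial α := by
    by_contra h
    rw [not_nontrivial_iff_subsingleton] at h
    exact hN (Subsingleton.elim _ _)
  have hprim : MulAction.IsPreprimitive G α := MulAction.isPreprimitive_of_is_two_pretransitive hG
  have hNt : MulAction.IsPretransitive N α := PermLib.isPretransitive_of_normal_ne_bot hN
  have hN' : Nontrivial N := (Subgroup.nontrivial_iff_ne_bot N).2 hN
  obtain ⟨a₀⟩ : Nonempty α := inferInstance
  have hconj : ∀ a : α, MulAction.stabilizer N a₀ = ⊥ → MulAction.stabilizer N a = ⊥ := by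
    intro a h
    obtain ⟨n, rfl⟩ := MulAction.exists_smul_eq N a₀ a
    rw [MulAction.stabilizer_smul_eq_stabilizer_map_conj, h, Subgroup.map_bot]
  by_cases hreg : MulAction.stabilizer N a₀ = ⊥
  · left
    obtain ⟨hab, hex⟩ := PermLib.elementary_of_regular_normal hG hreg
    obtain ⟨p, j, hp, -, -, hpow⟩ := hex hN'
    exact ⟨hab, ⟨p, hp, fun n hn => congrArg Subtype.val (hpow ⟨n, hn⟩)⟩, fun a => hconj a hreg⟩
  · right
    have hne : ∀ a : α, MulAction.stabilizer N a ≠ ⊥ := by
      intro a h
      obtain ⟨n, hn⟩ := MulAction.exists_smul_eq N a a₀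
      exact hreg (by rw [← hn, MulAction.stabilizer_smul_eq_stabilizer_map_conj, h, Subgroup.map_bot])
    have hp := PermP.preprimitive_of_minimal hG N hne hmin
    exact ⟨PermP.simple_of_minimal hG N hN hne hmin, hp⟩

end Cfsg.Agent.S0700
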