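import Cfsg.Statements.S0701
import Cfsg.Agent.PermP.Semiregular

set_option autoImplicit false
open Cfsg

namespace Cfsg.Agent.S0701

/-- The centraliser in the full symmetric group of a transitive permutation group `G` is semiregular, and it is transitive if and only if `G` is regular. -/
theorem result {α : Type*} (G : Subgroup (Equiv.Perm α)) [MulAction.IsPretransitive G α] : (∀ c ∈ Subgroup.centralizer (G : Set (Equiv.Perm α)), ∀ a : α, c a = a → c = 1) ∧ (MulAction.IsPretransitive (Subgroup.centralizer (G : Set (Equiv.Perm α))) α ↔ ∀ a : α, MulAction.stabilizer G a = ⊥) := by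
  have ht := PermP.transitive_of_isPretransitive G
  refine ⟨fun c hc a ha => PermP.eq_one_of_commute_of_transitive ht
    (Subgroup.mem_centralizer_iff.1 hc) ha, ?_, ?_⟩
  · intro hC a
    rw [eq_bot_iff]
    intro g hg
    rw [Subgroup.mem_bot]
    apply Subtype.ext
    refine PermP.eq_one_of_commute_of_transitive
      (PermP.transitive_of_isPretransitive (Subgroup.centralizer (G : Set (Equiv.Perm α)))) ?_ hg
    intro c hc
    exact (Subgroup.mem_centralizer_iff.1 hc _ g.2).symm
  · intro h
    constructor
    intro a b
    choose f hf using fun x => MulAction.exists_smul_eq G a x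
    choose f' hf' using fun x => MulAction.exists_smul_eq G b x
    have key : ∀ (x : α) (g h' : G), g • x = h' • x → g = h' := fun x g h' hgh => by
      have : h'⁻¹ * g ∈ MulAction.stabilizer G x := by
        rw [MulAction.mem_stabilizer_iff, mul_smul, hgh, inv_smul_smul]
      rw [h x, Subgroup.mem_bot, inv_mul_eq_one] at this
      exact this.symm
    let c : Equiv.Perm α :=
      { toFun := fun x => f x • b
        invFun := fun x => f' x • a
        left_inv := fun x => by
          have : f' (f x • b) = f x := key b _ _ (hf' _)
          simp only [this, hf]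
        right_inv := fun x => by
          have : f (f' x • a) = f' x := key a _ _ (hf _)
          simp only [this, hf'] }
    have hc : c ∈ Subgroup.centralizer (G : Set (Equiv.Perm α)) := by
      rw [Subgroup.mem_centralizer_iff]
      intro g hg
      ext x
      have : f ((⟨g, hg⟩ : G) • x) = ⟨g, hg⟩ * f x := key a _ _ (by rw [mul_smul, hf, hf])
      show g (f x • b) = f ((⟨g, hg⟩ : G) • x) • b
      rw [this, mul_smul]
      rfl
    refine ⟨⟨c, hc⟩, ?_⟩
    show f a • b = b
    have : f a = 1 := key a _ _ (by rw [hf, one_smul])
    rw [this, one_smul]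

end Cfsg.Agent.S0701
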