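import Cfsg.Statements.S0702
import Cfsg.Agent.PermP.Semiregular

set_option autoImplicit false
open Cfsg

namespace Cfsg.Agent.S0702

/-- For a transitive permutation group `G` on a finite set, the centraliser of `G` in the symmetric group is isomorphic to `N_G(G_ω)/G_ω`, and its orbit of `ω` is the set of fixed points of `G_ω`. -/
theorem result {α : Type*} [Finite α] (G : Subgroup (Equiv.Perm α)) [MulAction.IsPretransitive G α] (a : α) : Nonempty (Subgroup.centralizer (G : Set (Equiv.Perm α)) ≃* Subgroup.normalizer ((MulAction.stabilizer G a : Subgroup G) : Set G) ⧸ (MulAction.stabilizer G a).subgroupOf (Subgroup.normalizer ((MulAction.stabilizer G a : Subgroup G) : Set G))) ∧ MulAction.orbit (Subgroup.centralizer (G : Set (Equiv.Perm α))) a = MulAction.fixedPoints (MulAction.stabilizer G a) α := by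
  have ht := PermP.transitive_of_isPretransitive G
  have ext' : ∀ {c d : Subgroup.centralizer (G : Set (Equiv.Perm α))},
      (c : Equiv.Perm α) a = (d : Equiv.Perm α) a → c = d := fun {c d} h =>
    Subtype.ext (PermP.eq_of_commute_of_transitive ht
      (Subgroup.mem_centralizer_iff.1 c.2) (Subgroup.mem_centralizer_iff.1 d.2) h)
  have hcg : ∀ (c : Subgroup.centralizer (G : Set (Equiv.Perm α))) (g : G) (x : α),
      (c : Equiv.Perm α) (g • x) = g • (c : Equiv.Perm α) x := fun c g x =>
    (DFunLike.congr_fun (Subgroup.mem_centralizer_iff.1 c.2 _ g.2) x).symm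
  have hex : ∀ b ∈ MulAction.fixedPoints (MulAction.stabilizer G a) α,
      ∃ c : Subgroup.centralizer (G : Set (Equiv.Perm α)), (c : Equiv.Perm α) a = b := by
    intro b hb
    have key : ∀ g h : G, g • a = h • a → g • b = h • b := fun g h hgh => by
      have hmem : h⁻¹ * g ∈ MulAction.stabilizer G a := by
        rw [MulAction.mem_stabilizer_iff, mul_smul, hgh, inv_smul_smul]
      have : (h⁻¹ * g) • b = b := hb ⟨_, hmem⟩
      rwa [mul_smul, inv_smul_eq_iff] at this
    choose f hf using fun x => MulAction.exists_smul_eq G a x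
    have hsurj : Function.Surjective fun x => f x • b := by
      intro y
      obtain ⟨g, hg⟩ := MulAction.exists_smul_eq G b y
      exact ⟨g • a, (key _ g (hf _)).trans hg⟩
    let c := Equiv.ofBijective _ ⟨Finite.injective_iff_surjective.2 hsurj, hsurj⟩
    refine ⟨⟨c, ?_⟩, (key _ 1 (by rw [hf, one_smul])).trans (one_smul _ b)⟩
    rw [Subgroup.mem_centralizer_iff]
    intro g hg
    ext x
    show g (f x • b) = f ((⟨g, hg⟩ : G) • x) • b
    rw [key (f ((⟨g, hg⟩ : G) • x)) (⟨g, hg⟩ * f x) (by rw [hf, mul_smul, hf]), mul_smul]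
    rfl
  have horb : MulAction.orbit (Subgroup.centralizer (G : Set (Equiv.Perm α))) a
      = MulAction.fixedPoints (MulAction.stabilizer G a) α := by
    ext b
    constructor
    · rintro ⟨c, rfl⟩ ⟨g, hg⟩
      show g • (c : Equiv.Perm α) a = (c : Equiv.Perm α) a
      rw [← hcg, MulAction.mem_stabilizer_iff.1 hg]
    · intro hb
      obtain ⟨c, hc⟩ := hex b hb
      exact ⟨c, hc⟩
  refine ⟨?_, horb⟩
  have hfix : ∀ n : ↥(Subgroup.normalizer ((MulAction.stabilizer G a : Subgroup G) : Set G)),
      (n : G)⁻¹ • a ∈ MulAction.fixedPoints (MulAction.stabilizer G a) α := by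
    rintro n ⟨h, hh⟩
    show h • (n : G)⁻¹ • a = (n : G)⁻¹ • a
    have := (Subgroup.mem_normalizer_iff.1 n.2 h).1 hh
    rw [eq_inv_smul_iff, ← mul_smul, ← mul_smul]
    exact this
  choose ψ hψ using fun n => hex _ (hfix n)
  let φ : ↥(Subgroup.normalizer ((MulAction.stabilizer G a : Subgroup G) : Set G)) →*
      Subgroup.centralizer (G : Set (Equiv.Perm α)) :=
    MonoidHom.mk' ψ fun m n => ext' <| by
      rw [Subgroup.coe_mul, Equiv.Perm.mul_apply, hψ, hψ, hcg, hψ, ← mul_smul, ← mul_inv_rev]
      rfl
  have hker : φ.ker = (MulAction.stabilizer G a).subgroupOf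
      (Subgroup.normalizer ((MulAction.stabilizer G a : Subgroup G) : Set G)) := by
    ext n
    rw [MonoidHom.mem_ker, Subgroup.mem_subgroupOf]
    constructor
    · intro h
      have h1 : (ψ n : Equiv.Perm α) a = a := by
        have : ψ n = 1 := h
        rw [this]; rfl
      rw [hψ, inv_smul_eq_iff] at h1
      exact MulAction.mem_stabilizer_iff.2 h1.symm
    · intro h
      apply ext'
      show (ψ n : Equiv.Perm α) a = a
      rw [hψ, inv_smul_eq_iff]
      exact (MulAction.mem_stabilizer_iff.1 h).symm
  have hφ : Function.Surjective φ := by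
    intro c
    obtain ⟨g, hg⟩ := MulAction.exists_smul_eq G a ((c : Equiv.Perm α) a)
    have hst : ∀ h : G, h • (g • a) = g • a ↔ h • a = a := by
      intro h
      rw [hg, ← hcg]
      exact (Equiv.injective (c : Equiv.Perm α)).eq_iff
    have hn : g⁻¹ ∈ Subgroup.normalizer ((MulAction.stabilizer G a : Subgroup G) : Set G) := by
      rw [Subgroup.mem_normalizer_iff]
      intro h
      simp only [MulAction.mem_stabilizer_iff, inv_inv, mul_smul, inv_smul_eq_iff]
      exact (hst h).symm
    refine ⟨⟨g⁻¹, hn⟩, ext' ?_⟩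
    show (ψ _ : Equiv.Perm α) a = _
    rw [hψ]
    simpa using hg
  exact ⟨((QuotientGroup.quotientMulEquivOfEq hker.symm).trans
    (QuotientGroup.quotientKerEquivOfSurjective φ hφ)).symm⟩

end Cfsg.Agent.S0702
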