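import Cfsg.Statements.S0703
import Cfsg.Agent.PermP.Semiregular

set_option autoImplicit false
open Cfsg

namespace Cfsg.Agent.S0703

/-- An abelian transitive minimal normal subgroup `M` of a permutation group on a finite set is self-centralising in the symmetric group, regular, elementary abelian, and is the unique minimal normal subgroup. -/
theorem result {α : Type*} [Finite α] (G : Subgroup (Equiv.Perm α)) (M : Subgroup G) [M.Normal] (hM : M ≠ ⊥) (hmin : ∀ L : Subgroup G, L.Normal → L ≤ M → L = ⊥ ∨ L = M) (hab : IsMulCommutative M) (htrans : MulAction.IsPretransitive M α) : Subgroup.centralizer ((M.map G.subtype : Subgroup (Equiv.Perm α)) : Set (Equiv.Perm α)) = M.map G.subtype ∧ (∀ a : α, MulAction.stabilizer M a = ⊥) ∧ (∃ p : ℕ, p.Prime ∧ ∀ m ∈ M, m ^ p = 1) ∧ ∀ L : Subgroup G, L.Normal → L ≠ ⊥ → (∀ L' : Subgroup G, L'.Normal → L' ≤ L → L' = ⊥ ∨ L' = L) → L = M := by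
  have : MulAction.IsPretransitive M α := htrans
  have hcomm : ∀ m ∈ M, ∀ n ∈ M, m * n = n * m := fun m hm n hn =>
    congrArg Subtype.val (hab.is_comm.comm (⟨m, hm⟩ : M) ⟨n, hn⟩)
  have hne : Nonempty α := by
    by_contra h
    rw [not_nonempty_iff] at h
    exact hM (Subsingleton.elim _ _)
  obtain ⟨a⟩ := hne
  have hC := PermP.eq_map_of_centralizes (G := G) hcomm a
  refine ⟨hC, PermP.stabilizer_eq_bot_of_centralizes hcomm, ?_, ?_⟩
  · have hcard : Nat.card M ≠ 1 := fun h => hM (Subgroup.eq_bot_of_card_eq M h)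
    obtain ⟨p, hp, hpd⟩ := Nat.exists_prime_and_dvd hcard
    haveI := Fact.mk hp
    obtain ⟨x, hx⟩ := exists_prime_orderOf_dvd_card' p hpd
    let L : Subgroup G :=
      { carrier := {m | m ∈ M ∧ m ^ p = 1}
        one_mem' := ⟨M.one_mem, one_pow p⟩
        mul_mem' := fun {m n} hm hn => ⟨M.mul_mem hm.1 hn.1, by
          rw [(Commute.mul_pow (hcomm m hm.1 n hn.1) p), hm.2, hn.2, one_mul]⟩
        inv_mem' := fun {m} hm => ⟨M.inv_mem hm.1, by rw [inv_pow, hm.2, inv_one]⟩ }
    have hLn : L.Normal := by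
      constructor
      intro m hm g
      refine ⟨Subgroup.Normal.conj_mem inferInstance m hm.1 g, ?_⟩
      rw [conj_pow, hm.2, mul_one, mul_inv_cancel]
    rcases hmin L hLn (fun m hm => hm.1) with h | h
    · exfalso
      have hxp : x ^ p = 1 := by rw [← hx]; exact pow_orderOf_eq_one x
      have : (x : G) ∈ L := ⟨x.2, by rw [← SubgroupClass.coe_pow, hxp]; rfl⟩
      rw [h, Subgroup.mem_bot] at this
      have hx1 : x = 1 := Subtype.ext this
      rw [hx1, orderOf_one] at hx
      exact hp.one_lt.ne hx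
    · refine ⟨p, hp, fun m hm => ?_⟩
      have : m ∈ L := h ▸ hm
      exact this.2
  · intro L hLn hL hLmin
    by_contra hne
    haveI := hLn
    have hinf := PermP.inf_eq_bot_of_minimal hM hmin hLmin (Ne.symm hne)
    have hle : L ≤ M := by
      intro l hl
      have : (l : Equiv.Perm α) ∈ M.map G.subtype := by
        rw [← hC, PermP.mem_centralizer_map_subtype]
        intro m hm
        exact congrArg Subtype.val (PermP.commute_of_normal_inf_eq_bot hinf hm hl)
      obtain ⟨m, hm, hml⟩ := this
      rwa [← Subtype.ext hml]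
    rcases hmin L hLn hle with h | h
    · exact hL h
    · exact hne h

end Cfsg.Agent.S0703
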