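import Cfsg.Statements.S0704
import Cfsg.Agent.PermP.Semiregular

set_option autoImplicit false
open Cfsg

namespace Cfsg.Agent.S0704

/-- Two distinct transitive minimal normal subgroups `M`, `N` of a permutation group are regular, non-abelian, isomorphic, each other's centraliser in the symmetric group, and the only minimal normal subgroups. -/
theorem result {α : Type*} (G : Subgroup (Equiv.Perm α)) (M N : Subgroup G) [M.Normal] [N.Normal] (hM : M ≠ ⊥) (hN : N ≠ ⊥) (hMmin : ∀ L : Subgroup G, L.Normal → L ≤ M → L = ⊥ ∨ L = M) (hNmin : ∀ L : Subgroup G, L.Normal → L ≤ N → L = ⊥ ∨ L = N) (hMN : M ≠ N) (hMt : MulAction.IsPretransitive M α) (hNt : MulAction.IsPretransitive N α) : (∀ a : α, MulAction.stabilizer M a = ⊥) ∧ (∀ a : α, MulAction.stabilizer N a = ⊥) ∧ ¬ IsMulCommutative M ∧ Nonempty (M ≃* N) ∧ Subgroup.centralizer ((M.map G.subtype : Subgroup (Equiv.Perm α)) : Set (Equiv.Perm α)) = N.map G.subtype ∧ Subgroup.centralizer ((N.map G.subtype : Subgroup (Equiv.Perm α)) : Set (Equiv.Perm α)) =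 M.map G.subtype ∧ ∀ L : Subgroup G, L.Normal → L ≠ ⊥ → (∀ L' : Subgroup G, L'.Normal → L' ≤ L → L' = ⊥ ∨ L' = L) → L = M ∨ L = N := by
  have : MulAction.IsPretransitive M α := hMt
  have : MulAction.IsPretransitive N α := hNt
  have hinf := PermP.inf_eq_bot_of_minimal hM hMmin hNmin hMN
  have hcomm : ∀ m ∈ M, ∀ n ∈ N, m * n = n * m := fun m hm n hn =>
    PermP.commute_of_normal_inf_eq_bot hinf hm hn
  have hcomm' : ∀ n ∈ N, ∀ m ∈ M, n * m = m * n := fun n hn m hm => (hcomm m hm n hn).symm
  have hne : Nonempty α := by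
    by_contra h
    rw [not_nonempty_iff] at h
    exact hM (Subsingleton.elim _ _)
  obtain ⟨a⟩ := hne
  have hCM := PermP.eq_map_of_centralizes (G := G) hcomm a
  have hCN := PermP.eq_map_of_centralizes (G := G) hcomm' a
  have hsM := PermP.stabilizer_eq_bot_of_centralizes hcomm'
  have hsN := PermP.stabilizer_eq_bot_of_centralizes hcomm
  have hinj := Subgroup.map_injective (f := G.subtype) G.subtype_injective
  refine ⟨hsM, hsN, ?_, ?_, hCM, hCN, ?_⟩
  · intro hab
    have hc : ∀ m ∈ M, ∀ n ∈ M, m * n = n * m := fun m hm n hn =>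
      congrArg Subtype.val (hab.is_comm.comm (⟨m, hm⟩ : M) ⟨n, hn⟩)
    exact hMN (hinj ((PermP.eq_map_of_centralizes (G := G) hc a).symm.trans hCM))
  · have key : ∀ (K : Subgroup G), (∀ x : α, MulAction.stabilizer K x = ⊥) → ∀ g h : K,
        g • a = h • a → g = h := fun K hK g h hgh => by
      have : h⁻¹ * g ∈ MulAction.stabilizer K a := by
        rw [MulAction.mem_stabilizer_iff, mul_smul, hgh, inv_smul_smul]
      rw [hK a, Subgroup.mem_bot, inv_mul_eq_one] at this
      exact this.symm
    choose f hf using fun m : M => MulAction.exists_smul_eq N a (m⁻¹ • a)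
    have hsw : ∀ (m : M) (n : N) (x : α), n • m • x = m • n • x := fun m n x => by
      show (n : G) • (m : G) • x = (m : G) • (n : G) • x
      rw [← mul_smul, ← mul_smul, hcomm' n n.2 m m.2]
    let φ : M →* N := MonoidHom.mk' f fun m₁ m₂ => key N hsN _ _ <| by
      rw [hf, mul_smul, hf, hsw, hf, mul_inv_rev, mul_smul]
    refine ⟨MulEquiv.ofBijective φ ⟨?_, ?_⟩⟩
    · intro m₁ m₂ h
      have : f m₁ = f m₂ := h
      exact inv_injective (key M hsM _ _ (by rw [← hf, this, hf]))
    · intro n
      obtain ⟨m, hm⟩ := MulAction.exists_smul_eq M a (n • a)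
      exact ⟨m⁻¹, key N hsN _ _ (by show f m⁻¹ • a = _; rw [hf, inv_inv, hm])⟩
  · intro L hLn hL hLmin
    by_contra hne
    rw [not_or] at hne
    haveI := hLn
    have hLM := PermP.inf_eq_bot_of_minimal hM hMmin hLmin (Ne.symm hne.1)
    have hle : L ≤ N := by
      intro l hl
      have : (l : Equiv.Perm α) ∈ N.map G.subtype := by
        rw [← hCM, PermP.mem_centralizer_map_subtype]
        intro m hm
        exact congrArg Subtype.val (PermP.commute_of_normal_inf_eq_bot hLM hm hl)
      obtain ⟨m, hm, hml⟩ := this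
      rwa [← Subtype.ext hml]
    rcases hNmin L hLn hle with h | h
    · exact hL h
    · exact hne.2 h

end Cfsg.Agent.S0704
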