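import Cfsg.Statements.S0705
import Cfsg.Agent.PermP.Generous

set_option autoImplicit false
open scoped Pointwise
open Cfsg

namespace Cfsg.Agent.S0705

/-- A generously `k`-transitive permutation group (every `(k+1)`-subset has its full symmetric group induced by the setwise stabiliser) of degree greater than `k` is `k`-transitive, and for a `k`-subset the setwise and pointwise stabilisers have the same orbits outside it. -/
theorem result {α : Type*} [Fintype α] [DecidableEq α] (G : Subgroup (Equiv.Perm α)) {k : ℕ} (hk : k < Fintype.card α) (hgen : ∀ s : Finset α, s.card = k + 1 → ∀ σ : Equiv.Perm ↥s, ∃ g ∈ G, ∀ x : ↥s, g (x : α) = σ x) : MulAction.IsMultiplyPretransitive G α k ∧ ∀ s : Finset α, s.card = k → ∀ a b : α, a ∉ s → b ∉ s → (∃ g ∈ G, g • s = s ∧ g a = b) → ∃ g ∈ G, (∀ x ∈ s, g x = x) ∧ g a = b := by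
  refine ⟨PermP.generous_transitive hk hgen, ?_⟩
  intro s hs a b ha _ ⟨g, hg, hgs, hgab⟩
  have hgs' : ∀ x, g x ∈ s ↔ x ∈ s := fun x => by
    conv_lhs => rw [← hgs]
    exact Finset.smul_mem_smul_finset_iff g
  obtain ⟨g', h1, h2, h3⟩ := PermP.generous_setwise_orbit hgen hs hg hgs' ha
  exact ⟨g', h1, h2, h3.trans hgab⟩

end Cfsg.Agent.S0705
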