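import Cfsg.Statements.S0707
import Mathlib.GroupTheory.SpecificGroups.Cyclic

set_option autoImplicit false
open Cfsg

namespace Cfsg.Agent.S0707

/-- In a primitive permutation group, distinct points have distinct stabilisers unless the group is regular of prime degree. -/
theorem result {α : Type*} (G : Subgroup (Equiv.Perm α)) [MulAction.IsPreprimitive G α] (h : ¬ (Nat.card α).Prime ∨ ∃ a : α, MulAction.stabilizer G a ≠ ⊥) {a b : α} (hab : a ≠ b) : MulAction.stabilizer G a ≠ MulAction.stabilizer G b := by
  intro heq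
  obtain ⟨g, hg⟩ := MulAction.exists_smul_eq G a b
  have : Nontrivial α := ⟨a, b, hab⟩
  have hco := MulAction.IsPreprimitive.isCoatom_stabilizer_of_isPreprimitive G a
  have hgn : g ∈ Subgroup.normalizer ((MulAction.stabilizer G a : Subgroup G) : Set G) := by
    rw [Subgroup.mem_normalizer_iff]
    intro h
    conv_rhs => rw [heq]
    rw [MulAction.mem_stabilizer_iff, MulAction.mem_stabilizer_iff, ← hg, mul_smul, mul_smul,
      inv_smul_smul, smul_left_cancel_iff]
  have hga : g ∉ MulAction.stabilizer G a := fun h => hab (h.symm.trans hg)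
  have hnorm : (MulAction.stabilizer G a).Normal := by
    rw [← Subgroup.normalizer_eq_top_iff]
    refine hco.2 _ (lt_of_le_of_ne Subgroup.le_normalizer fun h' => hga ?_)
    rw [h']
    exact hgn
  have hall : ∀ x : α, ∀ h ∈ MulAction.stabilizer G a, h • x = x := by
    intro x h hh
    obtain ⟨k, hk⟩ := MulAction.exists_smul_eq G a x
    rw [← hk]
    have h2 := hnorm.conj_mem h hh k⁻¹
    rw [MulAction.mem_stabilizer_iff, inv_inv, mul_smul, mul_smul, inv_smul_eq_iff] at h2
    exact h2
  have hbot : MulAction.stabilizer G a = ⊥ := by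
    rw [eq_bot_iff]
    intro h hh
    rw [Subgroup.mem_bot]
    exact Subtype.ext (Equiv.ext fun x => hall x h hh)
  have hbot' : ∀ x : α, MulAction.stabilizer G x = ⊥ := by
    intro x
    rw [eq_bot_iff]
    intro h hh
    obtain ⟨k, hk⟩ := MulAction.exists_smul_eq G a x
    have : k⁻¹ * h * k ∈ MulAction.stabilizer G a := by
      rw [MulAction.mem_stabilizer_iff, mul_smul, mul_smul, inv_smul_eq_iff, hk]
      exact hh
    rw [hbot, Subgroup.mem_bot] at this
    have h2 : h = k * (k⁻¹ * h * k) * k⁻¹ := by simp [mul_assoc]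
    rw [Subgroup.mem_bot, h2, this, mul_one, mul_inv_cancel]
  rcases h with h | ⟨x, hx⟩
  swap
  · exact hx (hbot' x)
  apply h
  have hgen : ∀ k : G, k ≠ 1 → Subgroup.zpowers k = ⊤ := by
    intro k hk
    apply hco.2
    rw [hbot, bot_lt_iff_ne_bot, Ne, Subgroup.zpowers_eq_bot]
    exact hk
  have hg1 : g ≠ 1 := fun h1 => hga (h1 ▸ one_mem _)
  have : IsCyclic G := ⟨g, fun k => Subgroup.mem_zpowers_iff.1 (by rw [hgen g hg1]; exact Subgroup.mem_top k)⟩
  have : Nontrivial G := ⟨g, 1, hg1⟩
  have : IsMulCommutative G := inferInstance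
  have : IsSimpleGroup G := by
    refine ⟨fun H _ => ?_⟩
    rcases eq_or_ne H ⊥ with hH | hH
    · exact Or.inl hH
    · exact Or.inr (hco.2 H (by rw [hbot, bot_lt_iff_ne_bot]; exact hH))
  have hp : (Nat.card G).Prime := Group.is_simple_iff_prime_card.1 inferInstance
  have hbij : Function.Bijective fun k : G => k • a := by
    refine ⟨fun k l hkl => ?_, fun x => MulAction.exists_smul_eq G a x⟩
    have : l⁻¹ * k ∈ MulAction.stabilizer G a := by
      rw [MulAction.mem_stabilizer_iff, mul_smul]
      simp only at hkl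
      rw [hkl, inv_smul_smul]
    rw [hbot, Subgroup.mem_bot, inv_mul_eq_one] at this
    exact this.symm
  rwa [← Nat.card_congr (Equiv.ofBijective _ hbij)]

end Cfsg.Agent.S0707
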