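import Cfsg.Statements.S0712
import Mathlib.GroupTheory.GroupAction.Jordan

set_option autoImplicit false
open Cfsg

namespace Cfsg.Agent.S0712

/-- Jordan: a primitive group in which the pointwise stabiliser of a set `s` is doubly transitive on the complement of `s` (which has at least 2 points) is `(|s| + 2)`-transitive. -/
theorem result {α : Type*} [Fintype α] [DecidableEq α] (G : Subgroup (Equiv.Perm α)) (hG : MulAction.IsPreprimitive G α) (s : Set α) {m : ℕ} (hsm : s.ncard = m) (hm : m + 2 ≤ Fintype.card α) (h2 : MulAction.IsMultiplyPretransitive (fixingSubgroup G s) (SubMulAction.ofFixingSubgroup G s) 2) : MulAction.IsMultiplyPretransitive G α (m + 2) := by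
  rw [MulAction.isMultiplyPretransitive_iff]
  have key : MulAction.IsMultiplyPretransitive G α (m + 1) ∧ (m = 0 → s = ∅) := by
    refine ⟨?_, fun h => (Set.ncard_eq_zero).1 (hsm.trans h)⟩
    rcases Nat.eq_zero_or_pos m with rfl | hmpos
    · exact MulAction.is_one_pretransitive_iff.2 hG.toIsPretransitive
    · obtain ⟨n, rfl⟩ := Nat.exists_eq_add_of_le hmpos
      have hp : MulAction.IsPreprimitive (fixingSubgroup G s)
          (SubMulAction.ofFixingSubgroup G s) := MulAction.isPreprimitive_of_is_two_pretransitive h2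
      have := MulAction.IsPreprimitive.isMultiplyPreprimitive hG (n := n) (by omega)
        (by rw [Nat.card_eq_fintype_card]; omega) hp
      have h3 := this.isMultiplyPretransitive
      rwa [show 1 + n + 1 = n + 2 by omega]
  obtain ⟨h1, -⟩ := key
  have hm' : MulAction.IsMultiplyPretransitive G α m :=
    MulAction.isMultiplyPretransitive_of_le (Nat.le_succ m) (by
      rw [Nat.card_eq_fintype_card]; omega)
  intro f f'
  classical
  let e : Fin m ↪ α :=
    ((Finset.equivFinOfCardEq (s := s.toFinset)
      (by rw [← Set.ncard_eq_toFinset_card']; exact hsm)).symm.toEmbedding).trans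
      (Function.Embedding.subtype _)
  have he : ∀ x ∈ s, ∃ i, e i = x := fun x hx => by
    refine ⟨Finset.equivFinOfCardEq (s := s.toFinset)
      (by rw [← Set.ncard_eq_toFinset_card']; exact hsm) ⟨x, Set.mem_toFinset.2 hx⟩, ?_⟩
    simp [e]
  have hes : ∀ i, e i ∈ s := fun i => Set.mem_toFinset.1
    ((Finset.equivFinOfCardEq (s := s.toFinset)
      (by rw [← Set.ncard_eq_toFinset_card']; exact hsm)).symm i).2
  rw [MulAction.isMultiplyPretransitive_iff] at hm'
  obtain ⟨g, hg⟩ := hm' ((Fin.castAddEmb 2).trans f) e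
  obtain ⟨g', hg'⟩ := hm' ((Fin.castAddEmb 2).trans f') e
  have hout : ∀ (h : G) (u : Fin (m + 2) ↪ α), h • ((Fin.castAddEmb 2).trans u) = e →
      ∀ j : Fin 2, h • u (Fin.natAdd m j) ∈ SubMulAction.ofFixingSubgroup G s := by
    intro h u hu j hmem
    obtain ⟨i, hi⟩ := he _ hmem
    rw [← DFunLike.congr_fun hu i] at hi
    have h3 : h • u (Fin.castAdd 2 i) = h • u (Fin.natAdd m j) := hi
    have := u.injective (smul_left_cancel h h3)
    rw [Fin.ext_iff] at this
    simp only [Fin.val_castAdd, Fin.val_natAdd] at this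
    omega
  have h2' : ∀ {a b c d : SubMulAction.ofFixingSubgroup G s}, a ≠ b → c ≠ d →
      ∃ k : fixingSubgroup G s, k • a = c ∧ k • b = d := MulAction.is_two_pretransitive_iff.1 h2
  obtain ⟨k, hk0, hk1⟩ := h2'
    (a := ⟨_, hout g f hg 0⟩) (b := ⟨_, hout g f hg 1⟩)
    (c := ⟨_, hout g' f' hg' 0⟩) (d := ⟨_, hout g' f' hg' 1⟩)
    (fun h => by
      have := f.injective (smul_left_cancel g (congrArg Subtype.val h))
      rw [Fin.ext_iff] at this
      simp only [Fin.val_natAdd, Fin.val_zero, Fin.val_one] at this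
      omega)
    (fun h => by
      have := f'.injective (smul_left_cancel g' (congrArg Subtype.val h))
      rw [Fin.ext_iff] at this
      simp only [Fin.val_natAdd, Fin.val_zero, Fin.val_one] at this
      omega)
  refine ⟨g'⁻¹ * (k : G) * g, Function.Embedding.ext fun i => ?_⟩
  show (g'⁻¹ * (k : G) * g) • f i = f' i
  rw [mul_smul, mul_smul, inv_smul_eq_iff]
  refine Fin.addCases (fun i => ?_) (fun j => ?_) i
  · have h3 : g • f (Fin.castAdd 2 i) = e i := DFunLike.congr_fun hg i
    have h4 : g' • f' (Fin.castAdd 2 i) = e i := DFunLike.congr_fun hg' i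
    rw [h3, h4]
    exact (mem_fixingSubgroup_iff G).1 k.2 _ (hes i)
  · match j with
    | 0 => exact congrArg Subtype.val hk0
    | 1 => exact congrArg Subtype.val hk1

end Cfsg.Agent.S0712
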