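import Cfsg.Statements.S0719

import Cfsg.Agent.PermB.RankThree

set_option autoImplicit false
open Cfsg

namespace Cfsg.Agent.S0719

/-- Groups of Wielandt type: if a primitive group of degree `2m` has rank 3 and permutation character `1 + χ₁ + χ₂` with irreducible `χ₁, χ₂` of degrees `m - 1` and `m`, then `m = 2a² + 2a + 1` for some positive integer `a` and the two non-trivial subdegrees are `a(2a+1)` and `(a+1)(2a+1)`. -/
theorem result {G : Type*} [Group G] [Fintype G] {Ω : Type*} [Fintype Ω] [MulAction G Ω] (hprim : MulAction.IsPreprimitive G Ω) {m : ℕ} (hm : Fintype.card Ω = 2 * m) (a₀ : Ω) (hrank : Nat.card (MulAction.orbitRel.Quotient (MulAction.stabilizer G a₀) Ω) = 3) (χ₁ χ₂ : G → ℂ) (h₁ : Cfsg.IsIrrCharacter G χ₁) (h₂ : Cfsg.IsIrrCharacter G χ₂) (hπ : (fun g : G => (Nat.card (MulAction.fixedBy Ω g) : ℂ)) = fun g => 1 + χ₁ g + χ₂ g) (hd₁ : χ₁ 1 = (m : ℂ) - 1) (hd₂ : χ₂ 1 = m) : ∃ a : ℕ, 0 < a ∧ m = 2 * a ^ 2 + 2 * a + 1 ∧ ∀ b : Ω, b ≠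 a₀ → Nat.card (MulAction.orbit (MulAction.stabilizer G a₀) b) = a * (2 * a + 1) ∨ Nat.card (MulAction.orbit (MulAction.stabilizer G a₀) b) = (a + 1) * (2 * a + 1) := by
  classical
  haveI := hprim
  have hpar : ∀ b : Ω, b ≠ a₀ → ∃ r : ℤ,
      (Nat.card (MulAction.orbit (MulAction.stabilizer G a₀) b) : ℤ) = m + r ∧
      (m : ℤ) = 2 * r * r + 2 * r + 1 ∧ 2 ≤ m := fun b hb =>
    PermB.RankThree.parameters hm a₀ hrank χ₁ χ₂ h₁ h₂ hπ hd₁ hd₂ b hb
  obtain ⟨b₀, hb₀⟩ : ∃ b, b ≠ a₀ := by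
    by_contra hno
    push Not at hno
    haveI : Subsingleton Ω := ⟨fun x y => (hno x).trans (hno y).symm⟩
    have h := Fintype.card_le_one_iff_subsingleton.2 (inferInstance : Subsingleton Ω)
    haveI : Subsingleton (MulAction.orbitRel.Quotient (MulAction.stabilizer G a₀) Ω) :=
      ⟨fun x y => Quotient.inductionOn₂' x y fun u v => by rw [Subsingleton.elim u v]⟩
    rcases Nat.lt_or_ge 1 (Nat.card (MulAction.orbitRel.Quotient (MulAction.stabilizer G a₀) Ω))
      with h' | h'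
    · exact absurd (Finite.card_le_one_iff_subsingleton.2 inferInstance) (not_le.2 h')
    · omega
  obtain ⟨r₀, -, hm₀, hm2⟩ := hpar b₀ hb₀
  -- the nonnegative solution
  obtain ⟨a, ha0, ha⟩ : ∃ a : ℕ, 0 < a ∧ (m : ℤ) = 2 * (a : ℤ) * a + 2 * a + 1 := by
    rcases le_or_gt 0 r₀ with h | h
    · refine ⟨r₀.toNat, ?_, ?_⟩
      · by_contra h0
        have : r₀ = 0 := by omega
        subst this
        omega
      · rw [Int.toNat_of_nonneg h]; exact hm₀
    · refine ⟨(-r₀ - 1).toNat, ?_, ?_⟩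
      · by_contra h0
        have : r₀ = -1 := by omega
        subst this
        omega
      · rw [Int.toNat_of_nonneg (by omega)]
        linear_combination hm₀
  refine ⟨a, ha0, ?_, fun b hb => ?_⟩
  · have : (m : ℤ) = ((2 * a ^ 2 + 2 * a + 1 : ℕ) : ℤ) := by push_cast; linear_combination ha
    exact_mod_cast this
  obtain ⟨r, hk, hm1, -⟩ := hpar b hb
  have : (r - a) * (r + a + 1) = 0 := by linarith [show (r - (a : ℤ)) * (r + a + 1) = r * r + r - (a * a + a) by ring]
  rcases mul_eq_zero.1 this with h | h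
  · right
    have e : ((Nat.card (MulAction.orbit (MulAction.stabilizer G a₀) b) : ℕ) : ℤ)
        = (((a + 1) * (2 * a + 1) : ℕ) : ℤ) := by
      rw [hk, ha, show r = (a : ℤ) by linarith]; push_cast; ring
    exact_mod_cast e
  · left
    have e : ((Nat.card (MulAction.orbit (MulAction.stabilizer G a₀) b) : ℕ) : ℤ)
        = ((a * (2 * a + 1) : ℕ) : ℤ) := by
      rw [hk, ha, show r = -(a : ℤ) - 1 by linarith]; push_cast; ring
    exact_mod_cast e

end Cfsg.Agent.S0719
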