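import Cfsg.Statements.S0722

import Mathlib.Algebra.Group.Subgroup.Pointwise

set_option autoImplicit false
open Cfsg

namespace Cfsg.Agent.S0722

/-- In a primitive group `H`, with `N` a minimal normal subgroup and `K` a point stabiliser, `K ⊓ N` is maximal among proper `K`-invariant subgroups of `N`. -/
theorem result {α : Type*} [Finite α] (H : Subgroup (Equiv.Perm α)) [MulAction.IsPreprimitive H α] (N : Subgroup H) [N.Normal] (hN : N ≠ ⊥) (hmin : ∀ M : Subgroup H, M.Normal → M ≤ N → M = ⊥ ∨ M = N) (a : α) (X : Subgroup H) (hX : X ≤ N) (hKX : MulAction.stabilizer H a ⊓ N ≤ X) (hinv : MulAction.stabilizer H a ≤ Subgroup.normalizer (X : Set H)) : X = MulAction.stabilizer H a ⊓ N ∨ X = N := by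
  classical
  rcases subsingleton_or_nontrivial α with hα | hα
  · exfalso
    apply hN
    have : Subsingleton H := ⟨fun g h => Subtype.ext (Equiv.ext fun x => Subsingleton.elim _ _)⟩
    exact Subsingleton.elim _ _
  set K := MulAction.stabilizer H a
  have hK : IsCoatom K := MulAction.IsPreprimitive.isCoatom_stabilizer_of_isPreprimitive H a
  rcases eq_or_lt_of_le (le_sup_right : K ≤ X ⊔ K) with h | h
  · left
    exact le_antisymm (le_inf (h ▸ le_sup_left) hX) hKX
  · right
    have htop : X ⊔ K = ⊤ := hK.2 _ h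
    refine le_antisymm hX fun n hn => ?_
    have hn' : n ∈ ((X ⊔ K : Subgroup H) : Set H) := by rw [htop]; trivial
    rw [Subgroup.coe_mul_of_right_le_normalizer_left X K hinv] at hn'
    obtain ⟨x, hx, k, hk, rfl⟩ := Set.mem_mul.1 hn'
    have hkN : k ∈ N := by simpa using N.mul_mem (N.inv_mem (hX hx)) hn
    exact X.mul_mem hx (hKX ⟨hk, hkN⟩)

end Cfsg.Agent.S0722
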