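import Cfsg.Statements.S0723

import Cfsg.Agent.PermB.DirectPower
import Cfsg.Agent.PermB.PiSimple
import Cfsg.Agent.Perm.Regular
import Cfsg.Agent.S0722

set_option autoImplicit false
open Cfsg

namespace Cfsg.Agent.S0723

/-- The core of the O'Nan–Scott Theorem. Let `H` be a primitive permutation group on a finite set whose unique minimal normal subgroup `N` is non-abelian, and `K` a point stabiliser. Then there are a non-abelian simple group `T` and an isomorphism `N ≃* T^m` (`m ≥ 1`) under which `K ⊓ N` becomes either a product `∏ K_i` of proper subgroups `K_i < T`, or the set of functions constant on each block of a partition of the index set into blocks of one common size `k ≥ 2`. -/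
theorem result {α : Type*} [Finite α] (H : Subgroup (Equiv.Perm α)) [MulAction.IsPreprimitive H α] (N : Subgroup H) [N.Normal] (hN : N ≠ ⊥) (hmin : ∀ M : Subgroup H, M.Normal → M ≤ N → M = ⊥ ∨ M = N) (huniq : ∀ L : Subgroup H, L.Normal → L ≠ ⊥ → (∀ M : Subgroup H, M.Normal → M ≤ L → M = ⊥ ∨ M = L) → L = N) (hnab : ¬ IsMulCommutative N) (a : α) : ∃ (T : Type) (_ : Group T) (m : ℕ) (e : N ≃* (Fin m → T)), IsSimpleGroup T ∧ ¬ IsMulCommutative T ∧ 0 < m ∧ ((∃ K : Fin m → Subgroup T, (∀ i, K i ≠ ⊤) ∧ ∀ n : N, (n : H) ∈ MulAction.stabilizer H a ↔ ∀ i, e n i ∈ K i) ∨ (∃ (k : ℕ) (c : Fin m → Fin m), 2 ≤ k ∧ (∀ j : Fin m, Nat.card {i : Fin m // c i = j} = k ∨ Nat.card {i : Fin m // c i = j} = 0) ∧ ∀ n : N, (n : H) ∈ MulAction.stabilizer H a ↔ ∀ i j : Fin m, c i = c j → e n i = e n j)) := by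
  classical
  obtain ⟨T, iT, iTf, m, hsimple, hm, ⟨e⟩⟩ := PermB.exists_mulEquiv_pi_simple N hN hmin
  haveI := hsimple
  have hTnab : ¬ IsMulCommutative T := by
    intro h
    apply hnab
    exact ⟨⟨fun x y => e.injective (by
      rw [map_mul, map_mul]; funext i; exact h.is_comm.comm _ _)⟩⟩
  haveI htrN : MulAction.IsPretransitive N α := PermLib.isPretransitive_of_normal_ne_bot hN
  set K := MulAction.stabilizer H a with hKdef
  let D : Subgroup (Fin m → T) := (K.subgroupOf N).map e.toMonoidHom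
  have hD : ∀ n : N, e n ∈ D ↔ (n : H) ∈ K := by
    intro n
    constructor
    · rintro ⟨x, hx, hxn⟩
      rw [← e.injective hxn]; exact hx
    · exact fun h => ⟨n, h, rfl⟩
  let c : H → ((Fin m → T) ≃* (Fin m → T)) := fun h =>
    (e.symm.trans (MulAut.conjNormal h)).trans e
  have hc : ∀ (h : H) (n : N), c h (e n) = e (MulAut.conjNormal h n) := fun h n => by
    simp [c]
  have hcmul : ∀ (g h : H) (f : Fin m → T), c (g * h) f = c g (c h f) := fun g h f => by
    simp [c, map_mul]
  choose π A hA1 hA using fun h : H => PermB.exists_factor_perm hTnab (c h)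
  obtain ⟨x₀, hx₀⟩ := exists_ne (1 : T)
  have hsingle : ∀ h i x, c h (Pi.mulSingle i x) = Pi.mulSingle (π h i) (A h i x) := by
    intro h i x
    funext j
    obtain ⟨l, rfl⟩ := (π h).surjective j
    rw [hA]
    by_cases hl : l = i
    · subst hl; simp
    · rw [Pi.mulSingle_eq_of_ne hl, Pi.mulSingle_eq_of_ne (fun e => hl ((π h).injective e)), hA1]
  have hAne : ∀ h i x, x ≠ 1 → A h i x ≠ 1 := by
    intro h i x hx e1
    have := hsingle h i x
    rw [e1, Pi.mulSingle_one] at this
    exact hx (by simpa using congrFun ((c h).injective (this.trans (map_one _).symm)) i)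
  have hπmul : ∀ g h i, π (g * h) i = π g (π h i) := by
    intro g h i
    have h1 := hsingle (g * h) i x₀
    rw [hcmul, hsingle, hsingle] at h1
    by_contra hne
    have := congrFun h1 (π (g * h) i)
    rw [Pi.mulSingle_eq_same, Pi.mulSingle_eq_of_ne hne] at this
    exact hAne (g * h) i x₀ hx₀ this.symm
  have hπN : ∀ n ∈ N, ∀ i, π n i = i := by
    intro n hn i
    have h0 : ∀ f : Fin m → T, c n f = e ⟨n, hn⟩ * f * (e ⟨n, hn⟩)⁻¹ := by
      intro f
      obtain ⟨x, rfl⟩ := e.surjective f
      rw [hc, ← map_mul, ← map_inv, ← map_mul]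
      congr 1
    have h1 := hsingle n i x₀
    rw [h0, PermB.mul_single_conj] at h1
    by_contra hne
    have := congrFun h1 (π n i)
    rw [Pi.mulSingle_eq_same, Pi.mulSingle_eq_of_ne hne] at this
    exact hAne n i x₀ hx₀ this.symm
  -- the stabiliser permutes the factors transitively
  have htrK : ∀ i j, ∃ k ∈ K, π k i = j := by
    intro i j
    suffices ∃ h, π h i = j by
      obtain ⟨h, hh⟩ := this
      obtain ⟨n, hn, k, hk, rfl⟩ := PermLib.exists_mem_mul_mem_stabilizer N a h
      exact ⟨k, hk, by rw [hπmul, hπN n hn] at hh; exact hh⟩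
    by_contra hne
    push Not at hne
    let O : Set (Fin m) := {l | ∃ h, π h i = l}
    let Y : Subgroup (Fin m → T) :=
      { carrier := {f | ∀ l, l ∉ O → f l = 1}
        one_mem' := fun _ _ => rfl
        mul_mem' := fun hf hg l hl => by simp [hf l hl, hg l hl]
        inv_mem' := fun hf l hl => by simp [hf l hl] }
    have hinv : ∀ g f, f ∈ Y → c g f ∈ Y := by
      intro g f hf l hl
      obtain ⟨l', rfl⟩ := (π g).surjective l
      rw [hA, hf l' ?_, hA1]
      rintro ⟨h, hh⟩
      exact hl ⟨g * h, by rw [hπmul, hh]⟩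
    let M : Subgroup H := (Y.comap e.toMonoidHom).map N.subtype
    have hMn : M.Normal := by
      refine ⟨?_⟩
      rintro _ ⟨x, hx, rfl⟩ g
      refine ⟨MulAut.conjNormal g x, ?_, by simp [MulAut.conjNormal_apply]⟩
      show e (MulAut.conjNormal g x) ∈ Y
      rw [← hc]; exact hinv g _ hx
    rcases hmin M hMn (Subgroup.map_subtype_le _) with h | h
    · have h1 : Pi.mulSingle i x₀ ∈ Y := by
        intro l hl
        refine Pi.mulSingle_eq_of_ne ?_ _
        rintro rfl
        exact hl ⟨1, by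
          have := hπN 1 N.one_mem l
          simpa using this⟩
      obtain ⟨x, hx⟩ := e.surjective (Pi.mulSingle i x₀)
      have : (x : H) ∈ M := ⟨x, show e x ∈ Y by rw [hx]; exact h1, rfl⟩
      rw [h, Subgroup.mem_bot] at this
      have hx1 : x = 1 := Subtype.ext this
      rw [hx1, map_one] at hx
      exact hx₀ (by simpa using (congrFun hx i).symm)
    · obtain ⟨x, hx⟩ := e.surjective (Pi.mulSingle j x₀)
      have : (x : H) ∈ M := h.symm ▸ x.2
      obtain ⟨y, hy, hyx⟩ := this
      rw [show y = x from Subtype.ext hyx] at hy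
      have hy' : e x j = 1 := hy j (fun ⟨h, hh⟩ => hne h hh)
      rw [hx, Pi.mulSingle_eq_same] at hy'
      exact hx₀ hy'
  -- `D` is invariant and maximal
  have hDinv : ∀ k ∈ K, ∀ f ∈ D, c k f ∈ D := by
    rintro k hk _ ⟨x, hx, rfl⟩
    have hx' : (x : H) ∈ K := hx
    show c k (e x) ∈ D
    rw [hc, hD, MulAut.conjNormal_apply]
    exact K.mul_mem (K.mul_mem hk hx') (K.inv_mem hk)
  have hDtop : D ≠ ⊤ := by
    intro h
    apply hN
    refine PermLib.eq_bot_of_forall_smul (α := α) fun n hn b => ?_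
    obtain ⟨g, hg⟩ := MulAction.exists_smul_eq N a b
    have h1 : ((g⁻¹ * ⟨n, hn⟩ * g : N) : H) ∈ K := (hD _).1 (h ▸ Subgroup.mem_top _)
    have h2 : ((g⁻¹ * ⟨n, hn⟩ * g : N) : H) • a = a := h1
    have hg' : (g : H) • a = b := hg
    rw [Subgroup.coe_mul, Subgroup.coe_mul, Subgroup.coe_inv, mul_smul, mul_smul, hg',
      inv_smul_eq_iff, hg'] at h2
    exact h2
  have hmax : ∀ Y : Subgroup (Fin m → T), D ≤ Y → (∀ k ∈ K, ∀ f ∈ Y, c k f ∈ Y) →
      Y ≠ ⊤ → Y = D := by
    intro Y hDY hY hYtop
    have hinvY : K ≤ Subgroup.normalizer (((Y.comap e.toMonoidHom).map N.subtype : Subgroup H) : Set H) := by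
      intro k hk
      rw [Subgroup.mem_normalizer_iff]
      have key : ∀ k ∈ K, ∀ x ∈ (Y.comap e.toMonoidHom).map N.subtype,
          k * x * k⁻¹ ∈ (Y.comap e.toMonoidHom).map N.subtype := by
        rintro k hk _ ⟨x, hx, rfl⟩
        refine ⟨MulAut.conjNormal k x, ?_, by simp [MulAut.conjNormal_apply]⟩
        show e (MulAut.conjNormal k x) ∈ Y
        rw [← hc]; exact hY k hk _ hx
      intro x
      refine ⟨key k hk x, fun h => ?_⟩
      have h2 := key k⁻¹ (K.inv_mem hk) _ h
      simpa [mul_assoc] using h2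
    rcases Cfsg.Agent.S0722.result H N hN hmin a ((Y.comap e.toMonoidHom).map N.subtype)
        (Subgroup.map_subtype_le _)
        (fun x hx => ⟨⟨x, hx.2⟩, hDY ((hD ⟨x, hx.2⟩).2 hx.1), rfl⟩) hinvY with h | h
    · refine le_antisymm (fun f hf => ?_) hDY
      obtain ⟨x, rfl⟩ := e.surjective f
      rw [hD]
      exact (h ▸ (⟨x, hf, rfl⟩ : (x : H) ∈ (Y.comap e.toMonoidHom).map N.subtype) :
        (x : H) ∈ K ⊓ N).1
    · exfalso
      apply hYtop
      rw [eq_top_iff]
      intro f _
      obtain ⟨x, rfl⟩ := e.surjective f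
      obtain ⟨y, hy, hyx⟩ := (h.symm ▸ x.2 : (x : H) ∈ (Y.comap e.toMonoidHom).map N.subtype)
      rw [← Subtype.ext (hyx : (y : H) = x)]
      exact hy
  by_cases hproj : ∃ i x, ∀ d ∈ D, d i ≠ x
  · obtain ⟨i₀, z, hz⟩ := hproj
    let P : Fin m → Subgroup T := fun i => D.map (Pi.evalMonoidHom (fun _ : Fin m => T) i)
    have hP : ∀ i, P i ≠ ⊤ := by
      intro i htop
      obtain ⟨k, hk, hki⟩ := htrK i i₀
      have hinj : Function.Injective (A k i) := fun u v huv => by
        apply Pi.mulSingle_injective (M := fun _ : Fin m => T) i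
        apply (c k).injective
        rw [hsingle, hsingle, huv]
      obtain ⟨u, hu⟩ := (Finite.injective_iff_surjective.1 hinj) z
      obtain ⟨d, hd, hdu⟩ := (htop ▸ Subgroup.mem_top u : u ∈ P i)
      refine hz (c k d) (hDinv k hk d hd) ?_
      have hdu' : d i = u := hdu
      rw [← hki, hA, hdu', hu]
    refine ⟨T, iT, m, e, hsimple, hTnab, hm, Or.inl ⟨P, hP, fun n => ?_⟩⟩
    let Y : Subgroup (Fin m → T) := ⨅ i, (P i).comap (Pi.evalMonoidHom (fun _ : Fin m => T) i)
    have hYmem : ∀ f, f ∈ Y ↔ ∀ i, f i ∈ P i := fun f => by simp [Y, Subgroup.mem_iInf]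
    have hYD : Y = D := by
      refine hmax Y (fun d hd => (hYmem d).2 fun i => ⟨d, hd, rfl⟩) ?_ ?_
      · intro k hk f hf
        rw [hYmem] at hf ⊢
        intro j
        obtain ⟨i, rfl⟩ := (π k).surjective j
        obtain ⟨d, hd, hdi⟩ := hf i
        have hdi' : d i = f i := hdi
        refine ⟨c k d, hDinv k hk d hd, ?_⟩
        show c k d (π k i) = c k f (π k i)
        rw [hA, hA, hdi']
      · intro htop
        refine hP i₀ (eq_top_iff.2 fun x _ => ?_)
        have := (hYmem (fun l => if l = i₀ then x else 1)).1 (htop ▸ Subgroup.mem_top _) i₀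
        simpa using this
    rw [← hD, ← hYD, hYmem]
  · push Not at hproj
    -- linked coordinates
    let r : Fin m → Fin m → Prop := fun i j => ∀ d ∈ D, d i = 1 → d j = 1
    have hpair : ∀ i j, ¬ r j i → ∀ x, ∃ d ∈ D, d j = 1 ∧ d i = x := by
      intro i j hji x
      let E : Subgroup T := (D ⊓ (Pi.evalMonoidHom (fun _ : Fin m => T) j).ker).map
        (Pi.evalMonoidHom (fun _ : Fin m => T) i)
      have hn : E.Normal := by
        refine ⟨?_⟩
        rintro _ ⟨d, ⟨hd, hdj⟩, rfl⟩ z
        obtain ⟨b, hb, hbz⟩ := hproj i z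
        have hdj' : d j = 1 := hdj
        refine ⟨b * d * b⁻¹, ⟨D.mul_mem (D.mul_mem hb hd) (D.inv_mem hb), ?_⟩, ?_⟩
        · show (b * d * b⁻¹) j = 1
          simp [hdj']
        · simp [hbz]
      rcases IsSimpleGroup.eq_bot_or_eq_top_of_normal E hn with h | h
      · exfalso
        apply hji
        intro d hd hdj
        have : d i ∈ E := ⟨d, ⟨hd, hdj⟩, rfl⟩
        rwa [h, Subgroup.mem_bot] at this
      · obtain ⟨d, ⟨hd, hdj⟩, hdx⟩ := (h ▸ Subgroup.mem_top x : x ∈ E)
        exact ⟨d, hd, hdj, hdx⟩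
    have hθ : ∀ i j, r i j → ∃ θ : T ≃* T, ∀ d ∈ D, d j = θ (d i) := by
      intro i j hij
      choose s hs hsx using hproj i
      have hwd : ∀ d ∈ D, d j = s (d i) j := by
        intro d hd
        have h1 := hij ((s (d i))⁻¹ * d) (D.mul_mem (D.inv_mem (hs _)) hd) (by simp [hsx])
        rw [Pi.mul_apply, Pi.inv_apply, inv_mul_eq_one] at h1
        exact h1.symm
      let θ : T →* T := MonoidHom.mk' (fun x => s x j) (fun x y => by
        have := hwd (s x * s y) (D.mul_mem (hs x) (hs y))
        rw [Pi.mul_apply, Pi.mul_apply, hsx, hsx] at this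
        exact this.symm)
      have hsurj : Function.Surjective θ := fun y => by
        obtain ⟨d, hd, hdy⟩ := hproj j y
        exact ⟨d i, (hwd d hd).symm.trans hdy⟩
      exact ⟨MulEquiv.ofBijective θ ⟨Finite.injective_iff_surjective.2 hsurj, hsurj⟩,
        fun d hd => hwd d hd⟩
    have hsymm : ∀ i j, r i j → r j i := by
      intro i j hij d hd hdj
      obtain ⟨θ, hθ'⟩ := hθ i j hij
      exact θ.injective (by rw [← hθ' d hd, hdj, map_one])
    let S : Setoid (Fin m) := ⟨r, fun i d _ h => h, fun {i j} h => hsymm i j h,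
      fun {i j l} h1 h2 d hd h => h2 d hd (h1 d hd h)⟩
    let cc : Fin m → Fin m := fun i => (Quotient.mk S i).out
    have hcc : ∀ i, r (cc i) i := fun i => Quotient.mk_out (s := S) i
    have hcc_eq : ∀ i j, cc i = cc j ↔ r i j := by
      intro i j
      refine ⟨fun h d hd hdi => ?_, fun h => ?_⟩
      · exact hcc j d hd (h ▸ hsymm _ _ (hcc i) d hd hdi)
      · show (Quotient.mk S i).out = (Quotient.mk S j).out
        rw [Quotient.sound (s := S) h]
    choose θ hθd using fun i => hθ (cc i) i (hcc i)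
    have hθ1 : ∀ i, cc i = i → ∀ x, θ i x = x := by
      intro i hi x
      obtain ⟨d, hd, rfl⟩ := hproj i x
      have := hθd i d hd
      rw [hi] at this
      exact this.symm
    have hccidem : ∀ i, cc (cc i) = cc i := fun i => (hcc_eq _ _).2 (hcc i)
    let Y : Subgroup (Fin m → T) :=
      { carrier := {f | ∀ i, f i = θ i (f (cc i))}
        one_mem' := fun i => (map_one (θ i)).symm
        mul_mem' := fun hf hg i => by simp only [Pi.mul_apply, map_mul, ← hf i, ← hg i]
        inv_mem' := fun hf i => by simp only [Pi.inv_apply, map_inv, ← hf i] }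
    have hDY : D ≤ Y := fun d hd i => hθd i d hd
    have hYloc : ∀ f ∈ Y, ∀ i, ∃ d ∈ D, ∀ j, r i j → d j = f j := by
      intro f hf i
      obtain ⟨d, hd, hdf⟩ := hproj (cc i) (f (cc i))
      refine ⟨d, hd, fun j hij => ?_⟩
      rw [hθd j d hd, hf j, ← (hcc_eq i j).2 hij, hdf]
    have hrπ : ∀ k ∈ K, ∀ i j, r (π k i) (π k j) → r i j := by
      intro k hk i j h d hd hdi
      have h1 := h (c k d) (hDinv k hk d hd) (by rw [hA, hdi, hA1])
      rw [hA] at h1
      by_contra hne
      exact hAne k j _ hne h1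
    have hYinv : ∀ k ∈ K, ∀ f ∈ Y, c k f ∈ Y := by
      intro k hk f hf j
      obtain ⟨i, rfl⟩ := (π k).surjective j
      obtain ⟨i', hi'⟩ := (π k).surjective (cc (π k i))
      have hr' : r i' i := hrπ k hk i' i (by rw [hi']; exact hcc _)
      obtain ⟨d, hd, hdf⟩ := hYloc f hf i'
      have h1 := hθd (π k i) (c k d) (hDinv k hk d hd)
      rw [← hi', hA, hA, hdf i hr', hdf i' (fun _ _ h => h)] at h1
      rw [← hi', hA, hA]
      exact h1
    have hYtop : Y ≠ ⊤ := by
      intro htop
      by_cases hlink : ∃ i j, i ≠ j ∧ r j i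
      · obtain ⟨i, j, hij, hji⟩ := hlink
        have hc' : cc j = cc i := (hcc_eq j i).2 hji
        obtain ⟨l, hl, hl'⟩ : ∃ l, cc l = cc i ∧ l ≠ cc i := by
          by_cases h : i = cc i
          · exact ⟨j, hc', fun e => hij (h.trans e.symm)⟩
          · exact ⟨i, rfl, h⟩
        have h1 := (htop ▸ Subgroup.mem_top _ : Pi.mulSingle l x₀ ∈ Y) l
        rw [Pi.mulSingle_eq_same, hl, Pi.mulSingle_eq_of_ne (Ne.symm hl'), map_one] at h1
        exact hx₀ h1
      · push Not at hlink
        exact hDtop (PermB.eq_top_of_pairwise hTnab D hproj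
          fun i j hij => hpair i j (hlink i j hij))
    have hYD : Y = D := hmax Y hDY hYinv hYtop
    let e' : N ≃* (Fin m → T) := e.trans (MulEquiv.piCongrRight fun i => (θ i).symm)
    have he' : ∀ n i, e' n i = (θ i).symm (e n i) := fun n i => rfl
    -- class sizes
    have hclass : ∀ i j, Nat.card {l // r i l} = Nat.card {l // r j l} := by
      intro i j
      obtain ⟨k, hk, hki⟩ := htrK i j
      refine Nat.card_congr (Equiv.subtypeEquiv (π k) fun l => ?_)
      rw [← hki]
      refine ⟨fun h d hd hdi => ?_, fun h => hrπ k hk i l h⟩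
      obtain ⟨d', hd', rfl⟩ : ∃ d' ∈ D, c k d' = d := by
        refine ⟨c k⁻¹ d, hDinv _ (K.inv_mem hk) d hd, ?_⟩
        rw [← hcmul, mul_inv_cancel]
        simp [c]
      rw [hA] at hdi ⊢
      have hd'i : d' i = 1 := by
        by_contra hne; exact hAne k i _ hne hdi
      rw [h d' hd' hd'i, hA1]
    let i₁ : Fin m := ⟨0, hm⟩
    refine ⟨T, iT, m, e', hsimple, hTnab, hm, Or.inr ⟨Nat.card {l // r i₁ l}, cc, ?_, ?_, ?_⟩⟩
    · by_contra hlt
      push Not at hlt
      apply hYtop
      rw [eq_top_iff]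
      intro f _ i
      have hci : cc i = i := by
        by_contra hne
        have h1 : (⟨i, fun _ _ h => h⟩ : {l // r i l}) ≠ ⟨cc i, hsymm _ _ (hcc i)⟩ := fun h =>
          hne (congrArg Subtype.val h).symm
        haveI : Nontrivial {l // r i l} := ⟨⟨_, _, h1⟩⟩
        have h2 := Finite.one_lt_card (α := {l // r i l})
        rw [hclass i i₁] at h2
        omega
      rw [hci, hθ1 i hci]
    · intro j
      by_cases hj : cc j = j
      · left
        rw [← hclass j i₁]
        refine Nat.card_congr (Equiv.subtypeEquivRight fun l => ?_)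
        rw [← hcc_eq, hj]
        exact eq_comm
      · right
        haveI : IsEmpty {l // cc l = j} := ⟨fun ⟨l, hl⟩ => hj (hl ▸ hccidem l)⟩
        exact Nat.card_of_isEmpty
    · intro n
      rw [← hD, ← hYD]
      constructor
      · intro h i j hij
        rw [he', he', h i, h j, MulEquiv.symm_apply_apply, MulEquiv.symm_apply_apply, hij]
      · intro h i
        have h1 := h i (cc i) (hccidem i).symm
        rw [he', he', MulEquiv.symm_apply_eq] at h1
        rw [h1]
        congr 1
        rw [MulEquiv.symm_apply_eq, hθ1 _ (hccidem i)]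

end Cfsg.Agent.S0723
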