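import Cfsg.Statements.S0724

import Mathlib.GroupTheory.GroupAction.Quotient
import Mathlib.Tactic.Ring
import Mathlib.Algebra.Group.Action.Pi
import Mathlib.Algebra.BigOperators.Ring.Finset

set_option autoImplicit false
open Cfsg

namespace Cfsg.Agent.S0724

/-- Blichfeldt's Theorem: if a finite set `L` of natural numbers contains the number of fixed points of every non-identity element of a permutation group `G` of degree `n`, then the order of `G` divides `∏ (n - l)` over `l ∈ L`. -/
theorem result {α : Type*} [Fintype α] [DecidableEq α] (G : Subgroup (Equiv.Perm α)) (L : Finset ℕ) (hL : ∀ g ∈ G, g ≠ 1 → Nat.card (MulAction.fixedBy α g) ∈ L) : Nat.card G ∣ ∏ l ∈ L, (Fintype.card α - l) := by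
  classical
  rcases exists_or_forall_not (fun l => l ∈ L ∧ Fintype.card α ≤ l) with ⟨l, hl, hle⟩ | hlt
  · rw [Finset.prod_eq_zero hl (Nat.sub_eq_zero_of_le hle)]
    exact dvd_zero _
  haveI : Fintype G := Fintype.ofFinite G
  let f : G → ℤ := fun g => (Nat.card (MulAction.fixedBy α g) : ℤ)
  have hkey : ∀ (M : Finset ℕ) (j : ℕ),
      (Nat.card G : ℤ) ∣ ∑ g : G, f g ^ j * ∏ l ∈ M, (f g - (l : ℤ)) := by
    intro M
    induction M using Finset.induction_on with
    | empty =>
      intro j
      have hb := MulAction.sum_card_fixedBy_eq_card_orbits_mul_card_group G (Fin j → α)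
      have he : ∀ g : G, Fintype.card (MulAction.fixedBy (Fin j → α) g)
          = Nat.card (MulAction.fixedBy α g) ^ j := by
        intro g
        rw [← Nat.card_eq_fintype_card, Nat.card_congr
          ({ toFun := fun x i => ⟨x.1 i, congrFun x.2 i⟩
             invFun := fun x => ⟨fun i => (x i).1, funext fun i => (x i).2⟩
             left_inv := fun x => rfl
             right_inv := fun x => rfl } :
            MulAction.fixedBy (Fin j → α) g ≃ (Fin j → MulAction.fixedBy α g)),
          Nat.card_fun, Nat.card_fin]
      simp only [he] at hb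
      have : Nat.card G ∣ ∑ g : G, Nat.card (MulAction.fixedBy α g) ^ j := by
        rw [hb, Nat.card_eq_fintype_card]; exact Dvd.intro_left _ rfl
      have := Int.natCast_dvd_natCast.2 this
      simpa [f] using this
    | @insert a s ha ih =>
      intro j
      have : ∑ g : G, f g ^ j * ∏ l ∈ insert a s, (f g - (l : ℤ))
          = ∑ g : G, f g ^ (j + 1) * ∏ l ∈ s, (f g - (l : ℤ))
            - (a : ℤ) * ∑ g : G, f g ^ j * ∏ l ∈ s, (f g - (l : ℤ)) := by
        rw [Finset.mul_sum, ← Finset.sum_sub_distrib]
        refine Finset.sum_congr rfl fun g _ => ?_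
        rw [Finset.prod_insert ha, pow_succ]; ring
      rw [this]
      exact dvd_sub (ih (j + 1)) ((ih j).mul_left _)
  have h0 := hkey L 0
  simp only [pow_zero, one_mul] at h0
  rw [Finset.sum_eq_single (1 : G)] at h0
  · have h1 : f 1 = (Fintype.card α : ℤ) := by
      simp [f]
    rw [h1] at h0
    have h2 : (∏ l ∈ L, ((Fintype.card α : ℤ) - (l : ℤ)))
        = ((∏ l ∈ L, (Fintype.card α - l) : ℕ) : ℤ) := by
      push_cast
      refine Finset.prod_congr rfl fun l hl => ?_
      have := hlt l
      simp only [hl, true_and, not_le] at this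
      omega
    rw [h2] at h0
    exact Int.natCast_dvd_natCast.1 h0
  · intro g _ hg
    refine Finset.prod_eq_zero (hL g g.2 (fun e => hg (Subtype.ext e))) ?_
    exact sub_self _
  · simp

end Cfsg.Agent.S0724
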