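import Cfsg.Statements.S0726

set_option autoImplicit false
open Cfsg

namespace Cfsg.Agent.S0726

/-- The left and right regular permutation representations of a group are each other's centralisers in the symmetric group: the centraliser of the left regular image is the right regular image, and a transitive subgroup centralising the left regular image is the whole right regular image. -/
theorem result {G : Type*} [Group G] : Subgroup.centralizer ((MulAction.toPermHom G G).range : Set (Equiv.Perm G)) = (MulAction.toPermHom Gᵐᵒᵖ G).range ∧ ∀ H : Subgroup (Equiv.Perm G), H ≤ Subgroup.centralizer ((MulAction.toPermHom G G).range : Set (Equiv.Perm G)) → MulAction.IsPretransitive H G → H = (MulAction.toPermHom Gᵐᵒᵖ G).range := by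
  have hC : ∀ σ ∈ Subgroup.centralizer ((MulAction.toPermHom G G).range : Set (Equiv.Perm G)),
      ∀ x : G, σ x = x * σ 1 := by
    intro σ hσ x
    have h := Subgroup.mem_centralizer_iff.1 hσ (MulAction.toPermHom G G x) ⟨x, rfl⟩
    have := congrArg (fun τ : Equiv.Perm G => τ 1) h
    simpa using this.symm
  refine ⟨le_antisymm ?_ ?_, ?_⟩
  · intro σ hσ
    exact ⟨MulOpposite.op (σ 1), Equiv.ext fun x => by simp [hC σ hσ x]⟩
  · rintro _ ⟨a, rfl⟩
    rw [Subgroup.mem_centralizer_iff]
    rintro _ ⟨g, rfl⟩
    refine Equiv.ext fun x => ?_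
    simp [mul_assoc]
  · intro H hH htr
    refine le_antisymm (fun σ hσ => ?_) ?_
    · exact ⟨MulOpposite.op (σ 1), Equiv.ext fun x => by simp [hC σ (hH hσ) x]⟩
    · rintro _ ⟨a, rfl⟩
      obtain ⟨h, hh⟩ := htr.exists_smul_eq (1 : G) a.unop
      have : (h : Equiv.Perm G) 1 = a.unop := hh
      convert h.2 using 1
      refine Equiv.ext fun x => ?_
      rw [hC h (hH h.2) x, this]
      simp

end Cfsg.Agent.S0726
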