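import Cfsg.Statements.S0728

import Cfsg.Agent.PermB.Sharp3Odd

set_option autoImplicit false
open Cfsg

namespace Cfsg.Agent.S0728

/-- In a sharply triply transitive group of even degree at least 6 (degree `q + 1`, `q` odd), a two-point stabiliser has at most one subgroup of order 3. -/
theorem result {α : Type*} [Fintype α] [DecidableEq α] (heven : Even (Fintype.card α)) (h6 : 6 ≤ Fintype.card α) (G : Subgroup (Equiv.Perm α)) (h3 : MulAction.IsMultiplyPretransitive G α 3) (hsharp : ∀ x : Fin 3 ↪ α, MulAction.stabilizer G x = ⊥) {a b : α} (hab : a ≠ b) (A B : Subgroup G) (hA : A ≤ MulAction.stabilizer G a ⊓ MulAction.stabilizer G b) (hB : B ≤ MulAction.stabilizer G a ⊓ MulAction.stabilizer G b) (hA3 : Nat.card A = 3) (hB3 : Nat.card B = 3) : A = B := by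
  classical
  have hcard : 3 ≤ Nat.card α := by rw [Nat.card_eq_fintype_card]; omega
  have hz := PermB.ZData.of_sharp3 hcard h3 hsharp
  have hev : Even (Nat.card α) := by rwa [Nat.card_eq_fintype_card]
  haveI : Fact (Nat.Prime 3) := ⟨Nat.prime_three⟩
  have hgen : ∀ (C : Subgroup G), Nat.card C = 3 → ∀ x ∈ C, x ≠ 1 →
      orderOf x = 3 ∧ Subgroup.zpowers x = C := by
    intro C hC x hx hx1
    have ho : orderOf x = 3 := by
      have hdvd : orderOf x ∣ 3 := by
        rw [← hC, ← Subgroup.orderOf_mk x hx]; exact orderOf_dvd_natCard _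
      rcases (Nat.dvd_prime Nat.prime_three).1 hdvd with h | h
      · exact absurd (orderOf_eq_one_iff.1 h) hx1
      · exact h
    exact ⟨ho, Subgroup.eq_of_le_of_card_ge (Subgroup.zpowers_le.2 hx)
      (le_of_eq (by rw [Nat.card_zpowers, ho, hC]))⟩
  obtain ⟨x, hx, hx1⟩ := (Subgroup.bot_or_exists_ne_one A).resolve_left (fun h => by rw [h, Subgroup.card_bot] at hA3; omega)
  obtain ⟨y, hy, hy1⟩ := (Subgroup.bot_or_exists_ne_one B).resolve_left (fun h => by rw [h, Subgroup.card_bot] at hB3; omega)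
  obtain ⟨hxo, hxA⟩ := hgen A hA3 x hx hx1
  obtain ⟨hyo, hyB⟩ := hgen B hB3 y hy hy1
  have hmem := hz.mem_zpowers_of_order_three hcard hev h3 hab (hA hx) (hB hy) hxo hyo
  rw [hxA] at hmem
  exact ((hgen A hA3 y hmem hy1).2).symm.trans hyB

end Cfsg.Agent.S0728
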