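import Cfsg.Statements.S0729

import Cfsg.Agent.PermB.Sharp3Index

set_option autoImplicit false
open Cfsg

namespace Cfsg.Agent.S0729

/-- In a sharply triply transitive group of even degree at least 6, the two-point stabiliser `H = G_{a,b}` has a normal subgroup of index 2 that is normalised by the element `s` interchanging `a, b` and fixing a third point `c`. -/
theorem result {α : Type*} [Fintype α] [DecidableEq α] (heven : Even (Fintype.card α)) (h6 : 6 ≤ Fintype.card α) (G : Subgroup (Equiv.Perm α)) (h3 : MulAction.IsMultiplyPretransitive G α 3) (hsharp : ∀ x : Fin 3 ↪ α, MulAction.stabilizer G x = ⊥) {a b c : α} (hab : a ≠ b) (hac : a ≠ c) (hbc : b ≠ c) (s : G) (hsa : s • a = b) (hsb : s • b = a) (hsc : s • c = c) : ∃ N : Subgroup G, N ≤ MulAction.stabilizer G a ⊓ MulAction.stabilizer G b ∧ (N.subgroupOf (MulAction.stabilizer G a ⊓ MulAction.stabilizer G b)).Normal ∧ N.relIndex (MulAction.stabilizer G a ⊓ MulAction.stabilizer G b) = 2 ∧ ∀ n ∈ N, s * n * s⁻¹ ∈ N := by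
  classical
  have hcard : 3 ≤ Nat.card α := by rw [Nat.card_eq_fintype_card]; omega
  have hz := PermB.ZData.of_sharp3 hcard h3 hsharp
  have hev : Even (Nat.card α) := by rwa [Nat.card_eq_fintype_card]
  have hss : s * s = 1 := hz.three _ hab hbc hac (PermB.ZData.sq_mem_H2 hsa hsb).1
    (PermB.ZData.sq_mem_H2 hsa hsb).2 (by rw [mul_smul, hsc, hsc])
  let X := PermB.ZData.H2 (G := G) a b
  let σ : X ≃* X :=
    { toFun := fun h => ⟨s * h * s⁻¹, PermB.ZData.swap_conj_mem hsa hsb h.2⟩
      invFun := fun h => ⟨s * h * s⁻¹, PermB.ZData.swap_conj_mem hsa hsb h.2⟩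
      left_inv := fun h => Subtype.ext (by
        show s * (s * h * s⁻¹) * s⁻¹ = h
        rw [inv_eq_of_mul_eq_one_right hss]
        calc s * (s * h * s) * s = (s * s) * h * (s * s) := by group
          _ = h := by rw [hss, one_mul, mul_one])
      right_inv := fun h => Subtype.ext (by
        show s * (s * h * s⁻¹) * s⁻¹ = h
        rw [inv_eq_of_mul_eq_one_right hss]
        calc s * (s * h * s) * s = (s * s) * h * (s * s) := by group
          _ = h := by rw [hss, one_mul, mul_one])
      map_mul' := fun g h => Subtype.ext (by simp [mul_assoc]) }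
  obtain ⟨L, hL, hLinv⟩ := PermB.IndexTwo.exists_invariant_index_two σ
    (fun h => σ.left_inv h) (hz.exists_index_two_H2 hcard hev h3 hab)
  have hLn := Subgroup.normal_of_index_eq_two hL
  have hsub : (L.map X.subtype).subgroupOf X = L :=
    Subgroup.comap_map_eq_self_of_injective X.subtype_injective L
  refine ⟨L.map X.subtype, Subgroup.map_subtype_le L, ?_, ?_, ?_⟩
  · show ((L.map X.subtype).subgroupOf X).Normal
    rw [hsub]
    exact hLn
  · show ((L.map X.subtype).subgroupOf X).index = 2
    rw [hsub]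
    exact hL
  · rintro _ ⟨n, hn, rfl⟩
    exact ⟨σ n, hLinv n hn, rfl⟩

end Cfsg.Agent.S0729
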