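import Cfsg.Statements.S0733

import Mathlib.Algebra.Module.ZMod
import Mathlib.GroupTheory.GroupAction.Primitive
import Mathlib.Tactic.Abel
import Mathlib.Data.ZMod.Basic

set_option autoImplicit false
open Cfsg
open scoped Pointwise

namespace Cfsg.Agent.S0733

/-- A permutation group of affine type — generated by the translations of a finite vector space `V` over `ZMod p` together with a group `G₀` of linear automorphisms — is primitive on `V` if and only if `G₀` is irreducible on `V`. -/
theorem result {p : ℕ} [Fact p.Prime] {V : Type*} [AddCommGroup V] [Module (ZMod p) V] [Finite V] [Nontrivial V] (G₀ : Subgroup (V ≃ₗ[ZMod p] V)) (G : Subgroup (Equiv.Perm V)) (hG : ∀ σ : Equiv.Perm V, σ ∈ G ↔ ∃ g ∈ G₀, ∃ b : V, ∀ x : V, σ x = (g : V ≃ₗ[ZMod p] V) x + b) : MulAction.IsPreprimitive G V ↔ ∀ W : Submodule (ZMod p) V, (∀ g ∈ G₀, ∀ v ∈ W, (g : V ≃ₗ[ZMod p] V) v ∈ W) → W = ⊥ ∨ W = ⊤ := by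
  classical
  have hmem : ∀ (g : V ≃ₗ[ZMod p] V), g ∈ G₀ → ∀ b : V,
      (g.toEquiv.trans (Equiv.addRight b) : Equiv.Perm V) ∈ G :=
    fun g hg b => (hG _).2 ⟨g, hg, b, fun x => rfl⟩
  haveI htr : MulAction.IsPretransitive G V := by
    refine ⟨fun a b => ⟨⟨_, hmem 1 (one_mem _) (b - a)⟩, ?_⟩⟩
    show (1 : V ≃ₗ[ZMod p] V) a + (b - a) = b
    simp
  constructor
  · intro hp W hW
    have hblock : MulAction.IsBlock G (W : Set V) := by
      rw [MulAction.isBlock_iff_smul_eq_of_nonempty]
      intro σ hne
      obtain ⟨g, hg, b, hσ⟩ := (hG σ).1 σ.2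
      have hσ' : ∀ x : V, σ • x = g x + b := hσ
      obtain ⟨y, ⟨x, hx, hxy⟩, hy⟩ := hne
      have hb : b ∈ W := by
        have e : b = y - g x := by rw [← hxy]; show b = σ • x - g x; rw [hσ' x]; abel
        rw [e]; exact W.sub_mem hy (hW g hg x hx)
      ext z
      constructor
      · rintro ⟨w, hw, rfl⟩
        show σ • w ∈ W
        rw [hσ']; exact W.add_mem (hW g hg w hw) hb
      · intro hz
        refine ⟨g.symm (z - b), ?_, ?_⟩
        · have := hW g⁻¹ (inv_mem hg) (z - b) (W.sub_mem hz hb)
          exact this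
        · show σ • g.symm (z - b) = z
          rw [hσ']; simp
    rcases hp.isTrivialBlock_of_isBlock hblock with h | h
    · left
      rw [Submodule.eq_bot_iff]
      exact fun x hx => h hx W.zero_mem
    · right
      exact SetLike.coe_injective h
  · intro hirr
    refine MulAction.IsPreprimitive.of_isTrivialBlock_base (0 : V) fun {B} h0 hB => ?_
    have hadd : ∀ b ∈ B, ∀ x ∈ B, x + b ∈ B := by
      intro b hb x hx
      let τ : G := ⟨_, hmem 1 (one_mem _) b⟩
      have hτ : ∀ y : V, τ • y = y + b := fun y => rfl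
      have : τ • B = B := hB.smul_eq_of_mem h0 (by rw [hτ, zero_add]; exact hb)
      have h1 : τ • x ∈ τ • B := Set.smul_mem_smul_set hx
      rw [this, hτ] at h1
      exact h1
    have hlin : ∀ g ∈ G₀, ∀ x ∈ B, (g : V ≃ₗ[ZMod p] V) x ∈ B := by
      intro g hg x hx
      let τ : G := ⟨_, hmem g hg 0⟩
      have hτ : ∀ y : V, τ • y = g y + 0 := fun y => rfl
      have : τ • B = B := hB.smul_eq_of_mem h0 (by rw [hτ, map_zero, zero_add]; exact h0)
      have h1 : τ • x ∈ τ • B := Set.smul_mem_smul_set hx
      rw [this, hτ, add_zero] at h1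
      exact h1
    have hnsmul : ∀ (n : ℕ), ∀ x ∈ B, n • x ∈ B := by
      intro n x hx
      induction n with
      | zero => rw [zero_smul]; exact h0
      | succ n ih => rw [succ_nsmul]; exact hadd x hx _ ih
    haveI : NeZero p := ⟨(Fact.out : p.Prime).ne_zero⟩
    let W : Submodule (ZMod p) V :=
      { carrier := B
        add_mem' := fun {a b} ha hb => hadd b hb a ha
        zero_mem' := h0
        smul_mem' := fun c x hx => by
          rw [← ZMod.natCast_zmod_val c, Nat.cast_smul_eq_nsmul]
          exact hnsmul _ x hx }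
    rcases hirr W hlin with h | h
    · left
      intro x hx y hy
      have hx' : x ∈ W := hx
      have hy' : y ∈ W := hy
      rw [h, Submodule.mem_bot] at hx' hy'
      rw [hx', hy']
    · right
      refine Set.eq_univ_of_forall fun x => ?_
      show x ∈ W
      rw [h]; trivial

end Cfsg.Agent.S0733
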