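import Cfsg.Statements.S0734

import Mathlib.GroupTheory.GroupAction.Primitive
import Mathlib.Combinatorics.SimpleGraph.Connectivity.Connected

set_option autoImplicit false
open Cfsg
open scoped Pointwise

namespace Cfsg.Agent.S0734

/-- Higman's criterion for primitivity: a transitive action on a finite set is primitive if and only if every non-trivial orbital graph (edges = images of a fixed pair of distinct points) is connected. -/
theorem result {G : Type*} [Group G] {Ω : Type*} [Finite Ω] [MulAction G Ω] [MulAction.IsPretransitive G Ω] [Nontrivial Ω] : MulAction.IsPreprimitive G Ω ↔ ∀ a b : Ω, a ≠ b → (SimpleGraph.fromRel fun x y : Ω => ∃ g : G, g • a = x ∧ g • b = y).Connected := by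
  classical
  constructor
  · intro hp a b hab
    set Γ := SimpleGraph.fromRel fun x y : Ω => ∃ g : G, g • a = x ∧ g • b = y with hΓ
    have hadj : ∀ (h : G) {x y : Ω}, Γ.Adj x y → Γ.Adj (h • x) (h • y) := by
      intro h x y hxy
      rw [hΓ, SimpleGraph.fromRel_adj] at hxy ⊢
      refine ⟨fun e => hxy.1 (MulAction.injective h e), ?_⟩
      rcases hxy.2 with ⟨g, h1, h2⟩ | ⟨g, h1, h2⟩
      · exact Or.inl ⟨h * g, by rw [mul_smul, h1], by rw [mul_smul, h2]⟩
      · exact Or.inr ⟨h * g, by rw [mul_smul, h1], by rw [mul_smul, h2]⟩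
    have hreach : ∀ (h : G) {x y : Ω}, Γ.Reachable x y → Γ.Reachable (h • x) (h • y) := by
      intro h x y hxy
      exact hxy.map ⟨fun z => h • z, fun {u v} huv => hadj h huv⟩
    let B : Set Ω := {x | Γ.Reachable a x}
    have hB : MulAction.IsBlock G B := by
      rw [MulAction.isBlock_iff_smul_eq_of_nonempty]
      intro g hne
      obtain ⟨z, ⟨w, hw, rfl⟩, hz⟩ := hne
      have hz' : Γ.Reachable a (g • w) := hz
      have hga : Γ.Reachable a (g • a) := hz'.trans (hreach g hw).symm
      ext u
      constructor
      · rintro ⟨v, hv, rfl⟩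
        exact hga.trans (hreach g hv)
      · intro hu
        refine ⟨g⁻¹ • u, ?_, smul_inv_smul g u⟩
        have h1 : Γ.Reachable a u := hu
        have := hreach g⁻¹ (hga.symm.trans h1)
        rwa [inv_smul_smul] at this
    have hab' : Γ.Reachable a b := by
      refine SimpleGraph.Adj.reachable ?_
      rw [hΓ, SimpleGraph.fromRel_adj]
      exact ⟨hab, Or.inl ⟨1, one_smul _ _, one_smul _ _⟩⟩
    rcases hp.isTrivialBlock_of_isBlock hB with h | h
    · exact absurd (h (SimpleGraph.Reachable.refl a) hab') hab
    · refine ⟨fun x y => ?_⟩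
      have hx : x ∈ B := h ▸ Set.mem_univ x
      have hy : y ∈ B := h ▸ Set.mem_univ y
      exact SimpleGraph.Reachable.trans (SimpleGraph.Reachable.symm hx) hy
  · intro hconn
    refine MulAction.IsPreprimitive.mk fun {B} hB => ?_
    rcases B.subsingleton_or_nontrivial with h | ⟨a, ha, b, hb, hab⟩
    · exact Or.inl h
    · right
      refine Set.eq_univ_of_forall fun x => ?_
      obtain ⟨w⟩ := (hconn a b hab).preconnected a x
      have key : ∀ {u v : Ω}, (SimpleGraph.fromRel
          fun x y : Ω => ∃ g : G, g • a = x ∧ g • b = y).Walk u v → u ∈ B → v ∈ B := by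
        intro u v w
        induction w with
        | nil => exact id
        | @cons u v z hadj _ ih =>
          intro hu
          refine ih ?_
          rw [SimpleGraph.fromRel_adj] at hadj
          rcases hadj.2 with ⟨g, h1, h2⟩ | ⟨g, h1, h2⟩
          · have : g • B = B := hB.smul_eq_of_mem ha (h1 ▸ hu)
            rw [← this, ← h2]; exact Set.smul_mem_smul_set hb
          · have : g • B = B := hB.smul_eq_of_mem hb (h2 ▸ hu)
            rw [← this, ← h1]; exact Set.smul_mem_smul_set ha
      exact key w ha

end Cfsg.Agent.S0734
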