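import Cfsg.Statements.S0739

import Cfsg.Agent.PermB.ZassOdd
import Cfsg.Agent.PermB.ZassPrelude

set_option autoImplicit false
open Cfsg

namespace Cfsg.Agent.S0739

/-- In a finite Zassenhaus group whose two-point stabiliser `H = G_{a,b}` has odd order `d`, and which has no normal `q`-complement for any prime `q ∣ d`, `H` is cyclic, `C_G(H) = H`, and every element swapping `a` and `b` inverts each element of `H`. -/
theorem result {G Ω : Type*} [Group G] [Finite G] [MulAction G Ω] [Fintype Ω] (hZ : Cfsg.IsZassenhausGroup G Ω) {a b : Ω} (hab : a ≠ b) (hodd : Odd (Nat.card ↥(MulAction.stabilizer G a ⊓ MulAction.stabilizer G b))) (hnil : ∀ q : ℕ, q.Prime → q ∣ Nat.card ↥(MulAction.stabilizer G a ⊓ MulAction.stabilizer G b) → ¬ ∃ N : Subgroup G, N.Normal ∧ N.index = q ^ (Nat.card G).factorization q) : IsCyclic ↥(MulAction.stabilizer G a ⊓ MulAction.stabilizer G b) ∧ Subgroup.centralizer ((MulAction.stabilizer G a ⊓ MulAction.stabilizer G b : Subgroup G) : Set G) = MulAction.stabilizer G a ⊓ MulAction.stabilizer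 G b ∧ ∀ s : G, s • a = b → s • b = a → ∀ h ∈ MulAction.stabilizer G a ⊓ MulAction.stabilizer G b, s * h * s⁻¹ = h⁻¹ := by
  classical
  have hz := PermB.zData_of_isZassenhausGroup hZ
  have hcard := PermB.three_le_card_of_isZassenhausGroup hZ
  obtain ⟨hcyc, hinv⟩ := hz.odd_H2_cyclic hcard hab hodd fun q hq hqd ⟨P, N, hNn, hNP⟩ => by
    haveI := Fact.mk hq
    exact hnil q hq hqd ⟨N, hNn, by rw [hNP.symm.index_eq_card, P.card_eq_multiplicity]⟩
  refine ⟨hcyc, le_antisymm (fun g hg => ?_) ?_, hinv⟩
  · obtain ⟨g₀, hg₀, a', b', hab', hga', hgb'⟩ := hZ.2.2.2.1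
    have hH : (MulAction.stabilizer G a ⊓ MulAction.stabilizer G b : Subgroup G) ≠ ⊥ := by
      intro e
      have h1 : Nat.card ↥(MulAction.stabilizer G a' ⊓ MulAction.stabilizer G b') = 1 :=
        (hz.card_H2_eq hab hab').trans (Subgroup.card_eq_one.2 e)
      rw [Subgroup.card_eq_one] at h1
      exact hg₀ (by
        have : g₀ ∈ MulAction.stabilizer G a' ⊓ MulAction.stabilizer G b' := ⟨hga', hgb'⟩
        rwa [h1, Subgroup.mem_bot] at this)
    obtain ⟨z, hzH, hz1⟩ := (Subgroup.bot_or_exists_ne_one _).resolve_left hH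
    have hgz : z * g = g * z := Subgroup.mem_centralizer_iff.1 hg z hzH
    have hfix : ∀ y : Ω, z • y = y → y = a ∨ y = b := by
      intro y hy
      by_contra hne
      push Not at hne
      exact hz1 (hz.three z hab hne.2.symm hne.1.symm hzH.1 hzH.2 hy)
    have hperm : ∀ y : Ω, z • y = y → z • g • y = g • y := fun y hy => by
      rw [← mul_smul, hgz, mul_smul, hy]
    rcases hfix _ (hperm a hzH.1) with ha | ha <;> rcases hfix _ (hperm b hzH.2) with hb | hb
    · exact absurd (MulAction.injective g (ha.trans hb.symm)) hab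
    · exact ⟨ha, hb⟩
    · exfalso
      have h1 := hinv g ha hb z hzH
      rw [← hgz, mul_inv_cancel_right] at h1
      refine hz1 (orderOf_eq_one_iff.1 (Nat.eq_one_of_dvd_coprimes (Nat.coprime_two_left.2 hodd)
        (orderOf_dvd_of_pow_eq_one ?_) ?_))
      · rw [pow_two]
        nth_rw 1 [h1]
        exact inv_mul_cancel z
      · rw [← Subgroup.orderOf_mk z hzH]
        exact orderOf_dvd_natCard _
    · exact absurd (MulAction.injective g (ha.trans hb.symm)) hab
  · intro g hg
    rw [Subgroup.mem_centralizer_iff]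
    intro h hh
    haveI := hcyc
    have e := PermB.isMulCommutative_of_inverted (hinv _
      (hz.exists_involution_swap hab).choose_spec.2.1 (hz.exists_involution_swap hab).choose_spec.2.2)
    exact congrArg Subtype.val (e.is_comm.comm ⟨h, hh⟩ ⟨g, hg⟩)

end Cfsg.Agent.S0739
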