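import Cfsg.Statements.S0740

import Cfsg.Agent.PermB.ZassPrelude

set_option autoImplicit false
open Cfsg

namespace Cfsg.Agent.S0740

/-- In a finite Zassenhaus group any two points `a ≠ b` are swapped by an involution; every such involution has exactly one fixed point when the degree is odd and 0 or 2 fixed points when the degree is even; and if the two-point stabiliser has even order, some such involution has exactly 2 fixed points. -/
theorem result {G Ω : Type*} [Group G] [Finite G] [MulAction G Ω] [Fintype Ω] (hZ : Cfsg.IsZassenhausGroup G Ω) {a b : Ω} (hab : a ≠ b) : (∃ s : G, orderOf s = 2 ∧ s • a = b ∧ s • b = a) ∧ (∀ s : G, orderOf s = 2 → s • a = b → s • b = a → (Odd (Fintype.card Ω) → Nat.card (MulAction.fixedBy Ω s) = 1) ∧ (Even (Fintype.card Ω) → Nat.card (MulAction.fixedBy Ω s) = 0 ∨ Nat.card (MulAction.fixedBy Ω s) = 2)) ∧ (Even (Fintype.card Ω) → Even (Nat.card ↥(MulAction.stabilizer G a ⊓ MulAction.stabilizer G b)) → ∃ s : G, orderOf s = 2 ∧ s • a = b ∧ s • b = a ∧ Nat.card (MulAction.fixedBy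 Ω s) = 2) := by
  classical
  have hz := PermB.zData_of_isZassenhausGroup hZ
  have h3 := PermB.three_le_card_of_isZassenhausGroup hZ
  refine ⟨hz.exists_involution_swap hab, fun s hs _ _ => ?_, fun hev hd => ?_⟩
  · have hss : s * s = 1 := by rw [← pow_two, ← hs, pow_orderOf_eq_one]
    have hs1 : s ≠ 1 := fun e => by rw [e, orderOf_one] at hs; omega
    obtain ⟨h2, hpar⟩ := hz.card_fixedBy_involution hss hs1
    rw [Nat.card_eq_fintype_card (α := Ω)] at hpar
    refine ⟨fun ho => ?_, fun he => ?_⟩
    · rw [Nat.odd_iff] at ho; omega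
    · rw [Nat.even_iff] at he; omega
  · have hcount := hz.two_mul_card_swappers hab h3 hd
    have hev' := hz.even_card_of_even hab hd
    rw [Nat.even_iff] at hev'
    have hne : {t : G | t * t = 1 ∧ t ≠ 1 ∧ (∃ x : Ω, t • x = x) ∧ t • a = b}.Nonempty :=
      Set.nonempty_of_ncard_ne_zero (by omega)
    obtain ⟨t, htt, ht1, ⟨x, hx⟩, hta⟩ := hne
    refine ⟨t, ?_, hta, by rw [← hta, ← mul_smul, htt, one_smul], ?_⟩
    · exact orderOf_eq_prime (by rw [pow_two, htt]) ht1
    · obtain ⟨h2, hpar⟩ := hz.card_fixedBy_involution htt ht1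
      haveI : Nonempty (MulAction.fixedBy Ω t) := ⟨⟨x, hx⟩⟩
      have hpos : 0 < Nat.card (MulAction.fixedBy Ω t) := Nat.card_pos
      omega

end Cfsg.Agent.S0740
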