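import Cfsg.Statements.S0754
-- import your own Cfsg.Agent.* helpers here

set_option autoImplicit false
open Cfsg

namespace Cfsg.Agent.S0754

/-- In a field F with q^2 elements, every non-zero μ with μ^q = μ (that is, μ in the subfield of order q) has exactly q + 1 solutions λ of λ^(q+1) = μ. -/
theorem result {F : Type*} [Field F] [Fintype F] {q : ℕ} (hF : Fintype.card F = q ^ 2) (μ : F) (hμ : μ ≠ 0) (hμq : μ ^ q = μ) : Nat.card {x : F // x ^ (q + 1) = μ} = q + 1 := by
  classical
  have hq : 1 ≤ q := by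
    have := Fintype.card_pos (α := F)
    rcases Nat.eq_zero_or_pos q with h | h
    · simp [h] at hF
    · exact h
  have hN : Nat.card Fˣ = (q - 1) * (q + 1) := by
    rw [Nat.card_units, Nat.card_eq_fintype_card, hF, mul_comm, ← Nat.sq_sub_sq, one_pow]
  let f : Fˣ →* Fˣ := powMonoidHom (q + 1)
  let g : Fˣ →* Fˣ := powMonoidHom (q - 1)
  have hle : f.range ≤ g.ker := by
    rintro _ ⟨x, rfl⟩
    rw [MonoidHom.mem_ker]
    simp only [f, g, powMonoidHom_apply, ← pow_mul, mul_comm (q + 1), ← hN]
    exact pow_card_eq_one'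
  have hker : Nat.card f.ker = q + 1 := by
    rw [IsCyclic.card_powMonoidHom_ker, hN, Nat.gcd_mul_left_left]
  have hq2 : 0 < q - 1 := by
    have : 0 < Nat.card Fˣ := Nat.card_pos
    rw [hN] at this
    exact pos_of_mul_pos_left this (Nat.zero_le _)
  have heq : f.range = g.ker := by
    refine Subgroup.eq_of_le_of_card_ge hle ?_
    rw [IsCyclic.card_powMonoidHom_ker, IsCyclic.card_powMonoidHom_range, hN,
      Nat.gcd_mul_left_left, Nat.gcd_mul_right_left, Nat.mul_div_cancel _ (by omega)]
  have hmem : Units.mk0 μ hμ ∈ f.range := by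
    rw [heq, MonoidHom.mem_ker]
    refine Units.ext ?_
    simp only [g, powMonoidHom_apply, Units.val_pow_eq_pow_val, Units.val_mk0, Units.val_one]
    refine mul_right_cancel₀ hμ ?_
    rw [← pow_succ, Nat.sub_add_cancel hq, hμq, one_mul]
  obtain ⟨x0, hx0⟩ := hmem
  have hx0' : (x0 : F) ^ (q + 1) = μ := congrArg Units.val hx0
  refine Eq.trans (Nat.card_congr ?_).symm hker
  exact
    { toFun := fun k => ⟨((k : Fˣ) : F) * x0, by
        have hk : ((k : Fˣ) : F) ^ (q + 1) = 1 := congrArg Units.val k.2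
        rw [mul_pow, hk, one_mul, hx0']⟩
      invFun := fun x => ⟨Units.mk0 ((x : F) / x0) (div_ne_zero (fun h => hμ (by
          rw [← x.2, h, zero_pow (Nat.succ_ne_zero q)])) x0.ne_zero), Units.ext (by
        simp [f, div_pow, x.2, hx0', hμ])⟩
      left_inv := fun k => Subtype.ext (Units.ext (by simp))
      right_inv := fun x => Subtype.ext (by simp) }

end Cfsg.Agent.S0754
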