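import Cfsg.Statements.S0757
-- import your own Cfsg.Agent.* helpers here

set_option autoImplicit false
open Cfsg

namespace Cfsg.Agent.S0757

/-- The two diagonal forms Σ x_i^2 and Σ_(i<n) x_i^2 + α x_n^2 on F^(n+1), with α a non-square and 2 ≠ 0 in F, are inequivalent quadratic forms (so over a finite field of odd order there are exactly two classes of non-singular symmetric bilinear forms in each dimension). -/
theorem result {F : Type*} [Field F] (h2 : (2 : F) ≠ 0) (n : ℕ) (α : F) (hα : ¬ IsSquare α) : ¬ (QuadraticMap.weightedSumSquares F (fun _ : Fin (n + 1) => (1 : F))).Equivalent (QuadraticMap.weightedSumSquares F (fun i : Fin (n + 1) => if i = Fin.last n then α else (1 : F))) := by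
  rintro ⟨e⟩
  have he : ∀ x, QuadraticMap.weightedSumSquares F (fun i : Fin (n + 1) => if i = Fin.last n then α else (1 : F)) (e.toLinearEquiv x) = QuadraticMap.weightedSumSquares F (fun _ : Fin (n + 1) => (1 : F)) x := e.map_app
  let w : Fin (n + 1) → F := fun i => if i = Fin.last n then α else 1
  let M : Matrix (Fin (n + 1)) (Fin (n + 1)) F := fun k i => e.toLinearEquiv (Pi.single i 1) k
  have hpol : ∀ i j, ∑ k, M k i * (w k * M k j) = (1 : Matrix (Fin (n + 1)) (Fin (n + 1)) F) i j := by
    intro i j
    have h1 := he (Pi.single i 1 + Pi.single j 1)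
    have hi := he (Pi.single i 1)
    have hj := he (Pi.single j 1)
    simp only [map_add, QuadraticMap.weightedSumSquares_apply, smul_eq_mul, Pi.add_apply, one_mul] at h1 hi hj
    have h3 : 2 * ∑ k, M k i * (w k * M k j) = 2 * ∑ k, (Pi.single i 1 : Fin (n + 1) → F) k * (Pi.single j 1 : Fin (n + 1) → F) k := by
      have key : ∀ (c a b : Fin (n + 1) → F), ∑ k, c k * ((a k + b k) * (a k + b k)) =
          (∑ k, c k * (a k * a k)) + (∑ k, c k * (b k * b k)) + 2 * ∑ k, a k * (c k * b k) := fun c a b => by
        rw [Finset.mul_sum, ← Finset.sum_add_distrib, ← Finset.sum_add_distrib]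
        exact Finset.sum_congr rfl fun k _ => by ring
      have k1 := key w (e.toLinearEquiv (Pi.single i 1)) (e.toLinearEquiv (Pi.single j 1))
      have k2 := key (fun _ => 1) (Pi.single i 1) (Pi.single j 1)
      simp only [one_mul] at k2
      simp only [w, M] at k1 ⊢
      linear_combination h1 - k1 + k2 - hi - hj
    rw [mul_left_cancel₀ h2 h3]
    simp [Matrix.one_apply, Pi.single_apply, eq_comm]
  have hM : Matrix.transpose M * Matrix.diagonal w * M = 1 := by
    ext i j
    rw [← hpol i j, Matrix.mul_assoc]
    rw [Matrix.mul_apply]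
    simp only [Matrix.diagonal_mul, Matrix.transpose_apply]
  have hdet := congrArg Matrix.det hM
  rw [Matrix.det_mul, Matrix.det_mul, Matrix.det_transpose, Matrix.det_diagonal, Matrix.det_one] at hdet
  have hprod : ∏ k, w k = α := by simp [w, Finset.prod_ite_eq']
  rw [hprod] at hdet
  have hd0 : M.det ≠ 0 := fun h => by simp [h] at hdet
  exact hα ⟨(M.det)⁻¹, by field_simp; linear_combination hdet⟩

end Cfsg.Agent.S0757
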