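import Cfsg.Statements.S0758
import Cfsg.Agent.Forms.Orthogonal
-- import your own Cfsg.Agent.* helpers here

set_option autoImplicit false
open Cfsg

namespace Cfsg.Agent.S0758

/-- For a finite field F of odd order q and a non-square α: the form x² + y² is isotropic iff q ≡ 1 mod 4, and the form x² + α y² is isotropic iff q ≡ 3 mod 4. -/
theorem result {F : Type*} [Field F] [Fintype F] (h2 : (2 : F) ≠ 0) (α : F) (hα : ¬ IsSquare α) : ((∃ x y : F, (x ≠ 0 ∨ y ≠ 0) ∧ x ^ 2 + y ^ 2 = 0) ↔ Fintype.card F % 4 = 1) ∧ ((∃ x y : F, (x ≠ 0 ∨ y ≠ 0) ∧ x ^ 2 + α * y ^ 2 = 0) ↔ Fintype.card F % 4 = 3) := by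
  have hodd : Fintype.card F % 2 = 1 := FiniteField.odd_card_of_char_ne_two (fun h => h2 (by
    have := ringChar.charP F
    rw [h] at this
    exact CharTwo.two_eq_zero))
  have key : ∀ c : F, c ≠ 0 → ((∃ x y : F, (x ≠ 0 ∨ y ≠ 0) ∧ x ^ 2 + c * y ^ 2 = 0) ↔ IsSquare (-c)) := by
    intro c hc
    constructor
    · rintro ⟨x, y, hne, hxy⟩
      have hy : y ≠ 0 := by
        rintro rfl
        simp at hxy hne
        exact hne hxy
      exact ⟨x / y, by field_simp; linear_combination -hxy⟩
    · rintro ⟨r, hr⟩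
      exact ⟨r, 1, Or.inr one_ne_zero, by linear_combination -hr⟩
  have hα0 : α ≠ 0 := fun h => hα (h ▸ IsSquare.zero)
  have h1 := FiniteField.isSquare_neg_one_iff (F := F)
  have hneg : IsSquare (-α) ↔ ¬IsSquare (-1 : F) := by
    constructor
    · intro h hn
      have := hn.mul h
      rw [neg_mul_neg, one_mul] at this
      exact hα this
    · intro hn
      have := Forms.isSquare_mul_of_not_isSquare hn hα
      rwa [neg_one_mul] at this
  constructor
  · have := key 1 one_ne_zero
    simp only [one_mul] at this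
    rw [this, h1]; omega
  · rw [key α hα0, hneg, h1]; omega

end Cfsg.Agent.S0758
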