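import Cfsg.Statements.S0759
import Cfsg.Agent.Forms.Orthogonal
-- import your own Cfsg.Agent.* helpers here

set_option autoImplicit false
open Cfsg

namespace Cfsg.Agent.S0759

/-- Type of the orthonormal form: over a finite field of odd order q and for m ≥ 1, the quadratic form Σ_(i<2m) x_i² on F^(2m) admits an m-dimensional subspace on which it vanishes identically if and only if it is not the case that q ≡ 3 (mod 4) and m is odd. -/
theorem result {F : Type*} [Field F] [Fintype F] (h2 : (2 : F) ≠ 0) (m : ℕ) (hm : 1 ≤ m) : (∃ W : Submodule F (Fin (2 * m) → F), Module.finrank F W = m ∧ ∀ w ∈ W, ∑ i, w i ^ 2 = 0) ↔ ¬ (Fintype.card F % 4 = 3 ∧ Odd m) := by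
  classical
  have hodd : Fintype.card F % 2 = 1 := FiniteField.odd_card_of_char_ne_two (fun h => h2 (by
    have := ringChar.charP F
    rw [h] at this
    exact CharTwo.two_eq_zero))
  let σ : Fin m ⊕ Fin m ≃ Fin (2 * m) := finSumFinEquiv.trans (finCongr (two_mul m).symm)
  constructor
  · rintro ⟨W, hW, hW0⟩ ⟨hq, hmo⟩
    obtain ⟨C, hC⟩ := W.exists_isCompl
    have hCd : Module.finrank F C = m := by
      have := Submodule.finrank_add_eq_of_isCompl hC
      rw [hW, Module.finrank_fin_fun] at this
      omega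
    let b : Module.Basis (Fin m ⊕ Fin m) F (Fin (2 * m) → F) :=
      ((Module.finBasisOfFinrankEq F W hW).prod (Module.finBasisOfFinrankEq F C hCd)).map (Submodule.prodEquivOfIsCompl W C hC)
    have hb : ∀ i, b (Sum.inl i) ∈ W := fun i => by simp [b]
    let P : Matrix (Fin m ⊕ Fin m) (Fin m ⊕ Fin m) F := Matrix.of fun k i => b i (σ k)
    have hP : P.det ≠ 0 := by
      have : LinearIndependent F P.col :=
        b.linearIndependent.map' (LinearEquiv.funCongrLeft F F σ).toLinearMap (LinearEquiv.ker _)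
      exact ((Matrix.isUnit_iff_isUnit_det P).1 (Matrix.linearIndependent_cols_iff_isUnit.1 this)).ne_zero
    have h11 : (P.transpose * P).toBlocks₁₁ = 0 := by
      ext i j
      have h1 := hW0 _ (W.add_mem (hb i) (hb j))
      have h3 : ∑ k, (b (Sum.inl i) + b (Sum.inl j)) k ^ 2 = ∑ k, b (Sum.inl i) k ^ 2 + ∑ k, b (Sum.inl j) k ^ 2 + 2 * ∑ k, b (Sum.inl i) k * b (Sum.inl j) k := by
        rw [Finset.mul_sum, ← Finset.sum_add_distrib, ← Finset.sum_add_distrib]
        exact Finset.sum_congr rfl fun k _ => by simp only [Pi.add_apply]; ring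
      rw [h3, hW0 _ (hb i), hW0 _ (hb j), zero_add, zero_add, mul_eq_zero] at h1
      simp only [Matrix.toBlocks₁₁, Matrix.of_apply, Matrix.mul_apply, Matrix.transpose_apply, Matrix.zero_apply, P]
      rw [← h1.resolve_left h2]
      exact σ.sum_comp (fun k => b (Sum.inl i) k * b (Sum.inl j) k)
    have hsym : (P.transpose * P).toBlocks₂₁ = (P.transpose * P).toBlocks₁₂.transpose := by
      ext i j
      simp [Matrix.toBlocks₂₁, Matrix.toBlocks₁₂, Matrix.mul_apply, mul_comm]
    have key : ∀ B D : Matrix (Fin m) (Fin m) F, (Matrix.fromBlocks 0 B B.transpose D).det * (-1) ^ m = B.det ^ 2 := by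
      intro B D
      have hsw : (Matrix.fromBlocks (0 : Matrix (Fin m) (Fin m) F) (1 : Matrix (Fin m) (Fin m) F) (1 : Matrix (Fin m) (Fin m) F) (0 : Matrix (Fin m) (Fin m) F)).det = (-1) ^ m := by
        rw [show Matrix.fromBlocks (0 : Matrix (Fin m) (Fin m) F) (1 : Matrix (Fin m) (Fin m) F) (1 : Matrix (Fin m) (Fin m) F) (0 : Matrix (Fin m) (Fin m) F) = Matrix.J (Fin m) F * Matrix.fromBlocks (1 : Matrix (Fin m) (Fin m) F) 0 0 (-1 : Matrix (Fin m) (Fin m) F) by
          simp [Matrix.J, Matrix.fromBlocks_multiply]]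
        rw [Matrix.det_mul, SymplecticGroup.det_eq_one (SymplecticGroup.J_mem _ _), Matrix.det_fromBlocks_zero₂₁, Matrix.det_neg]
        simp
      rw [← hsw, ← Matrix.det_mul, Matrix.fromBlocks_multiply]
      simp [Matrix.det_fromBlocks_zero₁₂, sq]
    have hG := key (P.transpose * P).toBlocks₁₂ (P.transpose * P).toBlocks₂₂
    rw [← hsym, ← h11, Matrix.fromBlocks_toBlocks, Matrix.det_mul, Matrix.det_transpose, hmo.neg_one_pow] at hG
    have hsq : IsSquare (-1 : F) := ⟨(P.transpose * P).toBlocks₁₂.det / P.det, by field_simp; linear_combination hG⟩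
    exact (FiniteField.isSquare_neg_one_iff.1 hsq) hq
  · intro h
    obtain ⟨M, hM⟩ : ∃ M : Matrix (Fin m) (Fin m) F, M.transpose * M = -1 := by
      by_cases hq : Fintype.card F % 4 = 3
      · obtain ⟨r, rfl⟩ : Even m := Nat.not_odd_iff_even.1 fun ho => h ⟨hq, ho⟩
        obtain ⟨a, b, hab⟩ := Forms.exists_mul_sq_add_mul_sq_eq (one_ne_zero (α := F)) one_ne_zero (-1)
        refine ⟨(Matrix.fromBlocks (a • 1) ((-b) • 1) (b • 1) (a • 1)).submatrix finSumFinEquiv.symm finSumFinEquiv.symm, ?_⟩
        rw [Matrix.transpose_submatrix, Matrix.submatrix_mul_equiv, Matrix.fromBlocks_transpose, Matrix.fromBlocks_multiply]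
        simp only [Matrix.transpose_smul, Matrix.transpose_one, Matrix.smul_mul, Matrix.mul_smul, one_mul, smul_smul, ← add_smul]
        rw [show a * a + b * b = -1 by linear_combination hab, show a * -b + b * a = 0 by ring, show -b * a + a * b = 0 by ring, show -b * -b + a * a = -1 by linear_combination hab, neg_one_smul, zero_smul]
        rw [← neg_zero, ← Matrix.fromBlocks_neg, Matrix.fromBlocks_one]
        simp [Matrix.submatrix_neg]
      · obtain ⟨i, hi⟩ := FiniteField.isSquare_neg_one_iff.2 hq
        exact ⟨i • 1, by rw [Matrix.transpose_smul, Matrix.transpose_one, Matrix.smul_mul, Matrix.mul_smul, one_mul, smul_smul, ← hi, neg_one_smul]⟩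
    let φ : (Fin m → F) →ₗ[F] (Fin (2 * m) → F) :=
      { toFun := fun x k => Sum.elim x (M.mulVec x) (σ.symm k)
        map_add' := fun x y => by
          funext k
          simp only [Pi.add_apply, Matrix.mulVec_add]
          rcases σ.symm k with i | i <;> simp
        map_smul' := fun c x => by
          funext k
          simp only [Pi.smul_apply, Matrix.mulVec_smul, RingHom.id_apply]
          rcases σ.symm k with i | i <;> simp }
    have hφ : Function.Injective φ := fun x y hxy => funext fun i => by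
      simpa [φ] using congrFun hxy (σ (Sum.inl i))
    refine ⟨LinearMap.range φ, by rw [LinearMap.finrank_range_of_inj hφ, Module.finrank_fin_fun], ?_⟩
    rintro _ ⟨x, rfl⟩
    rw [← σ.sum_comp, Fintype.sum_sum_type]
    simp only [φ, LinearMap.coe_mk, AddHom.coe_mk, Equiv.symm_apply_apply, Sum.elim_inl, Sum.elim_inr]
    have : ∑ i, (M.mulVec x) i ^ 2 = -∑ i, x i ^ 2 := by
      have e1 : ∑ i, (M.mulVec x) i ^ 2 = dotProduct (M.mulVec x) (M.mulVec x) := by simp [dotProduct, sq]
      rw [e1, Matrix.dotProduct_mulVec, ← Matrix.mulVec_transpose, Matrix.mulVec_mulVec, hM, Matrix.neg_mulVec, Matrix.one_mulVec, neg_dotProduct]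
      simp [dotProduct, sq]
    rw [this, add_neg_cancel]

end Cfsg.Agent.S0759
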