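import Cfsg.Statements.S0761
import Cfsg.Agent.Forms.Witt
-- import your own Cfsg.Agent.* helpers here

set_option autoImplicit false
open Cfsg

namespace Cfsg.Agent.S0761

/-- Hyperbolic partners: let B be a non-degenerate bilinear form on a finite-dimensional space, either alternating, or symmetric with 2 ≠ 0. If Z is a subspace on which B vanishes, x ∉ Z is isotropic and orthogonal to Z, then there is an isotropic y with B x y = 1 which is orthogonal to Z. -/
theorem result {F V : Type*} [Field F] [AddCommGroup V] [Module F V] [FiniteDimensional F V] (B : LinearMap.BilinForm F V) (hB : B.Nondegenerate) (hform : B.IsAlt ∨ (B.IsSymm ∧ (2 : F) ≠ 0)) (x : V) (Z : Submodule F V) (hxZ : x ∉ Z) (hx : B x x = 0) (hxz : ∀ z ∈ Z, B x z = 0) (hZ : ∀ z ∈ Z, ∀ z' ∈ Z, B z z' = 0) : ∃ y : V, B y y = 0 ∧ B x y = 1 ∧ ∀ z ∈ Z, B z y = 0 := by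
  obtain ⟨ε, hε, hsym, hfix⟩ : ∃ ε : F, ε * ε = 1 ∧ (∀ a b, RingHom.id F (B a b) = ε * B b a) ∧ ∀ w, B x w = 1 → ∃ a : F, B (w + a • x) (w + a • x) = 0 := by
    rcases hform with hA | ⟨hS, h2⟩
    · exact ⟨-1, by norm_num, fun a b => by rw [RingHom.id_apply, ← LinearMap.IsAlt.neg hA b a, neg_one_mul], fun w _ => ⟨0, hA.self_eq_zero _⟩⟩
    · refine ⟨1, one_mul 1, fun a b => by rw [RingHom.id_apply, one_mul, hS.eq], fun w hw => ⟨-(B w w) / 2, ?_⟩⟩
      simp only [map_add, map_smul, LinearMap.add_apply, LinearMap.smul_apply, smul_eq_mul, hx, hS.eq w x, hw]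
      field_simp
      ring
  have hker : LinearMap.ker B = ⊥ := (Submodule.eq_bot_iff _).2 fun r hr => hB.1 r fun v => by
    rw [LinearMap.mem_ker.1 hr]; rfl
  obtain ⟨w, hw, hwx⟩ := Forms.exists_left_dual (σ := RingHom.id F) (fun _ => rfl) hε hsym (p := Z) (by simp [hker]) hxZ ε
  have hsw := Forms.sesq_swap hε hsym
  have hxw : B x w = 1 := by rw [hsw, RingHom.id_apply, hwx, hε]
  obtain ⟨a, ha⟩ := hfix w hxw
  refine ⟨w + a • x, ha, by simp [hxw, hx], fun z hz => ?_⟩
  have h1 : B z w = 0 := by rw [hsw, RingHom.id_apply, hw z hz, mul_zero]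
  have h2' : B z x = 0 := by rw [hsw, RingHom.id_apply, hxz z hz, mul_zero]
  simp [h1, h2']

end Cfsg.Agent.S0761
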