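import Cfsg.Statements.S0763
import Cfsg.Agent.Forms.FiniteQuadratic
-- import your own Cfsg.Agent.* helpers here

set_option autoImplicit false
open Cfsg

namespace Cfsg.Agent.S0763

/-- Binary quadratic forms in characteristic two over a finite field: if Q is a quadratic form on a 2-dimensional space whose polar form is non-degenerate, then either there are vectors v, w with Q v = Q w = 0 and polar value 1 (Q is xy in these coordinates), or there are v, w and μ with Q v = 1, Q w = μ, polar value 1 and x² + x + μ without roots in F (Q is x² + xy + μy²). -/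
theorem result {F V : Type*} [Field F] [Finite F] [CharP F 2] [AddCommGroup V] [Module F V] (Q : QuadraticForm F V) (h2 : Module.finrank F V = 2) (hQ : (QuadraticMap.polarBilin Q).Nondegenerate) : (∃ v w : V, LinearIndependent F ![v, w] ∧ Q v = 0 ∧ Q w = 0 ∧ QuadraticMap.polar Q v w = 1) ∨ (∃ (v w : V) (μ : F), LinearIndependent F ![v, w] ∧ (∀ x : F, x ^ 2 + x + μ ≠ 0) ∧ Q v = 1 ∧ Q w = μ ∧ QuadraticMap.polar Q v w = 1) := by
  have hfd : FiniteDimensional F V := Module.finite_of_finrank_pos (by omega)
  have h20 : (2 : F) = 0 := CharTwo.two_eq_zero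
  by_cases hz : ∃ v : V, v ≠ 0 ∧ Q v = 0
  · obtain ⟨v, hv0, hQv⟩ := hz
    obtain ⟨w, -, hQw, hvw⟩ := Forms.exists_hyperbolic_pair (Forms.nonsingOn_top_of_nondegenerate hQ) Submodule.mem_top hv0 hQv
    refine Or.inl ⟨v, w, ?_, hQv, hQw, hvw⟩
    refine LinearIndependent.pair_iff.2 fun a b hab => ?_
    have h1 := congrArg (QuadraticMap.polar Q v) hab
    have h2' := congrArg (QuadraticMap.polar Q w) hab
    simp [QuadraticMap.polar_smul_right, QuadraticMap.polar_add_right, hvw, QuadraticMap.polar_comm Q w v, Forms.polar_self_eq, h20] at h1 h2'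
    exact ⟨h2', h1⟩
  · simp only [not_exists, not_and] at hz
    have hA : ∀ v, Q v = 0 → v = 0 := fun v hv => by_contra fun h => hz v h hv
    obtain ⟨u, hu⟩ := Forms.exists_apply_eq_one_of_anisotropic Q hA h2.ge
    obtain ⟨w₀, hw₀⟩ : ∃ w, QuadraticMap.polar Q u w ≠ 0 := by
      by_contra h
      simp only [not_exists, not_not] at h
      have : u = 0 := hQ.1 u h
      simp [this] at hu
    obtain ⟨w, hw⟩ : ∃ w, QuadraticMap.polar Q u w = 1 := ⟨(QuadraticMap.polar Q u w₀)⁻¹ • w₀, by
      rw [QuadraticMap.polar_smul_right, smul_eq_mul, inv_mul_cancel₀ hw₀]⟩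
    have hli : LinearIndependent F ![u, w] := by
      refine LinearIndependent.pair_iff.2 fun a b hab => ?_
      have h1 := congrArg (QuadraticMap.polar Q u) hab
      simp [QuadraticMap.polar_smul_right, QuadraticMap.polar_add_right, hw, Forms.polar_self_eq, h20] at h1
      subst h1
      simp only [zero_smul, add_zero, smul_eq_zero] at hab
      exact ⟨hab.resolve_right (by rintro rfl; simp at hu), rfl⟩
    refine Or.inr ⟨u, w, Q w, hli, fun x hx => ?_, hu, rfl, hw⟩
    have h0 := hA (x • u + (1 : F) • w) (by
      rw [Forms.apply_add_smul, hu, hw]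
      linear_combination hx)
    exact one_ne_zero (LinearIndependent.pair_iff.1 hli x 1 h0).2

end Cfsg.Agent.S0763
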