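import Cfsg.Statements.S0769
-- import your own Cfsg.Agent.* helpers here

set_option autoImplicit false
open Cfsg

namespace Cfsg.Agent.S0769

/-- Order of the Borel subgroup of GL_n(q): the invertible lower-triangular n × n matrices over a field with q elements number q^(n(n-1)/2) (q-1)^n (unitriangular part times the diagonal torus). -/
theorem result {F : Type*} [Field F] [Fintype F] {q : ℕ} (hF : Fintype.card F = q) (n : ℕ) : Nat.card {g : Matrix.GeneralLinearGroup (Fin n) F // ∀ i j : Fin n, i < j → (g : Matrix (Fin n) (Fin n) F) i j = 0} = q ^ (n * (n - 1) / 2) * (q - 1) ^ n := by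
  classical
  subst hF
  let P : Fin n → Fin n → F → Prop := fun i j x => if i < j then x = 0 else if i = j then x ≠ 0 else True
  have e : {g : Matrix.GeneralLinearGroup (Fin n) F // ∀ i j : Fin n, i < j → (g : Matrix (Fin n) (Fin n) F) i j = 0} ≃ ((i : Fin n) → (j : Fin n) → {x : F // P i j x}) :=
    { toFun := fun g i j => ⟨(g.1 : Matrix (Fin n) (Fin n) F) i j, by
        rcases lt_trichotomy i j with h | h | h
        · simp [P, h, g.2 i j h]
        · subst h
          have hd : (g.1 : Matrix (Fin n) (Fin n) F).det ≠ 0 := (Matrix.isUnit_iff_isUnit_det _).1 g.1.isUnit |>.ne_zero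
          rw [Matrix.det_of_lowerTriangular _ (fun a b hab => g.2 a b hab)] at hd
          simpa [P] using (Finset.prod_ne_zero_iff.1 hd i (Finset.mem_univ i))
        · simp [P, not_lt.2 h.le, h.ne']⟩
      invFun := fun f => ⟨Matrix.GeneralLinearGroup.mkOfDetNeZero (Matrix.of fun i j => (f i j).1) (by
        rw [Matrix.det_of_lowerTriangular _ (fun a b hab => by
          have h := (f a b).2
          have hab' : a < b := hab
          simp [P, hab'] at h
          exact h)]
        exact Finset.prod_ne_zero_iff.2 fun i _ => by
          have h := (f i i).2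
          simpa [P] using h), fun i j hij => by
          have h := (f i j).2
          simp [P, hij] at h
          exact h⟩
      left_inv := fun g => Subtype.ext (Units.ext rfl)
      right_inv := fun f => rfl }
  rw [Nat.card_congr e, Nat.card_pi]
  simp only [Nat.card_pi]
  have hrow : ∀ i : Fin n, ∏ j : Fin n, Nat.card {x : F // P i j x} = Fintype.card F ^ (i : ℕ) * (Fintype.card F - 1) := by
    intro i
    have hval : ∀ j : Fin n, Nat.card {x : F // P i j x} = (if j < i then Fintype.card F else 1) * (if j = i then Fintype.card F - 1 else 1) := by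
      intro j
      rcases lt_trichotomy i j with h | h | h
      · simp [P, h, h.ne', not_lt.2 h.le, Nat.card_eq_fintype_card]
      · subst h
        simp [P, Nat.card_eq_fintype_card, Fintype.card_subtype_compl]
      · simp [P, h, h.ne, h.ne', not_lt.2 h.le, Nat.card_eq_fintype_card]
    rw [Finset.prod_congr rfl fun j _ => hval j, Finset.prod_mul_distrib, Finset.prod_ite_eq', if_pos (Finset.mem_univ i), Finset.prod_ite, Finset.prod_const, Finset.prod_const_one, mul_one, Finset.filter_gt_eq_Iio, Fin.card_Iio]
  rw [Finset.prod_congr rfl fun i _ => hrow i, Finset.prod_mul_distrib, Finset.prod_pow_eq_pow_sum, Finset.prod_const, Finset.card_univ, Fintype.card_fin, Fin.sum_univ_eq_sum_range (fun i => i), Finset.sum_range_id]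

end Cfsg.Agent.S0769
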