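import Cfsg.Statements.S0770
-- import your own Cfsg.Agent.* helpers here

set_option autoImplicit false
open Cfsg

namespace Cfsg.Agent.S0770

/-- For a field with at least 3 elements, an invertible matrix normalises the subgroup of invertible diagonal matrices of GL_n if and only if it is monomial (exactly one non-zero entry in each row). -/
theorem result {F : Type*} [Field F] (hF : ∃ a : F, a ≠ 0 ∧ a ≠ 1) (n : ℕ) (g : Matrix.GeneralLinearGroup (Fin n) F) : g ∈ Subgroup.normalizer ((Units.map (Matrix.diagonalRingHom (Fin n) F).toMonoidHom).range : Subgroup (Matrix.GeneralLinearGroup (Fin n) F)) ↔ ∀ i : Fin n, ∃! j : Fin n, (g : Matrix (Fin n) (Fin n) F) i j ≠ 0 := by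
  classical
  set M : Matrix (Fin n) (Fin n) F := (g : Matrix (Fin n) (Fin n) F) with hMdef
  have hrow : ∀ i, ∃ j, M i j ≠ 0 := by
    intro i
    by_contra h
    push Not at h
    exact (Matrix.GeneralLinearGroup.det g).ne_zero
      (by rw [Matrix.GeneralLinearGroup.val_det_apply]; exact Matrix.det_eq_zero_of_row_eq_zero i h)
  have hcol : ∀ j, ∃ i, M i j ≠ 0 := by
    intro j
    by_contra h
    push Not at h
    exact (Matrix.GeneralLinearGroup.det g).ne_zero
      (by rw [Matrix.GeneralLinearGroup.val_det_apply]; exact Matrix.det_eq_zero_of_column_eq_zero j h)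
  rw [Subgroup.mem_normalizer_iff]
  constructor
  · intro h i
    obtain ⟨j, hj⟩ := hrow i
    refine ⟨j, hj, fun k hk => ?_⟩
    by_contra hkj
    obtain ⟨a, ha0, ha1⟩ := hF
    let d : (Fin n → F)ˣ := ⟨Pi.mulSingle j a, Pi.mulSingle j a⁻¹,
      by rw [← Pi.mulSingle_mul, mul_inv_cancel₀ ha0, Pi.mulSingle_one],
      by rw [← Pi.mulSingle_mul, inv_mul_cancel₀ ha0, Pi.mulSingle_one]⟩
    obtain ⟨e, he⟩ := (h _).mp ⟨d, rfl⟩
    have h1 := congrArg (fun x : Matrix.GeneralLinearGroup (Fin n) F => ((x * g : Matrix.GeneralLinearGroup (Fin n) F) : Matrix (Fin n) (Fin n) F)) he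
    simp only [inv_mul_cancel_right, Units.val_mul, Units.coe_map, MonoidHom.coe_coe,
      RingHom.toMonoidHom_eq_coe, Matrix.diagonalRingHom_apply, d] at h1
    have hj1 := congrFun (congrFun h1 i) j
    have hk1 := congrFun (congrFun h1 i) k
    rw [Matrix.diagonal_mul, Matrix.mul_diagonal] at hj1 hk1
    rw [Pi.mulSingle_eq_of_ne hkj, mul_one, ← hMdef, mul_eq_right₀ hk] at hk1
    rw [hk1, one_mul, Pi.mulSingle_eq_same, ← hMdef] at hj1
    exact ha1 ((mul_eq_left₀ hj).mp hj1.symm)
  · intro h x
    choose σ hσ hσu using h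
    have hsurj : Function.Surjective σ := fun j => by
      obtain ⟨i, hi⟩ := hcol j; exact ⟨i, (hσu i j hi).symm⟩
    let s : Fin n ≃ Fin n := Equiv.ofBijective σ ⟨Finite.injective_iff_surjective.mpr hsurj, hsurj⟩
    have key : ∀ d : (Fin n → F)ˣ, ∀ e : (Fin n → F)ˣ, (∀ i, (e : Fin n → F) i = (d : Fin n → F) (σ i)) →
        Units.map (Matrix.diagonalRingHom (Fin n) F).toMonoidHom e * g
          = g * Units.map (Matrix.diagonalRingHom (Fin n) F).toMonoidHom d := by
      intro d e hde
      ext i j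
      simp only [Units.val_mul, Units.coe_map, RingHom.toMonoidHom_eq_coe, MonoidHom.coe_coe,
        Matrix.diagonalRingHom_apply, Matrix.diagonal_mul, Matrix.mul_diagonal]
      by_cases hij : j = σ i
      · rw [hij, hde, mul_comm]
      · have : (g : Matrix (Fin n) (Fin n) F) i j = 0 := by
          by_contra h0; exact hij (hσu i j h0)
        simp [this]
    constructor
    · rintro ⟨d, rfl⟩
      let e : (Fin n → F)ˣ := ⟨fun i => (d : Fin n → F) (σ i), fun i => ((d⁻¹ : (Fin n → F)ˣ) : Fin n → F) (σ i),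
        funext fun i => congrFun d.mul_inv (σ i), funext fun i => congrFun d.inv_mul (σ i)⟩
      exact ⟨e, eq_mul_inv_iff_mul_eq.mpr (key d e fun i => rfl)⟩
    · rintro ⟨e, he⟩
      let d : (Fin n → F)ˣ := ⟨fun j => (e : Fin n → F) (s.symm j), fun j => ((e⁻¹ : (Fin n → F)ˣ) : Fin n → F) (s.symm j),
        funext fun i => congrFun e.mul_inv (s.symm i), funext fun i => congrFun e.inv_mul (s.symm i)⟩
      refine ⟨d, mul_left_cancel (a := g) ?_⟩
      rw [← key d e fun i => ?_, he, inv_mul_cancel_right]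
      show _ = (e : Fin n → F) (s.symm (s i))
      rw [Equiv.symm_apply_apply]

end Cfsg.Agent.S0770
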