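import Cfsg.Statements.S0773
import Cfsg.Agent.GLParab.Basic
-- import your own Cfsg.Agent.* helpers here

set_option autoImplicit false
open Cfsg

namespace Cfsg.Agent.S0773

/-- The stabilisers in GL_n(F), F finite, of the coordinate subspaces of dimensions k and n − k are isomorphic groups, but when 2k ≠ n (and 0 < k < n) no element of GL_n conjugates one onto the other. -/
theorem result {F : Type*} [Field F] [Finite F] (n k : ℕ) (hk0 : 0 < k) (hkn : k < n) (h2 : 2 * k ≠ n) : Nonempty (↥(Cfsg.stabilizing (Cfsg.glToMat (Fin n) F) {v : Fin n → F | ∀ i : Fin n, k ≤ (i : ℕ) → v i = 0}) ≃* ↥(Cfsg.stabilizing (Cfsg.glToMat (Fin n) F) {v : Fin n → F | ∀ i : Fin n, n - k ≤ (i : ℕ) → v i = 0})) ∧ ∀ g : Matrix.GeneralLinearGroup (Fin n) F, (Cfsg.stabilizing (Cfsg.glToMat (Fin n) F) {v : Fin n → F | ∀ i : Fin n, k ≤ (i : ℕ) → v i = 0}).map (MulAut.conj g).toMonoidHom ≠ Cfsg.stabilizing (Cfsg.glToMat (Fin n) F) {v : Fin n → F | ∀ i : Fin n, n - k ≤ (i : ℕ) → v i = 0} := by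
  classical
  let r : Matrix.GeneralLinearGroup (Fin n) F → Matrix (Fin n) (Fin n) F := fun g =>
    ((g⁻¹ : Matrix.GeneralLinearGroup (Fin n) F) : Matrix (Fin n) (Fin n) F).transpose.submatrix Fin.rev Fin.rev
  have hmul : ∀ g h, r (g * h) = r g * r h := by
    intro g h
    simp only [r, mul_inv_rev, Units.val_mul, Matrix.transpose_mul]
    rw [← Matrix.submatrix_mul_equiv _ _ Fin.rev Fin.revPerm Fin.rev]
    rfl
  have hone : r 1 = 1 := by
    simp [r, Matrix.submatrix_one _ Fin.rev_injective]
  let θ : Matrix.GeneralLinearGroup (Fin n) F →* Matrix.GeneralLinearGroup (Fin n) F :=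
    MonoidHom.mk' (fun g => ⟨r g, r g⁻¹, by rw [← hmul, mul_inv_cancel, hone], by rw [← hmul, inv_mul_cancel, hone]⟩)
      (fun g h => Units.ext (hmul g h))
  have hθθ : ∀ g, θ (θ g) = g := by
    intro g
    have h : ((θ g)⁻¹ : Matrix.GeneralLinearGroup (Fin n) F) = θ g⁻¹ := (map_inv θ g).symm
    apply Units.ext
    show r (θ g) = _
    simp only [r, h]
    ext i j
    show r g⁻¹ (Fin.rev j) (Fin.rev i) = _
    simp [r]
  have hmap : ∀ l, l ≤ n → ∀ g ∈ GLParab.P F n l, θ g ∈ GLParab.P F n (n - l) := by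
    intro l hl g hg
    rw [GLParab.mem_P_iff]
    intro i j hi hj
    show r g i j = 0
    simp only [r, Matrix.submatrix_apply, Matrix.transpose_apply]
    exact GLParab.zero_of_mem (inv_mem hg) (by rw [Fin.val_rev]; omega) (by rw [Fin.val_rev]; omega)
  refine ⟨⟨{
      toFun := fun g => ⟨θ g, hmap k hkn.le g g.2⟩
      invFun := fun g => ⟨θ g, by
        have h := hmap (n - k) (Nat.sub_le _ _) g g.2
        rwa [Nat.sub_sub_self hkn.le] at h⟩
      left_inv := fun g => Subtype.ext (hθθ g)
      right_inv := fun g => Subtype.ext (hθθ g)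
      map_mul' := fun a b => Subtype.ext (map_mul θ _ _) }⟩, fun g hg => ?_⟩
  let L : (Fin n → F) →ₗ[F] (Fin n → F) := Matrix.mulVecLin (g : Matrix (Fin n) (Fin n) F)
  have hLinj : Function.Injective L := Matrix.mulVec_injective_iff_isUnit.mpr g.isUnit
  let U : Submodule F (Fin n → F) := (GLParab.WSub F n k).map L
  have hU : ∀ h ∈ GLParab.P F n (n - k), ∀ v ∈ U, (h : Matrix (Fin n) (Fin n) F).mulVec v ∈ U := by
    intro h hh v hv
    obtain ⟨x, hx, rfl⟩ := hv
    obtain ⟨y, hy, e⟩ : h ∈ (GLParab.P F n k).map (MulAut.conj g).toMonoidHom := by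
      have hg' : (GLParab.P F n k).map (MulAut.conj g).toMonoidHom = GLParab.P F n (n - k) := hg
      rw [hg']; exact hh
    refine ⟨(y : Matrix (Fin n) (Fin n) F).mulVec x, (hy x).mp hx, ?_⟩
    rw [← e]
    simp [L, Matrix.mulVec_mulVec, mul_assoc]
  have hcard : ∀ l, l ≤ n → Module.finrank F (GLParab.WSub F n l) = l := by
    intro l hl
    let e : GLParab.WSub F n l ≃ₗ[F] (Fin l → F) :=
      { toFun := fun v a => (v : Fin n → F) (Fin.castLE hl a)
        invFun := fun f => ⟨fun i => if h : (i : ℕ) < l then f ⟨i, h⟩ else 0, fun i hi => dif_neg (by omega)⟩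
        map_add' := fun _ _ => rfl
        map_smul' := fun _ _ => rfl
        left_inv := fun v => Subtype.ext (funext fun i => by
          show (if h : (i : ℕ) < l then _ else _) = _
          split_ifs with h
          · rfl
          · exact (v.2 i (not_lt.mp h)).symm)
        right_inv := fun f => funext fun a => by simp }
    rw [e.finrank_eq, Module.finrank_fintype_fun_eq_card, Fintype.card_fin]
  have hUk : Module.finrank F U = k := by
    rw [← (Submodule.equivMapOfInjective L hLinj _).finrank_eq, hcard k hkn.le]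
  rcases GLParab.invariant_submodule U hU with h | h | h
  · rw [h, finrank_bot] at hUk; omega
  · rw [h, hcard _ (Nat.sub_le _ _)] at hUk; omega
  · rw [h, finrank_top, Module.finrank_fintype_fun_eq_card, Fintype.card_fin] at hUk; omega

end Cfsg.Agent.S0773
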