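import Cfsg.Statements.S0774
import Cfsg.Agent.SympSub.Count
-- import your own Cfsg.Agent.* helpers here

set_option autoImplicit false
open Cfsg

namespace Cfsg.Agent.S0774

/-- Borel subgroup of the symplectic group: the elements of Sp_2m(q) stabilising each of the totally isotropic coordinate subspaces ⟨e_0, ..., e_k⟩ (k < m) form a subgroup of order q^(m²) (q − 1)^m. -/
theorem result {F : Type*} [Field F] [Fintype F] {q : ℕ} (hF : Fintype.card F = q) (m : ℕ) : Nat.card ↥(⨅ k : Fin m, Cfsg.stabilizing (Cfsg.spToMat m F) {v : Fin m ⊕ Fin m → F | (∀ i : Fin m, (k : ℕ) < (i : ℕ) → v (Sum.inl i) = 0) ∧ ∀ i : Fin m, v (Sum.inr i) = 0}) = q ^ (m ^ 2) * (q - 1) ^ m := by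
  subst hF
  classical
  set Bo := ⨅ k : Fin m, Cfsg.stabilizing (Cfsg.spToMat m F) {v : Fin m ⊕ Fin m → F | (∀ i : Fin m, (k : ℕ) < (i : ℕ) → v (Sum.inl i) = 0) ∧ ∀ i : Fin m, v (Sum.inr i) = 0} with hBo
  -- the data `(A, S)` of a Borel element
  let D := {A : Matrix (Fin m) (Fin m) F // (∀ i j, j < i → A i j = 0) ∧ IsUnit A.det} × {S : Matrix (Fin m) (Fin m) F // S.transpose = S}
  have hcardA : Nat.card {A : Matrix (Fin m) (Fin m) F // (∀ i j, j < i → A i j = 0) ∧ IsUnit A.det}
      = (Fintype.card F - 1) ^ m * Fintype.card F ^ Nat.card {p : Fin m × Fin m // p.1 < p.2} := by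
    have hdet : ∀ A : Matrix (Fin m) (Fin m) F, (∀ i j, j < i → A i j = 0) → A.det = ∏ i, A i i :=
      fun A hA => Matrix.det_of_upperTriangular fun i j hij => hA i j hij
    let e : {A : Matrix (Fin m) (Fin m) F // (∀ i j, j < i → A i j = 0) ∧ IsUnit A.det}
        ≃ (Fin m → Fˣ) × ({p : Fin m × Fin m // p.1 < p.2} → F) :=
      { toFun := fun A => (fun i => Units.mk0 (A.1 i i) fun h => A.2.2.ne_zero (by
            rw [hdet _ A.2.1]; exact Finset.prod_eq_zero (Finset.mem_univ i) h),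
          fun p => A.1 p.1.1 p.1.2)
        invFun := fun c => ⟨Matrix.of fun i j => if h : i < j then c.2 ⟨(i, j), h⟩ else if i = j then (c.1 i : F) else 0,
          fun i j hji => by simp [hji.not_gt, hji.ne'], by
          rw [hdet _ fun i j hji => by simp [hji.not_gt, hji.ne']]
          exact IsUnit.mk0 _ (Finset.prod_ne_zero_iff.mpr fun i _ => by simp)⟩
        left_inv := fun A => by
          refine Subtype.ext (Matrix.ext fun i j => ?_)
          rcases lt_trichotomy i j with h | h | h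
          · simp [h]
          · subst h; simp
          · simp [h.not_gt, h.ne', A.2.1 i j h]
        right_inv := fun c => Prod.ext (funext fun i => Units.ext (by simp)) (funext fun p => by simp [p.2]) }
    rw [Nat.card_congr e, Nat.card_prod, Nat.card_fun, Nat.card_fun, Nat.card_fin, Nat.card_units,
      Nat.card_eq_fintype_card (α := F)]
  have hexp : Fintype.card F ^ (m ^ 2) * (Fintype.card F - 1) ^ m = Nat.card D := by
    rw [Nat.card_prod, hcardA, SympSub.card_symm, mul_assoc, ← pow_add, mul_comm]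
    congr 2
    have h2 := SympSub.card_pairs m
    rw [sq, Nat.mul_add, mul_one]
    omega
  rw [hexp]
  -- block shape of a Borel element
  let M : ↥Bo → Matrix (Fin m ⊕ Fin m) (Fin m ⊕ Fin m) F := fun g => ((g : Matrix.symplecticGroup (Fin m) F) : Matrix (Fin m ⊕ Fin m) (Fin m ⊕ Fin m) F)
  have hshape : ∀ g : ↥Bo, (∀ i j, j < i → (M g).toBlocks₁₁ i j = 0) ∧ (M g).toBlocks₂₁ = 0 := by
    intro g
    have h : ∀ j : Fin m, (∀ i : Fin m, (j : ℕ) < (i : ℕ) → (M g).mulVec (Pi.single (Sum.inl j) 1) (Sum.inl i) = 0) ∧ ∀ i : Fin m, (M g).mulVec (Pi.single (Sum.inl j) 1) (Sum.inr i) = 0 := fun j =>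
      ((Subgroup.mem_iInf.mp g.2 j) _).mp ⟨fun i hi => Pi.single_eq_of_ne (by simp; omega) 1, fun i => by simp⟩
    refine ⟨fun i j hji => ?_, Matrix.ext fun i j => ?_⟩
    · simpa [Matrix.mulVec_single, Matrix.toBlocks₁₁] using (h j).1 i hji
    · simpa [Matrix.mulVec_single, Matrix.toBlocks₂₁] using (h j).2 i
  have hrel : ∀ g : ↥Bo, (M g).toBlocks₁₁.transpose * (M g).toBlocks₂₂ = 1 ∧
      (M g).toBlocks₁₂.transpose * (M g).toBlocks₂₂ = (M g).toBlocks₂₂.transpose * (M g).toBlocks₁₂ := by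
    intro g
    have h := SymplecticGroup.fromBlocks_mem_iff.mp
      (show Matrix.fromBlocks (M g).toBlocks₁₁ (M g).toBlocks₁₂ (M g).toBlocks₂₁ (M g).toBlocks₂₂ ∈ Matrix.symplecticGroup (Fin m) F by
        rw [Matrix.fromBlocks_toBlocks]; exact (g : Matrix.symplecticGroup (Fin m) F).2)
    rw [(hshape g).2] at h
    exact ⟨by simpa using h.2.2, h.2.1⟩
  let f : ↥Bo → D := fun g => (⟨(M g).toBlocks₁₁, (hshape g).1, by
      have h := congrArg Matrix.det (hrel g).1
      rw [Matrix.det_mul, Matrix.det_transpose, Matrix.det_one] at h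
      exact IsUnit.of_mul_eq_one _ h⟩,
    ⟨(M g).toBlocks₂₂.transpose * (M g).toBlocks₁₂, by rw [Matrix.transpose_mul, Matrix.transpose_transpose, (hrel g).2]⟩)
  refine Nat.card_eq_of_bijective f ⟨?_, ?_⟩
  · intro g h hgh
    simp only [f, D, Prod.mk.injEq, Subtype.mk.injEq] at hgh
    obtain ⟨hA, hS⟩ := hgh
    have hD : (M g).toBlocks₂₂ = (M h).toBlocks₂₂ := by
      have e1 := (hrel g).1
      rw [hA] at e1
      exact (Matrix.inv_eq_right_inv e1).symm.trans (Matrix.inv_eq_right_inv (hrel h).1)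
    have hAD : ∀ x : ↥Bo, (M x).toBlocks₁₁ * (M x).toBlocks₂₂.transpose = 1 := fun x => by
      have := mul_eq_one_comm.mp (hrel x).1
      simpa using congrArg Matrix.transpose this
    have hB : (M g).toBlocks₁₂ = (M h).toBlocks₁₂ := by
      have e := congrArg ((M g).toBlocks₁₁ * ·) hS
      simp only [← Matrix.mul_assoc] at e
      rw [hAD g, hA, hAD h, Matrix.one_mul, Matrix.one_mul] at e
      exact e
    refine Subtype.ext (Subtype.ext ?_)
    exact (Matrix.fromBlocks_toBlocks (M g)).symm.trans ((by rw [hA, hB, hD, (hshape g).2, (hshape h).2]) : Matrix.fromBlocks (M g).toBlocks₁₁ (M g).toBlocks₁₂ (M g).toBlocks₂₁ (M g).toBlocks₂₂ = Matrix.fromBlocks (M h).toBlocks₁₁ (M h).toBlocks₁₂ (M h).toBlocks₂₁ (M h).toBlocks₂₂) |>.trans (Matrix.fromBlocks_toBlocks (M h))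
  · rintro ⟨⟨A, hA, hAu⟩, ⟨S, hS⟩⟩
    have hinv : A.transpose * (A⁻¹).transpose = 1 := by
      rw [← Matrix.transpose_mul, Matrix.nonsing_inv_mul _ hAu, Matrix.transpose_one]
    have hmem : Matrix.fromBlocks A (A * S) 0 (A⁻¹).transpose ∈ Matrix.symplecticGroup (Fin m) F := by
      rw [SymplecticGroup.fromBlocks_mem_iff]
      refine ⟨by simp, ?_, by simpa using hinv⟩
      rw [Matrix.transpose_mul, Matrix.mul_assoc, hinv, Matrix.transpose_transpose, ← Matrix.mul_assoc,
        Matrix.nonsing_inv_mul _ hAu, Matrix.one_mul, Matrix.mul_one, hS]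
    have hg : (⟨_, hmem⟩ : Matrix.symplecticGroup (Fin m) F) ∈ Bo := by
      rw [hBo, Subgroup.mem_iInf]
      intro k
      set T := {v : Fin m ⊕ Fin m → F | (∀ i : Fin m, (k : ℕ) < (i : ℕ) → v (Sum.inl i) = 0) ∧ ∀ i : Fin m, v (Sum.inr i) = 0}
      set N := Matrix.fromBlocks A (A * S) 0 (A⁻¹).transpose
      have hmaps : Set.MapsTo N.mulVec T T := by
        intro v hv
        have e : v ∘ Sum.inr = 0 := funext hv.2
        refine ⟨fun i hi => ?_, fun i => ?_⟩
        · show N.mulVec v (Sum.inl i) = 0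
          simp only [N, Matrix.fromBlocks_mulVec, e, Matrix.mulVec_zero, add_zero, Sum.elim_inl]
          show ∑ j, A i j * v (Sum.inl j) = 0
          refine Finset.sum_eq_zero fun j _ => ?_
          by_cases hj : (k : ℕ) < j
          · simp [hv.1 j hj]
          · simp [hA i j (Fin.lt_def.mpr (by omega))]
        · show N.mulVec v (Sum.inr i) = 0
          simp [N, Matrix.fromBlocks_mulVec, e]
      have hinj : Function.Injective N.mulVec := Matrix.mulVec_injective_iff_isUnit.mpr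
        ((Matrix.isUnit_iff_isUnit_det _).mpr (SymplecticGroup.symplectic_det hmem))
      intro v
      refine ⟨fun hv => hmaps hv, fun hv => ?_⟩
      obtain ⟨w, hw, hwv⟩ := (((Set.toFinite T).injOn_iff_bijOn_of_mapsTo hmaps).mp hinj.injOn).surjOn hv
      exact hinj hwv ▸ hw
    refine ⟨⟨_, hg⟩, Prod.ext (Subtype.ext ?_) (Subtype.ext ?_)⟩
    · show (Matrix.fromBlocks A (A * S) 0 (A⁻¹).transpose).toBlocks₁₁ = A
      rw [Matrix.toBlocks_fromBlocks₁₁]
    · show (Matrix.fromBlocks A (A * S) 0 (A⁻¹).transpose).toBlocks₂₂.transpose * (Matrix.fromBlocks A (A * S) 0 (A⁻¹).transpose).toBlocks₁₂ = S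
      rw [Matrix.toBlocks_fromBlocks₂₂, Matrix.toBlocks_fromBlocks₁₂, Matrix.transpose_transpose, ← Matrix.mul_assoc, Matrix.nonsing_inv_mul _ hAu, Matrix.one_mul]

end Cfsg.Agent.S0774
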