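import Cfsg.Statements.S0776
import Cfsg.Agent.SympSub.Iso
-- import your own Cfsg.Agent.* helpers here

set_option autoImplicit false
open Cfsg

namespace Cfsg.Agent.S0776

/-- If W ≤ F^(2m) is a 2k-dimensional subspace on which the symplectic form is non-degenerate, then the stabiliser of W in Sp_2m(F) is isomorphic to Sp_2k(F) × Sp_(2m−2k)(F). -/
theorem result {F : Type*} [Field F] (m k : ℕ) (hk : k ≤ m) (W : Submodule F (Fin m ⊕ Fin m → F)) (hWk : Module.finrank F W = 2 * k) (hW : ∀ u ∈ W, (∀ v ∈ W, Cfsg.sympForm m F u v = 0) → u = 0) : Nonempty (↥(Cfsg.stabilizing (Cfsg.spToMat m F) (W : Set (Fin m ⊕ Fin m → F))) ≃* Matrix.symplecticGroup (Fin k) F × Matrix.symplecticGroup (Fin (m - k)) F) := by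
  have hA := Forms.sympBil_isAlt (m := m) (F := F)
  have hR : (Forms.sympBil m F).IsRefl := LinearMap.IsAlt.isRefl hA
  have hWnd : ((Forms.sympBil m F).restrict W).Nondegenerate := by
    constructor
    · intro u hu
      refine Subtype.ext (hW u u.2 fun v hv => ?_)
      rw [← Forms.sympBil_apply]; exact hu ⟨v, hv⟩
    · intro u hu
      refine Subtype.ext (hW u u.2 fun v hv => ?_)
      rw [← Forms.sympBil_apply]; exact hR _ _ (hu ⟨v, hv⟩)
  have hc := LinearMap.BilinForm.isCompl_orthogonal_of_restrict_nondegenerate hR hWnd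
  have hPnd : ((Forms.sympBil m F).restrict ((Forms.sympBil m F).orthogonal W)).Nondegenerate := by
    refine LinearMap.BilinForm.nondegenerate_restrict_of_disjoint_orthogonal _ hR ?_
    rw [LinearMap.BilinForm.orthogonal_orthogonal Forms.sympBil_nondegenerate hR]
    exact hc.disjoint.symm
  obtain ⟨e1, he1⟩ := SympSub.exists_iso_sympBil (B := (Forms.sympBil m F).restrict W)
    (fun u => hA (u : Fin m ⊕ Fin m → F)) hWnd hWk
  obtain ⟨e2, he2⟩ := SympSub.exists_iso_sympBil (B := (Forms.sympBil m F).restrict ((Forms.sympBil m F).orthogonal W))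
    (fun u => hA (u : Fin m ⊕ Fin m → F)) hPnd (k := m - k) (by
      rw [LinearMap.BilinForm.finrank_orthogonal Forms.sympBil_nondegenerate, hWk, Module.finrank_fintype_fun_eq_card,
        Fintype.card_sum, Fintype.card_fin]
      omega)
  obtain ⟨E⟩ := SympSub.isoStab_nondeg_equiv hR W hc
  exact ⟨(SympSub.stabilizingEquiv W).trans (E.trans (MulEquiv.prodCongr
    ((SympSub.isoCongr e1 he1).trans (SympSub.spEquiv k F).symm)
    ((SympSub.isoCongr e2 he2).trans (SympSub.spEquiv (m - k) F).symm)))⟩

end Cfsg.Agent.S0776
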