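import Mathlib
import Cfsg.Statements.S0777
import Cfsg.Prelude.Def_ClassicalGeometry

set_option autoImplicit false

namespace Cfsg.Agent.S0777

open Matrix

variable {F : Type*} [Field F] {m : ℕ}

/-- The diagonal torus of the symplectic group. -/
abbrev torus (m : ℕ) (F : Type*) [Field F] : Subgroup (Matrix.symplecticGroup (Fin m) F) :=
  ⨅ i : Fin m ⊕ Fin m, Cfsg.stabilizing (Cfsg.spToMat m F) ((Submodule.span F {(Pi.single i (1 : F) : Fin m ⊕ Fin m → F)} : Submodule F (Fin m ⊕ Fin m → F)) : Set (Fin m ⊕ Fin m → F))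

theorem mem_torus {g : Matrix.symplecticGroup (Fin m) F} :
    g ∈ torus m F ↔ ∀ x y, x ≠ y → (g : Matrix (Fin m ⊕ Fin m) (Fin m ⊕ Fin m) F) x y = 0 := by
  rw [Subgroup.mem_iInf]
  constructor
  · intro h x y hxy
    obtain ⟨a, ha⟩ := Submodule.mem_span_singleton.mp ((h y (Pi.single y 1)).mp (Submodule.mem_span_singleton_self _))
    have := congrFun ha x
    simpa [Matrix.mulVec_single, hxy] using this.symm
  · intro h y
    set d := (g : Matrix (Fin m ⊕ Fin m) (Fin m ⊕ Fin m) F).diag
    have hg : (g : Matrix (Fin m ⊕ Fin m) (Fin m ⊕ Fin m) F) = Matrix.diagonal d := by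
      ext a b; by_cases hab : a = b
      · subst hab; simp [d]
      · simp [hab, h a b hab]
    have hd : ∀ a, d a ≠ 0 := by
      have := (SymplecticGroup.symplectic_det g.2).ne_zero
      rw [hg, Matrix.det_diagonal] at this
      exact fun a => Finset.prod_ne_zero_iff.mp this a (Finset.mem_univ a)
    intro v
    rw [SetLike.mem_coe, SetLike.mem_coe, Submodule.mem_span_singleton, Submodule.mem_span_singleton,
      Cfsg.spToMat, Submonoid.subtype_apply, hg]
    constructor
    · rintro ⟨a, rfl⟩
      refine ⟨a * d y, funext fun x => ?_⟩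
      rw [Matrix.mulVec_diagonal]
      by_cases hx : x = y <;> simp [hx, mul_comm]
    · rintro ⟨a, ha⟩
      refine ⟨a / d y, funext fun x => ?_⟩
      have := congrFun ha x
      rw [Matrix.mulVec_diagonal] at this
      by_cases hx : x = y
      · subst hx
        simp only [Pi.smul_apply, Pi.single_eq_same, smul_eq_mul, mul_one] at this ⊢
        rw [this, mul_div_cancel_left₀ _ (hd x)]
      · simp [hx, hd] at this ⊢; exact this.symm

/-- Each row has at most one non-zero entry. -/
def Mono (A : Matrix (Fin m ⊕ Fin m) (Fin m ⊕ Fin m) F) : Prop :=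
  ∀ x, ∃ z, ∀ y, y ≠ z → A x y = 0

theorem Mono.mul {A B : Matrix (Fin m ⊕ Fin m) (Fin m ⊕ Fin m) F} (hA : Mono A) (hB : Mono B) :
    Mono (A * B) := by
  intro x
  obtain ⟨z, hz⟩ := hA x
  obtain ⟨w, hw⟩ := hB z
  refine ⟨w, fun y hy => ?_⟩
  rw [Matrix.mul_apply]
  refine Finset.sum_eq_zero fun a _ => ?_
  by_cases ha : a = z
  · rw [ha, hw y hy, mul_zero]
  · rw [hz a ha, zero_mul]

theorem mem_normalizer_of_mono [Finite F] {g : Matrix.symplecticGroup (Fin m) F}
    (hg : Mono (g : Matrix (Fin m ⊕ Fin m) (Fin m ⊕ Fin m) F)) :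
    g ∈ Subgroup.normalizer (torus m F : Set (Matrix.symplecticGroup (Fin m) F)) := by
  haveI : Finite (Matrix.symplecticGroup (Fin m) F) := Finite.of_injective _ Subtype.val_injective
  have h : ∀ t ∈ torus m F, g * t * g⁻¹ ∈ torus m F := by
    intro t ht
    rw [mem_torus]
    intro x y hxy
    obtain ⟨z, hz⟩ := hg x
    set G := (g : Matrix (Fin m ⊕ Fin m) (Fin m ⊕ Fin m) F)
    set G' := ((g⁻¹ : Matrix.symplecticGroup (Fin m) F) : Matrix (Fin m ⊕ Fin m) (Fin m ⊕ Fin m) F)
    set T := (t : Matrix (Fin m ⊕ Fin m) (Fin m ⊕ Fin m) F)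
    have hGG : G * G' = 1 := by
      simp only [G, G', ← Submonoid.coe_mul, mul_inv_cancel, Submonoid.coe_one]
    have hGT : ∀ b, (G * T) x b = G x b * T z z := by
      intro b
      rw [Matrix.mul_apply, Finset.sum_eq_single z (fun a _ ha => by rw [hz a ha, zero_mul]) (by simp)]
      by_cases hb : b = z
      · rw [hb]
      · rw [hz b hb, zero_mul, show T z b = 0 from mem_torus.mp ht z b (Ne.symm hb), mul_zero]
    show (G * T * G') x y = 0
    rw [Matrix.mul_apply]
    simp only [hGT, mul_right_comm _ (T z z)]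
    rw [← Finset.sum_mul, ← Matrix.mul_apply, hGG, Matrix.one_apply_ne hxy, zero_mul]
  rw [Subgroup.mem_normalizer_iff]
  refine fun t => ⟨h t, fun ht => ?_⟩
  have hbij := ((Set.toFinite (torus m F : Set (Matrix.symplecticGroup (Fin m) F))).injOn_iff_bijOn_of_mapsTo
    (f := fun a => g * a * g⁻¹) h).mp fun a _ b _ hab => by simpa using hab
  obtain ⟨s, hs, hst⟩ := hbij.surjOn ht
  have : s = t := by simpa using hst
  exact this ▸ hs

/-- The torus element with parameters `c`. -/
def torusElt (c : Fin m → Fˣ) : Matrix.symplecticGroup (Fin m) F :=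
  ⟨Matrix.fromBlocks (diagonal fun i => (c i : F)) 0 0 (diagonal fun i => ((c i)⁻¹ : Fˣ)),
    SymplecticGroup.fromBlocks_mem_iff.mpr (by simp [Matrix.diagonal_mul_diagonal])⟩

/-- The element permuting the hyperbolic pairs. -/
def permElt (p : Equiv.Perm (Fin m)) : Matrix.symplecticGroup (Fin m) F :=
  ⟨Matrix.fromBlocks (p.permMatrix F) 0 0 (p.permMatrix F),
    SymplecticGroup.fromBlocks_mem_iff.mpr (by
      simp only [Matrix.transpose_zero, Matrix.mul_zero, Matrix.zero_mul, sub_zero, true_and,
        Matrix.transpose_permMatrix]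
      rw [← Matrix.permMatrix_mul, mul_inv_cancel, Matrix.permMatrix_one])⟩

/-- The element interchanging the members of some hyperbolic pairs. -/
def flipElt (b : Fin m → Bool) : Matrix.symplecticGroup (Fin m) F :=
  ⟨Matrix.fromBlocks (diagonal fun i => if b i then 0 else 1) (diagonal fun i => if b i then -1 else 0)
      (diagonal fun i => if b i then 1 else 0) (diagonal fun i => if b i then 0 else 1),
    SymplecticGroup.fromBlocks_mem_iff.mpr (by
      simp only [Matrix.diagonal_transpose, Matrix.diagonal_mul_diagonal, Matrix.diagonal_sub,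
        ← Matrix.diagonal_one, Matrix.diagonal_eq_diagonal_iff]
      refine ⟨fun i => ?_, fun i => ?_, fun i => ?_⟩ <;> cases b i <;> simp)⟩

theorem mono_torusElt (c : Fin m → Fˣ) :
    Mono ((torusElt c : Matrix.symplecticGroup (Fin m) F) : Matrix (Fin m ⊕ Fin m) (Fin m ⊕ Fin m) F) := by
  rintro (x | x)
  · exact ⟨.inl x, fun y hy => by rcases y with y | y <;> simp_all [torusElt, eq_comm, Matrix.diagonal_apply]⟩
  · exact ⟨.inr x, fun y hy => by rcases y with y | y <;> simp_all [torusElt, eq_comm, Matrix.diagonal_apply]⟩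

theorem mono_flipElt (b : Fin m → Bool) :
    Mono ((flipElt b : Matrix.symplecticGroup (Fin m) F) : Matrix (Fin m ⊕ Fin m) (Fin m ⊕ Fin m) F) := by
  rintro (x | x)
  · refine ⟨if b x then .inr x else .inl x, fun y hy => ?_⟩
    rcases y with y | y <;> by_cases hxy : x = y <;> cases hb : b x <;> simp_all [flipElt, Matrix.diagonal_apply]
  · refine ⟨if b x then .inl x else .inr x, fun y hy => ?_⟩
    rcases y with y | y <;> by_cases hxy : x = y <;> cases hb : b x <;> simp_all [flipElt, Matrix.diagonal_apply]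

theorem mono_permElt (p : Equiv.Perm (Fin m)) :
    Mono ((permElt p : Matrix.symplecticGroup (Fin m) F) : Matrix (Fin m ⊕ Fin m) (Fin m ⊕ Fin m) F) := by
  rintro (x | x)
  · exact ⟨.inl (p x), fun y hy => by rcases y with y | y <;> simp_all [permElt, PEquiv.toMatrix_apply, eq_comm]⟩
  · exact ⟨.inr (p x), fun y hy => by rcases y with y | y <;> simp_all [permElt, PEquiv.toMatrix_apply, eq_comm]⟩

/-- The monomial element with the given parameters. -/
def monoElt (p : Equiv.Perm (Fin m)) (b : Fin m → Bool) (c : Fin m → Fˣ) : Matrix.symplecticGroup (Fin m) F :=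
  permElt p⁻¹ * (flipElt b * torusElt c)

/-- The target of a coordinate vector. -/
def tgt (p : Equiv.Perm (Fin m)) (b : Fin m → Bool) (j : Fin m) : Fin m ⊕ Fin m :=
  if b j then .inr (p j) else .inl (p j)

theorem monoElt_col (p : Equiv.Perm (Fin m)) (b : Fin m → Bool) (c : Fin m → Fˣ) (j : Fin m) :
    (monoElt p b c : Matrix (Fin m ⊕ Fin m) (Fin m ⊕ Fin m) F) *ᵥ Pi.single (Sum.inl j) 1
      = Pi.single (tgt p b j) (c j : F) := by
  have e1 : ((torusElt c : Matrix.symplecticGroup (Fin m) F) : Matrix (Fin m ⊕ Fin m) (Fin m ⊕ Fin m) F) *ᵥ Pi.single (Sum.inl j) 1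
      = Pi.single (Sum.inl j) (c j : F) := by
    funext x; rcases x with x | x <;> simp [torusElt, Matrix.mulVec_single, Matrix.diagonal_apply, Pi.single_apply] <;> intro h <;> simp [h]
  have e2 : ((flipElt b : Matrix.symplecticGroup (Fin m) F) : Matrix (Fin m ⊕ Fin m) (Fin m ⊕ Fin m) F) *ᵥ Pi.single (Sum.inl j) (c j : F)
      = Pi.single (if b j then Sum.inr j else Sum.inl j) (c j : F) := by
    funext x
    rcases x with x | x <;> by_cases hxj : x = j <;> cases hb : b j <;>
      simp_all [flipElt, Matrix.mulVec_single, Matrix.diagonal_apply, Pi.single_apply]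
  rw [monoElt, Submonoid.coe_mul, Submonoid.coe_mul, ← Matrix.mulVec_mulVec, ← Matrix.mulVec_mulVec, e1, e2]
  funext x
  unfold tgt
  rcases x with x | x <;> cases hb : b j <;>
    simp [permElt, Matrix.mulVec_single, PEquiv.toMatrix_apply, Pi.single_apply, Equiv.symm_apply_eq, eq_comm] <;>
    exact if_congr ⟨fun h => by simp [h], fun h => by simp [h]⟩ rfl rfl

theorem card_normalizer [Fintype F] (hq : 4 ≤ Fintype.card F) :
    Nat.card ↥(Subgroup.normalizer (torus m F : Set (Matrix.symplecticGroup (Fin m) F)))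
      = 2 ^ m * Nat.factorial m * (Fintype.card F - 1) ^ m := by
  classical
  obtain ⟨α, hα0, hα1, hαm⟩ : ∃ α : F, α ≠ 0 ∧ α ≠ 1 ∧ α * α ≠ 1 := by
    by_contra hno; push Not at hno
    have : (Finset.univ : Finset F) ⊆ {0, 1, -1} := by
      intro a _
      by_cases ha : a = 0
      · simp [ha]
      by_cases ha1 : a = 1
      · simp [ha1]
      · simp [(mul_self_eq_one_iff.mp (hno a ha ha1)).resolve_left ha1]
    have := (Finset.card_le_card this).trans Finset.card_le_three
    rw [Finset.card_univ] at this; omega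
  -- normalising elements are monomial
  have hsep : ∀ y z : Fin m ⊕ Fin m, y ≠ z → ∃ t ∈ torus m F,
      (t : Matrix (Fin m ⊕ Fin m) (Fin m ⊕ Fin m) F) y y ≠ (t : Matrix (Fin m ⊕ Fin m) (Fin m ⊕ Fin m) F) z z := by
    intro y z hyz
    let i : Fin m := Sum.elim id id y
    refine ⟨torusElt (Pi.mulSingle i (Units.mk0 α hα0)), mem_torus.mpr ?_, ?_⟩
    · rintro (x | x) (w | w) h <;> simp_all [torusElt, Matrix.diagonal_apply]
    · have hinv : α⁻¹ ≠ 1 := fun h => hα1 (inv_eq_one.mp h)
      have hne : α ≠ α⁻¹ := fun h => hαm (by conv_lhs => arg 2; rw [h]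
                                             exact mul_inv_cancel₀ hα0)
      rcases y with y | y <;> rcases z with z | z <;> by_cases hzy : z = y <;>
        simp_all [torusElt, i, Pi.mulSingle_apply, hne.symm]
  have hrow : ∀ g ∈ Subgroup.normalizer (torus m F : Set (Matrix.symplecticGroup (Fin m) F)),
      Mono (g : Matrix (Fin m ⊕ Fin m) (Fin m ⊕ Fin m) F) ∧ ∀ y, ∃ x, ∀ w, w ≠ x → (g : Matrix (Fin m ⊕ Fin m) (Fin m ⊕ Fin m) F) w y = 0 := by
    intro g hg
    rw [Subgroup.mem_normalizer_iff] at hg
    set G := (g : Matrix (Fin m ⊕ Fin m) (Fin m ⊕ Fin m) F) with hG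
    have hkey : ∀ t ∈ torus m F, ∀ x y, G x y * (t : Matrix (Fin m ⊕ Fin m) (Fin m ⊕ Fin m) F) y y
        = ((g * t * g⁻¹ : Matrix.symplecticGroup (Fin m) F) : Matrix (Fin m ⊕ Fin m) (Fin m ⊕ Fin m) F) x x * G x y := by
      intro t ht x y
      have e := congrArg (fun a : Matrix.symplecticGroup (Fin m) F => (a : Matrix (Fin m ⊕ Fin m) (Fin m ⊕ Fin m) F) x y)
        (inv_mul_cancel_right (g * t) g)
      simp only [Submonoid.coe_mul] at e
      rw [Matrix.mul_apply, Finset.sum_eq_single x, Matrix.mul_apply (M := G) (N := (t : Matrix (Fin m ⊕ Fin m) (Fin m ⊕ Fin m) F)), Finset.sum_eq_single y] at e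
      · simp only [Submonoid.coe_mul]
        exact e.symm
      · intro a _ ha; rw [mem_torus.mp ht a y ha, mul_zero]
      · simp
      · intro a _ ha
        have := mem_torus.mp ((hg t).mp ht) x a (Ne.symm ha)
        simp only [Submonoid.coe_mul] at this
        rw [this, zero_mul]
      · simp
    constructor
    · intro x
      by_cases h : ∃ z, G x z ≠ 0
      · obtain ⟨z, hz⟩ := h
        refine ⟨z, fun y hy => ?_⟩
        by_contra hy0
        obtain ⟨t, ht, hne⟩ := hsep y z hy
        have h1 := hkey t ht x y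
        have h2 := hkey t ht x z
        rw [mul_comm, mul_left_inj' hy0] at h1
        rw [mul_comm, mul_left_inj' hz] at h2
        exact hne (h1.trans h2.symm)
      · push Not at h; exact ⟨x, fun y _ => h y⟩
    · intro y
      by_cases h : ∃ z, G z y ≠ 0
      · obtain ⟨z, hz⟩ := h
        refine ⟨z, fun w hw => ?_⟩
        by_contra hw0
        obtain ⟨t', ht', hne⟩ := hsep w z hw
        have ht : g⁻¹ * t' * g ∈ torus m F := (hg _).mpr (by simpa [mul_assoc] using ht')
        have h1 := hkey _ ht w y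
        have h2 := hkey _ ht z y
        rw [show g * (g⁻¹ * t' * g) * g⁻¹ = t' by group] at h1 h2
        rw [mul_comm, mul_left_inj' hw0] at h1
        rw [mul_comm, mul_left_inj' hz] at h2
        exact hne (h1.symm.trans h2)
      · push Not at h; exact ⟨y, fun w _ => h w⟩
  let f : Equiv.Perm (Fin m) × (Fin m → Bool) × (Fin m → Fˣ) →
      ↥(Subgroup.normalizer (torus m F : Set (Matrix.symplecticGroup (Fin m) F))) := fun d =>
    ⟨monoElt d.1 d.2.1 d.2.2, mem_normalizer_of_mono (by
      simp only [monoElt, Submonoid.coe_mul]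
      exact (mono_permElt _).mul ((mono_flipElt _).mul (mono_torusElt _)))⟩
  have hf : Function.Bijective f := by
    constructor
    · rintro ⟨p, b, c⟩ ⟨p', b', c'⟩ h
      have h' : monoElt p b c = monoElt p' b' c' := congrArg Subtype.val h
      have hj : ∀ j, tgt p b j = tgt p' b' j ∧ c j = c' j := by
        intro j
        have e := monoElt_col p b c j
        rw [h', monoElt_col] at e
        have e2 := congrFun e (tgt p' b' j)
        rw [Pi.single_eq_same] at e2
        by_cases hne : tgt p' b' j = tgt p b j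
        · rw [hne, Pi.single_eq_same] at e2
          exact ⟨hne.symm, Units.ext e2.symm⟩
        · rw [Pi.single_eq_of_ne hne] at e2
          exact absurd e2 (Units.ne_zero _)
      have hpb : ∀ j, p j = p' j ∧ b j = b' j := fun j => by
        have := (hj j).1
        cases hb : b j <;> cases hb' : b' j <;> simp_all [tgt]
      exact Prod.ext (Equiv.ext fun j => (hpb j).1) (Prod.ext (funext fun j => (hpb j).2) (funext fun j => (hj j).2))
    · rintro ⟨g, hg⟩
      obtain ⟨-, hcol⟩ := hrow g hg
      set G := (g : Matrix (Fin m ⊕ Fin m) (Fin m ⊕ Fin m) F) with hGdef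
      choose X hX using hcol
      have hGdet := (SymplecticGroup.symplectic_det g.2).ne_zero
      have hXne : ∀ y, G (X y) y ≠ 0 := fun y h0 => hGdet (Matrix.det_eq_zero_of_column_eq_zero y fun w => by
        by_cases hw : w = X y
        · rw [hw]; exact h0
        · exact hX y w hw)
      let π : Fin m → Fin m := fun j => Sum.elim id id (X (.inl j))
      have hπ : Function.Injective π := by
        intro j k hjk
        by_contra hne
        have hdiff : X (.inl j) ≠ X (.inl k) := by
          intro he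
          obtain ⟨z, hz⟩ := (hrow g hg).1 (X (.inl j))
          have h1 : (Sum.inl j : Fin m ⊕ Fin m) = z := by_contra fun hc => hXne _ (hz _ hc)
          have h2 : (Sum.inl k : Fin m ⊕ Fin m) = z := by_contra fun hc => hXne (.inl k) (by rw [← he]; exact hz _ hc)
          exact hne (Sum.inl_injective (h1.trans h2.symm))
        have hsum := congrFun (congrFun (SymplecticGroup.mem_iff'.mp g.2) (Sum.inl j)) (Sum.inl k)
        rw [Matrix.mul_apply, Finset.sum_eq_single (X (.inl k)) (fun a _ ha => by rw [show (g : Matrix (Fin m ⊕ Fin m) (Fin m ⊕ Fin m) F) a (Sum.inl k) = 0 from hX _ a ha, mul_zero]) (by simp),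
          Matrix.mul_apply, Finset.sum_eq_single (X (.inl j)) (fun a _ ha => by rw [Matrix.transpose_apply, show (g : Matrix (Fin m ⊕ Fin m) (Fin m ⊕ Fin m) F) a (Sum.inl j) = 0 from hX _ a ha, zero_mul]) (by simp)] at hsum
        simp only [Matrix.transpose_apply] at hsum
        have hJ : Matrix.J (Fin m) F (X (.inl j)) (X (.inl k)) ≠ 0 := by
          simp only [π] at hjk
          generalize X (Sum.inl j) = u at hjk hdiff ⊢
          generalize X (Sum.inl k) = v at hjk hdiff ⊢
          rcases u with u | u <;> rcases v with v | v <;> simp only [Sum.elim_inl, Sum.elim_inr, id] at hjk <;> subst hjk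
          · exact absurd rfl hdiff
          · simp [Matrix.J]
          · simp [Matrix.J]
          · exact absurd rfl hdiff
        have h0 : Matrix.J (Fin m) F (Sum.inl j) (Sum.inl k) = 0 := by simp [Matrix.J]
        rw [h0] at hsum
        exact mul_ne_zero (mul_ne_zero (hXne _) hJ) (hXne _) hsum
      let p : Equiv.Perm (Fin m) := Equiv.ofBijective π (Finite.injective_iff_bijective.mp hπ)
      let b : Fin m → Bool := fun j => (X (.inl j)).isRight
      let c : Fin m → Fˣ := fun j => Units.mk0 _ (hXne (.inl j))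
      refine ⟨(p, b, c), Subtype.ext ?_⟩
      show monoElt p b c = g
      have hK : (monoElt p b c)⁻¹ * g ∈ Subgroup.normalizer (torus m F : Set (Matrix.symplecticGroup (Fin m) F)) :=
        mul_mem (inv_mem (f (p, b, c)).2) hg
      set K := (monoElt p b c)⁻¹ * g with hKdef
      set H := (K : Matrix (Fin m ⊕ Fin m) (Fin m ⊕ Fin m) F) with hHdef
      have hfix : ∀ j, H *ᵥ Pi.single (Sum.inl j) 1 = Pi.single (Sum.inl j) 1 := by
        intro j
        have hgj : G *ᵥ Pi.single (Sum.inl j) 1 = (monoElt p b c : Matrix (Fin m ⊕ Fin m) (Fin m ⊕ Fin m) F) *ᵥ Pi.single (Sum.inl j) 1 := by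
          rw [monoElt_col]
          have htg : tgt p b j = X (.inl j) := by
            rcases hj : X (Sum.inl j) with a | a <;> simp [tgt, b, p, π, hj]
          funext x
          rw [htg]
          by_cases hx : x = X (.inl j)
          · subst hx; simp [Matrix.mulVec_single, c]
          · simp [Matrix.mulVec_single, hx, hX _ x hx]
        rw [hHdef, hKdef, Submonoid.coe_mul, ← Matrix.mulVec_mulVec, hgj, Matrix.mulVec_mulVec,
          ← Submonoid.coe_mul, inv_mul_cancel, Submonoid.coe_one, Matrix.one_mulVec]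
      have hA : H.toBlocks₁₁ = 1 := by
        ext i j; simpa [Matrix.toBlocks₁₁, Matrix.mulVec_single, Pi.single_apply, Matrix.one_apply] using congrFun (hfix j) (Sum.inl i)
      have hC : H.toBlocks₂₁ = 0 := by
        ext i j; simpa [Matrix.toBlocks₂₁, Matrix.mulVec_single] using congrFun (hfix j) (Sum.inr i)
      have hB : H.toBlocks₁₂ = 0 := by
        ext i j
        obtain ⟨z, hz⟩ := (hrow K hK).1 (Sum.inl i)
        have h1 : (Sum.inl i : Fin m ⊕ Fin m) = z := by
          by_contra hc
          have := congrFun (congrFun hA i) i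
          rw [Matrix.one_apply_eq] at this
          exact one_ne_zero (this.symm.trans (hz _ hc))
        exact hz (Sum.inr j) (by simp [← h1])
      have hrel := SymplecticGroup.fromBlocks_mem_iff.mp
        (show Matrix.fromBlocks H.toBlocks₁₁ H.toBlocks₁₂ H.toBlocks₂₁ H.toBlocks₂₂ ∈ Matrix.symplecticGroup (Fin m) F by
          rw [Matrix.fromBlocks_toBlocks]; exact K.2)
      rw [hA, hB, hC] at hrel
      have hD : H.toBlocks₂₂ = 1 := by simpa using hrel.2.2
      have hK1 : K = 1 := Subtype.ext (by
        show H = 1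
        rw [← Matrix.fromBlocks_toBlocks H, hA, hB, hC, hD, Matrix.fromBlocks_one])
      exact inv_mul_eq_one.mp hK1
  rw [← Nat.card_eq_of_bijective f hf, Nat.card_prod, Nat.card_prod, Nat.card_perm, Nat.card_fun, Nat.card_fun,
    Nat.card_fin, Nat.card_units, Nat.card_eq_fintype_card (α := Bool), Fintype.card_bool,
    Nat.card_eq_fintype_card (α := F)]
  ring

theorem result {F : Type*} [Field F] [Fintype F] {q : ℕ} (hF : Fintype.card F = q) (hq : 4 ≤ q) (m : ℕ) : Nat.card ↥(Subgroup.normalizer (⨅ i : Fin m ⊕ Fin m, Cfsg.stabilizing (Cfsg.spToMat m F) ((Submodule.span F {(Pi.single i (1 : F) : Fin m ⊕ Fin m → F)} : Submodule F (Fin m ⊕ Fin m → F)) : Set (Fin m ⊕ Fin m → F)) : Set (Matrix.symplecticGroup (Fin m) F))) = 2 ^ m * Nat.factorial m * (q - 1) ^ m := by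
  subst hF
  rw [Set.iInf_eq_iInter, ← Subgroup.coe_iInf]
  exact card_normalizer hq

end Cfsg.Agent.S0777
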