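import Cfsg.Statements.S0778
-- import your own Cfsg.Agent.* helpers here

set_option autoImplicit false
open Cfsg

namespace Cfsg.Agent.S0778

/-- The elements of Sp_2m(F) stabilising both W = ⟨e_1..e_m⟩ and U = ⟨f_1..f_m⟩ form a subgroup isomorphic to GL_m(F) (block-diagonal matrices diag(X, X^(−ᵀ)) up to the sign convention of J), for m ≥ 1 or m = 0 alike. -/
theorem result {F : Type*} [Field F] (m : ℕ) : Nonempty (↥(Cfsg.stabilizing (Cfsg.spToMat m F) {v : Fin m ⊕ Fin m → F | ∀ i : Fin m, v (Sum.inr i) = 0} ⊓ Cfsg.stabilizing (Cfsg.spToMat m F) {v : Fin m ⊕ Fin m → F | ∀ i : Fin m, v (Sum.inl i) = 0}) ≃* Matrix.GeneralLinearGroup (Fin m) F) := by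
  classical
  refine ⟨?_⟩
  let T := ↥(Cfsg.stabilizing (Cfsg.spToMat m F) {v : Fin m ⊕ Fin m → F | ∀ i : Fin m, v (Sum.inr i) = 0} ⊓ Cfsg.stabilizing (Cfsg.spToMat m F) {v : Fin m ⊕ Fin m → F | ∀ i : Fin m, v (Sum.inl i) = 0})
  have hblk : ∀ g : T, ((g : Matrix.symplecticGroup (Fin m) F) : Matrix (Fin m ⊕ Fin m) (Fin m ⊕ Fin m) F).toBlocks₂₁ = 0 ∧ ((g : Matrix.symplecticGroup (Fin m) F) : Matrix (Fin m ⊕ Fin m) (Fin m ⊕ Fin m) F).toBlocks₁₂ = 0 := by
    intro g
    constructor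
    · ext i j
      have := (g.2.1 (Pi.single (Sum.inl j) 1)).mp (fun k => by simp) i
      simpa [Matrix.toBlocks₂₁, Matrix.mulVec_single] using this
    · ext i j
      have := (g.2.2 (Pi.single (Sum.inr j) 1)).mp (fun k => by simp) i
      simpa [Matrix.toBlocks₁₂, Matrix.mulVec_single] using this
  have hform : ∀ g : T, ((g : Matrix.symplecticGroup (Fin m) F) : Matrix (Fin m ⊕ Fin m) (Fin m ⊕ Fin m) F)
      = Matrix.fromBlocks ((g : Matrix.symplecticGroup (Fin m) F) : Matrix (Fin m ⊕ Fin m) (Fin m ⊕ Fin m) F).toBlocks₁₁ 0 0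
        ((g : Matrix.symplecticGroup (Fin m) F) : Matrix (Fin m ⊕ Fin m) (Fin m ⊕ Fin m) F).toBlocks₂₂ := by
    intro g
    conv_lhs => rw [← Matrix.fromBlocks_toBlocks ((g : Matrix.symplecticGroup (Fin m) F) : Matrix (Fin m ⊕ Fin m) (Fin m ⊕ Fin m) F)]
    rw [(hblk g).1, (hblk g).2]
  let A : T → Matrix (Fin m) (Fin m) F := fun g => ((g : Matrix.symplecticGroup (Fin m) F) : Matrix (Fin m ⊕ Fin m) (Fin m ⊕ Fin m) F).toBlocks₁₁
  let D : T → Matrix (Fin m) (Fin m) F := fun g => ((g : Matrix.symplecticGroup (Fin m) F) : Matrix (Fin m ⊕ Fin m) (Fin m ⊕ Fin m) F).toBlocks₂₂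
  have hAD : ∀ g : T, A g * (D g).transpose = 1 := by
    intro g
    have h := (g : Matrix.symplecticGroup (Fin m) F).2
    rw [SymplecticGroup.mem_iff, hform g] at h
    simp [Matrix.J, Matrix.fromBlocks_transpose, Matrix.fromBlocks_multiply, Matrix.fromBlocks_inj] at h
    simpa [A, D] using h.1
  have hmul : ∀ g h : T, A (g * h) = A g * A h := by
    intro g h
    have e : (((g * h : T) : Matrix.symplecticGroup (Fin m) F) : Matrix (Fin m ⊕ Fin m) (Fin m ⊕ Fin m) F)
        = ((g : Matrix.symplecticGroup (Fin m) F) : Matrix (Fin m ⊕ Fin m) (Fin m ⊕ Fin m) F) * ((h : Matrix.symplecticGroup (Fin m) F) : Matrix (Fin m ⊕ Fin m) (Fin m ⊕ Fin m) F) := rfl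
    show Matrix.toBlocks₁₁ _ = _
    rw [e, hform g, hform h, Matrix.fromBlocks_multiply]
    simp [A]
  let φ : T →* Matrix.GeneralLinearGroup (Fin m) F := MonoidHom.mk'
    (fun g => ⟨A g, (D g).transpose, hAD g, mul_eq_one_comm.mp (hAD g)⟩)
    (fun g h => Units.ext (hmul g h))
  refine MulEquiv.ofBijective φ ⟨?_, ?_⟩
  · intro g h hgh
    have hA : A g = A h := congrArg Units.val hgh
    have hD : D g = D h := Matrix.transpose_injective (congrArg Units.inv hgh)
    apply Subtype.ext; apply Subtype.ext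
    rw [hform g, hform h]
    exact congrArg₂ (fun a d => Matrix.fromBlocks a 0 0 d) hA hD
  · intro u
    let M : Matrix (Fin m ⊕ Fin m) (Fin m ⊕ Fin m) F :=
      Matrix.fromBlocks (u : Matrix (Fin m) (Fin m) F) 0 0 ((u⁻¹ : Matrix.GeneralLinearGroup (Fin m) F) : Matrix (Fin m) (Fin m) F).transpose
    have h1 : (u : Matrix (Fin m) (Fin m) F) * ((u⁻¹ : Matrix.GeneralLinearGroup (Fin m) F) : Matrix (Fin m) (Fin m) F) = 1 := u.mul_inv
    have hM : M ∈ Matrix.symplecticGroup (Fin m) F := by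
      rw [SymplecticGroup.mem_iff]
      simp [M, Matrix.J, Matrix.fromBlocks_transpose, Matrix.fromBlocks_multiply, ← Matrix.transpose_mul, h1]
    have hinj : ∀ a : Matrix (Fin m) (Fin m) F, IsUnit a → ∀ x : Fin m → F, a.mulVec x = 0 → x = 0 := by
      intro a ha x hx
      exact Matrix.mulVec_injective_iff_isUnit.mpr ha (by simpa using hx)
    refine ⟨⟨⟨M, hM⟩, ?_, ?_⟩, Units.ext (by simp [φ, A, M])⟩
    · intro v
      constructor
      · intro hv i
        have e : v ∘ Sum.inr = 0 := funext hv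
        show Matrix.mulVec M v (Sum.inr i) = 0
        simp [M, Matrix.fromBlocks_mulVec, e]
      · intro hv
        have e : ((u⁻¹ : Matrix.GeneralLinearGroup (Fin m) F) : Matrix (Fin m) (Fin m) F).transpose.mulVec (v ∘ Sum.inr) = 0 := by
          funext i
          simpa [M, Matrix.fromBlocks_mulVec] using hv i
        exact congrFun (hinj _ ((Matrix.isUnit_transpose (A := ((u⁻¹ : Matrix.GeneralLinearGroup (Fin m) F) : Matrix (Fin m) (Fin m) F))).mpr (Units.isUnit _)) _ e)
    · intro v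
      constructor
      · intro hv i
        have e : v ∘ Sum.inl = 0 := funext hv
        show Matrix.mulVec M v (Sum.inl i) = 0
        simp [M, Matrix.fromBlocks_mulVec, e]
      · intro hv
        have e : (u : Matrix (Fin m) (Fin m) F).mulVec (v ∘ Sum.inl) = 0 := by
          funext i
          simpa [M, Matrix.fromBlocks_mulVec] using hv i
        exact congrFun (hinj _ (Units.isUnit _) _ e)

end Cfsg.Agent.S0778
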