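import Cfsg.Statements.S0779
-- import your own Cfsg.Agent.* helpers here

set_option autoImplicit false
open Cfsg

namespace Cfsg.Agent.S0779

/-- Unitary transvections: let |F| = q², h the standard Hermitian form Σ x_i y_i^q and v ≠ 0 with h(v, v) = 0. The linear map x ↦ x + c h(x, v) v is an isometry of h if and only if c = 0 or c^(q−1) = −1. -/
theorem result {F : Type*} [Field F] [Fintype F] {q : ℕ} (hF : Fintype.card F = q ^ 2) (n : ℕ) (v : Fin n → F) (hv : v ≠ 0) (hv0 : Cfsg.hermForm n F q v v = 0) (c : F) : (∀ x y : Fin n → F, Cfsg.hermForm n F q ((Cfsg.unitaryTransvection n q v c).mulVec x) ((Cfsg.unitaryTransvection n q v c).mulVec y) = Cfsg.hermForm n F q x y) ↔ (c = 0 ∨ c ^ (q - 1) = -1) := by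
  classical
  obtain ⟨p, hcharp⟩ := CharP.exists F
  haveI := hcharp
  obtain ⟨m, hp, hm⟩ := FiniteField.card F p
  haveI : Fact p.Prime := ⟨hp⟩
  have hq0 : q ≠ 0 := by
    intro h0
    rw [h0, zero_pow two_ne_zero] at hF
    exact Fintype.card_ne_zero hF
  obtain ⟨j, -, rfl⟩ : ∃ j ≤ (m : ℕ), q = p ^ j := by
    rw [← Nat.dvd_prime_pow hp, ← hm, hF]; exact dvd_pow_self q two_ne_zero
  haveI : CharP F p := hcharp
  set q := p ^ j with hq
  have hadd : ∀ a b : F, (a + b) ^ q = a ^ q + b ^ q := fun a b => add_pow_char_pow a b p j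
  have hqq : ∀ a : F, (a ^ q) ^ q = a := by
    intro a
    rw [← pow_mul, ← pow_two, ← hF, FiniteField.pow_card]
  have hsum : ∀ (s : Fin n → F), (∑ i, s i) ^ q = ∑ i, s i ^ q := fun s =>
    sum_pow_char_pow p j Finset.univ s
  have hsymm : ∀ x : Fin n → F, (Cfsg.hermForm n F q x v) ^ q = Cfsg.hermForm n F q v x := by
    intro x
    rw [Cfsg.hermForm, hsum, Cfsg.hermForm]
    exact Finset.sum_congr rfl fun i _ => by rw [mul_pow, hqq, mul_comm]
  have hT : ∀ x : Fin n → F, (Cfsg.unitaryTransvection n q v c).mulVec x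
      = x + (c * Cfsg.hermForm n F q x v) • v := by
    intro x
    have e : (fun i => (v i) ^ q) ⬝ᵥ x = Cfsg.hermForm n F q x v := by
      simp [dotProduct, Cfsg.hermForm, mul_comm]
    simp [Cfsg.unitaryTransvection, Matrix.add_mulVec, Matrix.smul_mulVec, Matrix.vecMulVec_mulVec,
      e, smul_smul]
  have key : ∀ x y, Cfsg.hermForm n F q ((Cfsg.unitaryTransvection n q v c).mulVec x)
      ((Cfsg.unitaryTransvection n q v c).mulVec y) = Cfsg.hermForm n F q x y
        + (c + c ^ q) * (Cfsg.hermForm n F q x v * Cfsg.hermForm n F q v y) := by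
    intro x y
    rw [hT, hT, ← hsymm y]
    have exp : ∀ a b : F, Cfsg.hermForm n F q (x + a • v) (y + b • v)
        = Cfsg.hermForm n F q x y + a * Cfsg.hermForm n F q v y + b ^ q * Cfsg.hermForm n F q x v
          + a * b ^ q * Cfsg.hermForm n F q v v := by
      intro a b
      simp only [Cfsg.hermForm, Finset.mul_sum, ← Finset.sum_add_distrib]
      refine Finset.sum_congr rfl fun i _ => ?_
      simp only [Pi.add_apply, Pi.smul_apply, smul_eq_mul, hadd, mul_pow]
      ring
    rw [exp, hv0, mul_pow, hsymm y]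
    ring
  obtain ⟨i, hi⟩ := Function.ne_iff.mp hv
  rw [Pi.zero_apply] at hi
  have hne : Cfsg.hermForm n F q (Pi.single i 1) v * Cfsg.hermForm n F q v (Pi.single i 1) ≠ 0 := by
    simp [Cfsg.hermForm, Pi.single_apply, ite_mul, hq0, hi]
  have hc : c + c ^ q = c * (1 + c ^ (q - 1)) := by
    rw [mul_add, mul_one, ← pow_succ', Nat.sub_add_cancel (Nat.one_le_iff_ne_zero.mpr hq0)]
  constructor
  · intro h
    have h1 := h (Pi.single i 1) (Pi.single i 1)
    rw [key, add_eq_left, mul_eq_zero] at h1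
    have h2 := h1.resolve_right hne
    rw [hc, mul_eq_zero] at h2
    exact h2.imp_right fun h3 => by linear_combination h3
  · intro h x y
    rw [key]
    rcases h with h | h
    · simp [h, hq0]
    · rw [hc, h]; simp

end Cfsg.Agent.S0779
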