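import Cfsg.Statements.S0783
-- import your own Cfsg.Agent.* helpers here

set_option autoImplicit false
open Cfsg

namespace Cfsg.Agent.S0783

open Matrix

theorem char_pow {F : Type*} [Field F] [Fintype F] {q : ℕ} (hF : Fintype.card F = q ^ 2) :
    2 ≤ q ∧ (∀ a : F, (a ^ q) ^ q = a) ∧ (∀ a b : F, (a + b) ^ q = a ^ q + b ^ q) := by
  obtain ⟨p, hcharp⟩ := CharP.exists F
  haveI := hcharp
  obtain ⟨m, hp, hm⟩ := FiniteField.card F p
  haveI : Fact p.Prime := ⟨hp⟩
  have hq2 : 2 ≤ q := by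
    have h : 1 < q ^ 2 := hF ▸ Fintype.one_lt_card
    by_contra hc
    interval_cases q <;> simp at h
  refine ⟨hq2, fun a => by rw [← pow_mul, ← pow_two, ← hF, FiniteField.pow_card], ?_⟩
  obtain ⟨j, -, rfl⟩ : ∃ j ≤ (m : ℕ), q = p ^ j := by
    rw [← Nat.dvd_prime_pow hp, ← hm, hF]; exact dvd_pow_self q two_ne_zero
  exact fun a b => add_pow_char_pow a b p j

/-- The surjection of a finite cyclic group onto `ZMod d` with kernel the `d`-th powers. -/
theorem exists_cyclic_hom {C : Type*} [CommGroup C] [Finite C] [IsCyclic C] {d : ℕ} (hd : d ∣ Nat.card C) :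
    ∃ ψ : C →* Multiplicative (ZMod d), Function.Surjective ψ ∧ ∀ x, ψ x = 1 ↔ ∃ w, w ^ d = x := by
  haveI : NeZero (Nat.card C) := ⟨Nat.card_pos.ne'⟩
  let e := zmodCyclicMulEquiv (G := C) inferInstance
  let c : Multiplicative (ZMod (Nat.card C)) →* Multiplicative (ZMod d) :=
    AddMonoidHom.toMultiplicative (ZMod.castHom hd (ZMod d)).toAddMonoidHom
  have hc : Function.Surjective c := fun y => by
    obtain ⟨z, hz⟩ := ZMod.castHom_surjective hd y.toAdd
    exact ⟨Multiplicative.ofAdd z, congrArg Multiplicative.ofAdd hz⟩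
  refine ⟨c.comp e.symm.toMonoidHom, hc.comp e.symm.surjective, fun x => ⟨fun h => ?_, ?_⟩⟩
  · obtain ⟨z, rfl⟩ := e.surjective x
    have h' : ((ZMod.val z.toAdd : ℕ) : ZMod d) = 0 := by
      simpa [c, ← ofAdd_zero, ZMod.natCast_val] using h
    obtain ⟨k, hk⟩ := (ZMod.natCast_eq_zero_iff _ _).mp h'
    refine ⟨e (Multiplicative.ofAdd (k : ZMod (Nat.card C))), ?_⟩
    rw [← map_pow, ← ofAdd_nsmul, nsmul_eq_mul, ← Nat.cast_mul, ← hk, ZMod.natCast_rightInverse z.toAdd]
    rfl
  · rintro ⟨w, rfl⟩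
    rw [map_pow]
    refine (Multiplicative.toAdd.injective ?_)
    rw [toAdd_pow, toAdd_one, nsmul_eq_mul, ZMod.natCast_self, zero_mul]


/-- PGU_n(q)/PSU_n(q) is cyclic of order (n, q+1): for n ≥ 2 and |F| = q² there is a surjective homomorphism from GU_n(q) onto the cyclic group of order gcd(n, q + 1) whose kernel is generated by the determinant-one elements together with the centre. -/
theorem result {F : Type*} [Field F] [Fintype F] {q : ℕ} (hF : Fintype.card F = q ^ 2) (n : ℕ) (hn : 2 ≤ n) : ∃ φ : ↥(Cfsg.GU n F q) →* Multiplicative (ZMod (Nat.gcd n (q + 1))), Function.Surjective φ ∧ φ.ker = (Matrix.GeneralLinearGroup.det : Matrix.GeneralLinearGroup (Fin n) F →* Fˣ).ker.subgroupOf (Cfsg.GU n F q) ⊔ Subgroup.center ↥(Cfsg.GU n F q) := by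
  classical
  obtain ⟨hq2, hqq, hadd⟩ := char_pow hF
  have hq0 : q ≠ 0 := by omega
  let σ : F →+* F :=
    { toFun := fun a => a ^ q, map_one' := one_pow q, map_mul' := fun a b => mul_pow a b q,
      map_zero' := zero_pow hq0, map_add' := hadd }
  have hσ : ∀ a : F, σ a = a ^ q := fun a => rfl
  have hmem : ∀ g : Matrix.GeneralLinearGroup (Fin n) F, g ∈ Cfsg.GU n F q ↔
      (g : Matrix (Fin n) (Fin n) F)ᵀ * (g : Matrix (Fin n) (Fin n) F).map σ = 1 := by
    intro g
    have hh : ∀ x y, Cfsg.hermForm n F q x y = x ⬝ᵥ (σ ∘ y) := fun x y => rfl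
    have key : ∀ x y, Cfsg.hermForm n F q ((g : Matrix (Fin n) (Fin n) F) *ᵥ x) ((g : Matrix (Fin n) (Fin n) F) *ᵥ y)
        = x ⬝ᵥ ((g : Matrix (Fin n) (Fin n) F)ᵀ * (g : Matrix (Fin n) (Fin n) F).map σ) *ᵥ (σ ∘ y) := by
      intro x y
      have e : σ ∘ ((g : Matrix (Fin n) (Fin n) F) *ᵥ y) = (g : Matrix (Fin n) (Fin n) F).map σ *ᵥ (σ ∘ y) :=
        funext fun i => RingHom.map_mulVec σ _ y i
      rw [hh, e, ← Matrix.mulVec_mulVec, Matrix.dotProduct_mulVec x, Matrix.vecMul_transpose]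
    constructor
    · intro h
      ext i j
      have h2 : Cfsg.hermForm n F q _ _ = Cfsg.hermForm n F q _ _ := h (Pi.single i 1) (Pi.single j 1)
      rw [Units.coeHom_apply, key, hh] at h2
      have e : σ ∘ (Pi.single j 1 : Fin n → F) = Pi.single j 1 := by
        funext k; by_cases hk : k = j <;> simp [hk]
      rw [e] at h2
      simpa [Matrix.one_apply, Pi.single_apply, eq_comm] using h2
    · intro h x y
      show Cfsg.hermForm n F q _ _ = Cfsg.hermForm n F q _ _
      rw [Units.coeHom_apply, key, h, Matrix.one_mulVec, hh]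
  have hdet : ∀ g : ↥(Cfsg.GU n F q), Matrix.GeneralLinearGroup.det (g : Matrix.GeneralLinearGroup (Fin n) F) ∈ rootsOfUnity (q + 1) F := by
    intro g
    have h := congrArg Matrix.det ((hmem _).mp g.2)
    rw [Matrix.det_mul, Matrix.det_transpose, ← RingHom.mapMatrix_apply, ← RingHom.map_det, Matrix.det_one, hσ] at h
    rw [mem_rootsOfUnity]
    ext
    rw [Units.val_pow_eq_pow_val, Matrix.GeneralLinearGroup.val_det_apply, Units.val_one, pow_succ']
    exact h
  let δ : ↥(Cfsg.GU n F q) →* ↥(rootsOfUnity (q + 1) F) :=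
    (Matrix.GeneralLinearGroup.det.comp (Cfsg.GU n F q).subtype).codRestrict _ hdet
  have hcard : Nat.card ↥(rootsOfUnity (q + 1) F) = q + 1 := by
    have e : rootsOfUnity (q + 1) F = (powMonoidHom (q + 1) : Fˣ →* Fˣ).ker := by
      ext u; simp [MonoidHom.mem_ker, mem_rootsOfUnity]
    rw [e, IsCyclic.card_powMonoidHom_ker, Nat.card_units, Nat.card_eq_fintype_card, hF, Nat.gcd_comm]
    apply Nat.gcd_eq_left
    obtain ⟨r, rfl⟩ := Nat.exists_eq_add_of_le hq2
    exact ⟨r + 1, Nat.sub_eq_of_eq_add (by ring)⟩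
  have hdiag : ∀ d : Fin n → Fˣ, (∀ i, d i ∈ rootsOfUnity (q + 1) F) →
      ∃ g : ↥(Cfsg.GU n F q), ((g : Matrix.GeneralLinearGroup (Fin n) F) : Matrix (Fin n) (Fin n) F) = Matrix.diagonal fun i => (d i : F) := by
    intro d hd
    refine ⟨⟨⟨Matrix.diagonal fun i => (d i : F), Matrix.diagonal fun i => ((d i)⁻¹ : Fˣ), by simp, by simp⟩, (hmem _).mpr ?_⟩, rfl⟩
    show (Matrix.diagonal fun i => (d i : F))ᵀ * (Matrix.diagonal fun i => (d i : F)).map σ = 1
    rw [Matrix.diagonal_transpose, Matrix.diagonal_map (map_zero σ), Matrix.diagonal_mul_diagonal, ← Matrix.diagonal_one]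
    congr 1; funext i
    have := congrArg Units.val ((mem_rootsOfUnity _ _).mp (hd i))
    rw [Units.val_pow_eq_pow_val, Units.val_one, pow_succ'] at this
    simpa [hσ] using this
  haveI : NeZero n := ⟨by omega⟩
  have hδ : Function.Surjective δ := by
    intro z
    obtain ⟨g, hg⟩ := hdiag (Pi.mulSingle 0 (z : Fˣ)) fun i => by
      by_cases hi : i = 0 <;> simp [hi, z.2, one_mem]
    refine ⟨g, Subtype.ext (Units.ext ?_)⟩
    show Matrix.det ((g : Matrix.GeneralLinearGroup (Fin n) F) : Matrix (Fin n) (Fin n) F) = _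
    rw [hg, Matrix.det_diagonal, ← Units.coe_prod]
    simp
  have hcen : ∀ g, g ∈ Subgroup.center ↥(Cfsg.GU n F q) → ∃ a : F,
      ((g : Matrix.GeneralLinearGroup (Fin n) F) : Matrix (Fin n) (Fin n) F) = Matrix.scalar (Fin n) a := by
    intro g hg
    obtain ⟨z, hz⟩ : ∃ z : ↥(rootsOfUnity (q + 1) F), z ≠ 1 := by
      haveI : Nontrivial ↥(rootsOfUnity (q + 1) F) := Finite.one_lt_card_iff_nontrivial.mp (by omega)
      exact exists_ne 1
    have hz1 : ((z : Fˣ) : F) ≠ 1 := fun h => hz (Subtype.ext (Units.ext h))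
    have hcomm : ∀ h : ↥(Cfsg.GU n F q), ((h : Matrix.GeneralLinearGroup (Fin n) F) : Matrix (Fin n) (Fin n) F) * ((g : Matrix.GeneralLinearGroup (Fin n) F) : Matrix (Fin n) (Fin n) F)
        = ((g : Matrix.GeneralLinearGroup (Fin n) F) : Matrix (Fin n) (Fin n) F) * ((h : Matrix.GeneralLinearGroup (Fin n) F) : Matrix (Fin n) (Fin n) F) := fun h =>
      congrArg (fun x : ↥(Cfsg.GU n F q) => ((x : Matrix.GeneralLinearGroup (Fin n) F) : Matrix (Fin n) (Fin n) F)) (Subgroup.mem_center_iff.mp hg h)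
    set M := ((g : Matrix.GeneralLinearGroup (Fin n) F) : Matrix (Fin n) (Fin n) F)
    have hoff : ∀ i j, i ≠ j → M i j = 0 := by
      intro i j hij
      obtain ⟨h, hh⟩ := hdiag (Pi.mulSingle i (z : Fˣ)) fun k => by
        by_cases hk : k = i <;> simp [hk, z.2, one_mem]
      have e := congrFun (congrFun (hcomm h) i) j
      rw [hh, Matrix.diagonal_mul, Matrix.mul_diagonal, Pi.mulSingle_eq_same, Pi.mulSingle_eq_of_ne hij.symm, Units.val_one, mul_one] at e
      exact (mul_eq_zero.mp (by linear_combination e : (((z : Fˣ) : F) - 1) * M i j = 0)).resolve_left (sub_ne_zero.mpr hz1)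
    refine ⟨M 0 0, ?_⟩
    have hperm : ∀ i, M i i = M 0 0 := by
      intro i
      let P : Matrix (Fin n) (Fin n) F := Matrix.of fun a b => if Equiv.swap 0 i a = b then 1 else 0
      have hPP : P * P = 1 := by
        ext a b
        rw [Matrix.mul_apply, Finset.sum_eq_single (Equiv.swap 0 i a)]
        · simp [P, Matrix.one_apply]
        · intro c _ hc; simp [P, Ne.symm hc]
        · simp
      have hP : (⟨P, P, hPP, hPP⟩ : Matrix.GeneralLinearGroup (Fin n) F) ∈ Cfsg.GU n F q := by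
        rw [hmem]
        have e : Pᵀ = P := by
          ext a b
          simp only [P, Matrix.transpose_apply, Matrix.of_apply]
          refine if_congr ⟨fun h => ?_, fun h => ?_⟩ rfl rfl <;> rw [← h, Equiv.swap_apply_self]
        have e' : P.map σ = P := by
          ext a b; simp [P, apply_ite σ]
        show Pᵀ * P.map σ = 1
        rw [e, e', hPP]
      have h := congrFun (congrFun (hcomm ⟨_, hP⟩) 0) i
      have e2 : ∀ j, (0 = Equiv.swap 0 i j) ↔ j = i := fun j => by
        rw [eq_comm, Equiv.swap_apply_eq_iff, Equiv.swap_apply_left]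
      simpa [P, Matrix.mul_apply, Equiv.swap_apply_eq_iff, e2] using h
    ext a b
    by_cases hab : a = b
    · subst hab; simp [hperm a]
    · simp [hab, hoff a b hab]
  have hd : Nat.gcd n (q + 1) ∣ Nat.card ↥(rootsOfUnity (q + 1) F) := hcard.symm ▸ (Nat.gcd_dvd_right n (q + 1) : _)
  obtain ⟨ψ, hψ, hker⟩ := exists_cyclic_hom hd
  refine ⟨ψ.comp δ, hψ.comp hδ, le_antisymm ?_ (sup_le ?_ ?_)⟩
  · intro g hg
    obtain ⟨w, hw⟩ := (hker _).mp hg
    set z : ↥(rootsOfUnity (q + 1) F) := w ^ Nat.gcdA n (q + 1)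
    have hz : z ^ n = δ g := by
      have h1 : w ^ ((q + 1 : ℕ) : ℤ) = 1 := by
        rw [zpow_natCast, show w ^ (q + 1) = w ^ Nat.card ↥(rootsOfUnity (q + 1) F) from congrArg _ hcard.symm, pow_card_eq_one']
      rw [← hw, ← zpow_natCast w, Nat.gcd_eq_gcd_ab, _root_.zpow_add, _root_.zpow_mul w ((q + 1 : ℕ) : ℤ), h1, _root_.one_zpow, mul_one,
        mul_comm, _root_.zpow_mul, zpow_natCast]
    obtain ⟨s, hs⟩ := hdiag (fun _ => (z : Fˣ)) fun _ => z.2
    have hsc : s ∈ Subgroup.center ↥(Cfsg.GU n F q) := by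
      rw [Subgroup.mem_center_iff]
      intro h
      ext1; ext1
      simp only [Subgroup.coe_mul, Units.val_mul, hs]
      exact ((Matrix.scalar_commute ((z : Fˣ) : F) (fun r => mul_comm _ r) _).eq).symm
    have hdets : δ s = z ^ n := by
      apply Subtype.ext; apply Units.ext
      show Matrix.det ((s : Matrix.GeneralLinearGroup (Fin n) F) : Matrix (Fin n) (Fin n) F) = _
      simp [hs]
    rw [← inv_mul_cancel_right g s]
    refine Subgroup.mul_mem_sup ?_ hsc
    have : δ (g * s⁻¹) = 1 := by rw [map_mul, map_inv, hdets, hz, mul_inv_cancel]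
    exact congrArg (fun x : ↥(rootsOfUnity (q + 1) F) => (x : Fˣ)) this
  · intro g hg
    have : δ g = 1 := Subtype.ext hg
    rw [MonoidHom.mem_ker, MonoidHom.comp_apply, this, map_one]
  · intro g hg
    obtain ⟨a, ha⟩ := hcen g hg
    rw [MonoidHom.mem_ker, MonoidHom.comp_apply, hker]
    have hdl : Matrix.det ((g : Matrix.GeneralLinearGroup (Fin n) F) : Matrix (Fin n) (Fin n) F) = a ^ n := by
      rw [ha]; simp
    have ha0 : a ≠ 0 := by
      rintro rfl
      exact (Matrix.GeneralLinearGroup.det (g : Matrix.GeneralLinearGroup (Fin n) F)).ne_zero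
        (by rw [Matrix.GeneralLinearGroup.val_det_apply, hdl, zero_pow (by omega)])
    have haμ : Units.mk0 a ha0 ∈ rootsOfUnity (q + 1) F := by
      have e := congrFun (congrFun ((hmem _).mp g.2) 0) 0
      rw [ha] at e
      rw [mem_rootsOfUnity]; ext
      simpa [Matrix.diagonal_map (map_zero σ), hσ, pow_succ'] using e
    obtain ⟨r, hr⟩ := Nat.gcd_dvd_left n (q + 1)
    refine ⟨⟨_, haμ⟩ ^ r, ?_⟩
    rw [← pow_mul, mul_comm, ← hr]
    apply Subtype.ext; apply Units.ext
    show _ = Matrix.det ((g : Matrix.GeneralLinearGroup (Fin n) F) : Matrix (Fin n) (Fin n) F)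
    simpa using hdl.symm

end Cfsg.Agent.S0783
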