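import Cfsg.Statements.S0786
import Cfsg.Agent.OrthGen.Index
-- import your own Cfsg.Agent.* helpers here

set_option autoImplicit false
open Cfsg

namespace Cfsg.Agent.S0786

/-- Generation by reflections: if F is finite, Q is a quadratic form on F^n with non-degenerate polar form, and (|F|, n) ≠ (2, 4), then the isometry group of Q is generated by the reflections r_v, Q(v) ≠ 0. -/
theorem result {F : Type*} [Field F] [Fintype F] {n : ℕ} (Q : QuadraticForm F (Fin n → F)) (hQ : (QuadraticMap.polarBilin Q).Nondegenerate) (h : Fintype.card F ≠ 2 ∨ n ≠ 4) : Subgroup.closure {g : ↥(Cfsg.isometryGroup F ⇑Q) | ∃ v : Fin n → F, Q v ≠ 0 ∧ ((g : Matrix.GeneralLinearGroup (Fin n) F) : Matrix (Fin n) (Fin n) F) = Cfsg.reflectionMatrix ⇑Q v} = ⊤ := by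
  have hB := OrthGen.bNondeg_of_nondegenerate Q hQ
  have hx4 : OrthGen.NotExceptional Q := by
    rcases h with h | h
    · refine Or.inl ?_
      classical
      by_contra hno
      push Not at hno
      refine h (le_antisymm ?_ Fintype.one_lt_card)
      calc Fintype.card F = (Finset.univ : Finset F).card := rfl
        _ ≤ ({0, 1} : Finset F).card := Finset.card_le_card fun a _ => by
          by_cases ha : a = 0
          · simp [ha]
          · simp [hno a ha]
        _ ≤ 2 := Finset.card_le_two
    · exact Or.inr (by rwa [Module.finrank_fintype_fun_eq_card, Fintype.card_fin])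
  rw [eq_top_iff]
  rintro g -
  obtain ⟨g, rfl⟩ := (OrthGen.matEquiv Q).symm.surjective g
  have hg : g ∈ Classical.RQ Q := by rw [OrthGen.RQ_eq_top hB hx4]; trivial
  induction hg using Subgroup.closure_induction with
  | mem k hk =>
    obtain ⟨x, hx, rfl⟩ := hk
    exact Subgroup.subset_closure ⟨x, hx, (OrthGen.eq_matEquiv_symm_refl Q x hx _).mpr ((OrthGen.matEquiv Q).apply_symm_apply _)⟩
  | one => rw [map_one]; exact one_mem _
  | mul a b _ _ ha hb => rw [map_mul]; exact mul_mem ha hb
  | inv a _ ha => rw [map_inv]; exact inv_mem ha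

end Cfsg.Agent.S0786
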