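import Cfsg.Statements.S0789
import Cfsg.Agent.OrthGen.Index
-- import your own Cfsg.Agent.* helpers here

set_option autoImplicit false
open Cfsg

namespace Cfsg.Agent.S0789

/-- Ω has index 2 in O for q even: if F is finite of characteristic two, n ≥ 2, Q is a quadratic form on F^n with non-degenerate polar form, and (|F|, n) ≠ (2, 4), then the commutator subgroup of the isometry group of Q has index 2 in it. -/
theorem result {F : Type*} [Field F] [Fintype F] [CharP F 2] {n : ℕ} (hn : 2 ≤ n) (Q : QuadraticForm F (Fin n → F)) (hQ : (QuadraticMap.polarBilin Q).Nondegenerate) (h : Fintype.card F ≠ 2 ∨ n ≠ 4) : (Cfsg.Omega F ⇑Q).index = 2 := by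
  have hB := OrthGen.bNondeg_of_nondegenerate Q hQ
  have hx4 : OrthGen.NotExceptional Q := by
    rcases h with h | h
    · refine Or.inl ?_
      classical
      by_contra hno
      push Not at hno
      refine h (le_antisymm ?_ Fintype.one_lt_card)
      calc Fintype.card F = (Finset.univ : Finset F).card := rfl
        _ ≤ ({0, 1} : Finset F).card := Finset.card_le_card fun a _ => by
          by_cases ha : a = 0
          · simp [ha]
          · simp [hno a ha]
        _ ≤ 2 := Finset.card_le_two
    · exact Or.inr (by rwa [Module.finrank_fintype_fun_eq_card, Fintype.card_fin])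
  exact OrthGen.index_Omega_two Q hB (by rwa [Fintype.card_fin]) hx4

end Cfsg.Agent.S0789
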