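import Cfsg.Statements.S0790
import Cfsg.Agent.OrthGen.Index
import Cfsg.Agent.Classical.OrthForms
import Cfsg.Agent.Classical.OrthFinal
-- import your own Cfsg.Agent.* helpers here

set_option autoImplicit false
open Cfsg

namespace Cfsg.Agent.S0790

/-- −1 ∈ Ω⁺_2m(q) iff q^m ≡ 1 (mod 4), for q odd and m ≥ 1 (so that in the other case SO⁺_2m(q) = 2 × Ω⁺_2m(q)). -/
theorem result {F : Type*} [Field F] [Fintype F] {q : ℕ} (hF : Fintype.card F = q) (hodd : Odd q) (m : ℕ) (hm : 1 ≤ m) : (∃ g : ↥(Cfsg.isometryGroup F (Cfsg.quadFormPlus m F)), g ∈ Cfsg.Omega F (Cfsg.quadFormPlus m F) ∧ ((g : Matrix.GeneralLinearGroup (Fin m ⊕ Fin m) F) : Matrix (Fin m ⊕ Fin m) (Fin m ⊕ Fin m) F) = -1) ↔ q ^ m % 4 = 1 := by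
  classical
  subst hF
  obtain ⟨k, rfl⟩ := Nat.exists_eq_add_of_le' hm
  have hodd' : Odd (Nat.card F) := by rwa [Nat.card_eq_fintype_card]
  have h2 : (2 : F) ≠ 0 := Classical.two_ne_zero_of_odd hodd'
  have hf : ⇑(Classical.plusQF (k + 1) F) = Cfsg.quadFormPlus (k + 1) F := funext (Classical.plusQF_apply _)
  rw [← hf]
  set Q := Classical.plusQF (k + 1) F
  have hB : Classical.BNondeg Q := Classical.bNondeg_congr (Classical.plusEquiv (k + 1))
    (Classical.plusEquiv_spec (k + 1)) (Classical.bNondeg_hypExt _ (fun x _ => Subsingleton.elim _ _))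
  have hcard : 2 ≤ Fintype.card (Fin (k + 1) ⊕ Fin (k + 1)) := by simp; omega
  have hN : Nat.card {v // Q v = 1} = Nat.card F ^ k * (Nat.card F ^ (k + 1) - 1) := by
    rw [Classical.card_level_congr (Classical.plusEquiv (k + 1)) (Classical.plusEquiv_spec (k + 1))]
    exact Classical.card_level_plus k
  have hq : Fintype.card F = Nat.card F := Nat.card_eq_fintype_card.symm
  have main : ∀ g : ↥(Cfsg.isometryGroup F ⇑Q), ((g : Matrix.GeneralLinearGroup (Fin (k + 1) ⊕ Fin (k + 1)) F) : Matrix (Fin (k + 1) ⊕ Fin (k + 1)) (Fin (k + 1) ⊕ Fin (k + 1)) F) = -1 →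
      (g ∈ Cfsg.Omega F ⇑Q ↔ Fintype.card F ^ (k + 1) % 4 = 1) := by
    intro g hg
    have hneg : ∀ v, (OrthGen.matEquiv Q g).1 v = -v := fun v => by
      rw [OrthGen.matEquiv_apply, hg, Matrix.neg_mulVec, Matrix.one_mulVec]
    rw [OrthGen.mem_Omega_iff Q h2 hB hcard, Classical.dickson_neg _ h2 hneg,
      Classical.levelSign_neg h2 _ hneg, hN, Module.finrank_fintype_fun_eq_card, Fintype.card_sum]
    rw [Even.neg_one_pow ⟨_, rfl⟩]
    simp only [true_and]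
    obtain ⟨s, hs⟩ : Odd (Nat.card F ^ k) := hodd'.pow
    obtain ⟨r, hr⟩ : Odd (Nat.card F ^ (k + 1)) := hodd'.pow
    rw [hq, hs, hr, Nat.add_sub_cancel, show (2 * s + 1) * (2 * r) = 2 * ((2 * s + 1) * r) by ring,
      Nat.mul_div_cancel_left _ two_pos, pow_mul, Odd.neg_one_pow ⟨s, rfl⟩]
    rcases Nat.even_or_odd r with ⟨j, rfl⟩ | ⟨j, rfl⟩
    · rw [Even.neg_one_pow ⟨j, rfl⟩]; simp only [true_iff]; omega
    · rw [Odd.neg_one_pow ⟨j, rfl⟩]
      exact iff_of_false (by decide) (by omega)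
  constructor
  · rintro ⟨g, hgO, hg⟩; exact (main g hg).mp hgO
  · intro h
    have hmem : (-1 : Matrix.GeneralLinearGroup (Fin (k + 1) ⊕ Fin (k + 1)) F) ∈ Cfsg.isometryGroup F ⇑Q :=
      (Refl.mem_isometryGroup_iff Q).mpr fun v => by
        rw [Units.val_neg, Units.val_one, Matrix.neg_mulVec, Matrix.one_mulVec, QuadraticMap.map_neg]
    exact ⟨⟨_, hmem⟩, (main ⟨_, hmem⟩ (by simp)).mpr h, by simp⟩

end Cfsg.Agent.S0790
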