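import Cfsg.Statements.S0791
import Cfsg.Agent.OrthGen.Index
import Cfsg.Agent.Classical.OrthForms
import Cfsg.Agent.Classical.OrthFinal
-- import your own Cfsg.Agent.* helpers here

set_option autoImplicit false
open Cfsg

namespace Cfsg.Agent.S0791

/-- −1 ∈ Ω⁻_2m(q) iff q^m ≡ −1 (mod 4), for q odd and m ≥ 1; for the minus-type form quadFormMinus (m−1) with anisotropic binary part. -/
theorem result {F : Type*} [Field F] [Fintype F] {q : ℕ} (hF : Fintype.card F = q) (hodd : Odd q) (m : ℕ) (hm : 1 ≤ m) (a b : F) (hab : ∀ z₁ z₂ : F, z₁ ^ 2 + a * z₁ * z₂ + b * z₂ ^ 2 = 0 → z₁ = 0 ∧ z₂ = 0) : (∃ g : ↥(Cfsg.isometryGroup F (Cfsg.quadFormMinus (m - 1) F a b)), g ∈ Cfsg.Omega F (Cfsg.quadFormMinus (m - 1) F a b) ∧ ((g : Matrix.GeneralLinearGroup ((Fin (m - 1) ⊕ Fin (m - 1)) ⊕ Fin 2) F) : Matrix ((Fin (m - 1) ⊕ Fin (m - 1)) ⊕ Fin 2) ((Fin (m - 1) ⊕ Fin (m - 1)) ⊕ Fin 2) F) = -1) ↔ q ^ m % 4 = 3 := by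
  classical
  subst hF
  obtain ⟨k, rfl⟩ := Nat.exists_eq_add_of_le' hm
  have hodd' : Odd (Nat.card F) := by rwa [Nat.card_eq_fintype_card]
  have h2 : (2 : F) ≠ 0 := Classical.two_ne_zero_of_odd hodd'
  have hA : (Classical.binQF a b).Anisotropic := Classical.anisotropic_binQF hab
  have hf : ⇑(Classical.minusQF k a b) = Cfsg.quadFormMinus k F a b := funext (Classical.minusQF_apply k a b)
  change (∃ g : ↥(Cfsg.isometryGroup F (Cfsg.quadFormMinus k F a b)), g ∈ Cfsg.Omega F (Cfsg.quadFormMinus k F a b) ∧ ((g : Matrix.GeneralLinearGroup ((Fin k ⊕ Fin k) ⊕ Fin 2) F) : Matrix ((Fin k ⊕ Fin k) ⊕ Fin 2) ((Fin k ⊕ Fin k) ⊕ Fin 2) F) = -1) ↔ _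
  rw [← hf]
  set Q := Classical.minusQF k a b
  have hB : Classical.BNondeg Q := Classical.bNondeg_congr (Classical.minusEquiv k)
    (Classical.minusEquiv_spec k a b) (Classical.bNondeg_hypExt _ (fun x hx => hA x (by
      have h := hx x
      rw [OrthGen.polar_self_two] at h
      exact (mul_eq_zero.mp h).resolve_left h2)))
  have hcard : 2 ≤ Fintype.card ((Fin k ⊕ Fin k) ⊕ Fin 2) := by simp
  have hN : Nat.card {v // Q v = 1} = Nat.card F ^ k * (Nat.card F ^ (k + 1) + 1) := by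
    rw [Classical.card_level_congr (Classical.minusEquiv k) (Classical.minusEquiv_spec k a b)]
    exact Classical.card_level_minus hA k
  have hq : Fintype.card F = Nat.card F := Nat.card_eq_fintype_card.symm
  have main : ∀ g : ↥(Cfsg.isometryGroup F ⇑Q), ((g : Matrix.GeneralLinearGroup ((Fin k ⊕ Fin k) ⊕ Fin 2) F) : Matrix ((Fin k ⊕ Fin k) ⊕ Fin 2) ((Fin k ⊕ Fin k) ⊕ Fin 2) F) = -1 →
      (g ∈ Cfsg.Omega F ⇑Q ↔ Fintype.card F ^ (k + 1) % 4 = 3) := by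
    intro g hg
    have hneg : ∀ v, (OrthGen.matEquiv Q g).1 v = -v := fun v => by
      rw [OrthGen.matEquiv_apply, hg, Matrix.neg_mulVec, Matrix.one_mulVec]
    rw [OrthGen.mem_Omega_iff Q h2 hB hcard, Classical.dickson_neg _ h2 hneg,
      Classical.levelSign_neg h2 _ hneg, hN, Module.finrank_fintype_fun_eq_card, Fintype.card_sum,
      Fintype.card_sum, Fintype.card_fin, Fintype.card_fin]
    rw [Even.neg_one_pow ⟨k + 1, by omega⟩]
    simp only [true_and]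
    obtain ⟨s, hs⟩ : Odd (Nat.card F ^ k) := hodd'.pow
    obtain ⟨r, hr⟩ : Odd (Nat.card F ^ (k + 1)) := hodd'.pow
    rw [hq, hs, hr, show (2 * s + 1) * (2 * r + 1 + 1) = 2 * ((2 * s + 1) * (r + 1)) by ring,
      Nat.mul_div_cancel_left _ two_pos, pow_mul, Odd.neg_one_pow ⟨s, rfl⟩]
    rcases Nat.even_or_odd (r + 1) with ⟨j, hj⟩ | ⟨j, hj⟩
    · rw [Even.neg_one_pow ⟨j, hj⟩]; simp only [true_iff]; omega
    · rw [Odd.neg_one_pow ⟨j, hj⟩]
      exact iff_of_false (by decide) (by omega)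
  constructor
  · rintro ⟨g, hgO, hg⟩; exact (main g hg).mp hgO
  · intro h
    have hmem : (-1 : Matrix.GeneralLinearGroup ((Fin k ⊕ Fin k) ⊕ Fin 2) F) ∈ Cfsg.isometryGroup F ⇑Q :=
      (Refl.mem_isometryGroup_iff Q).mpr fun v => by
        rw [Units.val_neg, Units.val_one, Matrix.neg_mulVec, Matrix.one_mulVec, QuadraticMap.map_neg]
    exact ⟨⟨_, hmem⟩, (main ⟨_, hmem⟩ (by simp)).mpr h, by simp⟩

end Cfsg.Agent.S0791
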