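import Cfsg.Statements.S0792
import Cfsg.Agent.OrthGen.Index
-- import your own Cfsg.Agent.* helpers here

set_option autoImplicit false
open Cfsg

namespace Cfsg.Agent.S0792

/-- For q odd and Q with non-degenerate polar form on F^n, the determinant-one isometries form the subgroup generated by all products r_u r_v of two reflections (Q(u), Q(v) ≠ 0). -/
theorem result {F : Type*} [Field F] [Fintype F] (h2 : (2 : F) ≠ 0) {n : ℕ} (Q : QuadraticForm F (Fin n → F)) (hQ : (QuadraticMap.polarBilin Q).Nondegenerate) : Cfsg.specialIsometryGroup F ⇑Q = Subgroup.closure {g : ↥(Cfsg.isometryGroup F ⇑Q) | ∃ u v : Fin n → F, Q u ≠ 0 ∧ Q v ≠ 0 ∧ ((g : Matrix.GeneralLinearGroup (Fin n) F) : Matrix (Fin n) (Fin n) F) = Cfsg.reflectionMatrix ⇑Q u * Cfsg.reflectionMatrix ⇑Q v} := by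
  have hB := OrthGen.bNondeg_of_nondegenerate Q hQ
  have hx4 := OrthGen.notExceptional_of_two_ne_zero (Q := Q) h2
  refine le_antisymm ?_ ((Subgroup.closure_le _).mpr ?_)
  · intro g hg
    have key : ∀ k : ↥(Classical.OQ Q),
        (Classical.dickson k = 1 → (OrthGen.matEquiv Q).symm k ∈ Subgroup.closure {g : ↥(Cfsg.isometryGroup F ⇑Q) | ∃ u v : Fin n → F, Q u ≠ 0 ∧ Q v ≠ 0 ∧ ((g : Matrix.GeneralLinearGroup (Fin n) F) : Matrix (Fin n) (Fin n) F) = Cfsg.reflectionMatrix ⇑Q u * Cfsg.reflectionMatrix ⇑Q v}) ∧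
        (Classical.dickson k = -1 → ∀ (x : Fin n → F) (hx : Q x ≠ 0), (OrthGen.matEquiv Q).symm (Classical.reflQ Q x hx * k) ∈ Subgroup.closure {g : ↥(Cfsg.isometryGroup F ⇑Q) | ∃ u v : Fin n → F, Q u ≠ 0 ∧ Q v ≠ 0 ∧ ((g : Matrix.GeneralLinearGroup (Fin n) F) : Matrix (Fin n) (Fin n) F) = Cfsg.reflectionMatrix ⇑Q u * Cfsg.reflectionMatrix ⇑Q v}) := by
      intro k
      have hk : k ∈ Classical.RQ Q := by rw [OrthGen.RQ_eq_top hB hx4]; trivial
      have hpair : ∀ (x y : Fin n → F) (hx : Q x ≠ 0) (hy : Q y ≠ 0),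
          (OrthGen.matEquiv Q).symm (Classical.reflQ Q x hx * Classical.reflQ Q y hy) ∈ Subgroup.closure {g : ↥(Cfsg.isometryGroup F ⇑Q) | ∃ u v : Fin n → F, Q u ≠ 0 ∧ Q v ≠ 0 ∧ ((g : Matrix.GeneralLinearGroup (Fin n) F) : Matrix (Fin n) (Fin n) F) = Cfsg.reflectionMatrix ⇑Q u * Cfsg.reflectionMatrix ⇑Q v} := by
        intro x y hx hy
        refine Subgroup.subset_closure ⟨x, y, hx, hy, ?_⟩
        rw [← OrthGen.matEquiv_reflectionIso Q x hx, ← OrthGen.matEquiv_reflectionIso Q y hy, ← map_mul, MulEquiv.symm_apply_apply]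
        rfl
      have hstep : ∀ (z : Fin n → F) (hz : Q z ≠ 0) (k : ↥(Classical.OQ Q)), ((Classical.dickson k = 1 → (OrthGen.matEquiv Q).symm k ∈ Subgroup.closure {g : ↥(Cfsg.isometryGroup F ⇑Q) | ∃ u v : Fin n → F, Q u ≠ 0 ∧ Q v ≠ 0 ∧ ((g : Matrix.GeneralLinearGroup (Fin n) F) : Matrix (Fin n) (Fin n) F) = Cfsg.reflectionMatrix ⇑Q u * Cfsg.reflectionMatrix ⇑Q v}) ∧ (Classical.dickson k = -1 → ∀ (x : Fin n → F) (hx : Q x ≠ 0), (OrthGen.matEquiv Q).symm (Classical.reflQ Q x hx * k) ∈ Subgroup.closure {g : ↥(Cfsg.isometryGroup F ⇑Q) | ∃ u v : Fin n → F, Q u ≠ 0 ∧ Q v ≠ 0 ∧ ((g : Matrix.GeneralLinearGroup (Fin n) F) : Matrix (Fin n) (Fin n) F) = Cfsg.reflectionMatrix ⇑Q u * Cfsg.reflectionMatrix ⇑Q v})) → ((Classical.dickson (Classical.reflQ Q z hz * k) = 1 → (OrthGen.matEquiv Q).symm (Classical.reflQ Q z hz * k) ∈ Subgroup.closure {g : ↥(Cfsg.isometryGroup F ⇑Q) | ∃ u v : Fin n → F, Q u ≠ 0 ∧ Q v ≠ 0 ∧ ((g : Matrix.GeneralLinearGroup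 (Fin n) F) : Matrix (Fin n) (Fin n) F) = Cfsg.reflectionMatrix ⇑Q u * Cfsg.reflectionMatrix ⇑Q v}) ∧ (Classical.dickson (Classical.reflQ Q z hz * k) = -1 → ∀ (x : Fin n → F) (hx : Q x ≠ 0), (OrthGen.matEquiv Q).symm (Classical.reflQ Q x hx * (Classical.reflQ Q z hz * k)) ∈ Subgroup.closure {g : ↥(Cfsg.isometryGroup F ⇑Q) | ∃ u v : Fin n → F, Q u ≠ 0 ∧ Q v ≠ 0 ∧ ((g : Matrix.GeneralLinearGroup (Fin n) F) : Matrix (Fin n) (Fin n) F) = Cfsg.reflectionMatrix ⇑Q u * Cfsg.reflectionMatrix ⇑Q v})) := fun z hz k ih =>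
        (⟨fun hd => ih.2 (by rw [Classical.dickson_refl_mul hB] at hd; rw [← hd, neg_neg]) z hz,
          fun hd x hx => by
            rw [← mul_assoc, map_mul]
            exact mul_mem (hpair x z hx hz) (ih.1 (by rw [Classical.dickson_refl_mul hB] at hd; exact neg_inj.mp hd))⟩)
      induction hk using Subgroup.closure_induction_left with
      | one => exact ⟨fun _ => by rw [map_one]; exact one_mem _,
          fun hd => absurd (Classical.dickson_one.symm.trans hd) (by decide)⟩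
      | mul_left a ha y _ ih => obtain ⟨z, hz, rfl⟩ := ha; exact hstep z hz y ih
      | inv_mul_cancel a ha y _ ih =>
        obtain ⟨z, hz, rfl⟩ := ha; rw [Classical.reflQ_inv]; exact hstep z hz y ih
    rw [← (OrthGen.matEquiv Q).symm_apply_apply g]
    refine (key _).1 ?_
    have := Subgroup.mem_map_of_mem (OrthGen.matEquiv Q).toMonoidHom hg
    rw [OrthGen.map_specialIsometryGroup Q h2 hB hx4] at this
    exact this
  · rintro g ⟨u, v, hu, hv, hg⟩
    rw [SetLike.mem_coe, Cfsg.specialIsometryGroup, MonoidHom.mem_ker, Units.ext_iff]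
    show ((g : Matrix.GeneralLinearGroup (Fin n) F) : Matrix (Fin n) (Fin n) F).det = 1
    rw [hg, Matrix.det_mul, Refl.det_reflectionMatrix Q hu, Refl.det_reflectionMatrix Q hv, neg_mul_neg, one_mul]

end Cfsg.Agent.S0792
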