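import Cfsg.Statements.S0793
import Cfsg.Agent.Refl.Basic
-- import your own Cfsg.Agent.* helpers here

set_option autoImplicit false
open Cfsg

namespace Cfsg.Agent.S0793

/-- Root elements: if Q(u) = Q(v) = 0 and f(u, v) = 0 (f the polar form), then for every c the Siegel matrix T_(u,v)(c) preserves Q, fixes u and v, and T(c) T(d) = T(c + d). -/
theorem result {F : Type*} [Field F] {n : ℕ} (Q : QuadraticForm F (Fin n → F)) (u v : Fin n → F) (hu : Q u = 0) (hv : Q v = 0) (huv : QuadraticMap.polar ⇑Q u v = 0) : (∀ c x, Q ((Cfsg.siegelMatrix ⇑Q u v c).mulVec x) = Q x) ∧ (∀ c, (Cfsg.siegelMatrix ⇑Q u v c).mulVec u = u ∧ (Cfsg.siegelMatrix ⇑Q u v c).mulVec v = v) ∧ ∀ c d, Cfsg.siegelMatrix ⇑Q u v c * Cfsg.siegelMatrix ⇑Q u v d = Cfsg.siegelMatrix ⇑Q u v (c + d) := by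
  have hvu : QuadraticMap.polar ⇑Q v u = 0 := by rw [QuadraticMap.polar_comm]; exact huv
  have huu : QuadraticMap.polar ⇑Q u u = 0 := by rw [Refl.polar_self_eq, hu, mul_zero]
  have hvv : QuadraticMap.polar ⇑Q v v = 0 := by rw [Refl.polar_self_eq, hv, mul_zero]
  refine ⟨fun c x => ?_, fun c => ⟨?_, ?_⟩, fun c d => ?_⟩
  · rw [Refl.siegelMatrix_mulVec, sub_eq_add_neg, ← neg_smul, Refl.map_add_smul,
      Refl.map_add_smul, QuadraticMap.polar_add_left, QuadraticMap.polar_smul_left, hu, hv, hvu,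
      QuadraticMap.polar_comm _ x v, QuadraticMap.polar_comm _ x u]
    simp only [smul_eq_mul]
    ring
  · rw [Refl.siegelMatrix_mulVec, huu, hvu]; simp
  · rw [Refl.siegelMatrix_mulVec, huv, hvv]; simp
  · refine Matrix.ext_iff_mulVec.mpr fun x => ?_
    rw [← Matrix.mulVec_mulVec, Refl.siegelMatrix_mulVec, Refl.siegelMatrix_mulVec,
      Refl.siegelMatrix_mulVec]
    simp only [sub_eq_add_neg, ← neg_smul, QuadraticMap.polar_add_right,
      QuadraticMap.polar_smul_right, huu, huv, hvu, hvv, smul_eq_mul, mul_zero, add_zero]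
    module

end Cfsg.Agent.S0793
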