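import Cfsg.Statements.S0794
import Cfsg.Agent.OrthGen.Siegel
-- import your own Cfsg.Agent.* helpers here

set_option autoImplicit false
open Cfsg

namespace Cfsg.Agent.S0794

/-- For q odd, n ≥ 5 and Q with non-degenerate polar form: an isometry whose matrix is a Siegel transformation T_(u,v)(c) (u, v singular and orthogonal) is a commutator in the isometry group, so lies in Ω. -/
theorem result {F : Type*} [Field F] [Fintype F] (h2 : (2 : F) ≠ 0) {n : ℕ} (hn : 5 ≤ n) (Q : QuadraticForm F (Fin n → F)) (hQ : (QuadraticMap.polarBilin Q).Nondegenerate) (u v : Fin n → F) (hu : Q u = 0) (hv : Q v = 0) (huv : QuadraticMap.polar ⇑Q u v = 0) (c : F) (g : ↥(Cfsg.isometryGroup F ⇑Q)) (hg : ((g : Matrix.GeneralLinearGroup (Fin n) F) : Matrix (Fin n) (Fin n) F) = Cfsg.siegelMatrix ⇑Q u v c) : g ∈ commutatorSet ↥(Cfsg.isometryGroup F ⇑Q) ∧ g ∈ Cfsg.Omega F ⇑Q := by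
  have hB := OrthGen.bNondeg_of_nondegenerate Q hQ
  have hcv : QuadraticMap.polar ⇑Q u (c • v) = 0 := by rw [QuadraticMap.polar_smul_right, huv, smul_zero]
  obtain ⟨a, b, hab⟩ := OrthGen.siegel_mem_commutatorSet hB h2 (by rwa [Module.finrank_fintype_fun_eq_card, Fintype.card_fin]) hu hv huv c hcv
  rw [← (OrthGen.matEquiv_siegel Q hu hv c hcv g).mp hg] at hab
  open scoped commutatorElement in
  have hg' : ⁅(OrthGen.matEquiv Q).symm a, (OrthGen.matEquiv Q).symm b⁆ = g := by
    rw [commutatorElement_def, ← map_inv, ← map_inv, ← map_mul, ← map_mul, ← map_mul, hab, MulEquiv.symm_apply_apply]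
  refine ⟨⟨_, _, hg'⟩, ?_⟩
  rw [← hg', Cfsg.Omega, commutator_def]
  exact Subgroup.commutator_mem_commutator trivial trivial

end Cfsg.Agent.S0794
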