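import Cfsg.Statements.S0795
import Cfsg.Agent.OrthGen.Siegel
-- import your own Cfsg.Agent.* helpers here

set_option autoImplicit false
open Cfsg

namespace Cfsg.Agent.S0795

/-- Generation of Ω by root elements: for q odd, n ≥ 5 and Q with non-degenerate polar form on F^n, the commutator subgroup of the isometry group equals the subgroup generated by the isometries whose matrices are Siegel transformations T_(u,v)(c) with u, v singular and orthogonal. -/
theorem result {F : Type*} [Field F] [Fintype F] (h2 : (2 : F) ≠ 0) {n : ℕ} (hn : 5 ≤ n) (Q : QuadraticForm F (Fin n → F)) (hQ : (QuadraticMap.polarBilin Q).Nondegenerate) : Cfsg.Omega F ⇑Q = Subgroup.closure {g : ↥(Cfsg.isometryGroup F ⇑Q) | ∃ (u v : Fin n → F) (c : F), Q u = 0 ∧ Q v = 0 ∧ QuadraticMap.polar ⇑Q u v = 0 ∧ ((g : Matrix.GeneralLinearGroup (Fin n) F) : Matrix (Fin n) (Fin n) F) = Cfsg.siegelMatrix ⇑Q u v c} := by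
  have hB := OrthGen.bNondeg_of_nondegenerate Q hQ
  have hn' : 5 ≤ Module.finrank F (Fin n → F) := by rwa [Module.finrank_fintype_fun_eq_card, Fintype.card_fin]
  apply Subgroup.map_injective (f := (OrthGen.matEquiv Q).toMonoidHom) (OrthGen.matEquiv Q).injective
  rw [MonoidHom.map_closure, OrthGen.map_Omega, ← OrthGen.singSiegel_eq_commutator hB h2 hn', OrthGen.singSiegel]
  congr 1
  ext k
  constructor
  · rintro ⟨u, a, hu, ha, ha0, rfl⟩
    have hcv : QuadraticMap.polar ⇑Q u ((1 : F) • a) = 0 := by rw [one_smul]; exact ha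
    refine ⟨(OrthGen.matEquiv Q).symm (Classical.siegel Q hu ha), ⟨u, a, 1, hu, ha0, ha, ?_⟩, (OrthGen.matEquiv Q).apply_symm_apply _⟩
    refine (OrthGen.matEquiv_siegel Q hu ha0 1 hcv _).mpr ?_
    rw [MulEquiv.apply_symm_apply]
    exact Classical.siegel_congr Q hu ha hu hcv rfl (one_smul F a).symm
  · rintro ⟨g, ⟨u, v, c, hu, hv, huv, hg⟩, rfl⟩
    have hcv : QuadraticMap.polar ⇑Q u (c • v) = 0 := by rw [QuadraticMap.polar_smul_right, huv, smul_zero]
    exact ⟨u, c • v, hu, hcv, by rw [QuadraticMap.map_smul, hv, smul_zero], (OrthGen.matEquiv_siegel Q hu hv c hcv g).mp hg⟩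

end Cfsg.Agent.S0795
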