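import Cfsg.Statements.S0796
-- import your own Cfsg.Agent.* helpers here

set_option autoImplicit false
open Cfsg

namespace Cfsg.Agent.S0796

/-- If G is finite and acts faithfully and primitively on X, H is the stabiliser of a point, A is a normal subgroup of H whose normal closure in G is G, then for every non-trivial normal subgroup K of G the quotient G ⧸ K is isomorphic to A ⧸ B for some normal subgroup B of A. -/
theorem result {G X : Type*} [Group G] [Finite G] [MulAction G X] [FaithfulSMul G X] (hprim : MulAction.IsPreprimitive G X) (x : X) (A : Subgroup G) (hA : A ≤ MulAction.stabilizer G x) (hAn : (A.subgroupOf (MulAction.stabilizer G x)).Normal) (hgen : Subgroup.normalClosure (A : Set G) = ⊤) (K : Subgroup G) [K.Normal] (hK : K ≠ ⊥) : ∃ (B : Subgroup A) (_ : B.Normal), Nonempty (G ⧸ K ≃* A ⧸ B) := by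
  classical
  haveI := hprim
  have hfix : MulAction.fixedPoints K X ≠ Set.univ := by
    intro hf
    apply hK
    rw [eq_bot_iff]
    intro g hg
    rw [Subgroup.mem_bot]
    refine eq_of_smul_eq_smul (α := X) fun y => ?_
    rw [one_smul]
    exact (hf ▸ Set.mem_univ y : y ∈ MulAction.fixedPoints K X) ⟨g, hg⟩
  haveI : MulAction.IsPretransitive K X :=
    MulAction.IsQuasiPreprimitive.isPretransitive_of_normal hfix
  have hsup : A ⊔ K = ⊤ := by
    rw [eq_top_iff, ← hgen, Subgroup.normalClosure, Subgroup.closure_le]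
    intro z hz
    obtain ⟨a, ha, hc⟩ := Group.mem_conjugatesOfSet_iff.mp hz
    obtain ⟨g, rfl⟩ := isConj_iff.mp hc
    obtain ⟨k, hk⟩ := MulAction.exists_smul_eq K x (g • x)
    have hh : (k : G)⁻¹ * g ∈ MulAction.stabilizer G x := by
      rw [MulAction.mem_stabilizer_iff, mul_smul, inv_smul_eq_iff]
      exact hk.symm
    have ha' : ((k : G)⁻¹ * g) * a * ((k : G)⁻¹ * g)⁻¹ ∈ A := by
      have := hAn.conj_mem ⟨a, hA ha⟩ ha ⟨_, hh⟩
      simpa [Subgroup.mem_subgroupOf] using this
    have e : g * a * g⁻¹ = (k : G) * (((k : G)⁻¹ * g) * a * ((k : G)⁻¹ * g)⁻¹) * (k : G)⁻¹ := by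
      group
    rw [SetLike.mem_coe, e]
    exact mul_mem (mul_mem (Subgroup.mem_sup_right k.2) (Subgroup.mem_sup_left ha'))
      (inv_mem (Subgroup.mem_sup_right k.2))
  refine ⟨K.subgroupOf A, inferInstance, ⟨?_⟩⟩
  refine MulEquiv.trans ?_ (QuotientGroup.quotientInfEquivProdNormalQuotient A K).symm
  refine QuotientGroup.congr K _ (Subgroup.topEquiv.symm.trans (MulEquiv.subgroupCongr hsup.symm)) ?_
  ext y
  simp [Subgroup.mem_subgroupOf, Subgroup.mem_map]
  constructor
  · rintro ⟨z, hz, rfl⟩; exact hz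
  · intro hy; exact ⟨_, hy, rfl⟩

end Cfsg.Agent.S0796
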