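import Cfsg.Statements.S0797
import Cfsg.Agent.OrthGen.Index
-- import your own Cfsg.Agent.* helpers here

set_option autoImplicit false
open Cfsg

namespace Cfsg.Agent.S0797

/-- O^ε_2m(q) ≅ Ω.2² for q odd: if F is finite of odd characteristic, n ≥ 2 is even and Q has non-degenerate polar form on F^n, the isometry group of Q has exactly three subgroups of index 2. -/
theorem result {F : Type*} [Field F] [Fintype F] (h2 : (2 : F) ≠ 0) {n : ℕ} (hn : 2 ≤ n) (heven : Even n) (Q : QuadraticForm F (Fin n → F)) (hQ : (QuadraticMap.polarBilin Q).Nondegenerate) : Nat.card {H : Subgroup ↥(Cfsg.isometryGroup F ⇑Q) // H.index = 2} = 3 := by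
  have hB := OrthGen.bNondeg_of_nondegenerate Q hQ
  have hn' : 2 ≤ Module.finrank F (Fin n → F) := by rwa [Module.finrank_fintype_fun_eq_card, Fintype.card_fin]
  have hR := OrthGen.RQ_eq_top hB (OrthGen.notExceptional_of_two_ne_zero (Q := Q) h2)
  refine OrthGen.card_index_two_of_hom ((OrthGen.sgnHom hB hR).comp (OrthGen.matEquiv Q).toMonoidHom)
    ((OrthGen.surjective_sgnHom h2 hB hn' hR).comp (OrthGen.matEquiv Q).surjective) fun g hg => ?_
  rw [MonoidHom.mem_ker, MonoidHom.comp_apply] at hg
  exact (OrthGen.mem_Omega_iff Q h2 hB (by rwa [Fintype.card_fin]) g).mpr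
    ⟨congrArg Prod.fst hg, congrArg Prod.snd hg⟩

end Cfsg.Agent.S0797
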