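import Cfsg.Statements.S0798
import Cfsg.Agent.OrthGen.NormClass
-- import your own Cfsg.Agent.* helpers here

set_option autoImplicit false
open Cfsg

namespace Cfsg.Agent.S0798

/-- For q odd, n ≥ 2 even, Q with non-degenerate polar form (n, |F|) ≠ (4, 3), and a fixed c ≠ 0: the subgroup of the isometry group generated by the reflections r_v with Q(v) ∈ c·(F^×)² has index 2. -/
theorem result {F : Type*} [Field F] [Fintype F] (h2 : (2 : F) ≠ 0) {n : ℕ} (hn : 2 ≤ n) (heven : Even n) (Q : QuadraticForm F (Fin n → F)) (hQ : (QuadraticMap.polarBilin Q).Nondegenerate) (h43 : ¬ (n = 4 ∧ Fintype.card F = 3)) (c : F) (hc : c ≠ 0) : (Subgroup.closure {g : ↥(Cfsg.isometryGroup F ⇑Q) | ∃ (v : Fin n → F) (t : F), t ≠ 0 ∧ Q v = c * t ^ 2 ∧ ((g : Matrix.GeneralLinearGroup (Fin n) F) : Matrix (Fin n) (Fin n) F) = Cfsg.reflectionMatrix ⇑Q v}).index = 2 := by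
  have hB := OrthGen.bNondeg_of_nondegenerate Q hQ
  have hn' : 2 ≤ Module.finrank F (Fin n → F) := by rwa [Module.finrank_fintype_fun_eq_card, Fintype.card_fin]
  have heven' : Even (Module.finrank F (Fin n → F)) := by rwa [Module.finrank_fintype_fun_eq_card, Fintype.card_fin]
  have hex : (∃ s : F, s ≠ 0 ∧ s ≠ 1 ∧ s ≠ -1) ∨ Module.finrank F (Fin n → F) ≠ 4 := by
    by_cases h4 : n = 4
    · refine Or.inl ?_
      classical
      by_contra hno
      push Not at hno
      have h3 : Fintype.card F ≤ 3 := by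
        calc Fintype.card F = (Finset.univ : Finset F).card := rfl
          _ ≤ ({0, 1, -1} : Finset F).card := Finset.card_le_card fun a _ => by
            by_cases ha : a = 0
            · simp [ha]
            · by_cases ha1 : a = 1
              · simp [ha1]
              · simp [hno a ha ha1]
          _ ≤ 3 := Finset.card_le_three
      refine h43 ⟨h4, ?_⟩
      have h1 : 1 < Fintype.card F := Fintype.one_lt_card
      by_contra hne
      have h2' : Fintype.card F = 2 := by omega
      have hz : ((Fintype.card F : ℕ) : F) = 0 := Nat.cast_card_eq_zero F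
      rw [h2'] at hz
      exact h2 (by exact_mod_cast hz)
    · exact Or.inr (by rwa [Module.finrank_fintype_fun_eq_card, Fintype.card_fin])
  refine Eq.trans ?_ (OrthGen.index_classSub hB h2 hn' heven' hex hc)
  conv_lhs => rw [← Subgroup.index_map_equiv _ (OrthGen.matEquiv Q)]
  congr 1
  rw [MonoidHom.map_closure, OrthGen.classSub]
  congr 1
  ext k
  constructor
  · rintro ⟨g, ⟨v, t, ht, hv, hg⟩, rfl⟩
    have hv0 : Q v ≠ 0 := by rw [hv]; exact mul_ne_zero hc (pow_ne_zero _ ht)
    exact ⟨v, hv0, t, ht, hv, (OrthGen.eq_matEquiv_symm_refl Q v hv0 g).mp hg⟩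
  · rintro ⟨v, hv0, t, ht, hv, rfl⟩
    exact ⟨(OrthGen.matEquiv Q).symm (Classical.reflQ Q v hv0), ⟨v, t, ht, hv,
      (OrthGen.eq_matEquiv_symm_refl Q v hv0 _).mpr ((OrthGen.matEquiv Q).apply_symm_apply _)⟩,
      (OrthGen.matEquiv Q).apply_symm_apply _⟩

end Cfsg.Agent.S0798
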