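import Cfsg.Statements.S0799
import Cfsg.Agent.MaxSub.Dickson.Maximal

set_option autoImplicit false
open Cfsg Cfsg.Agent.MaxSub.Dickson MulAction
open scoped MatrixGroups OnePoint

namespace Cfsg.Agent.S0799

variable {F : Type*} [Field F] [Fintype F] [DecidableEq F]
variable {K : Type*} [Field K] [DecidableEq K] [Algebra F K]

theorem pair_cases {a b : OnePoint K} {m : ℕ} (hm : IsPair F a b m) :
    m = Fintype.card F - 1 ∨ m = Fintype.card F + 1 := by
  obtain ⟨-, ⟨-, -, h⟩ | ⟨-, -, h⟩⟩ := hm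
  · exact Or.inl h
  · exact Or.inr h

/-- The torus meets `L` in a subgroup of order `m / gcd(2, q - 1)`. -/
theorem card_tor_inf {a b : OnePoint K} {m : ℕ} (hm : IsPair F a b m) :
    Nat.gcd 2 (Fintype.card F - 1) * Nat.card (tor (F := F) a b ⊓ lsub F : Subgroup PGL(2, F)) = m := by
  obtain ⟨hc, -, hnle⟩ := hm.props
  rcases Nat.even_or_odd (Fintype.card F) with he | ho
  · rw [lsub_eq_top he, inf_top_eq, hc]
    have hg : Nat.gcd 2 (Fintype.card F - 1) = 1 := by
      refine Nat.prime_two.coprime_iff_not_dvd.2 ?_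
      rw [Nat.even_iff] at he
      have := Fintype.card_pos (α := F)
      omega
    rw [hg, one_mul]
  · rw [Nat.gcd_eq_left (show 2 ∣ Fintype.card F - 1 by rw [Nat.odd_iff] at ho; omega)]
    have : (lsub F).Normal := lsub_normal
    have h2 : (lsub F).relIndex (tor a b) = 2 := by
      have h := Subgroup.relIndex_dvd_index_of_normal (lsub F) (tor (F := F) a b)
      rw [lsub_index_two ho] at h
      rcases (Nat.dvd_prime Nat.prime_two).1 h with h' | h'
      · exact absurd (Subgroup.relIndex_eq_one.1 h') (hnle ho)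
      · exact h'
    have := Subgroup.card_mul_index ((lsub F).subgroupOf (tor a b))
    rw [show ((lsub F).subgroupOf (tor a b)).index = 2 from h2, hc, ← Subgroup.inf_subgroupOf_left,
      Nat.card_congr (Subgroup.subgroupOfEquivOfLe inf_le_left).toEquiv] at this
    rw [mul_comm]; exact this

/-- The cyclic part of a dihedral subgroup of a pair stabiliser lies in the torus. -/
theorem dihedral_part {a b : OnePoint K} {H : Subgroup PGL(2, F)} {n : ℕ} (hle : H ≤ pairStab a b)
    (hn : 2 ≤ n) (hc : Nat.card H = 2 * n) (iso : H ≃* DihedralGroup n) :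
    n ∣ Nat.card (H ⊓ tor a b : Subgroup PGL(2, F)) := by
  set A := (tor (F := F) a b).subgroupOf H
  have hA : Nat.card A = Nat.card (H ⊓ tor a b : Subgroup PGL(2, F)) := by
    rw [show A = (H ⊓ tor a b).subgroupOf H from (Subgroup.inf_subgroupOf_left _ _).symm]
    exact Nat.card_congr (Subgroup.subgroupOfEquivOfLe inf_le_left).toEquiv
  have hi : A.index = 1 ∨ A.index = 2 := by
    by_cases h1 : A = ⊤
    · exact Or.inl (Subgroup.index_eq_one.2 h1)
    · right
      obtain ⟨w, hw⟩ : ∃ w : H, w ∉ A := by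
        by_contra hh; push Not at hh; exact h1 (eq_top_iff.2 fun x _ => hh x)
      refine Subgroup.index_eq_two_iff.2 ⟨w, fun x => ?_⟩
      have key : ∀ y : H, y ∈ A ∨ (emb K (y : PGL(2, F)) • a = b ∧ emb K (y : PGL(2, F)) • b = a) :=
        fun y => by rcases hle y.2 with h | h; exacts [Or.inl h, Or.inr h]
      have hw' := (key w).resolve_left hw
      rcases key x with hx | hx
      · exact Or.inr ⟨hx, fun h => hw ((Subgroup.mul_mem_cancel_left A hx).1 h)⟩
      · refine Or.inl ⟨?_, fun h => ?_⟩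
        · show emb K ((x : PGL(2, F)) * (w : PGL(2, F))) • a = a ∧ emb K ((x : PGL(2, F)) * (w : PGL(2, F))) • b = b
          rw [map_mul, mul_smul, mul_smul, hw'.1, hw'.2, hx.2, hx.1]
          exact ⟨rfl, rfl⟩
        · have h' : emb K (x : PGL(2, F)) • a = a := h.1
          have h'' : emb K (x : PGL(2, F)) • a = b := hx.1
          have hab : a = b := h'.symm.trans h''
          subst hab
          exact hw ⟨hw'.1, hw'.2⟩
  have := A.card_mul_index
  rw [hc, hA] at this
  rcases hi with h | h <;> rw [h] at this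
  · rw [mul_one] at this; rw [this]; exact dvd_mul_left n 2
  · rw [show Nat.card (H ⊓ tor a b : Subgroup PGL(2, F)) = n by omega]

theorem aff_one_hom (h : PGL(2, F)) : ∃ f : Multiplicative F →* PGL(2, F),
    ∀ v, f v = h * aff 1 (Multiplicative.toAdd v) * h⁻¹ := by
  refine ⟨MonoidHom.mk' (fun v => h * aff 1 (Multiplicative.toAdd v) * h⁻¹) fun v w => ?_, fun v => rfl⟩
  show h * aff 1 (Multiplicative.toAdd (v * w)) * h⁻¹ = _
  rw [toAdd_mul]
  calc _ = h * (aff 1 (Multiplicative.toAdd v) * aff 1 (Multiplicative.toAdd w)) * h⁻¹ := by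
        rw [aff_mul]; simp [add_comm]
    _ = _ := by group

/-- A point stabiliser normalises a Sylow `p`-subgroup of `PSL(2, F)`. -/
theorem exists_sylow_of_fix {p : ℕ} [Fact p.Prime] [CharP F p]
    (H : Subgroup (Matrix.ProjectiveSpecialLinearGroup (Fin 2) F)) (x : OnePoint F)
    (hfix : ∀ g ∈ H, Matrix.ProjectiveSpecialLinearGroup.toPGL g • x = x) :
    ∃ P : Sylow p (Matrix.ProjectiveSpecialLinearGroup (Fin 2) F),
      H ≤ Subgroup.normalizer ((P : Subgroup (Matrix.ProjectiveSpecialLinearGroup (Fin 2) F)) :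
        Set (Matrix.ProjectiveSpecialLinearGroup (Fin 2) F)) := by
  obtain ⟨h, rfl⟩ := exists_move x
  obtain ⟨f, hf⟩ := aff_one_hom h
  have hfinj : Function.Injective f := fun v w e => by
    rw [hf, hf] at e
    exact Multiplicative.toAdd.injective (aff_inj (mul_left_cancel (mul_right_cancel e))).2
  have hfL : f.range ≤ Matrix.ProjectiveSpecialLinearGroup.toPGL.range := by
    rw [range_toPGL_eq]
    rintro _ ⟨v, rfl⟩
    rw [hf]
    exact lsub_normal.conj_mem _ ((aff_mem_lsub_iff 1 _).2 (by simp)) h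
  let π := (Matrix.ProjectiveSpecialLinearGroup.toPGL (n := Fin 2) (R := F))
  have hπ : Function.Injective π := Matrix.ProjectiveSpecialLinearGroup.toPGL_injective
  let U := f.range.comap π
  have hU : Nat.card U = Fintype.card F := by
    rw [Nat.card_congr (U.equivMapOfInjective π hπ).toEquiv, Subgroup.map_comap_eq_self hfL,
      ← Nat.card_congr (MonoidHom.ofInjective hfinj).toEquiv,
      Nat.card_congr Multiplicative.toAdd, Nat.card_eq_fintype_card]
  obtain ⟨e, hp, hq⟩ := FiniteField.card F p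
  have hval : Nat.card U = p ^ (Nat.card (Matrix.ProjectiveSpecialLinearGroup (Fin 2) F)).factorization p := by
    have h1 := Linear.card_PSL_two_mul (F := F)
    have hq1 : 2 ≤ Fintype.card F := Fintype.one_lt_card
    have hc0 : Nat.card (Matrix.ProjectiveSpecialLinearGroup (Fin 2) F) ≠ 0 := Nat.card_pos.ne'
    have hd : ∀ r : ℕ, r ∣ Fintype.card F → (r ∣ Fintype.card F - 1 → r ∣ 1) ∧
        (r ∣ Fintype.card F + 1 → r ∣ 1) := fun r hr =>
      ⟨fun h' => by simpa [Nat.sub_sub_self (show 1 ≤ Fintype.card F by omega)] using Nat.dvd_sub hr h',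
       fun h' => (Nat.dvd_add_right hr).1 h'⟩
    have hpq : p ∣ Fintype.card F := hq ▸ dvd_pow_self p e.ne_zero
    have n1 : ¬ p ∣ Fintype.card F - 1 := fun h' => hp.not_dvd_one ((hd p hpq).1 h')
    have n2 : ¬ p ∣ Fintype.card F + 1 := fun h' => hp.not_dvd_one ((hd p hpq).2 h')
    have n3 : ¬ p ∣ Nat.gcd 2 (Fintype.card F - 1) := fun h' => n1 (h'.trans (Nat.gcd_dvd_right _ _))
    have := congrArg (fun n => n.factorization p) h1
    rw [Nat.factorization_mul (by intro h0; rw [h0] at n3; exact n3 (dvd_zero p)) hc0,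
      Nat.factorization_mul (Nat.mul_ne_zero (by omega) (by omega)) (by omega),
      Nat.factorization_mul (by omega) (by omega)] at this
    simp only [Finsupp.coe_add, Pi.add_apply, Nat.factorization_eq_zero_of_not_dvd n1,
      Nat.factorization_eq_zero_of_not_dvd n2, Nat.factorization_eq_zero_of_not_dvd n3, zero_add,
      add_zero] at this
    rw [hU, this, hq, hp.factorization_pow, Finsupp.single_eq_same]
  refine ⟨Sylow.ofCard U hval, ?_⟩
  intro g hg
  rw [Sylow.coe_ofCard]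
  have key : ∀ t, t • (h • (∞ : OnePoint F)) = h • (∞ : OnePoint F) → ∀ u ∈ f.range, t * u * t⁻¹ ∈ f.range := by
    rintro t ht _ ⟨v, rfl⟩
    obtain ⟨u, w, huw⟩ := exists_aff (fixed_conj ht)
    refine ⟨Multiplicative.ofAdd ((u : F) * Multiplicative.toAdd v), ?_⟩
    rw [hf, hf, toAdd_ofAdd]
    have e' : aff u w * aff 1 (Multiplicative.toAdd v) * (aff u w)⁻¹ = aff 1 ((u : F) * Multiplicative.toAdd v) := by
      rw [mul_inv_eq_iff_eq_mul, aff_mul, aff_mul]
      simp [add_comm]
    rw [← e', ← huw]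
    group
  rw [Subgroup.mem_normalizer_iff]
  intro y
  have hg1 : π g • (h • (∞ : OnePoint F)) = h • (∞ : OnePoint F) := hfix g hg
  have hg2 : π g⁻¹ • (h • (∞ : OnePoint F)) = h • (∞ : OnePoint F) := hfix _ (inv_mem hg)
  constructor
  · intro hy
    show π (g * y * g⁻¹) ∈ f.range
    rw [map_mul, map_mul, map_inv]
    exact key _ hg1 _ hy
  · intro hy
    have := key _ hg2 _ hy
    show π y ∈ f.range
    rw [← map_inv, ← map_mul, ← map_mul] at this
    simpa [mul_assoc] using this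

/-- Dickson's classification of the subgroups of PSL_2(q), q a power of the prime p, d = gcd(2, q − 1): every subgroup H is (a) cyclic or dihedral with k dividing (q+1)/d or (q−1)/d (cyclic of order k, or dihedral of order 2k), (b) isomorphic to a subgroup of the normaliser of a Sylow p-subgroup, (c) isomorphic to A_4, S_4 or A_5, or (d) isomorphic to PSL_2(K) or PGL_2(K) for a finite field K with |K|^m = q. -/
theorem result {F : Type*} [Field F] [Fintype F] {q : ℕ} (hF : Fintype.card F = q) (p : ℕ) [Fact p.Prime] [CharP F p] (H : Subgroup (Matrix.ProjectiveSpecialLinearGroup (Fin 2) F)) : (∃ k : ℕ, (k ∣ (q + 1) / Nat.gcd 2 (q - 1) ∨ k ∣ (q - 1) / Nat.gcd 2 (q - 1)) ∧ ((IsCyclic H ∧ Nat.card H = k) ∨ Nonempty (H ≃* DihedralGroup k))) ∨ (∃ (P : Sylow p (Matrix.ProjectiveSpecialLinearGroup (Fin 2) F)) (K : Subgroup (Matrix.ProjectiveSpecialLinearGroup (Fin 2) F)), K ≤ Subgroup.normalizer ((P : Subgroup (Matrix.ProjectiveSpecialLinearGroup (Fin 2) F)) : Set (Matrix.ProjectiveSpecialLinearGroup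 (Fin 2) F)) ∧ Nonempty (H ≃* K)) ∨ Nonempty (H ≃* alternatingGroup (Fin 4)) ∨ Nonempty (H ≃* Equiv.Perm (Fin 4)) ∨ Nonempty (H ≃* alternatingGroup (Fin 5)) ∨ (∃ (K : Type) (_ : Field K) (_ : Fintype K) (m : ℕ), Fintype.card K ^ m = q ∧ (Nonempty (H ≃* Matrix.ProjectiveSpecialLinearGroup (Fin 2) K) ∨ Nonempty (H ≃* Matrix.ProjGenLinGroup (Fin 2) K))) := by
  classical
  subst hF
  set H' := H.map (Matrix.ProjectiveSpecialLinearGroup.toPGL) with hH'
  have e : H ≃* H' := H.equivMapOfInjective _ Matrix.ProjectiveSpecialLinearGroup.toPGL_injective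
  have hL : H' ≤ lsub F := (Subgroup.map_le_range _ _).trans range_toPGL_eq.le
  have hdiv : ∀ {a b : OnePoint (AlgebraicClosure F)} {m k : ℕ}, IsPair F a b m →
      k ∣ Nat.card (tor (F := F) a b ⊓ lsub F : Subgroup PGL(2, F)) →
      k ∣ (Fintype.card F + 1) / Nat.gcd 2 (Fintype.card F - 1) ∨
        k ∣ (Fintype.card F - 1) / Nat.gcd 2 (Fintype.card F - 1) := by
    intro a b m k hm hk
    have h1 := card_tor_inf hm
    have hg : 0 < Nat.gcd 2 (Fintype.card F - 1) := Nat.gcd_pos_of_pos_left _ (by norm_num)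
    have h2 : Nat.card (tor (F := F) a b ⊓ lsub F : Subgroup PGL(2, F))
        = m / Nat.gcd 2 (Fintype.card F - 1) := by rw [← h1, Nat.mul_div_cancel_left _ hg]
    rw [h2] at hk
    rcases pair_cases hm with rfl | rfl
    · exact Or.inr hk
    · exact Or.inl hk
  rcases classifyF (K := AlgebraicClosure F) (p := p) H' with
    ⟨a, b, m, -, hc, hm, hle, -⟩ | ⟨a, b, m, n, hm, hle, hn, -, -, hcard, ⟨iso⟩⟩ | ⟨x, hfix, -⟩ |
    ⟨-, -, ⟨iso⟩⟩ | ⟨-, -, ⟨iso⟩⟩ | ⟨-, -, ⟨iso⟩⟩ | ⟨F₀, h, -, he⟩ | ⟨F₀, h, -, -, he⟩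
  · refine Or.inl ⟨Nat.card H, ?_, Or.inl ⟨isCyclic_of_surjective e.symm e.symm.surjective, rfl⟩⟩
    refine hdiv hm ?_
    rw [Nat.card_congr e.toEquiv]
    exact Subgroup.card_dvd_of_le (le_inf hle hL)
  · refine Or.inl ⟨n, hdiv hm ((dihedral_part hle hn hcard iso).trans ?_), Or.inr ⟨e.trans iso⟩⟩
    exact Subgroup.card_dvd_of_le (le_inf inf_le_right (inf_le_left.trans hL))
  · obtain ⟨P, hP⟩ := exists_sylow_of_fix (p := p) H x (fun g hg => hfix _ ⟨g, hg, rfl⟩)
    exact Or.inr (Or.inl ⟨P, H, hP, ⟨MulEquiv.refl _⟩⟩)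
  · exact Or.inr (Or.inr (Or.inl ⟨e.trans iso⟩))
  · exact Or.inr (Or.inr (Or.inr (Or.inl ⟨e.trans iso⟩)))
  · exact Or.inr (Or.inr (Or.inr (Or.inr (Or.inl ⟨e.trans iso⟩))))
  · obtain ⟨E, hE1, hE2, hEc, ⟨e1⟩, -⟩ := exists_small_model F₀
    obtain ⟨r, -, hr⟩ := card_subfield_pow F₀
    refine Or.inr (Or.inr (Or.inr (Or.inr (Or.inr ⟨E, hE1, hE2, r, by rw [hEc, hr], Or.inr ⟨?_⟩⟩))))
    exact e.trans ((H'.equivMapOfInjective (MulAut.conj h⁻¹).toMonoidHom (MulAut.conj h⁻¹).injective).trans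
      ((MulEquiv.subgroupCongr he).trans ((MonoidHom.ofInjective (subPGL_injective F₀)).symm.trans e1)))
  · obtain ⟨E, hE1, hE2, hEc, -, ⟨e1⟩⟩ := exists_small_model F₀
    obtain ⟨r, -, hr⟩ := card_subfield_pow F₀
    refine Or.inr (Or.inr (Or.inr (Or.inr (Or.inr ⟨E, hE1, hE2, r, by rw [hEc, hr], Or.inl ⟨?_⟩⟩))))
    exact e.trans ((H'.equivMapOfInjective (MulAut.conj h⁻¹).toMonoidHom (MulAut.conj h⁻¹).injective).trans
      ((MulEquiv.subgroupCongr he).trans ((MonoidHom.ofInjective (subPSL_injective F₀)).symm.trans e1)))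

end Cfsg.Agent.S0799
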