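import Cfsg.Statements.S0800
-- import your own Cfsg.Agent.* helpers here

set_option autoImplicit false
open Cfsg

namespace Cfsg.Agent.S0800

/-- Tori of SL_2(q): if g ∈ SL_2(q) has order coprime to the characteristic p, then the order of g divides q − 1 or q + 1. -/
theorem result {F : Type*} [Field F] [Fintype F] {q : ℕ} (hF : Fintype.card F = q) (p : ℕ) [Fact p.Prime] [CharP F p] (g : Matrix.SpecialLinearGroup (Fin 2) F) (hg : Nat.Coprime (orderOf g) p) : orderOf g ∣ q - 1 ∨ orderOf g ∣ q + 1 := by
  classical
  have hp : p.Prime := Fact.out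
  subst hF
  set M : Matrix (Fin 2) (Fin 2) F := (g : Matrix (Fin 2) (Fin 2) F) with hM
  let K := AlgebraicClosure F
  let f : F →+* K := algebraMap F K
  have hinj : Function.Injective f := f.injective
  have hcp : M.charpoly = Polynomial.X ^ 2 - Polynomial.C M.trace * Polynomial.X + Polynomial.C 1 := by
    rw [Matrix.charpoly_fin_two, g.2]
  have hpow : ∀ e : ℕ, M.charpoly ∣ Polynomial.X ^ e - 1 → orderOf g ∣ e := by
    intro e he
    apply orderOf_dvd_of_pow_eq_one
    obtain ⟨h, hh⟩ := he
    have := congrArg (Polynomial.aeval M) hh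
    rw [map_mul, Matrix.aeval_self_charpoly, zero_mul, map_sub, map_pow, Polynomial.aeval_X, map_one,
      sub_eq_zero] at this
    ext1 <;> simp [this, ← hM]
  obtain ⟨l, hl⟩ := IsAlgClosed.exists_root (M.charpoly.map f) (by
    rw [Polynomial.degree_map, Matrix.charpoly_degree_eq_dim]; simp)
  have hl' : l ^ 2 - f M.trace * l + 1 = 0 := by
    simpa [Polynomial.IsRoot.def, hcp] using hl
  have hl0 : l ≠ 0 := by rintro rfl; simp at hl'
  have hfac : M.charpoly.map f = (Polynomial.X - Polynomial.C l) * (Polynomial.X - Polynomial.C l⁻¹) := by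
    have ht : f M.trace = l + l⁻¹ := by
      apply mul_right_cancel₀ hl0
      rw [add_mul, inv_mul_cancel₀ hl0]
      linear_combination -hl'
    have h1 : Polynomial.C l * Polynomial.C l⁻¹ = (1 : Polynomial K) := by
      rw [← Polynomial.C_mul, mul_inv_cancel₀ hl0, Polynomial.C_1]
    rw [hcp]
    simp only [Polynomial.map_add, Polynomial.map_sub, Polynomial.map_mul, Polynomial.map_pow,
      Polynomial.map_X, Polynomial.map_C, map_one, Polynomial.map_one, ht, map_add]
    linear_combination -h1
  have hfrob : f M.trace ^ Fintype.card F = f M.trace := by rw [← map_pow, FiniteField.pow_card]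
  by_cases hdist : l = l⁻¹
  · -- repeated root: the order is coprime to `p`, so `g` is scalar
    have hl2 : l * l = 1 := by
      conv_lhs => arg 2; rw [hdist]
      exact mul_inv_cancel₀ hl0
    obtain ⟨ε, hε, hεε⟩ : ∃ ε : F, f ε = l ∧ ε * ε = 1 := by
      rcases mul_self_eq_one_iff.mp hl2 with h | h
      · exact ⟨1, by simp [h], by simp⟩
      · exact ⟨-1, by simp [h], by simp⟩
    have hsq : M.charpoly = (Polynomial.X - Polynomial.C ε) ^ 2 := by
      apply Polynomial.map_injective f hinj
      rw [hfac, ← hdist, Polynomial.map_pow, Polynomial.map_sub, Polynomial.map_X, Polynomial.map_C, hε,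
        sq]
    have hp2 : (Polynomial.X - Polynomial.C ε) ^ 2 ∣ Polynomial.X ^ p - Polynomial.C (ε ^ p) := by
      rw [Polynomial.C_pow, ← sub_pow_char]
      exact pow_dvd_pow _ hp.two_le
    have hord : orderOf g ∣ 2 * p := by
      apply hpow
      rw [hsq]
      refine hp2.trans ⟨Polynomial.X ^ p + Polynomial.C (ε ^ p), ?_⟩
      have : Polynomial.C (ε ^ p) * Polynomial.C (ε ^ p) = (1 : Polynomial F) := by
        rw [← Polynomial.C_mul, ← mul_pow, hεε, one_pow, Polynomial.C_1]
      linear_combination this
    have hord2 : orderOf g ∣ 2 := hg.dvd_of_dvd_mul_right hord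
    by_cases h1 : orderOf g = 1
    · exact Or.inl (by rw [h1]; exact one_dvd _)
    · have h2 : orderOf g = 2 := (Nat.dvd_prime Nat.prime_two).mp hord2 |>.resolve_left h1
      have hpodd : Odd p := hp.eq_two_or_odd'.resolve_left (fun h => by simp [h2, h] at hg)
      obtain ⟨m, -, hm⟩ := FiniteField.card F p
      obtain ⟨r, hr⟩ := (hm ▸ hpodd.pow : Odd (Fintype.card F))
      exact Or.inl (by rw [h2, hr]; exact ⟨r, by simp⟩)
  · -- distinct roots
    have hroot : l ^ Fintype.card F = l ∨ l ^ Fintype.card F = l⁻¹ := by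
      have h0 := congrArg (fun z => z ^ Fintype.card F) hl'
      obtain ⟨m, -, hm⟩ := FiniteField.card F p
      haveI : CharP K p := charP_of_injective_algebraMap hinj p
      simp only [hm, add_pow_char_pow, sub_pow_char_pow, mul_pow, one_pow] at h0
      rw [← hm, hfrob, zero_pow Fintype.card_ne_zero, ← pow_mul, mul_comm 2, pow_mul] at h0
      have : (M.charpoly.map f).eval (l ^ Fintype.card F) = 0 := by
        simp [hcp]; linear_combination h0
      rw [hfac] at this
      simpa [sub_eq_zero] using this
    have hdvd : ∀ e : ℕ, l ^ e = 1 → orderOf g ∣ e := by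
      intro e he
      apply hpow
      rw [← Polynomial.map_dvd_map f hinj (Matrix.charpoly_monic M), hfac]
      refine IsCoprime.mul_dvd (Polynomial.isCoprime_X_sub_C_of_isUnit_sub
        (IsUnit.mk0 _ (sub_ne_zero.mpr hdist))) ?_ ?_ <;>
      · rw [Polynomial.dvd_iff_isRoot]
        simp [he]
    rcases hroot with h | h
    · refine Or.inl (hdvd _ ?_)
      have h3 := pow_sub_one_mul (Fintype.card_ne_zero : Fintype.card F ≠ 0) l
      rw [h] at h3
      exact (mul_eq_right₀ hl0).mp h3
    · refine Or.inr (hdvd _ ?_)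
      rw [pow_succ, h, inv_mul_cancel₀ hl0]

end Cfsg.Agent.S0800
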