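import Cfsg.Statements.S0801
import Cfsg.Agent.PSLTwoSub.DicksonGen

set_option autoImplicit false
open Cfsg

namespace Cfsg.Agent.S0801

/-- Let F be a finite field of odd characteristic and λ ≠ 0 an element generating F as a field. Then the lower and upper unitriangular matrices with off-diagonal entries 1 and λ generate SL_2(F), unless |F| = 9 and λ² = −1, in which case they generate a subgroup of order 120. -/
theorem result {F : Type*} [Field F] [Fintype F] (h2 : (2 : F) ≠ 0) (lam : F) (hlam : lam ≠ 0) (hgen : Subfield.closure ({lam} : Set F) = ⊤) : (Subgroup.closure {g : Matrix.SpecialLinearGroup (Fin 2) F | (g : Matrix (Fin 2) (Fin 2) F) = !![1, 0; 1, 1] ∨ (g : Matrix (Fin 2) (Fin 2) F) = !![1, lam; 0, 1]} = ⊤ ∧ ¬ (Fintype.card F = 9 ∧ lam ^ 2 = -1)) ∨ (Fintype.card F = 9 ∧ lam ^ 2 = -1 ∧ Nat.card ↥(Subgroup.closure {g : Matrix.SpecialLinearGroup (Fin 2) F | (g : Matrix (Fin 2) (Fin 2) F) = !![1, 0; 1, 1] ∨ (g : Matrix (Fin 2) (Fin 2) F) = !![1,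 lam; 0, 1]}) = 120) := by
  by_cases hexc : Fintype.card F = 9 ∧ lam ^ 2 = -1
  · obtain ⟨h9, hl⟩ := hexc
    haveI : CharP F 3 := by
      obtain ⟨q, hq⟩ := CharP.exists F
      haveI := hq
      have hq' : q.Prime := (CharP.char_is_prime_or_zero F q).resolve_right (CharP.char_ne_zero_of_finite F q)
      have h0 : ((3 ^ 2 : ℕ) : F) = 0 := by rw [show (3 ^ 2 : ℕ) = Fintype.card F by rw [h9]; norm_num]; exact Nat.cast_card_eq_zero F
      have hdvd := hq'.dvd_of_dvd_pow ((CharP.cast_eq_zero_iff F q _).1 h0)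
      rw [(Nat.prime_dvd_prime_iff_eq hq' Nat.prime_three).1 hdvd] at hq
      exact hq
    exact Or.inr ⟨h9, hl, PSLTwoSub.Nine.card_closure hl⟩
  · exact Or.inl ⟨PSLTwoSub.closure_eq_top h2 hlam hgen hexc, hexc⟩

end Cfsg.Agent.S0801
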