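import Cfsg.Statements.S0808
import Cfsg.Agent.PSLTwo25.Klein

set_option autoImplicit false
open Cfsg
open Cfsg.Agent.PSLTwo25

namespace Cfsg.Agent.S0808

/-- Conjugacy classes of four-groups in PSL_2(q), q odd: if q ≡ 3 or 5 (mod 8) all Klein four-subgroups are conjugate; if q ≡ 1 or 7 (mod 8) there are two Klein four-subgroups which are not conjugate, and every Klein four-subgroup is conjugate to one of them. -/
theorem result {F : Type*} [Field F] [Fintype F] {q : ℕ} (hF : Fintype.card F = q) (hodd : Odd q) : ((q % 8 = 3 ∨ q % 8 = 5) → ∀ V W : Subgroup (Matrix.ProjectiveSpecialLinearGroup (Fin 2) F), IsKleinFour V → IsKleinFour W → ∃ g : Matrix.ProjectiveSpecialLinearGroup (Fin 2) F, W = V.map (MulAut.conj g).toMonoidHom) ∧ ((q % 8 = 1 ∨ q % 8 = 7) → ∃ V₁ V₂ : Subgroup (Matrix.ProjectiveSpecialLinearGroup (Fin 2) F), IsKleinFour V₁ ∧ IsKleinFour V₂ ∧ (¬ ∃ g : Matrix.ProjectiveSpecialLinearGroup (Fin 2) F, V₂ = V₁.map (MulAut.conj g).toMonoidHom) ∧ ∀ W : Subgroup (Matrix.ProjectiveSpecialLinearGroup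 (Fin 2) F), IsKleinFour W → (∃ g : Matrix.ProjectiveSpecialLinearGroup (Fin 2) F, W = V₁.map (MulAut.conj g).toMonoidHom) ∨ (∃ g : Matrix.ProjectiveSpecialLinearGroup (Fin 2) F, W = V₂.map (MulAut.conj g).toMonoidHom)) := by
  classical
  subst hF
  have h2 := Linear.two_ne_zero_of_odd_card hodd
  have hV : 12 * Nat.card (KleinFours F) = Nat.card (Matrix.ProjectiveSpecialLinearGroup (Fin 2) F) := by
    have h := card_kleinFours (F := F) h2
    rw [← (card_G_factor hodd).2] at h
    omega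
  have hG := (card_G_factor hodd).1
  have hclass : ∀ V : KleinFours F, ∀ W : Subgroup (Matrix.ProjectiveSpecialLinearGroup (Fin 2) F),
      (∃ g : Matrix.ProjectiveSpecialLinearGroup (Fin 2) F, W = V.1.map (MulAut.conj g).toMonoidHom) →
      IsKleinFour W := by
    rintro V W ⟨g, rfl⟩
    let e : V.1 ≃* ↥(V.1.map (MulAut.conj g).toMonoidHom) :=
      Subgroup.equivMapOfInjective V.1 _ (MulAut.conj g).injective
    exact ⟨(Nat.card_congr e.toEquiv).symm.trans V.2.card_four,
      (Monoid.exponent_eq_of_mulEquiv e).symm.trans V.2.exponent_two⟩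
  have hN : ∀ V : KleinFours F, ∃ k, (k = 3 ∨ k = 6) ∧
      Nat.card (Subgroup.normalizer (V.1 : Set (Matrix.ProjectiveSpecialLinearGroup (Fin 2) F))) = 4 * k := by
    intro V
    obtain ⟨k, hk, hcard⟩ := card_normalizer_klein h2 V.2
    refine ⟨k, ?_, hcard⟩
    have hle : Nat.card {W : Subgroup (Matrix.ProjectiveSpecialLinearGroup (Fin 2) F) //
        ∃ g, W = V.1.map (MulAut.conj g).toMonoidHom} ≤ Nat.card (KleinFours F) :=
      Nat.card_le_card_of_injective (fun W => ⟨W.1, hclass V W.1 W.2⟩) fun a b h => Subtype.ext (congrArg (fun W : KleinFours F => W.1) h)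
    have hc := card_conj_class V.1
    rw [hcard, ← hV] at hc
    have hpos : 0 < Nat.card (KleinFours F) := Nat.card_pos_iff.2 ⟨⟨V⟩, inferInstance⟩
    have h3 : 3 ≤ k := by
      by_contra h
      nlinarith
    have hk6 := Nat.le_of_dvd (by norm_num) hk
    interval_cases k <;> omega
  constructor
  · intro hmod V W hVk hWk
    obtain ⟨k, hk, hcard⟩ := hN ⟨V, hVk⟩
    have hc := card_conj_class V
    rw [hcard, ← hV] at hc
    have h8 : ¬ 8 ∣ Nat.card (Matrix.ProjectiveSpecialLinearGroup (Fin 2) F) := by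
      rintro ⟨c, hc⟩
      rw [hc] at hG
      obtain ⟨j, hj⟩ : ∃ j, Fintype.card F = 8 * j + 3 ∨ Fintype.card F = 8 * j + 5 := ⟨Fintype.card F / 8, by omega⟩
      rcases hj with hj | hj <;>
      · rw [hj] at hG
        simp only [Nat.add_succ_sub_one] at hG
        ring_nf at hG
        omega
    have hk3 : k = 3 := by
      rcases hk with hk | hk
      · exact hk
      · exfalso; subst hk
        exact h8 (dvd_trans ⟨3, rfl⟩ (hcard ▸ Subgroup.card_subgroup_dvd_card _))
    subst hk3
    have heq : Nat.card {W : Subgroup (Matrix.ProjectiveSpecialLinearGroup (Fin 2) F) //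
        ∃ g, W = V.map (MulAut.conj g).toMonoidHom} = Nat.card (KleinFours F) := by
      have := hc; omega
    have hinj : Function.Injective (fun W : {W : Subgroup (Matrix.ProjectiveSpecialLinearGroup (Fin 2) F) //
        ∃ g, W = V.map (MulAut.conj g).toMonoidHom} => (⟨W.1, hclass ⟨V, hVk⟩ W.1 W.2⟩ : KleinFours F)) :=
      fun a b h => Subtype.ext (congrArg (fun W : KleinFours F => W.1) h)
    obtain ⟨⟨W', g, hg⟩, hW'⟩ := (hinj.bijective_of_nat_card_le heq.ge).2 ⟨W, hWk⟩
    obtain rfl : W' = W := congrArg Subtype.val hW'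
    exact ⟨g, hg⟩
  · intro hmod
    have h8 : 8 ∣ Nat.card (Matrix.ProjectiveSpecialLinearGroup (Fin 2) F) := by
      obtain ⟨j, hj⟩ : ∃ j, Fintype.card F = 8 * j + 1 ∨ Fintype.card F = 8 * j + 7 := ⟨Fintype.card F / 8, by omega⟩
      rcases hj with hj | hj
      · refine ⟨(8 * j + 1) * j * (4 * j + 1), ?_⟩
        rw [hj, show 8 * j + 1 - 1 = 8 * j by omega] at hG
        linarith
      · refine ⟨(8 * j + 7) * (4 * j + 3) * (j + 1), ?_⟩
        rw [hj, show 8 * j + 7 - 1 = 8 * j + 6 by omega] at hG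
        linarith
    have hN24 : ∀ V : KleinFours F,
        Nat.card (Subgroup.normalizer (V.1 : Set (Matrix.ProjectiveSpecialLinearGroup (Fin 2) F))) = 24 := by
      intro V
      obtain ⟨k, hk, hcard⟩ := hN V
      have hP2 : IsPGroup 2 V.1 := IsPGroup.of_card (n := 2) (by rw [V.2.card_four]; rfl)
      obtain ⟨P, hP⟩ := hP2.exists_le_sylow
      have h8P : 8 ∣ Nat.card P := Sylow.pow_dvd_card_of_pow_dvd_card P (n := 3) h8
      have : Finite P := inferInstance
      have hlt : V.1 < (P : Subgroup _) := by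
        refine lt_of_le_of_ne hP fun e => ?_
        have h1 := V.2.card_four
        rw [e] at h1
        exact absurd (h1 ▸ h8P) (by norm_num)
      have hnil : Group.IsNilpotent P := P.isPGroup'.isNilpotent
      have hlt' : V.1.subgroupOf P < ⊤ := by
        rw [lt_top_iff_ne_top, Ne, Subgroup.subgroupOf_eq_top]
        exact not_le_of_gt hlt
      have h3 := Group.normalizerCondition_of_isNilpotent (V.1.subgroupOf P) hlt'
      obtain ⟨x, hxN, hxV⟩ := SetLike.exists_of_lt h3
      let M : Subgroup (Matrix.ProjectiveSpecialLinearGroup (Fin 2) F) :=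
        (P : Subgroup _) ⊓ Subgroup.normalizer (V.1 : Set _)
      have hxM : (x : Matrix.ProjectiveSpecialLinearGroup (Fin 2) F) ∈ M := by
        refine ⟨x.2, Subgroup.mem_normalizer_iff.2 fun v => ⟨fun hv => ?_, fun hv => ?_⟩⟩
        · have := (Subgroup.mem_normalizer_iff.1 hxN ⟨v, hP hv⟩).1 (by simpa [Subgroup.mem_subgroupOf] using hv)
          simpa [Subgroup.mem_subgroupOf] using this
        · have hvP : v ∈ (P : Subgroup _) := by
            have h' := mul_mem (mul_mem (inv_mem x.2) (hP hv)) x.2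
            simpa [mul_assoc] using h'
          have := (Subgroup.mem_normalizer_iff.1 hxN ⟨v, hvP⟩).2 (by simpa [Subgroup.mem_subgroupOf] using hv)
          simpa [Subgroup.mem_subgroupOf] using this
      have hVM : V.1 < M := lt_of_le_of_ne (le_inf hP Subgroup.le_normalizer)
        fun e => hxV (Subgroup.mem_subgroupOf.2 (e ▸ hxM))
      have hMp : IsPGroup 2 M := P.isPGroup'.to_le inf_le_left
      obtain ⟨n, hn⟩ := IsPGroup.iff_card.1 hMp
      have hge : 2 ^ 2 < 2 ^ n := by
        rw [← hn]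
        refine lt_of_eq_of_lt V.2.card_four.symm (lt_of_le_of_ne (Subgroup.card_le_of_le hVM.le) fun e => ?_)
        exact hVM.ne (Subgroup.eq_of_le_of_card_ge hVM.le e.ge)
      have hn3 : 3 ≤ n := (Nat.pow_lt_pow_iff_right (by norm_num)).1 hge
      have hd : 8 ∣ 4 * k := by
        rw [← hcard]
        exact dvd_trans (hn ▸ pow_dvd_pow 2 hn3) (Subgroup.card_dvd_of_le inf_le_right)
      rcases hk with rfl | rfl
      · exact absurd hd (by norm_num)
      · exact hcard
    obtain ⟨V₁, hV₁⟩ := klein_exists (F := F) hodd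
    let Cl : KleinFours F → Set (KleinFours F) := fun V =>
      {W | ∃ g : Matrix.ProjectiveSpecialLinearGroup (Fin 2) F, W.1 = V.1.map (MulAut.conj g).toMonoidHom}
    have hCl : ∀ V, 2 * (Cl V).ncard = Nat.card (KleinFours F) := by
      intro V
      have hc := card_conj_class V.1
      rw [hN24 V, ← hV] at hc
      have : (Cl V).ncard = Nat.card {W : Subgroup (Matrix.ProjectiveSpecialLinearGroup (Fin 2) F) //
          ∃ g, W = V.1.map (MulAut.conj g).toMonoidHom} := by
        rw [← Nat.card_coe_set_eq]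
        exact Nat.card_congr ⟨fun W => ⟨W.1.1, W.2⟩, fun W => ⟨⟨W.1, hclass V W.1 W.2⟩, W.2⟩,
          fun W => rfl, fun W => rfl⟩
      omega
    have hpos : 0 < Nat.card (KleinFours F) := Nat.card_pos_iff.2 ⟨⟨⟨V₁, hV₁⟩⟩, inferInstance⟩
    obtain ⟨V₂, hV₂⟩ : ∃ V₂, V₂ ∉ Cl ⟨V₁, hV₁⟩ := by
      by_contra hc
      push Not at hc
      have := hCl ⟨V₁, hV₁⟩
      rw [Set.eq_univ_of_forall hc, Set.ncard_univ] at this
      omega
    have hdisj : Disjoint (Cl ⟨V₁, hV₁⟩) (Cl V₂) := by
      rw [Set.disjoint_left]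
      rintro W ⟨g, hg⟩ ⟨h, hh⟩
      refine hV₂ ⟨h⁻¹ * g, ?_⟩
      rw [hg] at hh
      have := congrArg (fun X => X.map (MulAut.conj h⁻¹).toMonoidHom) hh
      simp only [Subgroup.map_map] at this
      have e1 : (MulAut.conj h⁻¹).toMonoidHom.comp (MulAut.conj h).toMonoidHom =
          MonoidHom.id (Matrix.ProjectiveSpecialLinearGroup (Fin 2) F) := by ext x; simp [mul_assoc]
      have e2 : (MulAut.conj h⁻¹).toMonoidHom.comp (MulAut.conj g).toMonoidHom =
          (MulAut.conj (h⁻¹ * g)).toMonoidHom := by ext x; simp [mul_assoc]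
      rw [e1, e2, Subgroup.map_id] at this
      exact this.symm
    have huniv : Cl ⟨V₁, hV₁⟩ ∪ Cl V₂ = Set.univ := by
      refine Set.eq_of_subset_of_ncard_le (Set.subset_univ _) ?_
      rw [Set.ncard_univ, Set.ncard_union_eq hdisj (Set.toFinite _) (Set.toFinite _)]
      have := hCl ⟨V₁, hV₁⟩
      have := hCl V₂
      omega
    refine ⟨V₁, V₂.1, hV₁, V₂.2, fun ⟨g, hg⟩ => hV₂ ⟨g, hg⟩, fun W hW => ?_⟩
    exact Set.eq_univ_iff_forall.1 huniv (⟨W, hW⟩ : KleinFours F)

end Cfsg.Agent.S0808
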