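import Cfsg.Statements.S0810
import Cfsg.Agent.PSLTwo25.DicksonMinimal
import Cfsg.Agent.S0804
-- import your own Cfsg.Agent.* helpers here

set_option autoImplicit false
open Cfsg

open Cfsg.Agent.PSLTwo25.DicksonPSL

namespace Cfsg.Agent.S0810

/-- PSL_2(q) is minimal simple iff q is 2^r (r prime), 3^r (r an odd prime), a prime greater than 5 congruent to 2 or 3 mod 5, or 5. -/
theorem result {F : Type*} [Field F] [Fintype F] {q : ℕ} (hF : Fintype.card F = q) : Cfsg.IsMinimalSimple (Matrix.ProjectiveSpecialLinearGroup (Fin 2) F) ↔ ((∃ r : ℕ, r.Prime ∧ q = 2 ^ r) ∨ (∃ r : ℕ, r.Prime ∧ r ≠ 2 ∧ q = 3 ^ r) ∨ (q.Prime ∧ 5 < q ∧ (q % 5 = 2 ∨ q % 5 = 3)) ∨ q = 5) := by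
  classical
  subst hF
  obtain ⟨p, hp⟩ := CharP.exists F
  obtain ⟨f, hpp, hcard⟩ := FiniteField.card F p
  have := Fact.mk hpp
  have hcard' : Nat.card F = p ^ (f : ℕ) := by rw [Nat.card_eq_fintype_card, hcard]
  constructor
  · rintro ⟨hsimple, hncomm, hsol⟩
    have hd := d_mul_card_lsub (F := F)
    have hcardG := card_lsub (F := F)
    -- a non-soluble subgroup of order at most 60
    have halt : 5 ∣ Fintype.card F * (Fintype.card F ^ 2 - 1) → Fintype.card F = 4 ∨ Fintype.card F = 5 := by
      intro h5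
      obtain ⟨H, ⟨e⟩⟩ := (Cfsg.Agent.S0804.result (F := F) rfl).2 h5
      have hc : Nat.card H = 60 := by
        rw [Nat.card_congr e.toEquiv, nat_card_alternatingGroup, Nat.card_fin]; rfl
      by_cases htop : H = ⊤
      · rw [htop, Subgroup.card_top] at hc
        rw [hcardG, hc] at hd
        have h1 := Fintype.one_lt_card (α := F)
        have : Fintype.card F < 6 := by
          by_contra hlt
          push Not at hlt
          have := Nat.mul_le_mul (Nat.mul_le_mul hlt (show 5 ≤ Fintype.card F - 1 by omega)) (show 7 ≤ Fintype.card F + 1 by omega)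
          have := Nat.gcd_le_left (Fintype.card F - 1) (show 0 < 2 by norm_num)
          nlinarith
        generalize Fintype.card F = Q at hd this h1 ⊢
        interval_cases Q <;> norm_num at hd <;> norm_num
      · have := hsol H htop
        exact absurd (Group.isSolvable_of_surjective (f := e.toMonoidHom) e.surjective)
          (not_isSolvable_alt_five)
    have hsubf : ∀ j, j ∣ (f : ℕ) → j ≠ 0 → j ≠ f → p ^ j < 4 := fun j hj hj0 hjf =>
      subfield_lt_four p f hcard hj hj0 hjf hsol
    have h4 : 4 ≤ Fintype.card F := four_le_of_simple hsimple hncomm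
    rcases Nat.lt_or_ge (f : ℕ) 2 with hf | hf
    · have hf1 : (f : ℕ) = 1 := le_antisymm (by omega) f.pos
      rw [hf1, pow_one] at hcard
      rw [hcard] at h4 halt ⊢
      have h5p : p ≠ 4 := fun h => by rw [h] at hpp; norm_num at hpp
      by_cases h5 : p = 5
      · exact .inr (.inr (.inr h5))
      · refine .inr (.inr (.inl ⟨hpp, by omega, ?_⟩))
        by_contra hmod
        have hd5 : 5 ∣ p * (p ^ 2 - 1) := by
          refine Dvd.dvd.mul_left ?_ _
          have h0 : p % 5 ≠ 0 := fun h => h5 ((Nat.prime_dvd_prime_iff_eq (by norm_num) hpp).1 (Nat.dvd_of_mod_eq_zero h)).symm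
          have : p % 5 = 1 ∨ p % 5 = 4 := by omega
          have : (p ^ 2) % 5 = 1 := by rcases this with h | h <;> simp [Nat.pow_mod, h]
          omega
        rcases halt hd5 with h | h <;> omega
    · have hr : (f : ℕ).Prime := by
        by_contra hnp
        obtain ⟨j, hj, hj2, hjf⟩ := Nat.exists_dvd_of_not_prime2 hf hnp
        have := hsubf j hj (by omega) (by omega)
        have : 2 ^ 2 ≤ p ^ j := le_trans (Nat.pow_le_pow_right two_pos hj2) (Nat.pow_le_pow_left hpp.two_le j)
        omega
      have hp4 := hsubf 1 (one_dvd _) one_ne_zero (by omega)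
      rw [pow_one] at hp4
      have := hpp.two_le
      interval_cases p
      · exact .inl ⟨f, hr, hcard⟩
      · refine .inr (.inl ⟨f, hr, ?_, hcard⟩)
        intro h2
        rw [hcard, h2] at halt
        rcases halt (by norm_num) with h | h <;> norm_num at h
  · intro hcases
    have h4 : 4 ≤ Fintype.card F := by
      rcases hcases with ⟨r, hr, h⟩ | ⟨r, hr, -, h⟩ | ⟨-, h, -⟩ | h
      · rw [h]; exact le_trans (by norm_num) (Nat.pow_le_pow_right two_pos hr.two_le)
      · rw [h]; exact le_trans (by norm_num) (Nat.pow_le_pow_right three_pos hr.two_le)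
      · omega
      · omega
    refine ⟨Cfsg.Agent.Linear.isSimpleGroup_PSL_fin 2 le_rfl (fun _ => by rw [Nat.card_eq_fintype_card]; exact h4),
      not_isMulCommutative h4, fun H hH => ?_⟩
    have hle : H.map Matrix.ProjectiveSpecialLinearGroup.toPGL ≤ Cfsg.Agent.MaxSub.Dickson.lsub F :=
      range_toPGL (F := F) ▸ Subgroup.map_le_range _ H
    have e := H.equivMapOfInjective _ (Matrix.ProjectiveSpecialLinearGroup.toPGL_injective (n := Fin 2) (R := F))
    rcases solvable_or p hle (map_ne_lsub hH) with hs | ⟨hp2, h60⟩ | ⟨F₀, hF4, hsq⟩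
    · exact Group.isSolvable_of_surjective (f := e.symm.toMonoidHom) e.symm.surjective
    · exfalso
      have hdvd : 60 ∣ Nat.card (Cfsg.Agent.MaxSub.Dickson.lsub F) := h60 ▸ Subgroup.card_dvd_of_le hle
      have h5 : 5 ∣ Fintype.card F * (Fintype.card F - 1) * (Fintype.card F + 1) := by
        rw [← d_mul_card_lsub]; exact Dvd.dvd.mul_left (dvd_trans (by norm_num) hdvd) _
      have hq5 : Fintype.card F = 5 := five_of_cases hpp hcard hp2 hcases h5
      have hd := d_mul_card_lsub (F := F)
      rw [hq5, show Nat.gcd 2 (5 - 1) = 2 from rfl] at hd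
      exact map_ne_lsub hH (Subgroup.eq_of_le_of_card_ge hle (by rw [h60]; omega))
    · exfalso
      obtain ⟨k, hk, hkc⟩ := subfield_card_pow F₀
      obtain ⟨j, -, hj⟩ : ∃ j ≤ (f : ℕ), Nat.card F₀ = p ^ j := by
        rw [← Nat.dvd_prime_pow hpp, ← hcard, hkc]; exact dvd_pow_self _ (by omega)
      have hk2 : k ≠ 1 := fun h => by rw [h, pow_one] at hkc; rw [← hkc] at hsq; nlinarith
      rw [hj, ← pow_mul, hcard] at hkc
      have hjk := Nat.pow_right_injective hpp.two_le hkc
      rw [hj] at hF4
      exact small_subfield hpp hcard hcases hjk.symm hk2 hF4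

end Cfsg.Agent.S0810
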