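import Cfsg.Statements.S0811
import Cfsg.Agent.PSLTwo25.DicksonPSL
-- import your own Cfsg.Agent.* helpers here

set_option autoImplicit false
open Cfsg

open Cfsg.Agent.PSLTwo25.DicksonPSL

namespace Cfsg.Agent.S0811

/-- For q ∉ {2, 7, 9}, PSL_2(q) has a maximal subgroup isomorphic to the dihedral group of order 2(q + 1)/d, d = gcd(2, q − 1). -/
theorem result {F : Type*} [Field F] [Fintype F] {q : ℕ} (hF : Fintype.card F = q) (hq : q ∉ ({2, 7, 9} : Finset ℕ)) : ∃ H : Subgroup (Matrix.ProjectiveSpecialLinearGroup (Fin 2) F), IsCoatom H ∧ Nonempty (H ≃* DihedralGroup ((q + 1) / Nat.gcd 2 (q - 1))) := by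
  classical
  subst hF
  simp only [Finset.mem_insert, Finset.mem_singleton] at hq
  push Not at hq
  have h1 := Fintype.one_lt_card (α := F)
  have hd := d_mul_card_lsub (F := F)
  rcases d_cases (F := F) with ⟨he, hd'⟩ | ⟨ho, hd'⟩ <;> rw [hd'] at hd ⊢
  · obtain ⟨k, hk⟩ := he
    rw [Nat.div_one]
    refine exists_dihedral_coatom _ _ hq.1 (by rw [hd', one_mul]) (.inl rfl) (by omega) (by omega)
      (by omega) ?_ ?_
    · intro h
      have h4 : Fintype.card F = 4 := by omega
      rw [h4] at hd; omega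
    · intro _ c _ hc2 _
      nlinarith
  · obtain ⟨k, hk⟩ := ho
    have hn : (Fintype.card F + 1) / 2 = k + 1 := by omega
    rw [hn]
    refine exists_dihedral_coatom (Fintype.card F + 1) _ hq.1 (by rw [hd', hk]; ring) (.inl rfl)
      (by omega) (by omega) ?_ ?_ ?_
    · intro h
      have h4 : Fintype.card F = 5 ∨ Fintype.card F = 3 := by omega
      rcases h4 with h4 | h4 <;> rw [h4] at hd <;> omega
    · intro h
      have h4 : Fintype.card F = 5 ∨ Fintype.card F = 3 := by omega
      rcases h4 with h4 | h4 <;> rw [h4] at hd <;> omega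
    · intro _ c hc4 hc2 hco
      obtain ⟨d, rfl⟩ := hco ⟨k, hk⟩
      nlinarith

end Cfsg.Agent.S0811
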