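import Cfsg.Statements.S0814
import Cfsg.Agent.GraphAut25.Index
-- import your own Cfsg.Agent.* helpers here

set_option autoImplicit false
open Cfsg

namespace Cfsg.Agent.S0814

/-- |Aut(PSp_2m(q))| = gcd(2, q−1) · f · |PSp_2m(q)| for q = p^f, m ≥ 2, (m, q) ≠ (2, 2), with an extra factor 2 exactly when m = 2 and p = 2. -/
theorem result {F : Type*} [Field F] [Fintype F] (p f : ℕ) [Fact p.Prime] (hf : 1 ≤ f) (hF : Fintype.card F = p ^ f) (m : ℕ) (hm : 2 ≤ m) (h22 : m = 2 → 3 ≤ p ^ f) : Nat.card (MulAut (Cfsg.PSp m F)) = (if m = 2 ∧ p = 2 then 2 else 1) * Nat.gcd 2 (p ^ f - 1) * f * Nat.card (Cfsg.PSp m F) := by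
  classical
  have hchar : CharP F p := charP_of_card_eq_prime_pow hF
  by_cases hsp : m = 2 ∧ p = 2
  · obtain ⟨rfl, rfl⟩ := hsp
    rw [if_pos ⟨rfl, rfl⟩, Cfsg.Agent.GraphAut25.card_mulAut f hf hF (hF ▸ h22 rfl)]
    have : Nat.gcd 2 (2 ^ f - 1) = 1 := by
      refine Nat.coprime_two_left.2 ?_
      obtain ⟨k, rfl⟩ : ∃ k, f = k + 1 := ⟨f - 1, by omega⟩
      exact ⟨2 ^ k - 1, by have := Nat.one_le_two_pow (n := k); rw [pow_succ]; omega⟩
    rw [this, mul_one]
  · rw [if_neg hsp, one_mul, ← Cfsg.Agent.AutPSp25.card_gammaPSp p f hf hF hm]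
    have htop : Cfsg.gammaPSp m F = ⊤ := by
      refine Cfsg.Agent.AutPSp.gammaPSp_eq_top hm ?_
      rcases Nat.lt_or_ge m 3 with h | h
      · left
        intro h2
        have hm2 : m = 2 := by omega
        have : p ∣ 2 := (CharP.cast_eq_zero_iff F p 2).1 (by exact_mod_cast h2)
        exact hsp ⟨hm2, (Nat.prime_dvd_prime_iff_eq Fact.out Nat.prime_two).1 this⟩
      · exact Or.inr h
    rw [htop, Subgroup.card_top]

end Cfsg.Agent.S0814
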