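import Cfsg.Statements.S0818
import Cfsg.Agent.OutPO.MinusOut

set_option autoImplicit false
open Cfsg

namespace Cfsg.Agent.S0818

set_option maxHeartbeats 1000000 in
set_option synthInstance.maxHeartbeats 400000 in
/-- |Aut(PΩ⁻_2m(q))| for q = p^f, m ≥ 4 (form quadFormMinus (m−1) with anisotropic binary part): |PΩ⁻_2m(q)| times f, times 2 if p = 2, and times 4 or 8 if p is odd according as m(q−1)/2 is even or odd. -/
theorem result {F : Type*} [Field F] [Fintype F] (p f : ℕ) [Fact p.Prime] (hf : 1 ≤ f) (hF : Fintype.card F = p ^ f) (m : ℕ) (hm : 4 ≤ m) (a b : F) (hab : ∀ z₁ z₂ : F, z₁ ^ 2 + a * z₁ * z₂ + b * z₂ ^ 2 = 0 → z₁ = 0 ∧ z₂ = 0) : Nat.card (MulAut (Cfsg.POmega F (Cfsg.quadFormMinus (m - 1) F a b))) = (if p = 2 then 2 else (if Even (m * (p ^ f - 1) / 2) then 4 else 8)) * f * Nat.card (Cfsg.POmega F (Cfsg.quadFormMinus (m - 1) F a b)) := by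
  obtain ⟨k, rfl⟩ : ∃ k, m = k + 4 := ⟨m - 4, by omega⟩
  have hA := Cfsg.Agent.Classical.anisotropic_binQF hab
  have hF' : Nat.card F = p ^ f := by rw [Nat.card_eq_fintype_card, hF]
  obtain ⟨K, _, _, ω, E⟩ := Cfsg.Agent.OutPO.exists_qext hA
  rw [show k + 4 - 1 = k + 3 from rfl]
  haveI := Cfsg.Agent.AutPSL.inn_normal (Cfsg.POmega F (Cfsg.quadFormMinus (k + 3) F a b))
  rw [Subgroup.card_eq_card_quotient_mul_card_subgroup
    (Cfsg.Inn (Cfsg.POmega F (Cfsg.quadFormMinus (k + 3) F a b))),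
    Cfsg.Agent.OutPO.card_inn_minus E]
  congr 1
  obtain ⟨e2⟩ := E.ringAut_equiv hF'
  by_cases hp : p = 2
  · subst hp
    haveI : CharP F 2 := charP_of_card_eq_prime_pow (f := f) hF
    obtain ⟨e1⟩ := Cfsg.Agent.OutPO.out_equiv_minus_two (k := k) E
    rw [if_pos rfl, show Nat.card (MulAut (Cfsg.POmega F (Cfsg.quadFormMinus (k + 3) F a b)) ⧸
      Cfsg.Inn (Cfsg.POmega F (Cfsg.quadFormMinus (k + 3) F a b))) = _ from
      Nat.card_congr (e1.trans e2).toEquiv, Nat.card_congr Multiplicative.toAdd, Nat.card_zmod]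
  rw [if_neg hp]
  have hodd : Odd (Nat.card F) := hF' ▸ ((Fact.out : p.Prime).odd_of_ne_two hp).pow
  have hq : Odd (p ^ f) := hF' ▸ hodd
  have hiff : ¬ Even ((k + 4) * (p ^ f - 1) / 2) ↔ (Even (k + 3) ∧ Nat.card F % 4 = 3) := by
    rw [hF']
    obtain ⟨j, hj⟩ := hq
    rw [hj, show 2 * j + 1 - 1 = 2 * j by omega, show (k + 4) * (2 * j) = 2 * ((k + 4) * j) by ring,
      Nat.mul_div_cancel_left _ two_pos, Nat.not_even_iff_odd, Nat.odd_mul, Nat.odd_iff,
      Nat.odd_iff, Nat.even_iff]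
    omega
  by_cases h : Even (k + 3) ∧ Nat.card F % 4 = 3
  · obtain ⟨e1⟩ := Cfsg.Agent.OutPO.out_equiv_minus_dihedral E hodd h hF'
    rw [if_neg (hiff.2 h), show Nat.card (MulAut (Cfsg.POmega F (Cfsg.quadFormMinus (k + 3) F a b)) ⧸
      Cfsg.Inn (Cfsg.POmega F (Cfsg.quadFormMinus (k + 3) F a b))) = _ from
      Nat.card_congr e1.toEquiv, Nat.card_prod, DihedralGroup.nat_card,
      Nat.card_congr Multiplicative.toAdd, Nat.card_zmod]
  · obtain ⟨e1⟩ := Cfsg.Agent.OutPO.out_equiv_minus_odd (k := k) E hodd h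
    have hev : Even ((k + 4) * (p ^ f - 1) / 2) := by
      by_contra hc; exact h (hiff.1 hc)
    rw [if_pos hev, show Nat.card (MulAut (Cfsg.POmega F (Cfsg.quadFormMinus (k + 3) F a b)) ⧸
      Cfsg.Inn (Cfsg.POmega F (Cfsg.quadFormMinus (k + 3) F a b))) = _ from
      Nat.card_congr (e1.trans (MulEquiv.prodCongr (MulEquiv.refl _) e2)).toEquiv, Nat.card_prod,
      Nat.card_congr Multiplicative.toAdd, Nat.card_congr Multiplicative.toAdd, Nat.card_zmod,
      Nat.card_zmod]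
    ring

end Cfsg.Agent.S0818
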