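import Cfsg.Statements.S0819
import Cfsg.Agent.GFour25.Basic

set_option autoImplicit false
open Cfsg

namespace Cfsg.Agent.S0819

/-- The coefficients of `M ^ k` in terms of `M ^ 2, M, 1` when `M ^ 3 = a M ^ 2 + b M + 1`. -/
def powCoeff {R : Type*} [CommRing R] (a b : R) : ℕ → R × R × R
  | 0 => (0, 0, 1)
  | k + 1 => (a * (powCoeff a b k).1 + (powCoeff a b k).2.1,
      b * (powCoeff a b k).1 + (powCoeff a b k).2.2, (powCoeff a b k).1)

theorem exists_small_exponent : ∀ a b : GFour25.F4, ∃ k ∈ [3, 4, 5, 7],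
    (powCoeff a b k).1 = 0 ∧ (powCoeff a b k).2.1 = 0 := by decide +kernel

theorem powCoeff_map {R S : Type*} [CommRing R] [CommRing S] (e : R →+* S) (a b : R) (k : ℕ) :
    powCoeff (e a) (e b) k =
      (e (powCoeff a b k).1, e (powCoeff a b k).2.1, e (powCoeff a b k).2.2) := by
  induction k with
  | zero => simp [powCoeff]
  | succ k ih => simp [powCoeff, ih]


/-- No element of PSL_3(4) has order 15. -/
theorem result {F : Type*} [Field F] [Fintype F] (hF : Fintype.card F = 4) (g : Matrix.ProjectiveSpecialLinearGroup (Fin 3) F) : orderOf g ≠ 15 := by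
  classical
  intro hg
  obtain ⟨A, rfl⟩ := QuotientGroup.mk_surjective g
  set M : Matrix (Fin 3) (Fin 3) F := (A : Matrix (Fin 3) (Fin 3) F) with hM
  have h2 : (2 : F) = 0 := Cfsg.Agent.GFour25.two_eq_zero hF
  have hdeg : M.charpoly.natDegree = 3 := by rw [Matrix.charpoly_natDegree_eq_dim]; simp
  have hc0 : M.charpoly.coeff 0 = 1 := by
    have := Matrix.det_eq_sign_charpoly_coeff M
    rw [hM, A.prop, Fintype.card_fin, ← hM] at this
    linear_combination this - h2
  have hc3 : M.charpoly.coeff 3 = 1 := by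
    have := (Matrix.charpoly_monic M).coeff_natDegree
    rwa [hdeg] at this
  have hch := Matrix.aeval_self_charpoly M
  rw [Polynomial.aeval_eq_sum_range, hdeg, Finset.sum_range_succ, Finset.sum_range_succ,
    Finset.sum_range_succ, Finset.sum_range_succ, Finset.sum_range_zero, zero_add, hc0, hc3,
    one_smul, one_smul, pow_zero, pow_one] at hch
  obtain ⟨e⟩ := Cfsg.Agent.GFour25.exists_ringEquiv hF
  obtain ⟨a, ha⟩ := e.surjective (M.charpoly.coeff 2)
  obtain ⟨b, hb⟩ := e.surjective (M.charpoly.coeff 1)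
  have h3 : M ^ 3 = (M.charpoly.coeff 2) • M ^ 2 + (M.charpoly.coeff 1) • M + 1 := by
    ext i j
    have := congrFun (congrFun hch i) j
    simp only [Matrix.add_apply, Matrix.smul_apply, Matrix.zero_apply, smul_eq_mul] at this ⊢
    linear_combination this - ((1 : Matrix (Fin 3) (Fin 3) F) i j + M.charpoly.coeff 1 * M i j
      + M.charpoly.coeff 2 * (M ^ 2) i j) * h2
  obtain ⟨k, hk, hk1, hk2⟩ := exists_small_exponent a b
  set P := powCoeff (M.charpoly.coeff 2) (M.charpoly.coeff 1) with hP
  have hpow : ∀ j, M ^ j = (P j).1 • M ^ 2 + (P j).2.1 • M + (P j).2.2 • (1 : Matrix (Fin 3) (Fin 3) F) := by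
    intro j
    induction j with
    | zero => simp [hP, powCoeff]
    | succ j ih =>
      rw [pow_succ, ih, add_mul, add_mul, smul_mul_assoc, smul_mul_assoc, smul_mul_assoc, one_mul,
        ← pow_succ, ← sq, h3]
      simp only [hP, powCoeff]
      ext i l
      simp only [Matrix.add_apply, Matrix.smul_apply, smul_eq_mul]
      ring
  have hPk := powCoeff_map (e : GFour25.F4 →+* F) a b k
  simp only [RingEquiv.coe_toRingHom, ha, hb, hk1, hk2, map_zero] at hPk
  have hMk : M ^ k = Matrix.scalar (Fin 3) (e (powCoeff a b k).2.2) := by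
    rw [hpow k]
    simp [hP, hPk, Matrix.smul_one_eq_diagonal]
  have hone : (QuotientGroup.mk A : Matrix.ProjectiveSpecialLinearGroup (Fin 3) F) ^ k = 1 := by
    rw [← QuotientGroup.mk_pow, QuotientGroup.eq_one_iff, Matrix.SpecialLinearGroup.mem_center_iff]
    refine ⟨e (powCoeff a b k).2.2, ?_, ?_⟩
    swap
    · rw [Matrix.SpecialLinearGroup.coe_pow, ← hM, hMk]
    · have := congrArg Matrix.det hMk
      rw [Matrix.det_pow, hM, A.prop, one_pow] at this
      simpa [Matrix.det_diagonal] using this.symm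
  have hd := orderOf_dvd_of_pow_eq_one hone
  rw [hg] at hd
  fin_cases hk <;> omega

end Cfsg.Agent.S0819
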