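import Cfsg.Statements.S0820
import Cfsg.Agent.Trans25.Three
import Cfsg.Agent.GFour25.Basic

set_option autoImplicit false
open Cfsg

namespace Cfsg.Agent.S0820

/-- Any two elements of order 2 of PSL_3(4) are conjugate. -/
theorem result {F : Type*} [Field F] [Fintype F] (hF : Fintype.card F = 4) (x y : Matrix.ProjectiveSpecialLinearGroup (Fin 3) F) (hx : orderOf x = 2) (hy : orderOf y = 2) : IsConj x y := by
  classical
  have h2 : (2 : F) = 0 := Cfsg.Agent.GFour25.two_eq_zero hF
  have key : ∀ x : Matrix.ProjectiveSpecialLinearGroup (Fin 3) F, orderOf x = 2 →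
      ∃ t : Matrix.SpecialLinearGroup (Fin 3) F, QuotientGroup.mk t = x ∧
        Cfsg.IsTransvection (t : Matrix (Fin 3) (Fin 3) F) := by
    intro x hx
    obtain ⟨a, rfl⟩ := QuotientGroup.mk_surjective x
    have hx2 : (QuotientGroup.mk a : Matrix.ProjectiveSpecialLinearGroup (Fin 3) F) ^ 2 = 1 := by
      rw [← hx]; exact pow_orderOf_eq_one _
    have hc : a ^ 2 ∈ Subgroup.center (Matrix.SpecialLinearGroup (Fin 3) F) := by
      rw [← QuotientGroup.eq_one_iff]; simpa using hx2
    have h6 : a ^ 6 = 1 := by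
      obtain ⟨r, hr, hra⟩ := Matrix.SpecialLinearGroup.mem_center_iff.1 hc
      have hr3 : r ^ 3 = 1 := by simpa using hr
      apply Subtype.ext
      rw [show a ^ 6 = (a ^ 2) ^ 3 by rw [← pow_mul], Matrix.SpecialLinearGroup.coe_pow, ← hra,
        ← map_pow, hr3, map_one, Matrix.SpecialLinearGroup.coe_one]
    have hmk : (QuotientGroup.mk (a ^ 3) : Matrix.ProjectiveSpecialLinearGroup (Fin 3) F) = QuotientGroup.mk a := by
      rw [pow_succ, QuotientGroup.mk_mul, QuotientGroup.mk_pow, hx2, one_mul]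
    refine ⟨a ^ 3, hmk, ?_⟩
    set N : Matrix (Fin 3) (Fin 3) F :=
      ((a ^ 3 : Matrix.SpecialLinearGroup (Fin 3) F) : Matrix (Fin 3) (Fin 3) F) - 1 with hN
    have hsq : ((a ^ 3 : Matrix.SpecialLinearGroup (Fin 3) F) : Matrix (Fin 3) (Fin 3) F) *
        ((a ^ 3 : Matrix.SpecialLinearGroup (Fin 3) F) : Matrix (Fin 3) (Fin 3) F) = 1 := by
      rw [← Matrix.SpecialLinearGroup.coe_mul, ← pow_add]
      norm_num [h6]
    have hNN : N * N = 0 := by
      rw [hN, sub_mul, mul_sub, mul_sub, hsq, one_mul, mul_one, one_mul]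
      ext i j
      simp only [Matrix.sub_apply, Matrix.zero_apply]
      linear_combination ((1 : Matrix (Fin 3) (Fin 3) F) i j -
        ((a ^ 3 : Matrix.SpecialLinearGroup (Fin 3) F) : Matrix (Fin 3) (Fin 3) F) i j) * h2
    refine ⟨?_, hNN⟩
    have hle : N.rank + N.rank ≤ Fintype.card (Fin 3) :=
      Matrix.rank_add_rank_le_card_of_mul_eq_zero hNN
    have hne : N.rank ≠ 0 := by
      intro h0
      have hbot : LinearMap.range N.mulVecLin = ⊥ := Submodule.finrank_eq_zero.1 h0
      have hN0 : N = 0 := by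
        rw [LinearMap.range_eq_bot] at hbot
        ext i j
        simpa using congrFun (LinearMap.congr_fun hbot (Pi.single j 1)) i
      have : a ^ 3 = 1 := Subtype.ext (sub_eq_zero.1 (hN ▸ hN0))
      rw [this, QuotientGroup.mk_one] at hmk
      rw [← hmk, orderOf_one] at hx
      exact absurd hx (by norm_num)
    rw [Fintype.card_fin] at hle
    have h1 : N.rank = 1 := by omega
    exact h1
  obtain ⟨t, rfl, ht⟩ := key x hx
  obtain ⟨t', rfl, ht'⟩ := key y hy
  exact MonoidHom.map_isConj (QuotientGroup.mk' _)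
    (Cfsg.Agent.Trans25.isConj_of_isTransvection_three t t' ht ht')

end Cfsg.Agent.S0820
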