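import Cfsg.Statements.S0821
import Cfsg.Agent.InvClasses25.Orth
import Cfsg.Agent.InvClasses25.Symp
import Cfsg.Agent.Forms25.Disc
import Cfsg.Agent.Classical.OrthForms

set_option autoImplicit false
open Cfsg

namespace Cfsg.Agent.S0821

/-- PSp_2m(q) ≇ PΩ_(2m+1)(q) for q odd and m ≥ 3 (they have the same order). -/
theorem result {F : Type*} [Field F] [Fintype F] (hodd : Odd (Fintype.card F)) (m : ℕ) (hm : 3 ≤ m) : IsEmpty (Cfsg.PSp m F ≃* Cfsg.POmega F (Cfsg.quadFormOdd m F)) := by
  classical
  refine ⟨fun Φ => ?_⟩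
  have h2 : (2 : F) ≠ 0 := by
    intro h
    have hc : ringChar F = 2 := by
      have := ringChar.dvd (R := F) (x := 2) (by exact_mod_cast h)
      exact ((Nat.prime_two.eq_one_or_self_of_dvd _ this).resolve_left (CharP.ringChar_ne_one))
    exact (Nat.not_even_iff_odd.2 hodd) (Nat.even_iff.2 (FiniteField.even_card_iff_char_two.1 hc))
  set Q := Classical.oddQF m F with hQ
  have hQn : LinearMap.BilinForm.Nondegenerate (QuadraticMap.polarBilin Q) := by
    have key : ∀ u, (∀ v, QuadraticMap.polarBilin Q u v = 0) → u = 0 := by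
      intro u hu
      have h : ∀ v, Cfsg.quadFormOdd m F (u + v) - Cfsg.quadFormOdd m F u - Cfsg.quadFormOdd m F v = 0 := by
        intro v; rw [← Classical.oddQF_apply, ← Classical.oddQF_apply, ← Classical.oddQF_apply]; exact hu v
      funext j
      rcases j with j | j | j
      · have := h (Pi.single (.inl ()) 1)
        simp [Cfsg.quadFormOdd, Pi.single_apply] at this
        have h' : (2 : F) * u (.inl ()) = 0 := by linear_combination this
        exact (mul_eq_zero.1 h').resolve_left h2
      · have := h (Pi.single (.inr (.inr j)) 1)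
        simpa [Cfsg.quadFormOdd, Pi.single_apply, mul_add, Finset.sum_add_distrib] using this
      · have := h (Pi.single (.inr (.inl j)) 1)
        simpa [Cfsg.quadFormOdd, Pi.single_apply, add_mul, Finset.sum_add_distrib] using this
    exact ⟨key, fun u hu => key u fun v => by
      rw [show QuadraticMap.polarBilin Q u v = QuadraticMap.polarBilin Q v u from QuadraticMap.polar_comm (⇑Q) u v]
      exact hu v⟩
  have hdim : Module.finrank F (Unit ⊕ (Fin m ⊕ Fin m) → F) = 2 * m + 1 := by
    rw [Module.finrank_pi]; simp; omega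
  have hQS : LinearMap.BilinForm.IsSymm (QuadraticMap.polarBilin Q) :=
    ⟨fun x y => QuadraticMap.polar_comm (⇑Q) x y⟩
  obtain ⟨b, d, hd, hb⟩ := Forms25.exists_normal_basis h2 hQS hQn hdim
  have hbij : ∀ i j, QuadraticMap.polar (⇑Q) (b i) (b j) =
      Matrix.diagonal (fun i => if i = Fin.last (2 * m) then d else 1) i j := by
    intro i j
    rw [← hb, LinearMap.BilinForm.toMatrix_apply]
    rfl
  have horth : ∀ i j, i ≠ j → QuadraticMap.polar (⇑Q) (b i) (b j) = 0 := fun i j hij => by
    rw [hbij, Matrix.diagonal_apply_ne _ hij]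
  have hself : ∀ i, 2 * Q (b i) = if i = Fin.last (2 * m) then d else 1 := fun i => by
    rw [← InvClasses25.polar_self_two, hbij, Matrix.diagonal_apply_eq]
  have hc : ∀ i, i ≠ Fin.last (2 * m) → Q (b i) = (2 : F)⁻¹ := fun i hi => by
    have := hself i
    rw [if_neg hi] at this
    exact eq_inv_of_mul_eq_one_right this
  have hl : Q (b (Fin.last (2 * m))) ≠ 0 := by
    intro h
    have := hself (Fin.last (2 * m))
    rw [h, if_pos rfl, mul_zero] at this
    exact hd this.symm
  obtain ⟨t, ht, hnc⟩ := InvClasses25.exists_nonconj_involutions h2 b (inv_ne_zero h2) horth hc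
  have hcen := InvClasses25.center_commutator_eq_bot h2 (by omega : 2 ≤ m) b (inv_ne_zero h2) horth hc hl
  -- transfer to the quotient
  let e₁ := Classical.isometryGroupEquiv (Cfsg.quadFormOdd m F) Q (Classical.oddQF_apply m)
  let e₂ : ↥(commutator (Cfsg.isometryGroup F (Cfsg.quadFormOdd m F))) ≃* ↥(commutator (Classical.OQ Q)) :=
    (e₁.subgroupMap _).trans (MulEquiv.subgroupCongr (by
      rw [commutator_def, commutator_def, Subgroup.map_commutator,
        Subgroup.map_top_of_surjective _ e₁.surjective]))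
  have hbot : Subgroup.center ↥(Cfsg.Omega F (Cfsg.quadFormOdd m F)) = ⊥ := by
    rw [eq_bot_iff]
    intro z hz
    have : e₂ z ∈ Subgroup.center _ := by
      rw [Subgroup.mem_center_iff]
      intro g
      obtain ⟨g, rfl⟩ := e₂.surjective g
      rw [← map_mul, ← map_mul, Subgroup.mem_center_iff.1 hz g]
    rw [hcen, Subgroup.mem_bot] at this
    rw [Subgroup.mem_bot]
    exact e₂.injective (this.trans (map_one e₂).symm)
  let s : Fin m → Cfsg.PSp m F := fun i => Φ.symm (QuotientGroup.mk (e₂.symm (t i)))
  choose a ha using fun i => QuotientGroup.mk_surjective (s i)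
  let φ := SympSub.spEquiv m F
  have hφc : ∀ g, φ g ∈ Subgroup.center _ ↔ g ∈ Subgroup.center (Matrix.symplecticGroup (Fin m) F) := by
    intro g
    constructor
    · intro h
      rw [Subgroup.mem_center_iff] at h ⊢
      exact fun x => φ.injective (by rw [map_mul, map_mul, h])
    · intro h
      rw [Subgroup.mem_center_iff] at h ⊢
      intro x
      obtain ⟨x, rfl⟩ := φ.surjective x
      rw [← map_mul, ← map_mul, h]
  have hs2 : ∀ i, s i * s i = 1 := fun i => by
    simp only [s, ← map_mul, ← QuotientGroup.mk_mul, (ht i).1, map_one, QuotientGroup.mk_one]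
  have hs1 : ∀ i, s i ≠ 1 := fun i h => by
    have := congrArg Φ h
    rw [map_one] at this
    simp only [s, MulEquiv.apply_symm_apply] at this
    rw [QuotientGroup.eq_one_iff, hbot, Subgroup.mem_bot] at this
    exact (ht i).2 (by simpa using congrArg e₂ this)
  obtain ⟨i, j, hij, g, z, hz, hg⟩ := InvClasses25.exists_conj_mod_center h2
    Forms.sympBil_isAlt Forms.sympBil_nondegenerate hm
    (by rw [Module.finrank_pi]; simp; omega) (fun i => φ (a i))
    (fun i => by
      rw [← map_mul, hφc, ← QuotientGroup.eq_one_iff, QuotientGroup.mk_mul, ha]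
      exact hs2 i)
    (fun i h => hs1 i (by rw [← ha, QuotientGroup.eq_one_iff]; exact (hφc _).1 h))
  refine hij (hnc i j ?_)
  obtain ⟨g, rfl⟩ := φ.surjective g
  obtain ⟨z, rfl⟩ := φ.surjective z
  simp only [← map_inv, ← map_mul] at hg
  have h := congrArg (fun x => (QuotientGroup.mk x : Cfsg.PSp m F)) (φ.injective hg)
  simp only [QuotientGroup.mk_mul, QuotientGroup.mk_inv, ha,
    (QuotientGroup.eq_one_iff z).2 ((hφc z).1 hz), mul_one] at h
  obtain ⟨g', hg'⟩ := QuotientGroup.mk_surjective (Φ (QuotientGroup.mk g))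
  have h' := congrArg Φ h
  simp only [map_mul, map_inv, s, MulEquiv.apply_symm_apply] at h'
  rw [← hg', ← QuotientGroup.mk_mul, ← QuotientGroup.mk_inv, ← QuotientGroup.mk_mul] at h'
  rw [QuotientGroup.eq, hbot, Subgroup.mem_bot, inv_mul_eq_one] at h'
  refine isConj_iff.2 ⟨e₂ g', ?_⟩
  have := congrArg e₂ h'
  simpa using this

end Cfsg.Agent.S0821
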