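import Cfsg.Statements.S0823
import Cfsg.Agent.HeartPerm25.Three
import Cfsg.Agent.S0286

set_option autoImplicit false
open Cfsg

namespace Cfsg.Agent.S0823

/-- SO_3(3) ≅ S_4: the determinant-one isometries of the form x_0² + x_1y_1 over the field with 3 elements form a group isomorphic to the symmetric group on 4 letters. -/
theorem result {F : Type*} [Field F] [Fintype F] (hF : Fintype.card F = 3) : Nonempty (↥(Cfsg.specialIsometryGroup F (Cfsg.quadFormOdd 1 F)) ≃* Equiv.Perm (Fin 4)) := by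
  classical
  obtain ⟨f, hf, hdet⟩ := HeartPerm25.exists_hom_three
  let σ : ZMod 3 ≃+* F := ZMod.ringEquivOfPrime F Nat.prime_three hF
  have hq : ∀ v, Cfsg.quadFormOdd 1 F (fun i => σ (v i)) = σ (Cfsg.quadFormOdd 1 (ZMod 3) v) :=
    fun v => by simp [Cfsg.quadFormOdd]
  let g := (HeartPerm25.mapIso σ _ _ hq).comp f
  have hmem : ∀ π, g π ∈ Cfsg.specialIsometryGroup F (Cfsg.quadFormOdd 1 F) := by
    intro π
    rw [Cfsg.specialIsometryGroup, MonoidHom.mem_ker, MonoidHom.comp_apply]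
    apply Units.ext
    rw [Matrix.GeneralLinearGroup.val_det_apply, Units.val_one]
    calc _ = σ.toRingHom (((f π : Matrix.GeneralLinearGroup (Unit ⊕ (Fin 1 ⊕ Fin 1)) (ZMod 3)) :
          Matrix (Unit ⊕ (Fin 1 ⊕ Fin 1)) (Unit ⊕ (Fin 1 ⊕ Fin 1)) (ZMod 3)).det) := (RingHom.map_det σ.toRingHom _).symm
      _ = 1 := by rw [hdet π, map_one]
  let g' := g.codRestrict _ hmem
  have hinj : Function.Injective g' := fun a b h =>
    hf ((HeartPerm25.mapIso_injective σ _ _ hq) (congrArg Subtype.val h))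
  set χ := Matrix.GeneralLinearGroup.det.comp (Cfsg.isometryGroup F (Cfsg.quadFormOdd 1 F)).subtype with hχ
  have hO : Nat.card (Cfsg.isometryGroup F (Cfsg.quadFormOdd 1 F)) = 48 := by
    rw [S0286.result hF (by decide) 1]; rfl
  have hrange : 2 ≤ Nat.card χ.range := by
    have hm : (-1 : Matrix.GeneralLinearGroup (Unit ⊕ (Fin 1 ⊕ Fin 1)) F) ∈
        Cfsg.isometryGroup F (Cfsg.quadFormOdd 1 F) := by
      rw [HeartPerm25.mem_isometry_iff]
      intro x
      simp [Matrix.neg_mulVec, Cfsg.quadFormOdd]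
    have h1 : ((χ ⟨-1, hm⟩ : Fˣ) : F) = -1 := by
      show ((-1 : Matrix.GeneralLinearGroup (Unit ⊕ (Fin 1 ⊕ Fin 1)) F) : Matrix (Unit ⊕ (Fin 1 ⊕ Fin 1)) (Unit ⊕ (Fin 1 ⊕ Fin 1)) F).det = -1
      rw [Units.val_neg, Units.val_one, Matrix.det_neg, Matrix.det_one, mul_one]
      simp [pow_succ]
    have hne : (-1 : F) ≠ 1 := by
      intro h
      have := congrArg σ.symm h
      simp at this
      exact absurd this (by decide)
    rw [Nat.succ_le_iff, Finite.one_lt_card_iff_nontrivial]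
    refine ⟨⟨1, ⟨χ ⟨-1, hm⟩, ⟨_, rfl⟩⟩, fun h => hne ?_⟩⟩
    have e : (1 : Fˣ) = χ ⟨-1, hm⟩ := congrArg Subtype.val h
    rw [← h1, ← e]
    rfl
  have hle : Nat.card (Cfsg.specialIsometryGroup F (Cfsg.quadFormOdd 1 F)) ≤ Nat.card (Equiv.Perm (Fin 4)) := by
    have h := Subgroup.card_mul_index χ.ker
    rw [Subgroup.index_ker, hO] at h
    rw [Nat.card_eq_fintype_card (α := Equiv.Perm (Fin 4)), Fintype.card_perm, Fintype.card_fin]
    show Nat.card χ.ker ≤ 24
    nlinarith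
  exact ⟨(MulEquiv.ofBijective g' (hinj.bijective_of_nat_card_le hle)).symm⟩

end Cfsg.Agent.S0823
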