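import Cfsg.Statements.S0825
import Cfsg.Agent.HeartPerm25.Models
import Cfsg.Agent.S0287

set_option autoImplicit false
open Cfsg

namespace Cfsg.Agent.S0825

/-- O⁺_6(2) ≅ S_8: the isometry group of the hyperbolic form x_1y_1 + x_2y_2 + x_3y_3 over the field with 2 elements is isomorphic to the symmetric group on 8 letters. -/
theorem result {F : Type*} [Field F] [Fintype F] (hF : Fintype.card F = 2) : Nonempty (↥(Cfsg.isometryGroup F (Cfsg.quadFormPlus 3 F)) ≃* Equiv.Perm (Fin 8)) := by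
  classical
  obtain ⟨f, hf⟩ := HeartPerm25.exists_hom_eight
  let σ : ZMod 2 ≃+* F := ZMod.ringEquivOfPrime F Nat.prime_two hF
  have hq : ∀ v, Cfsg.quadFormPlus 3 F (fun i => σ (v i)) = σ (Cfsg.quadFormPlus 3 (ZMod 2) v) :=
    fun v => by simp [Cfsg.quadFormPlus]
  have hinj := (HeartPerm25.mapIso_injective σ _ _ hq).comp hf
  have hcard : Nat.card (Cfsg.isometryGroup F (Cfsg.quadFormPlus 3 F)) = Nat.card (Equiv.Perm (Fin 8)) := by
    rw [S0287.result hF 3 (by norm_num), Nat.card_eq_fintype_card, Fintype.card_perm, Fintype.card_fin]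
    rfl
  exact ⟨(MulEquiv.ofBijective ((HeartPerm25.mapIso σ _ _ hq).comp f)
    (hinj.bijective_of_nat_card_le hcard.le)).symm⟩

end Cfsg.Agent.S0825
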