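import Cfsg.Statements.S0828
import Cfsg.Agent.SympSub.Count
-- import your own Cfsg.Agent.* helpers here

set_option autoImplicit false
open Cfsg

namespace Cfsg.Agent.S0828

/-- The symplectic generalised quadrangle over a field with q elements: the number of 2-dimensional subspaces of F^4 on which the symplectic form vanishes is (q + 1)(q² + 1), and every non-zero vector lies in exactly q + 1 of them. -/
theorem result {F : Type*} [Field F] [Fintype F] {q : ℕ} (hF : Fintype.card F = q) : Nat.card {W : Submodule F (Fin 2 ⊕ Fin 2 → F) // Module.finrank F W = 2 ∧ ∀ u ∈ W, ∀ v ∈ W, Cfsg.sympForm 2 F u v = 0} = (q + 1) * (q ^ 2 + 1) ∧ ∀ v : Fin 2 ⊕ Fin 2 → F, v ≠ 0 → Nat.card {W : Submodule F (Fin 2 ⊕ Fin 2 → F) // Module.finrank F W = 2 ∧ v ∈ W ∧ ∀ u ∈ W, ∀ w ∈ W, Cfsg.sympForm 2 F u w = 0} = q + 1 := by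
  classical
  subst hF
  set q := Fintype.card F
  have hq : 1 < q := Fintype.one_lt_card
  set V := (Fin 2 ⊕ Fin 2 → F)
  set B := Forms.sympBil 2 F
  have hB : B.Nondegenerate := Forms.sympBil_nondegenerate
  have hA : B.IsAlt := Forms.sympBil_isAlt
  -- the lines through a given vector
  have key : ∀ v : V, v ≠ 0 → Nat.card {W : Submodule F V // Module.finrank F W = 2 ∧ v ∈ W ∧ ∀ u ∈ W, ∀ w ∈ W, Cfsg.sympForm 2 F u w = 0} = q + 1 := by
    intro v hv
    set P : Submodule F V := B.orthogonal (Submodule.span F {v})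
    set L : Submodule F V := Submodule.span F {v}
    have hL : Module.finrank F L = 1 := finrank_span_singleton hv
    have hP : Module.finrank F P = 3 := by
      show Module.finrank F ↥(B.orthogonal L) = 3
      rw [LinearMap.BilinForm.finrank_orthogonal hB L, hL,
        Module.finrank_fintype_fun_eq_card]
      rfl
    have hmemP : ∀ w, w ∈ P ↔ B v w = 0 := fun w => by
      constructor
      · intro h; exact h v (Submodule.mem_span_singleton_self v)
      · intro h n hn
        obtain ⟨c, rfl⟩ := Submodule.mem_span_singleton.1 hn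
        show B (c • v) w = 0
        rw [map_smul, LinearMap.smul_apply, h, smul_zero]
    let T := {W : Submodule F V // Module.finrank F W = 2 ∧ v ∈ W ∧ ∀ u ∈ W, ∀ w ∈ W, Cfsg.sympForm 2 F u w = 0}
    have hspan : ∀ w, w ∉ L → w ∈ P → Module.finrank F ↥(Submodule.span F {v, w}) = 2 ∧
        v ∈ Submodule.span F {v, w} ∧ ∀ u ∈ Submodule.span F {v, w}, ∀ x ∈ Submodule.span F {v, w}, Cfsg.sympForm 2 F u x = 0 := by
      intro w hw hwP
      refine ⟨?_, Submodule.subset_span (by simp), fun u hu x hx => ?_⟩
      · have hli : LinearIndependent F ![v, w] := (LinearIndependent.pair_iff' hv).2 fun a e =>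
          hw (e ▸ Submodule.smul_mem _ a (Submodule.mem_span_singleton_self v))
        have h2 := finrank_span_eq_card hli
        rwa [Matrix.range_cons, Matrix.range_cons, Matrix.range_empty, Set.union_empty,
          Set.singleton_union, Fintype.card_fin] at h2
      · obtain ⟨a, b, rfl⟩ := Submodule.mem_span_pair.1 hu
        obtain ⟨c, d, rfl⟩ := Submodule.mem_span_pair.1 hx
        have h1 := (hmemP w).1 hwP
        have h2 : B w v = 0 := by rw [← LinearMap.IsAlt.neg hA v w, h1, neg_zero]
        rw [← Forms.sympBil_apply]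
        change B _ _ = 0
        simp [hA.self_eq_zero, h1, h2]
    let f : {w : V // w ∈ P ∧ w ∉ L} → T := fun w => ⟨_, hspan w.1 w.2.2 w.2.1⟩
    have hfib : ∀ W : T, Nat.card {w // f w = W} = q ^ 2 - q := by
      intro W
      have hLW : L ≤ W.1 := (Submodule.span_singleton_le_iff_mem v W.1).2 W.2.2.1
      have e : {w // f w = W} ≃ {w : V // w ∈ W.1 ∧ w ∉ L} :=
        { toFun := fun w => ⟨w.1.1, by
            have hW : Submodule.span F {v, w.1.1} = W.1 := congrArg Subtype.val w.2
            rw [← hW]; exact Submodule.subset_span (by simp), w.1.2.2⟩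
          invFun := fun w => ⟨⟨w.1, (hmemP _).2 (by
              show Forms.sympBil 2 F v w.1 = 0
              rw [Forms.sympBil_apply]; exact W.2.2.2 v W.2.2.1 w.1 w.2.1), w.2.2⟩, by
            refine Subtype.ext (Submodule.eq_of_le_of_finrank_eq ?_ ?_)
            · rw [Submodule.span_le]
              intro x hx
              simp only [Set.mem_insert_iff, Set.mem_singleton_iff] at hx
              rcases hx with rfl | rfl
              · exact W.2.2.1
              · exact w.2.1
            · exact (hspan w.1 w.2.2 ((hmemP _).2 (by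
                show Forms.sympBil 2 F v w.1 = 0
                rw [Forms.sympBil_apply]; exact W.2.2.2 v W.2.2.1 w.1 w.2.1))).1.trans W.2.1.symm⟩
          left_inv := fun _ => rfl
          right_inv := fun _ => rfl }
      rw [Nat.card_congr e, Nat.card_eq_fintype_card, Fintype.card_subtype, Finset.filter_and_not,
        Finset.card_sdiff_of_subset (fun x hx => by
          simp only [Finset.mem_filter, Finset.mem_univ, true_and] at hx ⊢; exact hLW hx),
        ← Fintype.card_subtype, ← Fintype.card_subtype, ← Nat.card_eq_fintype_card, ← Nat.card_eq_fintype_card,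
        show Nat.card {x : V // x ∈ W.1} = q ^ 2 by
          rw [Module.natCard_eq_pow_finrank (K := F) (V := ↥W.1), W.2.1, Nat.card_eq_fintype_card],
        show Nat.card {x : V // x ∈ L} = q by
          rw [Module.natCard_eq_pow_finrank (K := F) (V := ↥L), hL, Nat.card_eq_fintype_card, pow_one]]
    have hLP : L ≤ P := (Submodule.span_singleton_le_iff_mem v P).2 ((hmemP v).2 (hA.self_eq_zero v))
    have htot : Nat.card {w : V // w ∈ P ∧ w ∉ L} = q ^ 3 - q := by
      rw [Nat.card_eq_fintype_card, Fintype.card_subtype, Finset.filter_and_not,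
        Finset.card_sdiff_of_subset (fun x hx => by
          simp only [Finset.mem_filter, Finset.mem_univ, true_and] at hx ⊢; exact hLP hx),
        ← Fintype.card_subtype, ← Fintype.card_subtype, ← Nat.card_eq_fintype_card, ← Nat.card_eq_fintype_card,
        show Nat.card {x : V // x ∈ P} = q ^ 3 by
          rw [Module.natCard_eq_pow_finrank (K := F) (V := ↥P), hP, Nat.card_eq_fintype_card],
        show Nat.card {x : V // x ∈ L} = q by
          rw [Module.natCard_eq_pow_finrank (K := F) (V := ↥L), hL, Nat.card_eq_fintype_card, pow_one]]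
    haveI : Fintype T := Fintype.ofFinite T
    rw [← Nat.card_congr (Equiv.sigmaFiberEquiv f), Nat.card_sigma,
      Finset.sum_congr rfl (fun W _ => hfib W), Finset.sum_const, Finset.card_univ,
      ← Nat.card_eq_fintype_card, smul_eq_mul] at htot
    have hne : q ^ 2 - q ≠ 0 := by
      have : q < q ^ 2 := by nlinarith
      omega
    apply mul_right_cancel₀ hne
    rw [htot]
    have h1 : q ≤ q ^ 2 := Nat.le_self_pow two_ne_zero q
    have h2 : q ≤ q ^ 3 := Nat.le_self_pow three_ne_zero q
    zify [h1, h2]; ring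
  refine ⟨?_, fun v hv => key v hv⟩
  -- count incident pairs (non-zero vector, line)
  let U := {W : Submodule F V // Module.finrank F W = 2 ∧ ∀ u ∈ W, ∀ w ∈ W, Cfsg.sympForm 2 F u w = 0}
  haveI : Fintype U := Fintype.ofFinite U
  let e : (Σ W : U, {v : V // v ∈ W.1 ∧ v ≠ 0}) ≃ Σ v : {v : V // v ≠ 0},
      {W : Submodule F V // Module.finrank F W = 2 ∧ v.1 ∈ W ∧ ∀ u ∈ W, ∀ w ∈ W, Cfsg.sympForm 2 F u w = 0} :=
    { toFun := fun p => ⟨⟨p.2.1, p.2.2.2⟩, ⟨p.1.1, p.1.2.1, p.2.2.1, p.1.2.2⟩⟩
      invFun := fun p => ⟨⟨p.2.1, p.2.2.1, p.2.2.2.2⟩, ⟨p.1.1, p.2.2.2.1, p.1.2⟩⟩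
      left_inv := fun _ => rfl
      right_inv := fun _ => rfl }
  have hc := Nat.card_congr e
  haveI : Fintype {v : V // v ≠ 0} := Fintype.ofFinite _
  rw [Nat.card_sigma, Nat.card_sigma, Finset.sum_congr rfl (g := fun _ => q ^ 2 - 1) (fun W _ => by
      have hWc : Fintype.card ↥W.1 = q ^ 2 := by
        rw [Module.card_eq_pow_finrank (K := F) (V := ↥W.1), W.2.1]
      rw [Nat.card_congr
        (show {v : V // v ∈ W.1 ∧ v ≠ 0} ≃ {x : ↥W.1 // x ≠ 0} from
          { toFun := fun v => ⟨⟨v.1, v.2.1⟩, fun h => v.2.2 (congrArg Subtype.val h)⟩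
            invFun := fun x => ⟨x.1.1, x.1.2, fun h => x.2 (Subtype.ext h)⟩
            left_inv := fun _ => rfl
            right_inv := fun _ => rfl }),
        Nat.card_eq_fintype_card, Fintype.card_subtype_compl, Fintype.card_subtype_eq, hWc]),
    Finset.sum_congr rfl (fun (v : {v : V // v ≠ 0}) _ => key v.1 v.2), Finset.sum_const, Finset.sum_const, Finset.card_univ, Finset.card_univ, smul_eq_mul, smul_eq_mul,
    ← Nat.card_eq_fintype_card] at hc
  have hV : Fintype.card {v : V // v ≠ 0} = q ^ 4 - 1 := by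
    rw [Fintype.card_subtype_compl, Fintype.card_subtype_eq, Fintype.card_fun]
    rfl
  rw [hV] at hc
  have h1 : 1 ≤ q ^ 2 := Nat.one_le_pow _ _ (by omega)
  have h2 : 1 ≤ q ^ 4 := Nat.one_le_pow _ _ (by omega)
  have hne : q ^ 2 - 1 ≠ 0 := by
    have : q < q ^ 2 := by nlinarith
    omega
  apply mul_right_cancel₀ hne
  show Nat.card U * _ = _
  rw [hc]
  zify [h1, h2]; ring

end Cfsg.Agent.S0828
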