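import Cfsg.Statements.S0829
import Cfsg.Agent.Forms.UnitaryStab
-- import your own Cfsg.Agent.* helpers here

set_option autoImplicit false
open Cfsg

namespace Cfsg.Agent.S0829

/-- The unitary quadrangle of PSU_4(q): with |F| = q², the number of 2-dimensional subspaces of F^4 on which the Hermitian form Σ x_i y_i^q vanishes is (q + 1)(q³ + 1). -/
theorem result {F : Type*} [Field F] [Fintype F] {q : ℕ} (hF : Fintype.card F = q ^ 2) : Nat.card {W : Submodule F (Fin 4 → F) // Module.finrank F W = 2 ∧ ∀ u ∈ W, ∀ v ∈ W, Cfsg.hermForm 4 F q u v = 0} = (q + 1) * (q ^ 3 + 1) := by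
  have hq := Classical.U.sqField_of_fintype hF
  have h1 := Forms.card_TISub_mul (n := 4) hq 2
  have h2 := Forms.card_frame_mul hq 4 2 (by norm_num)
  rw [Classical.U.card_UG hq, Classical.U.card_UG hq, ← h1] at h2
  have hq1 := hq.one_lt
  norm_num [Fin.prod_univ_two, Finset.prod_range_succ, Nat.even_iff] at h2
  show Nat.card (Forms.TISub 4 2 F q) = (q + 1) * (q ^ 3 + 1)
  generalize Nat.card (Forms.TISub 4 2 F q) = N at h2 ⊢
  have e1 : 1 ≤ (q ^ 2) ^ 2 := Nat.one_le_pow _ _ (by positivity)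
  have e2 : q ^ 2 ≤ (q ^ 2) ^ 2 := Nat.le_self_pow two_ne_zero _
  have e3 : 1 ≤ q ^ 2 := Nat.one_le_pow _ _ (by omega)
  have e4 : 1 ≤ q ^ 4 := Nat.one_le_pow _ _ (by omega)
  zify [e1, e2, e3, e4] at h2 ⊢
  have hq' : (1 : ℤ) < q := by exact_mod_cast hq1
  have hne : ((q : ℤ) ^ 4 - 1) * ((q : ℤ) ^ 2 - 1) * q ^ 6 ≠ 0 := by
    have : (1 : ℤ) < (q : ℤ) ^ 4 := one_lt_pow₀ hq' (by norm_num)
    have : (1 : ℤ) < (q : ℤ) ^ 2 := one_lt_pow₀ hq' (by norm_num)
    positivity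
  apply mul_right_cancel₀ hne
  linear_combination h2

end Cfsg.Agent.S0829
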