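import Cfsg.Statements.S0831
import Cfsg.Agent.Forms25.Plus

set_option autoImplicit false
open Cfsg

namespace Cfsg.Agent.S0831

/-- The two families of maximal totally singular subspaces of the hyperbolic quadric: for the form Σ x_i y_i on F^(2m), m ≥ 1, and m-dimensional subspaces U, W, X on which it vanishes, the parities of m − dim(U ∩ W), m − dim(W ∩ X) and m − dim(U ∩ X) sum to an even number (so 'even codimension of the intersection' is an equivalence relation), and there exist two such subspaces meeting in codimension 1 (so there are exactly two classes). -/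
theorem result {F : Type*} [Field F] (m : ℕ) (hm : 1 ≤ m) : (∀ U W X : Submodule F (Fin m ⊕ Fin m → F), (Module.finrank F U = m ∧ ∀ w ∈ U, Cfsg.quadFormPlus m F w = 0) → (Module.finrank F W = m ∧ ∀ w ∈ W, Cfsg.quadFormPlus m F w = 0) → (Module.finrank F X = m ∧ ∀ w ∈ X, Cfsg.quadFormPlus m F w = 0) → Even ((m - Module.finrank F ↥(U ⊓ W)) + (m - Module.finrank F ↥(W ⊓ X)) + (m - Module.finrank F ↥(U ⊓ X)))) ∧ ∃ U W : Submodule F (Fin m ⊕ Fin m → F), (Module.finrank F U = m ∧ ∀ w ∈ U, Cfsg.quadFormPlus m F w = 0) ∧ (Module.finrank F W = m ∧ ∀ w ∈ W, Cfsg.quadFormPlus m F w = 0) ∧ Module.finrank F ↥(U ⊓ W) + 1 = m := by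
  classical
  constructor
  · rintro U W X ⟨hU, hU'⟩ ⟨hW, hW'⟩ ⟨hX, hX'⟩
    have h := Cfsg.Agent.Forms25.parity_maximal (Cfsg.Agent.Forms25.plusQF_nondegenerate m)
      (Cfsg.Agent.Forms25.finrank_plus m) ((Cfsg.Agent.Forms25.totSing_plus m).2 hU') hU
      ((Cfsg.Agent.Forms25.totSing_plus m).2 hW') hW ((Cfsg.Agent.Forms25.totSing_plus m).2 hX') hX
    have h1 := Submodule.finrank_mono (inf_le_left : U ⊓ W ≤ U)
    have h2 := Submodule.finrank_mono (inf_le_left : W ⊓ X ≤ W)
    have h3 := Submodule.finrank_mono (inf_le_left : U ⊓ X ≤ U)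
    rw [Nat.even_iff]
    omega
  · obtain ⟨k, rfl⟩ : ∃ k, m = k + 1 := ⟨m - 1, by omega⟩
    let A : Finset (Fin (k + 1) ⊕ Fin (k + 1)) := Finset.univ.map ⟨Sum.inl, Sum.inl_injective⟩
    let f : Fin (k + 1) → Fin (k + 1) ⊕ Fin (k + 1) := fun i => if i = 0 then .inr i else .inl i
    have hf : Function.Injective f := by
      intro i j h
      simp only [f] at h
      split_ifs at h <;> simp_all
    let B : Finset (Fin (k + 1) ⊕ Fin (k + 1)) := Finset.univ.map ⟨f, hf⟩
    have hA : ∀ i, Sum.inl i ∉ A ∨ Sum.inr i ∉ A := fun i => .inr (by simp [A])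
    have hB : ∀ i, Sum.inl i ∉ B ∨ Sum.inr i ∉ B := by
      intro i
      by_cases hi : i = 0
      · left; simp [B, f, hi]; intro x; split_ifs with h <;> simp [h]
      · right; simp [B, f]; intro x; split_ifs with h <;> simp [h, eq_comm, hi]
    refine ⟨Cfsg.Agent.Forms25.supported A, Cfsg.Agent.Forms25.supported B,
      ⟨by rw [Cfsg.Agent.Forms25.finrank_supported]; simp [A],
        (Cfsg.Agent.Forms25.totSing_plus _).1 (Cfsg.Agent.Forms25.supported_totSing _ A hA)⟩,
      ⟨by rw [Cfsg.Agent.Forms25.finrank_supported]; simp [B],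
        (Cfsg.Agent.Forms25.totSing_plus _).1 (Cfsg.Agent.Forms25.supported_totSing _ B hB)⟩, ?_⟩
    rw [Cfsg.Agent.Forms25.supported_inf, Cfsg.Agent.Forms25.finrank_supported]
    have : A ∩ B = (Finset.univ.erase (0 : Fin (k + 1))).map ⟨Sum.inl, Sum.inl_injective⟩ := by
      ext j
      rcases j with i | i
      · simp [A, B, f]
        constructor
        · rintro ⟨x, hx⟩; split_ifs at hx with h
          simp at hx; exact hx ▸ h
        · intro h; exact ⟨i, by simp [h]⟩
      · simp [A]
    rw [this]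
    simp

end Cfsg.Agent.S0831
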