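import Cfsg.Statements.S0832
import Cfsg.Agent.Forms25.Plus

set_option autoImplicit false
open Cfsg

namespace Cfsg.Agent.S0832

/-- For the form Σ x_i y_i on F^(2m) over a finite field, m ≥ 1: an (m−1)-dimensional subspace on which the form vanishes is contained in exactly two m-dimensional subspaces on which it vanishes. -/
theorem result {F : Type*} [Field F] [Finite F] (m : ℕ) (hm : 1 ≤ m) (U : Submodule F (Fin m ⊕ Fin m → F)) (hU : Module.finrank F U + 1 = m ∧ ∀ u ∈ U, Cfsg.quadFormPlus m F u = 0) : Nat.card {W : Submodule F (Fin m ⊕ Fin m → F) // Module.finrank F W = m ∧ (∀ w ∈ W, Cfsg.quadFormPlus m F w = 0) ∧ U ≤ W} = 2 := by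
  classical
  let A : Finset (Fin m ⊕ Fin m) := Finset.univ.map ⟨Sum.inl, Sum.inl_injective⟩
  have hA : ∀ i, Sum.inl i ∉ A ∨ Sum.inr i ∉ A := fun i => .inr (by simp [A])
  have h := Cfsg.Agent.Forms25.card_maximal_over (Cfsg.Agent.Forms25.plusQF_nondegenerate m)
    (Cfsg.Agent.Forms25.finrank_plus m) ((Cfsg.Agent.Forms25.totSing_plus m).2 hU.2) hU.1
    (Cfsg.Agent.Forms25.supported_totSing m A hA)
    (by rw [Cfsg.Agent.Forms25.finrank_supported]; simp [A])
  simpa only [Cfsg.Agent.Forms25.totSing_plus] using h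

end Cfsg.Agent.S0832
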