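import Cfsg.Statements.S0833
import Cfsg.Agent.Forms25.Disc
import Cfsg.Agent.Forms.Alternating

set_option autoImplicit false
open Cfsg

namespace Cfsg.Agent.S0833

/-- If B₁, B₂ are non-degenerate alternating forms on U (dim 2k) and W (dim 2l), then B₁ ⊗ B₂ on U ⊗ W is symmetric, non-degenerate, and vanishes identically on some subspace of dimension 2kl (half of dim U ⊗ W). -/
theorem result {F U W : Type*} [Field F] [Fintype F] [AddCommGroup U] [Module F U] [FiniteDimensional F U] [AddCommGroup W] [Module F W] [FiniteDimensional F W] (B₁ : LinearMap.BilinForm F U) (B₂ : LinearMap.BilinForm F W) (h₁ : B₁.Nondegenerate) (h₂ : B₂.Nondegenerate) (hA₁ : B₁.IsAlt) (hA₂ : B₂.IsAlt) (k l : ℕ) (hU : Module.finrank F U = 2 * k) (hW : Module.finrank F W = 2 * l) : (B₁.tmul B₂).IsSymm ∧ (B₁.tmul B₂).Nondegenerate ∧ (∃ X : Submodule F (TensorProduct F U W), Module.finrank F X = 2 * k * l ∧ ∀ x ∈ X, ∀ y ∈ X, (B₁.tmul B₂) x y = 0) := by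
  classical
  obtain ⟨m, b, -, hee, -⟩ := Forms.exists_symplectic_basis hA₁ h₁
  have hm : m = k := by
    have := Module.finrank_eq_card_basis b
    simp [hU] at this; omega
  subst hm
  refine ⟨?_, Forms25.tmul_nondegenerate h₁ h₂, ?_⟩
  · rw [LinearMap.isSymm_iff_eq_flip]
    refine LinearMap.BilinForm.ext_basis (b.tensorProduct (Module.finBasis F W)) ?_
    rintro ⟨i, j⟩ ⟨i', j'⟩
    rw [LinearMap.flip_apply]
    simp only [Module.Basis.tensorProduct_apply, LinearMap.BilinForm.tensorDistrib_tmul, smul_eq_mul]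
    rw [← LinearMap.IsAlt.neg hA₁ (b i') (b i), ← LinearMap.IsAlt.neg hA₂ ((Module.finBasis F W) j')
      ((Module.finBasis F W) j), neg_mul_neg]
  · let v : Fin m × Fin (Module.finrank F W) → TensorProduct F U W :=
      fun p => (b.tensorProduct (Module.finBasis F W)) (Sum.inl p.1, p.2)
    have hv : LinearIndependent F v :=
      (b.tensorProduct (Module.finBasis F W)).linearIndependent.comp
        (fun p : Fin m × Fin (Module.finrank F W) => ((Sum.inl p.1 : Fin m ⊕ Fin m), p.2))
        (fun p p' h => by simpa [Prod.ext_iff] using h)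
    refine ⟨Submodule.span F (Set.range v), ?_, ?_⟩
    · rw [finrank_span_eq_card hv]; simp [hW]; ring
    · intro x hx y hy
      induction hx, hy using Submodule.span_induction₂ with
      | mem_mem x y hx hy =>
        obtain ⟨⟨i, j⟩, rfl⟩ := hx
        obtain ⟨⟨i', j'⟩, rfl⟩ := hy
        simp [v, Module.Basis.tensorProduct_apply, hee]
      | zero_left => simp
      | zero_right => simp
      | add_left _ _ _ _ _ _ h h' => simp [h, h']
      | add_right _ _ _ _ _ _ h h' => simp [h, h']
      | smul_left _ _ _ _ _ h => simp [h]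
      | smul_right _ _ _ _ _ h => simp [h]

end Cfsg.Agent.S0833
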