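import Cfsg.Statements.S0835
import Cfsg.Agent.Forms25.Disc

set_option autoImplicit false
open Cfsg

namespace Cfsg.Agent.S0835

/-- Over a finite field with 2 ≠ 0: if B₁ on U (dim 2k, k ≥ 1) is non-degenerate symmetric of minus type (no totally isotropic k-subspace) and B₂ on W (dim 2l + 1) is non-degenerate symmetric, then B₁ ⊗ B₂ (dimension 2k(2l+1)) admits no totally isotropic subspace of dimension k(2l+1) (minus type). -/
theorem result {F U W : Type*} [Field F] [Fintype F] [AddCommGroup U] [Module F U] [FiniteDimensional F U] [AddCommGroup W] [Module F W] [FiniteDimensional F W] (h2 : (2 : F) ≠ 0) (B₁ : LinearMap.BilinForm F U) (B₂ : LinearMap.BilinForm F W) (h₁ : B₁.Nondegenerate) (h₂ : B₂.Nondegenerate) (hS₁ : B₁.IsSymm) (hS₂ : B₂.IsSymm) (k l : ℕ) (hk : 1 ≤ k) (hU : Module.finrank F U = 2 * k) (hW : Module.finrank F W = 2 * l + 1) (hm₁ : ¬ (∃ X : Submodule F (U), Module.finrank F X = k ∧ ∀ x ∈ X, ∀ y ∈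 X, (B₁) x y = 0)) : ¬ (∃ X : Submodule F (TensorProduct F U W), Module.finrank F X = k * (2 * l + 1) ∧ ∀ x ∈ X, ∀ y ∈ X, (B₁.tmul B₂) x y = 0) := by
  classical
  rintro ⟨X, hX, hX0⟩
  apply hm₁
  have hn := Forms25.tmul_nondegenerate h₁ h₂
  have hS : LinearMap.BilinForm.IsSymm (B₁.tmul B₂) :=
    ⟨(LinearMap.IsSymm.tmul (B₁ := B₁) (B₂ := B₂) ⟨hS₁.eq⟩ ⟨hS₂.eq⟩).eq⟩
  set b₁ := Module.finBasisOfFinrankEq F U hU
  set b₂ := Module.finBasisOfFinrankEq F W hW
  have h := Forms25.isSquare_of_isotropic_half hS (k := k * (2 * l + 1))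
    (by rw [Module.finrank_tensorProduct, hU, hW]; ring) (b₁.tensorProduct b₂) hn hX hX0
  refine Forms25.exists_isotropic_half h2 hS₁ hU b₁ h₁ ?_
  rw [Forms25.gram_det_tmul, Fintype.card_fin, Fintype.card_fin] at h
  have hd₂ : (LinearMap.BilinForm.toMatrix b₂ B₂).det ≠ 0 :=
    (LinearMap.BilinForm.nondegenerate_iff_det_ne_zero b₂).1 h₂
  have hd₁ : (-1) ^ k * (LinearMap.BilinForm.toMatrix b₁ B₁).det ≠ 0 :=
    mul_ne_zero (pow_ne_zero _ (neg_ne_zero.2 one_ne_zero))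
      ((LinearMap.BilinForm.nondegenerate_iff_det_ne_zero b₁).1 h₁)
  refine Forms25.isSquare_of_isSquare_mul
    (a := (((-1) ^ k * (LinearMap.BilinForm.toMatrix b₁ B₁).det) ^ l *
      (LinearMap.BilinForm.toMatrix b₂ B₂).det ^ k) ^ 2)
    (pow_ne_zero _ (mul_ne_zero (pow_ne_zero _ hd₁) (pow_ne_zero _ hd₂))) (IsSquare.sq _) ?_
  convert h using 1
  rw [pow_mul (-1 : F) k]
  ring

end Cfsg.Agent.S0835
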