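import Cfsg.Statements.S0836
-- import your own Cfsg.Agent.* helpers here

set_option autoImplicit false
open Cfsg
open scoped commutatorElement

namespace Cfsg.Agent.S0836

/-- For i ≠ j and any scalar c, the elementary transvection 1 + c E_ij is a commutator ⁅g, h⁆ of two elements of SL_n(F) provided n ≥ 3, or n = 2 and F contains x ≠ 0 with x² ≠ 1. -/
theorem result {F : Type*} [Field F] (n : ℕ) (hn : 3 ≤ n ∨ (n = 2 ∧ ∃ x : F, x ≠ 0 ∧ x ^ 2 ≠ 1)) (i j : Fin n) (hij : i ≠ j) (c : F) (t : Matrix.SpecialLinearGroup (Fin n) F) (ht : (t : Matrix (Fin n) (Fin n) F) = Matrix.transvection i j c) : t ∈ commutatorSet (Matrix.SpecialLinearGroup (Fin n) F) := by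
  classical
  have key : ∀ (g h : Matrix.SpecialLinearGroup (Fin n) F), (g * h : Matrix.SpecialLinearGroup (Fin n) F) = t * (h * g) → ⁅g, h⁆ = t := by
    intro g h e
    rw [commutatorElement_def, mul_assoc, ← mul_inv_rev, mul_inv_eq_iff_eq_mul, e]
  rcases hn with hn | ⟨rfl, x, hx0, hx⟩
  · obtain ⟨k, hki, hkj⟩ : ∃ k : Fin n, k ≠ i ∧ k ≠ j := by
      by_contra hc
      push Not at hc
      have : (Finset.univ : Finset (Fin n)) ⊆ {i, j} := by
        intro k _
        rcases eq_or_ne k i with h | h
        · simp [h]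
        · simp [hc k h]
      have h2 := (Finset.card_le_card this).trans Finset.card_le_two
      simp at h2; omega
    refine ⟨Matrix.SpecialLinearGroup.transvection hki.symm c, Matrix.SpecialLinearGroup.transvection hkj 1, key _ _ ?_⟩
    apply Subtype.ext
    simp only [Matrix.SpecialLinearGroup.coe_mul, ht, Matrix.SpecialLinearGroup.transvection_coe, Matrix.transvection]
    simp [add_mul, mul_add, Matrix.single_mul_single_of_ne, hki, hki.symm, hkj, hkj.symm, hij, hij.symm]
    abel
  · have hx2 : x ^ 2 - 1 ≠ 0 := sub_ne_zero.mpr hx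
    refine ⟨Matrix.SpecialLinearGroup.diag2n hij x hx0, Matrix.SpecialLinearGroup.transvection hij (c / (x ^ 2 - 1)), key _ _ ?_⟩
    apply Subtype.ext
    simp only [Matrix.SpecialLinearGroup.coe_mul, ht, Matrix.SpecialLinearGroup.transvection_coe,
      Matrix.SpecialLinearGroup.diag2n_coe, Matrix.transvection]
    ext a b
    fin_cases i <;> fin_cases j <;> simp at hij <;> fin_cases a <;> fin_cases b <;>
      simp [Matrix.mul_apply, Fin.sum_univ_two, Matrix.single, Matrix.one_apply] <;> field_simp <;> ring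

end Cfsg.Agent.S0836
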