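import Cfsg.Statements.S0837
import Cfsg.Agent.Forms.UnitaryProd
-- import your own Cfsg.Agent.* helpers here

set_option autoImplicit false
open Cfsg

namespace Cfsg.Agent.S0837

/-- If W ≤ F^n (|F| = q²) is a k-dimensional subspace on which the Hermitian form Σ x_i y_i^q is non-degenerate, then the stabiliser of W in GU_n(q) is isomorphic to GU_k(q) × GU_(n−k)(q). -/
theorem result {F : Type*} [Field F] [Fintype F] {q : ℕ} (hF : Fintype.card F = q ^ 2) (n k : ℕ) (hk : k ≤ n) (W : Submodule F (Fin n → F)) (hWk : Module.finrank F W = k) (hW : ∀ u ∈ W, (∀ v ∈ W, Cfsg.hermForm n F q u v = 0) → u = 0) : Nonempty (↥((Cfsg.stabilizing (Cfsg.glToMat (Fin n) F) (W : Set (Fin n → F))).subgroupOf (Cfsg.GU n F q)) ≃* ↥(Cfsg.GU k F q) × ↥(Cfsg.GU (n - k) F q)) := by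
  obtain ⟨e⟩ := Forms.exists_equiv_ustab (Classical.U.sqField_of_fintype hF) hk W hWk hW
  let gS := (Classical.U.guEquiv n F q).subgroupMap
    ((Cfsg.stabilizing (Cfsg.glToMat (Fin n) F) (W : Set (Fin n → F))).subgroupOf (Cfsg.GU n F q))
  have hmap : ((Cfsg.stabilizing (Cfsg.glToMat (Fin n) F) (W : Set (Fin n → F))).subgroupOf
      (Cfsg.GU n F q)).map (Classical.U.guEquiv n F q).toMonoidHom = Forms.ustab q W := by
    ext g
    obtain ⟨a, rfl⟩ := (Classical.U.guEquiv n F q).surjective g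
    exact (Subgroup.mem_map_iff_mem (f := (Classical.U.guEquiv n F q).toMonoidHom)
      (Classical.U.guEquiv n F q).injective).trans Iff.rfl
  exact ⟨((gS.trans (MulEquiv.subgroupCongr hmap)).trans e).trans
    ((Classical.U.guEquiv k F q).symm.prodCongr (Classical.U.guEquiv (n - k) F q).symm)⟩

end Cfsg.Agent.S0837
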