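import Cfsg.Statements.S0838
import Cfsg.Agent.Forms25.Disc

set_option autoImplicit false
open Cfsg

namespace Cfsg.Agent.S0838

/-- Over a finite field with 2 ≠ 0 and n odd: two quadratic forms Q₁, Q₂ on F^n with non-degenerate polar forms are similar — there are an invertible linear map g and a scalar c ≠ 0 with Q₂ (g v) = c · Q₁ v for all v. -/
theorem result {F : Type*} [Field F] [Fintype F] (h2 : (2 : F) ≠ 0) {n : ℕ} (hn : Odd n) (Q₁ Q₂ : QuadraticForm F (Fin n → F)) (h₁ : (QuadraticMap.polarBilin Q₁).Nondegenerate) (h₂ : (QuadraticMap.polarBilin Q₂).Nondegenerate) : ∃ (g : (Fin n → F) ≃ₗ[F] (Fin n → F)) (c : F), c ≠ 0 ∧ ∀ v, Q₂ (g v) = c * Q₁ v := by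
  classical
  obtain ⟨m, rfl⟩ := hn
  set B₁ : LinearMap.BilinForm F (Fin (2 * m + 1) → F) := QuadraticMap.polarBilin Q₁
  set B₂ : LinearMap.BilinForm F (Fin (2 * m + 1) → F) := QuadraticMap.polarBilin Q₂
  set b := Pi.basisFun F (Fin (2 * m + 1))
  set d₁ := (LinearMap.BilinForm.toMatrix b B₁).det with hd₁'
  set d₂ := (LinearMap.BilinForm.toMatrix b B₂).det with hd₂'
  have hd₁ : d₁ ≠ 0 := (LinearMap.BilinForm.nondegenerate_iff_det_ne_zero b).1 h₁
  have hd₂ : d₂ ≠ 0 := (LinearMap.BilinForm.nondegenerate_iff_det_ne_zero b).1 h₂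
  have hdet : (LinearMap.BilinForm.toMatrix b ((d₂ / d₁) • B₁)).det = (d₂ / d₁) ^ (2 * m + 1) * d₁ := by
    rw [map_smul, Matrix.det_smul, Fintype.card_fin]
  have hS₁ : ((d₂ / d₁) • B₁).IsSymm := by
    rw [LinearMap.BilinForm.isSymm_def]
    intro x y
    show (d₂ / d₁) * QuadraticMap.polar (⇑Q₁) x y = (d₂ / d₁) * QuadraticMap.polar (⇑Q₁) y x
    rw [QuadraticMap.polar_comm]
  have hS₂ : B₂.IsSymm := by
    rw [LinearMap.BilinForm.isSymm_def]
    exact fun x y => QuadraticMap.polar_comm (⇑Q₂) x y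
  have hn₁ : ((d₂ / d₁) • B₁).Nondegenerate := by
    rw [LinearMap.BilinForm.nondegenerate_iff_det_ne_zero b, hdet]
    exact mul_ne_zero (pow_ne_zero _ (div_ne_zero hd₂ hd₁)) hd₁
  obtain ⟨e, he⟩ := Forms25.equiv_of_det h2 hS₁ hS₂ hn₁ h₂ b b rfl (by
    rw [hdet, ← hd₂']
    refine ⟨(d₂ / d₁) ^ m * d₂, ?_⟩
    rw [pow_succ (d₂ / d₁) (2 * m), mul_assoc _ (d₂ / d₁) d₁, div_mul_cancel₀ _ hd₁]
    ring)
  refine ⟨e, d₂ / d₁, div_ne_zero hd₂ hd₁, fun v => ?_⟩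
  have h := he v v
  change QuadraticMap.polar (⇑Q₂) (e v) (e v) = (d₂ / d₁) * QuadraticMap.polar (⇑Q₁) v v at h
  rw [QuadraticMap.polar_self, QuadraticMap.polar_self, nsmul_eq_mul, nsmul_eq_mul, Nat.cast_ofNat] at h
  apply mul_left_cancel₀ h2
  linear_combination h

end Cfsg.Agent.S0838
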