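import Mathlib.Tactic
import Mathlib.GroupTheory.Commutator.Basic
import Mathlib.Data.Fintype.Pi
import Mathlib.Algebra.Group.Subgroup.ZPowers.Basic
import Cfsg.Statements.S0841
-- import your own Cfsg.Agent.* helpers here

set_option autoImplicit false
open Cfsg

namespace Cfsg.Agent.S0841

/-- If the commutator subgroup of G lies in the centre, then for all x, y in G and every natural number n one has (x * y) ^ n = x ^ n * y ^ n * c ^ (n * (n - 1) / 2) with c = y⁻¹ * x⁻¹ * y * x. -/
theorem result {G : Type*} [Group G] (hG : commutator G ≤ Subgroup.center G) (x y : G) (n : ℕ) : (x * y) ^ n = x ^ n * y ^ n * (y⁻¹ * x⁻¹ * y * x) ^ (n * (n - 1) / 2) := by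
  set c := y⁻¹ * x⁻¹ * y * x with hc
  have hcc : c ∈ Subgroup.center G := by
    apply hG
    have : c = y⁻¹ * x⁻¹ * (y⁻¹)⁻¹ * (x⁻¹)⁻¹ := by simp [hc]
    rw [this]
    rw [← commutatorElement_def]
    exact Subgroup.commutator_mem_commutator (Subgroup.mem_top _) (Subgroup.mem_top _)
  have hcomm : ∀ g : G, Commute c g := fun g => (Subgroup.mem_center_iff.mp hcc g).symm
  have hyx : ∀ k : ℕ, y ^ k * x = x * y ^ k * c ^ k := by
    intro k
    induction k with
    | zero => simp
    | succ k ih =>
      have e1 : y * x = x * y * c := by simp [hc, mul_assoc]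
      calc y ^ (k+1) * x = y * (y ^ k * x) := by rw [pow_succ']; simp [mul_assoc]
        _ = y * x * y ^ k * c ^ k := by rw [ih]; simp [mul_assoc]
        _ = x * y * c * y ^ k * c ^ k := by rw [e1]
        _ = x * y * (c * y ^ k) * c ^ k := by simp [mul_assoc]
        _ = x * y * (y ^ k * c) * c ^ k := by rw [(hcomm (y^k)).eq]
        _ = x * y ^ (k+1) * c ^ (k+1) := by rw [pow_succ' y, pow_succ' c]; simp [mul_assoc]
  induction n with
  | zero => simp
  | succ n ih =>
    have e : (n + 1) * (n + 1 - 1) / 2 = n + n * (n - 1) / 2 := by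
      rcases n with _ | m
      · simp
      · simp only [Nat.add_sub_cancel]
        have : (m + 1 + 1) * (m + 1) = (m+1) * m + 2 * (m + 1) := by ring
        rw [this, Nat.add_mul_div_left _ _ (by norm_num : 0 < 2)]; ring
    rw [pow_succ, ih, e, pow_add]
    calc x ^ n * y ^ n * c ^ (n * (n - 1) / 2) * (x * y)
        = x ^ n * y ^ n * (c ^ (n * (n - 1) / 2) * (x * y)) := by simp [mul_assoc]
      _ = x ^ n * y ^ n * (x * y * c ^ (n * (n - 1) / 2)) := by rw [((hcomm (x*y)).pow_left _).eq]
      _ = x ^ n * (y ^ n * x) * y * c ^ (n * (n - 1) / 2) := by simp [mul_assoc]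
      _ = x ^ n * (x * y ^ n * c ^ n) * y * c ^ (n * (n - 1) / 2) := by rw [hyx]
      _ = x ^ n * x * y ^ n * (c ^ n * y) * c ^ (n * (n - 1) / 2) := by simp [mul_assoc]
      _ = x ^ n * x * y ^ n * (y * c ^ n) * c ^ (n * (n - 1) / 2) := by rw [((hcomm y).pow_left _).eq]
      _ = _ := by rw [pow_succ x, pow_succ y]; simp [mul_assoc, pow_add]

end Cfsg.Agent.S0841
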