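import Cfsg.Agent.CharExt.BrauerSuzuki16.Setup
import Cfsg.Statements.S0842
-- import your own Cfsg.Agent.* helpers here

set_option autoImplicit false
open Cfsg

namespace Cfsg.Agent.S0842

/-- Suppose a Sylow 2-subgroup S of the finite group G is generalized quaternion of order at least 16, and let D be the commutator subgroup of S, C its centralizer and N its normalizer in G. Then there is a subgroup K of odd order, contained in C and normalized by N, with K ⊔ S = N and K ⊔ (S ⊓ C) = C, and C has index 2 in N. -/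
theorem result {G : Type*} [Group G] [Finite G] (S : Sylow 2 G) (n : ℕ) (e : (S : Subgroup G) ≃* QuaternionGroup (2 ^ (n + 2))) (D : Subgroup G) (hD : D = ⁅(S : Subgroup G), (S : Subgroup G)⁆) : ∃ K : Subgroup G, Odd (Nat.card K) ∧ K ≤ Subgroup.centralizer (D : Set G) ∧ Subgroup.normalizer (D : Set G) ≤ Subgroup.normalizer (K : Set G) ∧ K ⊔ (S : Subgroup G) = Subgroup.normalizer (D : Set G) ∧ K ⊔ ((S : Subgroup G) ⊓ Subgroup.centralizer (D : Set G)) = Subgroup.centralizer (D : Set G) ∧ ((Subgroup.centralizer (D : Set G)).subgroupOf (Subgroup.normalizer (D : Set G))).index = 2 := by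
  classical
  obtain rfl := CharExt.BS16.eq_dSub e hD
  obtain ⟨K, hK, hodd, hKA, hKS⟩ := CharExt.BS16.exists_complement e
  refine ⟨K, hodd, fun g hg => ((hK g).1 hg).1, ?_, hKS, ?_, (CharExt.BS16.normalizer_eq_sup e).2⟩
  · intro g hg
    have key : ∀ g, g ∈ Subgroup.normalizer (CharExt.BS16.dSub e : Set G) → ∀ x ∈ K,
        g * x * g⁻¹ ∈ K := fun g hg x hx => by
      obtain ⟨hx1, hx2⟩ := (hK x).1 hx
      refine (hK _).2 ⟨CharExt.BS16.conj_mem_centralizer e hg hx1, ?_⟩
      rwa [show g * x * g⁻¹ = MulAut.conj g x from rfl, MulEquiv.orderOf_eq]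
    rw [Subgroup.mem_normalizer_iff]
    intro x
    refine ⟨key g hg x, fun h => ?_⟩
    have := key g⁻¹ (Subgroup.inv_mem _ hg) _ h
    simpa [mul_assoc] using this
  · rw [CharExt.BS16.sylow_inf_centralizer e]; exact hKA

end Cfsg.Agent.S0842
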