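import Cfsg.Agent.CharExt.BrauerSuzuki16.Invol
import Cfsg.Agent.Char.Linear
import Cfsg.Statements.S0845
-- import your own Cfsg.Agent.* helpers here

set_option autoImplicit false
open Cfsg

namespace Cfsg.Agent.S0845

/-- Suppose a Sylow 2-subgroup S of the finite group G is generalized quaternion of order at least 16. Then G has a normal subgroup M of even order such that G / M is non-abelian, that is, M does not contain the commutator subgroup of G. -/
theorem result {G : Type*} [Group G] [Finite G] (S : Sylow 2 G) (n : ℕ) (e : (S : Subgroup G) ≃* QuaternionGroup (2 ^ (n + 2))) : ∃ M : Subgroup G, M.Normal ∧ Even (Nat.card M) ∧ ¬ commutator G ≤ M := by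
  classical
  letI := Fintype.ofFinite G
  obtain ⟨χ₁, χ₂, h1, h2, -, -, hdeg, -, hi1, -⟩ := CharExt.BS16.involution_values e
  obtain ⟨M, hMn, hM⟩ := Char.isCharacter_exists_kernel (Char.isCharacter_of_irr h1)
  have hu := CharExt.BS16.orderOf_uElt e
  refine ⟨M, hMn, ?_, fun hc => ?_⟩
  · rw [even_iff_two_dvd, ← hu]
    exact Subgroup.orderOf_dvd_natCard M ((hM _).2 (hi1 _ hu))
  · obtain ⟨ψ, hψ, hψe⟩ := Char.irr_exists_descend h1 M fun x hx => (hM x).1 hx
    have hcomm : ∀ a b : G ⧸ M, a * b = b * a := by
      intro a b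
      obtain ⟨x, rfl⟩ := QuotientGroup.mk_surjective a
      obtain ⟨y, rfl⟩ := QuotientGroup.mk_surjective b
      rw [← QuotientGroup.mk_mul, ← QuotientGroup.mk_mul, QuotientGroup.eq]
      refine hc ?_
      have := Subgroup.commutator_mem_commutator (H₁ := (⊤ : Subgroup G)) (H₂ := ⊤)
        (Subgroup.mem_top y⁻¹) (Subgroup.mem_top x⁻¹)
      simpa [commutatorElement_def, mul_assoc, commutator_def] using this
    have h11 : χ₁ 1 = 1 := by
      rw [hψe 1]; simpa using Char.irr_degree_one_of_comm hcomm hψ
    exact Char.irr_one_ne_zero h2 (by linear_combination h11 - hdeg)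

end Cfsg.Agent.S0845
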