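import Mathlib.Tactic
import Mathlib.GroupTheory.PGroup
import Mathlib.Algebra.BigOperators.Finprod
import Mathlib.GroupTheory.SpecificGroups.Cyclic
import Cfsg.Statements.S0850
-- import your own Cfsg.Agent.* helpers here

set_option autoImplicit false
open Cfsg

namespace Cfsg.Agent.S0850

/-- Let K be a subgroup of the finite group G that meets each conjugate by an element outside its normalizer N trivially, is properly contained in N, and contains the centralizer of each of its non-identity elements (a T.I. subgroup with Frobenius normalizer). Then no element of N outside K is conjugate in G to an element of K, and for every class function ϑ of N that vanishes on N away from K and at the identity, the function induced from ϑ to G agrees with ϑ on all of N. -/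
theorem result {G : Type*} [Group G] [Fintype G] (K : Subgroup G) (hTI : ∀ g : G, g ∉ Subgroup.normalizer (K : Set G) → ∀ k ∈ K, g * k * g⁻¹ ∈ K → k = 1) (hlt : K < Subgroup.normalizer (K : Set G)) (hC : ∀ k ∈ K, k ≠ 1 → Subgroup.centralizer ({k} : Set G) ≤ K) : (∀ x ∈ Subgroup.normalizer (K : Set G), x ∉ K → ∀ g : G, g * x * g⁻¹ ∉ K) ∧ ∀ (ϑ : Subgroup.normalizer (K : Set G) → ℂ), Cfsg.IsClassFunction (Subgroup.normalizer (K : Set G)) ϑ → (∀ x : Subgroup.normalizer (K : Set G), (x : G) ∉ K → ϑ x = 0) → ϑ 1 = 0 → ∀ x : Subgroup.normalizer (K : Set G), Cfsg.indFun (Subgroup.normalizer (K : Set G)) ϑ x = ϑ x := by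
  classical
  have hA : ∀ x ∈ Subgroup.normalizer (K : Set G), x ∉ K → ∀ g : G, g * x * g⁻¹ ∉ K := by
    intro x hxN hxK g hg
    have hex : ∃ n : ℕ, ∃ y ∈ Subgroup.zpowers x, y ∉ K ∧ orderOf y = n :=
      ⟨_, x, Subgroup.mem_zpowers x, hxK, rfl⟩
    obtain ⟨y, hyx, hyK, hyo⟩ := Nat.find_spec hex
    set n := Nat.find hex
    have hnpos : 0 < n := hyo ▸ orderOf_pos y
    have hn1 : n ≠ 1 := by
      intro h1
      rw [h1, orderOf_eq_one_iff] at hyo
      exact hyK (hyo ▸ K.one_mem)
    have hmin : ∀ q : ℕ, q.Prime → q ∣ n → y ^ q ∈ K := by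
      intro q hq hqn
      by_contra hc
      have hlt : orderOf (y ^ q) < n := by
        rw [orderOf_pow_of_dvd hq.ne_zero (hyo.symm ▸ hqn), hyo]
        exact Nat.div_lt_self hnpos hq.one_lt
      exact Nat.find_min hex hlt ⟨_, Subgroup.pow_mem _ hyx q, hc, rfl⟩
    obtain ⟨q, hq, hqn⟩ := Nat.exists_prime_and_dvd hn1
    have honly : ∀ r : ℕ, r.Prime → r ∣ n → r = q := by
      intro r hr hrn
      by_contra hne
      apply hyK
      have hcop : Nat.Coprime r q := (Nat.coprime_primes hr hq).mpr hne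
      have e := Nat.gcd_eq_gcd_ab r q
      rw [hcop.gcd_eq_one] at e
      have e2 : y = (y ^ r) ^ (Nat.gcdA r q) * (y ^ q) ^ (Nat.gcdB r q) := by
        rw [← zpow_natCast y r, ← zpow_natCast y q, ← zpow_mul, ← zpow_mul, ← zpow_add, ← e]
        simp
      rw [e2]
      exact K.mul_mem (K.zpow_mem (hmin r hr hrn) _) (K.zpow_mem (hmin q hq hqn) _)
    have hyN : y ∈ Subgroup.normalizer (K : Set G) := (Subgroup.zpowers_le.mpr hxN) hyx
    have hgy : g * y * g⁻¹ ∈ K := by
      obtain ⟨i, rfl⟩ := Subgroup.mem_zpowers_iff.mp hyx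
      rw [← conj_zpow]; exact K.zpow_mem hg i
    have hnK : n ∣ Nat.card K := by
      have h2 : orderOf (g * y * g⁻¹) = n := by
        rw [← hyo, ← MulAut.conj_apply]
        exact orderOf_injective (MulAut.conj g).toMonoidHom (MulAut.conj g).injective y
      rw [← h2, ← Subgroup.orderOf_mk _ hgy]
      exact orderOf_dvd_natCard _
    haveI : Fact q.Prime := ⟨hq⟩
    let Y : Subgroup G := Subgroup.zpowers y
    have hY : Y ≤ Subgroup.normalizer (K : Set G) := Subgroup.zpowers_le.mpr hyN
    letI : MulAction Y K :=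
      { smul := fun a k => ⟨(a : G) * k * (a : G)⁻¹, (Subgroup.mem_normalizer_iff.mp (hY a.2) k).mp k.2⟩
        one_smul := fun k => Subtype.ext (by
          show ((1 : Y) : G) * k * ((1 : Y) : G)⁻¹ = k
          simp)
        mul_smul := fun a b k => Subtype.ext (by
          show ((a * b : Y) : G) * k * ((a * b : Y) : G)⁻¹ = a * (b * k * (b : G)⁻¹) * (a : G)⁻¹
          simp [mul_assoc]) }
    have hp : IsPGroup q Y := by
      obtain ⟨j, hj⟩ : ∃ j, n = q ^ j :=
        ⟨_, Nat.eq_prime_pow_of_unique_prime_dvd hnpos.ne' (fun {d} hd hdn => honly d hd hdn)⟩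
      exact IsPGroup.of_card (by rw [Nat.card_zpowers, hyo, hj])
    obtain ⟨k, hk, hk1⟩ := hp.exists_fixed_point_of_prime_dvd_card_of_fixed_point K
      (hqn.trans hnK) (a := (1 : K)) (fun a => Subtype.ext (by
        show (a : G) * ((1 : K) : G) * (a : G)⁻¹ = ((1 : K) : G)
        simp))
    have hcom : y * (k : G) * y⁻¹ = k :=
      congrArg Subtype.val (hk ⟨y, Subgroup.mem_zpowers y⟩)
    apply hyK
    refine hC k k.2 (fun h => hk1 (Subtype.ext (by simp [h]))) ?_
    rw [Subgroup.mem_centralizer_singleton_iff]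
    exact mul_inv_eq_iff_eq_mul.mp hcom
  refine ⟨hA, ?_⟩
  set N := Subgroup.normalizer (K : Set G)
  intro ϑ hϑ hϑ0 hϑ1 x
  have hterm : ∀ g : G,
      Cfsg.extendByZero N ϑ (g⁻¹ * (x : G) * g) = if g ∈ N then ϑ x else 0 := by
    intro g
    by_cases hmem : g⁻¹ * (x : G) * g ∈ N
    · have e : Cfsg.extendByZero N ϑ (g⁻¹ * (x : G) * g) = ϑ ⟨_, hmem⟩ :=
        Subtype.val_injective.extend_apply ϑ 0 ⟨_, hmem⟩
      rw [e]
      split_ifs with hg
      · have := hϑ x (⟨g, hg⟩⁻¹ : N)
        rw [← this]; congr 1; exact Subtype.ext (by simp)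
      · by_cases hk : g⁻¹ * (x : G) * g ∈ K
        · by_cases hxK : (x : G) ∈ K
          · have h1 := hTI g hg _ hk (by simpa [mul_assoc] using hxK)
            rw [show (⟨_, hmem⟩ : N) = 1 from Subtype.ext h1, hϑ1]
          · exact absurd (by simpa using hk) (hA x x.2 hxK g⁻¹)
        · exact hϑ0 _ hk
    · rw [if_neg]
      · exact Function.extend_apply' _ _ _ (by rintro ⟨z, hz⟩; exact hmem (hz ▸ z.2))
      · intro hg
        exact hmem (N.mul_mem (N.mul_mem (N.inv_mem hg) x.2) hg)
  simp only [Cfsg.indFun, hterm]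
  rw [Finset.sum_ite, Finset.sum_const_zero, add_zero, Finset.sum_const, nsmul_eq_mul]
  have hcard : (Finset.univ.filter (fun g : G => g ∈ N)).card = Nat.card N := by
    rw [Nat.card_eq_fintype_card, Fintype.card_subtype]
  rw [hcard, ← mul_assoc, inv_mul_cancel₀ (by simp), one_mul]

end Cfsg.Agent.S0850
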