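import Cfsg.Agent.CharExt.AbelianTI
import Cfsg.Statements.S0851
-- import your own Cfsg.Agent.* helpers here

set_option autoImplicit false
open Cfsg

namespace Cfsg.Agent.S0851

/-- Let K be a subgroup of the finite group G that meets each conjugate by an element outside its normalizer N trivially, is properly contained in N, and contains the centralizer of each of its non-identity elements (a T.I. subgroup with Frobenius normalizer). Suppose K is abelian, let e be the index of K in N, and call an irreducible character of N relevant when it takes at some element of K a value different from its degree. Then either there is exactly one relevant character and K is an elementary abelian p-group of order e + 1 for some prime p, or there are a sign ε and an injective map f from the relevant characters to the irreducible characters of G such that inducing χ - ξ to G gives ε (f χ - f ξ) for all relevant χ and ξ. -/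
theorem result {G : Type*} [Group G] [Fintype G] (K : Subgroup G) (hTI : ∀ g : G, g ∉ Subgroup.normalizer (K : Set G) → ∀ k ∈ K, g * k * g⁻¹ ∈ K → k = 1) (hlt : K < Subgroup.normalizer (K : Set G)) (hC : ∀ k ∈ K, k ≠ 1 → Subgroup.centralizer ({k} : Set G) ≤ K) (hab : ∀ a ∈ K, ∀ b ∈ K, a * b = b * a) : (Nat.card {χ : Cfsg.IrrCharacter (Subgroup.normalizer (K : Set G)) // ∃ k : Subgroup.normalizer (K : Set G), (k : G) ∈ K ∧ (χ : ↥(Subgroup.normalizer (K : Set G)) → ℂ) k ≠ (χ : ↥(Subgroup.normalizer (K : Set G)) → ℂ) 1} = 1 ∧ ∃ p : ℕ, p.Prime ∧ Cfsg.IsElementaryAbelian p K ∧ Nat.card K = (K.subgroupOf (Subgroup.normalizer (K : Set G))).index + 1) ∨ ∃ (ε : ℂ) (f : {χ : Cfsg.IrrCharacter (Subgroup.normalizer (K : Set G)) // ∃ k : Subgroup.normalizer (K : Set G), (k : G) ∈ K ∧ (χ : ↥(Subgroup.normalizer (K : Set G)) → ℂ) k ≠ (χ : ↥(Subgroup.normalizer (K : Set G)) → ℂ) 1} → Cfsg.IrrCharacter G), (ε = 1 ∨ ε = -1) ∧ Function.Injective f ∧ ∀ χ ξ, Cfsg.indFun (Subgroup.normalizer (K : Set G)) ((χ.1 :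 ↥(Subgroup.normalizer (K : Set G)) → ℂ) - (ξ.1 : ↥(Subgroup.normalizer (K : Set G)) → ℂ)) = ε • ((f χ : G → ℂ) - (f ξ : G → ℂ)) := by
  classical
  set N := Subgroup.normalizer (K : Set G)
  set L := K.subgroupOf N
  have hTI' : ∀ g : G, g ∉ N → ∀ k : N, k ∈ L → ∀ k' : N, k' ∈ L →
      g * (k : G) * g⁻¹ = k' → k = 1 :=
    fun g hg k hk k' hk' h => Subtype.ext (hTI g hg k hk (h ▸ hk'))
  have hC' : ∀ k ∈ L, k ≠ 1 → Subgroup.centralizer ({k} : Set N) ≤ L :=
    fun k hk hk1 x hx => hC (k : G) hk (fun h => hk1 (Subtype.ext h))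
      (Subgroup.mem_centralizer_singleton_iff.mpr
        (congrArg Subtype.val (Subgroup.mem_centralizer_singleton_iff.mp hx)))
  have hab' : ∀ a ∈ L, ∀ b ∈ L, a * b = b * a :=
    fun a ha b hb => Subtype.ext (hab _ ha _ hb)
  have hiff : ∀ χ : Cfsg.IrrCharacter N,
      (∃ k : N, (k : G) ∈ K ∧ (χ : N → ℂ) k ≠ (χ : N → ℂ) 1) ↔ ¬ CharExt.KTriv L χ := fun χ => by
    simp [CharExt.KTriv, L, Subgroup.mem_subgroupOf]
  let e := Equiv.subtypeEquivRight hiff
  obtain ⟨ε, f, h | ⟨hε, hinj, hf⟩⟩ := CharExt.exists_exceptional N L hTI' hC' hab'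
  · left
    have hcard := CharExt.card_excSet N L hC' hab'
    rw [h, one_mul] at hcard
    obtain ⟨p, hp, hpow⟩ := CharExt.elementary_of_card N L hC' hab' hcard.symm
    have hcomm : IsMulCommutative K :=
      ⟨⟨fun a b => Subtype.ext (hab _ a.2 _ b.2)⟩⟩
    refine ⟨?_, p, hp, ⟨hcomm, fun a ha => ?_⟩, ?_⟩
    · rw [Nat.card_congr e, Nat.card_eq_fintype_card, Fintype.card_subtype, h]
    · have := hpow ⟨a, Subgroup.le_normalizer ha⟩ ha
      simpa using congrArg Subtype.val this
    · show Nat.card K = L.index + 1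
      rw [hcard]
      exact (Nat.card_congr (Subgroup.subgroupOfEquivOfLe Subgroup.le_normalizer).toEquiv).symm
  · exact Or.inr ⟨ε, f ∘ e, hε, hinj.comp e.injective, fun χ ξ => hf (e χ) (e ξ)⟩

end Cfsg.Agent.S0851
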