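import Cfsg.Agent.Transfer.Residual
import Cfsg.Agent.CharExt.Linear
import Cfsg.Agent.CharExt.DetChar
import Cfsg.Agent.S0854
import Cfsg.Agent.CharInd.Clifford
import Cfsg.Agent.Char.Integrality
import Cfsg.Agent.Char.Linear
import Mathlib
import Cfsg.Statements.S0855
-- import your own Cfsg.Agent.* helpers here

set_option autoImplicit false
open Cfsg

namespace Cfsg.Agent.S0855

/-- For a finite group G and a prime p: every irreducible character of G has degree a power of p if and only if G has an abelian normal subgroup whose order is prime to p and whose index is a power of p. -/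
theorem result {G : Type*} [Group G] [Finite G] (p : ℕ) (hp : p.Prime) : (∀ χ : Cfsg.IrrCharacter G, ∃ k : ℕ, (χ : G → ℂ) 1 = (p : ℂ) ^ k) ↔ ∃ A : Subgroup G, A.Normal ∧ (∀ a ∈ A, ∀ b ∈ A, a * b = b * a) ∧ Nat.Coprime (Nat.card A) p ∧ ∃ k : ℕ, A.index = p ^ k := by
  classical
  letI := Fintype.ofFinite G
  haveI : Fact p.Prime := ⟨hp⟩
  constructor
  · intro h
    set K := Cfsg.pResidual p G with hKdef
    haveI hKn : K.Normal := by
      refine ⟨fun x hx g => ?_⟩
      have : Subgroup.map (MulAut.conj g).toMonoidHom K ≤ K := by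
        rw [hKdef, Cfsg.pResidual, MonoidHom.map_closure, Subgroup.closure_le]
        rintro _ ⟨a, ha, rfl⟩
        apply Subgroup.subset_closure
        show Nat.Coprime (orderOf ((MulAut.conj g).toMonoidHom a)) p
        rw [orderOf_injective (MulAut.conj g).toMonoidHom (MulAut.conj g).injective a]
        exact ha
      simpa using this ⟨x, hx, rfl⟩
    -- degrees of the normal subgroup are powers of `p`
    have hdeg : ∀ ψ : Cfsg.IrrCharacter K, ∃ k : ℕ, (ψ : K → ℂ) 1 = (p : ℂ) ^ k := by
      intro ψ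
      have hind := CharInd.isCharacter_indFun K (Char.isCharacter_of_irr ψ.2)
      have hind0 : Cfsg.indFun K (ψ : K → ℂ) ≠ 0 := by
        intro h0
        have := congrFun h0 1
        rw [CharInd.indFun_one_apply] at this
        exact mul_ne_zero (Nat.cast_ne_zero.mpr Subgroup.index_ne_zero_of_finite)
          (Char.irr_one_ne_zero ψ.2) this
      obtain ⟨χ, n, hn, hn'⟩ := Char.exists_irr_constituent hind hind0
      rw [CharInd.classInner_indFun_left K _ (Char.irr_isClassFunction χ.2)] at hn'
      have hne : Cfsg.classInner (fun x : K => (χ : G → ℂ) x) (ψ : K → ℂ) = (n : ℂ) := by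
        rw [← Char.classInner_conj, hn', map_natCast]
      have h1 := congrFun (CharInd.clifford K χ.2 ψ.2 (by rw [hne]; exact_mod_cast hn.ne')) 1
      rw [hne] at h1
      simp only [Pi.smul_apply, Finset.sum_apply, smul_eq_mul, OneMemClass.coe_one] at h1
      rw [Finset.sum_congr rfl (fun φ hφ => show φ 1 = (ψ : K → ℂ) 1 from ?_), Finset.sum_const,
        nsmul_eq_mul] at h1
      swap
      · obtain ⟨x, rfl⟩ := (CharInd.mem_conjClass K).1 hφ
        rw [CharInd.conjChar_apply]
        exact congrArg _ (Subtype.ext (by simp))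
      obtain ⟨d, -, hd⟩ := Char.irr_one_pos ψ.2
      obtain ⟨a, ha⟩ := h χ
      rw [ha, hd] at h1
      have h2 : n * ((CharInd.conjClass K (ψ : K → ℂ)).card * d) = p ^ a := by exact_mod_cast h1.symm
      obtain ⟨j, -, hj⟩ := (Nat.dvd_prime_pow hp).mp
        (h2 ▸ Dvd.dvd.mul_left (Dvd.intro_left _ rfl) n : d ∣ p ^ a)
      exact ⟨j, by rw [hd, hj]; push_cast; rfl⟩
    have hcop : Nat.Coprime (Nat.card K) p := by
      rw [Nat.coprime_comm, hp.coprime_iff_not_dvd]
      intro hpK
      choose e he using hdeg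
      have hsum : ∑ ψ : Cfsg.IrrCharacter K, (p ^ e ψ) ^ 2 = Nat.card K := by
        have := Char.sum_irr_degree_sq (G := K)
        simp only [he] at this
        exact_mod_cast this
      have hlin : p ∣ (commutator K).index := by
        rw [← Char.card_linear_irr, Nat.card_eq_fintype_card, Fintype.card_subtype]
        have hlin' : ∀ ψ : Cfsg.IrrCharacter K, (ψ : K → ℂ) 1 = 1 ↔ e ψ = 0 := fun ψ => by
          rw [he]
          constructor
          · intro h1
            by_contra h0
            have h2 : p ^ e ψ = 1 := by exact_mod_cast h1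
            exact (Nat.one_lt_pow h0 hp.one_lt).ne' h2
          · intro h0; simp [h0]
        simp only [hlin']
        rw [← hsum, ← Finset.sum_filter_add_sum_filter_not Finset.univ (fun ψ => e ψ = 0)] at hpK
        have h2 : p ∣ ∑ ψ ∈ Finset.univ.filter (fun ψ => ¬ e ψ = 0), (p ^ e ψ) ^ 2 :=
          Finset.dvd_sum fun ψ hψ => dvd_pow (dvd_pow_self p (Finset.mem_filter.mp hψ).2) two_ne_zero
        have h3 := (Nat.dvd_add_left h2).mp hpK
        rw [Finset.sum_congr rfl (g := fun _ => 1) (fun ψ hψ => by simp [(Finset.mem_filter.mp hψ).2]),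
          ← Finset.card_eq_sum_ones] at h3
        exact h3
      obtain ⟨z, hz⟩ := exists_prime_orderOf_dvd_card' (G := Abelianization K) p (by
        rw [show Nat.card (Abelianization K) = (commutator K).index from rfl]
        exact hlin)
      set M := Nat.card (Abelianization K)
      set m := M / p ^ M.factorization p
      let φ : K →* Abelianization K := (powMonoidHom m).comp Abelianization.of
      have hpg : IsPGroup p φ.range := by
        rintro ⟨_, x, rfl⟩
        refine ⟨M.factorization p, Subtype.ext ?_⟩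
        show (Abelianization.of x ^ m) ^ (p ^ M.factorization p) = 1
        rw [← pow_mul, Nat.div_mul_cancel (Nat.ordProj_dvd M p)]
        exact pow_card_eq_one'
      obtain ⟨x, rfl⟩ : ∃ x, Abelianization.of x = z := QuotientGroup.mk'_surjective _ z
      have h1 : φ.rangeRestrict x = 1 := Transfer.hom_pResidual_eq_one hpg φ.rangeRestrict x
      have h2 : Abelianization.of x ^ m = 1 := congrArg Subtype.val h1
      have h3 := orderOf_dvd_of_pow_eq_one h2
      rw [hz] at h3
      exact Nat.not_dvd_ordCompl hp Nat.card_pos.ne' h3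
    refine ⟨K, hKn, ?_, hcop, Transfer.exists_index_pResidual_eq_pow⟩
    have hlin : ∀ ψ : Cfsg.IrrCharacter K, (ψ : K → ℂ) 1 = 1 := by
      intro ψ
      obtain ⟨k, hk⟩ := hdeg ψ
      obtain ⟨d, -, hd, hdvd⟩ := Char.irr_degree_dvd_card ψ.2
      rw [hd] at hk ⊢
      have hk' : d = p ^ k := by exact_mod_cast hk
      subst hk'
      rw [Nat.eq_one_of_dvd_coprimes (Nat.Coprime.pow_right k hcop) hdvd dvd_rfl, Nat.cast_one]
    intro a ha b hb
    by_contra hne
    have hg : (⟨a, ha⟩ : K) * (⟨b, hb⟩ : K) * (⟨a, ha⟩ : K)⁻¹ * (⟨b, hb⟩ : K)⁻¹ ≠ 1 := by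
      intro h1
      apply hne
      have h2 := congrArg Subtype.val h1
      simp only [Subgroup.coe_mul, Subgroup.coe_inv, Subgroup.coe_one] at h2
      exact mul_inv_eq_iff_eq_mul.mp (mul_inv_eq_one.mp h2)
    obtain ⟨ψ, hψ⟩ := Char.exists_irr_ne_degree hg
    apply hψ
    rw [← commutatorElement_def]
    exact (Char.linear_eq_one_of_mem_commutator (Char.isCharacter_of_irr ψ.2) (hlin ψ)
      (Subgroup.commutator_mem_commutator (Subgroup.mem_top _) (Subgroup.mem_top _))).trans
      (hlin ψ).symm
  · rintro ⟨A, hAn, hab, hcop, k, hk⟩ χ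
    haveI := hAn
    have hcomm : ∀ a b : A, a * b = b * a := fun a b => Subtype.ext (hab _ a.2 _ b.2)
    obtain ⟨θ, e, hθ, he, hres, -⟩ := CharInd.clifford_exists A χ.2
    have hθ1 := Char.irr_degree_one_of_comm hcomm hθ
    obtain ⟨lam, hlam⟩ := Char.exists_monoidHom_of_degree_one (Char.isCharacter_of_irr hθ) hθ1
    let T : Subgroup G :=
      { carrier := {x | CharInd.conjChar A x θ = θ}
        one_mem' := CharInd.conjChar_one _ θ
        mul_mem' := fun {a b} ha hb => by
          show CharInd.conjChar _ (a * b) θ = θ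
          rw [CharInd.conjChar_mul, ha, hb]
        inv_mem' := fun {a} ha => by
          show CharInd.conjChar _ a⁻¹ θ = θ
          conv_lhs => rw [← (ha : CharInd.conjChar _ a θ = θ)]
          rw [← CharInd.conjChar_mul, mul_inv_cancel, CharInd.conjChar_one] }
    have hAT : A ≤ T := fun x hx =>
      CharInd.conjChar_isClassFunction_mem _ (Char.irr_isClassFunction hθ) ⟨x, hx⟩
    have hcon : Cfsg.classInner (fun n : A => (χ : G → ℂ) n) θ ≠ 0 := by
      rw [hres, Char.classInner_smul_left, Char.classInner_sum_left,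
        Finset.sum_eq_single_of_mem θ ((CharInd.mem_conjClass A).2 ⟨1, (CharInd.conjChar_one A θ).symm⟩),
        Char.classInner_irr_self hθ, mul_one]
      · exact Nat.cast_ne_zero.mpr he.ne'
      · intro φ hφ hne
        obtain ⟨x, rfl⟩ := (CharInd.mem_conjClass A).1 hφ
        exact Char.classInner_irr_ne (CharInd.conjChar_irr A x hθ) hθ hne
    obtain ⟨ψ, hψ, hψind, hψθ⟩ := Cfsg.Agent.S0854.result A θ hθ T
      (fun g => ⟨fun h n => congrFun h n, fun h => funext h⟩) hAT (χ : G → ℂ) χ.2 hcon
    -- extend `θ` to its inertia group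
    set A' := A.subgroupOf T
    haveI : A'.Normal := Subgroup.normal_subgroupOf
    let eA : A' ≃* A := Subgroup.subgroupOfEquivOfLe hAT
    have hinv : ∀ (g : T) (n : A'), (lam.comp eA.toMonoidHom)
        ⟨g * n * g⁻¹, Subgroup.Normal.conj_mem inferInstance (n : T) n.2 g⟩ =
        (lam.comp eA.toMonoidHom) n := by
      intro g n
      apply Units.ext
      show (lam _ : ℂ) = (lam (eA n) : ℂ)
      rw [← hlam, ← hlam]
      exact congrFun (g.2 : CharInd.conjChar A (g : G) θ = θ) (eA n)
    have hidxT : A'.index ∣ A.index := Subgroup.relIndex_dvd_index_of_le hAT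
    have hcop' : Nat.Coprime A'.index (orderOf (lam.comp eA.toMonoidHom)) := by
      refine Nat.Coprime.of_dvd hidxT ?_ (by rw [hk]; exact (Nat.Coprime.pow_left k hcop.symm) :
        Nat.Coprime A.index (Nat.card A))
      refine orderOf_dvd_of_pow_eq_one (MonoidHom.ext fun n => ?_)
      show lam (eA n) ^ Nat.card A = 1
      rw [← map_pow, pow_card_eq_one', map_one]
    obtain ⟨μ, ⟨hμ, -⟩, -⟩ :=
      CharExt.exists_unique_coprime_extension A' (lam.comp eA.toMonoidHom) hinv hcop'
    have hirr : Cfsg.IsIrrCharacter T (fun g => ((μ⁻¹ g : ℂˣ) : ℂ) * ψ g) :=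
      Char.isIrrCharacter_mul_monoidHom hψ μ⁻¹
    -- `ψ` restricted to `A` is a multiple of `θ`
    have hϑ' : Cfsg.IsIrrCharacter A' (fun x => θ (eA x)) :=
      CharInd.irr_comp_surjective eA.toMonoidHom eA.surjective hθ
    have hinner : Cfsg.classInner (fun x : A' => ψ x) (fun x => θ (eA x)) ≠ 0 := by
      rw [← hψθ] at hcon
      convert hcon using 1
      unfold Cfsg.classInner
      rw [Nat.card_congr eA.toEquiv]
      congr 1
      exact Fintype.sum_equiv eA.toEquiv _ _ (fun x => rfl)
    have hsingle : CharInd.conjClass A' (fun x => θ (eA x)) = {fun x => θ (eA x)} := by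
      rw [CharInd.conjClass]
      refine Finset.eq_singleton_iff_unique_mem.mpr ⟨Finset.mem_image.mpr ⟨1, Finset.mem_univ _,
        CharInd.conjChar_one _ _⟩, ?_⟩
      intro φ hφ
      obtain ⟨x, -, rfl⟩ := Finset.mem_image.mp hφ
      funext n
      exact congrFun (x.2 : CharInd.conjChar A (x : G) θ = θ) (eA n)
    have hclif := CharInd.clifford A' hψ hϑ' hinner
    rw [hsingle, Finset.sum_singleton] at hclif
    have hker : ∀ n ∈ A', (fun g => ((μ⁻¹ g : ℂˣ) : ℂ) * ψ g) n =
        (fun g => ((μ⁻¹ g : ℂˣ) : ℂ) * ψ g) 1 := by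
      intro n hn
      have h1 := congrFun hclif ⟨n, hn⟩
      have h2 := congrFun hclif 1
      simp only [Pi.smul_apply, smul_eq_mul] at h1 h2
      have h3 : θ (eA 1) = 1 := by rw [map_one]; exact hθ1
      rw [h3, mul_one] at h2
      simp only [OneMemClass.coe_one] at h2
      have hμn : (μ n : ℂ) = θ (eA ⟨n, hn⟩) := by
        rw [hlam]; exact congrArg Units.val (hμ ⟨n, hn⟩)
      simp only [map_one, Units.val_one, one_mul, MonoidHom.inv_apply, Units.val_inv_eq_inv_val]
      rw [h1, h2, hμn]
      field_simp [show θ (eA ⟨n, hn⟩) ≠ 0 by rw [← hμn]; exact Units.ne_zero _]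
    obtain ⟨η, hη, hdesc⟩ := Char.irr_exists_descend hirr A' hker
    obtain ⟨d, -, hd, hdvd⟩ := Char.irr_degree_dvd_card hη
    obtain ⟨j, -, hj⟩ := (Nat.dvd_prime_pow hp).mp (hdvd.trans (hk ▸ hidxT : A'.index ∣ p ^ k))
    obtain ⟨i, -, hi⟩ := (Nat.dvd_prime_pow hp).mp
      (hk ▸ Subgroup.index_dvd_of_le hAT : T.index ∣ p ^ k)
    refine ⟨i + j, ?_⟩
    have h1 := hdesc 1
    rw [QuotientGroup.mk_one, hd] at h1
    simp only [map_one, Units.val_one, one_mul] at h1
    rw [← hψind, CharInd.indFun_one_apply, h1, hi, hj, pow_add]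
    push_cast; rfl

end Cfsg.Agent.S0855
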