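import Cfsg.Agent.CharExt.MGroup
import Cfsg.Statements.S0859
-- import your own Cfsg.Agent.* helpers here

set_option autoImplicit false
open Cfsg

namespace Cfsg.Agent.S0859

/-- Let G be a finite solvable group and N a normal subgroup such that for every prime p every Sylow p-subgroup of N is abelian. Suppose every irreducible character of G is induced from an irreducible character of some subgroup containing N whose restriction to N is irreducible. Then every irreducible character of G is induced from a character of degree 1 of some subgroup. -/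
theorem result {G : Type*} [Group G] [Fintype G] [Group.IsSolvable G] (N : Subgroup G) [N.Normal] (hab : ∀ (p : ℕ) [Fact p.Prime] (P : Sylow p N), ∀ a ∈ P, ∀ b ∈ P, a * b = b * a) (hrel : ∀ χ : G → ℂ, Cfsg.IsIrrCharacter G χ → ∃ (H : Subgroup G) (hNH : N ≤ H) (ψ : H → ℂ), Cfsg.IsIrrCharacter H ψ ∧ Cfsg.indFun H ψ = χ ∧ Cfsg.IsIrrCharacter N (fun n : N => ψ ⟨(n : G), hNH n.2⟩)) (χ : G → ℂ) (hχ : Cfsg.IsIrrCharacter G χ) : ∃ (U : Subgroup G) (lam : U → ℂ), Cfsg.IsCharacter U lam ∧ lam 1 = 1 ∧ Cfsg.indFun U lam = χ := by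
  classical
  obtain ⟨H, hNH, ψ, hψ, hind, hψN⟩ := hrel χ hχ
  haveI : (N.subgroupOf H).Normal := Subgroup.normal_subgroupOf
  let eN : N.subgroupOf H ≃* N := Subgroup.subgroupOfEquivOfLe hNH
  obtain ⟨U, lam, hlam, hlam1, hind'⟩ := CharExt.monomial_aux (Nat.card H) H (N.subgroupOf H) rfl
    inferInstance ((CharExt.absylow_of_sylow N hab).subgroupOf H) ψ hψ
    (CharInd.irr_comp_surjective eN.toMonoidHom eN.surjective hψN)
  obtain ⟨lam', hlam', hval⟩ := CharExt.indFun_map H U lam
  let e := (Subgroup.equivMapOfInjective U H.subtype H.subtype_injective)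
  have hl : lam' = fun v => lam (e.symm v) := by
    funext v
    obtain ⟨u, rfl⟩ := e.surjective v
    simp only [MulEquiv.symm_apply_apply]
    exact hval u
  refine ⟨U.map H.subtype, lam', ?_, ?_, ?_⟩
  · rw [hl]; exact CharInd.isCharacter_comp e.symm.toMonoidHom hlam
  · rw [hl]; simp [hlam1]
  · rw [hlam', hind', hind]

end Cfsg.Agent.S0859
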