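import Cfsg.Agent.CharExt.RootSum
import Cfsg.Agent.CharExt.DetChar
import Cfsg.Agent.CharInd.Clifford
import Cfsg.Agent.Char.Kernel
import Cfsg.Agent.Char.Linear
import Cfsg.Agent.BlkChar.GalAvg
import Mathlib
import Cfsg.Statements.S0861
-- import your own Cfsg.Agent.* helpers here

set_option autoImplicit false
open Cfsg

namespace Cfsg.Agent.S0861

/-- Let P be a normal abelian Sylow p-subgroup of the finite group G and suppose some element g of P has centralizer exactly P. Then the number of irreducible characters of G is at most the order of P, and if equality holds then G / P is abelian (the commutator subgroup lies in P). -/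
theorem result {G : Type*} [Group G] [Finite G] (p : ℕ) [Fact p.Prime] (P : Sylow p G) [(P : Subgroup G).Normal] (hab : ∀ a ∈ P, ∀ b ∈ P, a * b = b * a) (g : G) (hg : g ∈ P) (hC : Subgroup.centralizer ({g} : Set G) = P) : Nat.card (Cfsg.IrrCharacter G) ≤ Nat.card P ∧ (Nat.card (Cfsg.IrrCharacter G) = Nat.card P → commutator G ≤ P) := by
  classical
  letI := Fintype.ofFinite G
  have hp : p.Prime := Fact.out
  have hcomm : ∀ a b : (P : Subgroup G), a * b = b * a :=
    fun a b => Subtype.ext (hab _ a.2 _ b.2)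
  set n := orderOf g
  haveI : NeZero n := ⟨(orderOf_pos g).ne'⟩
  obtain ⟨j, hj⟩ := (P.isPGroup').exists_card_eq
  -- no character vanishes at `g`
  have hne : ∀ χ : Cfsg.IrrCharacter G, (χ : G → ℂ) g ≠ 0 := by
    intro χ h0
    obtain ⟨θ, e, hθ, he, hres, -⟩ := CharInd.clifford_exists (P : Subgroup G) χ.2
    have hval := congrFun hres ⟨g, hg⟩
    simp only [h0, Pi.smul_apply, Finset.sum_apply, smul_eq_mul] at hval
    have hsum : ∑ ψ ∈ CharInd.conjClass (P : Subgroup G) θ, ψ ⟨g, hg⟩ = 0 :=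
      (mul_eq_zero.mp hval.symm).resolve_left (Nat.cast_ne_zero.mpr he.ne')
    have hroot : ∀ ψ ∈ CharInd.conjClass (P : Subgroup G) θ, ψ ⟨g, hg⟩ ^ p ^ j = 1 := by
      intro ψ hψ
      obtain ⟨x, rfl⟩ := (CharInd.mem_conjClass _).1 hψ
      have hi := CharInd.conjChar_irr (P : Subgroup G) x hθ
      obtain ⟨f, hf⟩ := Char.exists_monoidHom_of_degree_one (Char.isCharacter_of_irr hi)
        (Char.irr_degree_one_of_comm hcomm hi)
      rw [hf, ← Units.val_pow_eq_pow_val, ← map_pow,
        show (⟨g, hg⟩ : (P : Subgroup G)) ^ p ^ j = 1 from hj ▸ pow_card_eq_one', map_one,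
        Units.val_one]
    have hpdvd := CharExt.dvd_card_of_sum_roots_eq_zero hp _ _ hroot hsum
    have hindex : (CharInd.conjClass (P : Subgroup G) θ).card ∣ (P : Subgroup G).index := by
      let T : Subgroup G :=
        { carrier := {x | CharInd.conjChar (P : Subgroup G) x θ = θ}
          one_mem' := CharInd.conjChar_one _ θ
          mul_mem' := fun {a b} ha hb => by
            show CharInd.conjChar _ (a * b) θ = θ
            rw [CharInd.conjChar_mul, ha, hb]
          inv_mem' := fun {a} ha => by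
            show CharInd.conjChar _ a⁻¹ θ = θ
            conv_lhs => rw [← (ha : CharInd.conjChar _ a θ = θ)]
            rw [← CharInd.conjChar_mul, mul_inv_cancel, CharInd.conjChar_one] }
      have hPT : (P : Subgroup G) ≤ T := fun x hx =>
        CharInd.conjChar_isClassFunction_mem _ (Char.irr_isClassFunction hθ) ⟨x, hx⟩
      have hfib : ∀ φ ∈ CharInd.conjClass (P : Subgroup G) θ,
          (Finset.univ.filter (fun x : G => CharInd.conjChar (P : Subgroup G) x θ = φ)).card =
            Nat.card T := by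
        intro φ hφ
        obtain ⟨x₀, rfl⟩ := (CharInd.mem_conjClass _).1 hφ
        rw [← Fintype.card_subtype, ← Nat.card_eq_fintype_card]
        refine Nat.card_congr (Equiv.subtypeEquiv (Equiv.mulRight x₀⁻¹) fun x => ?_)
        show _ ↔ CharInd.conjChar _ (x * x₀⁻¹) θ = θ
        rw [CharInd.conjChar_mul]
        constructor
        · intro h
          rw [h, ← CharInd.conjChar_mul, mul_inv_cancel, CharInd.conjChar_one]
        · intro h
          conv_rhs => rw [← h]
          rw [← CharInd.conjChar_mul, ← CharInd.conjChar_mul, inv_mul_cancel, mul_one]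
      have h1 := Finset.card_eq_sum_card_fiberwise (s := (Finset.univ : Finset G))
        (t := CharInd.conjClass (P : Subgroup G) θ)
        (f := fun x => CharInd.conjChar (P : Subgroup G) x θ)
        (fun x _ => (CharInd.mem_conjClass _).2 ⟨x, rfl⟩)
      rw [Finset.sum_congr rfl hfib, Finset.sum_const, smul_eq_mul, Finset.card_univ,
        ← Nat.card_eq_fintype_card, ← T.index_mul_card] at h1
      rw [← Nat.eq_of_mul_eq_mul_right Nat.card_pos h1]
      exact Subgroup.index_dvd_of_le hPT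
    exact P.not_dvd_index' Subgroup.index_ne_zero_of_finite (hpdvd.trans hindex)
  -- the powers of `g` have the same centraliser
  have hcent : ∀ a : (ZMod n)ˣ,
      Subgroup.centralizer ({g ^ (a : ZMod n).val} : Set G) = (P : Subgroup G) := by
    intro a
    refine le_antisymm (le_trans ?_ hC.le) fun x hx => ?_
    · intro x hx
      rw [Subgroup.mem_centralizer_singleton_iff] at hx ⊢
      obtain ⟨m, hm⟩ : ∃ m : ℕ, (g ^ (a : ZMod n).val) ^ m = g := by
        obtain ⟨m, hm⟩ := exists_pow_eq_self_of_coprime (x := g) (ZMod.val_coe_unit_coprime a)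
        exact ⟨m, hm⟩
      rw [← hm]
      exact (Commute.pow_right (show Commute x (g ^ (a : ZMod n).val) from hx) m).eq
    · rw [Subgroup.mem_centralizer_singleton_iff]
      exact hab x hx _ (Subgroup.pow_mem _ hg _)
  have hcol : ∀ a : (ZMod n)ˣ,
      ∑ χ : Cfsg.IrrCharacter G, ‖(χ : G → ℂ) (g ^ (a : ZMod n).val)‖ ^ 2 = Nat.card P := by
    intro a
    have h1 := Char.sum_irr_mul_conj (g ^ (a : ZMod n).val) (g ^ (a : ZMod n).val)
    rw [if_pos (IsConj.refl _), hcent] at h1
    simp only [Complex.mul_conj, Complex.normSq_eq_norm_sq] at h1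
    exact_mod_cast h1
  have htotal : ∑ χ : Cfsg.IrrCharacter G, ∑ a : (ZMod n)ˣ,
      ‖(χ : G → ℂ) (g ^ (a : ZMod n).val)‖ ^ 2 =
        (Fintype.card (ZMod n)ˣ : ℝ) * Nat.card P := by
    rw [Finset.sum_comm, Finset.sum_congr rfl (fun a _ => hcol a), Finset.sum_const, nsmul_eq_mul,
      Finset.card_univ]
  have hlow : ∀ χ : Cfsg.IrrCharacter G, (Fintype.card (ZMod n)ˣ : ℝ) ≤
      ∑ a : (ZMod n)ˣ, ‖(χ : G → ℂ) (g ^ (a : ZMod n).val)‖ ^ 2 := by
    intro χ
    have hmem := GalAvg.isCharacter_pow_mem (Char.isCharacter_of_irr χ.2) g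
      (pow_orderOf_eq_one g : g ^ n = 1)
    refine GalAvg.card_le_sum_norm_sq hmem ?_
    obtain ⟨a₀, ha₀⟩ : ∃ a : (ZMod n)ˣ, (a : ZMod n).val ≡ 1 [MOD n] := by
      refine ⟨1, ?_⟩
      rw [← ZMod.natCast_eq_natCast_iff]
      simp
    refine ⟨a₀, ?_⟩
    rw [show g ^ (a₀ : ZMod n).val = g ^ 1 from pow_eq_pow_iff_modEq.mpr ha₀, pow_one]
    exact hne χ
  have hφ : (0 : ℝ) < (Fintype.card (ZMod n)ˣ : ℝ) := Nat.cast_pos.mpr Fintype.card_pos
  have hle := Finset.sum_le_sum (fun χ (_ : χ ∈ (Finset.univ : Finset (Cfsg.IrrCharacter G))) => hlow χ)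
  rw [htotal, Finset.sum_const, nsmul_eq_mul, Finset.card_univ, mul_comm,
    mul_le_mul_iff_of_pos_left hφ] at hle
  refine ⟨by rw [Nat.card_eq_fintype_card (α := Cfsg.IrrCharacter G)]; exact_mod_cast hle, ?_⟩
  intro heq
  have hexact : ∀ χ : Cfsg.IrrCharacter G, (Fintype.card (ZMod n)ˣ : ℝ) =
      ∑ a : (ZMod n)ˣ, ‖(χ : G → ℂ) (g ^ (a : ZMod n).val)‖ ^ 2 := fun χ =>
    (Finset.sum_eq_sum_iff_of_le (fun χ _ => hlow χ)).mp (by
      rw [htotal, Finset.sum_const, nsmul_eq_mul, Finset.card_univ, mul_comm, ← heq,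
        Nat.card_eq_fintype_card]) χ (Finset.mem_univ χ)
  rw [commutator_eq_closure, Subgroup.closure_le]
  rintro _ ⟨x, y, rfl⟩
  rw [SetLike.mem_coe, Char.mem_normal_iff_forall_irr (P : Subgroup G)]
  intro χ hχ
  have hd : (χ : G → ℂ) 1 = 1 := by
    obtain ⟨d, hd0, hd⟩ := Char.irr_one_pos χ.2
    have h1 := hexact χ
    rw [Finset.sum_congr rfl (fun a _ => by rw [hχ _ (Subgroup.pow_mem _ hg _), hd]),
      Finset.sum_const, nsmul_eq_mul, Finset.card_univ, Complex.norm_natCast] at h1
    have h2 : (d : ℝ) ^ 2 = 1 := mul_left_cancel₀ hφ.ne' (h1.symm.trans (mul_one _).symm)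
    have h3 : d = 1 := by
      have h4 : d ^ 2 = 1 := by exact_mod_cast h2
      exact (Nat.pow_eq_one.mp h4).resolve_right (by norm_num)
    rw [hd, h3, Nat.cast_one]
  rw [hd]
  obtain ⟨f, hf⟩ := Char.exists_monoidHom_of_degree_one (Char.isCharacter_of_irr χ.2) hd
  rw [hf, map_commutatorElement, commutatorElement_eq_one_iff_mul_comm.mpr (mul_comm _ _),
    Units.val_one]

end Cfsg.Agent.S0861
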