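import Cfsg.Agent.CharExt.Gallagher
import Cfsg.Statements.S0868
-- import your own Cfsg.Agent.* helpers here

set_option autoImplicit false
open scoped ComplexConjugate
open Cfsg

namespace Cfsg.Agent.S0868

/-- Let N be a normal subgroup of the finite group G, χ an irreducible character of G whose restriction ϑ to N is irreducible, and ψ an irreducible character of G. Define η on G by η g = (1 / order of N) * Σ over n in N of ψ (n * g) * conj (χ (n * g)). Then: if the restriction of ψ to N has nonzero inner product with ϑ, η is an irreducible character of G; if that inner product is zero, η vanishes identically; and if ψ = χ then η is identically 1. -/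
theorem result {G : Type*} [Group G] [Fintype G] (N : Subgroup G) [N.Normal] [Fintype N] (χ : G → ℂ) (hχ : Cfsg.IsIrrCharacter G χ) (hχN : Cfsg.IsIrrCharacter N (fun n : N => χ n)) (ψ : G → ℂ) (hψ : Cfsg.IsIrrCharacter G ψ) (η : G → ℂ) (hη : η = fun g => (Nat.card N : ℂ)⁻¹ * ∑ n : N, ψ ((n : G) * g) * conj (χ ((n : G) * g))) : (Cfsg.classInner (fun n : N => ψ n) (fun n : N => χ n) ≠ 0 → Cfsg.IsIrrCharacter G η) ∧ (Cfsg.classInner (fun n : N => ψ n) (fun n : N => χ n) = 0 → η = 0) ∧ (ψ = χ → η = fun _ => 1) := by
  classical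
  have hη' : η = CharExt.avgN N (fun x => ψ x * conj (χ x)) := hη
  set e := Cfsg.indFun N (fun _ : N => (1 : ℂ))
  have hech : Cfsg.IsCharacter G e :=
    CharInd.isCharacter_indFun N (θ := fun _ => (1 : ℂ)) Char.isCharacter_const_one
  obtain ⟨m, hm, hm'⟩ := Char.isCharacter_exists_coeff hech
  choose k hk using fun β : Cfsg.IrrCharacter G => Char.isCharacter_classInner_nat
    (Char.isCharacter_mul (Char.isCharacter_of_irr β.2) (Char.isCharacter_of_irr hχ)) ⟨ψ, hψ⟩
  have hsum : Cfsg.classInner (fun n : N => ψ n) (fun n : N => χ n) =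
      ((∑ β : Cfsg.IrrCharacter G, m β * k β : ℕ) : ℂ) := by
    have h1 : Cfsg.classInner (e * χ) ψ = Cfsg.classInner (fun n : N => χ n) (fun n : N => ψ n) := by
      rw [← CharInd.indFun_mul_res N _ (Char.irr_isClassFunction hχ),
        CharInd.classInner_indFun_left N _ (Char.irr_isClassFunction hψ)]
      simp
    have h2 : Cfsg.classInner (e * χ) ψ = ((∑ β : Cfsg.IrrCharacter G, m β * k β : ℕ) : ℂ) := by
      rw [hm, Finset.sum_mul, Char.classInner_sum_left, Nat.cast_sum]
      refine Finset.sum_congr rfl fun β _ => ?_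
      rw [← Nat.cast_smul_eq_nsmul ℂ, smul_mul_assoc, Char.classInner_smul_left, hk]
      push_cast; rfl
    rw [← Char.classInner_conj, ← h1, h2, map_natCast]
  refine ⟨fun hne => ?_, fun h0 => ?_, fun hψχ => ?_⟩
  · rw [hsum, Nat.cast_ne_zero] at hne
    obtain ⟨β, -, hβ⟩ := Finset.exists_ne_zero_of_sum_ne_zero hne
    rw [Nat.mul_ne_zero_iff] at hβ
    have hinv := CharExt.inv_of_constituent N β.2 (by
      show Cfsg.classInner e (β : G → ℂ) ≠ 0
      rw [hm']; exact_mod_cast hβ.1)
    have hirr := CharExt.isIrrCharacter_mul N χ hχ hχN β.2 hinv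
    have hψeq : (β : G → ℂ) * χ = ψ := by
      by_contra hc
      have := Char.classInner_irr_ne hirr hψ hc
      rw [hk, Nat.cast_eq_zero] at this
      exact hβ.2 this
    have hηβ : η = (β : G → ℂ) := by
      funext g
      have h1 := congrFun (CharExt.avgN_normSq_eq_one N χ hχ hχN) g
      rw [hη']
      unfold CharExt.avgN at h1 ⊢
      rw [← hψeq]
      simp only [Pi.mul_apply, hinv, mul_assoc, ← Finset.mul_sum]
      linear_combination (β : G → ℂ) g * h1
    rw [hηβ]
    exact β.2
  · rw [hsum, Nat.cast_eq_zero] at h0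
    have hcl : Cfsg.IsClassFunction G (fun x => ψ x * conj (χ x)) := fun g x => by
      simp only [Char.irr_isClassFunction hψ g x, Char.irr_isClassFunction hχ g x]
    rw [hη']
    refine Char.eq_zero_of_classInner_irr_eq_zero (CharExt.avgN_isClassFunction N hcl) fun β => ?_
    rw [CharExt.classInner_avgN, CharExt.avgN_irr N β.2, Char.classInner_smul_right]
    have h1 : Cfsg.classInner (fun x => ψ x * conj (χ x)) (β : G → ℂ) =
        conj (Cfsg.classInner ((β : G → ℂ) * χ) ψ) := by
      rw [Char.classInner_conj]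
      unfold Cfsg.classInner
      congr 1
      refine Finset.sum_congr rfl fun g _ => ?_
      simp only [Pi.mul_apply, map_mul]
      ring
    have h2 : conj (CharExt.avgN N (β : G → ℂ) 1) = (m β : ℂ) := by
      rw [← CharExt.indFun_one_classInner N (Char.irr_isClassFunction β.2)]; exact hm' β
    rw [h1, hk, map_natCast, map_div₀, h2]
    rcases Nat.mul_eq_zero.mp (Finset.sum_eq_zero_iff.mp h0 β (Finset.mem_univ _)) with h | h <;>
      simp [h]
  · rw [hη', hψχ]
    exact CharExt.avgN_normSq_eq_one N χ hχ hχN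

end Cfsg.Agent.S0868
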