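import Mathlib.Tactic
import Mathlib.Algebra.BigOperators.Pi
import Mathlib.Data.Fintype.EquivFin
import Mathlib.Data.Fintype.BigOperators
import Mathlib.Data.Int.GCD
import Mathlib.GroupTheory.Subgroup.Simple
import Cfsg.Statements.S0869
-- import your own Cfsg.Agent.* helpers here

set_option autoImplicit false
open Cfsg

namespace Cfsg.Agent.S0869

/-- Let S be a nonempty finite type and R an additive subgroup of the integer-valued functions on S that is closed under pointwise multiplication. If the constant function 1 is not in R, then there exist a point x of S and a prime p such that p divides f x for every f in R. -/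
theorem result {S : Type*} [Finite S] [Nonempty S] (R : AddSubgroup (S → ℤ)) (hmul : ∀ f ∈ R, ∀ g ∈ R, f * g ∈ R) (h1 : (1 : S → ℤ) ∉ R) : ∃ (x : S) (p : ℕ), p.Prime ∧ ∀ f ∈ R, (p : ℤ) ∣ f x := by
  classical
  have := Fintype.ofFinite S
  by_contra hcon
  push_neg at hcon
  have key : ∀ x : S, ∃ f ∈ R, f x = 1 := by
    intro x
    let φ : (S → ℤ) →+ ℤ := Pi.evalAddMonoidHom (fun _ : S => ℤ) x
    obtain ⟨d, hd⟩ := Int.subgroup_cyclic (R.map φ)
    by_cases h : d.natAbs = 1
    · have : (1 : ℤ) ∈ R.map φ := by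
        rw [hd, AddSubgroup.mem_closure_singleton]
        rcases Int.natAbs_eq_iff.mp h with h' | h' <;> subst h'
        · exact ⟨1, by simp⟩
        · exact ⟨-1, by simp⟩
      obtain ⟨f, hf, hfx⟩ := this
      exact ⟨f, hf, hfx⟩
    · obtain ⟨p, hp, hpd⟩ := Nat.exists_prime_and_dvd h
      obtain ⟨f, hf, hfx⟩ := hcon x p hp
      exfalso; apply hfx
      have : f x ∈ R.map φ := ⟨f, hf, rfl⟩
      rw [hd, AddSubgroup.mem_closure_singleton] at this
      obtain ⟨n, hn⟩ := this
      rw [← hn, smul_eq_mul]
      exact dvd_mul_of_dvd_right (Int.natCast_dvd.mpr hpd) n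
  choose f hf hfx using key
  have h2 : ∀ s : Finset S, 1 - ∏ x ∈ s, (1 - f x) ∈ R := by
    intro s
    induction s using Finset.induction with
    | empty => simp
    | insert a s ha ih =>
      rw [Finset.prod_insert ha]
      have : (1 : S → ℤ) - (1 - f a) * ∏ x ∈ s, (1 - f x) =
          f a + (1 - ∏ x ∈ s, (1 - f x)) - f a * (1 - ∏ x ∈ s, (1 - f x)) := by ring
      rw [this]
      exact R.sub_mem (R.add_mem (hf a) ih) (hmul _ (hf a) _ ih)
  apply h1
  have h3 := h2 Finset.univ
  have h4 : ∏ x : S, (1 - f x) = 0 := by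
    ext y
    rw [Finset.prod_apply]
    exact Finset.prod_eq_zero (Finset.mem_univ y) (by simp [hfx])
  rw [h4, sub_zero] at h3
  exact h3

end Cfsg.Agent.S0869
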