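import Cfsg.Statements.S0876
import Cfsg.Agent.CharDeep.Section
import Cfsg.Agent.Block.LocalRing

set_option autoImplicit false
open Cfsg

namespace Cfsg.Agent.S0876

/-- Let G be a finite group, p a prime and M a maximal ideal of the ring of algebraic integers containing p. Let x, y be elements with p-parts a and b (so a⁻¹ * x and b⁻¹ * y are their p-regular parts). Then a⁻¹ * x and b⁻¹ * y are conjugate in G if and only if, for every irreducible character χ, the difference χ x - χ y lies in the local ideal at M. -/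
theorem result {G : Type*} [Group G] [Finite G] (p : ℕ) (M : Ideal Cfsg.AlgInt) (hM : Cfsg.IsPModular p M) (x y a b : G) (ha : Cfsg.IsPPart p x a) (hb : Cfsg.IsPPart p y b) : IsConj (a⁻¹ * x) (b⁻¹ * y) ↔ ∀ χ : Cfsg.IrrCharacter G, Cfsg.MemLocalIdeal M ((χ : G → ℂ) x - (χ : G → ℂ) y) := by
  classical

  haveI : M.IsPrime := hM.2.1.isPrime
  let _ : Fintype G := Fintype.ofFinite G
  have hp : p.Prime := hM.1
  set k := (Nat.card G).factorization p with hk
  set n := Nat.card G / p ^ k with hn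
  have hmn : Nat.card G = p ^ k * n := (Nat.ordProj_mul_ordCompl_eq_self _ p).symm
  have hcop : Nat.Coprime (p ^ k) n := (Nat.coprime_ordCompl hp Nat.card_pos.ne').pow_left k
  set t := Cfsg.Agent.CharDeep.sectionExp hcop with ht
  have hreg : ∀ z c : G, Cfsg.IsPPart p z c → c⁻¹ * z = z ^ t ∧ c⁻¹ * z * c = z := by
    rintro z c ⟨d, rfl, hcd, ⟨j, hj⟩, hd⟩
    rw [inv_mul_cancel_left]
    refine ⟨Cfsg.Agent.CharDeep.eq_pow_sectionExp hmn hcop rfl hcd ?_ ?_, hcd.eq.symm⟩
    · rcases Nat.eq_zero_or_pos j with rfl | hjpos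
      · rw [hj, pow_zero]; exact Nat.coprime_one_left _
      · rw [hj]
        exact (Nat.coprime_ordCompl hp Nat.card_pos.ne').pow_left j
    · exact ((hp.coprime_iff_not_dvd.2 hd).pow_left k).symm
  obtain ⟨hax, -⟩ := hreg x a ha
  obtain ⟨hby, -⟩ := hreg y b hb
  rw [hax, hby]
  have hint : ∀ (χ : Cfsg.IrrCharacter G) (z : G), IsIntegral ℤ ((χ : G → ℂ) z) := fun χ z =>
    Cfsg.Agent.Char.isCharacter_isIntegral (Cfsg.Agent.Char.isCharacter_of_irr χ.2) z
  have hcong : ∀ (χ : Cfsg.IrrCharacter G) (z : G),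
      Cfsg.MemLocalIdeal M ((χ : G → ℂ) z - (χ : G → ℂ) (z ^ t)) := by
    intro χ z
    obtain ⟨d, ρ, -, hρ⟩ := χ.2
    obtain ⟨ε, hε, hsum⟩ := Cfsg.Agent.Char.exists_character_eq_sum_roots ρ z
    have e1 := hsum 1
    rw [pow_one] at e1
    simp only [pow_one] at e1
    rw [← hρ, e1, hsum t, ← Finset.sum_sub_distrib]
    refine Cfsg.Agent.Block.memLocalIdeal_sum _ _ fun i _ => ?_
    have hεn : ε i ^ (p ^ k * n) = 1 := by
      obtain ⟨e, he⟩ := hmn ▸ orderOf_dvd_natCard z
      rw [he, pow_mul, hε i, one_pow]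
    have hεne : ε i ≠ 0 := fun h => by
      have := hε i
      rw [h, zero_pow (orderOf_pos z).ne'] at this
      exact zero_ne_one this
    have hz : Cfsg.MemLocalRing M (ε i ^ t) :=
      Cfsg.Agent.Block.memLocalRing_of_pow_eq_one (n := p ^ k * n)
        (hmn ▸ Nat.card_pos.ne') (by rw [← pow_mul, mul_comm, pow_mul, hεn, one_pow])
    set w : ℂ := ε i / ε i ^ t with hw
    have hwp : w ^ p ^ k = 1 := by
      have h1 : ε i ^ (t * p ^ k) = ε i ^ (p ^ k) := by
        have := (Cfsg.Agent.CharDeep.sectionExp_right hcop).mul_left' (p ^ k)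
        rw [mul_one, mul_comm _ t] at this
        rw [pow_eq_pow_mod (t * p ^ k) hεn, pow_eq_pow_mod (p ^ k) hεn]
        exact congrArg (ε i ^ ·) this
      rw [hw, div_pow, ← pow_mul, h1, div_self (pow_ne_zero _ hεne)]
    have hwmem : Cfsg.MemLocalRing M w :=
      Cfsg.Agent.Block.memLocalRing_of_pow_eq_one (pow_ne_zero k hp.ne_zero) hwp
    have hred := Cfsg.Agent.Block.red_eq_one_of_pow_prime_pow hM (M := M)
      (z := ⟨w, hwmem⟩) (k := k) (Subtype.ext (by simpa using hwp))
    have hw1 : Cfsg.MemLocalIdeal M (w - 1) := by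
      have h0 : Cfsg.Agent.Block.red M (⟨w, hwmem⟩ - 1) = 0 := by
        rw [map_sub, hred, map_one, sub_self]
      exact Cfsg.Agent.Block.red_eq_zero_iff.1 h0
    have := Cfsg.Agent.Block.memLocalIdeal_mul_left hz hw1
    rwa [hw, mul_sub, mul_one, mul_div_cancel₀ _ (pow_ne_zero _ hεne)] at this
  constructor
  · intro h χ
    have e : (χ : G → ℂ) (x ^ t) = (χ : G → ℂ) (y ^ t) :=
      Cfsg.Agent.Char.isClassFunction_eq_of_isConj (Cfsg.Agent.Char.irr_isClassFunction χ.2) h
    have := Cfsg.Agent.Block.memLocalIdeal_sub (hcong χ x) (hcong χ y)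
    rwa [e, sub_sub_sub_cancel_right] at this
  · intro h
    by_contra hne
    set θ : G → ℂ := fun z => if IsConj (z ^ t) (x ^ t) then (n : ℂ) else 0 with hθ
    have hmem : θ ∈ Cfsg.Agent.CharDeep.algSpan G :=
      Cfsg.Agent.CharDeep.section_indicator_mem hmn hcop (x ^ t)
    have hcl := (Cfsg.Agent.CharDeep.algSpan_classInner hmem (Cfsg.Agent.Char.trivialIrr G)).1
    have e := Cfsg.Agent.Char.eq_sum_classInner_smul hcl
    have hdiff : θ x - θ y = (n : ℂ) := by
      rw [hθ]
      simp only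
      rw [if_pos (IsConj.refl _), if_neg fun h' => hne h'.symm, sub_zero]
    have hn' : Cfsg.MemLocalIdeal M (n : ℂ) := by
      rw [← hdiff, congrFun e x, congrFun e y, Finset.sum_apply, Finset.sum_apply,
        ← Finset.sum_sub_distrib]
      refine Cfsg.Agent.Block.memLocalIdeal_sum _ _ fun χ _ => ?_
      rw [Pi.smul_apply, Pi.smul_apply, smul_eq_mul, smul_eq_mul, ← mul_sub]
      exact Cfsg.Agent.Block.memLocalIdeal_mul_left
        (Cfsg.Agent.Block.memLocalRing_of_isIntegral
          (Cfsg.Agent.CharDeep.algSpan_classInner hmem χ).2) (h χ)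
    exact Nat.not_dvd_ordCompl hp Nat.card_pos.ne'
      ((Cfsg.Agent.Block.memLocalIdeal_natCast_iff hM n).1 hn')

end Cfsg.Agent.S0876
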