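import Cfsg.Statements.S0879
import Cfsg.Agent.CharDeep.Zass

set_option autoImplicit false
open Cfsg

namespace Cfsg.Agent.S0879

/-- Let G be a Zassenhaus group on the finite set Ω and E the stabilizer of two distinct points a, b. Then an element outside the normalizer of E conjugates no non-identity element of E into E, and E has index 2 in its normalizer. -/
theorem result {G Ω : Type*} [Group G] [Finite G] [MulAction G Ω] [Fintype Ω] (hZ : Cfsg.IsZassenhausGroup G Ω) {a b : Ω} (hab : a ≠ b) : (∀ g : G, g ∉ Subgroup.normalizer ((MulAction.stabilizer G a ⊓ MulAction.stabilizer G b : Subgroup G) : Set G) → ∀ x ∈ (MulAction.stabilizer G a ⊓ MulAction.stabilizer G b : Subgroup G), g * x * g⁻¹ ∈ (MulAction.stabilizer G a ⊓ MulAction.stabilizer G b : Subgroup G) → x = 1) ∧ ((MulAction.stabilizer G a ⊓ MulAction.stabilizer G b : Subgroup G).subgroupOf (Subgroup.normalizer ((MulAction.stabilizer G a ⊓ MulAction.stabilizer G b : Subgroup G) : Set G))).index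 = 2 := by
  classical
  have hz := Cfsg.Agent.PermB.zData_of_isZassenhausGroup hZ
  obtain ⟨g₀, hg₀, c, d, hcd, hc, hd⟩ := hZ.2.2.2.1
  obtain ⟨x₀, hx₀, hx₀1⟩ := Cfsg.Agent.CharDeep.nontrivial_H2 hz hg₀ hcd hc hd hab
  have hN := Cfsg.Agent.CharDeep.mem_normalizer_H2_iff hz hab hx₀ hx₀1
  refine ⟨fun g hg x hx hgx => by_contra fun hx1 =>
    hg ((hN g).2 (Cfsg.Agent.CharDeep.swap_or_fix hz hab hx hx1 hgx)), ?_⟩
  obtain ⟨s, -, hsa, hsb⟩ := hz.exists_involution_swap hab
  rw [Subgroup.index_eq_two_iff]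
  refine ⟨⟨s, (hN s).2 (Or.inr ⟨hsa, hsb⟩)⟩, fun g => ?_⟩
  simp only [Subgroup.mem_subgroupOf, Subgroup.mem_inf, MulAction.mem_stabilizer_iff,
    Subgroup.coe_mul, mul_smul, hsa, hsb]
  rcases (hN g).1 g.2 with ⟨h1, h2⟩ | ⟨h1, h2⟩
  · simp [Xor', h1, h2, hab.symm]
  · simp [Xor', h1, h2, hab.symm]

end Cfsg.Agent.S0879
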