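import Cfsg.Statements.S0880
import Cfsg.Agent.CharDeep.ZassClasses

set_option autoImplicit false
open Cfsg

namespace Cfsg.Agent.S0880

/-- Let G be a finite simple Zassenhaus group on Ω with n points whose two-point stabilizer E has odd order less than n - 2. Then there are two elements of G, each fixing no point of Ω, that are not conjugate. -/
theorem result {G Ω : Type*} [Group G] [Finite G] [MulAction G Ω] [Fintype Ω] (hZ : Cfsg.IsZassenhausGroup G Ω) {a b : Ω} (hab : a ≠ b) [IsSimpleGroup G] (hodd : Odd (Nat.card ↥(MulAction.stabilizer G a ⊓ MulAction.stabilizer G b : Subgroup G))) (hlt : Nat.card ↥(MulAction.stabilizer G a ⊓ MulAction.stabilizer G b : Subgroup G) < Fintype.card Ω - 2) : ∃ x y : G, (∀ c : Ω, x • c ≠ c) ∧ (∀ c : Ω, y • c ≠ c) ∧ ¬ IsConj x y := by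
  classical
  let _ : Fintype G := Fintype.ofFinite G
  have hz := Cfsg.Agent.PermB.zData_of_isZassenhausGroup hZ
  have h3 := Cfsg.Agent.PermB.three_le_card_of_isZassenhausGroup hZ
  obtain ⟨g, hg, c, d, hcd, hgc, hgd⟩ := hZ.2.2.2.1
  obtain ⟨x, hx, hx1⟩ := Cfsg.Agent.CharDeep.nontrivial_H2 hz hg hcd hgc hgd hab
  have he2 : 2 ≤ Nat.card ↥(MulAction.stabilizer G a ⊓ MulAction.stabilizer G b : Subgroup G) := by
    haveI : Nontrivial ↥(MulAction.stabilizer G a ⊓ MulAction.stabilizer G b : Subgroup G) :=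
      ⟨⟨⟨x, hx⟩, 1, fun e => hx1 (congrArg Subtype.val e)⟩⟩
    exact Finite.one_lt_card
  have hK := Cfsg.Agent.CharDeep.ZC.half_le_fpfClasses hz hab hodd
    (Cfsg.Agent.CharDeep.ZC.swapInvol_of_simple hZ) (h := Nat.card Ω - 1) (by omega) (by
      rw [← Nat.card_eq_fintype_card] at hlt
      show Nat.card ↥(MulAction.stabilizer G a ⊓ MulAction.stabilizer G b : Subgroup G) + 1 < Nat.card Ω - 1
      omega)
  have h1 : 1 < (Cfsg.Agent.CharDeep.ZC.fpfClasses (G := G) (α := Ω)).card := by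
    show 1 < _
    change Nat.card ↥(MulAction.stabilizer G a ⊓ MulAction.stabilizer G b : Subgroup G) + 1 ≤ _ at hK
    omega
  obtain ⟨C, D, hC, hD, hne⟩ := Finset.one_lt_card_iff.1 h1
  obtain ⟨u, hu, rfl⟩ := Finset.mem_image.1 hC
  obtain ⟨v, hv, rfl⟩ := Finset.mem_image.1 hD
  have hfree : ∀ w : G, w ∈ Finset.univ.filter (fun g : G =>
      Cfsg.Agent.CharDeep.ZC.fixF (α := Ω) g = ∅) → ∀ p : Ω, w • p ≠ p := fun w hw p e =>
    Finset.notMem_empty p ((Finset.mem_filter.1 hw).2 ▸ Cfsg.Agent.CharDeep.ZC.mem_fixF.2 e)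
  exact ⟨u, v, hfree u hu, hfree v hv, fun h => hne (ConjClasses.mk_eq_mk_iff_isConj.2 h)⟩

end Cfsg.Agent.S0880
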