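import Cfsg.Statements.S0882
import Cfsg.Agent.CharDeep.ZassClasses

set_option autoImplicit false
open Cfsg

namespace Cfsg.Agent.S0882

/-- Let G be a finite simple Zassenhaus group on Ω with n = h + 1 points whose two-point stabilizer E has odd order e with 2e < h - 1. Then any two involutions of G are conjugate, and the number of involutions is e * (h + 1) if h is even and e * h if h is odd. -/
theorem result {G Ω : Type*} [Group G] [Finite G] [MulAction G Ω] [Fintype Ω] (hZ : Cfsg.IsZassenhausGroup G Ω) {a b : Ω} (hab : a ≠ b) [IsSimpleGroup G] (h e : ℕ) (hh : Fintype.card Ω = h + 1) (he : Nat.card ↥(MulAction.stabilizer G a ⊓ MulAction.stabilizer G b : Subgroup G) = e) (hodd : Odd e) (hlt : 2 * e < h - 1) : (∀ x y : G, orderOf x = 2 → orderOf y = 2 → IsConj x y) ∧ Nat.card {x : G // orderOf x = 2} = (if Even h then e * (h + 1) else e * h) := by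
  classical
  let _ : Fintype G := Fintype.ofFinite G
  have hz := Cfsg.Agent.PermB.zData_of_isZassenhausGroup hZ
  have hh' : Nat.card Ω = h + 1 := by rw [Nat.card_eq_fintype_card, hh]
  have hsw := Cfsg.Agent.CharDeep.ZC.swapInvol_of_simple hZ
  have ho : Odd (Nat.card ↥(Cfsg.Agent.PermB.ZData.H2 (G := G) a b)) := by
    show Odd (Nat.card ↥(MulAction.stabilizer G a ⊓ MulAction.stabilizer G b : Subgroup G))
    rw [he]; exact hodd
  refine ⟨fun x y hx hy => Cfsg.Agent.CharDeep.ZC.isConj_invol hz hab ho hsw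
    (Finset.mem_filter.2 ⟨Finset.mem_univ _, hx⟩) (Finset.mem_filter.2 ⟨Finset.mem_univ _, hy⟩), ?_⟩
  rw [Nat.card_eq_fintype_card, Fintype.card_subtype]
  refine (Cfsg.Agent.CharDeep.ZC.card_invol hz hab ho hsw hh').trans ?_
  show (if Even h then Nat.card ↥(MulAction.stabilizer G a ⊓ MulAction.stabilizer G b : Subgroup G) * (h + 1)
    else Nat.card ↥(MulAction.stabilizer G a ⊓ MulAction.stabilizer G b : Subgroup G) * h) = _
  rw [he]

end Cfsg.Agent.S0882
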