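import Cfsg.Statements.S0890
import Cfsg.Agent.CharDeep.Berger

set_option autoImplicit false
open Cfsg

namespace Cfsg.Agent.S0890

/-- Let L ≤ H < G with L normal in G, H a maximal subgroup and G / L solvable. Let ϑ be an irreducible character of H whose restriction to L is irreducible and whose induction χ to G is irreducible. Then there is a normal subgroup M of G containing L such that the restriction of χ to M is not a natural-number multiple of a single irreducible character of M. -/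
theorem result {G : Type*} [Group G] [Fintype G] (L H : Subgroup G) [L.Normal] (hLH : L ≤ H) (hmax : IsCoatom H) (hsolv : Group.IsSolvable (G ⧸ L)) (ϑ : H → ℂ) (hϑ : Cfsg.IsIrrCharacter H ϑ) (hϑL : Cfsg.IsIrrCharacter L (fun x : L => ϑ ⟨(x : G), hLH x.2⟩)) (hind : Cfsg.IsIrrCharacter G (Cfsg.indFun H ϑ)) : ∃ M : Subgroup G, M.Normal ∧ L ≤ M ∧ ¬ ∃ (φ : M → ℂ) (e : ℕ), Cfsg.IsIrrCharacter M φ ∧ (fun m : M => Cfsg.indFun H ϑ m) = (e : ℂ) • φ := by
  classical
  have hϑc : Cfsg.IsCharacter H ϑ := Cfsg.Agent.Char.isCharacter_of_irr hϑ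
  haveI : Fintype H := Fintype.ofFinite _
  set χ := Cfsg.indFun H ϑ with hχdef
  by_cases hHn : H.Normal
  · refine ⟨H, hHn, hLH, ?_⟩
    rintro ⟨φ, e, hφ, he⟩
    exact Cfsg.Agent.CharDeep.not_homog_of_normal H hmax.1 hϑ hind hφ he
  by_contra hall
  push Not at hall
  set C := H.normalCore with hCdef
  have hCH : C ≤ H := Subgroup.normalCore_le H
  haveI : C.Normal := Subgroup.normalCore_normal H
  have hLC : L ≤ C := Subgroup.normal_le_normalCore.2 hLH
  haveI : Fintype C := Fintype.ofFinite _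
  haveI := hsolv
  haveI hCsolv : Group.IsSolvable (G ⧸ C) := Group.isSolvable_of_surjective
    (f := QuotientGroup.map L C (MonoidHom.id G) hLC) (fun q => by
      obtain ⟨g, rfl⟩ := QuotientGroup.mk_surjective q
      exact ⟨QuotientGroup.mk g, rfl⟩)
  obtain ⟨p, M, U, k, hp, hMn, hCM, hMH, hsupMH, hk, hk0, hCU, hUH, hUn, hUnot, hcop⟩ :=
    Cfsg.Agent.CharDeep.exists_chief_pair C H hCH hmax le_rfl hCsolv hHn
  haveI := hMn
  haveI : Fintype M := Fintype.ofFinite _
  -- the restriction to the core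
  let θ : C → ℂ := fun x => ϑ (Subgroup.inclusion hCH x)
  have hθc : Cfsg.IsCharacter C θ := Cfsg.Agent.Char.isCharacter_comp hϑc (Subgroup.inclusion hCH)
  have hθ : Cfsg.IsIrrCharacter C θ :=
    Cfsg.Agent.CharDeep.isIrr_of_comp hθc (Subgroup.inclusion hLC) hϑL
  obtain ⟨θ₁, c₁, hθ₁, hc₁⟩ := hall C inferInstance hLC
  have hone : Cfsg.classInner (fun n : H => χ n) ϑ = ((1 : ℕ) : ℂ) := by
    rw [Nat.cast_one, ← Cfsg.Agent.CharInd.classInner_swap,
      ← Cfsg.Agent.CharInd.classInner_indFun_left H ϑ (Cfsg.Agent.Char.irr_isClassFunction hind),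
      Cfsg.Agent.Char.classInner_irr_self hind, map_one]
  have hθθ₁ : θ₁ = θ := by
    by_contra hne
    have hR := Cfsg.Agent.Char.isCharacter_comp (Cfsg.Agent.Char.isCharacter_sub_constituent
      (Cfsg.Agent.CharInd.isCharacter_res H (Cfsg.Agent.Char.isCharacter_of_irr hind))
      (ψ := ⟨ϑ, hϑ⟩) Nat.one_pos hone) (Subgroup.inclusion hCH)
    obtain ⟨j, hj⟩ := Cfsg.Agent.Char.isCharacter_classInner_nat hR ⟨θ, hθ⟩
    have h1 : Cfsg.classInner (fun n : C => χ n) θ = 0 := by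
      rw [hc₁, Cfsg.Agent.Char.classInner_smul_left,
        Cfsg.Agent.Char.classInner_irr_ne hθ₁ hθ hne, mul_zero]
    have h2 : Cfsg.classInner (fun n : C => χ n) θ = ((1 + j : ℕ) : ℂ) := by
      rw [Nat.cast_add, Nat.cast_one, ← Cfsg.Agent.Char.classInner_irr_self hθ, ← hj,
        ← Cfsg.Agent.Char.classInner_add_left]
      congr 1
      funext n
      exact (add_sub_cancel (θ n) (χ n)).symm
    rw [h1] at h2
    have : 1 + j = 0 := by exact_mod_cast h2.symm
    omega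
  subst hθθ₁
  have hinv : ∀ (g : G) (n : C) (h : g * n * g⁻¹ ∈ C), θ ⟨g * n * g⁻¹, h⟩ = θ n := by
    intro g n h
    have hc0 : (c₁ : ℂ) ≠ 0 := fun h0 => by
      have h1 := congrFun hc₁ 1
      rw [h0, zero_smul] at h1
      exact Cfsg.Agent.Char.irr_one_ne_zero hind h1
    refine mul_left_cancel₀ hc0 ?_
    have h1 := congrFun hc₁ ⟨g * n * g⁻¹, h⟩
    have h2 := congrFun hc₁ n
    simp only [Pi.smul_apply, smul_eq_mul] at h1 h2
    rw [← h1, ← h2]
    exact Cfsg.Agent.Char.irr_isClassFunction hind n g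
  -- restriction to `M`
  obtain ⟨φ, E, hφ, hE⟩ := hall M hMn (hLC.trans hCM)
  let C₁ : Subgroup M := C.subgroupOf M
  haveI : C₁.Normal := Subgroup.normal_subgroupOf
  haveI : Fintype C₁ := Fintype.ofFinite _
  let θM : C₁ → ℂ := fun x => θ (Subgroup.subgroupOfEquivOfLe hCM x)
  have hθM : Cfsg.IsIrrCharacter C₁ θM :=
    Cfsg.Agent.CharInd.irr_comp_surjective (Subgroup.subgroupOfEquivOfLe hCM).toMonoidHom
      (MulEquiv.surjective _) hθ
  have hMHx : ∀ x : G, ∃ m ∈ M, ∃ t ∈ H, x = m * t := fun x => by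
    obtain ⟨m, hm, t, ht, rfl⟩ := Subgroup.mem_sup_of_normal_left.1
      (hsupMH ▸ Subgroup.mem_top x : x ∈ M ⊔ H)
    exact ⟨m, hm, t, ht, rfl⟩
  have hmack : (fun m : M => χ m) = Cfsg.indFun C₁ θM := by
    rw [hχdef, Cfsg.Agent.CharExt.indFun_res_of_mul_eq_top M H hMHx
      (Cfsg.Agent.Char.irr_isClassFunction hϑ)]
    refine Cfsg.Agent.CharExt.indFun_congr ?_ _ _ fun x hx hx' => rfl
    show _ = C.subgroupOf M
    rw [← hMH, Subgroup.inf_subgroupOf_left]
  have hE2 : E * E = p ^ k := by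
    have h1 := Cfsg.Agent.CharInd.card_mul_classInner_indFun_normal C₁ θM θM
    have hfix : ∀ x : M, Cfsg.Agent.CharInd.conjChar C₁ x θM = θM := fun x =>
      funext fun n => hinv (x : G) ⟨((n : M) : G), n.2⟩ _
    simp only [hfix, Cfsg.Agent.Char.classInner_irr_self hθM, Finset.sum_const, Finset.card_univ,
      nsmul_eq_mul, mul_one, ← Nat.card_eq_fintype_card] at h1
    rw [← hmack, hE, Cfsg.Agent.Char.classInner_smul_left, Cfsg.Agent.Char.classInner_smul_right,
      Cfsg.Agent.Char.classInner_irr_self hφ, Complex.conj_natCast, mul_one,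
      ← C₁.card_mul_index] at h1
    have h2 : Nat.card C₁ * (E * E) = Nat.card C₁ * C₁.index := by exact_mod_cast h1
    exact (Nat.eq_of_mul_eq_mul_left Nat.card_pos h2).trans hk
  -- the subgroup `K`
  let K : Subgroup G := M ⊔ U
  have hMK : M ≤ K := le_sup_left
  have hUK : U ≤ K := le_sup_right
  haveI hKn : K.Normal := by
    refine Subgroup.normalizer_eq_top_iff.1 (top_le_iff.1 (hsupMH ▸ sup_le ?_ ?_))
    · exact le_sup_left.trans Subgroup.le_normalizer
    · refine Cfsg.Agent.CharDeep.le_normalizer_of_conj fun a ha x hx => ?_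
      obtain ⟨m, hm, u, hu, rfl⟩ := Subgroup.mem_sup_of_normal_left.1 hx
      rw [show a * (m * u) * a⁻¹ = (a * m * a⁻¹) * (a * u * a⁻¹) by group]
      exact K.mul_mem (hMK (hMn.conj_mem m hm a)) (hUK (hUn a ha u hu))
  haveI : Fintype K := Fintype.ofFinite _
  obtain ⟨η, c, hη, hc⟩ := hall K hKn ((hLC.trans hCM).trans hMK)
  have hKH : ∀ x : G, ∃ y ∈ K, ∃ t ∈ H, x = y * t := fun x => by
    obtain ⟨m, hm, t, ht, rfl⟩ := hMHx x
    exact ⟨m, hMK hm, t, ht, rfl⟩
  let U₁ : Subgroup K := U.subgroupOf K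
  haveI : Fintype U₁ := Fintype.ofFinite _
  let j : U₁ →* H := (Subgroup.inclusion hUH).comp (Subgroup.subgroupOfEquivOfLe hUK).toMonoidHom
  let θU : U₁ → ℂ := fun x => ϑ (j x)
  have hθU : Cfsg.IsCharacter U₁ θU := Cfsg.Agent.Char.isCharacter_comp hϑc j
  have hmackK : (fun y : K => χ y) = Cfsg.indFun U₁ θU := by
    rw [hχdef, Cfsg.Agent.CharExt.indFun_res_of_mul_eq_top K H hKH
      (Cfsg.Agent.Char.irr_isClassFunction hϑ)]
    refine Cfsg.Agent.CharExt.indFun_congr ?_ _ _ fun x hx hx' => rfl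
    refine le_antisymm (fun x hx => ?_) fun x hx => hUH hx
    obtain ⟨m, hm, u, hu, hxe⟩ := Subgroup.mem_sup_of_normal_left.1 x.2
    have hmH : m ∈ H := by
      have : m = (x : G) * u⁻¹ := by rw [← hxe, mul_inv_cancel_right]
      rw [this]; exact H.mul_mem hx (H.inv_mem (hUH hu))
    show (x : G) ∈ U
    rw [← hxe]
    exact U.mul_mem (hCU (hMH ▸ Subgroup.mem_inf.2 ⟨hm, hmH⟩ : m ∈ C)) hu
  obtain ⟨dθ, hdθ0, hdθ⟩ := Cfsg.Agent.Char.irr_one_pos hθ
  obtain ⟨dφ, hdφ0, hdφ⟩ := Cfsg.Agent.Char.irr_one_pos hφ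
  obtain ⟨dη, hdη0, hdη⟩ := Cfsg.Agent.Char.irr_one_pos hη
  have hχ1 : χ 1 = ((E * dφ : ℕ) : ℂ) := by
    have h1 := congrFun hE 1
    simpa [hdφ] using h1
  have hχ1' : χ 1 = ((c * dη : ℕ) : ℂ) := by
    have h1 := congrFun hc 1
    simpa [hdη] using h1
  have hidxU : U₁.index = E * E := by
    have hi : C₁.index = E * E := hk.trans hE2.symm
    have h1 := congrFun hmackK 1
    have h2 := congrFun hmack 1
    simp only [OneMemClass.coe_one, Cfsg.Agent.CharInd.indFun_one_apply] at h1 h2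
    have e1 : θU 1 = θ 1 := congrArg ϑ (Subtype.ext rfl)
    have e2 : θM 1 = θ 1 := congrArg θ (Subtype.ext rfl)
    rw [h1, e1, e2, hdθ, hi] at h2
    have h3 : U₁.index * dθ = E * E * dθ := by exact_mod_cast h2
    exact Nat.eq_of_mul_eq_mul_right hdθ0 h3
  have hEc : c = E := by
    let M₁ : Subgroup K := M.subgroupOf K
    haveI : M₁.Normal := Subgroup.normal_subgroupOf
    haveI : Fintype M₁ := Fintype.ofFinite _
    let φ₁ : M₁ → ℂ := fun x => φ (Subgroup.subgroupOfEquivOfLe hMK x)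
    have hφ₁ : Cfsg.IsIrrCharacter M₁ φ₁ :=
      Cfsg.Agent.CharInd.irr_comp_surjective (Subgroup.subgroupOfEquivOfLe hMK).toMonoidHom
        (MulEquiv.surjective _) hφ
    obtain ⟨r, hr⟩ := Cfsg.Agent.Char.isCharacter_classInner_nat
      (Cfsg.Agent.CharInd.isCharacter_res M₁ (Cfsg.Agent.Char.isCharacter_of_irr hη)) ⟨φ₁, hφ₁⟩
    have hE0 : E ≠ 0 := fun h0 => (pow_ne_zero k hp.ne_zero) (by rw [← hE2, h0, mul_zero])
    have hEcr : E = c * r := by
      have h1 : Cfsg.classInner (fun x : M₁ => χ ((x : K) : G)) φ₁ = (E : ℂ) := by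
        rw [show (fun x : M₁ => χ ((x : K) : G)) = (E : ℂ) • φ₁ from funext fun x =>
          congrFun hE (Subgroup.subgroupOfEquivOfLe hMK x),
          Cfsg.Agent.Char.classInner_smul_left, Cfsg.Agent.Char.classInner_irr_self hφ₁, mul_one]
      rw [show (fun x : M₁ => χ ((x : K) : G)) = (c : ℂ) • fun x : M₁ => η x from funext fun x =>
        congrFun hc (x : K), Cfsg.Agent.Char.classInner_smul_left,
        show Cfsg.classInner (fun x : M₁ => η x) φ₁ = (r : ℂ) from hr] at h1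
      exact_mod_cast h1.symm
    have hr0 : r ≠ 0 := fun h0 => hE0 (by rw [hEcr, h0, mul_zero])
    have hdr : dη = r * dφ := by
      have h1 : c * dη = E * dφ := by exact_mod_cast hχ1'.symm.trans hχ1
      rw [hEcr, mul_assoc] at h1
      exact Nat.eq_of_mul_eq_mul_left (Nat.pos_of_ne_zero fun h0 => hE0 (by rw [hEcr, h0, zero_mul])) h1
    have hφ₁1 : φ₁ 1 = (dφ : ℂ) := hdφ
    have hrdvd := (Cfsg.Agent.CharDeep.degree_ratio_dvd_index M₁ hη hφ₁
      (by rw [show Cfsg.classInner (fun x : M₁ => η x) φ₁ = (r : ℂ) from hr]; exact_mod_cast hr0)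
      hdη hφ₁1).2
    rw [hdr, Nat.mul_div_cancel _ hdφ0] at hrdvd
    have hidx : M₁.index = C.relIndex U := by
      show M.relIndex (M ⊔ U) = _
      rw [sup_comm, Subgroup.relIndex_sup_right, ← Subgroup.inf_relIndex_right M U]
      congr 1
      exact le_antisymm ((inf_le_inf_left M hUH).trans hMH.le) (le_inf hCM hCU)
    have hr1 : r = 1 := Nat.eq_one_of_dvd_coprimes (Nat.Coprime.pow_right k (hidx ▸ hcop)) hrdvd
      (hE2 ▸ (hEcr ▸ dvd_mul_left r c).trans (dvd_mul_right E E))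
    rw [hEcr, hr1, mul_one]
  -- the norm on `K`
  have hnorm : Cfsg.classInner (Cfsg.indFun U₁ θU) (Cfsg.indFun U₁ θU) = ((E * E : ℕ) : ℂ) := by
    rw [← hmackK, hc, Cfsg.Agent.Char.classInner_smul_left, Cfsg.Agent.Char.classInner_smul_right,
      Cfsg.Agent.Char.classInner_irr_self hη, Complex.conj_natCast, mul_one, hEc, Nat.cast_mul]
  rw [Cfsg.Agent.CharInd.classInner_indFun_indFun] at hnorm
  have hterm : ∀ x : K, ∃ t : ℕ, t ≤ Nat.card U₁ ∧
      (∑ u : U₁, θU u * starRingEnd ℂ (Cfsg.extendByZero U₁ θU (x⁻¹ * u * x))) = (t : ℂ) ∧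
      ((∃ u : U₁, x⁻¹ * (u : K) * x ∉ U₁) → t < Nat.card U₁) := by
    intro x
    let S : Subgroup U₁ :=
      (U₁.comap (MulAut.conj x⁻¹ : MulAut K).toMonoidHom).subgroupOf U₁
    haveI : Fintype S := Fintype.ofFinite _
    have hS : ∀ u : U₁, u ∈ S ↔ x⁻¹ * (u : K) * x ∈ U₁ := fun u => by
      simp [S, Subgroup.mem_subgroupOf, MulAut.conj_apply]
    let b : S →* U₁ :=
      { toFun := fun u => ⟨x⁻¹ * ((u : U₁) : K) * x, (hS u).1 u.2⟩
        map_one' := Subtype.ext (by simp)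
        map_mul' := fun u v => Subtype.ext (by simp [mul_assoc]) }
    let ι : C →* S :=
      { toFun := fun n => ⟨⟨⟨(n : G), hUK (hCU n.2)⟩, hCU n.2⟩, (hS _).2 (hCU (by
            show ((x : G))⁻¹ * (n : G) * x ∈ C
            simpa using (inferInstance : C.Normal).conj_mem (n : G) n.2 (x : G)⁻¹))⟩
        map_one' := rfl
        map_mul' := fun _ _ => rfl }
    have ha : Cfsg.IsIrrCharacter S (fun u : S => θU (u : U₁)) :=
      Cfsg.Agent.CharDeep.isIrr_of_comp (Cfsg.Agent.CharInd.isCharacter_res S hθU) ι hθ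
    have hb : Cfsg.IsIrrCharacter S (fun u : S => θU (b u)) := by
      refine Cfsg.Agent.CharDeep.isIrr_of_comp (Cfsg.Agent.Char.isCharacter_comp hθU b) ι ?_
      refine (funext fun n => ?_ : (fun n : C => θU (b (ι n))) = θ) ▸ hθ
      have h1 := hinv (x : G)⁻¹ n ((inferInstance : C.Normal).conj_mem _ n.2 _)
      refine Eq.trans ?_ h1
      exact congrArg ϑ (Subtype.ext (by simp [b, ι, j, Subgroup.subgroupOfEquivOfLe]))
    have hsum : (∑ u : U₁, θU u * starRingEnd ℂ (Cfsg.extendByZero U₁ θU (x⁻¹ * u * x))) =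
        (Nat.card S : ℂ) * Cfsg.classInner (fun u : S => θU (u : U₁)) (fun u : S => θU (b u)) := by
      rw [Cfsg.Agent.CharInd.classInner_congr_card,
        ← Finset.sum_subset (Finset.subset_univ (Finset.univ.filter fun u : U₁ => u ∈ S))
          (fun u _ hu => by
            rw [Cfsg.Agent.CharInd.extendByZero_notMem U₁ θU (fun h => hu (by simp [(hS u).2 h])),
              map_zero, mul_zero]),
        Finset.sum_subtype (p := fun u : U₁ => u ∈ S) _ (by simp)]
      refine Finset.sum_congr rfl fun u _ => ?_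
      rw [Cfsg.Agent.CharInd.extendByZero_mem U₁ θU ((hS u).1 u.2)]
      rfl
    by_cases heq : (fun u : S => θU (u : U₁)) = (fun u : S => θU (b u))
    · refine ⟨Nat.card S, Subgroup.card_le_card_group S, ?_, ?_⟩
      · rw [hsum, ← heq, Cfsg.Agent.Char.classInner_irr_self ha, mul_one]
      · rintro ⟨u, hu⟩
        refine lt_of_le_of_ne (Subgroup.card_le_card_group S) fun h => hu ((hS u).1 ?_)
        rw [Subgroup.eq_top_of_card_eq S h]
        exact Subgroup.mem_top u
    · refine ⟨0, Nat.zero_le _, ?_, fun _ => Nat.card_pos⟩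
      rw [hsum, Cfsg.Agent.Char.classInner_irr_ne ha hb heq, mul_zero, Nat.cast_zero]
  choose t ht htsum htlt using hterm
  simp only [htsum] at hnorm
  rw [inv_mul_eq_iff_eq_mul₀ (mul_ne_zero (Nat.cast_ne_zero.2 Nat.card_pos.ne')
    (Nat.cast_ne_zero.2 Nat.card_pos.ne'))] at hnorm
  have hnorm' : ∑ x : K, t x = Nat.card U₁ * Nat.card U₁ * (E * E) := by exact_mod_cast hnorm
  obtain ⟨x₀, hx₀⟩ : ∃ x : K, ∃ u : U₁, x⁻¹ * (u : K) * x ∉ U₁ := by
    by_contra h
    push Not at h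
    apply hUnot
    refine Cfsg.Agent.CharDeep.le_normalizer_of_conj fun m hm u hu => ?_
    have h1 := h ⟨m⁻¹, hMK (M.inv_mem hm)⟩ ⟨⟨u, hUK hu⟩, hu⟩
    rw [Subgroup.mem_subgroupOf] at h1
    simpa using h1
  have hlt : ∑ x : K, t x < ∑ _x : K, Nat.card U₁ :=
    Finset.sum_lt_sum (fun x _ => ht x) ⟨x₀, Finset.mem_univ _, htlt x₀ hx₀⟩
  rw [Finset.sum_const, Finset.card_univ, smul_eq_mul, ← Nat.card_eq_fintype_card,
    ← U₁.card_mul_index, hidxU, hnorm'] at hlt
  exact lt_irrefl _ (by linarith only [hlt] : Nat.card U₁ * Nat.card U₁ * (E * E) <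
    Nat.card U₁ * Nat.card U₁ * (E * E))

end Cfsg.Agent.S0890
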