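import Cfsg.Statements.S0891
import Cfsg.Agent.CharDeep.DoubleCoverFour

set_option autoImplicit false
open Cfsg

namespace Cfsg.Agent.S0891

/-- For every n ≥ 4 there are a finite group Γ and a central element z of Γ of order 2 lying in the commutator subgroup of Γ such that the quotient of Γ by the (normal) subgroup generated by z is isomorphic to the alternating group on n letters. -/
theorem result (n : ℕ) (hn : 4 ≤ n) : ∃ (Γ : Type) (_ : Group Γ) (_ : Finite Γ) (z : Γ) (hz : z ∈ Subgroup.center Γ), orderOf z = 2 ∧ z ∈ commutator Γ ∧ ∃ _ : (Subgroup.zpowers z).Normal, Nonempty (Γ ⧸ Subgroup.zpowers z ≃* alternatingGroup (Fin n)) := by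
  have key : ∃ (Γ : Type) (_ : Group Γ) (_ : Finite Γ) (z : Γ),
      z ∈ Subgroup.center Γ ∧ orderOf z = 2 ∧ z ∈ commutator Γ ∧
        ∃ π : Γ →* alternatingGroup (Fin n),
          Function.Surjective π ∧ π.ker = Subgroup.zpowers z := by
    rcases Nat.lt_or_ge n 5 with h | h
    · obtain rfl : n = 4 := by omega
      exact Cfsg.Agent.CharDeep.double_cover_four
    · obtain ⟨H, _, _, z, π, hz2, hzc, hsurj, hker, -, ⟨u, v, -, -, huv⟩, -⟩ :=
        Cfsg.Agent.SporB.DoubleCover.exists_cover n h
      refine ⟨H, inferInstance, inferInstance, z, hzc, hz2, ?_, π, hsurj, hker⟩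
      have hz : z = u * v * u⁻¹ * v⁻¹ := by
        rw [huv]; simp [mul_assoc]
      rw [hz]
      exact Subgroup.commutator_mem_commutator (Subgroup.mem_top u) (Subgroup.mem_top v)
  obtain ⟨Γ, i1, i2, z, hzc, hz2, hzd, π, hsurj, hker⟩ := key
  have hnorm : (Subgroup.zpowers z).Normal := hker ▸ MonoidHom.normal_ker π
  exact ⟨Γ, i1, i2, z, hzc, hz2, hzd, hnorm,
    ⟨(QuotientGroup.quotientMulEquivOfEq hker.symm).trans
      (QuotientGroup.quotientKerEquivOfSurjective π hsurj)⟩⟩

end Cfsg.Agent.S0891
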