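import Cfsg.Statements.S0893
import Cfsg.Agent.CharDeep.ExtraspecialChar
import Cfsg.Agent.CharInd.GenChar
import Cfsg.Agent.Char.Linear

set_option autoImplicit false
open Cfsg

namespace Cfsg.Agent.S0893

/-- Let P be an extraspecial p-group of order p ^ (2 * n + 1), A an abelian subgroup of order p ^ (n + 1), and λ a character of A of degree 1 that is not identically 1 on the elements of A lying in the centre of P. Then the function induced from λ to P is an irreducible character of P and vanishes at every element outside the centre. -/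
theorem result {P : Type*} [Group P] [Fintype P] (p n : ℕ) [Fact p.Prime] (hP : Cfsg.IsExtraspecial p P) (hcard : Nat.card P = p ^ (2 * n + 1)) (A : Subgroup P) (hab : ∀ a ∈ A, ∀ b ∈ A, a * b = b * a) (hA : Nat.card A = p ^ (n + 1)) (lam : A → ℂ) (hlam : Cfsg.IsCharacter A lam ∧ lam 1 = 1) (hZ : ∃ a : A, (a : P) ∈ Subgroup.center P ∧ lam a ≠ 1) : Cfsg.IsIrrCharacter P (Cfsg.indFun A lam) ∧ ∀ x : P, x ∉ Subgroup.center P → Cfsg.indFun A lam x = 0 := by
  classical
  obtain ⟨l, hl'⟩ := Cfsg.Agent.Char.exists_monoidHom_of_degree_one hlam.1 hlam.2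
  have hl : ∀ a : A, lam a = (l a : ℂ) := hl'
  obtain ⟨a₀, ha₀, hne⟩ := hZ
  have ha1 : (a₀ : P) ≠ 1 := fun h => hne (by rw [show a₀ = 1 from Subtype.ext h]; exact hlam.2)
  have hZA : Subgroup.center P ≤ A := by
    rw [Cfsg.Agent.PGroup.extraspecial_center_eq_zpowers hP ha₀ ha1, Subgroup.zpowers_le]
    exact a₀.2
  set f := Cfsg.indFun A lam with hf
  have hfcl : Cfsg.IsClassFunction P f := Cfsg.Agent.CharInd.indFun_isClassFunction A lam
  let w : P → ℂ := fun z => if h : z ∈ A then lam ⟨z, h⟩ else 0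
  have hw : ∀ z ∈ Subgroup.center P, ∀ x, f (z * x) = w z * f x := by
    intro z hz x
    have hzA := hZA hz
    simp only [f, w, dif_pos hzA, Cfsg.Agent.CharInd.indFun_apply]
    rw [mul_left_comm (lam ⟨z, hzA⟩)]
    congr 1
    rw [Finset.mul_sum]
    refine Finset.sum_congr rfl fun y _ => ?_
    have e : y⁻¹ * (z * x) * y = z * (y⁻¹ * x * y) := by
      rw [← mul_assoc y⁻¹ z x, Subgroup.mem_center_iff.1 hz y⁻¹]; simp [mul_assoc]
    rw [e]
    by_cases hm : y⁻¹ * x * y ∈ A
    · rw [Cfsg.Agent.CharInd.extendByZero_mem A _ hm,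
        Cfsg.Agent.CharInd.extendByZero_mem A _ (A.mul_mem hzA hm), hl, hl, hl, ← Units.val_mul,
        ← map_mul]
      rfl
    · rw [Cfsg.Agent.CharInd.extendByZero_notMem A _ hm,
        Cfsg.Agent.CharInd.extendByZero_notMem A _ (fun h => hm ?_), mul_zero]
      simpa using A.mul_mem (A.inv_mem hzA) h
  have hnorm : ∀ z ∈ Subgroup.center P, ‖w z‖ = 1 := fun z hz => by
    simp only [w, dif_pos (hZA hz), hl]
    refine Complex.norm_eq_one_of_pow_eq_one (n := Nat.card A) ?_ Nat.card_pos.ne'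
    rw [← Units.val_pow_eq_pow_val, ← map_pow, pow_card_eq_one', map_one, Units.val_one]
  have hwne : w a₀ ≠ 1 := by simpa only [w, dif_pos a₀.2] using hne
  refine ⟨?_, fun x hx => Cfsg.Agent.CharDeep.extraspecial_eq_zero hP hfcl w hw ha₀ hwne hx⟩
  have hidx : A.index = p ^ n := by
    have h := A.card_mul_index
    rw [hA, hcard, show 2 * n + 1 = n + 1 + n by omega, pow_add _ (n + 1) n] at h
    exact Nat.eq_of_mul_eq_mul_left (pow_pos (Fact.out : p.Prime).pos _) h
  have hf1 : f 1 = ((p ^ n : ℕ) : ℂ) := by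
    rw [hf, Cfsg.Agent.CharInd.indFun_one_apply, hlam.2, mul_one, hidx]
  refine Cfsg.Agent.CharInd.genChar_norm_one_pos
    (Cfsg.Agent.CharInd.genChar_indFun A (Cfsg.Agent.CharInd.genChar_of_isCharacter hlam.1)) ?_ ?_
  · have h := Cfsg.Agent.CharDeep.extraspecial_norm hP hfcl w hw hnorm ha₀ hwne
    rw [hf1, Complex.conj_natCast, hcard] at h
    have h0 : ((p ^ (2 * n + 1) : ℕ) : ℂ) ≠ 0 :=
      Nat.cast_ne_zero.2 (pow_ne_zero _ (Fact.out : p.Prime).ne_zero)
    refine mul_left_cancel₀ h0 (h.trans ?_)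
    push_cast
    ring
  · show 0 < (f 1).re
    rw [hf1, Complex.natCast_re]
    exact_mod_cast pow_pos (Fact.out : p.Prime).pos n

end Cfsg.Agent.S0893
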