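import Cfsg.Statements.S0894
import Cfsg.Agent.CharDeep.ExtraspecialChar
import Cfsg.Agent.Char.Linear

set_option autoImplicit false
open Cfsg

namespace Cfsg.Agent.S0894

/-- Let P be an extraspecial p-group of order p ^ (2 * n + 1). Then every irreducible character of P has degree 1 or p ^ n, and exactly p - 1 of them have degree p ^ n. -/
theorem result {P : Type*} [Group P] [Finite P] (p n : ℕ) [Fact p.Prime] (hP : Cfsg.IsExtraspecial p P) (hcard : Nat.card P = p ^ (2 * n + 1)) : (∀ χ : Cfsg.IrrCharacter P, (χ : P → ℂ) 1 = 1 ∨ (χ : P → ℂ) 1 = (p : ℂ) ^ n) ∧ Nat.card {χ : Cfsg.IrrCharacter P // (χ : P → ℂ) 1 = (p : ℂ) ^ n} = p - 1 := by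
  classical
  let _ : Fintype P := Fintype.ofFinite P
  have hdeg := fun χ : Cfsg.IrrCharacter P => Cfsg.Agent.CharDeep.extraspecial_degree hP hcard χ.2
  refine ⟨hdeg, ?_⟩
  have hp1 : 1 < p := (Fact.out : p.Prime).one_lt
  have hn : 1 ≤ n := by
    obtain ⟨k, hk, hk'⟩ := Cfsg.Agent.PGroup.extraspecial_exists_card hP
    have := Nat.pow_right_injective hp1 (hcard.symm.trans hk')
    omega
  have hpn : (p : ℂ) ^ n ≠ 1 := by
    intro h
    have h' : p ^ n = 1 := by exact_mod_cast h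
    have := Nat.one_lt_pow (Nat.one_le_iff_ne_zero.1 hn) hp1
    omega
  have hlin : Nat.card {χ : Cfsg.IrrCharacter P // (χ : P → ℂ) 1 = 1} = p ^ (2 * n) := by
    rw [Cfsg.Agent.Char.card_linear_irr]
    have h := (commutator P).card_mul_index
    rw [show commutator P = Subgroup.center P from hP.1.2.2, hP.2, hcard, pow_succ'] at h
    rw [show commutator P = Subgroup.center P from hP.1.2.2]
    exact Nat.eq_of_mul_eq_mul_left (Fact.out : p.Prime).pos h
  set k := Nat.card {χ : Cfsg.IrrCharacter P // (χ : P → ℂ) 1 = (p : ℂ) ^ n} with hk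
  have hsum := Cfsg.Agent.Char.sum_irr_degree_sq (G := P)
  rw [← Finset.sum_filter_add_sum_filter_not _ (fun χ : Cfsg.IrrCharacter P => (χ : P → ℂ) 1 = 1),
    Finset.sum_congr rfl (fun χ hχ => by rw [(Finset.mem_filter.1 hχ).2, one_pow] :
      ∀ χ ∈ Finset.univ.filter (fun χ : Cfsg.IrrCharacter P => (χ : P → ℂ) 1 = 1),
        ((χ : P → ℂ) 1) ^ 2 = 1),
    Finset.sum_congr rfl (fun χ hχ => by
      rw [(hdeg χ).resolve_left (Finset.mem_filter.1 hχ).2] :
      ∀ χ ∈ Finset.univ.filter (fun χ : Cfsg.IrrCharacter P => ¬ (χ : P → ℂ) 1 = 1),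
        ((χ : P → ℂ) 1) ^ 2 = ((p : ℂ) ^ n) ^ 2)] at hsum
  have e1 : (Finset.univ.filter fun χ : Cfsg.IrrCharacter P => (χ : P → ℂ) 1 = 1).card =
      p ^ (2 * n) := by
    rw [← Fintype.card_subtype, ← Nat.card_eq_fintype_card, hlin]
  have e2 : (Finset.univ.filter fun χ : Cfsg.IrrCharacter P => ¬ (χ : P → ℂ) 1 = 1).card = k := by
    rw [← Fintype.card_subtype, ← Nat.card_eq_fintype_card, hk]
    exact Nat.card_congr (Equiv.subtypeEquivRight fun χ =>
      ⟨fun h => (hdeg χ).resolve_left h, fun h h1 => hpn (h.symm.trans h1)⟩)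
  simp only [Finset.sum_const, nsmul_eq_mul, mul_one, e1, e2, hcard] at hsum
  have h' : p ^ (2 * n) + k * (p ^ n) ^ 2 = p ^ (2 * n + 1) := by exact_mod_cast hsum
  rw [← pow_mul, mul_comm n 2, pow_succ'] at h'
  have h2 : (1 + k) * p ^ (2 * n) = p * p ^ (2 * n) := by rw [add_mul, one_mul]; exact h'
  have h3 := Nat.eq_of_mul_eq_mul_right (pow_pos (Nat.lt_of_lt_of_le Nat.zero_lt_one hp1.le) _) h2
  omega

end Cfsg.Agent.S0894
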