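import Cfsg.Statements.S0895
import Cfsg.Agent.RealChar.Indicator

set_option autoImplicit false
open Cfsg

namespace Cfsg.Agent.S0895

/-- Let χ be a real-valued irreducible character of a finite group G whose degree is an odd natural number. Then the average over s in G of χ (s * s) equals 1. -/
theorem result {G : Type*} [Group G] [Fintype G] (χ : G → ℂ) (hχ : Cfsg.IsIrrCharacter G χ) (hreal : ∀ g : G, (χ g).im = 0) (d : ℕ) (hd : χ 1 = d) (hodd : Odd d) : (Nat.card G : ℂ)⁻¹ * ∑ s : G, χ (s * s) = 1 := by
  classical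
  obtain ⟨n, M, hM, hMirr⟩ := Cfsg.Agent.RealChar.exists_matrix_rep hχ
  have hn : n = d := by
    have h1 := hM 1
    rw [map_one, Matrix.trace_one, Fintype.card_fin, hd] at h1
    exact_mod_cast h1
  have hconj : ∀ g, (starRingEnd ℂ) (χ g) = χ g := fun g => Complex.conj_eq_iff_im.2 (hreal g)
  rcases Cfsg.Agent.RealChar.formProj_cases M 1 (one_mul 1) (fun h => by rw [one_mul, mul_one]) χ hχ
      (fun h => by rw [one_mul, hM]) with ⟨⟨g, hg⟩, -, -⟩ | ⟨-, c, Y, hc, hν, hY0, hYfix, hall⟩
  · exact absurd (hconj g) hg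
  · have hsum : (Nat.card G : ℂ)⁻¹ * ∑ s : G, χ (s * s) = c := by
      rw [← hν, Cfsg.Agent.RealChar.fsNu_eq_sum]
    rw [hsum]
    rcases hc with hc | hc
    · exact hc
    exfalso
    have hav : ∀ g, (M g).transpose * Y * M g = Y := by
      intro g
      conv_rhs => rw [← hYfix]
      conv_lhs => rw [← hYfix]
      rw [Cfsg.Agent.RealChar.formProj_apply, Matrix.mul_smul, Matrix.smul_mul]
      congr 1
      rw [Matrix.mul_sum, Finset.sum_mul]
      apply Fintype.sum_equiv (Equiv.mulRight g)
      intro h
      simp only [one_mul, Equiv.coe_mulRight, map_mul, Matrix.transpose_mul, Matrix.mul_assoc]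
    have hker : LinearMap.ker Y.mulVecLin = ⊥ := by
      refine (hMirr _ fun g v hv => ?_).resolve_right ?_
      · rw [LinearMap.mem_ker, Matrix.mulVecLin_apply] at hv ⊢
        have h1 : (M g).transpose.mulVec (Y.mulVec ((M g).mulVec v)) = 0 := by
          rw [Matrix.mulVec_mulVec, Matrix.mulVec_mulVec, hav, hv]
        have h2 : (M g⁻¹).transpose * (M g).transpose = 1 := by
          rw [← Matrix.transpose_mul, ← map_mul, mul_inv_cancel, map_one, Matrix.transpose_one]
        have h3 := congrArg ((M g⁻¹).transpose.mulVec) h1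
        rwa [Matrix.mulVec_mulVec, h2, Matrix.one_mulVec, Matrix.mulVec_zero] at h3
      · intro htop
        apply hY0
        exact Matrix.toLin'.injective (by
          rw [map_zero, Matrix.toLin'_apply', LinearMap.ker_eq_top.1 htop])
    have hdet : Y.det ≠ 0 := by
      intro h0
      obtain ⟨v, hv0, hv⟩ := Matrix.exists_mulVec_eq_zero_iff.2 h0
      have hmem : v ∈ LinearMap.ker Y.mulVecLin := by rw [LinearMap.mem_ker, Matrix.mulVecLin_apply, hv]
      rw [hker, Submodule.mem_bot] at hmem
      exact hv0 hmem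
    have hT : Y.transpose = -Y := by rw [hall Y hYfix, hc, neg_one_smul]
    have h2 := congrArg Matrix.det hT
    rw [Matrix.det_transpose, Matrix.det_neg, Fintype.card_fin, (hn ▸ hodd : Odd n).neg_one_pow, neg_one_mul,
      eq_neg_iff_add_eq_zero, ← two_mul] at h2
    exact hdet ((mul_eq_zero.1 h2).resolve_left two_ne_zero)

end Cfsg.Agent.S0895
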