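import Cfsg.Statements.S0897
import Cfsg.Agent.CharDeep.DadeExt

set_option autoImplicit false
open Cfsg

namespace Cfsg.Agent.S0897

/-- Let N be a normal subgroup of the finite group G with the index of N a power of the prime p, and P a Sylow p-subgroup of G such that P ⊓ N lies in the centre of P and every character of degree 1 of P ⊓ N is the restriction of a character of degree 1 of P. Then every irreducible character of N invariant under conjugation by G is the restriction of an irreducible character of G. -/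
theorem result {G : Type*} [Group G] [Fintype G] (p : ℕ) [Fact p.Prime] (N : Subgroup G) [hN : N.Normal] (hind : ∃ k : ℕ, N.index = p ^ k) (P : Sylow p G) (hcent : ∀ x ∈ (P : Subgroup G) ⊓ N, ∀ y ∈ (P : Subgroup G), x * y = y * x) (hlin : ∀ lam : ↥((P : Subgroup G) ⊓ N) → ℂ, Cfsg.IsCharacter ↥((P : Subgroup G) ⊓ N) lam → lam 1 = 1 → ∃ μ : ↥(P : Subgroup G) → ℂ, Cfsg.IsCharacter ↥(P : Subgroup G) μ ∧ μ 1 = 1 ∧ ∀ x : ↥((P : Subgroup G) ⊓ N), μ ⟨(x : G), x.2.1⟩ = lam x) (ϑ : N → ℂ) (hϑ : Cfsg.IsIrrCharacter N ϑ) (hinv : ∀ (g : G) (n : N), ϑ ⟨g * n * g⁻¹, hN.conj_mem (n : G) n.2 g⟩ = ϑ n) : ∃ χ : G → ℂ, Cfsg.IsIrrCharacter G χ ∧ ∀ n : N, χ n = ϑ n := by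
  classical
  have hp := (Fact.out : p.Prime)
  obtain ⟨k, hk⟩ := hind
  haveI : Fintype N := Fintype.ofFinite N
  obtain ⟨E, φ, m, hE, hEN, -, hm, hinner⟩ :=
    Cfsg.Agent.CharDeep.dade_detection hp N hk hϑ (fun g n _ => hinv g n)
  haveI : Fintype ↥(E ⊓ N) := Fintype.ofFinite _
  obtain ⟨x, hxc, hxcop, j, hj⟩ := hE
  obtain ⟨Q⟩ : Nonempty (Sylow p E) := inferInstance
  -- the decomposition of `E`
  have hxQ : ∀ (z : Subgroup.zpowers x) (u : (Q : Subgroup E)), Commute (z : E) (u : E) := by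
    intro z u
    obtain ⟨i, hi⟩ := Subgroup.mem_zpowers_iff.1 z.2
    rw [← hi]
    exact Commute.zpow_left (Subgroup.mem_center_iff.1 hxc (u : E)).symm i
  let Φ : Subgroup.zpowers x × (Q : Subgroup E) →* E :=
    (Subgroup.zpowers x).subtype.noncommCoprod (Q : Subgroup E).subtype hxQ
  have hcardQ : Nat.card (Q : Subgroup E) = p ^ j := by
    obtain ⟨i, hi⟩ := IsPGroup.iff_card.1 Q.isPGroup'
    have h1 := (Subgroup.zpowers x).card_mul_index
    rw [Nat.card_zpowers, hj] at h1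
    refine Nat.dvd_antisymm ?_ (Q.pow_dvd_card_of_pow_dvd_card (h1 ▸ dvd_mul_left _ _))
    have h2 : p ^ i ∣ orderOf x * p ^ j := h1 ▸ hi ▸ Subgroup.card_subgroup_dvd_card _
    rw [hi]
    exact Nat.Coprime.dvd_of_dvd_mul_left (Nat.Coprime.pow_left i hxcop.symm) h2
  have hΦ : Function.Bijective Φ := by
    rw [Nat.bijective_iff_injective_and_card]
    refine ⟨(injective_iff_map_eq_one Φ).2 ?_, ?_⟩
    · rintro ⟨z, u⟩ h
      have hzu : (z : E) * (u : E) = 1 := h
      have h1 : orderOf (z : E) ∣ orderOf x := by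
        obtain ⟨i, hi⟩ := Subgroup.mem_zpowers_iff.1 z.2
        rw [← hi]
        exact orderOf_dvd_of_pow_eq_one (by
          rw [← zpow_natCast, ← zpow_mul, mul_comm, zpow_mul, zpow_natCast, pow_orderOf_eq_one,
            one_zpow])
      have h2 : orderOf (z : E) ∣ p ^ j := by
        rw [eq_inv_of_mul_eq_one_left hzu, orderOf_inv, ← hcardQ, Subgroup.orderOf_coe u]
        exact orderOf_dvd_natCard u
      have hz : (z : E) = 1 := orderOf_eq_one_iff.1
        (Nat.eq_one_of_dvd_coprimes (Nat.Coprime.pow_right j hxcop) h1 h2)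
      have hu : (u : E) = 1 := by rwa [hz, one_mul] at hzu
      exact Prod.ext (Subtype.ext hz) (Subtype.ext hu)
    · rw [Nat.card_prod, Nat.card_zpowers, hcardQ, ← (Subgroup.zpowers x).card_mul_index,
        Nat.card_zpowers, hj]
  have hxN : (x : G) ∈ N := by
    rw [← QuotientGroup.eq_one_iff, ← orderOf_eq_one_iff]
    refine Nat.eq_one_of_dvd_coprimes (Nat.Coprime.pow_right k hxcop) ?_ ?_
    · exact orderOf_dvd_of_pow_eq_one (by
        rw [← QuotientGroup.mk_pow, ← Subgroup.orderOf_coe x, pow_orderOf_eq_one,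
          QuotientGroup.mk_one])
    · rw [← hk]
      exact orderOf_dvd_natCard _
  have hzN : ∀ z : Subgroup.zpowers x, ((z : E) : G) ∈ N := fun z => by
    obtain ⟨i, hi⟩ := Subgroup.mem_zpowers_iff.1 z.2
    rw [← hi, Subgroup.coe_zpow]
    exact N.zpow_mem hxN i
  -- the Sylow part inside a conjugate of `P`
  obtain ⟨g, hg⟩ : ∃ g : G, ∀ u : (Q : Subgroup E), g⁻¹ * ((u : E) : G) * g ∈ (P : Subgroup G) := by
    obtain ⟨S, hS⟩ := (Q.isPGroup'.map E.subtype).exists_le_sylow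
    obtain ⟨g, hg⟩ := MulAction.exists_smul_eq G P S
    refine ⟨g, fun u => ?_⟩
    have hu : ((u : E) : G) ∈ (S : Subgroup G) := hS (Subgroup.mem_map_of_mem E.subtype u.2)
    rw [← hg] at hu
    obtain ⟨y, hy, e⟩ := hu
    rw [← e]
    show g⁻¹ * (g * y * g⁻¹) * g ∈ (P : Subgroup G)
    rw [show g⁻¹ * (g * y * g⁻¹) * g = y by group]
    exact hy
  let γ : (Q : Subgroup E) →* (P : Subgroup G) :=
    { toFun := fun u => ⟨g⁻¹ * ((u : E) : G) * g, hg u⟩
      map_one' := Subtype.ext (by simp)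
      map_mul' := fun u v => Subtype.ext (by simp [mul_assoc]) }
  have hdec : ∀ (d : E), (d : G) ∈ N → ∀ z : Subgroup.zpowers x, ∀ u : (Q : Subgroup E),
      Φ (z, u) = d → g⁻¹ * ((u : E) : G) * g ∈ (P : Subgroup G) ⊓ N := by
    intro d hd z u h
    refine ⟨hg u, ?_⟩
    have hu : ((u : E) : G) ∈ N := by
      have e : ((u : E) : G) = (((z : E) : G))⁻¹ * (d : G) := by
        rw [← h]
        show _ = _ * (((z : E) : G) * ((u : E) : G))
        rw [inv_mul_cancel_left]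
      rw [e]
      exact N.mul_mem (N.inv_mem (hzN z)) hd
    simpa using hN.conj_mem _ hu g⁻¹
  have hcen : ∀ d ∈ E ⊓ N, ∀ e ∈ E, e * d = d * e := by
    intro d hd e he
    obtain ⟨⟨z, u⟩, hzu⟩ := hΦ.2 ⟨d, hd.1⟩
    obtain ⟨⟨w, v⟩, hwv⟩ := hΦ.2 ⟨e, he⟩
    have huv : (v : E) * (u : E) = (u : E) * (v : E) := by
      have h1 := hcent _ (hdec _ hd.2 z u hzu) _ (hg v)
      apply Subtype.ext
      show ((v : E) : G) * ((u : E) : G) = ((u : E) : G) * ((v : E) : G)
      have h2 := congrArg (fun y => g * y * g⁻¹) h1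
      simp only [mul_assoc, mul_inv_cancel_left, mul_inv_cancel, mul_one] at h2
      exact h2.symm
    have h3 : Φ ((w, v) * (z, u)) = Φ ((z, u) * (w, v)) := by
      congr 1
      refine Prod.ext ?_ (Subtype.ext huv)
      obtain ⟨i, hi⟩ := Subgroup.mem_zpowers_iff.1 w.2
      obtain ⟨i', hi'⟩ := Subgroup.mem_zpowers_iff.1 z.2
      apply Subtype.ext
      show (w : E) * (z : E) = (z : E) * (w : E)
      rw [← hi, ← hi']
      exact (Commute.zpow_zpow_self x i i').eq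
    rw [map_mul, map_mul, hzu, hwv] at h3
    exact congrArg Subtype.val h3
  -- the linear character and its extension
  obtain ⟨f, hf⟩ := Cfsg.Agent.Char.irr_exists_monoidHom_of_comm
    (fun a b : ↥(E ⊓ N) => Subtype.ext (hcen b b.2 a a.2.1)) φ.2
  let QN : Subgroup (Q : Subgroup E) := N.comap (E.subtype.comp (Q : Subgroup E).subtype)
  letI : CommGroup ↥((P : Subgroup G) ⊓ N) :=
    { (inferInstance : Group ↥((P : Subgroup G) ⊓ N)) with
      mul_comm := fun a b => Subtype.ext (hcent a a.2 b b.2.1) }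
  let γN : QN →* ↥((P : Subgroup G) ⊓ N) :=
    { toFun := fun u => ⟨g⁻¹ * (((u : (Q : Subgroup E)) : E) : G) * g,
        hg u, by simpa using hN.conj_mem _ u.2 g⁻¹⟩
      map_one' := Subtype.ext (by simp)
      map_mul' := fun u v => Subtype.ext (by simp [mul_assoc]) }
  have hγN : Function.Injective γN := fun u v h => by
    have h' : g⁻¹ * (((u : (Q : Subgroup E)) : E) : G) * g =
        g⁻¹ * (((v : (Q : Subgroup E)) : E) : G) * g := congrArg Subtype.val h
    exact Subtype.ext (Subtype.ext (Subtype.ext (mul_left_cancel (mul_right_cancel h'))))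
  let ιQ : QN →* ↥(E ⊓ N) :=
    { toFun := fun u => ⟨(((u : (Q : Subgroup E)) : E) : G), ((u : (Q : Subgroup E)) : E).2, u.2⟩
      map_one' := rfl
      map_mul' := fun _ _ => rfl }
  obtain ⟨ν, hν⟩ := Cfsg.Agent.CharDeep.exists_hom_extension γN hγN (f.comp ιQ)
  obtain ⟨μP, hμPc, hμP1, hμP⟩ := hlin (fun a => (ν a : ℂ))
    (Cfsg.Agent.Char.isCharacter_of_irr (Cfsg.Agent.Char.isIrrCharacter_monoidHom ν)) (by simp)
  obtain ⟨μh, hμh⟩ := Cfsg.Agent.Char.exists_monoidHom_of_degree_one hμPc hμP1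
  let fZ : Subgroup.zpowers x →* ℂˣ :=
    f.comp { toFun := fun z => (⟨((z : E) : G), (z : E).2, hzN z⟩ : ↥(E ⊓ N))
             map_one' := rfl
             map_mul' := fun _ _ => rfl }
  let Φe := MulEquiv.ofBijective Φ hΦ
  let μ : E →* ℂˣ := (fZ.coprod (μh.comp γ)).comp Φe.symm.toMonoidHom
  have hμf : ∀ d : ↥(E ⊓ N), μ ⟨d, d.2.1⟩ = f d := by
    intro d
    obtain ⟨⟨z, u⟩, hzu⟩ := hΦ.2 ⟨d, d.2.1⟩
    have h1 : Φe.symm ⟨d, d.2.1⟩ = (z, u) := Φe.symm_apply_eq.2 hzu.symm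
    show fZ (Φe.symm ⟨d, d.2.1⟩).1 * μh (γ (Φe.symm ⟨d, d.2.1⟩).2) = f d
    rw [h1]
    have hmem := hdec _ d.2.2 z u hzu
    have hu : u ∈ QN := by
      show ((u : E) : G) ∈ N
      have := hN.conj_mem _ hmem.2 g
      simpa [mul_assoc] using this
    have h2 : μh (γ u) = f (ιQ ⟨u, hu⟩) := by
      apply Units.ext
      rw [← MonoidHom.comp_apply f ιQ, ← hν, MonoidHom.comp_apply]
      show ((μh (γ u) : ℂˣ) : ℂ) = (ν (γN ⟨u, hu⟩) : ℂ)
      exact (hμh _).symm.trans (hμP (γN ⟨u, hu⟩))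
    rw [h2]
    show f _ * f _ = f d
    rw [← map_mul]
    refine congrArg f (Subtype.ext ?_)
    show ((z : E) : G) * ((u : E) : G) = d
    exact congrArg Subtype.val hzu
  obtain ⟨l, ρ, hρ, hρc⟩ := id hϑ
  haveI := hρ
  have hinv' : ∀ (a : G) (n : N),
      ρ.character (Cfsg.Agent.CharExt.cj N a n) = ρ.character n := fun a n => by
    rw [hρc]; exact hinv a n
  obtain ⟨F, hF, hFN⟩ := Cfsg.Agent.CharDeep.exists_hom_mult N ρ hinv' E hEN hcen μ m (by
    rw [← hinner, hρc]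
    congr 1
    funext d
    rw [hμf, hf])
  obtain ⟨σ, hσ⟩ := Cfsg.Agent.CharDeep.exists_extension_of_mult N ρ hinv' hF hFN
    (hk ▸ Nat.Coprime.pow_right k (((Nat.Prime.coprime_iff_not_dvd hp).2 hm).symm))
  refine ⟨σ.character, ⟨l, σ, Cfsg.Agent.CharExt.isIrreducible_of_restrict N σ ρ hσ, rfl⟩,
    fun n => ?_⟩
  rw [← hρc]
  show LinearMap.trace ℂ _ (σ n) = LinearMap.trace ℂ _ (ρ n)
  rw [hσ]

end Cfsg.Agent.S0897
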