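import Cfsg.Statements.S0899
import Cfsg.Agent.CharDeep.NormalSylow

set_option autoImplicit false
open Cfsg

namespace Cfsg.Agent.S0899

/-- Let G be a finite group with a faithful complex representation of degree n (on Fin n → ℂ) and p a prime. Suppose either that (n + 1) ^ 2 ≤ p, or that n + 1 < p and every subgroup of G whose order is not divisible by p ^ 2 has a normal Sylow p-subgroup. Then every Sylow p-subgroup of G is normal. -/
theorem result {G : Type*} [Group G] [Finite G] (n : ℕ) (ρ : Representation ℂ G (Fin n → ℂ)) (hρ : Function.Injective ρ) (p : ℕ) [Fact p.Prime] (h : (n + 1) ^ 2 ≤ p ∨ (n + 1 < p ∧ ∀ K : Subgroup G, ¬ p ^ 2 ∣ Nat.card K → ∀ Q : Sylow p K, (Q : Subgroup K).Normal)) (P : Sylow p G) : (P : Subgroup G).Normal := by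
  classical
  have hχ : Cfsg.IsCharacter G ρ.character := ⟨n, ρ, rfl⟩
  refine Cfsg.Agent.CharDeep.normal_sylow_of_small_degree (Nat.card G) rfl ρ.character hχ ?_ n ?_ ?_ P
  · intro g hg
    apply hρ
    rw [map_one, ← Cfsg.Agent.Char.character_eq_degree_iff, hg, ρ.char_one]
  · simp
  · exact h

end Cfsg.Agent.S0899
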