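import Cfsg.Statements.S0900
import Cfsg.Agent.CharInd.Clifford
import Cfsg.Agent.CharInd.GenChar

set_option autoImplicit false
open Cfsg

namespace Cfsg.Agent.S0900

/-- Let N be a normal subgroup of the finite group G, χ an irreducible character of G and ϑ an irreducible character of N having nonzero inner product with the restriction of χ. Consider: (a) the restriction of χ to N is e • ϑ for a natural number e with e ^ 2 equal to the index of N; (b) χ vanishes outside N and ϑ is invariant under conjugation by G; (c) ϑ is invariant and every irreducible character of G having nonzero inner product with the function induced from ϑ equals χ. Then (a) ↔ (b) and (a) ↔ (c). -/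
theorem result {G : Type*} [Group G] [Fintype G] (N : Subgroup G) [hN : N.Normal] [Fintype N] (χ : G → ℂ) (hχ : Cfsg.IsIrrCharacter G χ) (ϑ : N → ℂ) (hϑ : Cfsg.IsIrrCharacter N ϑ) (hcon : Cfsg.classInner (fun n : N => χ n) ϑ ≠ 0) : ((∃ e : ℕ, (fun n : N => χ n) = (e : ℂ) • ϑ ∧ e ^ 2 = N.index) ↔ ((∀ g : G, g ∉ N → χ g = 0) ∧ ∀ (g : G) (n : N), ϑ ⟨g * n * g⁻¹, hN.conj_mem (n : G) n.2 g⟩ = ϑ n)) ∧ ((∃ e : ℕ, (fun n : N => χ n) = (e : ℂ) • ϑ ∧ e ^ 2 = N.index) ↔ (∀ (g : G) (n : N), ϑ ⟨g * n * g⁻¹, hN.conj_mem (n : G) n.2 g⟩ = ϑ n ∧ ∀ ψ : G → ℂ, Cfsg.IsIrrCharacter G ψ → Cfsg.classInner (Cfsg.indFun N ϑ) ψ ≠ 0 → ψ = χ)) := by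
  classical
  have hχc := Cfsg.Agent.Char.irr_isClassFunction hχ
  have hres : Cfsg.IsCharacter N (fun n : N => χ n) :=
    Cfsg.Agent.CharInd.isCharacter_res N (Cfsg.Agent.Char.isCharacter_of_irr hχ)
  obtain ⟨e, he⟩ := Cfsg.Agent.Char.isCharacter_classInner_nat hres ⟨ϑ, hϑ⟩
  change Cfsg.classInner (fun n : N => χ n) ϑ = (e : ℂ) at he
  have he0 : (e : ℂ) ≠ 0 := he ▸ hcon
  have hind : Cfsg.IsCharacter G (Cfsg.indFun N ϑ) :=
    Cfsg.Agent.CharInd.isCharacter_indFun N (Cfsg.Agent.Char.isCharacter_of_irr hϑ)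
  obtain ⟨m, hm, hm'⟩ := Cfsg.Agent.Char.isCharacter_exists_coeff hind
  have hmχ : m ⟨χ, hχ⟩ = e := by
    have h1 := hm' ⟨χ, hχ⟩
    rw [Cfsg.Agent.CharInd.classInner_indFun_left N ϑ hχc, ← Cfsg.Agent.CharInd.classInner_swap,
      he, Complex.conj_natCast] at h1
    exact_mod_cast h1.symm
  have hnorm : (∀ (g : G) (n : N), ϑ ⟨g * n * g⁻¹, hN.conj_mem (n : G) n.2 g⟩ = ϑ n) →
      (fun n : N => χ n) = (e : ℂ) • ϑ ∧ ∑ ψ, m ψ * m ψ = N.index := by
    intro hinv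
    have hc : ∀ x : G, Cfsg.Agent.CharInd.conjChar N x ϑ = ϑ := fun x => funext fun n => hinv x n
    constructor
    · have h := Cfsg.Agent.CharInd.clifford N hχ hϑ hcon
      have hcl : Cfsg.Agent.CharInd.conjClass N ϑ = {ϑ} := by
        ext ψ
        simp [Cfsg.Agent.CharInd.mem_conjClass, hc]
      rw [hcl, Finset.sum_singleton, he] at h
      exact h
    · have h1 : (Nat.card N : ℂ) * Cfsg.classInner (Cfsg.indFun N ϑ) (Cfsg.indFun N ϑ) =
          (Nat.card G : ℂ) := by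
        rw [Cfsg.Agent.CharInd.card_mul_classInner_indFun_normal]
        simp only [hc, Cfsg.Agent.Char.classInner_irr_self hϑ, Finset.sum_const, Finset.card_univ,
          nsmul_eq_mul, mul_one, Nat.card_eq_fintype_card]
      have h2 : Cfsg.classInner (Cfsg.indFun N ϑ) (Cfsg.indFun N ϑ) = ((∑ ψ, m ψ * m ψ : ℕ) : ℂ) := by
        conv_lhs => arg 1; rw [hm]
        rw [Cfsg.Agent.Char.classInner_sum_left]
        push_cast
        refine Finset.sum_congr rfl fun ψ _ => ?_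
        rw [← Nat.cast_smul_eq_nsmul ℂ, Cfsg.Agent.Char.classInner_smul_left,
          ← Cfsg.Agent.CharInd.classInner_swap, hm', Complex.conj_natCast]
      rw [h2, ← N.card_mul_index] at h1
      have h3 : Nat.card N * ∑ ψ, m ψ * m ψ = Nat.card N * N.index := by exact_mod_cast h1
      exact Nat.eq_of_mul_eq_mul_left Nat.card_pos h3
  have hvan : ∀ g, g ∉ N → Cfsg.indFun N ϑ g = 0 := fun g hg =>
    Cfsg.Agent.CharInd.indFun_normal_notMem N ϑ hg
  have inv_of : ∀ k : ℕ, (fun n : N => χ n) = (k : ℂ) • ϑ → k ^ 2 = N.index →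
      (∀ (g : G) (n : N), ϑ ⟨g * n * g⁻¹, hN.conj_mem (n : G) n.2 g⟩ = ϑ n) ∧
        m ⟨χ, hχ⟩ = k := by
    intro k hk hk2
    have hk0 : (k : ℂ) ≠ 0 := by
      refine Nat.cast_ne_zero.2 fun h => ?_
      rw [h] at hk2
      exact N.index_ne_zero_of_finite (by simpa using hk2.symm)
    refine ⟨fun g n => ?_, ?_⟩
    · refine mul_left_cancel₀ hk0 ?_
      have h1 := congrFun hk ⟨g * n * g⁻¹, hN.conj_mem (n : G) n.2 g⟩
      have h2 := congrFun hk n
      simp only [Pi.smul_apply, smul_eq_mul] at h1 h2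
      rw [← h1, ← h2]
      exact hχc n g
    · have h1 := he
      rw [hk, Cfsg.Agent.Char.classInner_smul_left, Cfsg.Agent.Char.classInner_irr_self hϑ,
        mul_one] at h1
      have h2 : k = e := by exact_mod_cast h1
      rw [h2, hmχ]
  have fwd : (∃ k : ℕ, (fun n : N => χ n) = (k : ℂ) • ϑ ∧ k ^ 2 = N.index) →
      (∀ (g : G) (n : N), ϑ ⟨g * n * g⁻¹, hN.conj_mem (n : G) n.2 g⟩ = ϑ n) ∧
      ∀ ψ : Cfsg.IrrCharacter G, (ψ : G → ℂ) ≠ χ → m ψ = 0 := by
    rintro ⟨k, hk, hk2⟩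
    obtain ⟨hinv, hmk⟩ := inv_of k hk hk2
    refine ⟨hinv, fun ψ hψ => ?_⟩
    have hs := (hnorm hinv).2
    have hne : ψ ≠ ⟨χ, hχ⟩ := fun h => hψ (congrArg Subtype.val h)
    rw [← Finset.add_sum_erase _ _ (Finset.mem_univ (⟨χ, hχ⟩ : Cfsg.IrrCharacter G)), hmk,
      ← pow_two, hk2, add_eq_left, Finset.sum_eq_zero_iff] at hs
    have := hs ψ (Finset.mem_erase.2 ⟨hne, Finset.mem_univ _⟩)
    simpa using this
  have ind_eq : (∀ ψ : Cfsg.IrrCharacter G, (ψ : G → ℂ) ≠ χ → m ψ = 0) →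
      Cfsg.indFun N ϑ = e • χ := by
    intro h
    rw [hm, Finset.sum_eq_single (⟨χ, hχ⟩ : Cfsg.IrrCharacter G), hmχ]
    · intro ψ _ hne
      rw [h ψ (fun hh => hne (Subtype.ext hh)), zero_nsmul]
    · exact fun h => absurd (Finset.mem_univ _) h
  refine ⟨⟨fun ha => ?_, fun hb => ?_⟩, ⟨fun ha => ?_, fun hc => ?_⟩⟩
  · obtain ⟨hinv, hz⟩ := fwd ha
    refine ⟨fun g hg => ?_, hinv⟩
    have h1 := hvan g hg
    rw [ind_eq hz, Pi.smul_apply, nsmul_eq_mul] at h1
    exact (mul_eq_zero.1 h1).resolve_left he0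
  · obtain ⟨hv, hinv⟩ := hb
    obtain ⟨hχN, -⟩ := hnorm hinv
    refine ⟨e, hχN, ?_⟩
    have h1 : (Nat.card G : ℂ) = (Nat.card N : ℂ) * (e : ℂ) ^ 2 := by
      have hG := Cfsg.Agent.CharInd.classInner_congr_card (φ := χ) (ψ := χ)
      rw [Cfsg.Agent.Char.classInner_irr_self hχ, mul_one] at hG
      have hN' := Cfsg.Agent.CharInd.classInner_congr_card (φ := fun n : N => χ n)
        (ψ := fun n : N => χ n)
      rw [hχN, Cfsg.Agent.Char.classInner_smul_left, Cfsg.Agent.Char.classInner_smul_right,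
        Cfsg.Agent.Char.classInner_irr_self hϑ, Complex.conj_natCast, mul_one, ← pow_two] at hN'
      rw [hG, hN', ← Finset.sum_subset (Finset.subset_univ (Finset.univ.filter fun x : G => x ∈ N))
        (fun x _ hx => by rw [hv x (fun h => hx (by simp [h])), zero_mul])]
      rw [Finset.sum_subtype (p := fun x : G => x ∈ N) _ (by simp)]
    rw [← N.card_mul_index] at h1
    have h2 : Nat.card N * N.index = Nat.card N * e ^ 2 := by exact_mod_cast h1
    exact (Nat.eq_of_mul_eq_mul_left Nat.card_pos h2).symm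
  · obtain ⟨hinv, hz⟩ := fwd ha
    intro g n
    refine ⟨hinv g n, fun ψ hψ hne => ?_⟩
    by_contra h
    apply hne
    have := hm' ⟨ψ, hψ⟩
    rw [hz ⟨ψ, hψ⟩ h, Nat.cast_zero] at this
    exact this
  · have hinv : ∀ (g : G) (n : N), ϑ ⟨g * n * g⁻¹, hN.conj_mem (n : G) n.2 g⟩ = ϑ n :=
      fun g n => (hc g n).1
    obtain ⟨hχN, hs⟩ := hnorm hinv
    refine ⟨e, hχN, ?_⟩
    have hz : ∀ ψ : Cfsg.IrrCharacter G, (ψ : G → ℂ) ≠ χ → m ψ = 0 := by
      intro ψ hψ
      by_contra h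
      refine hψ ((hc 1 1).2 ψ ψ.2 ?_)
      rw [hm' ψ]
      exact_mod_cast h
    rw [← hs, Finset.sum_eq_single (⟨χ, hχ⟩ : Cfsg.IrrCharacter G), hmχ, pow_two]
    · intro ψ _ hne
      rw [hz ψ (fun hh => hne (Subtype.ext hh)), mul_zero]
    · exact fun h => absurd (Finset.mem_univ _) h

end Cfsg.Agent.S0900
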