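import Cfsg.Statements.S0901
import Cfsg.Agent.Block.Residue

set_option autoImplicit false
open Cfsg

namespace Cfsg.Agent.S0901

/-- Let M be a maximal ideal of the ring of algebraic integers containing the prime p, and let U be the set of complex roots of unity of order prime to p. Then reduction modulo M is injective on U, and every algebraic integer not in M is congruent modulo M to an element of U (so U maps bijectively onto the nonzero residues). -/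
theorem result (p : ℕ) [Fact p.Prime] (M : Ideal Cfsg.AlgInt) (hM : Cfsg.IsPModular p M) : (∀ ε₁ ε₂ : Cfsg.AlgInt, (∃ m : ℕ, ¬ p ∣ m ∧ (ε₁ : ℂ) ^ m = 1) → (∃ m : ℕ, ¬ p ∣ m ∧ (ε₂ : ℂ) ^ m = 1) → ε₁ - ε₂ ∈ M → ε₁ = ε₂) ∧ (∀ a : Cfsg.AlgInt, a ∉ M → ∃ ε : Cfsg.AlgInt, (∃ m : ℕ, ¬ p ∣ m ∧ (ε : ℂ) ^ m = 1) ∧ a - ε ∈ M) := by
  haveI := hM.2.1.isPrime
  refine ⟨fun ε₁ ε₂ h₁ h₂ h => ?_, fun a ha => ?_⟩
  · obtain ⟨m₁, hm₁, e₁⟩ := h₁
    obtain ⟨m₂, hm₂, e₂⟩ := h₂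
    have e₁' : ε₁ ^ m₁ = 1 := Subtype.ext (by simpa using e₁)
    have e₂' : ε₂ ^ m₂ = 1 := Subtype.ext (by simpa using e₂)
    have hm20 : m₂ ≠ 0 := fun h0 => hm₂ (by simp [h0])
    obtain ⟨k, rfl⟩ : ∃ k, m₂ = k + 1 := ⟨m₂ - 1, by omega⟩
    have hinv : ε₂ * ε₂ ^ k = 1 := by rw [← pow_succ', e₂']
    have hone : ε₁ * ε₂ ^ k = 1 := by
      refine Agent.Block.eq_one_of_rootOfUnity_sub_one_mem hM (m := m₁ * (k + 1))
        ((Fact.out : p.Prime).not_dvd_mul hm₁ hm₂) ?_ ?_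
      · rw [mul_pow, ← pow_mul ε₂, show k * (m₁ * (k + 1)) = (k + 1) * (k * m₁) by ring,
          pow_mul ε₁, e₁', one_pow, pow_mul ε₂, e₂', one_pow, mul_one]
      · rw [← hinv, ← sub_mul]
        exact M.mul_mem_right _ h
    calc ε₁ = ε₁ * (ε₂ * ε₂ ^ k) := by rw [hinv, mul_one]
      _ = (ε₁ * ε₂ ^ k) * ε₂ := by ring
      _ = ε₂ := by rw [hone, one_mul]
  · obtain ⟨ε, ⟨m, hm, he⟩, h⟩ := Agent.Block.exists_rootOfUnity_sub_mem hM ha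
    exact ⟨ε, ⟨m, hm, by simpa using congrArg Subtype.val he⟩, h⟩

end Cfsg.Agent.S0901
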