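import Cfsg.Statements.S0903
import Mathlib.GroupTheory.PGroup

set_option autoImplicit false

open Cfsg

namespace Cfsg.Agent.S0903

/-- Let P be a p-subgroup of the finite group G, let c centralize P and let g, h ∈ G. The number of pairs (x, y) with x conjugate to g, y conjugate to h and x * y = c is congruent modulo p to the number of such pairs in which x and y both centralize P. (This is why the Brauer map on class sums is multiplicative.) -/
theorem result {G : Type*} [Group G] [Finite G] (p : ℕ) [Fact p.Prime] (P : Subgroup G) (hP : IsPGroup p P) (c : G) (hc : c ∈ Subgroup.centralizer (P : Set G)) (g h : G) : Nat.card {xy : G × G // IsConj g xy.1 ∧ IsConj h xy.2 ∧ xy.1 * xy.2 = c} ≡ Nat.card {xy : G × G // IsConj g xy.1 ∧ IsConj h xy.2 ∧ xy.1 * xy.2 = c ∧ xy.1 ∈ Subgroup.centralizer (P : Set G) ∧ xy.2 ∈ Subgroup.centralizer (P : Set G)} [MOD p] := by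
  let T := {xy : G × G // IsConj g xy.1 ∧ IsConj h xy.2 ∧ xy.1 * xy.2 = c}
  have hconj : ∀ a x u : G, IsConj a x → IsConj a (u * x * u⁻¹) :=
    fun a x u hx => hx.trans (isConj_iff.2 ⟨u, rfl⟩)
  have hcu : ∀ u : P, (u : G) * c * (u : G)⁻¹ = c := fun u => by rw [hc u u.2]; simp
  letI : MulAction P T :=
    { smul := fun u t => ⟨((u : G) * t.1.1 * (u : G)⁻¹, (u : G) * t.1.2 * (u : G)⁻¹),
        hconj _ _ _ t.2.1, hconj _ _ _ t.2.2.1, by
          rw [show (u : G) * t.1.1 * (u : G)⁻¹ * ((u : G) * t.1.2 * (u : G)⁻¹) =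
            (u : G) * (t.1.1 * t.1.2) * (u : G)⁻¹ by group, t.2.2.2, hcu]⟩
      one_smul := fun t => Subtype.ext (Prod.ext (by simp [HSMul.hSMul]) (by simp [HSMul.hSMul]))
      mul_smul := fun u v t => Subtype.ext (Prod.ext
        (by simp [HSMul.hSMul, mul_assoc]) (by simp [HSMul.hSMul, mul_assoc])) }
  have hmem : ∀ x : G, (∀ u : P, (u : G) * x * (u : G)⁻¹ = x) ↔
      x ∈ Subgroup.centralizer (P : Set G) := fun x =>
    ⟨fun hx u hu => mul_inv_eq_iff_eq_mul.1 (hx ⟨u, hu⟩), fun hx u => by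
      rw [hx u u.2]; simp⟩
  refine (hP.card_modEq_card_fixedPoints T).trans (congrArg (· % p) (Nat.card_congr
    { toFun := fun t => ⟨t.1.1, t.1.2.1, t.1.2.2.1, t.1.2.2.2,
        (hmem _).1 fun u => congrArg (fun s : T => s.1.1) (t.2 u),
        (hmem _).1 fun u => congrArg (fun s : T => s.1.2) (t.2 u)⟩
      invFun := fun t => ⟨⟨t.1, t.2.1, t.2.2.1, t.2.2.2.1⟩, fun u =>
        Subtype.ext (Prod.ext ((hmem _).2 t.2.2.2.2.1 u) ((hmem _).2 t.2.2.2.2.2 u))⟩
      left_inv := fun _ => rfl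
      right_inv := fun _ => rfl }))

end Cfsg.Agent.S0903
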