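import Cfsg.Statements.S0905
import Cfsg.Agent.Block.Restrict
import Cfsg.Agent.Cores.Basic

set_option autoImplicit false

open Cfsg

namespace Cfsg.Agent.S0905

open Cfsg.Agent.Block

/-- Let F be a field of characteristic p and let g be an element of the finite group G no conjugate of which centralizes O_p(G). Then the class sum of g is a nilpotent element of the group algebra F[G]. -/
theorem result {G : Type*} [Group G] [Finite G] (p : ℕ) [Fact p.Prime] (F : Type*) [Field F] [CharP F p] (g : G) (hg : ∀ x : G, IsConj g x → x ∉ Subgroup.centralizer (Cfsg.pCore p G : Set G)) : IsNilpotent (∑ᶠ x ∈ ConjClasses.carrier (ConjClasses.mk g), MonoidAlgebra.single x (1 : F) : MonoidAlgebra F G) := by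
  classical
  haveI := Fintype.ofFinite G
  have hP : IsPGroup p (Cfsg.pCore p G) := Cores.pCore_isPGroup
  have heq : (∑ᶠ x ∈ ConjClasses.carrier (ConjClasses.mk g), MonoidAlgebra.single x (1 : F)) =
      classSum F g := by
    rw [finsum_mem_eq_toFinset_sum]
    apply groupAlgebra_ext
    intro y
    rw [coeff_classSum, MonoidAlgebra.coeff_sum, Finset.sum_apply']
    simp only [MonoidAlgebra.coeff_single, Finsupp.single_apply, Finset.sum_ite_eq',
      Set.mem_toFinset, ConjClasses.mem_carrier_iff_mk_eq, ConjClasses.mk_eq_mk_iff_isConj]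
    congr 1
    exact propext isConj_comm
  rw [heq]
  refine isNilpotent_of_trunc_eq_zero hP ((classSum_isCentralElt g).isInvariant _) ?_
  apply groupAlgebra_ext
  intro y
  by_cases hy : y ∈ Subgroup.centralizer (Cfsg.pCore p G : Set G)
  · rw [coeff_trunc_of_mem _ hy, coeff_classSum, if_neg fun h => hg y h hy]
    simp
  · rw [coeff_trunc_of_notMem _ hy]
    simp

end Cfsg.Agent.S0905
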