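import Cfsg.Statements.S0911
import Cfsg.Agent.Block.DefectGroup
-- import your own Cfsg.Agent.* helpers here

set_option autoImplicit false
open Cfsg

namespace Cfsg.Agent.S0911

open Cfsg.Agent.Block

/-- The min–max Theorem for defect classes. Let B be a block of the finite group G relative to a maximal ideal M of the algebraic integers containing the prime p, let g represent a defect class of B and let D be a Sylow p-subgroup of the centralizer of g (viewed in G). For any h: (a) if the idempotent coefficient of B at h is a local integer outside the local ideal, then some conjugate of D contains a Sylow p-subgroup of the centralizer of h; (b) if the central character of some member of B at h is outside the local ideal, then some conjugate of D is contained in a Sylow p-subgroup of the centralizer of h. -/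
theorem result {G : Type*} [Group G] [Finite G] (p : ℕ) [Fact p.Prime] (M : Ideal Cfsg.AlgInt) (hM : Cfsg.IsPModular p M) (B : Set (Cfsg.IrrCharacter G)) (hB : Cfsg.IsPBlock M B) (g : G) (hg : Cfsg.IsDefectClass M B g) (D : Sylow p (Subgroup.centralizer ({g} : Set G))) (h : G) : (Cfsg.MemLocalRing M (Cfsg.blockCoeff B h) → ¬ Cfsg.MemLocalIdeal M (Cfsg.blockCoeff B h) → ∃ (x : G) (Q : Sylow p (Subgroup.centralizer ({h} : Set G))), (Q : Subgroup (Subgroup.centralizer ({h} : Set G))).map (Subgroup.centralizer ({h} : Set G)).subtype ≤ ((D : Subgroup (Subgroup.centralizer ({g} : Set G))).map (Subgroup.centralizer ({g} : Set G)).subtype).map (MulAut.conj x).toMonoidHom) ∧ ((∃ χ ∈ B, ¬ Cfsg.MemLocalIdeal M (Cfsg.centralChar (χ : G → ℂ) h)) → ∃ (x : G) (Q : Sylow p (Subgroup.centralizer ({h} : Set G))), ((D : Subgroup (Subgroup.centralizer ({g} : Set G))).map (Subgroup.centralizer ({g} : Set G)).subtype).map (MulAut.conj x).toMonoidHom ≤ (Q : Subgroup (Subgroup.centralizer ({h} : Set G))).map (Subgroup.centralizer ({h} : Set G)).subtype) := by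
  haveI := Fintype.ofFinite G
  haveI : M.IsPrime := hM.2.1.isPrime
  set D' := (D : Subgroup (Subgroup.centralizer ({g} : Set G))).map
    (Subgroup.centralizer ({g} : Set G)).subtype with hD'def
  have hD' : IsDefectGroup p M B D' := ⟨g, hg, D, rfl⟩
  refine ⟨fun _ hne => ?_, fun ⟨χ, hχ, hne⟩ => ?_⟩
  · obtain ⟨E, hE⟩ := exists_isClassDefectGroup (p := p) h
    obtain ⟨x, hx⟩ := subConj_of_blockCoeff_unit hM hB hD' hE hne
    obtain ⟨Q, rfl⟩ := hE
    refine ⟨x⁻¹, Q, ?_⟩
    have h1 := Subgroup.map_mono (f := (MulAut.conj x⁻¹).toMonoidHom) hx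
    rw [map_conj_map_conj, inv_mul_cancel, map_conj_one] at h1
    exact h1
  · obtain ⟨E, hE⟩ := exists_isClassDefectGroup (p := p) h
    obtain ⟨x, hx⟩ := subConj_of_centralChar_unit hM hB hD' hχ hE hne
    obtain ⟨Q, rfl⟩ := hE
    exact ⟨x, Q, hx⟩

end Cfsg.Agent.S0911
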