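import Cfsg.Statements.S0915
import Cfsg.Agent.Block.SingleBlock

set_option autoImplicit false
open Cfsg

namespace Cfsg.Agent.S0915

/-- Let G be a finite p-solvable group with trivial largest normal subgroup of order prime to p. Then any two irreducible characters of G lie in the same block relative to every maximal ideal M of the algebraic integers containing p: G has a single p-block. -/
theorem result {G : Type*} [Group G] [Finite G] (p : ℕ) [Fact p.Prime] (M : Ideal Cfsg.AlgInt) (hM : Cfsg.IsPModular p M) (hsolv : Cfsg.IsPSolvable p G) (hcore : Cfsg.pPrimeCore p G = ⊥) (χ ψ : Cfsg.IrrCharacter G) : Cfsg.SameBlock M (χ : G → ℂ) (ψ : G → ℂ) := by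
  haveI := Fintype.ofFinite G
  haveI := Agent.Block.isPrime_of_isPModular hM
  haveI : (pCore p G).Normal := inferInstance
  exact Agent.Block.sameBlock_of_centralizer_le_normal_pGroup hM
    (Agent.PSolv.isPGroup_pCore p G) (Agent.PSolv.centralizer_pCore_le hsolv hcore) χ ψ

end Cfsg.Agent.S0915
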