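import Cfsg.Statements.S0918
import Cfsg.Agent.Block.Induced
-- import your own Cfsg.Agent.* helpers here

set_option autoImplicit false
open Cfsg

namespace Cfsg.Agent.S0918

open Cfsg.Agent.Block
open scoped ComplexConjugate

/-- Let P be a p-subgroup of the finite group G and H a subgroup with P·C_G(P) ≤ H ≤ N_G(P); let b be a block of H and B a block of G relative to a maximal ideal M of the algebraic integers containing p. Then b induces B if and only if, for every g ∈ G, every ξ ∈ b and every χ ∈ B, the central character of χ at g is congruent modulo the local ideal at M to the sum of ξ h / ξ 1 over the elements h of H conjugate in G to g and centralizing P. -/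
theorem result {G : Type*} [Group G] [Finite G] (p : ℕ) [Fact p.Prime] (M : Ideal Cfsg.AlgInt) (hM : Cfsg.IsPModular p M) (P H : Subgroup G) (hP : IsPGroup p P) (hPH : P ≤ H) (hCH : Subgroup.centralizer (P : Set G) ≤ H) (hHN : H ≤ Subgroup.normalizer (P : Set G)) (b : Set (Cfsg.IrrCharacter H)) (hb : Cfsg.IsPBlock M b) (B : Set (Cfsg.IrrCharacter G)) (hB : Cfsg.IsPBlock M B) : Cfsg.IsInducedBlock M H b B ↔ ∀ ξ ∈ b, ∀ χ ∈ B, ∀ g : G, Cfsg.MemLocalIdeal M (Cfsg.brauerCentralChar P H (ξ : H → ℂ) g - Cfsg.centralChar (χ : G → ℂ) g) := by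
  haveI := Fintype.ofFinite G
  haveI : M.IsPrime := hM.2.1.isPrime
  have key : ∀ ξ ∈ b, ∀ χ ∈ B, ∀ g : G,
      MemLocalIdeal M (inducedCentralChar H (ξ : H → ℂ) g - centralChar (χ : G → ℂ) g) ↔
      MemLocalIdeal M (brauerCentralChar P H (ξ : H → ℂ) g - centralChar (χ : G → ℂ) g) := by
    intro ξ _ χ _ g
    rw [← redC_eq_iff (inducedCentralChar_memLocalRing H ξ.2 g) (centralChar_memLocalRing χ.2 g),
      ← redC_eq_iff (brauerCentralChar_memLocalRing hHN ξ.2 g) (centralChar_memLocalRing χ.2 g),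
      redC_inducedCentralChar_eq_brauer hM hP hPH hHN ξ.2 g]
  exact ⟨fun h ξ hξ χ hχ g => (key ξ hξ χ hχ g).1 (h.2.2 ξ hξ χ hχ g),
    fun h => ⟨hb, hB, fun ξ hξ χ hχ g => (key ξ hξ χ hχ g).2 (h ξ hξ χ hχ g)⟩⟩

end Cfsg.Agent.S0918
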