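import Cfsg.Statements.S0920
import Cfsg.Agent.Block.FirstMain
-- import your own Cfsg.Agent.* helpers here

set_option autoImplicit false
open Cfsg

namespace Cfsg.Agent.S0920

open Cfsg.Agent.Block

/-- Brauer's First Main Theorem. Let D be a p-subgroup of the finite group G with normalizer N, and fix a maximal ideal M of the algebraic integers containing p. Then (i) every block b of N having D as a defect group induces some block B of G having D as a defect group; (ii) every block of G with defect group D is induced by exactly one block of N with defect group D. -/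
theorem result {G : Type*} [Group G] [Finite G] (p : ℕ) [Fact p.Prime] (M : Ideal Cfsg.AlgInt) (hM : Cfsg.IsPModular p M) (D : Subgroup G) (hD : IsPGroup p D) : (∀ b : Set (Cfsg.IrrCharacter (Subgroup.normalizer (D : Set G))), Cfsg.IsPBlock M b → Cfsg.IsDefectGroup p M b (D.subgroupOf (Subgroup.normalizer (D : Set G))) → ∃ B : Set (Cfsg.IrrCharacter G), Cfsg.IsPBlock M B ∧ Cfsg.IsDefectGroup p M B D ∧ Cfsg.IsInducedBlock M (Subgroup.normalizer (D : Set G)) b B) ∧ (∀ B : Set (Cfsg.IrrCharacter G), Cfsg.IsPBlock M B → Cfsg.IsDefectGroup p M B D → ∃! b : Set (Cfsg.IrrCharacter (Subgroup.normalizer (D : Set G))), Cfsg.IsPBlock M b ∧ Cfsg.IsDefectGroup p M b (D.subgroupOf (Subgroup.normalizer (D : Set G))) ∧ Cfsg.IsInducedBlock M (Subgroup.normalizer (D : Set G)) b B) := by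
  haveI := Fintype.ofFinite G
  haveI : M.IsPrime := hM.2.1.isPrime
  refine ⟨fun b hb hbD => ?_, fun B hB hBD => ?_⟩
  · obtain ⟨B, hB⟩ := inducedBlockDefined_of_brauer hM hD Subgroup.le_normalizer
      (Subgroup.centralizer_le_normalizer _) le_rfl hb
    exact ⟨B, hB.2.1, isDefectGroup_of_induced_normalizer hM hD hbD hB, hB⟩
  · obtain ⟨b, hb⟩ := exists_isInducedBlock_of_subConj (P := D)
      (H := Subgroup.normalizer (D : Set G)) hM Subgroup.le_normalizer
      (Subgroup.centralizer_le_normalizer _) le_rfl hB hBD (subConj_of_le le_rfl)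
    haveI := Fintype.ofFinite (Subgroup.normalizer (D : Set G))
    obtain ⟨E, hE⟩ := exists_isDefectGroup (p := p) (M := M) hb.1
    rw [defectGroup_root_eq hM Subgroup.le_normalizer le_rfl hb hBD hE] at hE
    exact ⟨b, ⟨hb.1, hE, hb⟩, fun b' hb' => eq_of_induced_of_defectGroup hM hD hb'.2.1 hb'.2.2 hb⟩

end Cfsg.Agent.S0920
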