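import Cfsg.Statements.S0923
import Cfsg.Agent.Block.SecondMain
-- import your own Cfsg.Agent.* helpers here

set_option autoImplicit false
open Cfsg

namespace Cfsg.Agent.S0923

open Cfsg.Agent.Block
open scoped ComplexConjugate

/-- Brauer's Second Main Theorem, in terms of ordinary characters. Let x be a p-element of the finite group G with centralizer C, let χ lie in the block B of G and let b be a block of C that does not induce B (relative to a maximal ideal M of the algebraic integers containing p). Form the class function ϑ(c) = χ(x c) on C and its b-part (the sum over ψ ∈ b of the inner product of ϑ with ψ, times ψ). Then the b-part of ϑ vanishes at every p-regular element of C. (Equivalently, the generalized decomposition numbers of χ with respect to b are zero.) -/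
theorem result {G : Type*} [Group G] [Finite G] (p : ℕ) [Fact p.Prime] (M : Ideal Cfsg.AlgInt) (hM : Cfsg.IsPModular p M) (x : G) (hx : ∃ k : ℕ, orderOf x = p ^ k) (B : Set (Cfsg.IrrCharacter G)) (hB : Cfsg.IsPBlock M B) (χ : Cfsg.IrrCharacter G) (hχ : χ ∈ B) (b : Set (Cfsg.IrrCharacter (Subgroup.centralizer ({x} : Set G)))) (hb : Cfsg.IsPBlock M b) (hnot : ¬ Cfsg.IsInducedBlock M (Subgroup.centralizer ({x} : Set G)) b B) (y : Subgroup.centralizer ({x} : Set G)) (hy : ¬ p ∣ orderOf y) : Cfsg.blockPart b (fun c : Subgroup.centralizer ({x} : Set G) => (χ : G → ℂ) (x * (c : G))) y = 0 := by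
  classical
  haveI := Fintype.ofFinite G
  haveI : M.IsPrime := hM.2.1.isPrime
  obtain ⟨k, hk⟩ := hx
  letI : Fintype (Subgroup.centralizer ({x} : Set G)) := Fintype.ofFinite (Subgroup.centralizer ({x} : Set G))
  -- the induced block of `b` exists and differs from `B`
  have hP : IsPGroup p (Subgroup.zpowers x) :=
    IsPGroup.of_card (by rw [Nat.card_zpowers, hk])
  have hCP : Subgroup.centralizer (Subgroup.zpowers x : Set G) = (Subgroup.centralizer ({x} : Set G)) := by
    apply le_antisymm
    · exact Subgroup.centralizer_le (by simp)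
    · intro z hz v hv
      obtain ⟨n, rfl⟩ := Subgroup.mem_zpowers_iff.1 hv
      exact (Commute.zpow_left (mem_centralizer_singleton.1 hz : Commute x z) n).eq
  have hxC : x ∈ (Subgroup.centralizer ({x} : Set G)) := mem_centralizer_singleton.2 rfl
  obtain ⟨B', hB'⟩ := inducedBlockDefined_of_brauer (P := Subgroup.zpowers x) hM hP
    (Subgroup.zpowers_le.2 hxC) hCP.le
    (by rw [← hCP]; exact Subgroup.centralizer_le_normalizer _) hb
  have hχB' : χ ∉ B' := fun h => hnot (pBlock_eq_of_mem hB hB'.2.1 hχ h ▸ hB')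
  -- the `p`-part of `x * y` is `x`
  have hxy : Element.pPart p (x * (y : G)) = x := by
    refine (pPart_eq_of_isPPart hM.1 ⟨(y : G), rfl, ?_, ⟨k, hk⟩, ?_⟩).symm
    · exact mem_centralizer_singleton.1 y.2
    · simpa [Subgroup.orderOf_coe] using hy
  have key := charLin_single_mul_incl_idem_eq_zero hM hB' (h := ⟨x, hxC⟩ * y)
    (by rw [Subgroup.coe_mul, hxy]) hχB'
  rw [charLin_single_mul_incl (Char.irr_isClassFunction χ.2)] at key
  have hϑ : ∀ d c : (Subgroup.centralizer ({x} : Set G)), (χ : G → ℂ) (x * ((d * c * d⁻¹ : (Subgroup.centralizer ({x} : Set G))) : G)) = (χ : G → ℂ) (x * c) := by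
    intro d c
    have hd : (x : G) * d = d * x := mem_centralizer_singleton.1 d.2
    rw [← Char.irr_isClassFunction χ.2 (x * (c : G)) (d : G)]
    congr 1
    simp only [Subgroup.coe_mul, Subgroup.coe_inv, ← mul_assoc, hd]
  -- rewrite the sum over `c = k y`
  have hsub : ∑ c : (Subgroup.centralizer ({x} : Set G)), blockCoeff b (c * y⁻¹) * (χ : G → ℂ) (x * (c : G)) = 0 := by
    rw [← key]
    refine (Fintype.sum_equiv (Equiv.mulRight y) _ _ fun q => ?_).symm
    simp only [coeff_blockIdem, Equiv.coe_mulRight, mul_inv_cancel_right, Subgroup.coe_mul]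
    congr 2
    have hq : (x : G) * (q : G) = q * x := mem_centralizer_singleton.1 q.2
    rw [← mul_assoc, ← mul_assoc, hq]
  have havg : (Nat.card (Subgroup.centralizer ({x} : Set G)) : ℂ) * (∑ c : (Subgroup.centralizer ({x} : Set G)), blockCoeff b (c * y⁻¹) * (χ : G → ℂ) (x * (c : G))) =
      ∑ c : (Subgroup.centralizer ({x} : Set G)), (∑ᶠ ψ ∈ b, conj ((ψ : (Subgroup.centralizer ({x} : Set G)) → ℂ) c) * conj ((ψ : (Subgroup.centralizer ({x} : Set G)) → ℂ) y⁻¹)) *
        (χ : G → ℂ) (x * (c : G)) := by
    simp only [← Brauer.sum_conj_blockCoeff, Finset.sum_mul]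
    rw [Finset.sum_comm]
    have e : ∀ d : (Subgroup.centralizer ({x} : Set G)),
        (∑ c : (Subgroup.centralizer ({x} : Set G)),
          blockCoeff b (d * c * d⁻¹ * y⁻¹) * (χ : G → ℂ) (x * (c : G))) =
        ∑ c : (Subgroup.centralizer ({x} : Set G)),
          blockCoeff b (c * y⁻¹) * (χ : G → ℂ) (x * (c : G)) := fun d => by
      refine Fintype.sum_equiv (MulAut.conj d).toEquiv _ _ fun c => ?_
      simp only [MulEquiv.toEquiv_eq_coe, EquivLike.coe_coe, MulAut.conj_apply]
      rw [hϑ]
    rw [Finset.sum_congr rfl fun d _ => e d, Finset.sum_const, Finset.card_univ, nsmul_eq_mul,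
      Nat.card_eq_fintype_card]
  rw [hsub, mul_zero] at havg
  simp only [blockPart, classInner, finsum_mem_eq_toFinset_sum] at havg ⊢
  calc _ = (Nat.card (Subgroup.centralizer ({x} : Set G)) : ℂ)⁻¹ * ∑ c : (Subgroup.centralizer ({x} : Set G)), (∑ ψ ∈ b.toFinset,
        conj ((ψ : (Subgroup.centralizer ({x} : Set G)) → ℂ) c) * conj ((ψ : (Subgroup.centralizer ({x} : Set G)) → ℂ) y⁻¹)) * (χ : G → ℂ) (x * (c : G)) := by
          simp only [Finset.mul_sum, Finset.sum_mul]
          rw [Finset.sum_comm]
          refine Finset.sum_congr (by ext; simp) fun c _ => Finset.sum_congr (by ext; simp) fun ψ _ => ?_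
          rw [Char.irr_inv ψ.2 y, Complex.conj_conj]
          ring
    _ = 0 := by rw [← havg, mul_zero]

end Cfsg.Agent.S0923
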