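import Cfsg.Statements.S0926
import Cfsg.Agent.Block.Degrees
-- import your own Cfsg.Agent.* helpers here

set_option autoImplicit false
open Cfsg

namespace Cfsg.Agent.S0926

open Cfsg.Agent.Block

/-- Let B be a block of the finite group G with defect group D (relative to a maximal ideal M of the algebraic integers containing p), let χ ∈ B have height zero, and let x be a p-element. Then some conjugate of x lies in D if and only if χ does not vanish on the whole p-section of x (the elements whose p-part is conjugate to x). -/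
theorem result {G : Type*} [Group G] [Finite G] (p : ℕ) [Fact p.Prime] (M : Ideal Cfsg.AlgInt) (hM : Cfsg.IsPModular p M) (B : Set (Cfsg.IrrCharacter G)) (hB : Cfsg.IsPBlock M B) (D : Subgroup G) (hD : Cfsg.IsDefectGroup p M B D) (χ : Cfsg.IrrCharacter G) (hχ : χ ∈ B) (h0 : Cfsg.blockHeight p B (χ : G → ℂ) = 0) (x : G) (hx : ∃ k : ℕ, orderOf x = p ^ k) : (∃ g : G, g * x * g⁻¹ ∈ D) ↔ ∃ u : G, (∃ z : G, Cfsg.IsPPart p u z ∧ IsConj x z) ∧ (χ : G → ℂ) u ≠ 0 := by
  haveI := Fintype.ofFinite G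
  haveI : M.IsPrime := hM.2.1.isPrime
  constructor
  · rintro ⟨g, hg⟩
    obtain ⟨y, hy, hyD⟩ := isDefectGroup_iff.1 hD
    obtain ⟨k, hk⟩ := hx
    have hc : Commute (g * x * g⁻¹) y :=
      ((mem_centralizer_singleton.1 (hyD.le_centralizer hg)) : Commute y (g * x * g⁻¹)).symm
    have ho : orderOf (g * x * g⁻¹) = p ^ k := by
      rw [← MulAut.conj_apply, MulEquiv.orderOf_eq, hk]
    refine ⟨g * x * g⁻¹ * y, ⟨g * x * g⁻¹, ⟨y, rfl, hc, ⟨k, ho⟩,
      not_dvd_orderOf_of_isDefectClass hM hB hy⟩, isConj_iff.2 ⟨g, rfl⟩⟩, ?_⟩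
    intro hzero
    apply not_memLocalIdeal_char_mul hM hB hy hc ho hχ h0
    rw [hzero]
    exact memLocalIdeal_zero
  · rintro ⟨u, ⟨z, hz, hxz⟩, hu⟩
    by_contra hcon
    push Not at hcon
    refine hu (char_eq_zero_of_pPart_notMem hM hB hχ fun E hE hmem => ?_)
    rw [← pPart_eq_of_isPPart hM.1 hz] at hmem
    obtain ⟨c, rfl⟩ := isConj_iff.1 hxz
    obtain ⟨w, rfl⟩ := isDefectGroup_exists_conj_eq hM hB hE hD
    refine hcon (w * c) ⟨c * x * c⁻¹, hmem, ?_⟩
    simp [mul_assoc]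

end Cfsg.Agent.S0926
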