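import Cfsg.Statements.S0931
import Cfsg.Agent.Block.DefectCentre

set_option autoImplicit false
open Cfsg

namespace Cfsg.Agent.S0931

/-- Let H be a subgroup of the finite group G and fix a maximal ideal M of the algebraic integers containing the prime p. If the block b of H induces the block B of G, then b has defect 0 if and only if B has defect 0. -/
theorem result {G : Type*} [Group G] [Finite G] (p : ℕ) [Fact p.Prime] (M : Ideal Cfsg.AlgInt) (hM : Cfsg.IsPModular p M) (H : Subgroup G) (b : Set (Cfsg.IrrCharacter H)) (B : Set (Cfsg.IrrCharacter G)) (hind : Cfsg.IsInducedBlock M H b B) : Cfsg.blockDefect p b = 0 ↔ Cfsg.blockDefect p B = 0 := by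
  haveI := Fintype.ofFinite G
  haveI := Agent.Block.isPrime_of_isPModular hM
  haveI := Fintype.ofFinite H
  obtain ⟨D, hD⟩ := Agent.Block.exists_isDefectGroup (p := p) hind.1
  obtain ⟨E, hE⟩ := Agent.Block.exists_isDefectGroup (p := p) hind.2.1
  have hDc := Agent.Block.card_isDefectGroup hM hind.1 hD
  have hEc := Agent.Block.card_isDefectGroup hM hind.2.1 hE
  have hp : 1 < p := (Fact.out : p.Prime).one_lt
  constructor
  · intro h0
    have hDbot : D = ⊥ := Subgroup.card_eq_one.1 (by rw [hDc, h0, pow_zero])
    by_contra hne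
    haveI : Nontrivial E := by
      rw [← Finite.one_lt_card_iff_nontrivial, hEc]
      exact Nat.one_lt_pow hne hp
    haveI := ((Agent.Block.isDefectGroup_isPGroup hE).center_nontrivial)
    obtain ⟨⟨z, hz⟩, hzne⟩ := exists_ne (1 : Subgroup.center E)
    obtain ⟨g, hg, -⟩ := Agent.Block.exists_conj_centre_of_induced hM hind hD hE z.2
      (fun w hw => congrArg Subtype.val (Subgroup.mem_center_iff.1 hz ⟨w, hw⟩).symm)
    rw [hDbot, Subgroup.map_bot, Subgroup.mem_bot, conj_eq_one_iff] at hg
    exact hzne (Subtype.ext (Subtype.ext hg))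
  · intro h0
    have h1 := Agent.Block.card_defectGroup_le_of_induced hM hind hD hE
    rw [hDc, hEc, h0, pow_zero] at h1
    by_contra hne
    exact absurd h1 (not_le.2 (Nat.one_lt_pow hne hp))


end Cfsg.Agent.S0931
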