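import Cfsg.Prelude.Def_Blocks
import Cfsg.Agent.BlockVal.HeightZero
import Cfsg.Agent.Brauer.RegElement

set_option autoImplicit false
open Cfsg
open scoped ComplexConjugate

namespace Cfsg.Agent.S0937

open Cfsg.Agent.Block

theorem result {G : Type*} [Group G] [Fintype G] (p : ℕ) [Fact p.Prime] (M : Ideal Cfsg.AlgInt) (hM : Cfsg.IsPModular p M) (H : Subgroup G) [Fintype H] (b : Set (Cfsg.IrrCharacter H)) (B : Set (Cfsg.IrrCharacter G)) (hind : Cfsg.IsInducedBlock M H b B) (χ : Cfsg.IrrCharacter G) (hχ : χ ∈ B) (h0 : Cfsg.blockHeight p B (χ : G → ℂ) = 0) : ∃ ξ ∈ b, Cfsg.blockHeight p b (ξ : H → ℂ) = 0 ∧ ∃ n : ℕ, Cfsg.classInner (fun h : H => (χ : G → ℂ) h) (ξ : H → ℂ) = (n : ℂ) ∧ ¬ p ∣ n := by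
  classical
  haveI : M.IsPrime := hM.2.1.isPrime
  have hp := hM.1
  set φ : H → ℂ := fun h => (χ : G → ℂ) h with hφdef
  have hφ : IsCharacter H φ := Char.isCharacter_restrict (Char.isCharacter_of_irr χ.2) H
  -- the value of the regular element of `χ` at `χ` is a unit
  have hunit : ¬ MemLocalIdeal M (Brauer.regSum p (χ : G → ℂ) (χ : G → ℂ) / (χ : G → ℂ) 1) := by
    intro hmem
    obtain ⟨n, hn, -, -⟩ := BlockVal.cReg_int (p := p) χ χ
    apply BlockVal.not_dvd_succ_of_height_zero hM hind.2.1 hχ h0 hχ hn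
    rw [← BlockVal.memLocalIdeal_int_div_nat_iff hM n
      (BlockVal.irr_one_eq_charDegree χ).2, ← hn, ← (BlockVal.irr_one_eq_charDegree χ).1,
      BlockVal.cReg]
    convert memLocalIdeal_mul_left (BlockVal.pPart_div_card_memLocalRing (G := G) hM) hmem using 1
    ring
  obtain ⟨ξ, hξ⟩ := pBlock_nonempty hind.1
  have hrestr : restr H (Brauer.regElt M p (χ : G → ℂ)) = Brauer.regElt M p φ := by
    refine groupAlgebra_ext fun x => Subtype.ext ?_
    rw [coeff_restr, Brauer.coeff_regElt (Char.isCharacter_of_irr χ.2), Brauer.coeff_regElt hφ]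
    simp [hφdef, Subgroup.orderOf_coe]
  have hunit' : ¬ MemLocalIdeal M (Brauer.regSum p (ξ : H → ℂ) φ / (ξ : H → ℂ) 1) := by
    intro hmem
    have h := Brauer.omega_restr_sub_mem_of_induced H hind hξ hχ
      (Brauer.isCentralElt_regElt (M := M) (p := p) (Char.isCharacter_of_irr χ.2))
    rw [hrestr, Brauer.omega_toC_regElt hφ, Brauer.omega_toC_regElt (Char.isCharacter_of_irr χ.2)] at h
    exact hunit (by simpa using memLocalIdeal_sub hmem h)
  obtain ⟨c, hc, hcc⟩ := Char.isCharacter_exists_coeff hφ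
  have hexp : Brauer.regSum p (ξ : H → ℂ) φ =
      ∑ η : IrrCharacter H, (c η : ℂ) * Brauer.regSum p (ξ : H → ℂ) (η : H → ℂ) := by
    conv_lhs => rw [hc]
    simp only [Brauer.regSum, Finset.sum_apply, Pi.smul_apply, nsmul_eq_mul, map_sum, map_mul,
      map_natCast, Finset.mul_sum]
    rw [Finset.sum_comm]
    exact Finset.sum_congr rfl fun η _ => Finset.sum_congr rfl fun x _ => by
      simp only [Pi.mul_apply, Pi.natCast_apply, map_mul, map_natCast]; ring
  by_contra hcon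
  push Not at hcon
  apply hunit'
  rw [hexp, Finset.sum_div]
  refine memLocalIdeal_sum _ _ fun η _ => ?_
  by_cases hη : η ∈ b
  swap
  · rw [Brauer.regSum_eq_zero_of_integral hM b (blockCoeff_memLocalRing hind.1) hξ hη, mul_zero,
      zero_div]
    exact memLocalIdeal_zero
  rw [mul_div_assoc]
  have hlr : MemLocalRing M (Brauer.regSum p (ξ : H → ℂ) (η : H → ℂ) / (ξ : H → ℂ) 1) :=
    Brauer.regSum_div_memLocalRing hM (Char.isCharacter_of_irr η.2) ξ
  by_cases hpn : p ∣ c η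
  · exact memLocalIdeal_mul_right ((memLocalIdeal_natCast_iff hM _).2 hpn) hlr
  refine memLocalIdeal_mul_left (memLocalRing_natCast _) ?_
  by_contra hnmem
  refine hpn (hcon η hη ?_ (c η) (hcc η))
  obtain ⟨n, hn, -, -⟩ := BlockVal.cReg_int (p := p) η ξ
  refine BlockVal.height_zero_of_not_dvd_succ hM hind.1 hη hξ hn fun hd => hnmem ?_
  rw [← BlockVal.memLocalIdeal_int_div_nat_iff hM n (BlockVal.irr_one_eq_charDegree ξ).2, ← hn,
    BlockVal.cReg_comm, ← (BlockVal.irr_one_eq_charDegree ξ).1, BlockVal.cReg] at hd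
  have hinv : MemLocalRing M ((Nat.card H : ℂ) / ((p ^ (Nat.card H).factorization p : ℕ) : ℂ)) := by
    rw [memLocalRing_natCast_div_iff hM Nat.card_pos.ne' (pow_ne_zero _ hp.ne_zero),
      hp.factorization_pow, Finsupp.single_eq_same]
  have hP0 : ((p ^ (Nat.card H).factorization p : ℕ) : ℂ) ≠ 0 :=
    Nat.cast_ne_zero.2 (pow_ne_zero _ hp.ne_zero)
  have hH0 : (Nat.card H : ℂ) ≠ 0 := Nat.cast_ne_zero.2 Nat.card_pos.ne'
  convert memLocalIdeal_mul_left hinv hd using 1
  field_simp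

end Cfsg.Agent.S0937
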