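import Cfsg.Agent.Brauer.Kernel

namespace Cfsg.Agent.S0938

theorem result {G : Type*} [Group G] [Finite G] (p : ℕ) [Fact p.Prime] (M : Ideal Cfsg.AlgInt) (hM : Cfsg.IsPModular p M) (B : Set (Cfsg.IrrCharacter G)) (hB : Cfsg.IsPBlock M B) (χ : Cfsg.IrrCharacter G) (hχ : χ ∈ B) : ∃ K : Subgroup G, K.Normal ∧ (K : Set G) = Cfsg.blockKer B ∧ ¬ p ∣ Nat.card K ∧ (∀ g ∈ K, (χ : G → ℂ) g = (χ : G → ℂ) 1) ∧ ∀ N : Subgroup G, N.Normal → ¬ p ∣ Nat.card N → (∀ g ∈ N, (χ : G → ℂ) g = (χ : G → ℂ) 1) → N ≤ K := by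
  haveI := Fintype.ofFinite G
  haveI : M.IsPrime := hM.2.1.isPrime
  obtain ⟨K, hn, hK, hp⟩ := Cfsg.Agent.Brauer.exists_blockKer_subgroup hM hB
  refine ⟨K, hn, hK, hp, fun g hg => ?_, fun N hN hNp hker g hg => ?_⟩
  · exact (hK ▸ hg : g ∈ Cfsg.blockKer B) χ hχ
  · show g ∈ (K : Set G)
    rw [hK]
    intro ψ hψ
    exact Cfsg.Agent.Brauer.trivialOn_of_sameBlock hM N hNp
      (Cfsg.Agent.Block.pBlock_sameBlock hB hχ hψ) hker g hg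

end Cfsg.Agent.S0938
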