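import Cfsg.Agent.Brauer.Kernel
import Cfsg.Agent.Cores.Basic

namespace Cfsg.Agent.S0939

theorem result {G : Type*} [Group G] [Finite G] (p : ℕ) [Fact p.Prime] (M : Ideal Cfsg.AlgInt) (hM : Cfsg.IsPModular p M) (hnc : ∃ k : ℕ, (Cfsg.pPrimeCore p G).index = p ^ k) : Cfsg.principalBlock M G = {χ : Cfsg.IrrCharacter G | ∀ n ∈ Cfsg.pPrimeCore p G, (χ : G → ℂ) n = (χ : G → ℂ) 1} := by
  haveI := Fintype.ofFinite G
  haveI : M.IsPrime := hM.2.1.isPrime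
  obtain ⟨k, hk⟩ := hnc
  ext χ
  exact ⟨fun h => Cfsg.Agent.Brauer.trivialOn_of_sameBlock hM (Cfsg.pPrimeCore p G)
      Cfsg.Agent.Cores.not_dvd_card_pPrimeCore (χ := Cfsg.Agent.Char.trivialIrr G) h
      (fun _ _ => rfl),
    Cfsg.Agent.Brauer.mem_principalBlock_of_trivialOn hM _ hk χ⟩

end Cfsg.Agent.S0939
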