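import Cfsg.Agent.Brauer.Kulshammer

namespace Cfsg.Agent.S0940

open Cfsg.Agent.Block in
theorem result {G : Type*} [Group G] [Finite G] (p : ℕ) [Fact p.Prime] (M : Ideal Cfsg.AlgInt) (hM : Cfsg.IsPModular p M) (g : G) (hg : ¬ p ∣ orderOf g) : Cfsg.MemLocalIdeal M (Cfsg.blockCoeff (Cfsg.principalBlock M G) g - (Nat.card {xy : G × G // (∃ k : ℕ, orderOf xy.1 = p ^ k) ∧ ¬ p ∣ orderOf xy.2 ∧ xy.1 * xy.2 = g} : ℂ) / (Nat.card {y : G // ¬ p ∣ orderOf y} : ℂ)) := by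
  haveI := Fintype.ofFinite G
  haveI : M.IsPrime := hM.2.1.isPrime
  have hr : ¬ p ∣ Nat.card {y : G // ¬ p ∣ orderOf y} := Cfsg.Agent.Brauer.not_dvd_card_regular
  have key := Cfsg.Agent.Brauer.card_pairs_eq hM hg
  have hb : Cfsg.MemLocalRing M (Cfsg.blockCoeff (Cfsg.principalBlock M G) g) :=
    blockCoeff_memLocalRing ⟨Cfsg.Agent.Char.trivialIrr G, rfl⟩ g
  have hinv := memLocalRing_natCast_inv hM hr
  have hq : Cfsg.MemLocalRing M ((Nat.card {xy : G × G // (∃ k : ℕ, orderOf xy.1 = p ^ k) ∧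
      ¬ p ∣ orderOf xy.2 ∧ xy.1 * xy.2 = g} : ℂ) / (Nat.card {y : G // ¬ p ∣ orderOf y} : ℂ)) := by
    rw [div_eq_mul_inv]
    exact (localRing M).mul_mem (memLocalRing_natCast _) hinv
  rw [← redC_eq_iff hb hq]
  have hr0 : (Nat.card {y : G // ¬ p ∣ orderOf y} : ResF M) ≠ 0 := fun h =>
    hr ((red_natCast_eq_zero_iff hM _).mp h)
  have hc : (Nat.card {y : G // ¬ p ∣ orderOf y} : ℂ) ≠ 0 := Nat.cast_ne_zero.mpr fun h =>
    hr (h ▸ dvd_zero p)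
  refine mul_left_cancel₀ hr0 ?_
  rw [← key, ← redC_natCast, ← redC_natCast, ← redC_mul (memLocalRing_natCast _) hq,
    mul_div_cancel₀ _ hc]

end Cfsg.Agent.S0940
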