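import Cfsg.Prelude.Def_Blocks
import Cfsg.Agent.Brauer.Inflation

set_option autoImplicit false
open Cfsg
open scoped ComplexConjugate

namespace Cfsg.Agent.S0941

open Cfsg.Agent.Brauer Cfsg.Agent.Block

theorem result {G : Type*} [Group G] [Finite G] (p : ℕ) [Fact p.Prime] (M : Ideal Cfsg.AlgInt) (hM : Cfsg.IsPModular p M) (P : Subgroup G) [P.Normal] (hP : IsPGroup p P) (hC : ∃ k : ℕ, (Subgroup.centralizer (P : Set G)).index = p ^ k) : (∀ χ ψ : Cfsg.IrrCharacter (G ⧸ P), Cfsg.SameBlock M (χ : G ⧸ P → ℂ) (ψ : G ⧸ P → ℂ) ↔ Cfsg.SameBlock M ((χ : G ⧸ P → ℂ) ∘ QuotientGroup.mk) ((ψ : G ⧸ P → ℂ) ∘ QuotientGroup.mk)) ∧ ∀ B : Set (Cfsg.IrrCharacter G), Cfsg.IsPBlock M B → ∃ χ : Cfsg.IrrCharacter (G ⧸ P), ∃ θ ∈ B, (θ : G → ℂ) = (χ : G ⧸ P → ℂ) ∘ QuotientGroup.mk := by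
  classical
  haveI := Fintype.ofFinite G
  haveI := Fintype.ofFinite (G ⧸ P)
  haveI : M.IsPrime := hM.2.1.isPrime
  obtain ⟨k, hk⟩ := hC
  have hregC : ∀ g : G, ¬ p ∣ orderOf g → g ∈ Subgroup.centralizer (P : Set G) := fun g hg =>
    mem_of_index_pow (Subgroup.centralizer (P : Set G)) hM.1 hk hg
  refine ⟨fun χ ψ => ⟨sameBlock_comp_mk P, fun h => sameBlock_of_regular hM χ ψ fun c hc => ?_⟩, ?_⟩
  · obtain ⟨g, rfl, hg⟩ := Element.exists_pPrimeElement_preimage hM.1 (QuotientGroup.mk' P)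
      (QuotientGroup.mk'_surjective P) (y := c)
      (Nat.coprime_comm.mp (hM.1.coprime_iff_not_dvd.mpr hc))
    have hg' : ¬ p ∣ orderOf g := hM.1.coprime_iff_not_dvd.mp (Nat.coprime_comm.mp hg)
    have := h g
    rwa [centralChar_comp_mk_of_regular P hP _ hg' (hregC g hg'),
      centralChar_comp_mk_of_regular P hP _ hg' (hregC g hg')] at this
  · intro B hB
    by_contra hcon
    push Not at hcon
    haveI := Fintype.ofFinite P
    have hnt : ∀ χ ∈ B, ¬ ∀ n ∈ P, (χ : G → ℂ) n = (χ : G → ℂ) 1 := by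
      intro χ hχ htriv
      obtain ⟨φ, hφ, hg⟩ := Char.irr_exists_descend χ.2 P htriv
      exact hcon ⟨φ, hφ⟩ χ hχ (funext hg)
    have hzero : ∀ g : G, blockCoeff B g = 0 := by
      intro g
      by_cases hg : p ∣ orderOf g
      · exact blockCoeff_eq_zero_of_integral hM B (blockCoeff_memLocalRing hB) hg
      have hsum : ∑ u : P, blockCoeff B (g * u) = blockCoeff B g := by
        rw [Finset.sum_eq_single 1]
        · simp
        · intro u _ hu
          refine blockCoeff_eq_zero_of_integral hM B (blockCoeff_memLocalRing hB) ?_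
          by_contra hreg
          exact hu (Subtype.ext (eq_one_of_mul_regular hP u.2
            (Subgroup.mem_centralizer_iff.mp (hregC g hg) u u.2).symm hg hreg))
        · simp
      rw [← hsum]
      simp only [blockCoeff_eq_sum, ← Finset.mul_sum]
      rw [Finset.sum_comm, Finset.sum_eq_zero, mul_zero]
      intro χ hχ
      rw [← Finset.mul_sum, ← map_sum,
        sum_coset_eq_zero_of_not_trivialOn P χ (hnt χ (Finset.mem_filter.1 hχ).2), map_zero, mul_zero]
    obtain ⟨χ, hχ⟩ := pBlock_nonempty hB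
    have h1 := omega_blockIdem B χ
    rw [if_pos hχ, omega_eq_sum] at h1
    simp [coeff_blockIdem, hzero] at h1

end Cfsg.Agent.S0941
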