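import Cfsg.Agent.Brauer.CharBasics

namespace Cfsg.Agent.S0943

theorem result {G : Type*} [Group G] [Finite G] (χ : Cfsg.IrrCharacter G) (u v : G) (hc : ∀ x y : G, IsConj u x → IsConj v y → (χ : G → ℂ) (x * y) = (χ : G → ℂ) (u * v)) : (χ : G → ℂ) u * (χ : G → ℂ) v = (χ : G → ℂ) 1 * (χ : G → ℂ) (u * v) := by
  haveI := Fintype.ofFinite G
  have h := Cfsg.Agent.Brauer.irr_conj_sum χ.2 u v
  rw [Finset.sum_congr rfl (g := fun _ => (χ : G → ℂ) (u * v))
    (fun y _ => hc _ _ (isConj_iff.mpr ⟨y, rfl⟩) (IsConj.refl v)), Finset.sum_const,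
    Finset.card_univ, nsmul_eq_mul, ← Nat.card_eq_fintype_card] at h
  have hG : (Nat.card G : ℂ) ≠ 0 := Nat.cast_ne_zero.mpr Nat.card_pos.ne'
  apply mul_left_cancel₀ hG
  linear_combination -h

end Cfsg.Agent.S0943
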