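import Cfsg.Agent.Brauer.HomocyclicTwo

namespace Cfsg.Agent.S0945

theorem result {G : Type*} [Group G] [Finite G] (P : Sylow 2 G) (m : ℕ) (hm : 1 ≤ m) (e : (P : Subgroup G) ≃* Multiplicative (ZMod (2 ^ m) × ZMod (2 ^ m))) : ((Subgroup.centralizer (P : Set G)).relIndex (Subgroup.normalizer (P : Set G)) = 1 ∨ (Subgroup.centralizer (P : Set G)).relIndex (Subgroup.normalizer (P : Set G)) = 3) ∧ ((Subgroup.centralizer (P : Set G)).relIndex (Subgroup.normalizer (P : Set G)) ≠ 1 → ∀ z ∈ (P : Subgroup G), z ≠ 1 → Subgroup.centralizer ({z} : Set G) ⊓ Subgroup.normalizer (P : Set G) = Subgroup.centralizer (P : Set G)) := by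
  obtain ⟨h3, hfix⟩ := Cfsg.Agent.Brauer.relIndex_dvd_three P hm e
  refine ⟨(Nat.dvd_prime Nat.prime_three).mp h3, fun _ z hz hz1 => le_antisymm ?_ ?_⟩
  · rintro n ⟨hnz, hnN⟩
    by_contra hnC
    -- an involution in `zpowers z`
    obtain ⟨i, hi, hi2⟩ : ∃ i, z ^ 2 ^ i ≠ 1 ∧ (z ^ 2 ^ i) ^ 2 = 1 := by
      classical
      have h : ∃ j, z ^ 2 ^ j = 1 := ⟨m, Cfsg.Agent.Brauer.pow_two_pow_eq_one P hm e hz⟩
      obtain ⟨j, hj⟩ : ∃ j, Nat.find h = j + 1 := by
        refine ⟨Nat.find h - 1, (Nat.succ_pred_eq_of_pos (Nat.pos_of_ne_zero fun h0 => hz1 ?_)).symm⟩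
        simpa [h0] using Nat.find_spec h
      refine ⟨j, Nat.find_min h (by omega), ?_⟩
      rw [← pow_mul, ← pow_succ, ← hj]
      exact Nat.find_spec h
    refine hfix n hnN hnC ⟨z ^ 2 ^ i, pow_mem hz _, hi2, hi⟩ ?_
    change n * z ^ 2 ^ i * n⁻¹ = z ^ 2 ^ i
    rw [(show Commute n z from Subgroup.mem_centralizer_singleton_iff.mp hnz).pow_right _,
      mul_inv_cancel_right]
  · refine le_inf ?_ (fun n hn => ?_)
    · intro n hn
      rw [Subgroup.mem_centralizer_singleton_iff]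
      exact (Subgroup.mem_centralizer_iff.mp hn z hz).symm
    · exact Subgroup.centralizer_le_normalizer _ hn

end Cfsg.Agent.S0945
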