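import Cfsg.Agent.Brauer.HomocyclicTwo

namespace Cfsg.Agent.S0946

theorem result {G : Type*} [Group G] [Finite G] (P : Sylow 2 G) (m : ℕ) (hm : 1 ≤ m) (e : (P : Subgroup G) ≃* Multiplicative (ZMod (2 ^ m) × ZMod (2 ^ m))) : (∃ N : Subgroup G, N.Normal ∧ Subgroup.IsComplement' N (P : Subgroup G)) ∨ ∀ s t : G, orderOf s = 2 → orderOf t = 2 → IsConj s t := by
  classical
  obtain ⟨h3, hfix⟩ := Cfsg.Agent.Brauer.relIndex_dvd_three P hm e
  by_cases hNC : Subgroup.normalizer (P : Set G) ≤ Subgroup.centralizer (P : Set G)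
  · exact Or.inl ⟨(MonoidHom.transferSylow P hNC).ker, inferInstance,
      MonoidHom.ker_transferSylow_isComplement' P hNC⟩
  · right
    obtain ⟨n, hnN, hnC⟩ := SetLike.not_le_iff_exists.mp hNC
    have key : ∀ a b : Cfsg.Agent.Brauer.InvSet P, IsConj a.1 b.1 := by
      intro a
      have hmemN : ∀ (c : G), c ∈ (P : Subgroup G) → n * c * n⁻¹ ∈ (P : Subgroup G) :=
        fun c hc => (Subgroup.mem_normalizer_iff.mp hnN _).mp hc
      let σ : Cfsg.Agent.Brauer.InvSet P → Cfsg.Agent.Brauer.InvSet P := fun c =>
        ⟨n * c.1 * n⁻¹, hmemN _ c.2.1, by rw [conj_pow, c.2.2.1]; simp,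
          fun h => c.2.2.2 (conj_eq_one_iff.mp h)⟩
      have hne : ∀ c, σ c ≠ c := fun c h => hfix n hnN hnC c (congrArg Subtype.val h)
      have hinj : Function.Injective σ := fun c d h => Subtype.ext
        (mul_left_cancel (mul_right_cancel (congrArg Subtype.val h)))
      have hconj : ∀ c, IsConj c.1 (σ c).1 := fun c => isConj_iff.mpr ⟨n, rfl⟩
      intro b
      by_contra hb
      haveI := Fintype.ofFinite (Cfsg.Agent.Brauer.InvSet P)
      -- a, σ a, σ (σ a), b would be four different involutions
      have h1 : b ≠ a := fun h => hb (h ▸ IsConj.refl _)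
      have h2 : b ≠ σ a := fun h => hb (h ▸ hconj a)
      have h4 : b ≠ σ (σ a) := fun h => hb (h ▸ (hconj a).trans (hconj _))
      have h5 : σ (σ a) ≠ a := by
        intro h
        -- then `n ^ 2` fixes `a`, and so does `n`
        have hn2 : n ^ 2 ∉ Subgroup.centralizer (P : Set G) := by
          intro hc
          haveI : ((Subgroup.centralizer (P : Set G)).subgroupOf
              (Subgroup.normalizer (P : Set G))).Normal := inferInstance
          set C := (Subgroup.centralizer (P : Set G)).subgroupOf (Subgroup.normalizer (P : Set G))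
          let q : Subgroup.normalizer (P : Set G) ⧸ C := QuotientGroup.mk ⟨n, hnN⟩
          have hq : q ^ 2 = 1 := by
            rw [← QuotientGroup.mk_pow, QuotientGroup.eq_one_iff]
            exact hc
          have hq3 : q ^ 3 = 1 := by
            obtain ⟨c, hc⟩ := h3
            rw [hc, pow_mul, show q ^ (Subgroup.centralizer (P : Set G)).relIndex
              (Subgroup.normalizer (P : Set G)) = 1 from pow_card_eq_one', one_pow]
          rw [pow_succ, hq, one_mul, QuotientGroup.eq_one_iff] at hq3
          exact hnC hq3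
        refine hfix (n ^ 2) (pow_mem hnN 2) hn2 a ?_
        have := congrArg Subtype.val h
        change n * (n * a.1 * n⁻¹) * n⁻¹ = a.1 at this
        rw [pow_two, mul_inv_rev]
        simpa [mul_assoc] using this
      have hcard : ({a, σ a, σ (σ a), b} : Finset (Cfsg.Agent.Brauer.InvSet P)).card = 4 := by
        rw [Finset.card_insert_of_notMem, Finset.card_insert_of_notMem,
          Finset.card_insert_of_notMem, Finset.card_singleton]
        · simpa using h4.symm
        · simp [(hne (σ a)).symm, h2.symm]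
        · simp [(hne a).symm, h5.symm, h1.symm]
      have h7 := Finset.card_le_univ ({a, σ a, σ (σ a), b} :
        Finset (Cfsg.Agent.Brauer.InvSet P))
      have h8 := Cfsg.Agent.Brauer.card_invSet_le P hm e
      rw [Nat.card_eq_fintype_card] at h8
      omega
    have main : ∀ s : G, orderOf s = 2 → ∃ a : Cfsg.Agent.Brauer.InvSet P, IsConj s a.1 := by
      intro s hs
      have hp : IsPGroup 2 (Subgroup.zpowers s) := by
        apply IsPGroup.of_card (n := 1)
        rw [Nat.card_zpowers, hs, pow_one]
      obtain ⟨Q, hQ⟩ := hp.exists_le_sylow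
      obtain ⟨g, hg⟩ := MulAction.exists_smul_eq G Q P
      have hm' : g * s * g⁻¹ ∈ (P : Subgroup G) := by
        rw [← hg]
        exact ⟨s, hQ (Subgroup.mem_zpowers s), rfl⟩
      refine ⟨⟨g * s * g⁻¹, hm', ?_, ?_⟩, isConj_iff.mpr ⟨g, rfl⟩⟩
      · rw [conj_pow, ← hs, pow_orderOf_eq_one]; simp
      · intro h
        rw [conj_eq_one_iff] at h
        rw [h, orderOf_one] at hs
        omega
    intro s t hs ht
    obtain ⟨a, ha⟩ := main s hs
    obtain ⟨b, hb⟩ := main t ht
    exact (ha.trans (key a b)).trans hb.symm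

end Cfsg.Agent.S0946
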