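import Cfsg.Prelude.Def_Local
import Cfsg.Agent.Brauer.SectionColumns
import Cfsg.Agent.Cores.Basic

namespace Cfsg.Agent.S0947

open scoped ComplexConjugate

theorem result {G : Type*} [Group G] [Finite G] (p : ℕ) [Fact p.Prime] (M : Ideal Cfsg.AlgInt) (hM : Cfsg.IsPModular p M) (z : G) (hz : ∃ k : ℕ, orderOf z = p ^ k) (hz1 : z ≠ 1) (y : Subgroup.centralizer ({z} : Set G)) (hy : ¬ p ∣ orderOf y) : (∑ᶠ ζ ∈ Cfsg.principalBlock M G, ‖(ζ : G → ℂ) (z * (y : G))‖ ^ 2 = ∑ᶠ χ ∈ Cfsg.principalBlock M (Subgroup.centralizer ({z} : Set G)), ‖(χ : Subgroup.centralizer ({z} : Set G) → ℂ) y‖ ^ 2) ∧ ((∃ k : ℕ, (Cfsg.pPrimeCore p (Subgroup.centralizer ({z} : Set G))).index = p ^ k) → ∑ᶠ ζ ∈ Cfsg.principalBlock M G, ‖(ζ : G → ℂ) (z * (y : G))‖ ^ 2 = ((p ^ (Nat.card (Subgroup.centralizer ({z} : Set G))).factorization p : ℕ) : ℝ)) := by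
  classical
  haveI := Fintype.ofFinite G
  haveI : M.IsPrime := hM.2.1.isPrime
  obtain ⟨k, hk⟩ := hz
  haveI := Fintype.ofFinite (Subgroup.centralizer ({z} : Set G))
  have h1 := Cfsg.Agent.Brauer.principal_column_section hM hk (Subgroup.centralizer ({z} : Set G)) rfl y y hy hy
  have hnorm : ∀ w : ℂ, w * conj w = ((‖w‖ ^ 2 : ℝ) : ℂ) := fun w => by
    rw [Complex.mul_conj, Complex.normSq_eq_norm_sq]
  have hmain : ∑ᶠ ζ ∈ Cfsg.principalBlock M G, ‖(ζ : G → ℂ) (z * (y : G))‖ ^ 2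
      = ∑ᶠ χ ∈ Cfsg.principalBlock M (Subgroup.centralizer ({z} : Set G)), ‖(χ : (Subgroup.centralizer ({z} : Set G)) → ℂ) y‖ ^ 2 := by
    simp only [finsum_mem_eq_toFinset_sum, hnorm] at h1 ⊢
    exact_mod_cast h1
  refine ⟨hmain, fun hidx => ?_⟩
  obtain ⟨j, hj⟩ := hidx
  rw [hmain]
  set N := Cfsg.pPrimeCore p (Subgroup.centralizer ({z} : Set G)) with hN
  have hNp : ¬ p ∣ Nat.card N := Cfsg.Agent.Cores.not_dvd_card_pPrimeCore
  have hyN : y ∈ N := by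
    rw [← QuotientGroup.eq_one_iff, ← orderOf_eq_one_iff]
    have d1 : orderOf (QuotientGroup.mk y : (Subgroup.centralizer ({z} : Set G)) ⧸ N) ∣ orderOf y :=
      orderOf_map_dvd (QuotientGroup.mk' N) y
    have d2 : orderOf (QuotientGroup.mk y : (Subgroup.centralizer ({z} : Set G)) ⧸ N) ∣ p ^ j := by
      rw [← hj, Subgroup.index]; exact orderOf_dvd_natCard _
    exact Nat.eq_one_of_dvd_coprimes ((hM.1.coprime_iff_not_dvd.mpr hy).pow_left j) d2 d1
  have h2 := Cfsg.Agent.Brauer.sum_sq_principalBlock_of_complement hM N hNp hj hyN hyN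
  have hp : (Nat.card (Subgroup.centralizer ({z} : Set G))).factorization p = j := by
    rw [← Subgroup.card_mul_index N, hj, Nat.factorization_mul Nat.card_pos.ne'
      (pow_ne_zero _ hM.1.ne_zero), Finsupp.add_apply, Nat.factorization_eq_zero_of_not_dvd hNp,
      zero_add, hM.1.factorization_pow, Finsupp.single_eq_same]
  rw [hp]
  simp only [finsum_mem_eq_toFinset_sum, hnorm] at h2 ⊢
  exact_mod_cast h2

end Cfsg.Agent.S0947
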