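import Cfsg.Statements.S0950
import Cfsg.Agent.Invol.Q8Sylow

set_option autoImplicit false
open Cfsg

namespace Cfsg.Agent.S0950

/-- Let S be a Sylow 2-subgroup of the finite group G that is isomorphic to the quaternion group of order 8, and suppose S has no normal complement in G. Then any two subgroups of order 4 of S are conjugate by an element of the normalizer of S. -/
theorem result {G : Type*} [Group G] [Finite G] (S : Sylow 2 G) (e : (S : Subgroup G) ≃* QuaternionGroup 2) (hnc : ∀ N : Subgroup G, N.Normal → ¬ Subgroup.IsComplement' N (S : Subgroup G)) (A B : Subgroup G) (hA : A ≤ S) (hB : B ≤ S) (hA4 : Nat.card A = 4) (hB4 : Nat.card B = 4) : ∃ n ∈ Subgroup.normalizer ((S : Subgroup G) : Set G), B = A.map (MulAut.conj n).toMonoidHom := by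
  classical
  have : Fact (Nat.Prime 2) := ⟨Nat.prime_two⟩
  have hnc' : ¬ Cfsg.HasNormalPComplement 2 G := by
    rintro ⟨P, N, hN, hcompl⟩
    have hidx : N.index = Nat.card (S : Subgroup G) := by
      rw [hcompl.symm.index_eq_card, S.card_eq_multiplicity, P.card_eq_multiplicity]
    have hcm : Nat.card N * Nat.card (S : Subgroup G) = Nat.card G := by
      rw [← hidx, Subgroup.card_mul_index]
    refine hnc N hN (Subgroup.isComplement'_of_card_mul_and_disjoint hcm ?_)
    rw [disjoint_iff]
    apply Subgroup.inf_eq_bot_of_coprime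
    obtain ⟨k, hk⟩ := S.2.exists_card_eq
    have hodd : ¬ 2 ∣ Nat.card N := by
      rw [← hcompl.index_eq_card]; exact P.not_dvd_index
    rw [hk]
    exact (((Nat.Prime.coprime_iff_not_dvd Nat.prime_two).2 hodd).pow_left k).symm
  obtain ⟨g, hg, hgo, hgc⟩ := Invol.exists_odd_normalizing S e hnc'
  set N := Subgroup.normalizer ((S : Subgroup G) : Set G) with hN
  have hSN : (S : Subgroup G) ≤ N := Subgroup.le_normalizer
  have gen : ∀ X : Subgroup G, X ≤ S → Nat.card X = 4 → ∃ x : G, x ∈ X ∧ orderOf x = 4 ∧ Subgroup.zpowers x = X := by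
    intro X hX hX4
    haveI : Nontrivial X := Finite.one_lt_card_iff_nontrivial.1 (by omega)
    by_cases hex : ∃ x : X, orderOf x = 4
    · obtain ⟨x, hx⟩ := hex
      refine ⟨x, x.2, by rw [Subgroup.orderOf_coe, hx], ?_⟩
      refine Subgroup.eq_of_le_of_card_ge (Subgroup.zpowers_le.2 x.2) ?_
      rw [Nat.card_zpowers, Subgroup.orderOf_coe, hx, hX4]
    · exfalso
      have h2 : ∀ x : X, x ≠ 1 → orderOf x = 2 := by
        intro x hx
        have h1 : orderOf x ∣ 2 ^ 2 := by
          have := orderOf_dvd_natCard x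
          rw [hX4] at this
          simpa using this
        obtain ⟨i, hi, hox⟩ := (Nat.dvd_prime_pow Nat.prime_two).1 h1
        interval_cases i
        · exact absurd (orderOf_eq_one_iff.1 hox) hx
        · simpa using hox
        · exact absurd ⟨x, by simpa using hox⟩ hex
      obtain ⟨x, hx⟩ := exists_ne (1 : X)
      have hxo := h2 x hx
      have hle : Nat.card X ≤ 2 := by
        rw [← hxo, ← Nat.card_zpowers]
        refine Nat.card_le_card_of_injective (fun w : X => (⟨w, ?_⟩ : Subgroup.zpowers x))
          (fun a b h => (congrArg Subtype.val h :))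
        by_cases hw : w = 1
        · rw [hw]; exact one_mem _
        · have hwo := h2 w hw
          have hc : Commute (w : G) (x : G) := by
            by_cases hwx : w * x = 1
            · rw [eq_inv_of_mul_eq_one_left hwx]; push_cast; exact (Commute.refl _).inv_left
            · have h1 := Invol.inv_eq (h2 _ hwx)
              rw [mul_inv_rev, Invol.inv_eq hwo, Invol.inv_eq hxo] at h1
              exact (congrArg Subtype.val h1.symm :)
          have : (w : G) = x := Invol.q8_sylow_uniq S e (by rw [Subgroup.orderOf_coe, hwo])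
            (by rw [Subgroup.orderOf_coe, hxo]) hc
          rw [Subtype.ext this]
          exact Subgroup.mem_zpowers x
      omega
  obtain ⟨a, haA, ha4, hAeq⟩ := gen A hA hA4
  obtain ⟨b, hbB, hb4, hBeq⟩ := gen B hB hB4
  let e' : ((S : Subgroup G).subgroupOf N) ≃* QuaternionGroup 2 :=
    (Subgroup.subgroupOfEquivOfLe hSN).trans e
  have key : IsConj (⟨a, hSN (hA haA)⟩ : N) ⟨b, hSN (hB hbB)⟩ := by
    refine Invol.q8_conj_orbit e' (g := (⟨g, hg⟩ : N)) ?_ (by rwa [Subgroup.orderOf_mk]) ?_
      (Subgroup.mem_subgroupOf.2 (hA haA)) (Subgroup.mem_subgroupOf.2 (hB hbB))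
      (by rw [Subgroup.orderOf_mk, ha4]) (by rw [Subgroup.orderOf_mk, hb4])
    · rw [Subgroup.mem_normalizer_iff]
      intro x
      simp only [Subgroup.mem_subgroupOf, Subgroup.coe_mul, InvMemClass.coe_inv]
      exact Subgroup.mem_normalizer_iff.1 hg x
    · intro hc
      refine hgc (Subgroup.mem_centralizer_iff.2 fun x hx => ?_)
      exact congrArg Subtype.val (Subgroup.mem_centralizer_iff.1 hc ⟨x, hSN hx⟩ (Subgroup.mem_subgroupOf.2 hx))
  obtain ⟨n, hn⟩ := isConj_iff.1 key
  refine ⟨n, n.2, ?_⟩
  rw [← hBeq, ← hAeq, MonoidHom.map_zpowers]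
  congr 1
  exact (congrArg Subtype.val hn :).symm

end Cfsg.Agent.S0950
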