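import Cfsg.Statements.S0951
import Cfsg.Agent.Invol.Q8Seven

set_option autoImplicit false
open Cfsg

namespace Cfsg.Agent.S0951

/-- Let S be a Sylow 2-subgroup of the finite group G isomorphic to the quaternion group of order 8. Suppose G has no nontrivial normal subgroup of odd order and G ≠ S. Then, relative to any maximal ideal M of the algebraic integers containing 2, the principal block of G consists of exactly 7 irreducible characters. -/
theorem result {G : Type*} [Group G] [Finite G] (M : Ideal Cfsg.AlgInt) (hM : Cfsg.IsPModular 2 M) (S : Sylow 2 G) (e : (S : Subgroup G) ≃* QuaternionGroup 2) (hO : ∀ N : Subgroup G, N.Normal → Odd (Nat.card N) → N = ⊥) (hG : (S : Subgroup G) ≠ ⊤) : Nat.card (Cfsg.principalBlock M G) = 7 := by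
  classical
  haveI := Fintype.ofFinite G
  have : Fact (Nat.Prime 2) := ⟨Nat.prime_two⟩
  have hnc : ¬ Cfsg.HasNormalPComplement 2 G := by
    rintro ⟨P, N, hN, hcompl⟩
    have hodd : ¬ 2 ∣ Nat.card N := by
      rw [← hcompl.index_eq_card]; exact P.not_dvd_index
    have hbot : N = ⊥ := hO N hN (Nat.odd_iff.2 (Nat.two_dvd_ne_zero.1 hodd))
    refine hG (Subgroup.eq_top_of_card_eq _ ?_)
    rw [S.card_eq_multiplicity, ← P.card_eq_multiplicity, ← hcompl.symm.index_eq_card, hbot,
      Subgroup.index_bot]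
  obtain ⟨y, hy⟩ := Invol.exists_qsetup S e hnc
  have hS8 := Invol.q8_sylow_card S e
  have hcore : Cfsg.pPrimeCore 2 G = ⊥ :=
    hO _ inferInstance (Nat.odd_iff.2 (Nat.two_dvd_ne_zero.1 Cores.not_dvd_card_pPrimeCore))
  have h16 : ¬ 16 ∣ Nat.card G := fun h => by
    have := S.pow_dvd_card_of_pow_dvd_card (n := 4) (by simpa using h)
    rw [hS8] at this
    norm_num at this
  have heven : Even (Nat.card G) := even_iff_two_dvd.2
    ((show 2 ∣ 8 by norm_num).trans (hS8 ▸ (S : Subgroup G).card_subgroup_dvd_card))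
  obtain ⟨z, hz, hzc⟩ := Invol.rankOne_small G h16 hcore heven hy.uniq
  refine Invol.card_principalBlock_seven hM hy ?_
  rw [hy.uniq _ _ hy.sq hz (Subgroup.mem_center_iff.1 hzc (y ^ 2))]
  exact hzc

end Cfsg.Agent.S0951
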