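import Cfsg.Agent.Block.Idempotent
import Cfsg.Agent.Brauer.RegOrth

namespace Cfsg.Agent.S0952

open scoped ComplexConjugate

theorem result {G : Type*} [Group G] [Finite G] (p : ℕ) [Fact p.Prime] (M : Ideal Cfsg.AlgInt) (hM : Cfsg.IsPModular p M) (χ ψ : Cfsg.IrrCharacter G) (h : ¬ Cfsg.SameBlock M (χ : G → ℂ) (ψ : G → ℂ)) : ∑ᶠ x ∈ {x : G | ¬ p ∣ orderOf x}, (χ : G → ℂ) x * conj ((ψ : G → ℂ) x) = 0 := by
  haveI := Fintype.ofFinite G
  haveI : M.IsPrime := hM.2.1.isPrime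
  rw [Cfsg.Agent.Brauer.finsum_regular_eq_regSum]
  exact Cfsg.Agent.Brauer.regSum_eq_zero_of_integral hM _
    (Cfsg.Agent.Block.blockCoeff_memLocalRing (Cfsg.Agent.Block.isPBlock_blockOf χ))
    (Cfsg.Agent.Block.mem_blockOf_self χ) h

end Cfsg.Agent.S0952
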