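import Cfsg.Prelude.Def_Blocks
import Cfsg.Agent.Brauer.SylowDefectCount
import Cfsg.Agent.S0920

set_option autoImplicit false
open Cfsg

namespace Cfsg.Agent.S0953

open Cfsg.Agent.Block

theorem result {G : Type*} [Group G] [Finite G] (p : ℕ) [Fact p.Prime] (M : Ideal Cfsg.AlgInt) (hM : Cfsg.IsPModular p M) (P : Sylow p G) : Nat.card {B : Set (Cfsg.IrrCharacter G) // Cfsg.IsPBlock M B ∧ Cfsg.IsDefectGroup p M B (P : Subgroup G)} = Nat.card {C : ConjClasses (Subgroup.normalizer ((P : Subgroup G) : Set G)) // ∀ n : Subgroup.normalizer ((P : Subgroup G) : Set G), ConjClasses.mk n = C → ¬ p ∣ orderOf n ∧ (n : G) ∈ Subgroup.centralizer ((P : Subgroup G) : Set G)} := by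
  classical
  haveI := Fintype.ofFinite G
  haveI : M.IsPrime := hM.2.1.isPrime
  haveI := Fintype.ofFinite (Subgroup.normalizer ((P : Subgroup G) : Set G))
  set N := Subgroup.normalizer ((P : Subgroup G) : Set G) with hN
  have hle : (P : Subgroup G) ≤ N := Subgroup.le_normalizer
  haveI hPn : ((P.subtype hle : Sylow p N) : Subgroup N).Normal :=
    normal_subgroupOf_of_le_normalizer (le_refl N)
  have hdef : ∀ b : Set (Cfsg.IrrCharacter N), Cfsg.IsPBlock M b →
      Cfsg.IsDefectGroup p M b ((P : Subgroup G).subgroupOf N) := by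
    intro b hb
    obtain ⟨D, hD⟩ := exists_isDefectGroup (p := p) (M := M) hb
    have h1 : ((P.subtype hle : Sylow p N) : Subgroup N) ≤ D :=
      normal_le_isDefectGroup hM hb hD (P.subtype hle).isPGroup'
    have h2 : D = ((P.subtype hle : Sylow p N) : Subgroup N) :=
      ((P.subtype hle).is_maximal' (isDefectGroup_isPGroup hD) h1)
    exact (show D = (P : Subgroup G).subgroupOf N from h2) ▸ hD
  have hS := Cfsg.Agent.S0920.result p M hM (P : Subgroup G) P.isPGroup'
  choose f hf using fun b : {b : Set (Cfsg.IrrCharacter N) // Cfsg.IsPBlock M b} =>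
    hS.1 b.1 b.2 (hdef b.1 b.2)
  have hbij : Nat.card {b : Set (Cfsg.IrrCharacter N) // Cfsg.IsPBlock M b} =
      Nat.card {B : Set (Cfsg.IrrCharacter G) //
        Cfsg.IsPBlock M B ∧ Cfsg.IsDefectGroup p M B (P : Subgroup G)} := by
    refine Nat.card_congr (Equiv.ofBijective (fun b => ⟨f b, (hf b).1, (hf b).2.1⟩) ⟨?_, ?_⟩)
    · intro b b' h
      have h' : f b = f b' := congrArg Subtype.val h
      obtain ⟨b₀, -, huniq⟩ := hS.2 (f b) (hf b).1 (hf b).2.1
      exact Subtype.ext ((huniq b.1 ⟨b.2, hdef b.1 b.2, (hf b).2.2⟩).trans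
        (huniq b'.1 ⟨b'.2, hdef b'.1 b'.2, h' ▸ (hf b').2.2⟩).symm)
    · rintro ⟨B, hB, hBD⟩
      obtain ⟨b, ⟨hb, -, hind⟩, -⟩ := hS.2 B hB hBD
      exact ⟨⟨b, hb⟩, Subtype.ext (isInducedBlock_unique (hf ⟨b, hb⟩).2.2 hind)⟩
  rw [← hbij, Cfsg.Agent.Brauer.card_blocks_of_normal_sylow hM (P.subtype hle)]
  refine Nat.card_congr (Equiv.subtypeEquivRight fun C => forall_congr' fun n =>
    imp_congr_right fun _ => and_congr_right fun _ => ?_)
  exact centralizer_subgroupOf_iff hle n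

end Cfsg.Agent.S0953
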