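import Cfsg.Prelude.Def_Blocks
import Cfsg.Agent.Brauer.CoveringPIndex

set_option autoImplicit false
open Cfsg

namespace Cfsg.Agent.S0954

open Cfsg.Agent.Brauer Cfsg.Agent.Block

theorem result {G : Type*} [Group G] [Fintype G] (p : ℕ) [Fact p.Prime] (M : Ideal Cfsg.AlgInt) (hM : Cfsg.IsPModular p M) (N : Subgroup G) [N.Normal] [Fintype N] (hN : ¬ p ∣ Nat.card N) (hidx : ∃ k : ℕ, N.index = p ^ k) (χ ψ : Cfsg.IrrCharacter G) : Cfsg.SameBlock M (χ : G → ℂ) (ψ : G → ℂ) ↔ ∃ θ : Cfsg.IrrCharacter N, Cfsg.classInner (fun n : N => (χ : G → ℂ) n) (θ : N → ℂ) ≠ 0 ∧ Cfsg.classInner (fun n : N => (ψ : G → ℂ) n) (θ : N → ℂ) ≠ 0 := by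
  haveI : M.IsPrime := hM.2.1.isPrime
  constructor
  · intro h
    obtain ⟨θ, k, hk, hθ⟩ := Char.exists_irr_constituent
      (CharInd.isCharacter_res N (Char.isCharacter_of_irr χ.2))
      (fun h0 => Char.irr_one_ne_zero χ.2 (congrFun h0 1))
    obtain ⟨η, l, hl, hη⟩ := Char.exists_irr_constituent
      (CharInd.isCharacter_res N (Char.isCharacter_of_irr ψ.2))
      (fun h0 => Char.irr_one_ne_zero ψ.2 (congrFun h0 1))
    have hθ0 : Cfsg.classInner (fun n : N => (χ : G → ℂ) n) (θ : N → ℂ) ≠ 0 := by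
      rw [hθ]; exact Nat.cast_ne_zero.2 hk.ne'
    have hb : Cfsg.IsPBlock M (Cfsg.blockOf M (θ : N → ℂ)) := isPBlock_blockOf θ
    obtain ⟨x, hx, hx0⟩ := exists_constituent_mem_of_congr N hM hb (mem_blockOf_self θ) ψ
      (fun n => centralChar_congr_of_covers N hM (isPBlock_blockOf χ) hb (mem_blockOf_self χ)
        (mem_blockOf_self θ) hθ0 (show ψ ∈ Cfsg.blockOf M (χ : G → ℂ) from h) (mem_blockOf_self θ) n)
      (η := η) (by rw [hη]; exact Nat.cast_ne_zero.2 hl.ne')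
    rw [eq_of_sameBlock_of_not_dvd_card hM hN hx] at hx0
    exact ⟨θ, hθ0, hx0⟩
  · rintro ⟨θ, h1, h2⟩
    obtain ⟨k, hk⟩ := hidx
    exact sameBlock_of_constituents_sameBlock N hM hk χ ψ θ θ h1 h2 (sameBlock_refl _)

end Cfsg.Agent.S0954
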