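import Cfsg.Prelude.Def_Blocks
import Mathlib.GroupTheory.GroupAction.Quotient

namespace Cfsg.Agent.S0957

theorem result {G : Type*} [Group G] [Finite G] (p : ℕ) [Fact p.Prime] (P : Sylow p G) (g h : G) (S : Sylow p (Subgroup.centralizer ({g} : Set G))) : Nat.card P / Nat.card S ∣ Nat.card {yz : G × G // IsConj g yz.1 ∧ IsConj h yz.2 ∧ yz.2 * yz.1⁻¹ ∈ (P : Subgroup G)} := by
  classical
  have hmem : ∀ (u : (P : Subgroup G)) (t : G × G),
      (IsConj g t.1 ∧ IsConj h t.2 ∧ t.2 * t.1⁻¹ ∈ (P : Subgroup G)) →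
      IsConj g ((u : G) * t.1 * (u : G)⁻¹) ∧ IsConj h ((u : G) * t.2 * (u : G)⁻¹) ∧
        ((u : G) * t.2 * (u : G)⁻¹) * ((u : G) * t.1 * (u : G)⁻¹)⁻¹ ∈ (P : Subgroup G) := by
    rintro u t ⟨h1, h2, h3⟩
    refine ⟨h1.trans (isConj_iff.mpr ⟨u, rfl⟩), h2.trans (isConj_iff.mpr ⟨u, rfl⟩), ?_⟩
    rw [show ((u : G) * t.2 * (u : G)⁻¹) * ((u : G) * t.1 * (u : G)⁻¹)⁻¹
      = (u : G) * (t.2 * t.1⁻¹) * (u : G)⁻¹ by group]
    exact mul_mem (mul_mem u.2 h3) (inv_mem u.2)
  set T := {yz : G × G // IsConj g yz.1 ∧ IsConj h yz.2 ∧ yz.2 * yz.1⁻¹ ∈ (P : Subgroup G)} with hT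
  letI : MulAction (P : Subgroup G) T :=
    { smul := fun u t => ⟨((u : G) * t.1.1 * (u : G)⁻¹, (u : G) * t.1.2 * (u : G)⁻¹), hmem u t.1 t.2⟩
      one_smul := fun t => Subtype.ext (Prod.ext
        (by change ((1 : (P : Subgroup G)) : G) * t.1.1 * ((1 : (P : Subgroup G)) : G)⁻¹ = t.1.1; simp)
        (by change ((1 : (P : Subgroup G)) : G) * t.1.2 * ((1 : (P : Subgroup G)) : G)⁻¹ = t.1.2; simp))
      mul_smul := fun u w t => Subtype.ext (Prod.ext
        (by change ((u * w : (P : Subgroup G)) : G) * t.1.1 * ((u * w : (P : Subgroup G)) : G)⁻¹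
              = (u : G) * ((w : G) * t.1.1 * (w : G)⁻¹) * (u : G)⁻¹
            simp [mul_assoc])
        (by change ((u * w : (P : Subgroup G)) : G) * t.1.2 * ((u * w : (P : Subgroup G)) : G)⁻¹
              = (u : G) * ((w : G) * t.1.2 * (w : G)⁻¹) * (u : G)⁻¹
            simp [mul_assoc])) }
  haveI := Fintype.ofFinite T
  rw [Nat.card_congr (MulAction.selfEquivSigmaOrbits (P : Subgroup G) T), Nat.card_sigma]
  refine Finset.dvd_sum fun ω _ => ?_
  set t := Quotient.out ω with ht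
  set st := MulAction.stabilizer (P : Subgroup G) t with hst
  have hP' := P.2
  obtain ⟨x, hx⟩ := isConj_iff.mp t.2.1
  have hsub : ∀ a : st, x⁻¹ * ((a : (P : Subgroup G)) : G) * x ∈ Subgroup.centralizer ({g} : Set G) := by
    intro a
    have ha : ((a : (P : Subgroup G)) : G) * t.1.1 * ((a : (P : Subgroup G)) : G)⁻¹ = t.1.1 :=
      congrArg (fun s : T => s.1.1) a.2
    rw [← hx] at ha
    rw [Subgroup.mem_centralizer_singleton_iff]
    calc x⁻¹ * ((a : (P : Subgroup G)) : G) * x * g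
        = x⁻¹ * (((a : (P : Subgroup G)) : G) * (x * g * x⁻¹) * ((a : (P : Subgroup G)) : G)⁻¹)
          * ((a : (P : Subgroup G)) : G) * x := by group
      _ = g * (x⁻¹ * ((a : (P : Subgroup G)) : G) * x) := by rw [ha]; group
  let f : st →* Subgroup.centralizer ({g} : Set G) :=
    { toFun := fun a => ⟨_, hsub a⟩
      map_one' := Subtype.ext (by simp)
      map_mul' := fun a b => Subtype.ext (by simp [mul_assoc]) }
  have hf : Function.Injective f := by
    intro a b hab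
    have : x⁻¹ * ((a : (P : Subgroup G)) : G) * x = x⁻¹ * ((b : (P : Subgroup G)) : G) * x :=
      congrArg Subtype.val hab
    exact Subtype.ext (Subtype.ext (mul_left_cancel (mul_right_cancel this)))
  have hp : p.Prime := Fact.out
  obtain ⟨i, hi⟩ : ∃ i, Nat.card st = p ^ i := IsPGroup.iff_card.mp (P.2.to_subgroup st)
  have hdvd : Nat.card st ∣ Nat.card S := by
    rw [S.card_eq_multiplicity, hi, ← hp.pow_dvd_iff_dvd_ordProj Nat.card_pos.ne', ← hi,
      Nat.card_congr (Equiv.ofInjective f hf)]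
    exact Subgroup.card_subgroup_dvd_card f.range
  have hSP : Nat.card S ∣ Nat.card P := by
    rw [P.card_eq_multiplicity, S.card_eq_multiplicity,
      ← hp.pow_dvd_iff_dvd_ordProj Nat.card_pos.ne']
    exact (Nat.ordProj_dvd _ _).trans (Subgroup.card_subgroup_dvd_card _)
  have horb : Nat.card (MulAction.orbit (P : Subgroup G) t) * Nat.card st = Nat.card P := by
    rw [← Nat.card_prod, Nat.card_congr (MulAction.orbitProdStabilizerEquivGroup (P : Subgroup G) t)]
  obtain ⟨c, hc⟩ := hdvd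
  refine ⟨c, Nat.eq_of_mul_eq_mul_right (Nat.card_pos (α := st)) ?_⟩
  change Nat.card (MulAction.orbit (P : Subgroup G) t) * Nat.card st = _
  rw [horb, mul_assoc, mul_comm c, ← hc, Nat.div_mul_cancel hSP]

end Cfsg.Agent.S0957
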