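import Cfsg.Prelude.Def_Blocks
import Cfsg.Agent.Block.FirstMain

set_option autoImplicit false
open Cfsg

namespace Cfsg.Agent.S0958

theorem result {G : Type*} [Group G] [Finite G] (p : ℕ) [Fact p.Prime] (M : Ideal Cfsg.AlgInt) (hM : Cfsg.IsPModular p M) (P H : Subgroup G) (hP : IsPGroup p P) (hPH : P ⊔ Subgroup.centralizer (P : Set G) ≤ H) (hHN : H ≤ Subgroup.normalizer (P : Set G)) (B : Set (Cfsg.IrrCharacter G)) (hB : Cfsg.IsPBlock M B) : (∃ b : Set (Cfsg.IrrCharacter H), Cfsg.IsInducedBlock M H b B) ↔ ∃ D : Subgroup G, Cfsg.IsDefectGroup p M B D ∧ ∃ x : G, P.map (MulAut.conj x).toMonoidHom ≤ D := by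
  haveI := Fintype.ofFinite G
  haveI : M.IsPrime := hM.2.1.isPrime
  have h1 : P ≤ H := le_sup_left.trans hPH
  have h2 : Subgroup.centralizer (P : Set G) ≤ H := le_sup_right.trans hPH
  constructor
  · rintro ⟨b, hb⟩
    obtain ⟨E, hE, hle⟩ := Cfsg.Agent.Block.exists_defectGroup_ge_of_induced hM hP h1 hHN hb
    exact ⟨E, hE, 1, by rwa [Cfsg.Agent.Block.map_conj_one]⟩
  · rintro ⟨D, hD, hx⟩
    exact Cfsg.Agent.Block.exists_isInducedBlock_of_subConj hM h1 h2 hHN hB hD hx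

end Cfsg.Agent.S0958
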