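import Cfsg.Prelude.Def_Blocks
import Cfsg.Agent.Block.DefectGroup

set_option autoImplicit false
open Cfsg

namespace Cfsg.Agent.S0959

open Cfsg.Agent.Block

theorem result {G : Type*} [Group G] [Finite G] (p : ℕ) [Fact p.Prime] (M : Ideal Cfsg.AlgInt) (hM : Cfsg.IsPModular p M) (B : Set (Cfsg.IrrCharacter G)) (hB : Cfsg.IsPBlock M B) (D : Subgroup G) (hD : Cfsg.IsDefectGroup p M B D) (P : Subgroup G) (hP : IsPGroup p P) : (∃ g : G, Cfsg.MemLocalRing M (Cfsg.blockCoeff B g) ∧ ¬ Cfsg.MemLocalIdeal M (Cfsg.blockCoeff B g) ∧ ∃ c : G, IsConj g c ∧ c ∈ Subgroup.centralizer (P : Set G)) ↔ ∃ x : G, P.map (MulAut.conj x).toMonoidHom ≤ D := by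
  haveI := Fintype.ofFinite G
  haveI : M.IsPrime := hM.2.1.isPrime
  constructor
  · rintro ⟨g, -, hg, c, hgc, hc⟩
    obtain ⟨E, hE, hle⟩ := exists_isClassDefectGroup_ge hP (le_centralizer_singleton_iff.2 hc)
    obtain ⟨h, hh⟩ := isConj_iff.1 hgc
    rw [← blockCoeff_conj_invariant B g h, hh] at hg
    exact (subConj_of_le hle).trans (subConj_of_blockCoeff_unit hM hB hD hE hg)
  · rintro ⟨x, hx⟩
    obtain ⟨g, hg, hgD⟩ := isDefectGroup_iff.1 hD
    refine ⟨g, hg.1, hg.2.1, x⁻¹ * g * x, isConj_iff.2 ⟨x⁻¹, by rw [inv_inv]⟩, ?_⟩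
    rw [Subgroup.mem_centralizer_iff]
    intro y hy
    have h1 : x * y * x⁻¹ ∈ Subgroup.centralizer ({g} : Set G) :=
      hgD.le_centralizer (hx ⟨y, hy, rfl⟩)
    rw [mem_centralizer_singleton] at h1
    calc y * (x⁻¹ * g * x) = x⁻¹ * ((x * y * x⁻¹) * g) * x := by group
      _ = x⁻¹ * (g * (x * y * x⁻¹)) * x := by rw [h1]
      _ = x⁻¹ * g * x * y := by group

end Cfsg.Agent.S0959
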