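import Cfsg.Prelude.Def_Characters
import Cfsg.Agent.BlockVal.RegGen

set_option autoImplicit false
open Cfsg

namespace Cfsg.Agent.S0961

theorem result {G : Type*} [Group G] [Finite G] (p : ℕ) [Fact p.Prime] (χ : Cfsg.IrrCharacter G) : Cfsg.IsGeneralizedCharacter G (fun x : G => if p ∣ orderOf x then 0 else ((p ^ (Nat.card G).factorization p : ℕ) : ℂ) * (χ : G → ℂ) x) := by
  classical
  haveI := Fintype.ofFinite G
  have h := Cfsg.Agent.Char.isGeneralizedCharacter_zsmul (Cfsg.Agent.BlockVal.genChar_reg (p := p) χ)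
    ((p ^ (Cfsg.charDegree (χ : G → ℂ)).factorization p : ℕ) : ℤ)
  convert h using 1
  funext x
  have hle := Cfsg.Agent.BlockVal.factorization_degree_le p χ
  simp only [Pi.smul_apply]
  split_ifs
  · simp
  · rw [zsmul_eq_mul]
    push_cast
    rw [← mul_assoc, ← pow_add, Nat.add_sub_cancel' hle]

end Cfsg.Agent.S0961
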