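import Cfsg.Prelude.Def_Blocks
import Cfsg.Agent.Brauer.DefectCount

set_option autoImplicit false
open Cfsg

namespace Cfsg.Agent.S0962

open Cfsg.Agent.Block

theorem result {G : Type*} [Group G] [Finite G] (p : ℕ) [Fact p.Prime] (M : Ideal Cfsg.AlgInt) (hM : Cfsg.IsPModular p M) (d : ℕ) : Nat.card {B : Set (Cfsg.IrrCharacter G) // Cfsg.IsPBlock M B ∧ d ≤ Cfsg.blockDefect p B} ≤ Nat.card {C : ConjClasses G // ∃ g : G, ConjClasses.mk g = C ∧ Cfsg.IsPRegular p g ∧ d ≤ (Nat.card (Subgroup.centralizer ({g} : Set G))).factorization p} := by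
  haveI := Fintype.ofFinite G
  haveI : M.IsPrime := hM.2.1.isPrime
  refine Brauer.card_blocks_le_of_support (M := M)
    {B : Set (Cfsg.IrrCharacter G) | Cfsg.IsPBlock M B ∧ d ≤ Cfsg.blockDefect p B} (fun B hB => hB.1)
    {C : ConjClasses G | ∃ g : G, ConjClasses.mk g = C ∧ Cfsg.IsPRegular p g ∧ d ≤ (Nat.card (Subgroup.centralizer ({g} : Set G))).factorization p}
    fun B hB B' hB' χ hχ g hu hc => ?_
  refine ⟨g, rfl, ?_, ?_⟩
  · intro h
    apply hu
    rw [Brauer.blockCoeff_eq_zero_of_integral hM B (blockCoeff_memLocalRing hB.1) h]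
    exact memLocalIdeal_zero
  · obtain ⟨D, hD⟩ := exists_isDefectGroup (p := p) (M := M) hB'.1
    obtain ⟨E, hE⟩ := exists_isClassDefectGroup (p := p) g
    have h1 := (subConj_of_centralChar_unit hM hB'.1 hD hχ hE hc).card_le
    rw [card_isDefectGroup hM hB'.1 hD, hE.card_eq, Nat.pow_le_pow_iff_right hM.1.one_lt] at h1
    exact hB'.2.trans h1

end Cfsg.Agent.S0962
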