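import Cfsg.Prelude.Def_Blocks
import Cfsg.Agent.Brauer.Covering

set_option autoImplicit false
open Cfsg

namespace Cfsg.Agent.S0963

open Cfsg.Agent.Brauer

theorem result {G : Type*} [Group G] [Fintype G] (N : Subgroup G) [N.Normal] [Fintype N] (χ : Cfsg.IrrCharacter G) (θ : Cfsg.IrrCharacter N) : Cfsg.classInner (fun n : N => (χ : G → ℂ) n) (θ : N → ℂ) ≠ 0 ↔ ∀ n : N, Cfsg.centralChar (χ : G → ℂ) (n : G) = Cfsg.inducedCentralChar N (θ : N → ℂ) (n : G) := by
  refine ⟨fun h n => centralChar_eq_inducedCentralChar N χ.2 θ.2 h n, fun h => ?_⟩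
  obtain ⟨η', k, hk, hη'⟩ := Char.exists_irr_constituent
    (CharInd.isCharacter_res N (Char.isCharacter_of_irr χ.2))
    (fun h0 => Char.irr_one_ne_zero χ.2 (congrFun h0 1))
  have h0 : Cfsg.classInner (fun n : N => (χ : G → ℂ) n) (η' : N → ℂ) ≠ 0 := by
    rw [hη']; exact Nat.cast_ne_zero.2 hk.ne'
  obtain ⟨x, hx⟩ := exists_conjChar_eq_of_inducedCentralChar_eq N θ.2 η'.2 fun n => by
    rw [← h n, centralChar_eq_inducedCentralChar N χ.2 η'.2 h0 n]
  rwa [← hx, CharInd.classInner_res_conjChar N (Char.irr_isClassFunction χ.2)]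

end Cfsg.Agent.S0963
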