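import Cfsg.Prelude.Def_Blocks
import Cfsg.Agent.Brauer.Covering

set_option autoImplicit false
open Cfsg

namespace Cfsg.Agent.S0964

open Cfsg.Agent.Brauer

theorem result {G : Type*} [Group G] [Fintype G] (p : ℕ) [Fact p.Prime] (M : Ideal Cfsg.AlgInt) (hM : Cfsg.IsPModular p M) (N : Subgroup G) [hN : N.Normal] [Fintype N] (B : Set (Cfsg.IrrCharacter G)) (hB : Cfsg.IsPBlock M B) (b : Set (Cfsg.IrrCharacter N)) (hb : Cfsg.IsPBlock M b) (χ : Cfsg.IrrCharacter G) (hχ : χ ∈ B) (θ : Cfsg.IrrCharacter N) (hθ : θ ∈ b) (hcon : Cfsg.classInner (fun n : N => (χ : G → ℂ) n) (θ : N → ℂ) ≠ 0) (χ' : Cfsg.IrrCharacter G) (hχ' : χ' ∈ B) (ψ : Cfsg.IrrCharacter N) (hψ : Cfsg.classInner (fun n : N => (χ' : G → ℂ) n) (ψ : N → ℂ) ≠ 0) : ∃ g : G, ∃ θ' ∈ b, ∀ n : N, (ψ : N → ℂ) n = (θ' : N → ℂ) ⟨g * n * g⁻¹, hN.conj_mem n n.2 g⟩ := by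
  obtain ⟨x, hx, -⟩ := exists_constituent_mem_of_congr N hM hb hθ χ'
    (fun n => centralChar_congr_of_covers N hM hB hb hχ hθ hcon hχ' hθ n) hψ
  refine ⟨x⁻¹, _, hx, fun n => ?_⟩
  change (ψ : N → ℂ) n = CharInd.conjChar N x (ψ : N → ℂ) _
  rw [CharInd.conjChar_apply]
  exact congrArg _ (Subtype.ext (by simp [mul_assoc]))

end Cfsg.Agent.S0964
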