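import Cfsg.Prelude.Def_Blocks
import Cfsg.Agent.Brauer.Covering

set_option autoImplicit false
open Cfsg

namespace Cfsg.Agent.S0965

open Cfsg.Agent.Brauer

theorem result {G : Type*} [Group G] [Fintype G] (p : ℕ) [Fact p.Prime] (M : Ideal Cfsg.AlgInt) (hM : Cfsg.IsPModular p M) (N : Subgroup G) [N.Normal] [Fintype N] (B : Set (Cfsg.IrrCharacter G)) (hB : Cfsg.IsPBlock M B) (b : Set (Cfsg.IrrCharacter N)) (hb : Cfsg.IsPBlock M b) : (∃ χ ∈ B, ∃ θ ∈ b, Cfsg.classInner (fun n : N => (χ : G → ℂ) n) (θ : N → ℂ) ≠ 0) ↔ ∀ χ ∈ B, ∀ θ ∈ b, ∀ n : N, Cfsg.MemLocalIdeal M (Cfsg.centralChar (χ : G → ℂ) (n : G) - Cfsg.inducedCentralChar N (θ : N → ℂ) (n : G)) := by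
  haveI : M.IsPrime := hM.2.1.isPrime
  refine ⟨fun ⟨χ₀, hχ₀, θ₀, hθ₀, h0⟩ χ hχ θ hθ n =>
    centralChar_congr_of_covers N hM hB hb hχ₀ hθ₀ h0 hχ hθ n, fun h => ?_⟩
  obtain ⟨χ, hχ⟩ := Block.pBlock_nonempty hB
  obtain ⟨θ, hθ⟩ := Block.pBlock_nonempty hb
  obtain ⟨η, k, hk, hη⟩ := Char.exists_irr_constituent
    (CharInd.isCharacter_res N (Char.isCharacter_of_irr χ.2))
    (fun h0 => Char.irr_one_ne_zero χ.2 (congrFun h0 1))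
  obtain ⟨x, hx, hx0⟩ := exists_constituent_mem_of_congr N hM hb hθ χ (h χ hχ θ hθ) (η := η)
    (by rw [hη]; exact Nat.cast_ne_zero.2 hk.ne')
  exact ⟨χ, hχ, _, hx, hx0⟩

end Cfsg.Agent.S0965
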