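import Cfsg.Prelude.Def_Blocks
import Cfsg.Agent.Brauer.CoveringPIndex

set_option autoImplicit false
open Cfsg

namespace Cfsg.Agent.S0966

open Cfsg.Agent.Brauer Cfsg.Agent.Block

theorem result {G : Type*} [Group G] [Fintype G] (p : ℕ) [Fact p.Prime] (M : Ideal Cfsg.AlgInt) (hM : Cfsg.IsPModular p M) (N : Subgroup G) [N.Normal] [Fintype N] (hidx : ∃ k : ℕ, N.index = p ^ k) (b : Set (Cfsg.IrrCharacter N)) (hb : Cfsg.IsPBlock M b) : ∃! B : Set (Cfsg.IrrCharacter G), Cfsg.IsPBlock M B ∧ ∃ χ ∈ B, ∃ θ ∈ b, Cfsg.classInner (fun n : N => (χ : G → ℂ) n) (θ : N → ℂ) ≠ 0 := by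
  haveI : M.IsPrime := hM.2.1.isPrime
  obtain ⟨k, hk⟩ := hidx
  obtain ⟨θ, hθ⟩ := pBlock_nonempty hb
  obtain ⟨χ, hχ⟩ := exists_irr_over N θ
  refine ⟨blockOf M (χ : G → ℂ), ⟨isPBlock_blockOf χ, χ, mem_blockOf_self χ, θ, hθ, hχ⟩, ?_⟩
  rintro B' ⟨hB', χ', hχ', θ', hθ', h'⟩
  refine pBlock_eq_of_mem hB' (isPBlock_blockOf χ) hχ' ?_
  exact sameBlock_of_constituents_sameBlock N hM hk χ χ' θ θ' hχ h' (pBlock_sameBlock hb hθ hθ')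

end Cfsg.Agent.S0966
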