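import Cfsg.Prelude.Def_Blocks
import Cfsg.Agent.Brauer.Inflation

set_option autoImplicit false
open Cfsg

namespace Cfsg.Agent.S0967

open Cfsg.Agent.Brauer Cfsg.Agent.Block

theorem result {G : Type*} [Group G] [Finite G] (p : ℕ) [Fact p.Prime] (M : Ideal Cfsg.AlgInt) (hM : Cfsg.IsPModular p M) (N : Subgroup G) [N.Normal] (hN : ¬ p ∣ Nat.card N) (χ : Cfsg.IrrCharacter (G ⧸ N)) (ψ : Cfsg.IrrCharacter G) (hψ : ψ ∈ Cfsg.blockOf M ((χ : G ⧸ N → ℂ) ∘ QuotientGroup.mk)) : ∃ ψ' : Cfsg.IrrCharacter (G ⧸ N), (ψ : G → ℂ) = (ψ' : G ⧸ N → ℂ) ∘ QuotientGroup.mk ∧ Cfsg.SameBlock M (χ : G ⧸ N → ℂ) (ψ' : G ⧸ N → ℂ) := by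
  haveI := Fintype.ofFinite G
  have hinf : IsIrrCharacter G ((χ : G ⧸ N → ℂ) ∘ QuotientGroup.mk) :=
    Char.isIrrCharacter_comp χ.2 (QuotientGroup.mk' N) (QuotientGroup.mk'_surjective N)
  have htriv := trivialOn_of_sameBlock hM N hN (χ := ⟨_, hinf⟩) (ψ := ψ) hψ (fun n hn => by
    change (χ : G ⧸ N → ℂ) (n : G ⧸ N) = (χ : G ⧸ N → ℂ) ((1 : G) : G ⧸ N)
    rw [(QuotientGroup.eq_one_iff n).mpr hn, QuotientGroup.mk_one])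
  obtain ⟨φ, hφ, hg⟩ := Char.irr_exists_descend ψ.2 N htriv
  have he : (ψ : G → ℂ) = φ ∘ QuotientGroup.mk := funext hg
  refine ⟨⟨φ, hφ⟩, he, sameBlock_of_comp_mk hM N hN (ψ := ⟨φ, hφ⟩) ?_⟩
  change SameBlock M _ (φ ∘ QuotientGroup.mk)
  rw [← he]
  exact hψ

end Cfsg.Agent.S0967
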