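import Cfsg.Prelude.Def_Blocks
import Cfsg.Agent.Brauer.RootBlockCount

set_option autoImplicit false
open Cfsg

namespace Cfsg.Agent.S0968

theorem result {G : Type*} [Group G] [Finite G] (p : ℕ) [Fact p.Prime] (M : Ideal Cfsg.AlgInt) (hM : Cfsg.IsPModular p M) (P : Subgroup G) (hP : IsPGroup p P) (hG : P ⊔ Subgroup.centralizer (P : Set G) = ⊤) (B : Set (Cfsg.IrrCharacter G)) (hB : Cfsg.IsPBlock M B) (hD : Cfsg.IsDefectGroup p M B P) : (∃! θ : Cfsg.IrrCharacter G, θ ∈ B ∧ ∀ x ∈ P, (θ : G → ℂ) x = (θ : G → ℂ) 1) ∧ (∀ θ ∈ B, (∀ x ∈ P, (θ : G → ℂ) x = (θ : G → ℂ) 1) → (Cfsg.charDegree (θ : G → ℂ)).factorization p = P.index.factorization p) ∧ Nat.card B = Nat.card (ConjClasses P) := by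
  haveI := Fintype.ofFinite G
  haveI : M.IsPrime := hM.2.1.isPrime
  have R : Cfsg.Agent.Brauer.RootData M p P B := ⟨hM, hG, hB, hD⟩
  obtain ⟨θ, hθ, hθP⟩ := R.exists_trivialOn
  exact ⟨⟨θ, ⟨hθ, hθP⟩, fun θ' h => R.trivialOn_unique h.1 hθ h.2 hθP⟩,
    fun θ' h h' => R.factorization_degree h h', R.card_eq hθ hθP⟩

end Cfsg.Agent.S0968
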