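import Cfsg.Prelude.Def_Blocks
import Cfsg.Agent.Brauer.CentralDefect

set_option autoImplicit false
open Cfsg

namespace Cfsg.Agent.S0969

open Cfsg.Agent.Block

theorem result {G : Type*} [Group G] [Finite G] (p : ℕ) [Fact p.Prime] (M : Ideal Cfsg.AlgInt) (hM : Cfsg.IsPModular p M) (D : Subgroup G) (hD : IsPGroup p D) (hDZ : D ≤ Subgroup.center G) (χ : Cfsg.IrrCharacter G) (hdeg : (Cfsg.charDegree (χ : G → ℂ)).factorization p = D.index.factorization p) : Cfsg.IsDefectGroup p M (Cfsg.blockOf M (χ : G → ℂ)) D ∧ ∀ g x : G, Cfsg.IsPPart p g x → x ∉ D → (χ : G → ℂ) g = 0 := by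
  haveI := Fintype.ofFinite G
  haveI : M.IsPrime := hM.2.1.isPrime
  haveI : D.Normal := ⟨fun d hd g => by
    rw [Subgroup.mem_center_iff.mp (hDZ hd) g, mul_inv_cancel_right]; exact hd⟩
  obtain ⟨h1, -, h3⟩ := Cfsg.Agent.Brauer.central_defect hM D hD hDZ χ hdeg
  refine ⟨?_, fun g x hx hxD => h1 g (by rwa [← pPart_eq_of_isPPart hM.1 hx])⟩
  have hB : Cfsg.IsPBlock M (Cfsg.blockOf M (χ : G → ℂ)) := isPBlock_blockOf χ
  obtain ⟨E, hE⟩ := exists_isDefectGroup (p := p) (M := M) hB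
  have hle := normal_le_isDefectGroup hM hB hE hD
  have heq : D = E := Subgroup.eq_of_le_of_card_ge hle (by
    rw [h3, card_isDefectGroup hM hB hE])
  rwa [heq]

end Cfsg.Agent.S0969
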