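import Cfsg.Prelude.Def_Blocks
import Cfsg.Agent.Brauer.CanonicalChar

set_option autoImplicit false
open Cfsg

namespace Cfsg.Agent.S0972

open Cfsg.Agent.Brauer Cfsg.Agent.Block

theorem result {G : Type*} [Group G] [Finite G] (p : ℕ) [Fact p.Prime] (M : Ideal Cfsg.AlgInt) (hM : Cfsg.IsPModular p M) (B : Set (Cfsg.IrrCharacter G)) (hB : Cfsg.IsPBlock M B) (P : Subgroup G) [P.Normal] (hP : Cfsg.IsDefectGroup p M B P) : (∀ a ∈ P, ∀ c ∈ P, a * c = c * a) ↔ ∀ χ ∈ B, Cfsg.blockHeight p B (χ : G → ℂ) = 0 := by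
  classical
  haveI := Fintype.ofFinite G
  haveI : M.IsPrime := hM.2.1.isPrime
  obtain ⟨g, hg, hgP⟩ := isDefectGroup_iff.1 hP
  have hfac := factorization_card_eq_of_classDefect hgP
  have hidx : (Subgroup.centralizer ({g} : Set G)).index.factorization p = P.index.factorization p := by
    have h := congrArg (fun n => Nat.factorization n p) (Subgroup.card_mul_index P)
    simp only [Nat.factorization_mul Nat.card_pos.ne' Subgroup.index_ne_zero_of_finite,
      Finsupp.add_apply] at h
    omega
  constructor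
  · intro hab χ _
    rw [blockHeight_eq hM hB hg, hidx, Nat.sub_eq_zero_iff_le]
    obtain ⟨n, ρ, hρ, he⟩ := χ.2
    haveI := hρ
    have hdvd := CharInd.finrank_dvd_index_of_comm_normal ρ P hab
    have hdeg : Cfsg.charDegree (χ : G → ℂ) = Module.finrank ℂ (Fin n → ℂ) := by
      rw [Cfsg.charDegree, ← he, ρ.char_one]
      simp
    rw [hdeg]
    refine (Nat.factorization_le_iff_dvd ?_ Subgroup.index_ne_zero_of_finite).2 hdvd p
    rw [← hdeg]
    exact (irr_one_eq_charDegree χ.2).2.1.ne'
  · intro h0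
    by_contra hnab
    obtain ⟨L, hL⟩ : ∃ L : Subgroup G, L = P ⊔ Subgroup.centralizer (P : Set G) := ⟨_, rfl⟩
    haveI : L.Normal := hL ▸ inferInstance
    haveI := Fintype.ofFinite L
    obtain ⟨b, R, hind, θ, hθ, hθP, horb⟩ := exists_canonical hM hB P hP L hL
    have hPL : P ≤ L := hL ▸ le_sup_left
    let PL := P.subgroupOf L
    -- a nonlinear character of `P`
    obtain ⟨η, hη⟩ : ∃ η : Cfsg.IrrCharacter PL, (η : PL → ℂ) 1 ≠ 1 := by
      by_contra hall
      push Not at hall
      refine hnab fun a ha c hc => ?_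
      by_contra hne
      have hne' : ((⟨⟨a, hPL ha⟩, ha⟩ : PL) * ⟨⟨c, hPL hc⟩, hc⟩ * (⟨⟨a, hPL ha⟩, ha⟩ : PL)⁻¹ *
          (⟨⟨c, hPL hc⟩, hc⟩ : PL)⁻¹) ≠ 1 := by
        intro h
        have h1 := congrArg (fun t : PL => ((t : L) : G)) h
        simp only [Subgroup.coe_mul, Subgroup.coe_inv, Subgroup.coe_one] at h1
        rw [mul_inv_eq_one, mul_inv_eq_iff_eq_mul] at h1
        exact hne h1
      obtain ⟨ψ, hψ⟩ := Char.exists_irr_ne_degree hne'
      exact hψ ((Char.linear_eq_one_of_mem_commutator (Char.isCharacter_of_irr ψ.2) (hall ψ)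
        (Subgroup.commutator_mem_commutator (Subgroup.mem_top _) (Subgroup.mem_top _))).trans
        (hall ψ).symm)
    obtain ⟨χ', hχ', hχη⟩ := R.exists_onDefect_eq hθ hθP η
    obtain ⟨χ, hχ, hover⟩ := exists_over_of_induced hM hind hχ'
    -- the degree of `χ'`
    obtain ⟨d, hd0, hd⟩ := Char.irr_one_pos θ.2
    obtain ⟨d', hd'0, hd'⟩ := Char.irr_one_pos χ'.2
    obtain ⟨e, he0, he, hedvd⟩ := Char.irr_degree_dvd_card η.2
    have hd'e : d' = e * d := by
      have h1 := congrFun hχη (1 : PL)
      rw [RootData.onDefect, OneMemClass.coe_one, hd', hd, he] at h1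
      rw [div_eq_iff (Nat.cast_ne_zero.2 hd0.ne')] at h1
      exact_mod_cast h1
    have hp_e : p ∣ e := by
      obtain ⟨i, hi⟩ := IsPGroup.iff_card.mp R.isPGroup
      rw [hi] at hedvd
      obtain ⟨j, -, hj⟩ := (Nat.dvd_prime_pow hM.1).1 hedvd
      rcases Nat.eq_zero_or_pos j with h | h
      · exact absurd (by rw [he, hj, h, pow_zero, Nat.cast_one]) hη
      · rw [hj]; exact dvd_pow_self p h.ne'
    have hdv : d.factorization p = PL.index.factorization p := by
      rw [← R.factorization_degree hθ hθP, Char.charDegree_of_eq hd]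
    -- the orbit of `χ'` is at least as long
    have hstab : conjStab L (χ' : L → ℂ) ≤ conjStab L (θ : L → ℂ) := by
      intro x hx
      change CharInd.conjChar L x (θ : L → ℂ) = (θ : L → ℂ)
      have hmem : conjIrr L x θ ∈ b := by
        have h1 := sameBlock_conjChar L (pBlock_sameBlock hind.1 hχ' hθ) x
        rw [(hx : CharInd.conjChar L x (χ' : L → ℂ) = _)] at h1
        rw [pBlock_eq hind.1 hχ']
        exact h1
      have htriv : ∀ y ∈ PL, (conjIrr L x θ : L → ℂ) y = (conjIrr L x θ : L → ℂ) 1 := by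
        intro y hy
        change CharInd.conjChar L x (θ : L → ℂ) y = CharInd.conjChar L x (θ : L → ℂ) 1
        rw [CharInd.conjChar_apply, CharInd.conjChar_apply,
          hθP _ ((inferInstance : P.Normal).conj_mem (y : G) hy x)]
        exact congrArg _ (Subtype.ext (by simp))
      exact congrArg Subtype.val (R.trivialOn_unique hmem hθ htriv hθP)
    obtain ⟨k, hk⟩ := Char.isCharacter_classInner_nat
      (CharInd.isCharacter_res L (Char.isCharacter_of_irr χ.2)) χ'
    have hk0 : k ≠ 0 := fun h => hover (by rw [hk, h, Nat.cast_zero])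
    set o := (CharInd.conjClass L (θ : L → ℂ)).card
    set o' := (CharInd.conjClass L (χ' : L → ℂ)).card
    have hoo : o.factorization p ≤ o'.factorization p := by
      obtain ⟨t, ht⟩ := Subgroup.card_dvd_of_le hstab
      have h1 := card_conjClass_mul_stab L (θ : L → ℂ)
      rw [← card_conjClass_mul_stab L (χ' : L → ℂ), ht, mul_comm (Nat.card _) t, ← mul_assoc] at h1
      have h2 := Nat.eq_of_mul_eq_mul_right Nat.card_pos h1
      have ho' : o' ≠ 0 := Finset.card_ne_zero.2 ⟨_, (CharInd.mem_conjClass L).2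
        ⟨1, (CharInd.conjChar_one L _).symm⟩⟩
      have ho : o ≠ 0 := Finset.card_ne_zero.2 ⟨_, (CharInd.mem_conjClass L).2
        ⟨1, (CharInd.conjChar_one L _).symm⟩⟩
      have ht0 : t ≠ 0 := fun h => ho' (by simpa [o', h] using h2.symm)
      have h3 : (o * t).factorization p = o'.factorization p := congrArg (fun n => Nat.factorization n p) h2
      rw [Nat.factorization_mul ho ht0, Finsupp.add_apply] at h3
      omega
    have hχ1 : (χ : G → ℂ) 1 = ((k * o' * d' : ℕ) : ℂ) := by
      have h := congrFun (CharInd.clifford L χ.2 χ'.2 hover) 1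
      rw [hk] at h
      simp only [Pi.smul_apply, Finset.sum_apply, smul_eq_mul, OneMemClass.coe_one] at h
      rw [h, Finset.sum_congr rfl (g := fun _ => (d' : ℂ)), Finset.sum_const, nsmul_eq_mul]
      · push_cast; ring
      · intro ψ hψ
        obtain ⟨y, rfl⟩ := (CharInd.mem_conjClass L).1 hψ
        rw [CharInd.conjChar_apply, ← hd']
        exact congrArg _ (Subtype.ext (by simp))
    have h := h0 χ hχ
    rw [blockHeight_eq hM hB hg, hidx, Char.charDegree_of_eq hχ1, Nat.sub_eq_zero_iff_le] at h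
    have ho' : o' ≠ 0 := Finset.card_ne_zero.2 ⟨_, (CharInd.mem_conjClass L).2
      ⟨1, (CharInd.conjChar_one L _).symm⟩⟩
    have hv : P.index.factorization p = L.index.factorization p + PL.index.factorization p := by
      rw [← Subgroup.relIndex_mul_index hPL, Subgroup.relIndex,
        Nat.factorization_mul Subgroup.index_ne_zero_of_finite
        Subgroup.index_ne_zero_of_finite, Finsupp.add_apply, add_comm]
    have hpos := hM.1.factorization_pos_of_dvd he0.ne' hp_e
    rw [hd'e, Nat.factorization_mul (Nat.mul_ne_zero hk0 ho') (Nat.mul_ne_zero he0.ne' hd0.ne'),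
      Nat.factorization_mul hk0 ho', Nat.factorization_mul he0.ne' hd0.ne', Finsupp.add_apply,
      Finsupp.add_apply, Finsupp.add_apply, hv, hdv] at h
    omega

end Cfsg.Agent.S0972
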