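import Cfsg.Prelude.Def_Blocks
import Cfsg.Agent.Brauer.Transport

set_option autoImplicit false
open Cfsg

namespace Cfsg.Agent.S0973

open Cfsg.Agent.Brauer Cfsg.Agent.Block

universe u

theorem roots_conjugate {G : Type u} [Group G] [Fintype G] {p : ℕ} [Fact p.Prime]
    {M : Ideal Cfsg.AlgInt} (hM : Cfsg.IsPModular p M) {B : Set (Cfsg.IrrCharacter G)}
    {P : Subgroup G} (hP : Cfsg.IsDefectGroup p M B P) {L : Subgroup G}
    (hPL : P ≤ L) (hCL : Subgroup.centralizer (P : Set G) ≤ L)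
    (hLsup : L = P ⊔ Subgroup.centralizer (P : Set G))
    {b b' : Set (Cfsg.IrrCharacter L)} (hb : Cfsg.IsInducedBlock M L b B)
    (hb' : Cfsg.IsInducedBlock M L b' B) :
    ∃ n ∈ Subgroup.normalizer (P : Set G), ∀ θ ∈ b, ∃ θ' ∈ b', ∀ x : L,
      ∀ hx : n * (x : G) * n⁻¹ ∈ L, (θ' : L → ℂ) x = (θ : L → ℂ) ⟨n * (x : G) * n⁻¹, hx⟩ := by
  classical
  haveI : M.IsPrime := hM.2.1.isPrime
  have hLN : L ≤ Subgroup.normalizer (P : Set G) := hLsup ▸ le_normalizer_sup_centralizer P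
  have hPN : P ≤ Subgroup.normalizer (P : Set G) := Subgroup.le_normalizer
  haveI := Fintype.ofFinite (Subgroup.normalizer (P : Set G))
  haveI hPn : (P.subgroupOf (Subgroup.normalizer (P : Set G))).Normal :=
    normal_subgroupOf_normalizer P
  have hC : (Subgroup.centralizer (P : Set G)).subgroupOf (Subgroup.normalizer (P : Set G)) =
      Subgroup.centralizer ((P.subgroupOf (Subgroup.normalizer (P : Set G)) :
        Subgroup (Subgroup.normalizer (P : Set G))) : Set (Subgroup.normalizer (P : Set G))) := by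
    ext x
    exact (centralizer_subgroupOf_iff hPN x).symm
  haveI hLn : (L.subgroupOf (Subgroup.normalizer (P : Set G))).Normal := by
    rw [hLsup, Subgroup.subgroupOf_sup hPN (Subgroup.centralizer_le_normalizer _), hC]
    infer_instance
  haveI := Fintype.ofFinite (L.subgroupOf (Subgroup.normalizer (P : Set G)))
  have hp : IsPGroup p P := isDefectGroup_isPGroup hP
  -- blocks of `N` induced by the two roots
  have key : ∀ c : Set (Cfsg.IrrCharacter L), Cfsg.IsInducedBlock M L c B →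
      ∃ β, Cfsg.IsInducedBlock M (L.subgroupOf (Subgroup.normalizer (P : Set G)))
          (irrComp (Subgroup.subgroupOfEquivOfLe hLN) '' c) β ∧
        Cfsg.IsInducedBlock M (Subgroup.normalizer (P : Set G)) β B ∧
        Cfsg.IsDefectGroup p M β (P.subgroupOf (Subgroup.normalizer (P : Set G))) := by
    intro c hc
    obtain ⟨β, hβ⟩ := inducedBlockDefined_of_brauer hM
      (P := P.subgroupOf (Subgroup.normalizer (P : Set G)))
      (H := L.subgroupOf (Subgroup.normalizer (P : Set G))) hp.comap_subtype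
      (Subgroup.comap_mono hPL) (hC ▸ Subgroup.comap_mono hCL)
      ((Subgroup.normalizer_eq_top_iff.mpr hPn).symm ▸ le_top)
      (isPBlock_image_irrComp (Subgroup.subgroupOfEquivOfLe hLN) hc.1)
    have hβB := isInducedBlock_trans hLN hc hβ
    obtain ⟨D, hD⟩ := exists_isDefectGroup (p := p) (M := M) hβ.2.1
    rw [defectGroup_root_eq hM hPN le_rfl hβB hP hD] at hD
    exact ⟨β, hβ, hβB, hD⟩
  obtain ⟨β, hβ, hβB, hβD⟩ := key b hb
  obtain ⟨β', hβ', hβB', -⟩ := key b' hb'
  have heq := eq_of_induced_of_defectGroup hM hp hβD hβB hβB'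
  subst heq
  obtain ⟨ξ, hξ⟩ := pBlock_nonempty hb.1
  obtain ⟨ξ', hξ'⟩ := pBlock_nonempty hb'.1
  obtain ⟨η, hη⟩ := pBlock_nonempty hβ.2.1
  have hcongr : ∀ y : (L.subgroupOf (Subgroup.normalizer (P : Set G))),
      MemLocalIdeal M (inducedCentralChar _
        (irrComp (Subgroup.subgroupOfEquivOfLe hLN) ξ : _ → ℂ) (y : Subgroup.normalizer (P : Set G))
      - inducedCentralChar _
        (irrComp (Subgroup.subgroupOfEquivOfLe hLN) ξ' : _ → ℂ) (y : Subgroup.normalizer (P : Set G))) :=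
    fun y => by
      simpa using memLocalIdeal_sub
        (hβ.2.2 _ (Set.mem_image_of_mem _ hξ) η hη (y : Subgroup.normalizer (P : Set G)))
        (hβ'.2.2 _ (Set.mem_image_of_mem _ hξ') η hη (y : Subgroup.normalizer (P : Set G)))
  obtain ⟨x, hx⟩ := exists_conjIrr_mem_of_congr (L.subgroupOf (Subgroup.normalizer (P : Set G))) hM
    (isPBlock_image_irrComp _ hb.1) (Set.mem_image_of_mem _ hξ) hcongr
  refine ⟨((x : Subgroup.normalizer (P : Set G)) : G)⁻¹, inv_mem x.2, fun θ hθ => ?_⟩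
  have hsb := sameBlock_conjChar (L.subgroupOf (Subgroup.normalizer (P : Set G)))
    (pBlock_sameBlock (isPBlock_image_irrComp _ hb.1) hx (Set.mem_image_of_mem
      (irrComp (Subgroup.subgroupOfEquivOfLe hLN)) hθ)) x⁻¹
  have hmem : conjIrr (L.subgroupOf (Subgroup.normalizer (P : Set G))) x⁻¹
      (irrComp (Subgroup.subgroupOfEquivOfLe hLN) θ)
      ∈ irrComp (Subgroup.subgroupOfEquivOfLe hLN) '' b' := by
    rw [pBlock_eq (isPBlock_image_irrComp _ hb'.1) (Set.mem_image_of_mem _ hξ')]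
    have e : CharInd.conjChar (L.subgroupOf (Subgroup.normalizer (P : Set G))) x⁻¹
        (conjIrr (L.subgroupOf (Subgroup.normalizer (P : Set G))) x
          (irrComp (Subgroup.subgroupOfEquivOfLe hLN) ξ') : _ → ℂ)
        = (irrComp (Subgroup.subgroupOfEquivOfLe hLN) ξ' : _ → ℂ) := by
      simp only [conjIrr]
      rw [← CharInd.conjChar_mul, mul_inv_cancel, CharInd.conjChar_one]
    rw [e] at hsb
    exact hsb
  obtain ⟨θ', hθ', he⟩ := hmem
  refine ⟨θ', hθ', fun y hy => ?_⟩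
  have h := congrFun (congrArg Subtype.val he)
    ((Subgroup.subgroupOfEquivOfLe hLN).symm y)
  rw [coe_irrComp, Function.comp_apply, MulEquiv.apply_symm_apply] at h
  rw [h]
  rfl

/-- The extended first main theorem. -/
theorem result {G : Type*} [Group G] [Finite G] (p : ℕ) [Fact p.Prime] (M : Ideal Cfsg.AlgInt) (hM : Cfsg.IsPModular p M) (B : Set (Cfsg.IrrCharacter G)) (hB : Cfsg.IsPBlock M B) (P : Subgroup G) (hP : Cfsg.IsDefectGroup p M B P) : (∃ b : Set (Cfsg.IrrCharacter ↥(P ⊔ Subgroup.centralizer (P : Set G))), Cfsg.IsDefectGroup p M b (P.subgroupOf (P ⊔ Subgroup.centralizer (P : Set G))) ∧ Cfsg.IsInducedBlock M (P ⊔ Subgroup.centralizer (P : Set G)) b B) ∧ ∀ b b' : Set (Cfsg.IrrCharacter ↥(P ⊔ Subgroup.centralizer (P : Set G))), Cfsg.IsInducedBlock M (P ⊔ Subgroup.centralizer (P : Set G)) b B → Cfsg.IsInducedBlock M (P ⊔ Subgroup.centralizer (P : Set G)) b' B → ∃ n ∈ Subgroup.normalizer (P : Set G), ∀ θ ∈ b, ∃ θ' ∈ b', ∀ x : ↥(P ⊔ Subgroup.centralizer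 (P : Set G)), ∀ hx : n * (x : G) * n⁻¹ ∈ P ⊔ Subgroup.centralizer (P : Set G), (θ' : ↥(P ⊔ Subgroup.centralizer (P : Set G)) → ℂ) x = (θ : ↥(P ⊔ Subgroup.centralizer (P : Set G)) → ℂ) ⟨n * (x : G) * n⁻¹, hx⟩ := by
  classical
  haveI := Fintype.ofFinite G
  haveI : M.IsPrime := hM.2.1.isPrime
  refine ⟨?_, fun b b' hb hb' => roots_conjugate hM hP le_sup_left le_sup_right rfl hb hb'⟩
  obtain ⟨b, hb⟩ := exists_isInducedBlock_of_subConj hM (le_sup_left : P ≤ P ⊔ _) le_sup_right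
    (le_normalizer_sup_centralizer P) hB hP (subConj_of_le le_rfl)
  obtain ⟨D, hD⟩ := exists_isDefectGroup (p := p) (M := M) hb.1
  rw [defectGroup_root_eq hM le_sup_left (le_normalizer_sup_centralizer P) hb hP hD] at hD
  exact ⟨b, hD, hb⟩

end Cfsg.Agent.S0973
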