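import Cfsg.Statements.S0986
import Cfsg.Agent.SmallGroups.Basic

set_option autoImplicit false
open Cfsg

namespace Cfsg.Agent.S0986
open Subgroup

/-- A `p`-subgroup properly containing `D` meets the normalizer of `D` in more than `D`. -/
theorem exists_mem_normalizer {G : Type*} [Group G] [Finite G] {p : ℕ} [Fact p.Prime]
    {A D : Subgroup G} (hA : IsPGroup p ↥A) (hDA : D < A) :
    ∃ x ∈ A, x ∈ normalizer (D : Set G) ∧ x ∉ D := by
  have : Group.IsNilpotent ↥A := hA.isNilpotent
  have h := Group.normalizerCondition_of_isNilpotent (D.subgroupOf A)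
    (lt_top_iff_ne_top.mpr fun h => hDA.not_ge (Subgroup.subgroupOf_eq_top.mp h))
  obtain ⟨x, hx1, hx2⟩ := SetLike.exists_of_lt h
  rw [← subgroupOf_normalizer_eq hDA.le] at hx1
  exact ⟨x, x.2, hx1, hx2⟩

/-- Let P and Q be distinct Sylow p-subgroups of a finite group G chosen so that the order of P ∩ Q is as large as possible among intersections of two distinct Sylow p-subgroups, and let N be the normalizer of P ∩ Q. Then N has more than one Sylow p-subgroup, any two distinct Sylow p-subgroups of N intersect exactly in P ∩ Q, and each Sylow p-subgroup of N lies in exactly one Sylow p-subgroup of G. -/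
theorem result {G : Type*} [Group G] [Finite G] (p : ℕ) [Fact p.Prime] (P Q : Sylow p G) (hPQ : P ≠ Q) (hmax : ∀ P' Q' : Sylow p G, P' ≠ Q' → Nat.card ↥((P' : Subgroup G) ⊓ (Q' : Subgroup G)) ≤ Nat.card ↥((P : Subgroup G) ⊓ (Q : Subgroup G))) : 1 < Nat.card (Sylow p ↥(Subgroup.normalizer (((P : Subgroup G) ⊓ (Q : Subgroup G) : Subgroup G) : Set G))) ∧ (∀ S T : Sylow p ↥(Subgroup.normalizer (((P : Subgroup G) ⊓ (Q : Subgroup G) : Subgroup G) : Set G)), S ≠ T → (S : Subgroup _) ⊓ (T : Subgroup _) = ((P : Subgroup G) ⊓ (Q : Subgroup G)).subgroupOf (Subgroup.normalizer (((P : Subgroup G) ⊓ (Q : Subgroup G) : Subgroup G) : Set G))) ∧ ∀ S : Sylow p ↥(Subgroup.normalizer (((P : Subgroup G) ⊓ (Q : Subgroup G) : Subgroup G) : Set G)), ∃! T : Sylow p G, (S : Subgroup _).map (Subgroup.normalizer (((P : Subgroup G) ⊓ (Q : Subgroup G) : Subgroup G) : Set G)).subtype ≤ (T : Subgroup G) := by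
  classical
  set D : Subgroup G := (P : Subgroup G) ⊓ (Q : Subgroup G) with hD
  set N := normalizer (D : Set G) with hN
  have hDP : ∀ A B : Sylow p G, A ≠ B → (A : Subgroup G) ⊓ (B : Subgroup G) < (A : Subgroup G) := by
    intro A B hAB
    refine lt_of_le_of_ne inf_le_left fun h => hAB (Sylow.ext ?_)
    exact (A.3 B.2 (inf_eq_left.mp h)).symm
  have hDN : D ≤ N := Subgroup.le_normalizer
  have hDp : IsPGroup p ↥D := P.2.to_le inf_le_left
  have : (D.subgroupOf N).Normal :=
    (Subgroup.normal_subgroupOf_iff_le_normalizer hDN).mpr le_rfl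
  have hDS : ∀ S : Sylow p ↥N, D.subgroupOf N ≤ (S : Subgroup ↥N) := fun S =>
    IsPGroup.le_sylow_of_normal (N := D.subgroupOf N) hDp.comap_subtype S
  have hmaxeq : ∀ A B : Sylow p G, ∀ E : Subgroup G, D < E → E ≤ (A : Subgroup G) →
      E ≤ (B : Subgroup G) → A = B := by
    intro A B E hE hEA hEB
    by_contra hne
    have h1 : Nat.card ↥E ≤ Nat.card ↥D :=
      (Subgroup.card_le_of_le (le_inf hEA hEB)).trans (hmax A B hne)
    exact hE.ne (Subgroup.eq_of_le_of_card_ge hE.le h1)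
  obtain ⟨x, hxP, hxN, hxD⟩ := exists_mem_normalizer P.2 (hDP P Q hPQ)
  obtain ⟨y, hyQ, hyN, hyD⟩ := exists_mem_normalizer Q.2
    (show D < (Q : Subgroup G) by rw [hD, inf_comm]; exact hDP Q P hPQ.symm)
  let Px : Subgroup ↥N := (P : Subgroup G).subgroupOf N
  have hPx : IsPGroup p ↥Px := P.2.comap_subtype
  have hstrict : ∀ S : Sylow p ↥N, D.subgroupOf N < (S : Subgroup ↥N) := by
    intro S
    refine lt_of_le_of_ne (hDS S) fun h => ?_
    obtain ⟨S', hS'⟩ := hPx.exists_le_sylow
    have hc : Nat.card ↥(S' : Subgroup ↥N) ≤ Nat.card ↥(S : Subgroup ↥N) :=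
      (Nat.card_congr (S'.equiv S).toEquiv).le
    rw [← h] at hc
    have heq : D.subgroupOf N = (S' : Subgroup ↥N) := Subgroup.eq_of_le_of_card_ge (hDS S') hc
    exact hxD (show (⟨x, hxN⟩ : ↥N) ∈ D.subgroupOf N from heq ▸ hS' (show (⟨x, hxN⟩ : ↥N) ∈ Px from hxP))
  have hmapD : ∀ S : Sylow p ↥N, D < (S : Subgroup ↥N).map N.subtype := by
    intro S
    have := Subgroup.map_lt_map_iff_of_injective (N.subtype_injective) |>.mpr (hstrict S)
    rwa [Subgroup.subgroupOf_map_subtype, inf_eq_left.mpr hDN] at this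
  have huniq : ∀ S : Sylow p ↥N, ∃! T : Sylow p G, (S : Subgroup ↥N).map N.subtype ≤ (T : Subgroup G) := by
    intro S
    obtain ⟨T, hT⟩ := (S.2.map N.subtype).exists_le_sylow
    exact ⟨T, hT, fun T' hT' => hmaxeq T' T _ (hmapD S) hT' hT⟩
  refine ⟨?_, ?_, huniq⟩
  · by_contra hle
    have h1 : Nat.card (Sylow p ↥N) = 1 := by
      have : 0 < Nat.card (Sylow p ↥N) := Nat.card_pos
      omega
    have : Subsingleton (Sylow p ↥N) := (Nat.card_eq_one_iff_unique.mp h1).1
    let S : Sylow p ↥N := default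
    obtain ⟨T, hT, -⟩ := huniq S
    have key : ∀ (A : Sylow p G) (z : G), z ∈ (A : Subgroup G) → z ∈ N → z ∉ D → D ≤ (A : Subgroup G) →
        A = T := by
      intro A z hzA hzN hzD hDA
      obtain ⟨S', hS'⟩ := (A.2.comap_subtype (K := N)).exists_le_sylow
      rw [Subsingleton.elim S' S] at hS'
      refine hmaxeq A T (((A : Subgroup G).subgroupOf N).map N.subtype)
        (lt_of_le_of_ne ?_ fun h => hzD ?_) ?_ ((Subgroup.map_mono hS').trans hT)
      · rw [Subgroup.subgroupOf_map_subtype]; exact le_inf hDA hDN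
      · rw [h, Subgroup.subgroupOf_map_subtype]; exact ⟨hzA, hzN⟩
      · rw [Subgroup.subgroupOf_map_subtype]; exact inf_le_left
    exact hPQ ((key P x hxP hxN hxD inf_le_left).trans (key Q y hyQ hyN hyD inf_le_right).symm)
  · intro S T hST
    obtain ⟨S', hS', -⟩ := huniq S
    obtain ⟨T', hT', -⟩ := huniq T
    have hS'N : (S : Subgroup ↥N) = (S' : Subgroup G).subgroupOf N :=
      (S.3 S'.2.comap_subtype (fun z hz => hS' ⟨z, hz, rfl⟩)).symm
    have hT'N : (T : Subgroup ↥N) = (T' : Subgroup G).subgroupOf N :=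
      (T.3 T'.2.comap_subtype (fun z hz => hT' ⟨z, hz, rfl⟩)).symm
    have hne : S' ≠ T' := fun h => hST (Sylow.ext (by rw [hS'N, hT'N, h]))
    have hle : D ≤ (S' : Subgroup G) ⊓ (T' : Subgroup G) :=
      le_inf ((hmapD S).le.trans hS') ((hmapD T).le.trans hT')
    have heq : D = (S' : Subgroup G) ⊓ (T' : Subgroup G) :=
      Subgroup.eq_of_le_of_card_ge hle (hmax S' T' hne)
    rw [hS'N, hT'N, heq]
    ext z
    simp [Subgroup.mem_subgroupOf]

end Cfsg.Agent.S0986
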