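import Cfsg.Statements.S0987
import Cfsg.Agent.SmallGroups.Basic

set_option autoImplicit false
open Cfsg

namespace Cfsg.Agent.S0987
open Subgroup

/-- If a finite group has order pqr for primes p < q < r, then its Sylow r-subgroups are normal. -/
theorem result {G : Type*} [Group G] [Finite G] (p q r : ℕ) (hp : p.Prime) (hq : q.Prime) [Fact r.Prime] (hpq : p < q) (hqr : q < r) (hG : Nat.card G = p * q * r) (R : Sylow r G) : (R : Subgroup G).Normal := by
  have hr : r.Prime := Fact.out
  have := Fact.mk hp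
  have hne : ∀ {a b : ℕ}, a.Prime → b.Prime → a < b → ¬ a ∣ b := fun ha hb hab h =>
    absurd ((Nat.prime_dvd_prime_iff_eq ha hb).mp h) hab.ne
  have hmin : (Nat.card G).minFac = p := by
    have hne1 : Nat.card G ≠ 1 := fun h => hp.ne_one (Nat.dvd_one.mp (h ▸ hG ▸ Dvd.intro (q * r) (by ring)))
    have h1 := Nat.minFac_le_of_dvd hp.two_le (hG ▸ Dvd.intro (q * r) (by ring) : p ∣ Nat.card G)
    have h2 := Nat.minFac_dvd (Nat.card G)
    have hmp := Nat.minFac_prime hne1
    rw [hG] at h1 h2 hmp ⊢
    rcases hmp.dvd_mul.mp h2 with h | h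
    · rcases hmp.dvd_mul.mp h with h | h
      · exact (Nat.prime_dvd_prime_iff_eq hmp hp).mp h
      · have := (Nat.prime_dvd_prime_iff_eq hmp hq).mp h; omega
    · have := (Nat.prime_dvd_prime_iff_eq hmp hr).mp h; omega
  let P : Sylow p G := default
  have hpqr : ¬ p ∣ q * r := fun h => (hp.dvd_mul.mp h).elim (hne hp hq hpq) (hne hp hr (hpq.trans hqr))
  have hPc : Nat.card ↥(P : Subgroup G) = p :=
    (SmallGroups.card_sylow_subgroup (a := 1) (m := q * r) (by rw [hG]; ring) hpqr P).trans (pow_one p)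
  have hcyc : IsCyclic ↥(P : Subgroup G) := isCyclic_of_prime_card hPc
  have hK := hcyc.isComplement' hmin
  set K := (MonoidHom.transferSylow P (hcyc.normalizer_le_centralizer hmin)).ker
  have hKn : K.Normal := MonoidHom.normal_ker _
  have hKc : Nat.card ↥K = r ^ 1 * q := by
    have h := hK.card_mul_card
    rw [hPc, hG] at h
    exact Nat.eq_of_mul_eq_mul_right hp.pos (by rw [h]; ring)
  have hqr' : ¬ r ∣ q := fun h => absurd ((Nat.prime_dvd_prime_iff_eq hr hq).mp h) hqr.ne'
  have h1 : Nat.card (Sylow r ↥K) = 1 := by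
    rcases (Nat.dvd_prime hq).mp (SmallGroups.card_sylow_dvd hKc) with h | h
    · exact h
    · exfalso
      have h2 := card_sylow_modEq_one r ↥K
      rw [h, Nat.ModEq, Nat.mod_eq_of_lt hqr, Nat.mod_eq_of_lt hr.one_lt] at h2
      exact hq.ne_one h2
  have : Subsingleton (Sylow r ↥K) := (Nat.card_eq_one_iff_unique.mp h1).1
  let S : Sylow r ↥K := default
  have hSn : (S : Subgroup ↥K).Normal := S.normal_of_subsingleton
  have hSchar : (S : Subgroup ↥K).Characteristic := S.characteristic_of_normal hSn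
  have hRn : ((S : Subgroup ↥K).map K.subtype).Normal := ConjAct.normal_of_characteristic_of_normal
  have hrc : ∀ T : Sylow r G, Nat.card ↥(T : Subgroup G) = r := fun T =>
    (SmallGroups.card_sylow_subgroup (a := 1) (m := p * q) (by rw [hG]; ring)
      (fun h => (hr.dvd_mul.mp h).elim
        (fun h => absurd ((Nat.prime_dvd_prime_iff_eq hr hp).mp h) (hpq.trans hqr).ne') hqr') T).trans
      (pow_one r)
  have hSc : Nat.card ↥((S : Subgroup ↥K).map K.subtype) = r := by
    rw [← Nat.card_congr ((S : Subgroup ↥K).equivMapOfInjective _ K.subtype_injective).toEquiv,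
      SmallGroups.card_sylow_subgroup hKc hqr' S, pow_one]
  have hle : (S : Subgroup ↥K).map K.subtype ≤ (R : Subgroup G) :=
    (IsPGroup.of_card (n := 1) (by rw [hSc, pow_one])).le_sylow_of_normal R
  rw [← Subgroup.eq_of_le_of_card_ge hle (by rw [hSc, hrc R])]
  exact hRn

end Cfsg.Agent.S0987
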