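import Cfsg.Statements.S0988
import Cfsg.Agent.SmallGroups.Basic

set_option autoImplicit false
open Cfsg

namespace Cfsg.Agent.S0988
open Subgroup

set_option linter.style.haveILetI false

variable {G : Type*} [Group G] [Finite G] [IsSimpleGroup G]

/-- No non-commutative simple group has order `p ^ 3 * r`. -/
theorem not_card_prime_cube_mul (hG : ¬ IsMulCommutative G) {p r : ℕ} (hp : p.Prime) (hr : r.Prime)
    (hne : p ≠ r) (h : Nat.card G = p ^ 3 * r) : False := by
  have := Fact.mk hp
  have := Fact.mk hr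
  have h1 := SmallGroups.card_sylow_mem hG (p := p) (a := 2) (m := r) h hr.ne_zero
  rw [Finset.mem_filter, Nat.mem_divisors] at h1
  obtain ⟨⟨hd, -⟩, hmod, hgt⟩ := h1
  have hnp : Nat.card (Sylow p G) = r := ((Nat.dvd_prime hr).mp hd).resolve_left (by omega)
  rw [hnp] at hmod
  have hpr : p < r := by
    rcases Nat.lt_or_gt_of_ne hne with h' | h'
    · exact h'
    · rw [Nat.mod_eq_of_lt h'] at hmod
      exact absurd hmod hr.ne_one
  have h2 := SmallGroups.card_sylow_mem hG (p := r) (a := 0) (m := p ^ 3) (by rw [h]; ring)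
    (pow_ne_zero _ hp.ne_zero)
  rw [Finset.mem_filter, Nat.mem_divisors] at h2
  obtain ⟨⟨hd2, -⟩, hmod2, hgt2⟩ := h2
  obtain ⟨i, hi, hi'⟩ := (Nat.dvd_prime_pow hp).mp hd2
  interval_cases i
  · simp only [pow_zero] at hi'; omega
  · rw [pow_one] at hi'
    rw [hi', Nat.mod_eq_of_lt hpr] at hmod2
    exact hp.ne_one hmod2
  · -- `r ∣ (p - 1) * (p + 1)` gives `r = p + 1`
    rw [hi'] at hmod2
    have hdvd : r ∣ (p + 1) * (p - 1) := by
      rw [← Nat.sq_sub_sq, one_pow]
      exact (Nat.modEq_iff_dvd' (Nat.one_le_pow _ _ hp.pos)).mp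
        (by rw [Nat.ModEq, hmod2, Nat.mod_eq_of_lt hr.one_lt])
    have hr1 : r = p + 1 := by
      rcases hr.dvd_mul.mp hdvd with h' | h'
      · have := Nat.le_of_dvd (by omega) h'; omega
      · have := Nat.le_of_dvd (by have := hp.two_le; omega) h'; omega
    have hp2 : p = 2 := by
      rcases hp.eq_two_or_odd with h' | h'
      · exact h'
      · have := hr.eq_two_or_odd; have := hp.two_le; omega
    subst hp2
    have h3 := SmallGroups.two_mul_card_dvd_factorial_card_sylow hG (p := 2) (h ▸ Dvd.intro (4 * r) (by ring))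
    rw [hnp, hr1, h, hr1] at h3
    norm_num [Nat.factorial] at h3
  · have hsyl : ∀ R : Sylow r G, Nat.card ↥(R : Subgroup G) = r := fun R =>
      (SmallGroups.card_sylow_subgroup (a := 1) (m := p ^ 3) (by rw [h]; ring)
        (fun hd => hne ((Nat.prime_dvd_prime_iff_eq hr hp).mp (hr.dvd_of_dvd_pow hd)).symm) R).trans
        (pow_one r)
    have hcount := SmallGroups.card_orderOf_eq_prime hsyl
    rw [hi'] at hcount
    classical
    have := Fintype.ofFinite G
    have hcompl : Nat.card {g : G // ¬ orderOf g = r} = p ^ 3 := by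
      rw [Nat.card_eq_fintype_card, Fintype.card_subtype_compl, ← Nat.card_eq_fintype_card,
        ← Nat.card_eq_fintype_card, hcount, h, ← Nat.mul_sub]
      have := hr.one_lt
      rw [show r - (r - 1) = 1 by omega, mul_one]
    have hall : ∀ P : Sylow p G, ((P : Subgroup G) : Set G) = {g : G | ¬ orderOf g = r} := by
      intro P
      refine Set.eq_of_subset_of_ncard_le (fun g hg hord => ?_) ?_ (Set.toFinite _)
      · obtain ⟨k, hk⟩ := P.2.exists_card_eq
        have hd3 := hk ▸ Subgroup.orderOf_dvd_natCard _ hg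
        rw [hord] at hd3
        exact hne ((Nat.prime_dvd_prime_iff_eq hr hp).mp (hr.dvd_of_dvd_pow hd3)).symm
      · rw [← Nat.card_coe_set_eq, ← Nat.card_coe_set_eq]
        have hP : Nat.card ↥(P : Subgroup G) = p ^ 3 := SmallGroups.card_sylow_subgroup h
          (fun hd => hne ((Nat.prime_dvd_prime_iff_eq hp hr).mp hd)) P
        exact (hcompl.trans hP.symm).le
    have : Subsingleton (Sylow p G) :=
      ⟨fun a b => Sylow.ext (SetLike.coe_injective ((hall a).trans (hall b).symm))⟩
    have := Nat.card_unique (α := Sylow p G)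
    omega

/-- No non-commutative simple group has order `p ^ 2 * q ^ 2`. -/
theorem not_card_sq_mul_sq (hG : ¬ IsMulCommutative G) {p q : ℕ} (hp : p.Prime) (hq : q.Prime)
    (hlt : p < q) (h : Nat.card G = p ^ 2 * q ^ 2) : False := by
  have := Fact.mk hp
  have := Fact.mk hq
  have h2 := SmallGroups.card_sylow_mem hG (p := q) (a := 1) (m := p ^ 2) (by rw [h]; ring)
    (pow_ne_zero _ hp.ne_zero)
  rw [Finset.mem_filter, Nat.mem_divisors] at h2
  obtain ⟨⟨hd2, -⟩, hmod2, hgt2⟩ := h2
  obtain ⟨i, hi, hi'⟩ := (Nat.dvd_prime_pow hp).mp hd2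
  interval_cases i
  · simp only [pow_zero] at hi'; omega
  · rw [pow_one] at hi'
    rw [hi', Nat.mod_eq_of_lt hlt] at hmod2
    exact hp.ne_one hmod2
  · rw [hi'] at hmod2
    have hdvd : q ∣ (p + 1) * (p - 1) := by
      rw [← Nat.sq_sub_sq, one_pow]
      exact (Nat.modEq_iff_dvd' (Nat.one_le_pow _ _ hp.pos)).mp
        (by rw [Nat.ModEq, hmod2, Nat.mod_eq_of_lt hq.one_lt])
    have hq1 : q = p + 1 := by
      rcases hq.dvd_mul.mp hdvd with h' | h'
      · have := Nat.le_of_dvd (by omega) h'; omega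
      · have := Nat.le_of_dvd (by have := hp.two_le; omega) h'; omega
    have hp2 : p = 2 := by
      rcases hp.eq_two_or_odd with h' | h'
      · exact h'
      · have := hq.eq_two_or_odd; have := hp.two_le; omega
    subst hp2
    have h3 := SmallGroups.two_mul_card_dvd_factorial_card_sylow hG (p := q)
      (h ▸ Dvd.intro (4 * q) (by ring))
    rw [hi', h, hq1] at h3
    norm_num [Nat.factorial] at h3

theorem card_mulAut_dvd {p : ℕ} (hp : p.Prime) (V : Type*) [CommGroup V] [Finite V]
    (hV : Nat.card V = p ^ 2) (hexp : ∀ x : V, x ^ p = 1) :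
    Nat.card (MulAut V) ∣ (p ^ 2 - 1) * (p ^ 2 - p) := by
  classical
  have := Fact.mk hp
  have := Fintype.ofFinite V
  let X := Σ x : {x : V // x ≠ 1}, {y : V // y ∉ zpowers x.1}
  have hord : ∀ x : V, x ≠ 1 → Nat.card ↥(zpowers x) = p := fun x hx => by
    rw [Nat.card_zpowers, orderOf_eq_prime (hexp x) hx]
  have hcardX : Nat.card X = (p ^ 2 - 1) * (p ^ 2 - p) := by
    rw [Nat.card_sigma]
    have h1 : ∀ x : {x : V // x ≠ 1}, Nat.card {y : V // y ∉ zpowers x.1} = p ^ 2 - p := by
      intro x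
      rw [Nat.card_eq_fintype_card, Fintype.card_subtype_compl, ← Nat.card_eq_fintype_card,
        ← Nat.card_eq_fintype_card, hV]
      congr 1
      exact hord x.1 x.2
    rw [Finset.sum_congr rfl (fun x _ => h1 x), Finset.sum_const, Finset.card_univ, smul_eq_mul,
      Fintype.card_subtype_compl, Fintype.card_subtype_eq, ← Nat.card_eq_fintype_card, hV]
  let P := {xy : V × V // xy.1 ≠ 1 ∧ xy.2 ∉ zpowers xy.1}
  have hP : Nat.card P = (p ^ 2 - 1) * (p ^ 2 - p) := hcardX ▸ Nat.card_congr
    { toFun := fun q => ⟨⟨q.1.1, q.2.1⟩, ⟨q.1.2, q.2.2⟩⟩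
      invFun := fun s => ⟨(s.1.1, s.2.1), s.1.2, s.2.2⟩
      left_inv := fun q => rfl
      right_inv := fun s => rfl }
  letI : MulAction (MulAut V) P :=
  { smul := fun e q => ⟨(e q.1.1, e q.1.2), (map_ne_one_iff e e.injective).mpr q.2.1, by
      intro h
      obtain ⟨i, hi⟩ := Subgroup.mem_zpowers_iff.mp h
      rw [← map_zpow] at hi
      exact q.2.2 (e.injective hi ▸ Subgroup.zpow_mem _ (mem_zpowers _) i)⟩
    one_smul := fun q => rfl
    mul_smul := fun e f q => rfl }
  have hfree : ∀ q : P, MulAction.stabilizer (MulAut V) q = ⊥ := by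
    intro q
    refine eq_bot_iff.mpr fun e he => Subgroup.mem_bot.mpr ?_
    have h1 : e q.1.1 = q.1.1 := congrArg (fun t : P => t.1.1) he
    have h2 : e q.1.2 = q.1.2 := congrArg (fun t : P => t.1.2) he
    set F : Subgroup V := e.toMonoidHom.eqLocus (MonoidHom.id V)
    have hlt : zpowers q.1.1 < F := lt_of_le_of_ne (zpowers_le.mpr h1)
      fun h => q.2.2 (h.symm ▸ (h2 : q.1.2 ∈ F))
    have hcard : Nat.card ↥F = p ^ 2 := by
      obtain ⟨i, hi, hF⟩ := (Nat.dvd_prime_pow hp).mp (hV ▸ Subgroup.card_subgroup_dvd_card F)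
      have hgt : p < Nat.card ↥F := by
        by_contra hle
        exact hlt.ne (Subgroup.eq_of_le_of_card_ge hlt.le (by rw [hord _ q.2.1]; omega))
      interval_cases i
      · simp only [pow_zero] at hF; have := hp.two_le; omega
      · rw [pow_one] at hF; omega
      · exact hF
    have htop : F = ⊤ := Subgroup.eq_top_of_card_eq F (hcard.trans hV.symm)
    ext x
    exact (htop ▸ Subgroup.mem_top x : x ∈ F)
  rw [← hP]
  have := Fintype.ofFinite (MulAction.orbitRel.Quotient (MulAut V) P)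
  rw [Nat.card_congr (MulAction.selfEquivSigmaOrbits (MulAut V) P), Nat.card_sigma]
  refine Finset.dvd_sum fun q _ => ?_
  rw [Nat.card_coe_set_eq, ← MulAction.index_stabilizer, hfree, Subgroup.index_bot]

/-- The main case, `p ^ 2` being the only non-square-free part. -/
theorem main_case (hG : ¬ IsMulCommutative G) {p q r : ℕ} (hp : p.Prime) (hq : q.Prime) (hr : r.Prime)
    (hpq : p ≠ q) (hpr : p ≠ r) (hqr : q ≠ r) (h : Nat.card G = p ^ 2 * q * r) :
    Nat.card G = 60 := by
  have := Fact.mk hp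
  have hm : ¬ p ∣ q * r := fun hd => (hp.dvd_mul.mp hd).elim
    (fun h' => hpq ((Nat.prime_dvd_prime_iff_eq hp hq).mp h'))
    (fun h' => hpr ((Nat.prime_dvd_prime_iff_eq hp hr).mp h'))
  have hne1 : Nat.card G ≠ 1 := fun h1 => hp.ne_one (Nat.dvd_one.mp (h1 ▸ h ▸ Dvd.intro (p * q * r) (by ring)))
  set l := (Nat.card G).minFac with hl
  have hlp : l.Prime := Nat.minFac_prime hne1
  have hld : l ∣ p ^ 2 * q * r := h ▸ Nat.minFac_dvd _
  have hlep : l ≤ p := Nat.minFac_le_of_dvd hp.two_le (h ▸ Dvd.intro (p * q * r) (by ring))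
  have hleq : l ≤ q := Nat.minFac_le_of_dvd hq.two_le (h ▸ Dvd.intro (p ^ 2 * r) (by ring))
  have hler : l ≤ r := Nat.minFac_le_of_dvd hr.two_le (h ▸ Dvd.intro (p ^ 2 * q) (by ring))
  have hcyc : ∀ s t : ℕ, s.Prime → l = s → Nat.card G = s * t → ¬ s ∣ t → False := by
    intro s t hs hls hst hnd
    have := Fact.mk hs
    let S : Sylow s G := default
    have hSc : Nat.card ↥(S : Subgroup G) = s :=
      (SmallGroups.card_sylow_subgroup (a := 1) (by rw [hst, pow_one]) hnd S).trans (pow_one s)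
    exact SmallGroups.not_isCyclic_sylow_minFac hG hls S (isCyclic_of_prime_card hSc)
  have hlp' : l = p := by
    rcases hlp.dvd_mul.mp hld with h' | h'
    · rcases hlp.dvd_mul.mp h' with h'' | h''
      · exact (Nat.prime_dvd_prime_iff_eq hlp hp).mp (hlp.dvd_of_dvd_pow h'')
      · refine (hcyc q (p ^ 2 * r) hq ((Nat.prime_dvd_prime_iff_eq hlp hq).mp h'') (by rw [h]; ring) ?_).elim
        exact fun hd => (hq.dvd_mul.mp hd).elim
          (fun h1 => hpq ((Nat.prime_dvd_prime_iff_eq hq hp).mp (hq.dvd_of_dvd_pow h1)).symm)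
          (fun h1 => hqr ((Nat.prime_dvd_prime_iff_eq hq hr).mp h1))
    · refine (hcyc r (p ^ 2 * q) hr ((Nat.prime_dvd_prime_iff_eq hlp hr).mp h') (by rw [h]; ring) ?_).elim
      exact fun hd => (hr.dvd_mul.mp hd).elim
        (fun h1 => hpr ((Nat.prime_dvd_prime_iff_eq hr hp).mp (hr.dvd_of_dvd_pow h1)).symm)
        (fun h1 => hqr ((Nat.prime_dvd_prime_iff_eq hr hq).mp h1).symm)
  have hpltq : p < q := lt_of_le_of_ne (hlp' ▸ hleq) hpq
  have hpltr : p < r := lt_of_le_of_ne (hlp' ▸ hler) hpr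
  let P : Sylow p G := default
  have hPc : Nat.card ↥(P : Subgroup G) = p ^ 2 :=
    SmallGroups.card_sylow_subgroup (by rw [h, mul_assoc]) hm P
  have hnc : ¬ IsCyclic ↥(P : Subgroup G) :=
    SmallGroups.not_isCyclic_sylow_minFac hG (hlp' ▸ hl.symm) P
  have hexp : ∀ x : ↥(P : Subgroup G), x ^ p = 1 := by
    intro x
    have hd := orderOf_dvd_natCard x
    rw [hPc] at hd
    obtain ⟨i, hi, hx⟩ := (Nat.dvd_prime_pow hp).mp hd
    interval_cases i
    · rw [orderOf_eq_one_iff.mp (hx.trans (pow_zero p)), one_pow]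
    · exact orderOf_dvd_iff_pow_eq_one.mp (hx.trans (pow_one p)).dvd
    · exact absurd (isCyclic_of_orderOf_eq_card x (by rw [hx, hPc])) hnc
  have : IsMulCommutative ↥(P : Subgroup G) := ⟨⟨IsPGroup.commutative_of_card_eq_prime_sq hPc⟩⟩
  set k := (centralizer ((P : Subgroup G) : Set G)).relIndex (normalizer ((P : Subgroup G) : Set G)) with hk
  have hk1 : k ≠ 1 := fun h1 => SmallGroups.not_normalizer_le_centralizer hG
    (h ▸ Dvd.intro (p * q * r) (by ring)) P (relIndex_eq_one.mp h1)
  have hkp : ¬ p ∣ k := SmallGroups.relIndex_centralizer_coprime P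
  have hka : k ∣ (p ^ 2 - 1) * (p ^ 2 - p) := by
    letI : CommGroup ↥(P : Subgroup G) :=
      { (inferInstance : Group ↥(P : Subgroup G)) with
        mul_comm := fun a b => IsPGroup.commutative_of_card_eq_prime_sq hPc a b }
    exact (SmallGroups.relIndex_centralizer_dvd (P : Subgroup G)).trans
      (card_mulAut_dvd hp ↥(P : Subgroup G) hPc hexp)
  have hkG : k ∣ Nat.card G := ((Subgroup.relIndex_dvd_card _ _).trans (Subgroup.card_subgroup_dvd_card _))
  obtain ⟨s, hs, hsk⟩ := Nat.exists_prime_and_dvd hk1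
  have hsp : s ≠ p := fun h1 => hkp (h1 ▸ hsk)
  have hsqr : s = q ∨ s = r := by
    have h1 := h ▸ (hsk.trans hkG)
    rcases hs.dvd_mul.mp h1 with h' | h'
    · rcases hs.dvd_mul.mp h' with h'' | h''
      · exact absurd ((Nat.prime_dvd_prime_iff_eq hs hp).mp (hs.dvd_of_dvd_pow h'')) hsp
      · exact .inl ((Nat.prime_dvd_prime_iff_eq hs hq).mp h'')
    · exact .inr ((Nat.prime_dvd_prime_iff_eq hs hr).mp h')
  have hsgt : p < s := by rcases hsqr with rfl | rfl <;> assumption
  have hp2 : p = 2 ∧ s = 3 := by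
    have h1 := hsk.trans hka
    have h2 : (p ^ 2 - 1) * (p ^ 2 - p) = (p + 1) * ((p - 1) * (p * (p - 1))) := by
      have e1 : p ^ 2 - 1 = (p + 1) * (p - 1) := by rw [← Nat.sq_sub_sq, one_pow]
      have e2 : p ^ 2 - p = p * (p - 1) := by rw [Nat.mul_sub, sq, mul_one]
      rw [e1, e2, mul_assoc]
    rw [h2] at h1
    have hlt : ∀ {a : ℕ}, 0 < a → a < s → ¬ s ∣ a := fun ha ha' hd => absurd (Nat.le_of_dvd ha hd) (by omega)
    have := hp.two_le
    rcases hs.dvd_mul.mp h1 with h' | h'
    · have h3 : s = p + 1 := by have := Nat.le_of_dvd (by omega) h'; omega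
      have := hp.eq_two_or_odd
      have := hs.eq_two_or_odd
      omega
    · rcases hs.dvd_mul.mp h' with h'' | h''
      · exact (hlt (by omega) (by omega) h'').elim
      · rcases hs.dvd_mul.mp h'' with h3 | h3
        · exact (hlt hp.pos hsgt h3).elim
        · exact (hlt (by omega) (by omega) h3).elim
  obtain ⟨rfl, rfl⟩ := hp2
  obtain ⟨t, ht, ht2, ht3, hcard⟩ : ∃ t, t.Prime ∧ t ≠ 2 ∧ t ≠ 3 ∧ Nat.card G = t ^ 1 * 12 := by
    rcases hsqr with rfl | rfl
    · exact ⟨r, hr, hpr.symm, hqr.symm, by rw [h]; ring⟩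
    · exact ⟨q, hq, hpq.symm, hqr, by rw [h]; ring⟩
  have := Fact.mk ht
  have ht5 : 5 ≤ t := by
    have := ht.two_le
    by_contra hlt
    interval_cases t <;> first | omega | norm_num at ht
  have hn := SmallGroups.card_sylow_mem hG (p := t) (a := 0) hcard (by norm_num)
  rw [Finset.mem_filter, Nat.mem_divisors] at hn
  obtain ⟨⟨hd, -⟩, hmod, hgt⟩ := hn
  have hsyl : ∀ T : Sylow t G, Nat.card ↥(T : Subgroup G) = t := fun T => by
    refine (SmallGroups.card_sylow_subgroup hcard (fun hd' => ?_) T).trans (pow_one t)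
    have := Nat.le_of_dvd (by norm_num) hd'
    interval_cases t <;> first | omega | norm_num at ht
  have hle := Nat.le_of_dvd (by norm_num) hd
  have htd : t ∣ Nat.card (Sylow t G) - 1 := (Nat.modEq_iff_dvd' (by omega)).mp
    (by rw [Nat.ModEq, hmod, Nat.mod_eq_of_lt (by omega)])
  have htle := Nat.le_of_dvd (by omega) htd
  interval_cases hnt : Nat.card (Sylow t G) <;> try omega
  · -- six Sylow subgroups
    interval_cases t <;> omega
  · -- twelve Sylow subgroups
    have ht11 : t = 11 := by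
      interval_cases t <;> first | omega | norm_num at ht
    subst ht11
    exfalso
    let T : Sylow 11 G := default
    have hT := SmallGroups.card_sylow_mul_card_normalizer T
    rw [hnt, hcard] at hT
    have hNT : normalizer ((T : Subgroup G) : Set G) = (T : Subgroup G) :=
      (Subgroup.eq_of_le_of_card_ge Subgroup.le_normalizer
        (by rw [hsyl T]; omega)).symm
    have := SmallGroups.isMulCommutative_of_prime_card (G := ↥(T : Subgroup G)) (by rw [hsyl T]; exact ht)
    exact SmallGroups.not_normalizer_le_centralizer hG (by rw [hcard]; norm_num) T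
      (hNT.le.trans (T : Subgroup G).le_centralizer)

/-- If a finite simple group has order p^2 * q * r with p, q and r prime, then its order is 60. -/
theorem result {G : Type*} [Group G] [Finite G] [IsSimpleGroup G] (p q r : ℕ) (hp : p.Prime) (hq : q.Prime) (hr : r.Prime) (hG : Nat.card G = p ^ 2 * q * r) : Nat.card G = 60 := by
  have hG4 : ¬ (Nat.card G).Prime := by
    rw [hG, mul_assoc]
    refine Nat.not_prime_mul (fun h1 => hp.ne_one ?_) (fun h1 => hq.ne_one (Nat.eq_one_of_mul_eq_one_right h1))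
    exact Nat.dvd_one.mp (h1 ▸ dvd_pow_self p two_ne_zero)
  have hnc := SmallGroups.not_isMulCommutative hG4
  by_cases hpq : p = q
  · subst hpq
    by_cases hpr : p = r
    · subst hpr
      exfalso
      have := Fact.mk hp
      have h1 := SmallGroups.card_eq_prime_of_isPGroup (G := G) (p := p)
        (IsPGroup.of_card (n := 4) (by rw [hG]; ring))
      exact hG4 (h1.symm ▸ hp)
    · exact (not_card_prime_cube_mul hnc hp hr hpr (by rw [hG]; ring)).elim
  · by_cases hpr : p = r
    · subst hpr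
      exact (not_card_prime_cube_mul hnc hp hq hpq (by rw [hG]; ring)).elim
    · by_cases hqr : q = r
      · subst hqr
        rcases Nat.lt_or_gt_of_ne hpq with hlt | hlt
        · exact (not_card_sq_mul_sq hnc hp hq hlt (by rw [hG]; ring)).elim
        · exact (not_card_sq_mul_sq hnc hq hp hlt (by rw [hG]; ring)).elim
      · exact main_case hnc hp hq hr hpq hpr hqr hG

end Cfsg.Agent.S0988
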