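import Cfsg.Statements.S0989
import Cfsg.Agent.SmallGroups.PermNormalizer

set_option autoImplicit false
open Cfsg

namespace Cfsg.Agent.S0989


/-- In the symmetric group on p or p + 1 letters, p a prime, the normalizer of a Sylow p-subgroup has order p * (p - 1). -/
theorem result {α : Type*} [Fintype α] [DecidableEq α] (p : ℕ) [Fact p.Prime] (hα : Fintype.card α = p ∨ Fintype.card α = p + 1) (P : Sylow p (Equiv.Perm α)) : Nat.card ↥(Subgroup.normalizer ((P : Subgroup (Equiv.Perm α)) : Set (Equiv.Perm α))) = p * (p - 1) := by
  have hp : p.Prime := Fact.out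
  have h := SmallGroups.card_normalizer_sylow_perm (α := α) (p := p) (by omega)
    (by have := hp.two_le; omega) P
  rw [h]
  rcases hα with h | h <;> rw [h] <;> simp

end Cfsg.Agent.S0989
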