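import Cfsg.Statements.S0995
import Cfsg.Agent.SmallGroups.Basic

set_option autoImplicit false
open Cfsg

namespace Cfsg.Agent.S0995
open Subgroup

/-- Let G be a finite perfect group containing an element z of prime order p whose centralizer is the cyclic group it generates. Let t be the number of conjugacy classes of elements of order p. Then t divides p - 1, the number of Sylow p-subgroups has the form 1 + n * p, and |G| * t = (p - 1) * p * (1 + n * p). -/
theorem result {G : Type*} [Group G] [Finite G] (hperf : commutator G = ⊤) (p : ℕ) [Fact p.Prime] (z : G) (hz : orderOf z = p) (hC : Subgroup.centralizer ({z} : Set G) = Subgroup.zpowers z) : ∃ n t : ℕ, t = Nat.card {c : ConjClasses G // ∃ g : G, ConjClasses.mk g = c ∧ orderOf g = p} ∧ t ∣ p - 1 ∧ Nat.card (Sylow p G) = 1 + n * p ∧ Nat.card G * t = (p - 1) * p * (1 + n * p) := by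
  classical
  have hp : p.Prime := Fact.out
  have hz1 : z ≠ 1 := fun h => by rw [h, orderOf_one] at hz; exact hp.ne_one hz.symm
  have hsyl : ∀ P : Sylow p G, Nat.card ↥(P : Subgroup G) = p := by
    intro P
    obtain ⟨Q, hQ⟩ := (IsPGroup.of_card (p := p) (n := 1) (by rw [Nat.card_zpowers, hz, pow_one] :
      Nat.card ↥(zpowers z) = p ^ 1)).exists_le_sylow
    have hzQ : z ∈ (Q : Subgroup G) := hQ (mem_zpowers z)
    have hcent : ∀ x ∈ (Q : Subgroup G), Commute x z := by
      have : Nontrivial ↥(Q : Subgroup G) := ⟨⟨⟨z, hzQ⟩, 1, fun h => hz1 (congrArg Subtype.val h)⟩⟩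
      have hnt := Q.2.center_nontrivial
      obtain ⟨c, hc⟩ := exists_ne (1 : center ↥(Q : Subgroup G))
      have hcz : ((c : ↥(Q : Subgroup G)) : G) ∈ zpowers z := by
        rw [← hC, mem_centralizer_singleton_iff]
        exact (congrArg Subtype.val (Subgroup.mem_center_iff.mp c.2 ⟨z, hzQ⟩)).symm
      have hczp : zpowers ((c : ↥(Q : Subgroup G)) : G) = zpowers z := by
        refine Subgroup.eq_of_le_of_card_ge (zpowers_le.mpr hcz) ?_
        rw [Nat.card_zpowers, Nat.card_zpowers, hz]
        have h1 := orderOf_dvd_of_mem_zpowers hcz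
        rw [hz] at h1
        rcases (Nat.dvd_prime hp).mp h1 with h | h
        · exact absurd (Subtype.ext (Subtype.ext (orderOf_eq_one_iff.mp h))) hc
        · exact h.ge
      intro x hx
      obtain ⟨i, hi⟩ := Subgroup.mem_zpowers_iff.mp (hczp ▸ mem_zpowers z :
        z ∈ zpowers ((c : ↥(Q : Subgroup G)) : G))
      rw [← hi]
      exact Commute.zpow_right (congrArg Subtype.val (Subgroup.mem_center_iff.mp c.2 ⟨x, hx⟩)) i
    have hQz : (Q : Subgroup G) ≤ zpowers z := fun x hx => by
      rw [← hC, mem_centralizer_singleton_iff]; exact hcent x hx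
    rw [Nat.card_congr (P.equiv Q).toEquiv, le_antisymm hQz hQ, Nat.card_zpowers, hz]
  have hcount := SmallGroups.card_orderOf_eq_prime hsyl
  let T := {c : ConjClasses G // ∃ g : G, ConjClasses.mk g = c ∧ orderOf g = p}
  have hsize : ∀ g : G, orderOf g = p → Nat.card (ConjClasses.mk g).carrier * p = Nat.card G := by
    intro g hg
    have hCg : Nat.card ↥(centralizer ({g} : Set G)) = p := by
      obtain ⟨Q, hQ⟩ := (IsPGroup.of_card (p := p) (n := 1) (by rw [Nat.card_zpowers, hg, pow_one] :
        Nat.card ↥(zpowers g) = p ^ 1)).exists_le_sylow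
      obtain ⟨R, hR⟩ := (IsPGroup.of_card (p := p) (n := 1) (by rw [Nat.card_zpowers, hz, pow_one] :
        Nat.card ↥(zpowers z) = p ^ 1)).exists_le_sylow
      obtain ⟨a, ha⟩ := MulAction.exists_smul_eq G Q R
      have hgz : MulAut.conj a g ∈ zpowers z := by
        rw [Subgroup.eq_of_le_of_card_ge hR (by rw [hsyl R, Nat.card_zpowers, hz]), ← ha]
        exact ⟨g, hQ (mem_zpowers g), rfl⟩
      set g' := MulAut.conj a g with hg'
      have hordg' : orderOf g' = p :=
        (orderOf_injective (MulAut.conj a).toMonoidHom (MulAut.conj a).injective g).trans hg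
      have hzg : zpowers g' = zpowers z :=
        Subgroup.eq_of_le_of_card_ge (zpowers_le.mpr hgz) (by rw [Nat.card_zpowers, Nat.card_zpowers, hz, hordg'])
      have hCg' : centralizer ({g'} : Set G) = zpowers z := by
        rw [← hC]
        ext x
        simp only [mem_centralizer_singleton_iff]
        obtain ⟨i, hi⟩ := Subgroup.mem_zpowers_iff.mp hgz
        obtain ⟨j, hj⟩ := Subgroup.mem_zpowers_iff.mp (hzg ▸ mem_zpowers z : z ∈ zpowers g')
        constructor
        · intro hx; rw [← hj]; exact Commute.zpow_right hx j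
        · intro hx; rw [← hi]; exact Commute.zpow_right hx i
      have hmap : (centralizer ({g} : Set G)).map (MulAut.conj a).toMonoidHom = centralizer ({g'} : Set G) := by
        ext x
        constructor
        · rintro ⟨y, hy, rfl⟩
          rw [SetLike.mem_coe, mem_centralizer_singleton_iff] at hy
          rw [mem_centralizer_singleton_iff]
          exact (Commute.map (show Commute y g from hy) (MulAut.conj a).toMonoidHom)
        · intro hx
          refine ⟨(MulAut.conj a).symm x, ?_, (MulAut.conj a).apply_symm_apply x⟩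
          rw [SetLike.mem_coe, mem_centralizer_singleton_iff]
          rw [mem_centralizer_singleton_iff] at hx
          have := Commute.map (show Commute x g' from hx) (MulAut.conj a).symm.toMonoidHom
          rw [show (MulAut.conj a).symm.toMonoidHom g' = g from (MulAut.conj a).symm_apply_apply g] at this
          exact this
      rw [Nat.card_congr ((centralizer ({g} : Set G)).equivMapOfInjective (MulAut.conj a).toMonoidHom
        (MulAut.conj a).injective).toEquiv,
        hmap, hCg', Nat.card_zpowers, hz]
    rw [← hCg, Subgroup.nat_card_centralizer_nat_card_stabilizer, ← ConjAct.orbit_eq_carrier_conjClasses]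
    have := Fintype.ofFinite G
    have hG' : Nat.card G = Nat.card (ConjAct G) := rfl
    rw [hG', ← Subgroup.card_mul_index (MulAction.stabilizer (ConjAct G) g), MulAction.index_stabilizer,
      Nat.card_coe_set_eq, mul_comm]
  have hfib : ∀ c : T, Nat.card {g : {g : G // orderOf g = p} // ConjClasses.mk g.1 = c.1} * p = Nat.card G := by
    rintro ⟨c, g₀, rfl, hg₀⟩
    rw [← hsize g₀ hg₀]
    congr 1
    refine Nat.card_congr
      { toFun := fun g => ⟨g.1.1, ConjClasses.mem_carrier_iff_mk_eq.mpr g.2⟩
        invFun := fun g => ⟨⟨g.1, ?_⟩, ConjClasses.mem_carrier_iff_mk_eq.mp g.2⟩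
        left_inv := fun g => rfl
        right_inv := fun g => rfl }
    obtain ⟨a, ha⟩ := isConj_iff.mp (ConjClasses.mk_eq_mk_iff_isConj.mp (ConjClasses.mem_carrier_iff_mk_eq.mp g.2))
    refine Eq.trans ?_ hg₀
    exact ((congrArg orderOf ha).symm.trans
      (orderOf_injective (MulAut.conj a).toMonoidHom (MulAut.conj a).injective g.1)).symm
  have := Fintype.ofFinite T
  have hsum : Nat.card G * Nat.card T = p * (Nat.card (Sylow p G) * (p - 1)) := by
    rw [← hcount, ← Nat.card_congr (Equiv.sigmaFiberEquiv (fun g : {g : G // orderOf g = p} =>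
      (⟨ConjClasses.mk g.1, g.1, rfl, g.2⟩ : T))), Nat.card_sigma, Finset.mul_sum]
    rw [Finset.sum_congr rfl (fun c _ => (show p * Nat.card {g : {g : G // orderOf g = p} //
      (⟨ConjClasses.mk g.1, g.1, rfl, g.2⟩ : T) = c} = Nat.card G by
        rw [mul_comm, Nat.card_congr (Equiv.subtypeEquivRight fun g => Subtype.ext_iff)]; exact hfib c))]
    rw [Finset.sum_const, Finset.card_univ, smul_eq_mul, ← Nat.card_eq_fintype_card, mul_comm]
  have hmod := card_sylow_modEq_one p G
  refine ⟨(Nat.card (Sylow p G) - 1) / p, Nat.card T, rfl, ?_, ?_, ?_⟩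
  · let P : Sylow p G := default
    have hN := SmallGroups.card_sylow_mul_card_normalizer P
    obtain ⟨d, hd⟩ : p ∣ Nat.card ↥(normalizer ((P : Subgroup G) : Set G)) :=
      (hsyl P).symm.dvd.trans (Subgroup.card_dvd_of_le Subgroup.le_normalizer)
    rw [← hN, hd] at hsum
    have hpos : 0 < Nat.card (Sylow p G) * p := Nat.mul_pos Nat.card_pos hp.pos
    exact ⟨d, (Nat.eq_of_mul_eq_mul_left hpos (by linarith)).symm⟩
  all_goals
    have h1 : 1 ≤ Nat.card (Sylow p G) := Nat.card_pos
    obtain ⟨c, hc⟩ := (Nat.modEq_iff_dvd' h1).mp hmod.symm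
    have hval : Nat.card (Sylow p G) = 1 + c * p := by rw [mul_comm]; omega
    have hdiv : (Nat.card (Sylow p G) - 1) / p = c := by rw [hc, Nat.mul_div_cancel_left _ hp.pos]
  · rw [hdiv]; exact hval
  · rw [hdiv, ← hval, hsum]; ring

end Cfsg.Agent.S0995
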