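import Cfsg.Statements.S0998
import Cfsg.Agent.SmallGroups.SelfCentPrime.Cofactor.Main
import Cfsg.Agent.Linear.Orders

set_option autoImplicit false
open Cfsg

namespace Cfsg.Agent.S0998
/-- One of `2 ^ a + 1`, `2 ^ a - 1` is divisible by `3`, by the parity of `a`. -/
theorem three_dvd (a : ℕ) : (Even a → 3 ∣ 2 ^ a - 1) ∧ (Odd a → 3 ∣ 2 ^ a + 1) := by
  have h : 2 ^ a % 3 = if Even a then 1 else 2 := by
    induction a with
    | zero => simp
    | succ a ih =>
      rw [pow_succ, Nat.mul_mod, ih]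
      by_cases h : Even a <;> simp [h, Nat.even_add_one]
  refine ⟨fun ha => ?_, fun ha => ?_⟩
  · rw [if_pos ha] at h; omega
  · rw [if_neg (Nat.not_even_iff_odd.2 ha)] at h; omega

/-- The conclusion when `r < p - 1`. -/
theorem of_lt {G : Type*} [Group G] [Finite G] [IsSimpleGroup G] (hnc : ¬ IsMulCommutative G)
    {p q r b : ℕ} (hp : p.Prime) (hq : q.Prime) (hr : r.Prime) (hpq : p ≠ q) (hqr : q ≠ r)
    (hG' : Nat.card G = p * r * q ^ b) (hlt : r < p - 1) :
    (∃ (F : Type) (_ : Field F) (_ : Fintype F), Fintype.card F = 5 ∧ Nonempty (G ≃* Matrix.ProjectiveSpecialLinearGroup (Fin 2) F)) ∨ (∃ (F : Type) (_ : Field F) (_ : Fintype F), Fintype.card F = 7 ∧ Nonempty (G ≃* Matrix.ProjectiveSpecialLinearGroup (Fin 2) F)) := by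
  haveI : Fact p.Prime := ⟨hp⟩
  have hr2 := hr.two_le
  obtain ⟨⟨k, hk⟩, hc⟩ := SmallGroups.SelfCentPrime.Cofactor.conclusion_of_card (b := b) (g₀ := r) hnc hq hpq
    (hG'.trans (by ring)) hlt
  rcases hc with ⟨F, i1, i2, hF, -, ⟨iso⟩⟩ | ⟨m, F, i1, i2, hF, hpm, -, ⟨iso⟩⟩
  · have hodd : Odd (Fintype.card F) := hF ▸ hp.odd_of_ne_two (by omega)
    have h := @Linear.card_PSL_two_mul F _ _
    rw [Linear.gcd_two_of_odd hodd, hF, ← Nat.card_congr iso.toEquiv, hG'] at h
    have h' : 2 * (r * q ^ b) = (p - 1) * (p + 1) :=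
      Nat.eq_of_mul_eq_mul_left hp.pos (by linear_combination h)
    have hq2 : q = 2 := by
      by_contra hq2
      have hqo : Odd (q ^ b) := (hq.odd_of_ne_two hq2).pow
      obtain ⟨c, hc⟩ := hp.odd_of_ne_two (show p ≠ 2 by omega)
      subst hc
      rw [show 2 * c + 1 - 1 = 2 * c by omega] at h'
      have h2 : r * q ^ b = 2 * (c * (c + 1)) := Nat.eq_of_mul_eq_mul_left two_pos (by linear_combination h')
      obtain ⟨c', hc'⟩ := Nat.even_mul_succ_self c
      have h4 : 4 ∣ r * q ^ b := ⟨c', by rw [h2, hc']; ring⟩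
      have h5 : 4 ∣ r := (Nat.Coprime.dvd_of_dvd_mul_right
        (Nat.Coprime.pow_left 2 (Nat.coprime_two_left.2 hqo) : Nat.Coprime (2 ^ 2) (q ^ b)) h4)
      obtain ⟨c'', hc''⟩ := h5
      have := (Nat.prime_dvd_prime_iff_eq Nat.prime_two hr).1 ⟨2 * c'', by omega⟩
      omega
    subst hq2
    have hrodd : Odd r := hr.odd_of_ne_two (Ne.symm hqr)
    -- `p = 5` or `p = 7`
    have key : ∀ X : ℕ, Odd X → (∃ j, r * 2 ^ b = 2 ^ j * X) → r = X := by
      rintro X hX ⟨j, hj⟩
      exact Nat.dvd_antisymm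
        ((Nat.Coprime.pow_right j (Nat.coprime_two_right.2 hrodd)).dvd_of_dvd_mul_left (hj ▸ dvd_mul_right r _))
        ((Nat.Coprime.pow_right b (Nat.coprime_two_right.2 hX)).dvd_of_dvd_mul_right (hj.symm ▸ dvd_mul_left X _))
    have hcases : p = 5 ∨ p = 7 := by
      have hk0 : 2 ≤ k := by
        by_contra h2
        interval_cases k <;> omega
      obtain ⟨l, rfl⟩ : ∃ l, k = l + 1 := ⟨k - 1, by omega⟩
      have hl : 2 ≤ 2 ^ l := Nat.le_self_pow (by omega) 2
      have hpl : 2 ^ (l + 1) = 2 * 2 ^ l := by ring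
      have hev : Even (2 ^ l) := Nat.even_pow.2 ⟨even_two, by omega⟩
      rcases hk with hk | hk
      · left
        have hr' : r = 2 ^ l + 1 := by
          refine key _ hev.add_one ⟨l + 1, ?_⟩
          rw [hk, Nat.add_sub_cancel] at h'
          refine Nat.eq_of_mul_eq_mul_left two_pos ?_
          rw [h', hpl]; ring
        rcases Nat.even_or_odd l with hl2 | hl2
        · have h3 := (three_dvd (l + 1)).2 hl2.add_one
          rw [← hk] at h3
          have := (Nat.prime_dvd_prime_iff_eq Nat.prime_three hp).1 h3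
          omega
        · have h3 := (three_dvd l).2 hl2
          rw [← hr'] at h3
          have := (Nat.prime_dvd_prime_iff_eq Nat.prime_three hr).1 h3
          omega
      · right
        have hr' : r = 2 ^ l - 1 := by
          refine key _ (Nat.Even.sub_odd (by omega) hev odd_one) ⟨l + 1, ?_⟩
          obtain ⟨c, hc⟩ : ∃ c, 2 ^ l = c + 1 := ⟨2 ^ l - 1, by omega⟩
          rw [hk, show p - 1 = 2 * c by omega] at h'
          rw [hc, Nat.add_sub_cancel]
          refine Nat.eq_of_mul_eq_mul_left two_pos ?_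
          rw [h']; ring
        rcases Nat.even_or_odd l with hl2 | hl2
        · have h3 := (three_dvd l).1 hl2
          rw [← hr'] at h3
          have := (Nat.prime_dvd_prime_iff_eq Nat.prime_three hr).1 h3
          omega
        · have h3 := (three_dvd (l + 1)).1 hl2.add_one
          rw [← hk, Nat.add_sub_cancel] at h3
          have := (Nat.prime_dvd_prime_iff_eq Nat.prime_three hp).1 h3
          omega
    rcases hcases with rfl | rfl
    · exact .inl ⟨F, i1, i2, hF, ⟨iso⟩⟩
    · exact .inr ⟨F, i1, i2, hF, ⟨iso⟩⟩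
  · -- `PSL(2, 2 ^ m)` with `m = 2`
    have hm0 : m ≠ 0 := by rintro rfl; omega
    have h := @Linear.card_PSL_two_mul F _ _
    have hev : Even (2 ^ m) := Nat.even_pow.2 ⟨even_two, hm0⟩
    have hg : Nat.gcd 2 (Fintype.card F - 1) = 1 := by
      rw [hF]
      exact Nat.coprime_two_left.2 (Nat.Even.sub_odd Nat.one_le_two_pow hev odd_one)
    rw [hg, one_mul, ← Nat.card_congr iso.toEquiv, hG', hF, ← hpm] at h
    have h' : r * q ^ b = 2 ^ m * (2 ^ m - 1) :=
      Nat.eq_of_mul_eq_mul_left hp.pos (by linear_combination h)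
    have hm : Even m := by
      by_contra hm
      have h3 := (three_dvd m).2 (Nat.not_even_iff_odd.1 hm)
      rw [← hpm] at h3
      have := (Nat.prime_dvd_prime_iff_eq Nat.prime_three hp).1 h3
      omega
    have h2m : Odd (2 ^ m - 1) := Nat.Even.sub_odd Nat.one_le_two_pow hev odd_one
    have hq2 : q = 2 := by
      by_contra hq2
      have h5 : 2 ^ m ∣ r := (Nat.Coprime.pow_left m (Nat.coprime_two_left.2
        ((hq.odd_of_ne_two hq2).pow (n := b)))).dvd_of_dvd_mul_right ⟨_, h'⟩
      obtain ⟨j, -, hj⟩ := (Nat.dvd_prime_pow hr).1 ((pow_one r).symm ▸ h5)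
      obtain ⟨m', hm'⟩ : ∃ m', m = m' + 2 := ⟨m - 2, by rcases hm with ⟨c, hc⟩; omega⟩
      have h6 := Nat.le_of_dvd hr.pos h5
      have h7 : 2 ∣ r := (dvd_pow_self 2 hm0).trans h5
      have := (Nat.prime_dvd_prime_iff_eq Nat.prime_two hr).1 h7
      rw [hm', pow_add] at h6
      have := Nat.one_le_two_pow (n := m')
      omega
    subst hq2
    have hrodd : Odd r := hr.odd_of_ne_two (Ne.symm hqr)
    have hr' : r = 2 ^ m - 1 := Nat.dvd_antisymm
      ((Nat.Coprime.pow_right m (Nat.coprime_two_right.2 hrodd)).dvd_of_dvd_mul_left ⟨2 ^ b, h'.symm⟩)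
      ((Nat.Coprime.pow_right b (Nat.coprime_two_right.2 h2m)).dvd_of_dvd_mul_right (h'.symm ▸ dvd_mul_left _ _))
    have h3 := (three_dvd m).1 hm
    rw [← hr'] at h3
    obtain rfl := ((Nat.prime_dvd_prime_iff_eq Nat.prime_three hr).1 h3).symm
    obtain rfl : p = 5 := by omega
    have h60 : Nat.card G = 60 := by
      rw [hG', show 5 * 3 * 2 ^ b = 5 * (3 * 2 ^ b) by ring, h', show 2 ^ m = 4 by omega]
    left
    have hsy := SmallGroups.card_sylow_mem hnc (p := 5) (a := 0) (m := 12) (by rw [h60]; norm_num) (by norm_num)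
    rw [show ((12 : ℕ).divisors.filter fun n => n % 5 = 1 ∧ 1 < n) = {6} by decide +kernel,
      Finset.mem_singleton] at hsy
    refine ⟨ZMod 5, inferInstance, inferInstance, ZMod.card 5, ?_⟩
    exact SmallGroups.SelfCentPrime.nonempty_equiv_psl_of_prime hnc hsy
      (fun P => (SmallGroups.card_sylow_subgroup (a := 1) (m := 12) (by rw [h60]; norm_num) (by norm_num) P).trans
        (pow_one 5)) (d := 2) (by norm_num) (by rw [h60]) (ZMod.card 5)

/-- A non-cyclic finite simple group whose order has the form p * r * q^b for distinct primes p, q, r is isomorphic to the projective special linear group of dimension 2 over the field with 5 or with 7 elements. -/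
theorem result {G : Type*} [Group G] [Finite G] [IsSimpleGroup G] (hG : ¬ IsCyclic G) (p q r b : ℕ) (hp : p.Prime) (hq : q.Prime) (hr : r.Prime) (hpq : p ≠ q) (hpr : p ≠ r) (hqr : q ≠ r) (hG' : Nat.card G = p * r * q ^ b) : (∃ (F : Type) (_ : Field F) (_ : Fintype F), Fintype.card F = 5 ∧ Nonempty (G ≃* Matrix.ProjectiveSpecialLinearGroup (Fin 2) F)) ∨ (∃ (F : Type) (_ : Field F) (_ : Fintype F), Fintype.card F = 7 ∧ Nonempty (G ≃* Matrix.ProjectiveSpecialLinearGroup (Fin 2) F)) := by
  have hnc : ¬ IsMulCommutative G := fun h => hG (by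
    have := Fact.mk (SmallGroups.prime_card_of_isMulCommutative h)
    exact isCyclic_of_prime_card (α := G) rfl)
  have key : ∀ a c : ℕ, a.Prime → c.Prime → a ≠ q → c ≠ q → c < a →
      Nat.card G = a * c * q ^ b → c < a - 1 := by
    intro a c ha hc haq hcq hlt hcard
    by_contra hcon
    have hc2 : c = 2 := by
      by_contra h
      obtain ⟨i, hi⟩ := hc.odd_of_ne_two h
      obtain ⟨j, hj⟩ := ha.odd_of_ne_two (by have := hc.two_le; omega)
      omega
    subst hc2
    obtain rfl : a = 3 := by omega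
    obtain ⟨i, hi⟩ := (hq.odd_of_ne_two (Ne.symm hcq)).pow (n := b)
    have h4 := SmallGroups.four_dvd_card hnc (hcard ▸ ⟨3 * q ^ b, by ring⟩)
    rw [hcard, hi] at h4
    omega
  rcases Nat.lt_or_ge r p with h | h
  · exact of_lt hnc hp hq hr hpq hqr hG' (key p r hp hr hpq (Ne.symm hqr) h hG')
  · have hrp : p < r := lt_of_le_of_ne h hpr
    have hG2 : Nat.card G = r * p * q ^ b := by rw [hG']; ring
    exact of_lt hnc hr hq hp (Ne.symm hqr) (Ne.symm hpq) hG2 (key r p hr hp (Ne.symm hqr) hpq hrp hG2)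

end Cfsg.Agent.S0998
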