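import Cfsg.Statements.S1001
import Cfsg.Agent.SmallGroups.ThreePrimes
import Cfsg.Agent.S0904
import Cfsg.Agent.Char.Burnside

set_option autoImplicit false
open Cfsg

namespace Cfsg.Agent.S1001


/-- In a finite simple group whose order has the form p * 3^a * 2^b with p prime, the centralizer of any element of order p is the cyclic group it generates. -/
theorem result {G : Type*} [Group G] [Finite G] [IsSimpleGroup G] (p a b : ℕ) (hp : p.Prime) (hG : Nat.card G = p * 3 ^ a * 2 ^ b) (x : G) (hx : orderOf x = p) : Subgroup.centralizer ({x} : Set G) = Subgroup.zpowers x := by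
  have := Fact.mk hp
  classical
  have hzle : Subgroup.zpowers x ≤ Subgroup.centralizer ({x} : Set G) := by
    rw [Subgroup.zpowers_le, Subgroup.mem_centralizer_singleton_iff]
  by_cases hp23 : p = 2 ∨ p = 3
  · obtain ⟨A, B, hAB⟩ : ∃ A B, Nat.card G = 2 ^ A * 3 ^ B := by
      rcases hp23 with rfl | rfl
      · exact ⟨b + 1, a, by rw [hG]; ring⟩
      · exact ⟨b, a + 1, by rw [hG]; ring⟩
    haveI : Group.IsSolvable G := Char.solvable_of_card_eq_pow_mul_pow 2 3 Nat.prime_two
      Nat.prime_three _ hAB fun r hr hd => by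
        rcases hr.dvd_mul.mp hd with h | h
        · exact Or.inl ((Nat.prime_dvd_prime_iff_eq hr Nat.prime_two).mp (hr.dvd_of_dvd_pow h))
        · exact Or.inr ((Nat.prime_dvd_prime_iff_eq hr Nat.prime_three).mp (hr.dvd_of_dvd_pow h))
    have hcomm : IsMulCommutative G :=
      ⟨⟨IsSimpleGroup.comm_iff_isSolvable.mpr inferInstance⟩⟩
    have hpr := SmallGroups.prime_card_of_isMulCommutative hcomm
    have hcard : Nat.card G = p :=
      ((Nat.prime_dvd_prime_iff_eq hp hpr).mp (hG ▸ dvd_mul_of_dvd_left (dvd_mul_right p _) _)).symm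
    have htop : Subgroup.zpowers x = ⊤ :=
      Subgroup.eq_top_of_card_eq _ (by rw [Nat.card_zpowers, hx, hcard])
    exact le_antisymm (htop ▸ le_top) hzle
  push Not at hp23
  obtain ⟨P, hP'⟩ := (IsPGroup.of_card (p := p) (n := 1) (by rw [Nat.card_zpowers, hx, pow_one]) :
    IsPGroup p ↥(Subgroup.zpowers x)).exists_le_sylow
  have h' : Nat.card G = 3 ^ a * 2 ^ b * p := by rw [hG]; ring
  have hne3 : ¬ p ∣ 3 ^ a * 2 ^ b := by
    intro hd
    rcases hp.dvd_mul.mp hd with h | h
    · exact hp23.2 ((Nat.prime_dvd_prime_iff_eq hp Nat.prime_three).mp (hp.dvd_of_dvd_pow h))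
    · exact hp23.1 ((Nat.prime_dvd_prime_iff_eq hp Nat.prime_two).mp (hp.dvd_of_dvd_pow h))
  have hPc : Nat.card ↥(P : Subgroup G) = p :=
    (SmallGroups.card_sylow_subgroup (a := 1) (by rw [h', pow_one, mul_comm]) hne3 P).trans (pow_one p)
  have hPx : Subgroup.zpowers x = (P : Subgroup G) :=
    Subgroup.eq_of_le_of_card_ge hP' (by rw [hPc, Nat.card_zpowers, hx])
  have hC := S0904.result 3 2 p a b Nat.prime_three Nat.prime_two (by norm_num)
    hp23.2.symm hp23.1.symm h' P
  refine le_antisymm (fun g hg => ?_) hzle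
  rw [hPx, ← hC]
  intro z hz
  obtain ⟨i, rfl⟩ := Subgroup.mem_zpowers_iff.mp (hPx ▸ (hz : z ∈ (P : Subgroup G)) : z ∈ Subgroup.zpowers x)
  exact (Commute.zpow_left ((Subgroup.mem_centralizer_singleton_iff.mp hg).symm : Commute x g) i).eq

end Cfsg.Agent.S1001
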