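import Cfsg.Statements.S1002
import Cfsg.Agent.SmallGroups.Exceptional

set_option autoImplicit false
open Cfsg

namespace Cfsg.Agent.S1002


/-- No finite simple group has order 1004913 = 3^3 * 7 * 13 * 409. -/
theorem result {G : Type*} [Group G] [Finite G] [IsSimpleGroup G] : Nat.card G ≠ 1004913 := by
  intro hc
  let := Fintype.ofFinite G
  have := Fact.mk (by norm_num : Nat.Prime 409)
  have hG : ¬ IsMulCommutative G := SmallGroups.not_isMulCommutative (by rw [hc]; norm_num)
  obtain ⟨ε, d, L, hε, ⟨hd1, hd, hdp⟩, hL, hn, hs, hsq⟩ :=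
    SmallGroups.exists_degree_data_sylow (p := 409) (m := 2457) (e := 3) (t := 136) hG
      (by rw [hc]) (by norm_num) (by decide +kernel) (by norm_num) (by norm_num) (by norm_num)
  obtain ⟨f, a, g, b, rfl, ha, hb⟩ :=
    SmallGroups.list_sq_sum_two (fun x hx => (hL x hx).2.2.2) (by simpa using hn)
  obtain ⟨hf1, hf, hfp, -⟩ := hL (f, a) (by simp)
  obtain ⟨hg1, hg, hgp, -⟩ := hL (g, b) (by simp)
  simp only [List.map_cons, List.map_nil, List.sum_cons, List.sum_nil, add_zero, Nat.cast_ofNat] at *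
  rw [hc] at hd hf hg hsq
  have hdlt : d < 86 := by nlinarith
  have hflt : f < 1003 := by nlinarith
  have hglt : g < 1003 := by nlinarith
  have key : ∀ (f : ℕ) (a : ℤ), (a = 1 ∨ a = -1) → 1 < f → f ∣ 1004913 → f < 1003 →
      ((409 : ℕ) : ℤ) ∣ (f : ℤ) - a → f = 819 := by
    intro f a ha h1 h2 h3 h4
    have hcases : f % 409 = 1 ∨ f % 409 = 408 := by
      rcases ha with rfl | rfl <;> omega
    have : f = 408 ∨ f = 410 ∨ f = 817 ∨ f = 819 := by omega
    rcases this with rfl | rfl | rfl | rfl <;> first | rfl | norm_num at h2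
  have hf0 := key f a ha hf1 hf hflt (by exact_mod_cast hfp)
  have hg0 := key g b hb hg1 hg hglt (by exact_mod_cast hgp)
  subst hf0 hg0
  rcases hε with rfl | rfl <;> rcases ha with rfl | rfl <;> rcases hb with rfl | rfl <;>
    interval_cases d <;> omega

end Cfsg.Agent.S1002
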