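import Cfsg.Statements.S1004
import Cfsg.Agent.SmallGroups.Order168Klein

set_option autoImplicit false
open Cfsg

namespace Cfsg.Agent.S1004
open Subgroup SmallGroups

/-- Let G be a simple group of order 168 and T a Sylow 2-subgroup. Then T is dihedral of order 8, T is its own normalizer, and T is the centralizer of any non-identity element of T that commutes with every element of T. -/
theorem result {G : Type*} [Group G] [Finite G] [IsSimpleGroup G] (h : Nat.card G = 168) (T : Sylow 2 G) : Nonempty (↥(T : Subgroup G) ≃* DihedralGroup 4) ∧ Subgroup.normalizer ((T : Subgroup G) : Set G) = T ∧ ∀ z : G, z ∈ (T : Subgroup G) → z ≠ 1 → (∀ t ∈ (T : Subgroup G), t * z = z * t) → Subgroup.centralizer ({z} : Set G) = T := by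
  refine ⟨?_, Order168.normalizer_two h T, fun z hz hne hc => Order168.centralizer_central h T hz hne hc⟩
  obtain ⟨x, y, hx, hy, hx4, hyy, hyx, hconj, -⟩ := Order168.exists_dihedral_generators h T
  let a : ↥(T : Subgroup G) := ⟨x, hx⟩
  let b : ↥(T : Subgroup G) := ⟨y, hy⟩
  have ha : orderOf a = 4 := by rw [← Subgroup.orderOf_coe]; exact hx4
  have ha4 : a ^ 4 = 1 := ha ▸ pow_orderOf_eq_one a
  have hb : b * b = 1 := Subtype.ext hyy
  have hab : b * a * b⁻¹ = a⁻¹ := Subtype.ext hconj
  have hnm : b ∉ zpowers a := fun hm => hyx (by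
    obtain ⟨i, hi⟩ := Subgroup.mem_zpowers_iff.mp hm
    exact Subgroup.mem_zpowers_iff.mpr ⟨i, congrArg Subtype.val hi⟩)
  refine ⟨(MulEquiv.ofBijective (TwoGroups.dihedralLift a b ha4 hb hab)
    ((Nat.bijective_iff_injective_and_card _).mpr
      ⟨TwoGroups.dihedralLift_injective ha4 hb hab ha hnm, ?_⟩)).symm⟩
  rw [DihedralGroup.nat_card, Order168.card_two h T]

end Cfsg.Agent.S1004
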