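import Cfsg.Statements.S1005
import Cfsg.Agent.SmallGroups.Order168Klein

set_option autoImplicit false
open Cfsg

namespace Cfsg.Agent.S1005
open Subgroup SmallGroups

/-- In a simple group of order 168 every element has order 1, 2, 3, 4 or 7; there are exactly 21 elements of order 2, and any two of them are conjugate. -/
theorem result {G : Type*} [Group G] [Finite G] [IsSimpleGroup G] (h : Nat.card G = 168) : (∀ g : G, orderOf g = 1 ∨ orderOf g = 2 ∨ orderOf g = 3 ∨ orderOf g = 4 ∨ orderOf g = 7) ∧ Nat.card {g : G // orderOf g = 2} = 21 ∧ ∀ s t : G, orderOf s = 2 → orderOf t = 2 → IsConj s t := by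
  refine ⟨fun g => ?_, (Order168.card_orderOf_fin h).2.2.1, fun s t hs ht => ?_⟩
  · rcases Order168.orderOf_cases h g with h' | h' | h'
    · omega
    · omega
    · have := Nat.le_of_dvd (by norm_num) h'
      have := orderOf_pos g
      have hne : orderOf g ≠ 8 := fun hg => by
        obtain ⟨T, hT⟩ := (IsPGroup.of_card (p := 2) (n := 3) (by rw [Nat.card_zpowers, hg]; norm_num :
          Nat.card ↥(zpowers g) = 2 ^ 3)).exists_le_sylow
        have he := Order168.eq_sylow_of_card_eight h T hT (by rw [Nat.card_zpowers, hg]; norm_num)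
        refine Order168.not_comm_two h T ?_
        rw [← he]
        infer_instance
      interval_cases orderOf g <;> omega
  · obtain ⟨S, hsS, hsc⟩ := Order168.exists_sylow_of_involution h hs
    obtain ⟨T, htT, htc⟩ := Order168.exists_sylow_of_involution h ht
    obtain ⟨g, rfl⟩ := MulAction.exists_smul_eq G S T
    refine isConj_iff.mpr ⟨g, ?_⟩
    obtain ⟨x, hx, hx4⟩ := Order168.exists_orderOf_four h S
    have hs1 : s ≠ 1 := fun he => by rw [he, orderOf_one] at hs; omega
    have ht1 : t ≠ 1 := fun he => by rw [he, orderOf_one] at ht; omega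
    have hx' : g * x * g⁻¹ ∈ ((g • S : Sylow 2 G) : Subgroup G) := ⟨x, hx, rfl⟩
    have hx4' : orderOf (g * x * g⁻¹) = 4 :=
      (orderOf_injective (MulAut.conj g).toMonoidHom (MulAut.conj g).injective x).trans hx4
    rw [← Order168.sq_eq_central h (g • S) hx' hx4' htT ht1 htc,
      ← Order168.sq_eq_central h S hx hx4 hsS hs1 hsc]
    group

end Cfsg.Agent.S1005
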