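import Cfsg.Statements.S1006
import Cfsg.Agent.SmallGroups.Order168Klein

set_option autoImplicit false
open Cfsg

namespace Cfsg.Agent.S1006
open Subgroup SmallGroups

/-- In a simple group of order 168 there are 56 elements of order 3, all conjugate; 42 elements of order 4, all conjugate; and 48 elements of order 7 falling into two conjugacy classes of size 24, an element of order 7 not being conjugate to its inverse. -/
theorem result {G : Type*} [Group G] [Finite G] [IsSimpleGroup G] (h : Nat.card G = 168) : Nat.card {g : G // orderOf g = 3} = 56 ∧ (∀ s t : G, orderOf s = 3 → orderOf t = 3 → IsConj s t) ∧ Nat.card {g : G // orderOf g = 4} = 42 ∧ (∀ s t : G, orderOf s = 4 → orderOf t = 4 → IsConj s t) ∧ Nat.card {g : G // orderOf g = 7} = 48 ∧ ∀ x : G, orderOf x = 7 → Nat.card {g : G // IsConj x g} = 24 ∧ ¬ IsConj x x⁻¹ := by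
  obtain ⟨h3, h7, -, h4, -, -⟩ := Order168.card_orderOf_fin h
  refine ⟨h3, fun s t hs ht => ?_, h4, fun s t hs ht => ?_, h7, fun x hx => ?_⟩
  · have key : ∀ u : G, orderOf u = 3 → ∃ P : Sylow 3 G, (P : Subgroup G) = zpowers u := by
      intro u hu
      obtain ⟨P, hP⟩ := (IsPGroup.of_card (p := 3) (n := 1) (by rw [Nat.card_zpowers, hu, pow_one] :
        Nat.card ↥(zpowers u) = 3 ^ 1)).exists_le_sylow
      exact ⟨P, (Subgroup.eq_of_le_of_card_ge hP (by rw [Order168.card_three h P, Nat.card_zpowers, hu])).symm⟩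
    obtain ⟨S, hS⟩ := key s hs
    obtain ⟨T, hT⟩ := key t ht
    obtain ⟨g, hg⟩ := MulAction.exists_smul_eq G S T
    have hmem : g * s * g⁻¹ ∈ zpowers t := by
      rw [← hT, ← hg]; exact ⟨s, hS ▸ mem_zpowers s, rfl⟩
    have ho : orderOf (g * s * g⁻¹) = 3 :=
      (orderOf_injective (MulAut.conj g).toMonoidHom (MulAut.conj g).injective s).trans hs
    have hcase : ∀ (u v : G), orderOf v = 3 → u ∈ zpowers v → u ≠ 1 → u = v ∨ u = v⁻¹ := by
      intro u v hv hu hne
      obtain ⟨i, rfl⟩ := Subgroup.mem_zpowers_iff.mp hu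
      rw [← zpow_mod_orderOf, hv] at hne ⊢
      rcases (by omega : i % 3 = 0 ∨ i % 3 = 1 ∨ i % 3 = 2) with hi | hi | hi <;> simp [hi] at hne ⊢
      exact .inr (by rw [eq_inv_iff_mul_eq_one, ← pow_succ]; simpa [hv] using pow_orderOf_eq_one v)
    have hinv : IsConj t t⁻¹ := by
      have hlt : ¬ normalizer ((T : Subgroup G) : Set G) ≤ (T : Subgroup G) := fun hle => by
        have := Subgroup.card_le_of_le hle
        rw [Order168.card_normalizer_three h T, Order168.card_three h T] at this
        omega
      obtain ⟨n, hn, hnT⟩ := SetLike.not_le_iff_exists.mp hlt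
      refine isConj_iff.mpr ⟨n, ?_⟩
      have htT : t ∈ (T : Subgroup G) := hT ▸ mem_zpowers t
      have hm : n * t * n⁻¹ ∈ zpowers t := hT ▸ (mem_normalizer_iff.mp hn t).mp htT
      refine (hcase _ t ht hm (fun he => ?_)).resolve_left (fun he => hnT ?_)
      · rw [conj_eq_one_iff] at he; rw [he, orderOf_one] at ht; omega
      · rw [hT]
        exact Order168.commute_three h ht (mul_inv_eq_iff_eq_mul.mp he).symm
    have hc : IsConj s (g * s * g⁻¹) := isConj_iff.mpr ⟨g, rfl⟩
    rcases hcase _ t ht hmem (fun he => by rw [he, orderOf_one] at ho; omega) with he | he <;> rw [he] at hc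
    · exact hc
    · exact hc.trans hinv.symm
  · obtain ⟨S, hS⟩ := (IsPGroup.of_card (p := 2) (n := 2) (by rw [Nat.card_zpowers, hs]; norm_num :
      Nat.card ↥(zpowers s) = 2 ^ 2)).exists_le_sylow
    obtain ⟨T, hT⟩ := (IsPGroup.of_card (p := 2) (n := 2) (by rw [Nat.card_zpowers, ht]; norm_num :
      Nat.card ↥(zpowers t) = 2 ^ 2)).exists_le_sylow
    obtain ⟨g, hg⟩ := MulAction.exists_smul_eq G S T
    have hmem : g * s * g⁻¹ ∈ (T : Subgroup G) := by
      rw [← hg]; exact ⟨s, hS (mem_zpowers s), rfl⟩
    have ho : orderOf (g * s * g⁻¹) = 4 :=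
      (orderOf_injective (MulAut.conj g).toMonoidHom (MulAut.conj g).injective s).trans hs
    have hc : IsConj s (g * s * g⁻¹) := isConj_iff.mpr ⟨g, rfl⟩
    obtain ⟨x, y, hx, -, hx4, -, -, hconj, -⟩ := Order168.exists_dihedral_generators h T
    have hxx : IsConj x x⁻¹ := isConj_iff.mpr ⟨y, hconj⟩
    have htT : t ∈ (T : Subgroup G) := hT (mem_zpowers t)
    rcases Order168.eq_or_eq_inv h T hx hmem hx4 ho with he | he <;>
      rcases Order168.eq_or_eq_inv h T hx htT hx4 ht with he' | he' <;> rw [he] at hc <;> subst he'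
    · exact hc
    · exact hc.trans hxx
    · exact hc.trans hxx.symm
    · exact hc
  · classical
    have hC : Nat.card ↥(centralizer ({x} : Set G)) = 7 := by
      have hle : centralizer ({x} : Set G) ≤ zpowers x := fun y hy =>
        Order168.commute_seven h hx (show Commute y x from mem_centralizer_singleton_iff.mp hy).symm
      have hge : zpowers x ≤ centralizer ({x} : Set G) := zpowers_le.mpr (mem_centralizer_singleton_iff.mpr rfl)
      rw [le_antisymm hle hge, Nat.card_zpowers, hx]
    refine ⟨?_, fun hc => ?_⟩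
    · have := Fintype.ofFinite G
      rw [Subgroup.nat_card_centralizer_nat_card_stabilizer] at hC
      have horb : Nat.card {g : G // IsConj x g} = Nat.card (MulAction.orbit (ConjAct G) x) :=
        Nat.card_congr (Equiv.subtypeEquivRight fun g => by rw [ConjAct.mem_orbit_conjAct, isConj_comm])
      have hmul := Subgroup.card_mul_index (MulAction.stabilizer (ConjAct G) x)
      rw [hC, MulAction.index_stabilizer, ← Nat.card_coe_set_eq, ← horb,
        show Nat.card (ConjAct G) = Nat.card G from rfl, h] at hmul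
      omega
    · obtain ⟨g, hg⟩ := isConj_iff.mp hc
      have hg2 : g ^ 2 ∈ zpowers x := by
        refine Order168.commute_seven h hx ?_
        show x * g ^ 2 = g ^ 2 * x
        have h2 : g * x⁻¹ * g⁻¹ = x := by
          rw [show g * x⁻¹ * g⁻¹ = (g * x * g⁻¹)⁻¹ by group, hg, inv_inv]
        calc x * g ^ 2 = (g * x⁻¹ * g⁻¹) * g ^ 2 := by rw [h2]
          _ = g * x⁻¹ * g := by rw [pow_two]; group
          _ = g * (g * x * g⁻¹) * g := by rw [hg]
          _ = g ^ 2 * x := by rw [pow_two]; group
      have hgmem : g ∈ zpowers x := by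
        obtain ⟨P, hP⟩ := (IsPGroup.of_card (p := 7) (n := 1) (by rw [Nat.card_zpowers, hx, pow_one] :
          Nat.card ↥(zpowers x) = 7 ^ 1)).exists_le_sylow
        have hPx : zpowers x = (P : Subgroup G) :=
          Subgroup.eq_of_le_of_card_ge hP (by rw [Order168.card_seven h P, Nat.card_zpowers, hx])
        have hgN : g ∈ normalizer ((P : Subgroup G) : Set G) := by
          have hPP : ((g • P : Sylow 7 G) : Subgroup G) = (P : Subgroup G) := by
            show (P : Subgroup G).map (MulAut.conj g).toMonoidHom = (P : Subgroup G)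
            rw [← hPx, MonoidHom.map_zpowers]
            simp [hg]
          exact Sylow.smul_eq_iff_mem_normalizer.mp (Sylow.ext hPP)
        obtain ⟨m, hm⟩ : Odd (orderOf g) := by
          have hd := Subgroup.orderOf_dvd_natCard _ hgN
          rw [Order168.card_normalizer_seven h P] at hd
          exact (show Odd 21 by decide).of_dvd_nat hd
        have hgg : g = (g ^ 2) ^ (m + 1) := by
          rw [← pow_mul, show 2 * (m + 1) = orderOf g + 1 by omega, pow_succ, pow_orderOf_eq_one, one_mul]
        rw [hgg]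
        exact pow_mem hg2 _
      obtain ⟨i, rfl⟩ := Subgroup.mem_zpowers_iff.mp hgmem
      rw [show x ^ i * x * (x ^ i)⁻¹ = x by group] at hg
      have h2 : orderOf x ∣ 2 := orderOf_dvd_iff_pow_eq_one.mpr (by rw [pow_two]; exact eq_inv_iff_mul_eq_one.mp hg)
      rw [hx] at h2
      norm_num at h2

end Cfsg.Agent.S1006
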