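import Cfsg.Statements.S1012
import Cfsg.Agent.SmallGroups.Basic

set_option autoImplicit false
open Cfsg

namespace Cfsg.Agent.S1012
open Subgroup

/-- A group of order 24 containing no element of order 6 is isomorphic to the symmetric group of degree 4. -/
theorem result {G : Type*} [Group G] [Finite G] (h : Nat.card G = 24) (h6 : ∀ g : G, orderOf g ≠ 6) : Nonempty (G ≃* Equiv.Perm (Fin 4)) := by
  have : Fact (Nat.Prime 3) := ⟨Nat.prime_three⟩
  have hsyl : ∀ Q : Sylow 3 G, Nat.card ↥(Q : Subgroup G) = 3 := fun Q =>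
    (SmallGroups.card_sylow_subgroup (a := 1) (m := 8) (by rw [h]; norm_num) (by norm_num) Q).trans (pow_one 3)
  have hno : ∀ (P : Sylow 3 G) (t : G), orderOf t = 2 →
      t ∉ centralizer ((P : Subgroup G) : Set G) := by
    intro P t ht hc
    obtain ⟨u, hu⟩ := exists_prime_orderOf_dvd_card' (G := ↥(P : Subgroup G)) 3 (by rw [hsyl P])
    rw [← Subgroup.orderOf_coe] at hu
    have hcm : Commute (u : G) t := hc (u : G) u.2
    exact h6 _ (by rw [hcm.orderOf_mul_eq_mul_orderOf_of_coprime (by rw [hu, ht]; norm_num), hu, ht])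
  have hn4 : Nat.card (Sylow 3 G) = 4 := by
    have h1 := SmallGroups.card_sylow_dvd (G := G) (p := 3) (a := 1) (m := 8) (by rw [h]; norm_num)
    have h2 := card_sylow_modEq_one 3 G
    rw [Nat.ModEq] at h2
    have h3 := Nat.le_of_dvd (by norm_num) h1
    by_contra hne
    have hn1 : Nat.card (Sylow 3 G) = 1 := by
      interval_cases Nat.card (Sylow 3 G) <;> omega
    have : Subsingleton (Sylow 3 G) := (Nat.card_eq_one_iff_unique.mp hn1).1
    let P : Sylow 3 G := default
    have hN : normalizer ((P : Subgroup G) : Set G) = ⊤ := by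
      have := P.normal_of_subsingleton
      exact Subgroup.normalizer_eq_top _
    have hC : Nat.card ↥(centralizer ((P : Subgroup G) : Set G)) % 2 = 0 := by
      have hd := SmallGroups.relIndex_centralizer_dvd (P : Subgroup G)
      have hc : IsCyclic ↥(P : Subgroup G) := isCyclic_of_prime_card (hsyl P)
      rw [hc.card_mulAut, hsyl P, hN, Subgroup.relIndex_top_right, Nat.totient_prime Nat.prime_three] at hd
      have hmul := Subgroup.card_mul_index (centralizer ((P : Subgroup G) : Set G))
      have hle := Nat.le_of_dvd (by norm_num) hd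
      have : 0 < (centralizer ((P : Subgroup G) : Set G)).index :=
        Nat.pos_of_ne_zero Subgroup.index_ne_zero_of_finite
      interval_cases (centralizer ((P : Subgroup G) : Set G)).index <;> omega
    obtain ⟨t, ht⟩ := exists_prime_orderOf_dvd_card' (G := ↥(centralizer ((P : Subgroup G) : Set G))) 2
      (Nat.dvd_of_mod_eq_zero hC)
    exact hno P (t : G) (by rw [Subgroup.orderOf_coe, ht]) t.2
  let e : Sylow 3 G ≃ Fin 4 := (Finite.equivFin _).trans (finCongr hn4)
  let f : G →* Equiv.Perm (Fin 4) := e.permCongrHom.toMonoidHom.comp (MulAction.toPermHom G (Sylow 3 G))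
  have hker : f.ker = ⊥ := by
    have hmem : ∀ (Q : Sylow 3 G), f.ker ≤ normalizer ((Q : Subgroup G) : Set G) := by
      intro Q g hg
      have h1 : MulAction.toPermHom G (Sylow 3 G) g = 1 :=
        e.permCongrHom.injective (by rw [map_one]; exact MonoidHom.mem_ker.mp hg)
      exact Sylow.smul_eq_iff_mem_normalizer.mp (Equiv.Perm.congr_fun h1 Q)
    let P : Sylow 3 G := default
    have hN6 : Nat.card ↥(normalizer ((P : Subgroup G) : Set G)) = 6 := by
      have := SmallGroups.card_sylow_mul_card_normalizer P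
      rw [hn4, h] at this; omega
    have h3 : ¬ 3 ∣ Nat.card ↥f.ker := by
      intro h3
      obtain ⟨u, hu⟩ := exists_prime_orderOf_dvd_card' (G := ↥f.ker) 3 h3
      rw [← Subgroup.orderOf_coe] at hu
      have hall : ∀ Q : Sylow 3 G, (Q : Subgroup G) = zpowers (u : G) := by
        intro Q
        have hz : IsPGroup 3 (zpowers (u : G)) :=
          IsPGroup.of_card (n := 1) (by rw [Nat.card_zpowers, hu, pow_one])
        have h1 := hz.inf_normalizer_sylow Q
        have h2 : zpowers (u : G) ≤ (Q : Subgroup G) := by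
          exact inf_eq_left.mp
            (h1.symm.trans (inf_eq_left.mpr (zpowers_le.mpr (hmem Q u.2))))
        exact (Subgroup.eq_of_le_of_card_ge h2 (by rw [hsyl Q, Nat.card_zpowers, hu])).symm
      have : Subsingleton (Sylow 3 G) := ⟨fun a b => Sylow.ext ((hall a).trans (hall b).symm)⟩
      have := Nat.card_unique (α := Sylow 3 G)
      omega
    have hd : Nat.card ↥f.ker ∣ 6 := hN6 ▸ Subgroup.card_dvd_of_le (hmem P)
    have hle := Nat.le_of_dvd (by norm_num) hd
    apply Subgroup.card_eq_one.mp
    by_contra hne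
    have h2 : Nat.card ↥f.ker = 2 := by
      have : 0 < Nat.card ↥f.ker := Nat.card_pos
      interval_cases Nat.card ↥f.ker <;> omega
    obtain ⟨t, ht⟩ := exists_prime_orderOf_dvd_card' (G := ↥f.ker) 2 (by rw [h2])
    rw [← Subgroup.orderOf_coe] at ht
    refine hno P (t : G) ht fun y _ => ?_
    have hcases : ∀ z ∈ f.ker, z = 1 ∨ z = (t : G) := by
      have hz : zpowers (t : G) = f.ker :=
        Subgroup.eq_of_le_of_card_ge (zpowers_le.mpr t.2) (by rw [h2, Nat.card_zpowers, ht])
      intro z hz'
      rw [← hz] at hz'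
      obtain ⟨i, rfl⟩ := Subgroup.mem_zpowers_iff.mp hz'
      rw [← zpow_mod_orderOf, ht]
      rcases Int.emod_two_eq_zero_or_one i with h1 | h1 <;> simp [h1]
    rcases hcases _ ((MonoidHom.normal_ker f).conj_mem _ t.2 y) with h1 | h1
    · exact absurd h1 (by rw [conj_eq_one_iff]; intro h1; rw [h1, orderOf_one] at ht; omega)
    · exact mul_inv_eq_iff_eq_mul.mp h1
  have hinj : Function.Injective f := (MonoidHom.ker_eq_bot_iff f).mp hker
  exact ⟨MulEquiv.ofBijective f ((Nat.bijective_iff_injective_and_card _).mpr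
    ⟨hinj, by rw [h, Nat.card_perm, Nat.card_fin]; rfl⟩)⟩

end Cfsg.Agent.S1012
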