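import Cfsg.Statements.S1008
import Cfsg.Agent.SmallGroups.Order168Subgroups

set_option autoImplicit false
open Cfsg

namespace Cfsg.Agent.S1008
open Subgroup SmallGroups

section

variable {G : Type*} [Group G] [Finite G] [IsSimpleGroup G] (h : Nat.card G = 168)
include h

theorem card_le_24 {M : Subgroup G} (hM : M ≠ ⊤) : Nat.card ↥M ≤ 24 := by
  have hd := two_mul_card_dvd_factorial (Order168.not_comm h) M hM
  have h7 : 7 ≤ M.index := by
    by_contra hlt
    rw [h] at hd
    interval_cases M.index <;> norm_num [Nat.factorial] at hd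
  have := Subgroup.card_mul_index M
  nlinarith

theorem isCoatom_of_card_24 {M : Subgroup G} (hM : Nat.card ↥M = 24) : IsCoatom M := by
  refine ⟨fun he => ?_, fun K hK => of_not_not fun hne => ?_⟩
  · rw [he, Subgroup.card_top, h] at hM; omega
  · exact hK.ne (Subgroup.eq_of_le_of_card_ge hK.le (hM ▸ card_le_24 h hne))

theorem exists_kleinFour : ∃ U : Subgroup G, IsKleinFour ↥U := by
  obtain ⟨T⟩ := (inferInstance : Nonempty (Sylow 2 G))
  obtain ⟨A, -, -, -, hA, -⟩ := Order168.exists_two_kleinFour h T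
  exact ⟨A, hA⟩

/-- A Sylow three subgroup lies in a Klein normalizer, with its normalizer. -/
theorem exists_normalizer_three_le (P : Sylow 3 G) : ∃ U : Subgroup G, IsKleinFour ↥U ∧
    normalizer ((P : Subgroup G) : Set G) ≤ normalizer (U : Set G) := by
  obtain ⟨U, hU⟩ := exists_kleinFour h
  set N := normalizer (U : Set G) with hN
  have hNc : Nat.card ↥N = 24 := Order168.card_normalizer_kleinFour h hU
  let S : Sylow 3 ↥N := default
  obtain ⟨Q, hQ⟩ := (S.2.map N.subtype).exists_le_sylow
  have hQeq : (S : Subgroup ↥N).map N.subtype = (Q : Subgroup G) := by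
    refine Subgroup.eq_of_le_of_card_ge hQ ?_
    rw [← Nat.card_congr ((S : Subgroup ↥N).equivMapOfInjective _ N.subtype_injective).toEquiv,
      card_sylow_subgroup (a := 1) (m := 8) (by rw [hNc]; norm_num) (by norm_num) S,
      Order168.card_three h Q, pow_one]
  have hQN : (Q : Subgroup G) ≤ N := hQeq ▸ Subgroup.map_subtype_le _
  have hSN := card_sylow_mul_card_normalizer (Q.subtype hQN)
  rw [hNc, Sylow.coe_subtype, ← subgroupOf_normalizer_eq hQN, ← Subgroup.inf_subgroupOf_right,
    Nat.card_congr (Subgroup.subgroupOfEquivOfLe inf_le_right).toEquiv] at hSN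
  have hle6 := Subgroup.card_le_of_le (inf_le_left :
    normalizer ((Q : Subgroup G) : Set G) ⊓ N ≤ normalizer ((Q : Subgroup G) : Set G))
  rw [Order168.card_normalizer_three h Q] at hle6
  have hd := card_sylow_dvd (G := ↥N) (p := 3) (a := 1) (m := 8) (by rw [hNc]; norm_num)
  have hm := card_sylow_modEq_one 3 ↥N
  rw [Nat.ModEq] at hm
  have h4 : Nat.card (Sylow 3 ↥N) = 4 := by
    have := Nat.le_of_dvd (by norm_num) hd
    have h1 : 1 ≤ Nat.card (Sylow 3 ↥N) := Nat.card_pos
    interval_cases Nat.card (Sylow 3 ↥N) <;> omega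
  rw [h4] at hSN
  have hQle : normalizer ((Q : Subgroup G) : Set G) ≤ N := by
    rw [← Subgroup.eq_of_le_of_card_ge (inf_le_left :
      normalizer ((Q : Subgroup G) : Set G) ⊓ N ≤ normalizer ((Q : Subgroup G) : Set G))
      (by rw [Order168.card_normalizer_three h Q]; omega)]
    exact inf_le_right
  obtain ⟨g, rfl⟩ := MulAction.exists_smul_eq G Q P
  let eU : ↥U ≃* ↥(U.map (MulAut.conj g).toMonoidHom) :=
    U.equivMapOfInjective _ (MulAut.conj g).injective
  refine ⟨U.map (MulAut.conj g).toMonoidHom, ⟨by rw [← Nat.card_congr eU.toEquiv, hU.card_four],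
    (Monoid.exponent_eq_of_mulEquiv eU).symm.trans hU.exponent_two⟩, ?_⟩
  have hmap : ∀ H : Subgroup G, normalizer ((H.map (MulAut.conj g).toMonoidHom : Subgroup G) : Set G) =
      (normalizer (H : Set G)).map (MulAut.conj g).toMonoidHom := fun H =>
    (Subgroup.map_equiv_normalizer_eq H (MulAut.conj g)).symm
  show normalizer (((Q : Subgroup G).map (MulAut.conj g).toMonoidHom : Subgroup G) : Set G) ≤ _
  rw [hmap, hmap]
  exact Subgroup.map_mono hQle

theorem subgroup_cases {M : Subgroup G} (hM : M ≠ ⊤) :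
    (∃ U : Subgroup G, IsKleinFour ↥U ∧ M ≤ normalizer (U : Set G)) ∨
      ∃ P : Sylow 7 G, M ≤ normalizer ((P : Subgroup G) : Set G) := by
  have hle := card_le_24 h hM
  have hd : Nat.card ↥M ∣ 168 := h ▸ Subgroup.card_subgroup_dvd_card M
  have hpos : 0 < Nat.card ↥M := Nat.card_pos
  by_cases h7 : 7 ∣ Nat.card ↥M
  · right
    let S : Sylow 7 ↥M := default
    obtain ⟨P, hP⟩ := (S.2.map M.subtype).exists_le_sylow
    obtain ⟨a, ha⟩ := h7
    have hn : Nat.card (Sylow 7 ↥M) = 1 := by
      have ha7 : ¬ 7 ∣ a := fun h1 => by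
        have := Nat.le_of_dvd (by omega) h1
        omega
      have h1 := card_sylow_dvd (G := ↥M) (p := 7) (a := 1) (m := a) (by rw [ha]; norm_num)
      have h2 := card_sylow_modEq_one 7 ↥M
      rw [Nat.ModEq] at h2
      have h3 := Nat.le_of_dvd (by omega) h1
      omega
    have : Subsingleton (Sylow 7 ↥M) := (Nat.card_eq_one_iff_unique.mp hn).1
    have hSn : (S : Subgroup ↥M).Normal := S.normal_of_subsingleton
    have hSc : Nat.card ↥((S : Subgroup ↥M).map M.subtype) = 7 := by
      obtain ⟨k, hk⟩ := (S.2.map M.subtype).exists_card_eq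
      have h1 := Order168.card_seven h P ▸ Subgroup.card_dvd_of_le hP
      have h2 : 7 ∣ Nat.card ↥((S : Subgroup ↥M).map M.subtype) := by
        rw [← Nat.card_congr ((S : Subgroup ↥M).equivMapOfInjective _ M.subtype_injective).toEquiv]
        exact S.dvd_card_of_dvd_card ⟨a, ha⟩
      exact Nat.dvd_antisymm h1 h2
    have he : (S : Subgroup ↥M).map M.subtype = (P : Subgroup G) :=
      Subgroup.eq_of_le_of_card_ge hP (by rw [Order168.card_seven h P, hSc])
    refine ⟨P, ?_⟩
    rw [← he]
    exact le_trans (by rw [Subgroup.normalizer_eq_top, ← MonoidHom.range_eq_map, Subgroup.range_subtype])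
      (Subgroup.le_normalizer_map M.subtype)
  left
  have h24 : Nat.card ↥M ∣ 24 :=
    (Nat.Coprime.symm ((show Nat.Prime 7 by norm_num).coprime_iff_not_dvd.mpr h7)).dvd_of_dvd_mul_left
      (show Nat.card ↥M ∣ 7 * 24 from hd)
  by_cases h3 : 3 ∣ Nat.card ↥M
  swap
  · have h8 : Nat.card ↥M ∣ 8 :=
      (Nat.Coprime.symm (Nat.prime_three.coprime_iff_not_dvd.mpr h3)).dvd_of_dvd_mul_left
        (show Nat.card ↥M ∣ 3 * 8 from h24)
    obtain ⟨k, -, hk⟩ := (Nat.dvd_prime_pow Nat.prime_two (m := 3)).mp (by simpa using h8)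
    obtain ⟨T, hT⟩ := (IsPGroup.of_card hk).exists_le_sylow
    obtain ⟨A, B, hA, -, hAK, -⟩ := Order168.exists_two_kleinFour h T
    exact ⟨A, hAK, hT.trans (Order168.le_normalizer_kleinFour h T hA hAK)⟩
  obtain ⟨a, ha⟩ := h3
  have ha3 : ¬ 3 ∣ a := fun h1 => by
    have : 9 ∣ 24 := (show 9 ∣ Nat.card ↥M by rw [ha]; exact Nat.mul_dvd_mul_left 3 h1).trans h24
    omega
  have ha8 : a ∣ 8 := Nat.dvd_of_mul_dvd_mul_left (show 0 < 3 by norm_num)
    (show 3 * a ∣ 3 * 8 from ha ▸ h24)
  let S : Sylow 3 ↥M := default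
  obtain ⟨P, hP⟩ := (S.2.map M.subtype).exists_le_sylow
  have he : (S : Subgroup ↥M).map M.subtype = (P : Subgroup G) := by
    refine Subgroup.eq_of_le_of_card_ge hP ?_
    rw [← Nat.card_congr ((S : Subgroup ↥M).equivMapOfInjective _ M.subtype_injective).toEquiv,
      card_sylow_subgroup (a := 1) (by rw [ha, pow_one]) ha3 S, Order168.card_three h P, pow_one]
  have hPM : (P : Subgroup G) ≤ M := he ▸ Subgroup.map_subtype_le _
  have hn := card_sylow_dvd (G := ↥M) (p := 3) (a := 1) (m := a) (by rw [ha, pow_one])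
  have hm := card_sylow_modEq_one 3 ↥M
  rw [Nat.ModEq] at hm
  have hnle := Nat.le_of_dvd (by norm_num) (hn.trans ha8)
  have hnpos : 1 ≤ Nat.card (Sylow 3 ↥M) := Nat.card_pos
  by_cases hn1 : Nat.card (Sylow 3 ↥M) = 1
  · have : Subsingleton (Sylow 3 ↥M) := (Nat.card_eq_one_iff_unique.mp hn1).1
    have hSn : (S : Subgroup ↥M).Normal := S.normal_of_subsingleton
    obtain ⟨U, hUK, hU⟩ := exists_normalizer_three_le h P
    refine ⟨U, hUK, le_trans ?_ hU⟩
    rw [← he]
    exact le_trans (by rw [Subgroup.normalizer_eq_top, ← MonoidHom.range_eq_map, Subgroup.range_subtype])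
      (Subgroup.le_normalizer_map M.subtype)
  -- four Sylow three subgroups: order 12 or 24
  have hn4 : Nat.card (Sylow 3 ↥M) = 4 := by
    have h8 := hn.trans ha8
    interval_cases Nat.card (Sylow 3 ↥M) <;> omega
  have hno6 : ∀ g : ↥M, orderOf g ≠ 6 := by
    intro g hg
    rw [← Subgroup.orderOf_coe] at hg
    rcases Order168.orderOf_cases h (g : G) with h' | h' | h'
    · omega
    · omega
    · rw [hg] at h'; norm_num at h'
  obtain ⟨b, hb⟩ := hn4 ▸ hn
  have hb2 : b ∣ 2 := Nat.dvd_of_mul_dvd_mul_left (show 0 < 4 by norm_num) (show 4 * b ∣ 4 * 2 from hb ▸ ha8)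
  suffices hX : ∃ X : Subgroup ↥M, X.Normal ∧ Nat.card ↥X = 4 by
    obtain ⟨X, hXn, hXc⟩ := hX
    set V := X.map M.subtype with hV
    have hVc : Nat.card ↥V = 4 := by
      rw [hV, ← Nat.card_congr (X.equivMapOfInjective _ M.subtype_injective).toEquiv, hXc]
    have hMV : M ≤ normalizer (V : Set G) :=
      le_trans (by rw [Subgroup.normalizer_eq_top, ← MonoidHom.range_eq_map, Subgroup.range_subtype])
        (Subgroup.le_normalizer_map M.subtype)
    refine ⟨V, ⟨hVc, ?_⟩, hMV⟩
    -- a cyclic subgroup of order four is not normalized by an element of order three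
    have : Nontrivial ↥V := Finite.one_lt_card_iff_nontrivial.mp (by omega)
    refine (Monoid.exponent_eq_prime_iff Nat.prime_two).mpr fun v hv => ?_
    have hd : orderOf v ∣ 2 ^ 2 := by
      have := orderOf_dvd_natCard v; rw [hVc] at this; norm_num; exact this
    obtain ⟨i, hi, hvi⟩ := (Nat.dvd_prime_pow Nat.prime_two).mp hd
    interval_cases i
    · exact absurd (orderOf_eq_one_iff.mp hvi) hv
    · simpa using hvi
    · exfalso
      have hVz : zpowers (v : G) = V :=
        Subgroup.eq_of_le_of_card_ge (zpowers_le.mpr v.2) (by rw [hVc, Nat.card_zpowers, Subgroup.orderOf_coe, hvi]; norm_num)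
      obtain ⟨u, hu⟩ := exists_prime_orderOf_dvd_card' (G := ↥(P : Subgroup G)) 3 (by rw [Order168.card_three h P])
      rw [← Subgroup.orderOf_coe] at hu
      have hvo : orderOf (v : G) = 4 := by rw [Subgroup.orderOf_coe, hvi]; norm_num
      have hm : (u : G) * (v : G) * (u : G)⁻¹ ∈ V :=
        (mem_normalizer_iff.mp (hMV (hPM u.2)) (v : G)).mp v.2
      have hw : ((u : G) * (v : G) * (u : G)⁻¹) ^ 2 = (v : G) ^ 2 := by
        obtain ⟨j, hj⟩ := Subgroup.mem_zpowers_iff.mp (hVz.ge hm)
        have ho : orderOf ((v : G) ^ j) = 4 := by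
          rw [hj]
          exact (orderOf_injective (MulAut.conj (u : G)).toMonoidHom (MulAut.conj (u : G)).injective (v : G)).trans hvo
        rw [← hj]
        have hj4 : (v : G) ^ j = (v : G) ^ (j % 4) := by rw [← zpow_mod_orderOf (v : G) j, hvo]; norm_num
        rw [hj4] at ho ⊢
        rcases (by omega : j % 4 = 0 ∨ j % 4 = 1 ∨ j % 4 = 2 ∨ j % 4 = 3) with h4 | h4 | h4 | h4 <;>
          rw [h4] at ho ⊢
        · rw [zpow_zero, orderOf_one] at ho; omega
        · rw [zpow_one]
        · rw [show (2 : ℤ) = ((2 : ℕ) : ℤ) from rfl, zpow_natCast, orderOf_pow, hvo] at ho; norm_num at ho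
        · rw [show (3 : ℤ) = ((3 : ℕ) : ℤ) from rfl, zpow_natCast, ← pow_mul,
            show (3 * 2) = orderOf (v : G) + 2 by rw [hvo], pow_add, pow_orderOf_eq_one, one_mul]
      have hcomm : Commute (u : G) ((v : G) ^ 2) := by
        refine mul_inv_eq_iff_eq_mul.mp ?_
        rw [← conj_pow, hw]
      have h3' := orderOf_dvd_of_mem_zpowers (Order168.commute_three h hu hcomm)
      rw [orderOf_pow, hvo, hu] at h3'
      norm_num at h3'
  -- the Sylow two subgroup
  rcases (Nat.dvd_prime Nat.prime_two).mp hb2 with rfl | rfl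
  · -- order 12 : count elements of order three
    classical
    have hcard : Nat.card ↥M = 12 := by omega
    have hs3 : ∀ Q : Sylow 3 ↥M, Nat.card ↥(Q : Subgroup ↥M) = 3 := fun Q =>
      (card_sylow_subgroup (a := 1) (by rw [ha, pow_one]) ha3 Q).trans (pow_one 3)
    have hcount := card_orderOf_eq_prime hs3
    have := Fintype.ofFinite ↥M
    let R : Sylow 2 ↥M := default
    have hRc : ∀ R : Sylow 2 ↥M, Nat.card ↥(R : Subgroup ↥M) = 4 := fun R =>
      card_sylow_subgroup (a := 2) (m := 3) (by rw [hcard]; norm_num) (by norm_num) R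
    have hall : ∀ R : Sylow 2 ↥M, ((R : Subgroup ↥M) : Set ↥M) = {g | ¬ orderOf g = 3} := by
      intro R
      refine Set.eq_of_subset_of_ncard_le (fun g hg hord => ?_) ?_ (Set.toFinite _)
      · have := Subgroup.orderOf_dvd_natCard _ hg
        rw [hord, hRc R] at this
        norm_num at this
      · rw [← Nat.card_coe_set_eq, ← Nat.card_coe_set_eq]
        refine le_of_eq ((?_ : Nat.card {g : ↥M // ¬ orderOf g = 3} = 4).trans (hRc R).symm)
        rw [Nat.card_eq_fintype_card, Fintype.card_subtype_compl, ← Nat.card_eq_fintype_card,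
          ← Nat.card_eq_fintype_card, hcount, hn4, hcard]
    have : Subsingleton (Sylow 2 ↥M) :=
      ⟨fun a b => Sylow.ext (SetLike.coe_injective ((hall a).trans (hall b).symm))⟩
    exact ⟨R, R.normal_of_subsingleton, hRc R⟩
  · -- order 24 : the symmetric group of degree four
    have hcard : Nat.card ↥M = 24 := by omega
    obtain ⟨e⟩ := Cfsg.Agent.S1012.result hcard hno6
    let f : ↥(alternatingGroup (Fin 4)) →* ↥M := e.symm.toMonoidHom.comp (alternatingGroup (Fin 4)).subtype
    have hf : Function.Injective f := e.symm.injective.comp Subtype.val_injective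
    refine ⟨(alternatingGroup.kleinFour (Fin 4)).map f, ?_, ?_⟩
    · have hk : ((alternatingGroup.kleinFour (Fin 4)).map (alternatingGroup (Fin 4)).subtype).Normal := by
        have : (alternatingGroup.kleinFour (Fin 4)).Characteristic :=
          alternatingGroup.characteristic_kleinFour (by simp)
        exact ConjAct.normal_of_characteristic_of_normal
      rw [show f = e.symm.toMonoidHom.comp (alternatingGroup (Fin 4)).subtype from rfl, ← Subgroup.map_map]
      exact hk.map _ e.symm.surjective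
    · rw [← Nat.card_congr ((alternatingGroup.kleinFour (Fin 4)).equivMapOfInjective f hf).toEquiv]
      exact alternatingGroup.kleinFour_card_of_card_eq_four (by simp)

theorem maximal_cases {M : Subgroup G} (hM : IsCoatom M) :
    (∃ U : Subgroup G, IsKleinFour ↥U ∧ M = normalizer (U : Set G)) ∨
      ∃ P : Sylow 7 G, M = normalizer ((P : Subgroup G) : Set G) := by
  rcases subgroup_cases h hM.1 with ⟨U, hU, hle⟩ | ⟨P, hle⟩
  · refine .inl ⟨U, hU, (hle.eq_or_lt.resolve_right fun hlt => ?_)⟩
    have := Order168.card_normalizer_kleinFour h hU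
    rw [hM.2 _ hlt, Subgroup.card_top, h] at this
    omega
  · refine .inr ⟨P, (hle.eq_or_lt.resolve_right fun hlt => ?_)⟩
    have := Order168.card_normalizer_seven h P
    rw [hM.2 _ hlt, Subgroup.card_top, h] at this
    omega

end

/-- In a simple group of order 168 every maximal subgroup is either isomorphic to the symmetric group of degree 4 or non-abelian of order 21; the maximal subgroups of order 21 form one conjugacy class and those isomorphic to the symmetric group of degree 4 form exactly two conjugacy classes. -/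
theorem result {G : Type*} [Group G] [Finite G] [IsSimpleGroup G] (h : Nat.card G = 168) : (∀ M : Subgroup G, IsCoatom M → Nonempty (↥M ≃* Equiv.Perm (Fin 4)) ∨ (Nat.card ↥M = 21 ∧ ¬ IsMulCommutative ↥M)) ∧ (∀ M M' : Subgroup G, IsCoatom M → IsCoatom M' → Nat.card ↥M = 21 → Nat.card ↥M' = 21 → ∃ g : G, M' = M.map (MulAut.conj g).toMonoidHom) ∧ ∃ M₁ M₂ : Subgroup G, IsCoatom M₁ ∧ IsCoatom M₂ ∧ Nonempty (↥M₁ ≃* Equiv.Perm (Fin 4)) ∧ Nonempty (↥M₂ ≃* Equiv.Perm (Fin 4)) ∧ (∀ g : G, M₂ ≠ M₁.map (MulAut.conj g).toMonoidHom) ∧ ∀ M : Subgroup G, IsCoatom M → Nonempty (↥M ≃* Equiv.Perm (Fin 4)) → ∃ g : G, M = M₁.map (MulAut.conj g).toMonoidHom ∨ M = M₂.map (MulAut.conj g).toMonoidHom := by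
  obtain ⟨T⟩ := (inferInstance : Nonempty (Sylow 2 G))
  obtain ⟨A, B, hA, hB, hAK, hBK, hne, hall⟩ := Order168.exists_two_kleinFour h T
  have hmap : ∀ (g : G) (H : Subgroup G), normalizer ((H.map (MulAut.conj g).toMonoidHom : Subgroup G) : Set G) =
      (normalizer (H : Set G)).map (MulAut.conj g).toMonoidHom := fun g H =>
    (Subgroup.map_equiv_normalizer_eq H (MulAut.conj g)).symm
  refine ⟨fun M hM => ?_, fun M M' hM hM' hc hc' => ?_, normalizer (A : Set G), normalizer (B : Set G),
    isCoatom_of_card_24 h (Order168.card_normalizer_kleinFour h hAK),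
    isCoatom_of_card_24 h (Order168.card_normalizer_kleinFour h hBK),
    Order168.nonempty_normalizer_equiv_perm h hAK, Order168.nonempty_normalizer_equiv_perm h hBK,
    fun g he => ?_, fun M hM hiso => ?_⟩
  · rcases maximal_cases h hM with ⟨U, hU, rfl⟩ | ⟨P, rfl⟩
    · exact .inl (Order168.nonempty_normalizer_equiv_perm h hU)
    · refine .inr ⟨Order168.card_normalizer_seven h P, fun hc => ?_⟩
      have hle : normalizer ((P : Subgroup G) : Set G) ≤ centralizer ((P : Subgroup G) : Set G) :=
        (normalizer ((P : Subgroup G) : Set G)).le_centralizer.trans (Subgroup.centralizer_le Subgroup.le_normalizer)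
      rw [Order168.centralizer_seven h P] at hle
      have := Subgroup.card_le_of_le hle
      rw [Order168.card_normalizer_seven h P, Order168.card_seven h P] at this
      omega
  · rcases maximal_cases h hM with ⟨U, hU, rfl⟩ | ⟨P, rfl⟩
    · rw [Order168.card_normalizer_kleinFour h hU] at hc; omega
    rcases maximal_cases h hM' with ⟨U, hU, rfl⟩ | ⟨Q, rfl⟩
    · rw [Order168.card_normalizer_kleinFour h hU] at hc'; omega
    obtain ⟨g, rfl⟩ := MulAction.exists_smul_eq G P Q
    exact ⟨g, hmap g _⟩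
  · refine Order168.kleinFour_not_conj h T hA hB hAK hBK hne g ?_
    let eA : ↥A ≃* ↥(A.map (MulAut.conj g).toMonoidHom) := A.equivMapOfInjective _ (MulAut.conj g).injective
    refine Order168.normalizer_kleinFour_inj h ⟨by rw [← Nat.card_congr eA.toEquiv, hAK.card_four],
      (Monoid.exponent_eq_of_mulEquiv eA).symm.trans hAK.exponent_two⟩ hBK ?_
    rw [hmap, ← he]
  · obtain ⟨e⟩ := hiso
    rcases maximal_cases h hM with ⟨U, hU, rfl⟩ | ⟨P, rfl⟩
    swap
    · have := Nat.card_congr e.toEquiv
      rw [Order168.card_normalizer_seven h P, Nat.card_perm, Nat.card_fin] at this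
      norm_num [Nat.factorial] at this
    obtain ⟨S, hS⟩ := (Order168.isPGroup_of_isKleinFour hU).exists_le_sylow
    obtain ⟨g, hg⟩ := MulAction.exists_smul_eq G T S
    let eU : ↥U ≃* ↥(U.map (MulAut.conj g⁻¹).toMonoidHom) := U.equivMapOfInjective _ (MulAut.conj g⁻¹).injective
    have hUT : U.map (MulAut.conj g⁻¹).toMonoidHom ≤ (T : Subgroup G) := by
      have hT : (g⁻¹ • S : Sylow 2 G) = T := by rw [← hg, inv_smul_smul]
      rw [← hT]
      exact Subgroup.map_mono hS
    have hback : (U.map (MulAut.conj g⁻¹).toMonoidHom).map (MulAut.conj g).toMonoidHom = U := by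
      rw [Subgroup.map_map]
      convert! Subgroup.map_id U
      ext u
      simp [mul_assoc]
    refine ⟨g, ?_⟩
    rcases hall _ hUT ⟨by rw [← Nat.card_congr eU.toEquiv, hU.card_four],
      (Monoid.exponent_eq_of_mulEquiv eU).symm.trans hU.exponent_two⟩ with he | he
    · exact .inl (by rw [← hmap, ← he, hback])
    · exact .inr (by rw [← hmap, ← he, hback])

end Cfsg.Agent.S1008
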