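import Cfsg.Statements.S1013
import Cfsg.Agent.SmallGroups.PermNormalizer

set_option autoImplicit false
open Cfsg

namespace Cfsg.Agent.S1013
open Subgroup

/-- Let G be a transitive permutation group of prime degree p having more than one Sylow p-subgroup, and suppose a Sylow p-subgroup P has prime index in its normalizer. Then G is simple. -/
theorem result {α : Type*} [Fintype α] [DecidableEq α] {p : ℕ} [Fact p.Prime] (hα : Fintype.card α = p) (G : Subgroup (Equiv.Perm α)) [MulAction.IsPretransitive ↥G α] (P : Sylow p ↥G) (hn : 1 < Nat.card (Sylow p ↥G)) (ht : (((P : Subgroup ↥G).subgroupOf (Subgroup.normalizer ((P : Subgroup ↥G) : Set ↥G))).index).Prime) : IsSimpleGroup ↥G := by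
  classical
  have hp : p.Prime := Fact.out
  have hne : Nonempty α := Fintype.card_pos_iff.mp (hα ▸ hp.pos)
  obtain ⟨x₀⟩ := hne
  have hst : ∀ x : α, (MulAction.stabilizer ↥G x).index = p := fun x => by
    rw [MulAction.index_stabilizer_of_transitive, Nat.card_eq_fintype_card, hα]
  have hdG : p ∣ Nat.card ↥G := hst x₀ ▸ Subgroup.index_dvd_card _
  have hsyl : ∀ Q : Sylow p ↥G, Nat.card ↥(Q : Subgroup ↥G) = p := by
    intro Q
    obtain ⟨m, hm⟩ := hdG
    have hd : Nat.card ↥G ∣ p.factorial := by
      rw [← hα, ← Fintype.card_perm, ← Nat.card_eq_fintype_card]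
      exact Subgroup.card_subgroup_dvd_card G
    have hm' : ¬ p ∣ m := by
      rintro ⟨k, rfl⟩
      exact SmallGroups.not_sq_dvd_factorial hp (by have := hp.pos; omega)
        ((Dvd.intro k (by ring : p ^ 2 * k = p * (p * k))).trans (hm ▸ hd))
    exact (SmallGroups.card_sylow_subgroup (a := 1) (by rw [hm, pow_one]) hm' Q).trans (pow_one p)
  have hdN : ∀ N : Subgroup ↥G, N.Normal → N ≠ ⊥ → p ∣ Nat.card ↥N := by
    intro N hN hN0
    by_contra hndvd
    refine hN0 (eq_bot_iff.mpr fun n hn => Subgroup.mem_bot.mpr ?_)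
    have hfix : ∀ x : α, N ≤ MulAction.stabilizer ↥G x := by
      intro x
      have hdvd : (N ⊔ MulAction.stabilizer ↥G x).index ∣ p :=
        hst x ▸ Subgroup.index_dvd_of_le le_sup_right
      rcases (Nat.dvd_prime hp).mp hdvd with h | h
      · exfalso
        have htop : N ⊔ MulAction.stabilizer ↥G x = ⊤ := Subgroup.index_eq_one.mp h
        have h1 : (MulAction.stabilizer ↥G x).relIndex N = p := by
          have h2 : N.relIndex (MulAction.stabilizer ↥G x) = N.index := by
            rw [← Subgroup.relIndex_top_right N, ← htop, sup_comm, Subgroup.relIndex_sup_right]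
          have e2 := Subgroup.relIndex_inf_mul_relIndex (MulAction.stabilizer ↥G x) N ⊤
          have e3 := Subgroup.relIndex_inf_mul_relIndex N (MulAction.stabilizer ↥G x) ⊤
          rw [inf_top_eq, Subgroup.relIndex_top_right, Subgroup.relIndex_top_right] at e2 e3
          rw [inf_comm] at e3
          rw [← e3, h2, hst x, mul_comm] at e2
          exact Nat.eq_of_mul_eq_mul_left (Nat.pos_of_ne_zero Subgroup.index_ne_zero_of_finite) e2
        exact hndvd (h1 ▸ Subgroup.relIndex_dvd_card _ _)
      · have heq : N ⊔ MulAction.stabilizer ↥G x = MulAction.stabilizer ↥G x := by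
          refine (Subgroup.eq_of_le_of_card_ge le_sup_right ?_).symm
          refine Nat.le_of_mul_le_mul_right (le_of_eq ?_) hp.pos
          calc _ = Nat.card ↥(N ⊔ MulAction.stabilizer ↥G x) * (N ⊔ MulAction.stabilizer ↥G x).index := by rw [h]
            _ = Nat.card ↥G := Subgroup.card_mul_index _
            _ = _ := by rw [← hst x, Subgroup.card_mul_index]
        exact heq ▸ le_sup_left
    exact Subtype.ext (Equiv.ext fun x => hfix x hn)
  have : Nontrivial ↥G := Finite.one_lt_card_iff_nontrivial.mp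
    (lt_of_lt_of_le hp.one_lt (Nat.le_of_dvd Nat.card_pos hdG))
  refine IsSimpleGroup.mk fun N hN => ?_
  by_contra hcon
  rw [not_or] at hcon
  obtain ⟨hN0, hN1⟩ := hcon
  have hPN : (P : Subgroup ↥G) ≤ N := by
    let S : Sylow p ↥N := default
    have hS : (S : Subgroup ↥N) ≠ ⊥ := S.ne_bot_of_dvd_card (hdN N hN hN0)
    obtain ⟨Q, hQ⟩ := (S.2.map N.subtype).exists_le_sylow
    have hQd : Nat.card ↥((S : Subgroup ↥N).map N.subtype) ∣ p := (Subgroup.card_dvd_of_le hQ).trans (hsyl Q).dvd
    have hQN : (Q : Subgroup ↥G) ≤ N := by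
      rcases (Nat.dvd_prime hp).mp hQd with h | h
      · exfalso
        rw [← Nat.card_congr ((S : Subgroup ↥N).equivMapOfInjective _ N.subtype_injective).toEquiv] at h
        exact hS (Subgroup.card_eq_one.mp h)
      · rw [← Subgroup.eq_of_le_of_card_ge hQ (by rw [h, hsyl Q])]
        exact Subgroup.map_subtype_le _
    obtain ⟨g, rfl⟩ := MulAction.exists_smul_eq ↥G Q P
    intro y hy
    rw [Sylow.smul_def] at hy
    obtain ⟨z, hz, rfl⟩ := hy
    exact hN.conj_mem z (hQN hz) g
  set NP := normalizer ((P : Subgroup ↥G) : Set ↥G) with hNP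
  have hsup : NP ⊔ N = ⊤ := Sylow.normalizer_sup_eq_top' P hPN
  have hprime : ((P : Subgroup ↥G).relIndex NP).Prime := ht
  rcases (Nat.dvd_prime hprime).mp (Dvd.intro _ (Subgroup.relIndex_mul_relIndex (P : Subgroup ↥G)
      (N ⊓ NP) NP (le_inf hPN Subgroup.le_normalizer) inf_le_right)) with h | h
  swap
  · refine hN1 ?_
    have h2 := Subgroup.relIndex_mul_relIndex (P : Subgroup ↥G) (N ⊓ NP) NP
      (le_inf hPN Subgroup.le_normalizer) inf_le_right
    rw [h] at h2
    have h3 : (N ⊓ NP).relIndex NP = 1 := (mul_eq_left₀ hprime.ne_zero).mp h2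
    rw [Subgroup.inf_relIndex_right, Subgroup.relIndex_eq_one] at h3
    rwa [sup_eq_right.mpr h3] at hsup
  · have hle : N ⊓ NP ≤ (P : Subgroup ↥G) := Subgroup.relIndex_eq_one.mp h
    let P' : Sylow p ↥N := P.subtype hPN
    have : IsMulCommutative ↥(P : Subgroup ↥G) :=
      SmallGroups.isMulCommutative_of_prime_card (by rw [hsyl P]; exact hp)
    have hcent : normalizer ((P' : Subgroup ↥N) : Set ↥N) ≤ centralizer ((P' : Subgroup ↥N) : Set ↥N) := by
      intro n hn
      rw [Sylow.coe_subtype, ← subgroupOf_normalizer_eq hPN] at hn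
      have hnP : (n : ↥G) ∈ (P : Subgroup ↥G) := hle ⟨n.2, hn⟩
      intro y hy
      exact Subtype.ext ((P : Subgroup ↥G).le_centralizer hnP (y : ↥G) hy)
    set K := (MonoidHom.transferSylow P' hcent).ker with hK
    have hPK : K.IsComplement' (P' : Subgroup ↥N) := MonoidHom.ker_transferSylow_isComplement' P' hcent
    have hKp : ¬ p ∣ Nat.card ↥K := MonoidHom.not_dvd_card_ker_transferSylow P' hcent
    have hK0 : K = ⊥ := by
      by_contra hK0
      have hKn : (K.map N.subtype).Normal := by
        constructor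
        rintro _ ⟨a, ha, rfl⟩ g
        refine ⟨⟨g * (a : ↥G) * g⁻¹, hN.conj_mem _ a.2 g⟩, ?_, rfl⟩
        rw [SetLike.mem_coe, MonoidHom.mem_ker]
        set b : ↥N := ⟨g * (a : ↥G) * g⁻¹, hN.conj_mem _ a.2 g⟩
        have hord : orderOf b = orderOf a := by
          rw [← Subgroup.orderOf_coe, ← Subgroup.orderOf_coe a]
          exact (orderOf_injective (MulAut.conj g).toMonoidHom (MulAut.conj g).injective (a : ↥G))
        rw [← orderOf_eq_one_iff]
        refine Nat.eq_one_of_dvd_coprimes ?_
          (orderOf_map_dvd (MonoidHom.transferSylow P' hcent) b) (orderOf_dvd_natCard _)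
        rw [hord]
        obtain ⟨k, hk⟩ := P'.2.exists_card_eq
        rw [hk]
        refine Nat.Coprime.pow_right _ (Nat.Coprime.symm (hp.coprime_iff_not_dvd.mpr fun hd => hKp ?_))
        exact hd.trans (Subgroup.orderOf_dvd_natCard _ ha)
      refine hKp ?_
      rw [Nat.card_congr (K.equivMapOfInjective _ N.subtype_injective).toEquiv]
      exact hdN _ hKn (fun h0 => hK0 ((Subgroup.map_eq_bot_iff_of_injective _ N.subtype_injective).mp h0))
    have hmul := hPK.card_mul_card
    rw [hK0, Subgroup.card_bot, one_mul, Sylow.coe_subtype,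
      Nat.card_congr (Subgroup.subgroupOfEquivOfLe hPN).toEquiv] at hmul
    have hPeq : (P : Subgroup ↥G) = N := Subgroup.eq_of_le_of_card_ge hPN hmul.ge
    have hPn : (P : Subgroup ↥G).Normal := hPeq ▸ hN
    have := Sylow.unique_of_normal P hPn
    exact absurd hn (by rw [Nat.card_unique]; exact lt_irrefl 1)

end Cfsg.Agent.S1013
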