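import Cfsg.Statements.S1014
import Cfsg.Agent.SmallGroups.PermNormalizer

set_option autoImplicit false
open Cfsg

namespace Cfsg.Agent.S1014
open Subgroup SmallGroups

/-- No finite simple group has order 1104 = 2^4 * 3 * 23. -/
theorem result {G : Type*} [Group G] [Finite G] [IsSimpleGroup G] : Nat.card G ≠ 1104 := by
  intro h
  have hG : ¬ IsMulCommutative G := not_isMulCommutative (by rw [h]; norm_num)
  have : Fact (Nat.Prime 23) := ⟨by norm_num⟩
  have hn := card_sylow_mem hG (p := 23) (a := 0) (m := 48) (by rw [h]; norm_num) (by norm_num)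
  rw [show ((48 : ℕ).divisors.filter fun n => n % 23 = 1 ∧ 1 < n) = {24} by decide +kernel,
    Finset.mem_singleton] at hn
  let P : Sylow 23 G := default
  have hPc : Nat.card ↥(P : Subgroup G) = 23 :=
    card_sylow_subgroup (a := 1) (m := 48) (by rw [h]; norm_num) (by norm_num) P
  have hmul := card_sylow_mul_card_normalizer P
  have hi : (normalizer ((P : Subgroup G) : Set G)).index = 24 := (card_sylow_eq_index P).symm.trans hn
  have hd := two_mul_card_normalizer_dvd_of_index hG (p := 23) (by norm_num)
    (normalizer ((P : Subgroup G) : Set G)) (fun ht => by rw [ht, Subgroup.index_top] at hi; omega)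
    (by omega) (P : Subgroup G) hPc
  rw [hn, h] at hmul
  rw [hi, show Nat.card ↥(normalizer ((P : Subgroup G) : Set G)) = 46 by omega] at hd
  norm_num at hd

end Cfsg.Agent.S1014
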