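import Cfsg.Statements.S1015
import Cfsg.Agent.SmallGroups.Basic
import Cfsg.Agent.S0985

set_option autoImplicit false
open Cfsg

namespace Cfsg.Agent.S1015
open Subgroup SmallGroups

/-- No finite simple group has order 1200 = 2^4 * 3 * 5^2. -/
theorem result {G : Type*} [Group G] [Finite G] [IsSimpleGroup G] : Nat.card G ≠ 1200 := by
  intro h
  have hG : ¬ IsMulCommutative G := not_isMulCommutative (by rw [h]; norm_num)
  have : Fact (Nat.Prime 5) := ⟨by norm_num⟩
  have hidx : ∀ H : Subgroup G, H ≠ ⊤ → 10 ≤ H.index := by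
    intro H hH
    by_contra hlt
    have hd := (show 5 ^ 2 ∣ 2 * Nat.card G by rw [h]; norm_num).trans (two_mul_card_dvd_factorial hG H hH)
    have h2 := H.one_lt_index_of_ne_top hH
    interval_cases H.index <;> norm_num [Nat.factorial] at hd
  have hP : ∀ P : Sylow 5 G, Nat.card ↥(P : Subgroup G) = 25 := fun P =>
    (card_sylow_subgroup (a := 2) (m := 48) (by rw [h]; norm_num) (by norm_num) P).trans (by norm_num)
  have hn := card_sylow_mem hG (p := 5) (a := 1) (m := 48) (by rw [h]; norm_num) (by norm_num)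
  rw [show ((48 : ℕ).divisors.filter fun n => n % 5 = 1 ∧ 1 < n) = {6, 16} by decide +kernel] at hn
  simp only [Finset.mem_insert, Finset.mem_singleton] at hn
  obtain ⟨P, R, hPR, hidx2⟩ := Cfsg.Agent.S0985.result (G := G) 5 2 (by
    intro hmod
    rcases hn with hn | hn <;> rw [hn] at hmod <;> norm_num [Nat.ModEq] at hmod)
  set D := ((R : Subgroup G).subgroupOf (P : Subgroup G)).map (P : Subgroup G).subtype with hD
  have hDeq : D = (R : Subgroup G) ⊓ (P : Subgroup G) := Subgroup.subgroupOf_map_subtype _ _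
  have hD5 : 5 ≤ Nat.card ↥D := by
    have hmul := Subgroup.card_mul_index ((R : Subgroup G).subgroupOf (P : Subgroup G))
    rw [hP P] at hmul
    rw [hD, ← Nat.card_congr (((R : Subgroup G).subgroupOf (P : Subgroup G)).equivMapOfInjective _
      (P : Subgroup G).subtype_injective).toEquiv]
    have hle : ((R : Subgroup G).subgroupOf (P : Subgroup G)).index ≤ 5 := by simpa using hidx2
    by_contra hlt
    have : ((R : Subgroup G).subgroupOf (P : Subgroup G)).index *
        Nat.card ↥((R : Subgroup G).subgroupOf (P : Subgroup G)) ≤ 5 * 4 := Nat.mul_le_mul hle (by omega)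
    rw [mul_comm] at this
    omega
  set C := centralizer (D : Set G) with hC
  have hab : ∀ Q : Sylow 5 G, IsMulCommutative ↥(Q : Subgroup G) := fun Q =>
    IsPGroup.isMulCommutative_of_card_eq_prime_sq (p := 5) (by rw [hP Q]; norm_num)
  have := hab P
  have := hab R
  have hPC : (P : Subgroup G) ≤ C := ((P : Subgroup G).le_centralizer).trans
    (Subgroup.centralizer_le (hDeq ▸ inf_le_right : D ≤ (P : Subgroup G)))
  have hRC : (R : Subgroup G) ≤ C := ((R : Subgroup G).le_centralizer).trans
    (Subgroup.centralizer_le (hDeq ▸ inf_le_left : D ≤ (R : Subgroup G)))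
  have hne : C ≠ ⊤ := fun ht => by
    have hle : D ≤ center G := fun d hd => Subgroup.mem_center_iff.mpr fun g =>
      ((ht ▸ Subgroup.mem_top g : g ∈ C) d hd).symm
    rw [center_eq_bot hG] at hle
    have := Subgroup.card_le_of_le hle
    rw [Subgroup.card_bot] at this
    omega
  have hi := hidx C hne
  have hmul := Subgroup.card_mul_index C
  rw [h] at hmul
  have hd := card_sylow_dvd (G := ↥C) (p := 5) (a := 2) (m := Nat.card ↥C / 25) (by
    norm_num; rw [Nat.mul_div_cancel' ((hP P).symm.dvd.trans (Subgroup.card_dvd_of_le hPC))])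
  have h25 := (hP P).symm.dvd.trans (Subgroup.card_dvd_of_le hPC)
  have hm := card_sylow_modEq_one 5 ↥C
  rw [Nat.ModEq] at hm
  have hne1 : Nat.card (Sylow 5 ↥C) ≠ 1 := fun h1 => by
    have : Subsingleton (Sylow 5 ↥C) := (Nat.card_eq_one_iff_unique.mp h1).1
    exact hPR (Sylow.subtype_injective (hP := hPC) (hQ := hRC) (Subsingleton.elim _ _))
  obtain ⟨m, hm'⟩ := h25
  rw [hm', Nat.mul_div_cancel_left _ (by norm_num : 0 < 25)] at hd
  rw [hm'] at hmul
  have hpos : 0 < m := by
    by_contra h0
    have : Nat.card ↥C = 0 := by rw [hm', show m = 0 by omega, mul_zero]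
    exact (Nat.card_pos (α := ↥C)).ne' this
  have hle := Nat.le_of_dvd hpos hd
  have h48 : m * C.index = 48 := by nlinarith
  have : m ≤ 4 := by nlinarith
  have hpos2 : 0 < Nat.card (Sylow 5 ↥C) := Nat.card_pos
  omega

end Cfsg.Agent.S1015
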