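import Cfsg.Statements.S1016
import Cfsg.Agent.SmallGroups.ThreePrimes

set_option autoImplicit false
open Cfsg

namespace Cfsg.Agent.S1016


/-- No finite simple group has order 1440 = 2^5 * 3^2 * 5. -/
theorem result {G : Type*} [Group G] [Finite G] [IsSimpleGroup G] : Nat.card G ≠ 1440 := by
  intro hc
  have := Fact.mk (by norm_num : Nat.Prime 5)
  obtain ⟨n, k, -, hn, hn1, hk, hk1, hnk, -⟩ := SmallGroups.exists_threePrime_data
    (SmallGroups.not_isMulCommutative (G := G) (by rw [hc]; norm_num))
    Nat.prime_two Nat.prime_three (r := 5) (a := 5) (b := 2)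
    (by norm_num) (by norm_num) (by norm_num) (by rw [hc]; norm_num)
  have hk4 : k ≤ 4 := Nat.le_of_dvd (by norm_num) hk
  interval_cases k <;> omega

end Cfsg.Agent.S1016
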