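import Cfsg.Statements.S1018
import Cfsg.Agent.SmallGroups.Basic

set_option autoImplicit false
open Cfsg

namespace Cfsg.Agent.S1018
open Subgroup

/-- Let P be a Sylow p-subgroup of order p of a finite group G, and consider the action of G on the left cosets of the normalizer N of P. Then every element of order p fixes exactly one coset, and an element of N that does not centralize P fixes at most as many cosets as there are orbits of P. -/
theorem result {G : Type*} [Group G] [Finite G] (p : ℕ) [Fact p.Prime] (P : Sylow p G) (hP : Nat.card ↥(P : Subgroup G) = p) : (∀ y : G, orderOf y = p → Nat.card (MulAction.fixedBy (G ⧸ Subgroup.normalizer ((P : Subgroup G) : Set G)) y) = 1) ∧ ∀ x : G, x ∈ Subgroup.normalizer ((P : Subgroup G) : Set G) → x ∉ Subgroup.centralizer ((P : Subgroup G) : Set G) → Nat.card (MulAction.fixedBy (G ⧸ Subgroup.normalizer ((P : Subgroup G) : Set G)) x) ≤ Nat.card (MulAction.orbitRel.Quotient ↥(P : Subgroup G) (G ⧸ Subgroup.normalizer ((P : Subgroup G) : Set G))) := by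
  classical
  have hp : p.Prime := Fact.out
  set N := normalizer ((P : Subgroup G) : Set G) with hN
  have hgen : ∀ y ∈ (P : Subgroup G), y ≠ 1 → zpowers y = (P : Subgroup G) := by
    intro y hy hne
    refine Subgroup.eq_of_le_of_card_ge (zpowers_le.mpr hy) ?_
    have h1 : orderOf y ∣ p := hP ▸ Subgroup.orderOf_dvd_natCard _ hy
    rw [hP, Nat.card_zpowers, ((Nat.dvd_prime hp).mp h1).resolve_left (by simpa using hne)]
  have hfixiff : ∀ (y : G), orderOf y = p → ∀ a : G,
      y • ((a : G) : G ⧸ N) = (a : G ⧸ N) ↔ a⁻¹ * y * a ∈ (P : Subgroup G) := by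
    intro y hy a
    rw [MulAction.Quotient.smul_coe, smul_eq_mul, eq_comm, QuotientGroup.eq, ← mul_assoc]
    refine ⟨fun h => ?_, fun h => Subgroup.le_normalizer h⟩
    have hord : orderOf (a⁻¹ * y * a) = p := by
      have := orderOf_injective (MulAut.conj a⁻¹).toMonoidHom (MulAut.conj a⁻¹).injective y
      simpa [hy] using this
    have hz : IsPGroup p (zpowers (a⁻¹ * y * a)) :=
      IsPGroup.of_card (n := 1) (by rw [Nat.card_zpowers, hord, pow_one])
    have h1 := hz.inf_normalizer_sylow P
    exact inf_eq_left.mp (h1.symm.trans (inf_eq_left.mpr (zpowers_le.mpr h))) (mem_zpowers _)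
  have hone : ∀ y : G, orderOf y = p → Nat.card (MulAction.fixedBy (G ⧸ N) y) = 1 := by
    intro y hy
    obtain ⟨Q, hQ⟩ := (IsPGroup.of_card (p := p) (n := 1) (by rw [Nat.card_zpowers, hy, pow_one] :
      Nat.card ↥(zpowers y) = p ^ 1)).exists_le_sylow
    obtain ⟨a, ha⟩ := MulAction.exists_smul_eq G P Q
    have hay : a⁻¹ * y * a ∈ (P : Subgroup G) := by
      obtain ⟨z, hz, hza⟩ : y ∈ (a • P : Sylow p G) := ha ▸ hQ (mem_zpowers y)
      rw [← hza]
      simp only [MulDistribMulAction.toMonoidEnd_apply, MulDistribMulAction.toMonoidHom_apply, MulAut.smul_def, MulAut.conj_apply] at *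
      rw [show a⁻¹ * (a * z * a⁻¹) * a = z by group]
      exact hz
    rw [Nat.card_eq_one_iff_unique]
    refine ⟨⟨fun c d => Subtype.ext ?_⟩, ⟨⟨(a : G ⧸ N), (hfixiff y hy a).mpr hay⟩⟩⟩
    obtain ⟨c, hc⟩ := c
    obtain ⟨d, hd⟩ := d
    show c = d
    induction c using QuotientGroup.induction_on with
    | H c =>
      induction d using QuotientGroup.induction_on with
      | H d =>
        rw [MulAction.mem_fixedBy, hfixiff y hy] at hc hd
        have hne : ∀ b : G, b⁻¹ * y * b ≠ 1 := by
          intro b h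
          have h2 : y = 1 := by
            rw [show y = b * (b⁻¹ * y * b) * b⁻¹ by group, h]
            group
          rw [h2, orderOf_one] at hy
          exact hp.ne_one hy.symm
        have key : ∀ b : G, b⁻¹ * y * b ∈ (P : Subgroup G) →
            (P : Subgroup G).map (MulAut.conj b).toMonoidHom = zpowers y := by
          intro b hb
          rw [← hgen _ hb (hne b), MonoidHom.map_zpowers]
          simp [mul_assoc]
        rw [QuotientGroup.eq]
        have heq : ((c⁻¹ * d) • P : Sylow p G) = P := by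
          have h2 : (c • P : Sylow p G) = d • P := Sylow.ext ((key c hc).trans (key d hd).symm)
          rw [mul_smul, ← h2, inv_smul_smul]
        exact Sylow.smul_eq_iff_mem_normalizer.mp heq
  refine ⟨hone, fun x hxN hxC => ?_⟩
  refine Nat.card_le_card_of_injective (fun c => Quotient.mk'' c.1) ?_
  rintro ⟨c, hc⟩ ⟨d, hd⟩ hcd
  obtain ⟨u, hu⟩ : c ∈ MulAction.orbit ↥(P : Subgroup G) d := Quotient.exact' hcd
  have hc' : x • c = c := hc
  have hd' : x • d = d := hd
  apply Subtype.ext
  show c = d
  have hu' : (u : G) • d = c := hu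
  set v := x * (u : G) * x⁻¹ with hv
  have hvP : v ∈ (P : Subgroup G) := (mem_normalizer_iff.mp hxN (u : G)).mp u.2
  have hvd : v • d = c := by
    have h1 : x⁻¹ • d = d := inv_smul_eq_iff.mpr hd'.symm
    rw [hv, mul_smul, mul_smul, h1, hu', hc']
  by_cases hvu : v = (u : G)
  · have hu1 : (u : G) = 1 := by
      by_contra hu1
      refine hxC fun y hy => ?_
      obtain ⟨i, hi⟩ := Subgroup.mem_zpowers_iff.mp ((hgen _ u.2 hu1).symm ▸ hy : y ∈ zpowers (u : G))
      rw [← hi]
      have hcomm : Commute x (u : G) := mul_inv_eq_iff_eq_mul.mp hvu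
      exact (hcomm.zpow_right i).symm.eq
    rw [← hu', hu1, one_smul]
  · set w := v⁻¹ * (u : G) with hw
    have hwP : w ∈ (P : Subgroup G) := mul_mem (inv_mem hvP) u.2
    have hw1 : w ≠ 1 := fun h => hvu (inv_mul_eq_one.mp h)
    have hwd : w • d = d := by rw [hw, mul_smul, hu', inv_smul_eq_iff, hvd]
    rw [← hu']
    refine (?_ : (u : G) ∈ MulAction.stabilizer G d)
    have h2 : zpowers w ≤ MulAction.stabilizer G d := zpowers_le.mpr hwd
    rw [hgen w hwP hw1] at h2
    exact h2 u.2

end Cfsg.Agent.S1018
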