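import Cfsg.Statements.S1019


set_option autoImplicit false
open Cfsg

namespace Cfsg.Agent.S1019
open Subgroup

/-- Let H be a subgroup of a finite group G and x an element of H. In the action of G on the left cosets of H, the number of cosets fixed by x, multiplied by the size of the conjugacy class of x, equals the index of H multiplied by the number of conjugates of x that lie in H. -/
theorem result {G : Type*} [Group G] [Finite G] (H : Subgroup G) (x : G) (hx : x ∈ H) : Nat.card (MulAction.fixedBy (G ⧸ H) x) * Nat.card {g : G // IsConj x g} = H.index * Nat.card {g : G // IsConj x g ∧ g ∈ H} := by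
  classical
  let cls := {g : G // IsConj x g}
  let e : {q : (G ⧸ H) × cls // q.2.1 • q.1 = q.1} ≃ Σ y : cls, MulAction.fixedBy (G ⧸ H) y.1 :=
  { toFun := fun q => ⟨q.1.2, q.1.1, q.2⟩
    invFun := fun s => ⟨(s.2.1, s.1), s.2.2⟩
    left_inv := fun q => rfl
    right_inv := fun s => rfl }
  let e' : {q : (G ⧸ H) × cls // q.2.1 • q.1 = q.1} ≃ Σ c : G ⧸ H, {y : cls // y.1 • c = c} :=
  { toFun := fun q => ⟨q.1.1, q.1.2, q.2⟩
    invFun := fun s => ⟨(s.1, s.2.1), s.2.2⟩
    left_inv := fun q => rfl
    right_inv := fun s => rfl }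
  have := Fintype.ofFinite cls
  have := Fintype.ofFinite (G ⧸ H)
  have h1 : ∀ y : cls, Nat.card (MulAction.fixedBy (G ⧸ H) y.1) = Nat.card (MulAction.fixedBy (G ⧸ H) x) := by
    rintro ⟨y, hy⟩
    obtain ⟨a, rfl⟩ := isConj_iff.mp hy
    refine Nat.card_congr
      { toFun := fun c => ⟨a⁻¹ • c.1, ?_⟩
        invFun := fun c => ⟨a • c.1, ?_⟩
        left_inv := fun c => by simp
        right_inv := fun c => by simp }
    · have := c.2
      simp only [MulAction.mem_fixedBy] at this ⊢
      rw [mul_smul, mul_smul] at this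
      nth_rewrite 2 [← this]
      rw [inv_smul_smul]
    · have := c.2
      simp only [MulAction.mem_fixedBy] at this ⊢
      rw [mul_smul, mul_smul, inv_smul_smul, this]
  have h2 : ∀ c : G ⧸ H, Nat.card {y : cls // y.1 • c = c} = Nat.card {g : G // IsConj x g ∧ g ∈ H} := by
    intro c
    induction c using QuotientGroup.induction_on with
    | H a =>
      have hiff : ∀ y : G, y • ((a : G) : G ⧸ H) = (a : G ⧸ H) ↔ a⁻¹ * y * a ∈ H := by
        intro y
        rw [MulAction.Quotient.smul_coe, smul_eq_mul, eq_comm, QuotientGroup.eq, mul_assoc]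
      refine Nat.card_congr
        { toFun := fun y => ⟨a⁻¹ * y.1.1 * a, ?_, (hiff _).mp y.2⟩
          invFun := fun g => ⟨⟨a * g.1 * a⁻¹, g.2.1.trans (isConj_iff.mpr ⟨a, rfl⟩)⟩, (hiff _).mpr ?_⟩
          left_inv := fun y => by ext; simp [mul_assoc]
          right_inv := fun g => by ext; simp [mul_assoc] }
      · exact y.1.2.trans (isConj_iff.mpr ⟨a⁻¹, by simp⟩)
      · simpa [mul_assoc] using g.2.2
  have hc1 := Nat.card_congr e
  have hc2 := Nat.card_congr e'
  rw [Nat.card_sigma, Finset.sum_congr rfl (fun y _ => h1 y), Finset.sum_const, Finset.card_univ,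
    smul_eq_mul, ← Nat.card_eq_fintype_card] at hc1
  rw [Nat.card_sigma, Finset.sum_congr rfl (fun c _ => h2 c), Finset.sum_const, Finset.card_univ,
    smul_eq_mul, ← Nat.card_eq_fintype_card, ← Subgroup.index_eq_card] at hc2
  rw [← hc2, hc1, mul_comm]

end Cfsg.Agent.S1019
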