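import Cfsg.Statements.S1022
import Cfsg.Agent.SmallGroups.PrimeSylow

set_option autoImplicit false
open Cfsg

namespace Cfsg.Agent.S1022
open Subgroup SmallGroups

section

variable {H : Type*} [Group H] [Finite H]

/-- An element of prime order `r` normalizing `D` fixes `|D|` elements of it modulo `r`. -/
theorem card_modEq_centralized {r : ℕ} [hr : Fact r.Prime] {y : H} (hy : orderOf y = r)
    {D : Subgroup H} (hN : y ∈ normalizer (D : Set H)) :
    Nat.card ↥D ≡ Nat.card ↥(D ⊓ centralizer {y} : Subgroup H) [MOD r] := by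
  let u : ↥(normalizer (D : Set H)) := ⟨y, hN⟩
  let U : Subgroup ↥(normalizer (D : Set H)) := zpowers u
  have hU : IsPGroup r ↥U := IsPGroup.of_card (n := 1) (by
    rw [Nat.card_zpowers, pow_one, ← Subgroup.orderOf_coe]; exact hy)
  let : MulDistribMulAction ↥U ↥D :=
    MulDistribMulAction.compHom _ (D.normalizerMonoidHom.comp U.subtype)
  refine (hU.card_modEq_card_fixedPoints ↥D).trans (Eq.subst (motive := fun k => _ ≡ k [MOD r]) ?_ rfl)
  refine Nat.card_congr
    { toFun := fun t => ⟨(t.1 : H), t.1.2, mem_centralizer_singleton_iff.mpr ?_⟩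
      invFun := fun t => ⟨⟨t.1, t.2.1⟩, fun m => ?_⟩
      left_inv := fun t => rfl
      right_inv := fun t => rfl }
  · have h1 : y * (t.1 : H) * y⁻¹ = (t.1 : H) := congrArg Subtype.val (t.2 ⟨u, mem_zpowers u⟩)
    exact (mul_inv_eq_iff_eq_mul.mp h1).symm
  · obtain ⟨⟨v, hv⟩, hm⟩ := m
    obtain ⟨i, hi⟩ := mem_zpowers_iff.mp hm
    apply Subtype.ext
    show v * t.1 * v⁻¹ = t.1
    have hv' : v = y ^ i := by simpa [u] using (congrArg Subtype.val hi).symm
    have hc : Commute y t.1 := (mem_centralizer_singleton_iff.mp t.2.2).symm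
    rw [hv', (hc.zpow_left i).eq, mul_inv_cancel_right]

/-- The Sylow `19`-normalizer of a group of order `7296` is not central of order `76`. -/
theorem not_card_7296 (h : Nat.card H = 7296) [Fact (Nat.Prime 19)] (P : Sylow 19 H)
    (hP : Nat.card ↥(P : Subgroup H) = 19)
    (hN : Nat.card ↥(normalizer ((P : Subgroup H) : Set H)) = 76)
    (hle : normalizer ((P : Subgroup H) : Set H) ≤ centralizer ((P : Subgroup H) : Set H)) :
    False := by
  have := Fact.mk Nat.prime_two
  set M := (MonoidHom.transferSylow P hle).ker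
  have hc := (MonoidHom.ker_transferSylow_isComplement' P hle).card_mul_card
  rw [hP, h] at hc
  have hM : Nat.card ↥M = 384 := by linarith
  have hi : M.index = 19 := by
    have := M.card_mul_index
    rw [hM, h] at this
    omega
  obtain ⟨Q⟩ : Nonempty (Sylow 2 ↥M) := inferInstance
  have hQ : Nat.card ↥(Q : Subgroup ↥M) = 128 :=
    (card_sylow_subgroup (a := 7) (m := 3) (by rw [hM]; norm_num) (by norm_num) Q).trans (by norm_num)
  set Qm := (Q : Subgroup ↥M).map M.subtype
  have h19 : 19 ∣ Nat.card ↥(normalizer (Qm : Set H)) := by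
    have hr : M.relIndex (normalizer (Qm : Set H)) = 19 := by
      rw [← relIndex_sup_right (H := normalizer (Qm : Set H)) (K := M),
        Sylow.normalizer_sup_eq_top Q, relIndex_top_right, hi]
    exact hr ▸ relIndex_dvd_card _ _
  obtain ⟨⟨y, hyn⟩, hy⟩ := exists_prime_orderOf_dvd_card' 19 h19
  rw [← Subgroup.orderOf_coe] at hy
  obtain ⟨R, hR⟩ := (IsPGroup.of_card (p := 19) (n := 1)
    (by rw [Nat.card_zpowers, hy, pow_one]) : IsPGroup 19 ↥(zpowers y)).exists_le_sylow
  obtain ⟨g, hg⟩ := MulAction.exists_smul_eq H R P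
  set x := MulAut.conj g y with hxdef
  have hx : orderOf x = 19 := by rw [hxdef, MulEquiv.orderOf_eq]; exact hy
  have hxP : zpowers x = (P : Subgroup H) := by
    refine eq_of_le_of_card_ge (zpowers_le.mpr ?_) (by rw [hP, Nat.card_zpowers, hx])
    rw [← hg]
    exact ⟨y, hR (mem_zpowers y), rfl⟩
  set D := Qm.map (MulAut.conj g).toMonoidHom with hDdef
  have hxD : x ∈ normalizer (D : Set H) :=
    Subgroup.le_normalizer_map (MulAut.conj g).toMonoidHom ⟨y, hyn, rfl⟩
  have hD : Nat.card ↥D = 128 := by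
    rw [hDdef, ← Nat.card_congr (Qm.equivMapOfInjective _ (MulAut.conj g).injective).toEquiv,
      ← Nat.card_congr ((Q : Subgroup ↥M).equivMapOfInjective _ M.subtype_injective).toEquiv, hQ]
  have hmod := card_modEq_centralized hx hxD
  have hd1 : Nat.card ↥(D ⊓ centralizer {x} : Subgroup H) ∣ 128 :=
    hD ▸ card_dvd_of_le inf_le_left
  have hd2 : Nat.card ↥(D ⊓ centralizer {x} : Subgroup H) ∣ 76 := by
    refine hN ▸ card_dvd_of_le (le_trans inf_le_right (le_trans ?_ (centralizer_le_normalizer _)))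
    rw [← hxP]
    intro v hv z hz
    obtain ⟨i, rfl⟩ := mem_zpowers_iff.mp hz
    exact ((show Commute x v from (mem_centralizer_singleton_iff.mp hv).symm).zpow_left i).eq
  have hd := Nat.dvd_gcd hd1 hd2
  rw [show Nat.gcd 128 76 = 4 by rfl] at hd
  have h4 := Nat.le_of_dvd (by norm_num) hd
  rw [hD, Nat.ModEq] at hmod
  omega

end

/-- No finite simple group has order 459648 = 2^7 * 3^3 * 7 * 19. -/
theorem result {G : Type*} [Group G] [Finite G] [IsSimpleGroup G] : Nat.card G ≠ 459648 := by
  intro hc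
  have := Fact.mk (by norm_num : Nat.Prime 19)
  have := Fact.mk (by norm_num : Nat.Prime 2)
  have := Fact.mk (by norm_num : Nat.Prime 7)
  have hG : ¬ IsMulCommutative G := not_isMulCommutative (by rw [hc]; norm_num)
  obtain ⟨n, k, c, hn, hnm, -, hmul, hP, hC, hN⟩ :=
    exists_primeSylow_data hG (r := 19) (m := 24192) (by rw [hc]) (by norm_num)
  obtain ⟨P⟩ : Nonempty (Sylow 19 G) := inferInstance
  set N := normalizer ((P : Subgroup G) : Set G) with hNdef
  set C := centralizer ((P : Subgroup G) : Set G) with hCdef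
  have hn' : n = 96 ∨ n = 1008 := by
    rw [Finset.mem_filter, Nat.mem_divisors] at hnm
    obtain ⟨⟨⟨q, hq⟩, -⟩, h1, h2⟩ := hnm
    have hne : n ≤ 24192 := Nat.le_of_dvd (by norm_num) ⟨q, hq⟩
    have key : ∀ d ∈ Nat.divisors 24192, d % 19 = 1 → 1 < d → d = 96 ∨ d = 1008 := by
      decide +kernel
    exact key n (Nat.mem_divisors.mpr ⟨⟨q, hq⟩, by norm_num⟩) h1 h2
  rcases hn' with rfl | rfl
  · -- an element of order 7 centralizing `P` fixes all Sylow 19-subgroups
    have hk19 : k ∣ 18 := by
      have h := (relIndex_centralizer_prime hG P (hP P)).1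
      have hm := relIndex_mul_relIndex (⊥ : Subgroup G) C N bot_le (centralizer_le_normalizer _)
      rw [relIndex_bot_left, relIndex_bot_left, hC P, hN P] at hm
      have hc0 : c ≠ 0 := by rintro rfl; simp at hmul
      have : C.relIndex N = k := Nat.eq_of_mul_eq_mul_left (n := 19 * c) (by positivity) (by linarith)
      rw [this] at h
      exact h
    have h7 : 7 ∣ c := by
      have hkc : 7 ∣ k * c := ⟨36, by omega⟩
      refine ((Nat.Prime.dvd_mul (by norm_num)).mp hkc).resolve_left fun h => ?_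
      have := h.trans hk19
      norm_num at this
    obtain ⟨⟨y, hyC⟩, hy⟩ := exists_prime_orderOf_dvd_card' (G := ↥C) 7
      (hC P ▸ Dvd.dvd.mul_left h7 19)
    rw [← Subgroup.orderOf_coe] at hy
    obtain ⟨⟨x, hxP⟩, hx⟩ := exists_prime_orderOf_dvd_card' (G := ↥(P : Subgroup G)) 19
      (hP P).symm.dvd
    rw [← Subgroup.orderOf_coe] at hx
    have hxy : Commute x y := hyC x hxP
    have hfix : ∀ Q : Sylow 19 G, y • Q = Q := by
      intro Q
      by_cases hxQ : x • Q = Q
      · have hxN : x ∈ normalizer ((Q : Subgroup G) : Set G) := Sylow.smul_eq_iff_mem_normalizer.mp hxQ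
        have hxQ' : x ∈ (Q : Subgroup G) := by
          have h1 := IsPGroup.inf_normalizer_sylow (IsPGroup.of_card (p := 19) (n := 1)
            (by rw [Nat.card_zpowers, hx, pow_one]) : IsPGroup 19 ↥(zpowers x)) Q
          have h2 : x ∈ zpowers x ⊓ normalizer ((Q : Subgroup G) : Set G) := ⟨mem_zpowers x, hxN⟩
          exact (h1 ▸ h2).2
        have hPQ : P = Q := Sylow.ext
          ((eq_of_le_of_card_ge (zpowers_le.mpr hxP) (by rw [hP P, Nat.card_zpowers, hx])).symm.trans
            (eq_of_le_of_card_ge (zpowers_le.mpr hxQ') (by rw [hP Q, Nat.card_zpowers, hx])))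
        rw [← hPQ, Sylow.smul_eq_iff_mem_normalizer]
        exact centralizer_le_normalizer _ hyC
      · have := Fintype.ofFinite (Sylow 19 G)
        set d := MulAction.period (x * y) Q
        have hz : (x * y) ^ 133 = 1 := by
          rw [hxy.mul_pow, orderOf_dvd_iff_pow_eq_one.mp (hx ▸ by norm_num : orderOf x ∣ 133),
            orderOf_dvd_iff_pow_eq_one.mp (hy ▸ by norm_num : orderOf y ∣ 133), mul_one]
        have hd : d ∣ 133 := MulAction.pow_smul_eq_iff_period_dvd.mp (by rw [hz, one_smul])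
        have hd96 : d ≤ 96 := by
          rw [← hn, Nat.card_eq_fintype_card]
          exact Function.minimalPeriod_le_card
        have hcases : d ∣ 7 ∨ d ∣ 19 := by
          have : d ∈ Nat.divisors 133 := Nat.mem_divisors.mpr ⟨hd, by norm_num⟩
          have key : ∀ e ∈ Nat.divisors 133, e ≤ 96 → e ∣ 7 ∨ e ∣ 19 := by decide +kernel
          exact key d this hd96
        have red : ∀ (a : G) (m o : ℕ), orderOf a = o → m % o = 1 → a ^ m = a := by
          intro a m o ho hmo
          rw [← pow_mod_orderOf, ho, hmo, pow_one]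
        rcases hcases with h | h
        · refine absurd ?_ hxQ
          have h77 : (x * y) ^ 77 • Q = Q :=
            MulAction.pow_smul_eq_iff_period_dvd.mpr (h.trans (by norm_num))
          rwa [hxy.mul_pow, red x 77 19 hx (by norm_num),
            orderOf_dvd_iff_pow_eq_one.mp (hy ▸ by norm_num : orderOf y ∣ 77), mul_one] at h77
        · have h57 : (x * y) ^ 57 • Q = Q :=
            MulAction.pow_smul_eq_iff_period_dvd.mpr (h.trans (by norm_num))
          rwa [hxy.mul_pow, red y 57 7 hy (by norm_num),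
            orderOf_dvd_iff_pow_eq_one.mp (hx ▸ by norm_num : orderOf x ∣ 57), one_mul] at h57
    rcases injective_or_trivial (MulAction.toPermHom G (Sylow 19 G)) with h | h
    · have : y = 1 := h (Equiv.ext fun Q => by simpa using hfix Q)
      simp [this] at hy
    · have hfixP : ∀ g : G, g • P = P := fun g => by simpa using Equiv.Perm.congr_fun (h g) P
      have hsub : Subsingleton (Sylow 19 G) := ⟨fun A B => by
        obtain ⟨a, rfl⟩ := MulAction.exists_smul_eq G P A
        obtain ⟨b, rfl⟩ := MulAction.exists_smul_eq G P B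
        rw [hfixP a, hfixP b]⟩
      rw [Nat.card_of_subsingleton P] at hn
      omega
  · -- `n = 1008`
    have hkc : k * c = 24 := by omega
    have hN456 : Nat.card ↥N = 456 := by rw [hN P, hkc]
    obtain ⟨D', hD'⟩ := Sylow.exists_subgroup_card_pow_prime (G := ↥N) 2 (n := 3)
      (by rw [hN456]; norm_num)
    set D := D'.map N.subtype with hDdef
    have hD : Nat.card ↥D = 8 := by
      rw [hDdef, ← Nat.card_congr (D'.equivMapOfInjective _ N.subtype_injective).toEquiv, hD']
      norm_num
    have hDN : D ≤ N := map_subtype_le D'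
    obtain ⟨E, hE, hDE⟩ := Sylow.exists_subgroup_card_pow_succ (p := 2) (n := 3) (H := D)
      (by rw [hc]; norm_num) (by rw [hD]; norm_num)
    have hlt : D < E := lt_of_le_of_ne hDE fun h => by rw [h] at hD; rw [hD] at hE; norm_num at hE
    obtain ⟨h, hhE, hhD⟩ := SetLike.exists_of_lt hlt
    have hhN : h ∉ N := by
      intro hh
      refine hhD ?_
      have h8 : Nat.card ↥(E ⊓ N : Subgroup G) ∣ 8 := by
        have h1 : Nat.card ↥(E ⊓ N : Subgroup G) ∣ 16 := by
          have := card_dvd_of_le (inf_le_left : E ⊓ N ≤ E)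
          rw [hE] at this
          norm_num at this ⊢
          exact this
        have h2 : Nat.card ↥(E ⊓ N : Subgroup G) ∣ 456 :=
          hN456 ▸ card_dvd_of_le (inf_le_right : E ⊓ N ≤ N)
        have := Nat.dvd_gcd h1 h2
        norm_num at this ⊢
        exact this
      have heq : D = E ⊓ N := eq_of_le_of_card_ge (le_inf hDE hDN)
        (hD ▸ Nat.le_of_dvd (by norm_num) h8)
      rw [heq]
      exact ⟨hhE, hh⟩
    have hnorm : (D.subgroupOf E).Normal := by
      refine normal_of_index_eq_two ?_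
      have h2 := (D.subgroupOf E).card_mul_index
      rw [Nat.card_congr (subgroupOfEquivOfLe hDE).toEquiv, hD, hE] at h2
      norm_num at h2
      omega
    have hconj : ∀ d ∈ D, h⁻¹ * d * h ∈ D := by
      intro d hd
      simpa [mem_subgroupOf] using
        hnorm.conj_mem ⟨d, hDE hd⟩ (by simpa [mem_subgroupOf] using hd) ⟨h⁻¹, inv_mem hhE⟩
    -- `K = D ⊓ C` has order at least `4`
    set K := D ⊓ C with hKdef
    have hK : 4 ≤ Nat.card ↥K ∧ Nat.card ↥K ∣ 8 := by
      refine ⟨?_, hD ▸ card_dvd_of_le inf_le_left⟩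
      have hCN : C.relIndex N ∣ 18 := (relIndex_centralizer_prime hG P (hP P)).1
      have hn1 : (C.subgroupOf N).Normal := by
        have : (centralizer ((P : Subgroup G) : Set G)).subgroupOf
            (normalizer ((P : Subgroup G) : Set G)) =
            ((P : Subgroup G).normalizerMonoidHom).ker := (normalizerMonoidHom_ker _).symm
        rw [hCdef, hNdef, this]
        infer_instance
      have hd1 : C.relIndex D ∣ 18 := by
        refine Dvd.dvd.trans ?_ hCN
        rw [← relIndex_subgroupOf hDN]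
        exact relIndex_dvd_index_of_normal _ _
      have hd2 : C.relIndex D ∣ 8 := hD ▸ relIndex_dvd_card _ _
      have hd := Nat.dvd_gcd hd1 hd2
      norm_num at hd
      have hm := relIndex_mul_relIndex (⊥ : Subgroup G) K D bot_le inf_le_left
      rw [relIndex_bot_left, relIndex_bot_left, hKdef, inf_comm, inf_relIndex_right, hD] at hm
      have := Nat.le_of_dvd (by norm_num) hd
      rw [hKdef, inf_comm]
      nlinarith
    -- `K` meets its conjugate
    obtain ⟨w, hwK, hvK, hw1⟩ : ∃ w ∈ K, h * w * h⁻¹ ∈ K ∧ w ≠ 1 := by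
      by_contra hnone
      let f : ↥K × ↥K → ↥D := fun ab =>
        ⟨ab.1.1 * (h⁻¹ * ab.2.1 * h), mul_mem ab.1.2.1 (hconj _ ab.2.2.1)⟩
      have hf : Function.Injective f := by
        rintro ⟨⟨a, ha⟩, ⟨b, hb⟩⟩ ⟨⟨a', ha'⟩, ⟨b', hb'⟩⟩ he
        have he' : a * (h⁻¹ * b * h) = a' * (h⁻¹ * b' * h) := congrArg Subtype.val he
        have hu : a'⁻¹ * a = h⁻¹ * (b' * b⁻¹) * h := by
          rw [inv_mul_eq_iff_eq_mul]
          calc a = a * (h⁻¹ * b * h) * (h⁻¹ * b * h)⁻¹ := by group
            _ = a' * (h⁻¹ * b' * h) * (h⁻¹ * b * h)⁻¹ := by rw [he']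
            _ = a' * (h⁻¹ * (b' * b⁻¹) * h) := by group
        have h1 : a'⁻¹ * a = 1 := by
          by_contra hne
          refine hnone ⟨a'⁻¹ * a, mul_mem (inv_mem ha') ha, ?_, hne⟩
          rw [hu]
          have : h * (h⁻¹ * (b' * b⁻¹) * h) * h⁻¹ = b' * b⁻¹ := by group
          rw [this]
          exact mul_mem hb' (inv_mem hb)
        have h2 : b' * b⁻¹ = 1 := by
          calc b' * b⁻¹ = h * (h⁻¹ * (b' * b⁻¹) * h) * h⁻¹ := by group
            _ = h * (a'⁻¹ * a) * h⁻¹ := by rw [hu]
            _ = 1 := by rw [h1]; group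
        obtain rfl : a' = a := inv_mul_eq_one.mp h1
        obtain rfl : b' = b := mul_inv_eq_one.mp h2
        rfl
      have hle := Nat.card_le_card_of_injective f hf
      rw [Nat.card_prod, hD] at hle
      nlinarith [hK.1]
    -- the centralizer of `w`
    set H := centralizer ({w} : Set G) with hHdef
    have hPH : (P : Subgroup G) ≤ H := fun a ha =>
      mem_centralizer_singleton_iff.mpr (hwK.2 a ha)
    have hQH : ((h⁻¹ • P : Sylow 19 G) : Subgroup G) ≤ H := by
      rintro _ ⟨a, ha, rfl⟩
      rw [mem_centralizer_singleton_iff]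
      show h⁻¹ * a * h⁻¹⁻¹ * w = w * (h⁻¹ * a * h⁻¹⁻¹)
      have e := hvK.2 a ha
      calc h⁻¹ * a * h⁻¹⁻¹ * w = h⁻¹ * (a * (h * w * h⁻¹)) * h := by group
        _ = h⁻¹ * ((h * w * h⁻¹) * a) * h := by rw [e]
        _ = w * (h⁻¹ * a * h⁻¹⁻¹) := by group
    set P' := P.subtype hPH
    -- at least four elements of `K` lie in `H`
    have hL : 4 ∣ Nat.card ↥(K ⊓ H : Subgroup G) := by
      have hwL : w ∈ K ⊓ H := ⟨hwK, mem_centralizer_singleton_iff.mpr rfl⟩
      have hd : Nat.card ↥(K ⊓ H : Subgroup G) ∣ 8 :=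
        (card_dvd_of_le inf_le_left).trans hK.2
      have hL1 : Nat.card ↥(K ⊓ H : Subgroup G) ≠ 1 := fun h1 =>
        hw1 (by have := Subgroup.card_eq_one.mp h1; simpa [this] using hwL)
      by_contra h4
      have h2 : Nat.card ↥(K ⊓ H : Subgroup G) = 2 := by
        have key : ∀ e ∈ Nat.divisors 8, e ≠ 1 → ¬ 4 ∣ e → e = 2 := by decide +kernel
        exact key _ (Nat.mem_divisors.mpr ⟨hd, by norm_num⟩) hL1 h4
      have hK2 : IsPGroup 2 ↥K := by
        obtain ⟨i, -, hi⟩ := (Nat.dvd_prime_pow Nat.prime_two (m := 3)).mp (by simpa using hK.2)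
        exact IsPGroup.of_card hi
      have : Nontrivial ↥K := Finite.one_lt_card_iff_nontrivial.mp (by omega)
      have := hK2.center_nontrivial
      obtain ⟨⟨z, hzc⟩, hz1⟩ := exists_ne (1 : ↥(Subgroup.center ↥K))
      have hzH : (z : G) ∈ K ⊓ H := ⟨z.2, mem_centralizer_singleton_iff.mpr
        (congrArg Subtype.val (Subgroup.mem_center_iff.mp hzc ⟨w, hwK⟩)).symm⟩
      have hzw : (z : G) = w := by
        obtain ⟨a, b, -, hab⟩ := (Nat.card_eq_two_iff (α := ↥(K ⊓ H : Subgroup G))).mp h2
        have hall : ∀ t : ↥(K ⊓ H : Subgroup G), t = a ∨ t = b := fun t => by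
          have : t ∈ ({a, b} : Set ↥(K ⊓ H : Subgroup G)) := hab ▸ Set.mem_univ t
          simpa using this
        have hz' : (⟨(z : G), hzH⟩ : ↥(K ⊓ H : Subgroup G)) ≠ 1 := fun e =>
          hz1 (Subtype.ext (Subtype.ext (congrArg (fun t : ↥(K ⊓ H : Subgroup G) => (t : G)) e)))
        have hw' : (⟨w, hwL⟩ : ↥(K ⊓ H : Subgroup G)) ≠ 1 := fun e => hw1 (congrArg Subtype.val e)
        rcases hall ⟨(z : G), hzH⟩ with e1 | e1 <;> rcases hall ⟨w, hwL⟩ with e2 | e2 <;>
          rcases hall 1 with e3 | e3 <;>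
          first
          | exact congrArg Subtype.val (e1.trans e2.symm)
          | exact absurd (e1.trans e3.symm) hz'
          | exact absurd (e2.trans e3.symm) hw'
      have hKH : K ≤ H := fun a ha => mem_centralizer_singleton_iff.mpr (by
        rw [← hzw]
        exact congrArg Subtype.val (Subgroup.mem_center_iff.mp hzc ⟨a, ha⟩))
      rw [inf_eq_left.mpr hKH] at h2
      omega
    -- the normalizer and centralizer of `P` in `H`
    set NH := normalizer ((P' : Subgroup ↥H) : Set ↥H) with hNHdef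
    set CH := centralizer ((P' : Subgroup ↥H) : Set ↥H) with hCHdef
    have hP'c : Nat.card ↥(P' : Subgroup ↥H) = 19 := by
      rw [Sylow.coe_subtype, Nat.card_congr (subgroupOfEquivOfLe hPH).toEquiv, hP P]
    have hNH : Nat.card ↥NH ∣ 456 := by
      rw [hNHdef, Sylow.coe_subtype, ← subgroupOf_normalizer_eq hPH, ← hN456]
      have e := Nat.card_congr (subgroupOfEquivOfLe (inf_le_right : N ⊓ H ≤ H)).toEquiv
      rw [inf_subgroupOf_right] at e
      exact e ▸ card_dvd_of_le inf_le_left
    have hCH : 76 ∣ Nat.card ↥CH := by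
      have h1 : 19 ∣ Nat.card ↥CH := by
        have := isMulCommutative_of_prime_card (G := ↥(P' : Subgroup ↥H)) (by rw [hP'c]; norm_num)
        exact hP'c ▸ card_dvd_of_le ((P' : Subgroup ↥H).le_centralizer)
      have h2 : 4 ∣ Nat.card ↥CH := by
        refine hL.trans ?_
        rw [← Nat.card_congr (subgroupOfEquivOfLe (inf_le_right : K ⊓ H ≤ H)).toEquiv]
        refine card_dvd_of_le fun a ha b hb => Subtype.ext ?_
        exact (mem_subgroupOf.mp ha).1.2 (b : G) hb
      exact Nat.Coprime.mul_dvd_of_dvd_of_dvd (by norm_num : Nat.Coprime 4 19) h2 h1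
    have hNC : Nat.card ↥CH ∣ Nat.card ↥NH := card_dvd_of_le (centralizer_le_normalizer _)
    obtain ⟨j, hj⟩ := (dvd_trans (by norm_num : 19 ∣ 76) (hCH.trans hNC))
    have hjd : j ∣ 24 ∧ 4 ∣ j := by
      refine ⟨Nat.dvd_of_mul_dvd_mul_left (by norm_num : 0 < 19) ?_,
        Nat.dvd_of_mul_dvd_mul_left (by norm_num : 0 < 19) ?_⟩
      · rw [← hj]; exact hNH.trans (by norm_num)
      · rw [← hj]; exact (by norm_num : 19 * 4 ∣ 76).trans (hCH.trans hNC)
    set n' := Nat.card (Sylow 19 ↥H)
    have hHc : n' * Nat.card ↥NH = Nat.card ↥H := card_sylow_mul_card_normalizer P'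
    have hidx : Nat.card ↥H * H.index = 459648 := by rw [H.card_mul_index, hc]
    have hn'd : n' ∣ 24192 := by
      have h1 : n' ∣ 19 * 24192 := ⟨Nat.card ↥NH * H.index, by rw [← mul_assoc, hHc, hidx]⟩
      exact ((Nat.Prime.coprime_iff_not_dvd (by norm_num)).mpr
        (not_dvd_card_sylow 19 ↥H)).symm.dvd_of_dvd_mul_left h1
    have hn'c : n' = 1 ∨ n' = 96 ∨ n' = 1008 := by
      have key : ∀ d ∈ Nat.divisors 24192, d % 19 = 1 → d = 1 ∨ d = 96 ∨ d = 1008 := by
        decide +kernel
      have hm := card_sylow_modEq_one 19 ↥H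
      exact key n' (Nat.mem_divisors.mpr ⟨hn'd, by norm_num⟩) (by simpa [Nat.ModEq] using hm)
    rcases hn'c with h1 | h1 | h1
    · have := (Nat.card_eq_one_iff_unique.mp h1).1
      have he : (P.subtype hPH : Subgroup ↥H) = ((h⁻¹ • P : Sylow 19 G).subtype hQH : Subgroup ↥H) :=
        congrArg _ (Subsingleton.elim _ _)
      rw [Sylow.coe_subtype, Sylow.coe_subtype, subgroupOf_inj, inf_eq_left.mpr hPH,
        inf_eq_left.mpr hQH] at he
      exact hhN (inv_inv h ▸ inv_mem (Sylow.smul_eq_iff_mem_normalizer.mp (Sylow.ext he.symm)))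
    · rw [h1, hj] at hHc
      rw [← hHc] at hidx
      have hj12 : j = 4 ∧ H.index = 63 ∨ j = 12 ∧ H.index = 21 := by
        have key : ∀ e ∈ Nat.divisors 24, 4 ∣ e → e ∣ 252 → e = 4 ∨ e = 12 := by decide +kernel
        have h252 : j ∣ 252 := ⟨H.index, by nlinarith⟩
        rcases key j (Nat.mem_divisors.mpr ⟨hjd.1, by norm_num⟩) hjd.2 h252 with rfl | rfl <;> omega
      rcases hj12 with ⟨rfl, -⟩ | ⟨rfl, hi⟩
      · have hNC' : NH ≤ CH := by
          have h76 : Nat.card ↥CH = 76 :=
            Nat.dvd_antisymm (by rw [hj] at hNC; norm_num at hNC ⊢; exact hNC) hCH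
          exact (eq_of_le_of_card_ge (centralizer_le_normalizer _ : CH ≤ NH)
            (hj.trans_le h76.ge)).ge
        exact not_card_7296 (by omega) P' hP'c (by omega) hNC'
      · have htop : H ≠ ⊤ := fun ht => by rw [ht, index_top] at hi; omega
        have := two_mul_card_normalizer_dvd_of_index hG (p := 19) (by norm_num) H htop
          (by omega) _ (hP P)
        rw [← hNdef, hN456, hi] at this
        norm_num at this
    · rw [h1, hj] at hHc
      rw [← hHc] at hidx
      obtain ⟨i, rfl⟩ := hjd.2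
      have hi6 : H.index ≤ 6 := by
        have : i * H.index = 6 := by nlinarith
        exact Nat.le_of_dvd (by norm_num) (Dvd.intro_left i this)
      have htop := eq_top_of_not_dvd hG (H := H) (fun hd => by
        have := (hd.trans (Nat.factorial_dvd_factorial hi6))
        rw [hc] at this
        norm_num [Nat.factorial] at this)
      refine hw1 (Subgroup.mem_bot.mp (center_eq_bot hG ▸ Subgroup.mem_center_iff.mpr fun g => ?_))
      exact mem_centralizer_singleton_iff.mp (show g ∈ H from htop ▸ Subgroup.mem_top g)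

end Cfsg.Agent.S1022
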