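import Cfsg.Statements.S1041
import Cfsg.Agent.Chev.Main

set_option autoImplicit false
open Cfsg

namespace Cfsg.Agent.S1041

/-- `U` and `V` generate the whole Chevalley group. -/
theorem result {F : Type*} [Field F] (D : Cfsg.Lie.ChevalleyDatum) (hD : D ∈ [Cfsg.Lie.chevG2, Cfsg.Lie.chevB2, Cfsg.Lie.chevD4, Cfsg.Lie.chevF4, Cfsg.Lie.chevE6, Cfsg.Lie.chevE7, Cfsg.Lie.chevE8]) : D.posUnipotent F ⊔ D.negUnipotent F = D.group F := by
  refine le_antisymm (sup_le ?_ ?_) ?_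
  · rw [Cfsg.Lie.ChevalleyDatum.posUnipotent, Subgroup.closure_le]
    rintro g ⟨r, t, hr, hg⟩
    exact Subgroup.subset_closure ⟨⟨r, hr.1⟩, t, by rw [hg, Cfsg.Lie.ChevalleyDatum.x, dif_pos hr.1]⟩
  · rw [Cfsg.Lie.ChevalleyDatum.negUnipotent, Subgroup.closure_le]
    rintro g ⟨r, t, hr, hg⟩
    exact Subgroup.subset_closure ⟨⟨r, hr.1⟩, t, by rw [hg, Cfsg.Lie.ChevalleyDatum.x, dif_pos hr.1]⟩
  · obtain ⟨C, hV⟩ := Cfsg.Agent.Chev.exists_valid hD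
    rw [Cfsg.Lie.ChevalleyDatum.group, Subgroup.closure_le]
    rintro g ⟨r, t, hg⟩
    have hx : (g : Matrix D.Idx D.Idx F) = D.x F r.val t := by
      rw [hg, Cfsg.Lie.ChevalleyDatum.x, dif_pos r.2]
    by_cases h : D.nroots / 2 ≤ r.val
    · exact Subgroup.mem_sup_left
        (Subgroup.subset_closure ⟨r.val, t, hV.isPosRoot_iff.2 ⟨h, r.2⟩, hx⟩)
    · exact Subgroup.mem_sup_right
        (Subgroup.subset_closure ⟨r.val, t, hV.isNegRoot_iff.2 (by omega), hx⟩)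

end Cfsg.Agent.S1041
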