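import Cfsg.Statements.S1058
import Cfsg.Agent.ChevSmall.B2
import Cfsg.Agent.S1060
-- import your own Cfsg.Agent.* helpers here

set_option autoImplicit false
open Cfsg

namespace Cfsg.Agent.S1058

/-- B₂(2) ≅ S₆. -/
theorem result {F : Type*} [Field F] [Fintype F] (hF : Fintype.card F = 2) :
    Nonempty (↥(Cfsg.Lie.chevB2.group F) ≃* Equiv.Perm (Fin 6)) := by
  refine Cfsg.Agent.ChevSmall.B2.iso_perm (Cfsg.Agent.Chev.rules_of_mem F (by simp)) hF ?_
  have h := Cfsg.Agent.S1060.result (F := F) hF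
  norm_num at h
  exact h

end Cfsg.Agent.S1058
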