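import Cfsg.Statements.S1095
import Cfsg.Agent.Chev.Rules

set_option autoImplicit false
open Cfsg

namespace Cfsg.Agent.S1095

/-- `n_p` (p = p_{i+1} fundamental) is the signed monomial matrix `h_{p_j} ↦ h_{p_j} - A_{p_j,p} h_p`, `e_s ↦ η_s e_{w_p(s)}`, with `η_s = ±1`, `η_p = η_{-p} = -1`, `η_s η_{w_p(s)} = (-1)^{A_{p,s}}`, `η_s η_{-s} = 1`. -/
theorem result {F : Type*} [Field F] (D : Cfsg.Lie.ChevalleyDatum) (hD : D ∈ [Cfsg.Lie.chevG2, Cfsg.Lie.chevB2, Cfsg.Lie.chevD4, Cfsg.Lie.chevF4, Cfsg.Lie.chevE6, Cfsg.Lie.chevE7, Cfsg.Lie.chevE8]) (i : ℕ) (hi : i < D.rank) :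
    ∃ η : ℕ → ℤ, (∀ s < D.nroots, η s = 1 ∨ η s = -1) ∧ η (D.simple i) = -1 ∧ η (D.neg (D.simple i)) = -1 ∧
      (∀ s < D.nroots, η s * η (D.reflectRoot i s) = (-1) ^ (D.cartan i s).natAbs ∧ η s * η (D.neg s) = 1) ∧
      D.nMat F (D.simple i) 1 = Matrix.of (fun (row col : D.Idx) =>
        Sum.elim
          (fun j' : Fin D.rank => Sum.elim
            (fun j : Fin D.rank => (if j' = j then (1 : F) else 0) - (if (j' : ℕ) = i then ((D.cartan j (D.simple i) : ℤ) : F) else 0))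
            (fun _ => (0 : F)) col)
          (fun s' : Fin D.nroots => Sum.elim
            (fun _ => (0 : F))
            (fun s : Fin D.nroots => if (s' : ℕ) = D.reflectRoot i s then ((η s : ℤ) : F) else 0) col)
          row) := by
  obtain ⟨C, hV⟩ := Cfsg.Agent.Chev.exists_valid hD
  have hS := Cfsg.Agent.Chev.rules_of_mem F hD
  refine ⟨C.eta i, fun s _ => C.eta_eq_or i s, hV.eta_simple hi, ?_, fun s hs => ⟨?_, ?_⟩, ?_⟩
  · rw [hV.eta_neg hi (hV.simple_lt hi), hV.eta_simple hi]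
  · rw [← hV.w_eq hi hs, mul_comm]
    exact hV.eta_mul_eta hi hs
  · rw [hV.eta_neg hi hs, C.eta_mul_self]
  · ext row col
    have h : (D.nMat F (D.simple i) 1).mulVec
          (Cfsg.Agent.Chev.bv D (Cfsg.Agent.Chev.code D col)) row = D.nMat F (D.simple i) 1 row col := by
      rw [Cfsg.Agent.Chev.bv_code, Matrix.mulVec_single_one]; rfl
    rw [← h, Matrix.of_apply]
    rcases col with j | s
    · rw [show Cfsg.Agent.Chev.code D (Sum.inl j) = j.val from rfl, hV.n_bv_h hi j.2 one_ne_zero]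
      rcases row with j' | s'
      · simp [Cfsg.Agent.Chev.bv, Cfsg.Agent.Chev.code, eq_comm (a := j.val), Fin.ext_iff, eq_comm (a := i)]
      · have h1 : (j : ℕ) ≠ D.rank + (s' : ℕ) := by omega
        have h2 : i ≠ D.rank + (s' : ℕ) := by omega
        simp [Cfsg.Agent.Chev.bv, Cfsg.Agent.Chev.code, h1, h2, Ne.symm h1, Ne.symm h2]
    · rw [show Cfsg.Agent.Chev.code D (Sum.inr s) = D.rank + s.val from rfl, hV.n_one_bv_root hi s.2,
        hV.w_eq hi s.2]
      rcases row with j' | s'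
      · have h1 : (j' : ℕ) ≠ D.rank + D.reflectRoot i s := by omega
        simp [Cfsg.Agent.Chev.bv, Cfsg.Agent.Chev.code, h1, Ne.symm h1]
      · simp [Cfsg.Agent.Chev.bv, Cfsg.Agent.Chev.code, eq_comm (a := D.reflectRoot i s)]

end Cfsg.Agent.S1095
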