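import Cfsg.Statements.S1099
import Cfsg.Agent.ChevTw.IsogenyTables
import Cfsg.Agent.Chev.Rules

set_option autoImplicit false
open Cfsg

namespace Cfsg.Agent.S1099

/-- Graph automorphism of G₂ in characteristic 3 (K perfect): `x_a(t) ↦ x_b(t³)`, `x_b(t) ↦ x_a(t)`, `x_{-a}(t) ↦ x_{-b}(t³)`, `x_{-b}(t) ↦ x_{-a}(t)` extend to an automorphism of the group. -/
theorem result {K : Type*} [Field K] [CharP K 3] (hperf : ∀ x : K, ∃ y : K, y ^ 3 = x) :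
    ∃ α : ↥(Cfsg.Lie.chevG2.group K) ≃* ↥(Cfsg.Lie.chevG2.group K), ∀ (g : ↥(Cfsg.Lie.chevG2.group K)) (t : K),
      (((g : GL Cfsg.Lie.chevG2.Idx K) : Matrix _ _ K) = Cfsg.Lie.chevG2.x K Cfsg.Lie.g2a t →
        ((α g : GL Cfsg.Lie.chevG2.Idx K) : Matrix _ _ K) = Cfsg.Lie.chevG2.x K Cfsg.Lie.g2b (t ^ 3)) ∧
      (((g : GL Cfsg.Lie.chevG2.Idx K) : Matrix _ _ K) = Cfsg.Lie.chevG2.x K Cfsg.Lie.g2b t →
        ((α g : GL Cfsg.Lie.chevG2.Idx K) : Matrix _ _ K) = Cfsg.Lie.chevG2.x K Cfsg.Lie.g2a t) ∧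
      (((g : GL Cfsg.Lie.chevG2.Idx K) : Matrix _ _ K) = Cfsg.Lie.chevG2.x K Cfsg.Lie.g2ma t →
        ((α g : GL Cfsg.Lie.chevG2.Idx K) : Matrix _ _ K) = Cfsg.Lie.chevG2.x K Cfsg.Lie.g2mb (t ^ 3)) ∧
      (((g : GL Cfsg.Lie.chevG2.Idx K) : Matrix _ _ K) = Cfsg.Lie.chevG2.x K Cfsg.Lie.g2mb t →
        ((α g : GL Cfsg.Lie.chevG2.Idx K) : Matrix _ _ K) = Cfsg.Lie.chevG2.x K Cfsg.Lie.g2ma t) := by
  have : Fact (Nat.Prime 3) := ⟨Nat.prime_three⟩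
  obtain ⟨α, hα⟩ := Cfsg.Agent.ChevTw.exists_isogeny Cfsg.Agent.ChevTw.isoG2_ok hperf
    (Cfsg.Agent.ChevTw.faithful_of_rules Cfsg.Agent.ChevTw.isoG2_ok
      (Cfsg.Agent.Chev.rules_of_mem K (by simp)) ⟨0, by decide, by decide +kernel⟩)
  have d1 : Cfsg.Agent.ChevTw.isoG2.root Cfsg.Lie.g2a = Cfsg.Lie.g2b ∧
      Cfsg.Agent.ChevTw.isoG2.expo Cfsg.Lie.g2a = 3 ∧
      Cfsg.Agent.ChevTw.isoG2.root Cfsg.Lie.g2b = Cfsg.Lie.g2a ∧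
      Cfsg.Agent.ChevTw.isoG2.expo Cfsg.Lie.g2b = 1 ∧
      Cfsg.Agent.ChevTw.isoG2.root Cfsg.Lie.g2ma = Cfsg.Lie.g2mb ∧
      Cfsg.Agent.ChevTw.isoG2.expo Cfsg.Lie.g2ma = 3 ∧
      Cfsg.Agent.ChevTw.isoG2.root Cfsg.Lie.g2mb = Cfsg.Lie.g2ma ∧
      Cfsg.Agent.ChevTw.isoG2.expo Cfsg.Lie.g2mb = 1 := by decide +kernel
  obtain ⟨a1, a2, b1, b2, c1, c2, e1, e2⟩ := d1
  refine ⟨α, fun g t => ⟨fun hg => ?_, fun hg => ?_, fun hg => ?_, fun hg => ?_⟩⟩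
  · rw [hα g _ t (by decide) hg, a1, a2]
  · rw [hα g _ t (by decide) hg, b1, b2, pow_one]
  · rw [hα g _ t (by decide) hg, c1, c2]
  · rw [hα g _ t (by decide) hg, e1, e2, pow_one]

end Cfsg.Agent.S1099
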