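import Cfsg.Statements.S1118
import Cfsg.Agent.RankOne.Structure

set_option autoImplicit false
open Cfsg

namespace Cfsg.Agent.S1118

/-- In the rank-one set-up (`G` finite and doubly transitive on `Ω`, `t` an involution moving `a`, `Q` normal in `G_a` with `G_a = Q D`, `Q ⊓ D = 1` for the two-point stabiliser `D = G_a ⊓ G_{t • a}`, `|Q|` even, `|D|` odd), the normaliser of a subset of `Q` containing a non-identity element lies in `G_a`; consequently `N_G(Q) = N_G(G_a) = G_a`. -/
theorem result {G Ω : Type*} [Group G] [Finite G] [MulAction G Ω] {a : Ω} {t : G} {Q : Subgroup G}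
    (hS : Cfsg.IsRankOneSetup G Ω a t Q) :
    (∀ X : Set G, X ⊆ (Q : Set G) → (∃ x ∈ X, x ≠ 1) → Subgroup.normalizer X ≤ MulAction.stabilizer G a) ∧
      Subgroup.normalizer (Q : Set G) = MulAction.stabilizer G a ∧
      Subgroup.normalizer (MulAction.stabilizer G a : Set G) = MulAction.stabilizer G a := by
  have hex : ∃ x ∈ (Q : Set G), x ≠ 1 := by
    obtain ⟨s, h1, h2, -⟩ := RankOne.exists_involution_Q hS
    exact ⟨s, h1, h2⟩
  refine ⟨fun X hX h => RankOne.normalizer_le hS hX h, ?_, ?_⟩
  · refine le_antisymm (RankOne.normalizer_le hS (le_refl _) hex) fun g hg => ?_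
    rw [Subgroup.mem_normalizer_iff]
    intro x
    refine ⟨fun hx => hS.conj_mem g hg x hx, fun hx => ?_⟩
    have := hS.conj_mem g⁻¹ (Subgroup.inv_mem _ hg) _ hx
    simpa [mul_assoc] using this
  · refine le_antisymm (fun g hg => ?_) Subgroup.le_normalizer
    obtain ⟨x, hx, hx1⟩ := hex
    have h1 : g⁻¹ * x * g ∈ MulAction.stabilizer G a := by
      rw [Subgroup.mem_normalizer_iff] at hg
      refine (hg _).2 ?_
      simpa [mul_assoc] using hS.le hx
    have h2 : (g⁻¹ * x * g) • a = a := h1
    rw [mul_smul, mul_smul, inv_smul_eq_iff] at h2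
    exact RankOne.Q_fix_only hS hx hx1 h2

end Cfsg.Agent.S1118
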