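import Cfsg.Statements.S1120
import Cfsg.Agent.RankOne.Structure
import Cfsg.Agent.Cores.Basic

set_option autoImplicit false
open Cfsg

namespace Cfsg.Agent.S1120

/-- In the rank-one set-up (`G` finite and doubly transitive on `Ω`, `t` an involution moving `a`, `Q` normal in `G_a` with `G_a = Q D`, `Q ⊓ D = 1` for the two-point stabiliser `D = G_a ⊓ G_{t • a}`, `|Q|` even, `|D|` odd), if `G` has 2-rank at least 2 then `O_{2'}(G)` equals the normal core of `G_a`. -/
theorem result {G Ω : Type*} [Group G] [Finite G] [MulAction G Ω] {a : Ω} {t : G} {Q : Subgroup G}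
    (hS : Cfsg.IsRankOneSetup G Ω a t Q)
    (h2 : ∃ x y : G, x ≠ 1 ∧ y ≠ 1 ∧ x ≠ y ∧ x * x = 1 ∧ y * y = 1 ∧ x * y = y * x) :
    Cfsg.pPrimeCore 2 G = (MulAction.stabilizer G a).normalCore := by
  refine le_antisymm ?_ ?_
  · haveI hnormal : (Cfsg.pPrimeCore 2 G).Normal := inferInstance
    refine Subgroup.normal_le_normalCore.2 (RankOne.odd_normal_le hS h2 _ ?_)
    exact Nat.coprime_two_left.1 (Cfsg.Agent.Cores.pPrimeCore_coprime (p := 2) (G := G)).symm
  · refine Cfsg.Agent.Cores.le_pPrimeCore inferInstance ?_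
    refine (Nat.coprime_two_left.2 ?_).symm
    refine (RankOne.odd_D hS).of_dvd_nat (Subgroup.card_dvd_of_le (le_inf
      (Subgroup.normalCore_le _) ?_))
    intro x hx
    have h := Subgroup.normalCore_le _ ((Subgroup.normalCore_normal _).conj_mem x hx t)
    have h' : (t * x * t⁻¹) • a = a := h
    rw [RankOne.t_inv hS, mul_smul, mul_smul] at h'
    show x • t • a = t • a
    exact smul_left_cancel t (h'.trans (RankOne.t_smul_b hS).symm)

end Cfsg.Agent.S1120
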