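import Cfsg.Prelude.Def_Classical
import Cfsg.Prelude.Def_LieRecognition
import Cfsg.Agent.TwoAut.UnitaryAut
import Mathlib

namespace Cfsg.Agent.S1141

open Cfsg Cfsg.Agent.Classical.U Cfsg.Agent.TwoAut Cfsg.Agent.TwoAut.Uni

section
variable {F : Type*} [Field F] [Fintype F] [CharP F 2] {q : ℕ}
variable {S : Type*} [Group S]

theorem inv_iff (c : Coords S F q) (hF : SqField F q) {x : S} :
    x * x = 1 ↔ A c x = 0 := by
  constructor
  · intro h
    have h2 := congrArg (B c) h
    rw [B_mul, B_one c hF, CharTwo.add_self_eq_zero, zero_add] at h2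
    rcases mul_eq_zero.1 h2 with h3 | h3
    · exact eq_zero_of_pow_eq_zero h3
    · exact h3
  · intro h
    refine coords_ext c ?_ ?_
    · rw [A_mul, A_one, CharTwo.add_self_eq_zero]
    · rw [B_mul, B_one c hF, CharTwo.add_self_eq_zero, zero_add, h, mul_zero]

theorem card_fix (hF : SqField F q) : Nat.card {b : F // b ^ q = b} = q := by
  have h : Nat.card {b : F // b ^ q = b} = Nat.card (tr (F := F) hF).ker :=
    Nat.card_congr (Equiv.subtypeEquivRight fun x => (mem_ker_tr hF).symm)
  rw [h, (card_ker_tr (F := F) hF).1]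

theorem card_center (c : Coords S F q) (hF : SqField F q) :
    Nat.card (Subgroup.center S) = q := by
  rw [← card_fix (F := F) hF]
  refine Nat.card_congr (Equiv.ofBijective
    (fun x => ⟨B c x.1, by
      have h := rel c x.1
      rw [(mem_center_iff c hF).1 x.2, zero_mul, CharTwo.add_eq_zero] at h
      exact h.symm⟩) ⟨?_, ?_⟩)
  · intro x y h
    refine Subtype.ext (coords_ext c ?_ (congrArg Subtype.val h))
    rw [(mem_center_iff c hF).1 x.2, (mem_center_iff c hF).1 y.2]
  · intro b
    refine ⟨⟨mk c 0 b.1 (by rw [b.2, CharTwo.add_self_eq_zero, zero_mul]), ?_⟩, ?_⟩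
    · exact (mem_center_iff c hF).2 (A_mk c _ _ _)
    · exact Subtype.ext (B_mk c _ _ _)

theorem isSuzuki [Finite S] (c : Coords S F q) (hF : SqField F q) (hq : 4 ≤ q)
    (hp : IsPGroup 2 S) : IsSuzukiTwoGroup S := by
  classical
  haveI : Fact (Nat.Prime 2) := ⟨Nat.prime_two⟩
  refine ⟨inferInstance, hp, ?_, ?_, ?_⟩
  · obtain ⟨x, hx⟩ := exists_lift c hF (1 : F)
    have hx' : x ∉ Subgroup.center S := by
      rw [mem_center_iff c hF, hx]; exact one_ne_zero
    rw [Subgroup.mem_center_iff] at hx'
    push Not at hx'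
    obtain ⟨y, hy⟩ := hx'
    exact ⟨y, x, hy⟩
  · have h1 : 1 < Nat.card (Subgroup.center S) := by rw [card_center c hF]; omega
    haveI : Fintype (Subgroup.center S) := Fintype.ofFinite _
    rw [Nat.card_eq_fintype_card] at h1
    obtain ⟨a, b, hab⟩ := Fintype.exists_pair_of_one_lt_card h1
    obtain ⟨x, hx⟩ : ∃ x : Subgroup.center S, x ≠ 1 := by
      by_cases ha : a = 1
      · exact ⟨b, fun hb => hab (ha.trans hb.symm)⟩
      · exact ⟨a, ha⟩
    obtain ⟨y, hy1, hyx⟩ : ∃ y : Subgroup.center S, y ≠ 1 ∧ y ≠ x := by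
      by_contra hcon
      push Not at hcon
      have : Fintype.card (Subgroup.center S) ≤ 2 := by
        refine (Finset.card_le_card (s := Finset.univ) (t := {1, x}) ?_).trans Finset.card_le_two
        intro z _
        by_cases hz : z = 1
        · simp [hz]
        · simp [hcon z hz]
      rw [← Nat.card_eq_fintype_card, card_center c hF] at this
      omega
    refine ⟨x, y, fun h => hyx (Subtype.ext h.symm), fun h => hx (Subtype.ext h),
      (inv_iff c hF).2 ((mem_center_iff c hF).1 x.2), fun h => hy1 (Subtype.ext h),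
      (inv_iff c hF).2 ((mem_center_iff c hF).1 y.2)⟩
  · let T : Subgroup Fˣ :=
      { carrier := {t | (t : F) ^ q = t}
        one_mem' := by simp
        mul_mem' := by
          intro a b ha hb
          simp only [Set.mem_setOf_eq, Units.val_mul, mul_pow] at ha hb ⊢
          rw [ha, hb]
        inv_mem' := by
          intro a ha
          simp only [Set.mem_setOf_eq, Units.val_inv_eq_inv_val, inv_pow] at ha ⊢
          rw [ha] }
    have hrel : ∀ (t : T) (x : S), ((t.1 : F) * t.1 * B c x) + ((t.1 : F) * t.1 * B c x) ^ q =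
        ((t.1 : F) * A c x) * ((t.1 : F) * A c x) ^ q := by
      intro t x
      have ht : (t.1 : F) ^ q = t.1 := t.2
      rw [mul_pow, mul_pow, mul_pow, ht]
      linear_combination ((t.1 : F) * t.1) * rel c x
    let f : T → S → S := fun t x => mk c _ _ (hrel t x)
    have hfA : ∀ t x, A c (f t x) = (t.1 : F) * A c x := fun t x => A_mk c _ _ _
    have hfB : ∀ t x, B c (f t x) = (t.1 : F) * t.1 * B c x := fun t x => B_mk c _ _ _
    have hcomp : ∀ t u x, f (t * u) x = f t (f u x) := by
      intro t u x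
      refine coords_ext c ?_ ?_
      · rw [hfA, hfA, hfA]; simp [mul_assoc]
      · rw [hfB, hfB, hfB]; simp only [Subgroup.coe_mul, Units.val_mul]; ring
    have hone : ∀ x, f 1 x = x := by
      intro x
      refine coords_ext c ?_ ?_
      · rw [hfA]; simp
      · rw [hfB]; simp
    let φ : T →* MulAut S :=
      { toFun := fun t =>
          { toFun := f t
            invFun := f t⁻¹
            left_inv := fun x => by rw [← hcomp, inv_mul_cancel, hone]
            right_inv := fun x => by rw [← hcomp, mul_inv_cancel, hone]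
            map_mul' := fun x y => by
              refine coords_ext c ?_ ?_
              · rw [A_mul, hfA, hfA, hfA, A_mul]; ring
              · have ht : (t.1 : F) ^ q = t.1 := t.2
                rw [B_mul, hfB, hfB, hfB, hfA, hfA, B_mul, mul_pow, ht]; ring }
        map_one' := MulEquiv.ext hone
        map_mul' := fun t u => MulEquiv.ext (hcomp t u) }
    refine ⟨φ.range, isCyclic_of_surjective φ.rangeRestrict φ.rangeRestrict_surjective, ?_⟩
    intro x y hx1 hx hy1 hy
    rw [inv_iff c hF] at hx hy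
    have fixB : ∀ z, A c z = 0 → B c z ^ q = B c z := by
      intro z hz
      have h := rel c z
      rw [hz, zero_mul, CharTwo.add_eq_zero] at h
      exact h.symm
    have hBx : B c x ≠ 0 := fun h => hx1 (coords_ext c (by rw [hx, A_one]) (by rw [h, B_one c hF]))
    have hBy : B c y ≠ 0 := fun h => hy1 (coords_ext c (by rw [hy, A_one]) (by rw [h, B_one c hF]))
    obtain ⟨s, hs, hs2⟩ := exists_norm_eq hF (k := B c y / B c x)
      (by rw [div_pow, fixB x hx, fixB y hy])
    have hs0 : s ≠ 0 := by
      intro h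
      rw [h, mul_zero, eq_comm] at hs2
      exact div_ne_zero hBy hBx hs2
    refine ⟨⟨φ ⟨Units.mk0 s hs0, hs⟩, ⟨_, rfl⟩⟩, ?_, ?_⟩
    · refine coords_ext c ?_ ?_
      · show A c (f _ x) = _
        rw [hfA, hx, hy, mul_zero]
      · show B c (f _ x) = _
        rw [hfB]
        show s * s * B c x = _
        rw [hs2, div_mul_cancel₀ _ hBx]
    · rintro ⟨_, ⟨t, rfl⟩⟩ ht
      apply Subtype.ext
      show φ t = φ _
      congr 1
      apply Subtype.ext
      apply Units.ext
      show (t.1 : F) = s
      have h2 : B c (f t x) = B c y := congrArg (B c) ht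
      rw [hfB, ← eq_div_iff hBx, ← hs2] at h2
      have : ((t.1 : F) + s) ^ 2 = 0 := by
        rw [CharTwo.add_sq]
        simp [pow_two, h2, CharTwo.add_self_eq_zero]
      exact CharTwo.add_eq_zero.1 (pow_eq_zero_iff two_ne_zero |>.1 this)

end

theorem result {F : Type*} [Field F] [Fintype F] {n : ℕ} (hn : 2 ≤ n)
    (hF : Fintype.card F = (2 ^ n) ^ 2) (S : Sylow 2 (Cfsg.PSU 3 F (2 ^ n))) :
    Nat.card S = (2 ^ n) ^ 3 ∧ Nat.card (Subgroup.center ↥(S : Subgroup (Cfsg.PSU 3 F (2 ^ n)))) = 2 ^ n ∧
      Cfsg.IsSuzukiTwoGroup ↥(S : Subgroup (Cfsg.PSU 3 F (2 ^ n))) := by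
  haveI := Uni.charP_two (show n ≠ 0 by omega) hF
  have hS := sqField_of_fintype hF
  obtain ⟨c⟩ := Uni.coords_of_sylow_PSU (show n ≠ 0 by omega) hF S
  refine ⟨?_, card_center c hS, ?_⟩
  · show Nat.card ↥(S : Subgroup (Cfsg.PSU 3 F (2 ^ n))) = _
    rw [Nat.card_congr c.e, card_pairs hS]
  · haveI : Finite ↥(S : Subgroup (Cfsg.PSU 3 F (2 ^ n))) := Finite.of_equiv _ c.e.symm
    refine isSuzuki c hS ?_ S.isPGroup'
    exact (Nat.pow_le_pow_right (by norm_num) hn : 2 ^ 2 ≤ 2 ^ n)

end Cfsg.Agent.S1141
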