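import Cfsg.Agent.ReeG2.Base

set_option autoImplicit false
open Cfsg

namespace Cfsg.Agent.S1150

/-- The torus of `²G₂(q)` is cyclic. -/
theorem result {K : Type*} [Field K] [Fintype K] {m : ℕ} (hK : Fintype.card K = 3 ^ (2 * m + 1)) :
    IsCyclic ↥(Cfsg.Lie.chevG2.diagonalSubgroup K ⊓ Cfsg.Lie.twistedG2 K (3 ^ m)) := by
  rw [ReeG2.diag_eq K hK]
  exact isCyclic_of_surjective (ReeG2.tor K m).rangeRestrict (ReeG2.tor K m).rangeRestrict_surjective

end Cfsg.Agent.S1150
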