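import Cfsg.Agent.ReeG2.Base

set_option autoImplicit false
open Cfsg

namespace Cfsg.Agent.S1151

open Cfsg.Agent.ReeG2

theorem card_odd_units {K : Type*} [Field K] [Fintype K] {r : ℕ} (hr : Fintype.card K - 1 = 2 * r)
    (hodd : Odd r) : Nat.card {x : Kˣ // Odd (orderOf x)} = r := by
  have h : ∀ x : Kˣ, Odd (orderOf x) ↔ x ^ r = 1 := by
    intro x
    rw [← orderOf_dvd_iff_pow_eq_one]
    refine ⟨fun hx => ?_, fun hx => hodd.of_dvd_nat hx⟩
    have h2 : orderOf x ∣ 2 * r := by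
      rw [← hr, ← Nat.card_eq_fintype_card, ← Nat.card_units]
      exact orderOf_dvd_natCard x
    exact (Nat.coprime_two_right.2 hx).dvd_of_dvd_mul_left h2
  rw [Nat.card_congr (Equiv.subtypeEquivRight h)]
  exact ChevTw.card_pow_eq_one_of_dvd ⟨2, by rw [hr, mul_comm]⟩

theorem result {K : Type*} [Field K] [Fintype K] {m : ℕ} (hK : Fintype.card K = 3 ^ (2 * m + 1)) :
    2 * Nat.card {h : ↥(Cfsg.Lie.chevG2.diagonalSubgroup K ⊓ Cfsg.Lie.twistedG2 K (3 ^ m)) // Odd (orderOf h)} = 3 ^ (2 * m + 1) - 1 ∧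
      ∀ h ∈ (Cfsg.Lie.chevG2.diagonalSubgroup K ⊓ Cfsg.Lie.twistedG2 K (3 ^ m)), h ≠ 1 → Odd (orderOf h) →
        (Cfsg.Lie.chevG2.posUnipotent K ⊓ Cfsg.Lie.twistedG2 K (3 ^ m)) ⊓ Subgroup.centralizer {h} = ⊥ := by
  constructor
  · obtain ⟨r, hr, hodd⟩ : ∃ r, 3 ^ (2 * m + 1) - 1 = 2 * r ∧ Odd r := by
      have h4 : 3 ^ (2 * m + 1) % 4 = 3 := by
        rw [pow_succ, pow_mul, Nat.mul_mod, Nat.pow_mod]; norm_num
      exact ⟨(3 ^ (2 * m + 1) - 1) / 2, by omega, by rw [Nat.odd_iff]; omega⟩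
    have e : Kˣ ≃* ↥(Cfsg.Lie.chevG2.diagonalSubgroup K ⊓ Cfsg.Lie.twistedG2 K (3 ^ m)) :=
      (MonoidHom.ofInjective (tor_injective K hK)).trans (MulEquiv.subgroupCongr (diag_eq K hK).symm)
    rw [← Nat.card_congr (e.toEquiv.subtypeEquiv (p := fun x : Kˣ => Odd (orderOf x)) fun x => by
      show Odd (orderOf x) ↔ Odd (orderOf (e x))
      rw [e.orderOf_eq]), card_odd_units (by rw [hK, hr]) hodd, hr]
  · intro h hh h1 hodd
    rw [diag_eq K hK] at hh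
    obtain ⟨x, rfl⟩ := hh
    rw [eq_bot_iff]
    intro g hgc
    obtain ⟨hg, hc⟩ := Subgroup.mem_inf.1 hgc
    obtain ⟨t, u, v, rfl⟩ := (mem_U_iff K hK g).1 hg
    rw [Subgroup.mem_centralizer_singleton_iff] at hc
    obtain ⟨hx1, hx2⟩ := fix_cases K hK (x := x) hc.symm
    have hxne : x ≠ 1 := fun e => h1 (by rw [e, map_one])
    have hx2' : x * x ≠ 1 := by
      intro e
      have hd : orderOf (tor K m x) ∣ 2 := orderOf_dvd_of_pow_eq_one (by rw [← map_pow, pow_two, e, map_one])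
      rcases (Nat.dvd_prime Nat.prime_two).1 hd with h' | h'
      · exact h1 (orderOf_eq_one_iff.1 h')
      · rw [h'] at hodd; exact absurd hodd (by decide)
    obtain ⟨rfl, rfl⟩ := hx1 hxne
    obtain rfl := hx2 hx2'
    exact uEl_one K hK

end Cfsg.Agent.S1151
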