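import Cfsg.Agent.ReeG2.Central

set_option autoImplicit false
open Cfsg

namespace Cfsg.Agent.S1152

open Cfsg.Agent.ReeG2

theorem result {K : Type*} [Field K] [Fintype K] {m : ℕ} (hK : Fintype.card K = 3 ^ (2 * m + 1))
    (a : ↥(Cfsg.Lie.twistedG2 K (3 ^ m))) (haH : (a : GL Cfsg.Lie.chevG2.Idx K) ∈ Cfsg.Lie.chevG2.diagonalSubgroup K) (ha1 : a ≠ 1) (ha2 : a * a = 1) :
    Nonempty (↥(Subgroup.centralizer {a}) ≃* Multiplicative (ZMod 2) × Matrix.ProjectiveSpecialLinearGroup (Fin 2) K) ∧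
      ∀ S : Sylow 2 ↥(Cfsg.Lie.twistedG2 K (3 ^ m)), Nat.card S = 8 ∧ ∀ x ∈ S, x * x = 1 := by
  haveI := ChevTw.charG2 hK
  have ha : a = jT K hK := by
    obtain ⟨x, hx⟩ : (a : GL Cfsg.Lie.chevG2.Idx K) ∈ (tor K m).range := by
      rw [← diag_eq K hK]; exact ⟨haH, a.2⟩
    refine Subtype.ext ?_
    rw [← hx]
    show tor K m x = tor K m (-1)
    have hx2 : x * x = 1 := tor_injective K hK (by
      rw [map_mul, map_one, hx]; exact congrArg Subtype.val ha2)
    rcases mul_self_eq_one_iff.1 (show (x : K) * (x : K) = 1 by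
      rw [← Units.val_mul, hx2, Units.val_one]) with h | h
    · exfalso
      refine ha1 (Subtype.ext ?_)
      have h1 : x = 1 := Units.ext h
      rw [← hx, h1, map_one]
      rfl
    · rw [show x = -1 from Units.ext h]
  subst ha
  exact ⟨cent_equiv K hK, sylow_two K hK⟩

end Cfsg.Agent.S1152
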