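import Cfsg.Statements.S1160
import Cfsg.Agent.S0126

set_option autoImplicit false
open Cfsg

namespace Cfsg.Agent.S1160


/-- If the action is faithful with equally large stabilisers and has an invariant direct
decomposition into two non-zero parts, it is semiregular. -/
theorem semiregular_of_decomp {P E : Type*} [Group P] [Finite P] [AddCommGroup E]
    [DistribMulAction P E] [FaithfulSMul P E]
    (hconst : ∀ a b : E, a ≠ 0 → b ≠ 0 →
      Nat.card (MulAction.stabilizer P a) = Nat.card (MulAction.stabilizer P b))
    (E₁ E₂ : AddSubgroup E) (h₁ : ∀ g : P, ∀ e ∈ E₁, g • e ∈ E₁) (h₂ : ∀ g : P, ∀ e ∈ E₂, g • e ∈ E₂)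
    (hd : E₁ ⊓ E₂ = ⊥) (htop : ∀ e : E, ∃ x ∈ E₁, ∃ y ∈ E₂, e = x + y)
    (n₁ : E₁ ≠ ⊥) (n₂ : E₂ ≠ ⊥) (g : P) (a : E) (hga : g • a = a) (ha : a ≠ 0) : g = 1 := by
  have key : ∀ x ∈ E₁, ∀ y ∈ E₂, x ≠ 0 → y ≠ 0 →
      MulAction.stabilizer P x = MulAction.stabilizer P y := by
    intro x hx y hy hx0 hy0
    have hxy : x + y ≠ 0 := by
      intro h
      have hy' : -x ∈ E₁ ⊓ E₂ := ⟨E₁.neg_mem hx, by rwa [← eq_neg_of_add_eq_zero_right h]⟩
      rw [hd] at hy'
      exact hx0 (by simpa using hy')
    have hle : MulAction.stabilizer P (x + y) ≤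
        MulAction.stabilizer P x ⊓ MulAction.stabilizer P y := by
      intro k hk
      have hk' : k • x + k • y = x + y := by rw [← smul_add]; exact hk
      have h3 : k • x - x = y - k • y := by
        rw [sub_eq_sub_iff_add_eq_add, hk', add_comm]
      have h4 : k • x - x ∈ E₁ ⊓ E₂ :=
        ⟨E₁.sub_mem (h₁ k x hx) hx, h3 ▸ E₂.sub_mem hy (h₂ k y hy)⟩
      rw [hd, AddSubgroup.mem_bot] at h4
      have hkx : k • x = x := sub_eq_zero.1 h4
      exact ⟨hkx, add_left_cancel (hkx ▸ hk')⟩
    have e1 := Subgroup.eq_of_le_of_card_ge (hle.trans inf_le_left)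
      (hconst x (x + y) hx0 hxy).le
    have e2 := Subgroup.eq_of_le_of_card_ge (hle.trans inf_le_right)
      (hconst y (x + y) hy0 hxy).le
    exact e1.symm.trans e2
  obtain ⟨x₀, hx₀, hx0⟩ := E₁.ne_bot_iff_exists_ne_zero.1 n₁ |> fun ⟨⟨x, hx⟩, h⟩ =>
    (⟨x, hx, fun h' => h (Subtype.ext h')⟩ : ∃ x ∈ E₁, x ≠ 0)
  obtain ⟨y₀, hy₀, hy0⟩ := E₂.ne_bot_iff_exists_ne_zero.1 n₂ |> fun ⟨⟨x, hx⟩, h⟩ =>
    (⟨x, hx, fun h' => h (Subtype.ext h')⟩ : ∃ x ∈ E₂, x ≠ 0)
  have htriv : MulAction.stabilizer P x₀ = ⊥ := by
    refine (Subgroup.eq_bot_iff_forall _).2 fun k hk => FaithfulSMul.eq_of_smul_eq_smul fun e : E => ?_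
    obtain ⟨x, hx, y, hy, rfl⟩ := htop e
    have hky : k • y = y := by
      by_cases h : y = 0
      · rw [h, smul_zero]
      · exact (show k ∈ MulAction.stabilizer P y from (key x₀ hx₀ y hy hx0 h) ▸ hk)
    have hkx : k • x = x := by
      by_cases h : x = 0
      · rw [h, smul_zero]
      · have : k ∈ MulAction.stabilizer P y₀ := (key x₀ hx₀ y₀ hy₀ hx0 hy0) ▸ hk
        exact (show k ∈ MulAction.stabilizer P x from (key x hx y₀ hy₀ h hy0).symm ▸ this)
    rw [smul_add, hkx, hky, one_smul]
  have hc := hconst a x₀ ha hx0
  rw [htriv, Subgroup.card_bot, Subgroup.card_eq_one] at hc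
  have : g ∈ MulAction.stabilizer P a := hga
  rw [hc] at this
  exact this

/-- The sum over a finite subgroup. -/
noncomputable def subSum {P E : Type*} [Group P] [Finite P] [AddCommGroup E]
    [DistribMulAction P E] (H : Subgroup P) (v : E) : E :=
  letI := Fintype.ofFinite H
  ∑ h : H, (h : P) • v

theorem smul_subSum {P E : Type*} [Group P] [Finite P] [AddCommGroup E] [DistribMulAction P E]
    {H : Subgroup P} {k : P} (hk : k ∈ H) (v : E) : k • subSum H v = subSum H v := by
  letI := Fintype.ofFinite H
  show k • ∑ h : H, (h : P) • v = ∑ h : H, (h : P) • v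
  rw [Finset.smul_sum]
  refine Fintype.sum_equiv (Equiv.mulLeft (⟨k, hk⟩ : H)) _ _ fun h => ?_
  simp [mul_smul]

theorem smul_subSum_of_fix {P E : Type*} [Group P] [Finite P] [AddCommGroup E]
    [DistribMulAction P E] {H : Subgroup P} {k : P} {v : E} (hc : ∀ h ∈ H, h * k = k * h)
    (hv : k • v = v) : k • subSum H v = subSum H v := by
  letI := Fintype.ofFinite H
  show k • ∑ h : H, (h : P) • v = ∑ h : H, (h : P) • v
  rw [Finset.smul_sum]
  refine Finset.sum_congr rfl fun h _ => ?_
  rw [← mul_smul, ← hc h h.2, mul_smul, hv]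

theorem subSum_fix {P E : Type*} [Group P] [Finite P] [AddCommGroup E] [DistribMulAction P E]
    {H : Subgroup P} {v : E} (hv : ∀ h ∈ H, h • v = v) : subSum H v = Nat.card H • v := by
  letI := Fintype.ofFinite H
  show ∑ h : H, (h : P) • v = _
  rw [Finset.sum_congr rfl (fun (h : H) _ => hv (h : P) h.2), Finset.sum_const, Finset.card_univ,
    Nat.card_eq_fintype_card]

theorem subSum_add {P E : Type*} [Group P] [Finite P] [AddCommGroup E] [DistribMulAction P E]
    (H : Subgroup P) (v w : E) : subSum H (v + w) = subSum H v + subSum H w := by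
  simp [subSum, Finset.sum_add_distrib]

/-- A non-cyclic group of order `p²` cannot have all its subgroup sums equal to zero. -/
theorem fpf_pSquare_absurd {P E : Type*} [Group P] [Finite P] [AddCommGroup E]
    [DistribMulAction P E] {p : ℕ} (hp : p.Prime) (hpinv : ∀ e : E, p • e = 0 → e = 0)
    (A : Subgroup P) (_hAc : IsMulCommutative A) (hAe : ∀ a ∈ A, a ^ p = 1)
    (hA2 : Nat.card A = p ^ 2)
    (hsum : ∀ K : Subgroup P, K ≤ A → K ≠ ⊥ → ∀ e : E, subSum K e = 0) (e : E) (he : e ≠ 0) :
    False := by
  classical
  refine he (hpinv e ?_)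
  -- partition the non-identity elements of `A` into cyclic subgroups of order `p`
  haveI : Fact p.Prime := ⟨hp⟩
  have hord : ∀ x : A, x ≠ 1 → orderOf (x : P) = p := fun x hx =>
    orderOf_eq_prime (hAe x x.2) (fun h => hx (Subtype.ext h))
  let f : A → Subgroup P := fun x => Subgroup.zpowers (x : P)
  have hA0 : A ≠ ⊥ := by
    intro h; rw [h, Subgroup.card_bot] at hA2
    exact absurd hA2.symm (Nat.one_lt_pow two_ne_zero hp.one_lt).ne'
  have h0 := hsum A le_rfl hA0 e
  simp only [subSum] at h0
  letI : Fintype A := Fintype.ofFinite A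
  have h0' : ∑ x : A, (x : P) • e = 0 := by convert h0
  rw [← Finset.add_sum_erase _ _ (Finset.mem_univ (1 : A)), OneMemClass.coe_one, one_smul,
    ← Finset.sum_fiberwise_of_maps_to (g := f) (t := (Finset.univ.erase (1 : A)).image f)
      (fun x hx => Finset.mem_image_of_mem f hx)] at h0'
  rw [Finset.sum_congr rfl (g := fun _ => -e) ?_, Finset.sum_const, smul_neg,
    ← sub_eq_add_neg, sub_eq_zero] at h0'
  · have hcount : ((Finset.univ.erase (1 : A)).image f).card = p + 1 := by
      have hfib : ∀ H ∈ (Finset.univ.erase (1 : A)).image f,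
          ((Finset.univ.erase (1 : A)).filter fun x => f x = H).card = p - 1 := by
        intro H hH
        obtain ⟨x, hx, rfl⟩ := Finset.mem_image.1 hH
        simp only [Finset.mem_erase, Finset.mem_univ, and_true] at hx
        have hle : f x ≤ A := Subgroup.zpowers_le.2 x.2
        have hc : Nat.card (f x) = p := (Nat.card_zpowers (x : P)).trans (hord x hx)
        letI : Fintype (f x) := Fintype.ofFinite _
        rw [← hc, Nat.card_eq_fintype_card, ← Finset.card_univ,
          ← Finset.card_erase_of_mem (Finset.mem_univ (1 : f x))]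
        refine Finset.card_bij (fun y hy => (⟨y.1, ?_⟩ : f x)) ?_ ?_ ?_
        · simp only [Finset.mem_filter] at hy
          exact hy.2 ▸ Subgroup.mem_zpowers (y : P)
        · intro y hy
          simp only [Finset.mem_filter, Finset.mem_erase] at hy ⊢
          exact ⟨fun h => hy.1.1 (Subtype.ext (congrArg Subtype.val h :)), Finset.mem_univ _⟩
        · intro y _ y' _ h
          exact Subtype.ext (congrArg Subtype.val h :)
        · intro y hy
          simp only [Finset.mem_erase, Finset.mem_univ, and_true] at hy
          have hy1 : (y : P) ≠ 1 := fun h => hy (Subtype.ext h)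
          refine ⟨⟨y, hle y.2⟩, ?_, rfl⟩
          simp only [Finset.mem_filter, Finset.mem_erase, Finset.mem_univ, and_true]
          refine ⟨fun h => hy1 (congrArg Subtype.val h), ?_⟩
          show Subgroup.zpowers (y : P) = Subgroup.zpowers (x : P)
          refine Subgroup.eq_of_le_of_card_ge (Subgroup.zpowers_le.2 y.2) ?_
          rw [Nat.card_zpowers, Nat.card_zpowers,
            hord ⟨y, hle y.2⟩ (fun h => hy1 (congrArg Subtype.val h :)), hord x hx]
      have hc := Finset.card_eq_sum_card_image f (Finset.univ.erase (1 : A))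
      rw [Finset.sum_congr rfl hfib, Finset.sum_const, smul_eq_mul,
        Finset.card_erase_of_mem (Finset.mem_univ _), Finset.card_univ,
        ← Nat.card_eq_fintype_card, hA2] at hc
      have hp1 : (p - 1) * (p + 1) = p ^ 2 - 1 := by
        rw [mul_comm, ← Nat.sq_sub_sq, one_pow]
      exact Nat.eq_of_mul_eq_mul_right (m := p - 1) (by have := hp.two_le; omega)
        (by rw [← hc, ← hp1, mul_comm])
    rw [hcount, add_nsmul, one_nsmul] at h0'
    exact right_eq_add.1 h0'
  · intro H hH
    obtain ⟨x, hx, rfl⟩ := Finset.mem_image.1 hH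
    simp only [Finset.mem_erase, Finset.mem_univ, and_true] at hx
    have hle : f x ≤ A := Subgroup.zpowers_le.2 x.2
    have hne : f x ≠ ⊥ := fun h => hx (Subtype.ext (Subgroup.zpowers_eq_bot.1 h))
    have hs := hsum (f x) hle hne e
    simp only [subSum] at hs
    letI : Fintype (f x) := Fintype.ofFinite _
    have hs' : ∑ h : f x, (h : P) • e = 0 := by convert hs
    rw [← Finset.add_sum_erase _ _ (Finset.mem_univ (1 : f x)), OneMemClass.coe_one,
      one_smul, add_eq_zero_iff_neg_eq] at hs'
    rw [hs']
    refine Finset.sum_bij (fun y hy => (⟨y.1, ?_⟩ : f x)) ?_ ?_ ?_ ?_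
    · simp only [Finset.mem_filter] at hy
      exact hy.2 ▸ Subgroup.mem_zpowers (y : P)
    · intro y hy
      simp only [Finset.mem_filter, Finset.mem_erase] at hy ⊢
      exact ⟨fun h => hy.1.1 (Subtype.ext (congrArg Subtype.val h :)), Finset.mem_univ _⟩
    · intro y _ y' _ h
      exact Subtype.ext (congrArg Subtype.val h :)
    · intro y hy
      simp only [Finset.mem_erase, Finset.mem_univ, and_true] at hy
      have hy1 : (y : P) ≠ 1 := fun h => hy (Subtype.ext h)
      refine ⟨⟨y, hle y.2⟩, ?_, rfl⟩
      simp only [Finset.mem_filter, Finset.mem_erase, Finset.mem_univ, and_true]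
      refine ⟨fun h => hy1 (congrArg Subtype.val h), ?_⟩
      refine Subgroup.eq_of_le_of_card_ge (Subgroup.zpowers_le.2 y.2) ?_
      rw [Nat.card_zpowers, Nat.card_zpowers,
        hord ⟨y, hle y.2⟩ (fun h => hy1 (congrArg Subtype.val h :)), hord x hx]
    · intro y _; rfl

/-- Let `p ≠ 2` be prime and `P` a finite `p`-group acting faithfully by additive automorphisms on a finite elementary abelian `q`-group `E` (`q` prime), such that `|P_a|` is the same for all `a ≠ 0`. Then `P` is cyclic and every non-identity element of `P` fixes only `0`. -/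
theorem result {P E : Type*} [Group P] [Finite P]
    [AddCommGroup E] [Finite E] [DistribMulAction P E] [FaithfulSMul P E]
    {p q : ℕ} [Fact p.Prime] (hp2 : p ≠ 2) (hP : IsPGroup p P) (hq : q.Prime) (hE : ∀ e : E, q • e = 0)
    (hconst : ∀ a b : E, a ≠ 0 → b ≠ 0 →
      Nat.card (MulAction.stabilizer P a) = Nat.card (MulAction.stabilizer P b)) :
    IsCyclic P ∧ ∀ g : P, g ≠ 1 → ∀ a : E, g • a = a → a = 0 := by
  classical
  have hp : p.Prime := Fact.out
  by_cases hpq : p = q
  · -- then `P` fixes every vector
    subst hpq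
    have htriv : ∀ g : P, g = 1 := by
      intro g
      by_cases hE0 : ∀ e : E, e = 0
      · exact FaithfulSMul.eq_of_smul_eq_smul fun e : E => by rw [hE0 e, smul_zero, one_smul]
      · simp only [not_forall] at hE0
        obtain ⟨e₀, he₀⟩ := hE0
        have hdvd : p ∣ Nat.card E := by
          have h : addOrderOf e₀ = p := addOrderOf_eq_prime (hE e₀) he₀
          exact h ▸ addOrderOf_dvd_natCard e₀
        obtain ⟨b, hb, hb0⟩ := hP.exists_fixed_point_of_prime_dvd_card_of_fixed_point E hdvd
          (a := 0) (fun m => smul_zero m)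
        refine FaithfulSMul.eq_of_smul_eq_smul fun e : E => ?_
        rw [one_smul]
        by_cases he : e = 0
        · rw [he, smul_zero]
        · have hc := hconst e b he (Ne.symm hb0)
          have htop : MulAction.stabilizer P b = ⊤ := by
            ext m; simpa using hb m
          rw [htop, Subgroup.card_top] at hc
          have := Subgroup.eq_top_of_card_eq _ hc
          have hg : g ∈ MulAction.stabilizer P e := this ▸ Subgroup.mem_top g
          exact hg
    haveI : Subsingleton P := ⟨fun x y => (htriv x).trans (htriv y).symm⟩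
    exact ⟨isCyclic_of_subsingleton, fun g hg => absurd (htriv g) hg⟩
  · have hpinv : ∀ e : E, p • e = 0 → e = 0 := by
      intro e he
      have h1 : addOrderOf e ∣ p := addOrderOf_dvd_of_nsmul_eq_zero he
      have h2 : addOrderOf e ∣ q := addOrderOf_dvd_of_nsmul_eq_zero (hE e)
      have h3 : addOrderOf e ∣ 1 :=
        ((Nat.coprime_primes hp hq).2 hpq) ▸ Nat.dvd_gcd h1 h2
      exact AddMonoid.addOrderOf_eq_one_iff.1 (Nat.dvd_one.1 h3)
    have hppow : ∀ (k : ℕ) (e : E), p ^ k • e = 0 → e = 0 := by
      intro k
      induction k with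
      | zero => intro e he; simpa using he
      | succ k ih => intro e he; exact ih e (hpinv _ (by rwa [pow_succ', mul_nsmul'] at he))
    have hcardinv : ∀ (H : Subgroup P) (e : E), Nat.card H • e = 0 → e = 0 := by
      intro H e he
      obtain ⟨k, hk⟩ := IsPGroup.iff_card.1 (hP.to_subgroup H)
      exact hppow k e (hk ▸ he)
    have hfpf : ∀ z ∈ Subgroup.center P, z ≠ 1 → ∀ a : E, z • a = a → a = 0 := by
      intro z hz hz1 a ha
      by_contra ha0
      set C := Subgroup.zpowers z with hC
      have hcC : ∀ h ∈ C, ∀ g : P, h * g = g * h := fun h hh g =>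
        (Subgroup.mem_center_iff.1 ((Subgroup.zpowers_le.2 hz) hh) g).symm
      let E₁ : AddSubgroup E :=
        { carrier := {e | ∀ h ∈ C, h • e = e}
          zero_mem' := fun h _ => smul_zero h
          add_mem' := fun {x y} hx hy h hh => by rw [smul_add, hx h hh, hy h hh]
          neg_mem' := fun {x} hx h hh => by rw [smul_neg, hx h hh] }
      let E₂ : AddSubgroup E :=
        { carrier := {e | subSum C e = 0}
          zero_mem' := by simp [subSum]
          add_mem' := fun {x y} hx hy => by
            show subSum C (x + y) = 0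
            rw [subSum_add, show subSum C x = 0 from hx, show subSum C y = 0 from hy, add_zero]
          neg_mem' := fun {x} hx => by
            show subSum C (-x) = 0
            have h := subSum_add C x (-x)
            rw [add_neg_cancel, show subSum C x = 0 from hx, zero_add] at h
            rw [← h]; simp [subSum] }
      refine hz1 (semiregular_of_decomp hconst E₁ E₂ ?_ ?_ ?_ ?_ ?_ ?_ z a ha ha0)
      · intro g e he h hh
        rw [← mul_smul, hcC h hh g, mul_smul, he h hh]
      · intro g e he
        show subSum C (g • e) = 0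
        have : subSum C (g • e) = g • subSum C e := by
          simp only [subSum, Finset.smul_sum]
          exact Finset.sum_congr rfl fun h _ => by rw [← mul_smul, hcC h h.2 g, mul_smul]
        rw [this, show subSum C e = 0 from he, smul_zero]
      · refine (AddSubgroup.eq_bot_iff_forall _).2 fun e he => hcardinv C e ?_
        rw [← subSum_fix he.1]; exact he.2
      · intro e
        let φ : E →+ E := nsmulAddMonoidHom (Nat.card C)
        have hinj : Function.Injective φ :=
          (injective_iff_map_eq_zero φ).2 fun x hx => hcardinv C x hx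
        obtain ⟨u, hu⟩ := (Finite.injective_iff_surjective.1 hinj) (subSum C e)
        have hu' : Nat.card C • u = subSum C e := hu
        have huf : ∀ h ∈ C, h • u = u := fun h hh => hinj (by
          show Nat.card C • (h • u) = Nat.card C • u
          rw [smul_comm (Nat.card C) h u, hu', smul_subSum hh])
        refine ⟨u, huf, e - u, ?_, (add_sub_cancel u e).symm⟩
        show subSum C (e - u) = 0
        have h := subSum_add C (e - u) u
        rw [sub_add_cancel, subSum_fix huf, hu'] at h
        exact right_eq_add.1 h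
      · intro h
        have : a ∈ E₁ := fun k hk => by
          have : C ≤ MulAction.stabilizer P a := Subgroup.zpowers_le.2 ha
          exact this hk
        rw [h, AddSubgroup.mem_bot] at this
        exact ha0 this
      · intro h
        refine hz1 (FaithfulSMul.eq_of_smul_eq_smul fun e : E => ?_)
        rw [one_smul]
        let φ : E →+ E := nsmulAddMonoidHom (Nat.card C)
        have hinj : Function.Injective φ :=
          (injective_iff_map_eq_zero φ).2 fun x hx => hcardinv C x hx
        obtain ⟨u, hu⟩ := (Finite.injective_iff_surjective.1 hinj) (subSum C e)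
        have hu' : Nat.card C • u = subSum C e := hu
        have huf : ∀ h ∈ C, h • u = u := fun h hh => hinj (by
          show Nat.card C • (h • u) = Nat.card C • u
          rw [smul_comm (Nat.card C) h u, hu', smul_subSum hh])
        have hmem : e - u ∈ E₂ := by
          show subSum C (e - u) = 0
          have h := subSum_add C (e - u) u
          rw [sub_add_cancel, subSum_fix huf, hu'] at h
          exact right_eq_add.1 h
        rw [h, AddSubgroup.mem_bot, sub_eq_zero] at hmem
        rw [hmem]
        exact huf z (Subgroup.mem_zpowers z)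
    by_cases hsemi : ∀ g : P, g ≠ 1 → ∀ a : E, g • a = a → a = 0
    · refine ⟨?_, hsemi⟩
      by_contra hnc
      obtain ⟨A, -, ⟨hAc, hAe⟩, hA2⟩ := Cfsg.Agent.S0126.result hp2 hP hnc
      have hsum : ∀ (H : Subgroup P), H ≠ ⊥ → ∀ e : E, subSum H e = 0 := by
        intro H hH e
        obtain ⟨h, hh, hh1⟩ := H.bot_or_exists_ne_one.resolve_left hH
        exact hsemi h hh1 _ (smul_subSum hh e)
      by_cases hE0 : ∀ e : E, e = 0
      · have : Subsingleton P := ⟨fun x y =>
          FaithfulSMul.eq_of_smul_eq_smul fun e : E => by rw [hE0 e, smul_zero, smul_zero]⟩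
        exact hnc isCyclic_of_subsingleton
      simp only [not_forall] at hE0
      obtain ⟨e, he⟩ := hE0
      exact fpf_pSquare_absurd hp hpinv A hAc hAe hA2 (fun K _ hK e => hsum K hK e) e he
    · exfalso
      have hnc : ¬ IsCyclic P := by
        intro hc
        refine hsemi fun g hg a ha => ?_
        letI := hc.commGroup
        exact hfpf g (Subgroup.mem_center_iff.2 fun x => mul_comm x g) hg a ha
      obtain ⟨A, hAn, ⟨hAc, hAe⟩, hA2⟩ := Cfsg.Agent.S0126.result hp2 hP hnc
      haveI := hAn
      -- the centre meets `A`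
      obtain ⟨z, hzA, hzc, hz1⟩ : ∃ z ∈ A, z ∈ Subgroup.center P ∧ z ≠ 1 := by
        have hA0 : A ≠ ⊥ := by
          intro h; rw [h, Subgroup.card_bot] at hA2
          exact absurd hA2.symm (Nat.one_lt_pow two_ne_zero hp.one_lt).ne'
        have := Cfsg.Agent.PGroup.inf_center_ne_bot hP A hA0
        obtain ⟨z, hz, hz1⟩ := (A ⊓ Subgroup.center P).bot_or_exists_ne_one.resolve_left this
        exact ⟨z, hz.1, hz.2, hz1⟩
      -- some element of `A` fixes a non-zero vector
      obtain ⟨h, hhA, hh1, v, hv, hv0⟩ : ∃ h ∈ A, h ≠ 1 ∧ ∃ v : E, h • v = v ∧ v ≠ 0 := by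
        by_contra hno
        apply hz1
        refine FaithfulSMul.eq_of_smul_eq_smul fun e : E => ?_
        have hsum : ∀ (K : Subgroup P), K ≤ A → K ≠ ⊥ → ∀ e : E, subSum K e = 0 := by
          intro K hK hK0 e
          obtain ⟨k, hk, hk1⟩ := K.bot_or_exists_ne_one.resolve_left hK0
          by_contra hne
          exact hno ⟨k, hK hk, hk1, _, smul_subSum hk e, hne⟩
        by_cases he : e = 0
        · rw [he, smul_zero, smul_zero]
        · exfalso
          exact fpf_pSquare_absurd hp hpinv A hAc hAe hA2 hsum e he
      set H := Subgroup.zpowers h with hH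
      have hHA : H ≤ A := Subgroup.zpowers_le.2 hhA
      have hHc : Nat.card H = p := by rw [Nat.card_zpowers, orderOf_eq_prime (hAe h hhA) hh1]
      have hfixH : ∀ k ∈ H, k • v = v := fun k hk =>
        (Subgroup.zpowers_le.2 (show h ∈ MulAction.stabilizer P v from hv)) hk
      obtain ⟨g, hg⟩ : ∃ g : P, g * h * g⁻¹ ∉ H := by
        by_contra hall
        simp only [not_exists, not_not] at hall
        haveI : H.Normal := ⟨fun n hn g => by
          obtain ⟨k, rfl⟩ := Subgroup.mem_zpowers_iff.1 hn
          rw [← conj_zpow]; exact H.zpow_mem (hall g) k⟩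
        have hHcen : H ≤ Subgroup.center P :=
          Cfsg.Agent.PGroup.le_center_of_card_eq hP hHc
        exact hv0 (hfpf h (hHcen (Subgroup.mem_zpowers h)) hh1 v hv)
      set H' := Subgroup.zpowers (g * h * g⁻¹) with hH'
      set w := g • v with hw
      have hw0 : w ≠ 0 := fun h' => hv0 (by rwa [hw, smul_eq_zero_iff_eq] at h')
      have hw1 : (g * h * g⁻¹) • w = w := by rw [hw, mul_smul, mul_smul, inv_smul_smul, hv]
      have hh'A : g * h * g⁻¹ ∈ A := hAn.conj_mem h hhA g
      have hh'1 : g * h * g⁻¹ ≠ 1 := by simpa using hh1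
      have hord : ∀ k ∈ A, k ≠ 1 → Nat.card (Subgroup.zpowers k) = p := fun k hk hk1 => by
        rw [Nat.card_zpowers, orderOf_eq_prime (hAe k hk) hk1]
      -- two independent subgroups of order `p` have no common fixed vector
      have hindep : ∀ k l : P, k ∈ A → l ∈ A → k ≠ 1 → l ∉ Subgroup.zpowers k →
          ∀ u : E, k • u = u → l • u = u → u = 0 := by
        intro k l hk hl hk1 hlk u hku hlu
        have hle : Subgroup.zpowers k ⊔ Subgroup.zpowers l ≤ A :=
          sup_le (Subgroup.zpowers_le.2 hk) (Subgroup.zpowers_le.2 hl)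
        obtain ⟨j, hj⟩ := IsPGroup.iff_card.1
          (hP.to_subgroup (Subgroup.zpowers k ⊔ Subgroup.zpowers l))
        have h1 : p < p ^ j := by
          rw [← hj, ← hord k hk hk1]
          refine lt_of_le_of_ne (Subgroup.card_dvd_of_le le_sup_left |> Nat.le_of_dvd Nat.card_pos)
            fun hcard => hlk ?_
          rw [Subgroup.eq_of_le_of_card_ge le_sup_left hcard.ge]
          exact le_sup_right (a := Subgroup.zpowers k) (Subgroup.mem_zpowers l)
        have h2 : 2 ≤ j := by
          by_contra h2
          have := Nat.pow_le_pow_right hp.pos (show j ≤ 1 by omega)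
          rw [pow_one] at this; omega
        have heq : Subgroup.zpowers k ⊔ Subgroup.zpowers l = A :=
          Subgroup.eq_of_le_of_card_ge hle (by rw [hA2, hj]; exact Nat.pow_le_pow_right hp.pos h2)
        have : A ≤ MulAction.stabilizer P u := by
          rw [← heq]; exact sup_le (Subgroup.zpowers_le.2 hku) (Subgroup.zpowers_le.2 hlu)
        exact hfpf z hzc hz1 u (this hzA)
      have hproj : ∀ k l : P, k ∈ A → l ∈ A → k ≠ 1 → ∀ u : E, l • u = u →
          l ∉ Subgroup.zpowers k → subSum (Subgroup.zpowers k) u = 0 := by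
        intro k l hk hl hk1 u hlu hlk
        refine hindep k l hk hl hk1 hlk _ (smul_subSum (Subgroup.mem_zpowers k) u)
          (smul_subSum_of_fix (fun k' hk' => ?_) hlu)
        exact congrArg Subtype.val
          (hAc.is_comm.comm ⟨k', Subgroup.zpowers_le.2 hk hk'⟩ ⟨l, hl⟩)
      have hvne : ∀ k ∈ A, k ≠ 1 → ∀ u : E, u ≠ 0 → k • u = u →
          subSum (Subgroup.zpowers k) u ≠ 0 := by
        intro k _ _ u hu0 hku h0
        rw [subSum_fix (H := Subgroup.zpowers k)
          fun m hm => (Subgroup.zpowers_le.2 (show k ∈ MulAction.stabilizer P u from hku)) hm] at h0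
        exact hu0 (hcardinv _ u h0)
      have hgen : ∀ k l : P, k ∈ A → l ∈ A → k ≠ 1 → l ≠ 1 → l ∈ Subgroup.zpowers k →
          Subgroup.zpowers l = Subgroup.zpowers k := fun k l hk hl hk1 hl1 hlk =>
        Subgroup.eq_of_le_of_card_ge (Subgroup.zpowers_le.2 hlk)
          (by rw [hord k hk hk1, hord l hl hl1])
      have hHH : h ∉ Subgroup.zpowers (g * h * g⁻¹) := fun hmem => hg (by
        rw [hH, hgen _ h hh'A hhA hh'1 hh1 hmem]; exact Subgroup.mem_zpowers _)
      -- a vector stabiliser
      have hstab : MulAction.stabilizer P (v + w) ≤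
          MulAction.stabilizer P v ⊓ MulAction.stabilizer P w := by
        intro x hx
        have hx' : x • v + x • w = v + w := by rw [← smul_add]; exact hx
        set h₁ := x * h * x⁻¹ with h₁def
        set h₂ := x * (g * h * g⁻¹) * x⁻¹ with h₂def
        have h₁A : h₁ ∈ A := hAn.conj_mem h hhA x
        have h₂A : h₂ ∈ A := hAn.conj_mem _ hh'A x
        have h₁1 : h₁ ≠ 1 := by simpa [h₁def] using hh1
        have h₂1 : h₂ ≠ 1 := by simpa [h₂def] using hh'1
        have hx₁ : h₁ • x • v = x • v := by
          rw [h₁def, mul_smul, mul_smul, inv_smul_smul, hv]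
        have hx₂ : h₂ • x • w = x • w := by
          rw [h₂def, mul_smul, mul_smul, inv_smul_smul, hw1]
        have e1 : h₁ ∈ Subgroup.zpowers h ∨ h₂ ∈ Subgroup.zpowers h := by
          by_contra hno
          simp only [not_or] at hno
          have hs : subSum H (v + w) = subSum H v := by
            rw [subSum_add, hproj h _ hhA hh'A hh1 w hw1 hg, add_zero]
          rw [← hx', subSum_add, hproj h h₁ hhA h₁A hh1 _ hx₁ hno.1,
            hproj h h₂ hhA h₂A hh1 _ hx₂ hno.2, add_zero] at hs
          exact hvne h hhA hh1 v hv0 hv hs.symm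
        have e2 : h₁ ∈ Subgroup.zpowers (g * h * g⁻¹) ∨ h₂ ∈ Subgroup.zpowers (g * h * g⁻¹) := by
          by_contra hno
          simp only [not_or] at hno
          have hs : subSum H' (v + w) = subSum H' w := by
            rw [subSum_add, hproj _ h hh'A hhA hh'1 v hv hHH, zero_add]
          rw [← hx', subSum_add, hproj _ h₁ hh'A h₁A hh'1 _ hx₁ hno.1,
            hproj _ h₂ hh'A h₂A hh'1 _ hx₂ hno.2, add_zero] at hs
          exact hvne _ hh'A hh'1 w hw0 hw1 hs.symm
        -- conjugation by `x` permutes the two subgroups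
        let c : Subgroup P → Subgroup P := fun K => K.map (MulAut.conj x).toMonoidHom
        have hc1 : c H = Subgroup.zpowers h₁ := by
          simp [c, hH, h₁def, MonoidHom.map_zpowers]
        have hc2 : c H' = Subgroup.zpowers h₂ := by
          simp [c, hH', h₂def, MonoidHom.map_zpowers]
        have hHne : H ≠ H' := fun h' => hHH (by rw [← hH', ← h']; exact Subgroup.mem_zpowers h)
        have hcinj : Function.Injective c := fun K L hKL =>
          Subgroup.map_injective (MulEquiv.injective _) hKL
        have hfix : c H = H := by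
          rcases e1 with e1 | e1
          · rw [hc1]; exact hgen h h₁ hhA h₁A hh1 h₁1 e1
          · exfalso
            have h2H : c H' = H := by rw [hc2]; exact hgen h h₂ hhA h₂A hh1 h₂1 e1
            have h1H : c H = H' := by
              rcases e2 with e2 | e2
              · rw [hc1]; exact hgen _ h₁ hh'A h₁A hh'1 h₁1 e2
              · exact absurd (h2H.symm.trans (by rw [hc2]; exact hgen _ h₂ hh'A h₂A hh'1 h₂1 e2))
                  hHne
            -- an element of odd order cannot interchange them
            have hiter : ∀ n : ℕ, c^[2 * n + 1] H = H' := by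
              intro n
              induction n with
              | zero => simpa using h1H
              | succ n ih =>
                rw [show 2 * (n + 1) + 1 = 2 + (2 * n + 1) by ring, Function.iterate_add_apply, ih]
                simp [h2H, h1H]
            have hpow : ∀ n : ℕ, c^[n] H = H.map (MulAut.conj (x ^ n)).toMonoidHom := by
              intro n
              induction n with
              | zero =>
                ext y
                simp [Subgroup.mem_map]
              | succ n ih =>
                rw [Function.iterate_succ_apply', ih]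
                show Subgroup.map _ (Subgroup.map _ H) = _
                rw [Subgroup.map_map]
                congr 1
                ext y
                simp [pow_succ', mul_assoc]
            obtain ⟨k, hk⟩ := hP x
            have hpo : Odd (p ^ k) := (hp.odd_of_ne_two hp2).pow
            obtain ⟨m, hm⟩ := hpo
            have hh := hiter m
            rw [hpow, ← hm, hk] at hh
            apply hHne
            rw [← hh]
            ext y; simp [Subgroup.mem_map]
        have h1H : h₁ ∈ H := by rw [← hfix, hc1]; exact Subgroup.mem_zpowers _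
        have h2H : h₂ ∉ H := by
          intro hmem
          refine hHne (hcinj ?_)
          rw [hfix, hc2, hgen h h₂ hhA h₂A hh1 h₂1 hmem]
        have hxv : x • v = v := by
          have hxvH : ∀ k ∈ H, k • x • v = x • v := by
            intro k hk
            rw [← hfix, hc1] at hk
            exact (Subgroup.zpowers_le.2
              (show h₁ ∈ MulAction.stabilizer P (x • v) from hx₁)) hk
          have hs : subSum H (v + w) = subSum H v := by
            rw [subSum_add, hproj h _ hhA hh'A hh1 w hw1 hg, add_zero]
          rw [← hx', subSum_add, hproj h h₂ hhA h₂A hh1 _ hx₂ h2H, add_zero, subSum_fix hxvH,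
            subSum_fix hfixH] at hs
          refine sub_eq_zero.1 (hcardinv H _ ?_)
          rw [nsmul_sub, hs, sub_self]
        exact ⟨hxv, add_left_cancel (hxv ▸ hx')⟩
      have hvw : v + w ≠ 0 := by
        intro h0
        have hwv : w = -v := eq_neg_of_add_eq_zero_right h0
        refine hv0 (hindep h _ hhA hh'A hh1 hg v hv ?_)
        have := hw1; rw [hwv, smul_neg, neg_inj] at this; exact this
      have ev := Subgroup.eq_of_le_of_card_ge (hstab.trans inf_le_left)
        (hconst v (v + w) hv0 hvw).le
      have ew := Subgroup.eq_of_le_of_card_ge (hstab.trans inf_le_right)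
        (hconst w (v + w) hw0 hvw).le
      have hhw : h • w = w := by
        have : h ∈ MulAction.stabilizer P w := ew ▸ ev.symm ▸ (hv : h ∈ MulAction.stabilizer P v)
        exact this
      exact hw0 (hindep h _ hhA hh'A hh1 hg w hhw hw1)

end Cfsg.Agent.S1160
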