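import Cfsg.Statements.S1167
import Cfsg.Agent.SuzukiZ.AbelianFalse
import Cfsg.Agent.Zassenhaus.PrimePower
import Cfsg.Agent.RankOne.Structure
import Cfsg.Agent.CharExt.AbelianTI

set_option autoImplicit false
open Cfsg

namespace Cfsg.Agent.S1167

/-- Let `G` be a finite simple Zassenhaus group on `Ω`, `U` a normal subgroup of `G_a` regular on `Ω` minus `a` which is an abelian 2-group, and `v` an involution with `v • a ≠ a`. Then there is a unique `u₀ ∈ U`, `u₀ ≠ 1`, with `v u₀ v = u₀ v u₀`. -/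
theorem result {G Ω : Type*} [Group G] [Finite G] [MulAction G Ω] [Finite Ω]
    (hZ : Cfsg.IsZassenhausGroup G Ω) [IsSimpleGroup G] {a : Ω}
    (U : Subgroup G) (hUle : U ≤ MulAction.stabilizer G a)
    (hUn : ∀ h ∈ MulAction.stabilizer G a, ∀ u ∈ U, h * u * h⁻¹ ∈ U)
    (hreg : ∀ c d : Ω, c ≠ a → d ≠ a → ∃! u : U, (u : G) • c = d)
    (hU2 : IsPGroup 2 U) (hUab : ∀ u ∈ U, ∀ u' ∈ U, u * u' = u' * u)
    (v : G) (hv1 : v ≠ 1) (hv2 : v * v = 1) (hva : v • a ≠ a) :
    ∃! u₀ : G, u₀ ∈ U ∧ u₀ ≠ 1 ∧ v * u₀ * v = u₀ * v * u₀ := by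
  classical
  letI := Fintype.ofFinite G
  have hz := PermB.zData_of_isZassenhausGroup hZ
  have h3 := PermB.three_le_card_of_isZassenhausGroup hZ
  haveI : FaithfulSMul G Ω := hZ.1
  set b := v • a with hb
  have hN : PermB.IsKernel U a := ⟨hUle, hUn, hreg⟩
  have hcard : Nat.card U + 1 = Nat.card Ω := hN.card_add_one hva
  haveI : Fact (Nat.Prime 2) := ⟨Nat.prime_two⟩
  have heven : Even (Nat.card U) := by
    rcases hU2.card_eq_or_dvd with e | e
    · omega
    · exact even_iff_two_dvd.2 e
  have hfix : ∀ u ∈ U, ∀ c : Ω, c ≠ a → u • c = c → u = 1 := fun u hu c hc e => hN.eq_one hu hc e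
  have hoddD : Odd (Nat.card (RankOne.D a v)) := by
    by_contra hev
    rw [Nat.not_odd_iff_even] at hev
    obtain ⟨d, hd⟩ := exists_prime_orderOf_dvd_card' (G := RankOne.D a v) 2 (even_iff_two_dvd.1 hev)
    have hd2 : (d : G) * d = 1 := by
      have := pow_orderOf_eq_one d
      rw [hd, pow_two] at this
      exact congrArg Subtype.val this
    have hd1 : (d : G) ≠ 1 := fun e => by
      rw [show d = 1 from Subtype.ext e, orderOf_one] at hd
      exact absurd hd (by norm_num)
    obtain ⟨h1, h2⟩ := hz.card_fixedBy_involution hd2 hd1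
    have hodd : Nat.card Ω % 2 = 1 := by
      have := Nat.even_iff.1 heven
      omega
    rw [hodd] at h2
    haveI : Nontrivial (MulAction.fixedBy Ω (d : G)) :=
      ⟨⟨⟨a, d.2.1⟩, ⟨v • a, d.2.2⟩, fun e => hva (congrArg Subtype.val e).symm⟩⟩
    have h4 := Finite.one_lt_card (α := MulAction.fixedBy Ω (d : G))
    omega
  have hS : Cfsg.IsRankOneSetup G Ω a v U :=
    { two_transitive := hz.isMultiplyPretransitive
      mul_self := hv2
      ne_one := hv1
      not_mem := hva
      le := hUle
      conj_mem := hUn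
      inf_eq_bot := (Subgroup.eq_bot_iff_forall _).2 fun x hx => hfix x hx.1 _ hva hx.2
      sup_eq := by
        refine le_antisymm (sup_le hUle inf_le_left) fun g hg => ?_
        obtain ⟨u, hu, d, hd, e⟩ := hN.exists_mul hva hg
        rw [e]
        exact Subgroup.mul_mem_sup hu (show d ∈ RankOne.D a v from PermB.ZData.mem_H2.1 hd)
      even_card := heven
      odd_card := hoddD }
  have hfpf : ∀ d ∈ RankOne.D a v, d ≠ 1 → ∀ x ∈ U, d * x = x * d → x = 1 := by
    intro d hd hd1 x hx hc
    by_contra hx1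
    refine hd1 (hz.three d hva.symm (c := x • v • a) ?_ ?_ hd.1 hd.2 ?_)
    · exact fun e => hx1 (hfix x hx _ hva e.symm)
    · exact fun e => hva (MulAction.injective x (((hUle hx : x • a = a)).trans e).symm)
    · rw [← mul_smul, hc, mul_smul, hd.2]
  have hDreg : ∀ d ∈ RankOne.D a v, ∀ s ∈ RankOne.Ia G a, d * s = s * d → d = 1 := by
    intro d hd s hs hc
    by_contra hd1
    exact hs.2.1 (hfpf d hd hd1 s (RankOne.invol_mem_Q hS hs.2.2 hs.1) hc)
  obtain ⟨s₀, hs₀, hs₀1, hs₀2⟩ := RankOne.exists_involution_Q hS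
  have hs₀I : s₀ ∈ RankOne.Ia G a := ⟨hUle hs₀, hs₀1, hs₀2⟩
  have hDK : ∀ d ∈ RankOne.D a v, d ∈ RankOne.K a v := by
    intro d hd
    obtain ⟨k, hk, e⟩ := RankOne.K_transitive hS hs₀I (RankOne.conj_mem_Ia hS hs₀I hd.1)
    have h1 := hDreg _ ((RankOne.D a v).mul_mem hk.1 hd) s₀ hs₀I (by
      calc k * d * s₀ = k * (d * s₀ * d⁻¹) * d := by group
        _ = k * (k⁻¹ * s₀ * k) * d := by rw [e]
        _ = s₀ * (k * d) := by group)
    rw [eq_inv_of_mul_eq_one_right h1]
    exact RankOne.K_inv hS hk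
  have hDcomm : ∀ x ∈ RankOne.D a v, ∀ y ∈ RankOne.D a v, x * y = y * x := by
    intro x hx y hy
    have h1 := ((RankOne.mem_K hS).1 (hDK _ ((RankOne.D a v).mul_mem hx hy))).2
    rw [← RankOne.conj_mul_conj hv2, ((RankOne.mem_K hS).1 (hDK x hx)).2,
      ((RankOne.mem_K hS).1 (hDK y hy)).2, mul_inv_rev] at h1
    simpa using (congrArg Inv.inv h1).symm
  have hDcard : Nat.card (RankOne.D a v) = Nat.card (RankOne.Ia G a) := by
    rw [← RankOne.card_K hS]
    exact Nat.card_congr (Equiv.subtypeEquivRight fun x => ⟨fun hx => hDK x hx, fun hx => hx.1⟩)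
  -- `U` is elementary abelian
  have hexp : ∀ u ∈ U, u * u = 1 := by
    by_contra hne
    push Not at hne
    obtain ⟨u₁, hu₁, hu₁2⟩ := hne
    set M := MulAction.stabilizer G a
    set L := U.subgroupOf M with hL
    haveI : L.Normal := ⟨fun u hu g => hUn g g.2 u hu⟩
    letI : Fintype M := Fintype.ofFinite M
    have hTI := Zassenhaus.tiSetup hZ hva.symm hN
    have hidx : L.index = Nat.card (RankOne.D a v) := by
      rw [Zassenhaus.index_kernel hZ hva.symm hN]
    have hodd : Odd L.index := hidx ▸ hoddD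
    have hd3 : 3 ≤ L.index := by
      have h1 : 1 < L.index := by
        rw [Zassenhaus.index_kernel hZ hva.symm hN]
        exact Zassenhaus.one_lt_card_H2 hZ hva.symm
      obtain ⟨r, hr⟩ := hodd
      omega
    have hC : ∀ k ∈ L, k ≠ 1 → Subgroup.centralizer ({k} : Set M) ≤ L := hTI.cent
    have habL : ∀ x ∈ L, ∀ y ∈ L, x * y = y * x := fun x hx y hy =>
      Subtype.ext (hUab x hx y hy)
    have hfam : ∀ η : Cfsg.IrrCharacter M, ¬ CharExt.KTriv L η → Zassenhaus.deg η = L.index := by
      intro η hη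
      have e := CharExt.degree_eq_index M L hC habL hη
      rw [Zassenhaus.deg_spec] at e
      exact_mod_cast e
    have hlin : ∀ β : Cfsg.IrrCharacter M, CharExt.KTriv L β → Zassenhaus.deg β = 1 := by
      intro β hβ
      obtain ⟨ψ, hψ, hg⟩ := Char.irr_exists_descend β.2 L hβ
      have hq : ∀ x y : M ⧸ L, x * y = y * x := by
        have hrep : ∀ x : M ⧸ L, ∃ d : M, (d : G) ∈ RankOne.D a v ∧ (d : M ⧸ L) = x := by
          intro x
          obtain ⟨x, rfl⟩ := QuotientGroup.mk_surjective x
          obtain ⟨u, hu, d, hd, e⟩ := RankOne.decomp hS x.2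
          refine ⟨⟨d, hd.1⟩, hd, ?_⟩
          rw [show x = (⟨u, hUle hu⟩ : M) * ⟨d, hd.1⟩ from Subtype.ext e, QuotientGroup.mk_mul,
            (QuotientGroup.eq_one_iff _).2 (show (⟨u, hUle hu⟩ : M) ∈ L from hu), one_mul]
        intro x y
        obtain ⟨c, hc, rfl⟩ := hrep x
        obtain ⟨d, hd, rfl⟩ := hrep y
        rw [← QuotientGroup.mk_mul, ← QuotientGroup.mk_mul,
          show c * d = d * c from Subtype.ext (hDcomm _ hc _ hd)]
      apply Nat.cast_injective (R := ℂ)
      rw [← Zassenhaus.deg_spec, hg, QuotientGroup.mk_one, Char.irr_degree_one_of_comm hq hψ,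
        Nat.cast_one]
    have hreal : ∀ g : M, g ∉ L → IsConj (g : G) (g : G)⁻¹ := by
      intro g hg
      obtain ⟨u, hu, d, hd, e⟩ := RankOne.decomp hS g.2
      by_cases hd1 : d = 1
      · exact absurd (show (g : G) ∈ U by rw [e, hd1, mul_one]; exact hu) hg
      -- `g` is a conjugate of `d`
      let f : U → U := fun w => ⟨w * d * (w : G)⁻¹ * d⁻¹, by
        have h2 := U.mul_mem w.2 (hUn d hd.1 _ (U.inv_mem w.2))
        convert h2 using 1; simp [mul_assoc]⟩
      have hf : Function.Injective f := by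
        intro w w' e'
        have e'' : (w : G) * d * (w : G)⁻¹ * d⁻¹ = (w' : G) * d * (w' : G)⁻¹ * d⁻¹ :=
          congrArg Subtype.val e'
        exact Subtype.ext (inv_mul_eq_one.1 (hfpf d hd hd1 _ (U.mul_mem (U.inv_mem w'.2) w.2) (by
          calc d * ((w' : G)⁻¹ * w) = (w' : G)⁻¹ * ((w' : G) * d * (w' : G)⁻¹ * d⁻¹) * d * w := by
                group
            _ = _ := by rw [← e'']; group))).symm
      obtain ⟨w, hw⟩ := (Finite.injective_iff_surjective.1 hf) ⟨u, hu⟩
      have hw' : (w : G) * d * (w : G)⁻¹ * d⁻¹ = u := congrArg Subtype.val hw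
      have hgw : (g : G) = w * d * (w : G)⁻¹ := by rw [e, ← hw']; group
      refine isConj_iff.2 ⟨(w : G) * v * (w : G)⁻¹, ?_⟩
      have hvd := ((RankOne.mem_K hS).1 (hDK d hd)).2
      calc (w : G) * v * (w : G)⁻¹ * g * ((w : G) * v * (w : G)⁻¹)⁻¹
          = (w : G) * (v * d * v⁻¹) * (w : G)⁻¹ := by rw [hgw]; group
        _ = (g : G)⁻¹ := by rw [RankOne.inv_eq_self_of_sq hv2, hvd, hgw]; group
    -- at least `d + 2` exceptional characters
    have hsize : (Nat.card (RankOne.Ia G a) + 1) ^ 2 ≤ Nat.card U := by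
      let sq : U →* U :=
        { toFun := fun x => x * x
          map_one' := one_mul 1
          map_mul' := fun x y => by
            have hc : y * x = x * y := Subtype.ext (hUab y y.2 x x.2)
            calc x * y * (x * y) = x * (y * x) * y := by group
              _ = x * x * (y * y) := by rw [hc]; group }
      have hker : Nat.card sq.ker = Nat.card (RankOne.Ia G a) + 1 := by
        rw [← Finite.card_option]
        refine (Nat.card_eq_of_bijective
          (fun o : Option (RankOne.Ia G a) => o.elim (1 : sq.ker) fun s =>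
            ⟨⟨s.1, RankOne.invol_mem_Q hS s.2.2.2 s.2.1⟩, Subtype.ext s.2.2.2⟩) ⟨?_, ?_⟩).symm
        · rintro (_ | x) (_ | y) e
          · rfl
          · exact absurd (congrArg (fun w : sq.ker => (w.1 : G)) e).symm y.2.2.1
          · exact absurd (congrArg (fun w : sq.ker => (w.1 : G)) e) x.2.2.1
          · exact congrArg some (Subtype.ext (congrArg (fun w : sq.ker => (w.1 : G)) e))
        · rintro ⟨x, hx⟩
          by_cases hx1 : x = 1
          · exact ⟨none, Subtype.ext hx1.symm⟩
          · exact ⟨some ⟨x.1, hUle x.2, fun e => hx1 (Subtype.ext e), congrArg Subtype.val hx⟩, rfl⟩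
      -- every involution is a square
      obtain ⟨s, hs, hs1, w, hw⟩ : ∃ s : sq.range, (s : U) * s = 1 ∧ (s : U) ≠ 1 ∧
          ∃ w : U, w * w = s := by
        haveI : Nontrivial sq.range := ⟨⟨⟨_, ⟨⟨u₁, hu₁⟩, rfl⟩⟩, 1, fun e => hu₁2
          (congrArg (fun w : sq.range => (w.1 : G)) e)⟩⟩
        obtain ⟨s, hs⟩ := exists_prime_orderOf_dvd_card' (G := sq.range) 2
          (((hU2.to_subgroup sq.range).card_eq_or_dvd).resolve_left
            fun e => (Finite.one_lt_card (α := sq.range)).ne' e)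
        obtain ⟨w, hw⟩ := s.2
        refine ⟨s, ?_, fun e => ?_, w, hw⟩
        · have := pow_orderOf_eq_one s
          rw [hs, pow_two] at this
          exact congrArg Subtype.val this
        · rw [show s = 1 from Subtype.ext e, orderOf_one] at hs
          exact absurd hs (by norm_num)
      have hle : sq.ker ≤ sq.range := by
        intro x hx
        by_cases hx1 : x = 1
        · exact hx1 ▸ one_mem _
        obtain ⟨k, hk, e⟩ := RankOne.K_transitive hS
          (⟨hUle s.1.2, fun e => hs1 (Subtype.ext e), congrArg Subtype.val hs⟩ :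
            (s.1 : G) ∈ RankOne.Ia G a)
          (⟨hUle x.2, fun e => hx1 (Subtype.ext e), congrArg Subtype.val hx⟩ :
            (x : G) ∈ RankOne.Ia G a)
        refine ⟨⟨k⁻¹ * w * k, by simpa using hUn k⁻¹ (M.inv_mem hk.1.1) w w.2⟩, Subtype.ext ?_⟩
        show k⁻¹ * (w : G) * k * (k⁻¹ * w * k) = x
        rw [← e, ← show (w : G) * w = s.1 from congrArg Subtype.val hw]
        group
      have h1 := Subgroup.card_eq_card_quotient_mul_card_subgroup sq.ker
      rw [Nat.card_congr (QuotientGroup.quotientKerEquivRange sq).toEquiv] at h1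
      rw [h1, ← hker, pow_two]
      exact Nat.mul_le_mul_right _ (Subgroup.card_le_of_le hle)
    have hbig : L.index + 2 ≤ Fintype.card (Zassenhaus.Fam M L) := by
      have h1 := Cfsg.Agent.Zassenhaus.card_eq_mul hTI hfam
      rw [Nat.card_congr (Subgroup.subgroupOfEquivOfLe hUle).toEquiv] at h1
      rw [← hDcard, ← hidx] at hsize
      by_contra hlt
      push Not at hlt
      have := Nat.mul_le_mul_right L.index
        (show Fintype.card (Zassenhaus.Fam M L) ≤ L.index + 1 by omega)
      nlinarith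
    exact SuzukiZ.abelian_kernel_false hTI hfam hbig hodd hd3 hlin hreal
  obtain ⟨s, r, hs, hr, e⟩ := RankOne.exists_structure hS
  have hsU := RankOne.invol_mem_Q hS hs.2.2 hs.1
  have hrr : r⁻¹ = r := RankOne.inv_eq_self_of_sq (hexp r hr)
  rw [hrr] at e
  have h1 : v * r * v = s * v * r := by
    have hsv : s = v * r * v * r * v := by
      calc s = v * (v * s * v) * v := (RankOne.conj_conj_self hv2 s).symm
        _ = _ := by rw [e]; group
    rw [hsv]
    calc v * r * v = v * r * v * r * (v * v) * r := by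
          rw [hv2, mul_one, mul_assoc (v * r * v) r r, hexp r hr, mul_one]
      _ = _ := by group
  have h2 : v * r * v = r * v * s := by
    have := congrArg Inv.inv h1
    simp only [mul_inv_rev, RankOne.inv_eq_self_of_sq hv2, hrr, RankOne.inv_eq_self_of_sq hs.2.2] at this
    simpa [mul_assoc] using this
  have hsr : s = r := by
    refine (RankOne.canonical_unique hS hsU (RankOne.D a v).one_mem hr hr
      (RankOne.D a v).one_mem hsU ?_).1
    rw [mul_one, mul_one, ← h1, ← h2]
  subst hsr
  refine ⟨s, ⟨hr, hs.2.1, e⟩, ?_⟩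
  rintro u ⟨hu, hu1, hue⟩
  exact (RankOne.structure_unique hS (⟨hUle hu, hu1, hexp u hu⟩ : u ∈ RankOne.Ia G a) hu
    (by rw [RankOne.inv_eq_self_of_sq (hexp u hu)]; exact hue) hs hr
    (by rw [hrr]; exact e)).1

end Cfsg.Agent.S1167
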