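import Cfsg.Statements.S1176

import Cfsg.Agent.Invol.Basic
import Mathlib.GroupTheory.Commutator.Basic
import Mathlib.Tactic.IntervalCases

set_option autoImplicit false
open Cfsg

namespace Cfsg.Agent.S1176

open scoped commutatorElement
open Cfsg.Agent

/-- Let x₀ be an involution of the finite group G and D its conjugacy class. Assume (a) for each x ∈ D the subgroup W(x) generated by the members of D commuting with x is a 2-group of nilpotency class at most 2, and (b) the product of two distinct commuting members of D again lies in D. Then for all x, y ∈ D, if xy has even order greater than 2, its order is 4. -/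
theorem result {G : Type*} [Group G] [Finite G] (x₀ : G) (hx₀ : orderOf x₀ = 2) (ha : ∀ x : G, IsConj x₀ x → IsPGroup 2 ↥(Subgroup.closure {y : G | IsConj x₀ y ∧ Commute y x}) ∧ ⁅⁅Subgroup.closure {y : G | IsConj x₀ y ∧ Commute y x}, Subgroup.closure {y : G | IsConj x₀ y ∧ Commute y x}⁆, Subgroup.closure {y : G | IsConj x₀ y ∧ Commute y x}⁆ = ⊥) (hb : ∀ x y : G, IsConj x₀ x → IsConj x₀ y → x ≠ y → Commute x y → IsConj x₀ (x * y)) (x y : G) (hx : IsConj x₀ x) (hy : IsConj x₀ y) (heven : Even (orderOf (x * y))) (hgt : 2 < orderOf (x * y)) : orderOf (x * y) = 4 := by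
  have hx2 : orderOf x = 2 := (Invol.orderOf_eq_of_isConj hx).symm.trans hx₀
  have hy2 : orderOf y = 2 := (Invol.orderOf_eq_of_isConj hy).symm.trans hx₀
  set m := orderOf (x * y) / 2 with hm
  have hw := Invol.pow_half_eq_two (orderOf_pos _) heven
  rw [← hm] at hw
  obtain ⟨hcx, hcy⟩ := Invol.commute_pow_half hx2 hy2 heven
  rw [← hm] at hcx hcy
  have hd : IsConj x₀ (x * (x * y) ^ (m : ℤ)) := by
    obtain ⟨i, hi | hi⟩ := Nat.even_or_odd' m
    · refine hx.trans (isConj_iff.mpr ⟨(x * y) ^ (-(i : ℤ)), ?_⟩)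
      rw [Invol.conj_left_zpow hx2 hy2, hi]; push_cast; rfl
    · refine hy.trans (isConj_iff.mpr ⟨(x * y) ^ (-(i : ℤ)), ?_⟩)
      rw [Invol.conj_right_zpow hx2 hy2, hi]; push_cast; rfl
  have hne : x ≠ x * (x * y) ^ (m : ℤ) := fun he => by
    have h1 := mul_eq_left.mp he.symm
    rw [zpow_natCast] at h1
    rw [h1, orderOf_one] at hw
    norm_num at hw
  have hcD : IsConj x₀ ((x * y) ^ m) := by
    have := hb x _ hx hd hne ((Commute.refl x).mul_right (by rw [zpow_natCast]; exact hcx.symm))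
    rwa [← mul_assoc, Invol.inv_mul_self hx2, one_mul, zpow_natCast] at this
  obtain ⟨hP, hcls⟩ := ha _ hcD
  set W := Subgroup.closure {w : G | IsConj x₀ w ∧ Commute w ((x * y) ^ m)}
  have hxW : x ∈ W := Subgroup.subset_closure ⟨hx, hcx.symm⟩
  have hyW : y ∈ W := Subgroup.subset_closure ⟨hy, hcy.symm⟩
  obtain ⟨k, hk⟩ := hP ⟨x * y, mul_mem hxW hyW⟩
  have hk' : (x * y) ^ 2 ^ k = 1 := congrArg Subtype.val hk
  obtain ⟨j, -, hj⟩ := (Nat.dvd_prime_pow Nat.prime_two).mp (orderOf_dvd_of_pow_eq_one hk')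
  have h4 : (x * y) ^ 4 = 1 := by
    have h1 : ⁅⁅x, y⁆, x⁆ ∈ (⊥ : Subgroup G) := hcls ▸
      Subgroup.commutator_mem_commutator (Subgroup.commutator_mem_commutator hxW hyW) hxW
    rw [Subgroup.mem_bot] at h1
    have e1 : ⁅x, y⁆ = (x * y) ^ 2 := by
      rw [commutatorElement_def, Invol.inv_eq hx2, Invol.inv_eq hy2, pow_two, mul_assoc (x * y)]
    rw [e1, commutatorElement_eq_one_iff_mul_comm] at h1
    have e2 : x * (x * y) ^ 2 * x⁻¹ = ((x * y) ^ 2)⁻¹ := by
      rw [← conj_pow, Invol.conj_mul_self hx2 hy2, inv_pow]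
    rw [← h1, mul_inv_cancel_right] at e2
    rw [show 4 = 2 + 2 by norm_num, pow_add]
    exact mul_eq_one_iff_eq_inv.mpr e2
  have hdvd := orderOf_dvd_of_pow_eq_one h4
  have hle := Nat.le_of_dvd (by norm_num) hdvd
  rw [hj] at hdvd hgt hle ⊢
  have : j ≤ 2 := (Nat.pow_le_pow_iff_right (show 1 < 2 by norm_num)).mp (hle.trans_eq (by norm_num))
  interval_cases j <;> norm_num at *

end Cfsg.Agent.S1176
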