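import Cfsg.Statements.S1177

import Mathlib.GroupTheory.Nilpotent
import Mathlib.GroupTheory.PGroup

set_option autoImplicit false
open Cfsg

namespace Cfsg.Agent.S1177


/-- Let A be a nontrivial elementary abelian 2-subgroup of a finite group G which is a T.I. set (each conjugate of A meets A trivially or equals A) and which does not commute elementwise with any conjugate of A other than A itself. Then for every a ∈ A, a ≠ 1, every conjugate of A contained in C_G(a) is equal to A (A is weakly closed in C_G(a)). -/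
theorem result {G : Type*} [Group G] [Finite G] (A : Subgroup G) (hA : Cfsg.IsElementaryAbelian 2 A) (hA1 : A ≠ ⊥) (hTI : ∀ g : G, A.map (MulAut.conj g).toMonoidHom ⊓ A = ⊥ ∨ A.map (MulAut.conj g).toMonoidHom = A) (hb : ∀ g : G, (∀ a ∈ A, ∀ b ∈ A.map (MulAut.conj g).toMonoidHom, a * b = b * a) → A.map (MulAut.conj g).toMonoidHom = A) (a : G) (ha : a ∈ A) (ha1 : a ≠ 1) (g : G) (hg : A.map (MulAut.conj g).toMonoidHom ≤ Subgroup.centralizer ({a} : Set G)) : A.map (MulAut.conj g).toMonoidHom = A := by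
  set B := A.map (MulAut.conj g).toMonoidHom with hB
  by_contra hne
  have hmap : ∀ (u v : G) (H : Subgroup G), (H.map (MulAut.conj v).toMonoidHom).map
      (MulAut.conj u).toMonoidHom = H.map (MulAut.conj (u * v)).toMonoidHom := by
    intro u v H; rw [Subgroup.map_map]; congr 1; ext t; simp [mul_assoc]
  have hmap1 : ∀ H : Subgroup G, H.map (MulAut.conj (1 : G)).toMonoidHom = H := by
    intro H; ext t; simp [Subgroup.mem_map]
  have hBN : B ≤ Subgroup.normalizer (A : Set G) := by
    intro b hb'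
    refine Subgroup.mem_normalizer_iff_map_conj_eq.mpr ((hTI b).resolve_left fun hbot => ha1 ?_)
    have h1 : b * a * b⁻¹ = a := by
      rw [Subgroup.mem_centralizer_singleton_iff.mp (hg hb'), mul_inv_cancel_right]
    have h2 : a ∈ A.map (MulAut.conj b).toMonoidHom ⊓ A := ⟨⟨a, ha, h1⟩, ha⟩
    rw [hbot] at h2
    exact Subgroup.mem_bot.mp h2
  obtain ⟨hAc, hApow⟩ := hA
  have hA2 : IsPGroup 2 A := fun u => ⟨1, Subtype.ext (by simpa using hApow u.1 u.2)⟩
  have hB2 : IsPGroup 2 B := hA2.map _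
  have hT : IsPGroup 2 ↥(B ⊔ A) := IsPGroup.to_sup_of_normal_right' hB2 hA2 hBN
  set T := B ⊔ A
  have hkey : ∀ u ∈ T, u ∈ Subgroup.normalizer (B : Set G) := by
    have : Fact (Nat.Prime 2) := ⟨Nat.prime_two⟩
    have := hT.isNilpotent
    set N := (Subgroup.normalizer (B : Set G)).subgroupOf T with hN
    suffices htop : N = ⊤ by
      intro u hu
      have : (⟨u, hu⟩ : T) ∈ N := htop ▸ Subgroup.mem_top _
      exact this
    by_contra hNt
    obtain ⟨t, htN, htnot⟩ := SetLike.exists_of_lt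
      (Group.normalizerCondition_of_isNilpotent (G := T) N (lt_top_iff_ne_top.mpr hNt))
    apply htnot
    set C := B.map (MulAut.conj (t : G)).toMonoidHom with hC
    refine Subgroup.mem_normalizer_iff_map_conj_eq.mpr ?_
    -- `B` and `C` normalize each other
    have hBT : ∀ b ∈ B, b ∈ T := fun b hb' => Subgroup.mem_sup_left hb'
    have hCB : ∀ c ∈ C, c ∈ Subgroup.normalizer (B : Set G) := by
      rintro _ ⟨b, hb', rfl⟩
      exact (Subgroup.mem_normalizer_iff.mp htN ⟨b, hBT b hb'⟩).mp (Subgroup.le_normalizer hb')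
    have hBC : ∀ b ∈ B, b ∈ Subgroup.normalizer (C : Set G) := by
      intro b hb'
      have h1 : (t⁻¹ * ⟨b, hBT b hb'⟩ * t : T) ∈ N :=
        (Subgroup.mem_normalizer_iff''.mp htN ⟨b, hBT b hb'⟩).mp (Subgroup.le_normalizer hb')
      have h2 : B.map (MulAut.conj ((t : G)⁻¹ * b * t)).toMonoidHom = B :=
        Subgroup.mem_normalizer_iff_map_conj_eq.mp h1
      refine Subgroup.mem_normalizer_iff_map_conj_eq.mpr ?_
      show C.map (MulAut.conj b).toMonoidHom = C
      rw [hC, hmap]
      conv_rhs => rw [← h2, hmap]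
      congr 3
      group
    by_contra hne'
    have hconj : A.map (MulAut.conj (g⁻¹ * t * g)).toMonoidHom =
        C.map (MulAut.conj g⁻¹).toMonoidHom := by rw [hC, hB, hmap, hmap]
    have hdisj : C ⊓ B = ⊥ := by
      rcases hTI (g⁻¹ * t * g) with h1 | h1
      · have := congrArg (Subgroup.map (MulAut.conj g).toMonoidHom) h1
        rw [Subgroup.map_inf _ _ _ (MulAut.conj g).injective, Subgroup.map_bot, hconj, hmap,
          mul_inv_cancel, hmap1, ← hB] at this
        simpa using this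
      · refine absurd ?_ hne'
        have := congrArg (Subgroup.map (MulAut.conj g).toMonoidHom) h1
        rw [hconj, hmap, mul_inv_cancel, hmap1, ← hB] at this
        exact this
    have hcomm : ∀ b ∈ B, ∀ c ∈ C, b * c = c * b := by
      intro b hb' c hc
      have h1 : b * c * b⁻¹ * c⁻¹ ∈ C ⊓ B := ⟨mul_mem
        ((Subgroup.mem_normalizer_iff.mp (hBC b hb') c).mp hc) (Subgroup.inv_mem _ hc), by
        rw [show b * c * b⁻¹ * c⁻¹ = b * (c * b⁻¹ * c⁻¹) by group]
        exact mul_mem hb' ((Subgroup.mem_normalizer_iff.mp (hCB c hc) _).mp (Subgroup.inv_mem _ hb'))⟩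
      rw [hdisj, Subgroup.mem_bot, mul_inv_eq_one, mul_inv_eq_iff_eq_mul] at h1
      exact h1
    refine hne' ?_
    have h5 : A.map (MulAut.conj (g⁻¹ * t * g)).toMonoidHom = A := by
      refine hb _ fun u hu v hv => ?_
      rw [hconj] at hv
      obtain ⟨c, hc, rfl⟩ := hv
      have h6 := congrArg (fun w => g⁻¹ * w * g) (hcomm (g * u * g⁻¹) ⟨u, hu, rfl⟩ c hc)
      simpa [mul_assoc] using h6
    have h7 := congrArg (Subgroup.map (MulAut.conj g).toMonoidHom) h5
    rw [hconj, hmap, mul_inv_cancel, hmap1, ← hB] at h7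
    exact h7
  refine hne (hb g fun u hu v hv => ?_)
  have hbot : B ⊓ A = ⊥ := (hTI g).resolve_right hne
  have h1 : u * v * u⁻¹ * v⁻¹ ∈ B ⊓ A := ⟨mul_mem
    ((Subgroup.mem_normalizer_iff.mp (hkey u (Subgroup.mem_sup_right hu)) v).mp hv) (Subgroup.inv_mem _ hv), by
    rw [show u * v * u⁻¹ * v⁻¹ = u * (v * u⁻¹ * v⁻¹) by group]
    exact mul_mem hu ((Subgroup.mem_normalizer_iff.mp (hBN hv) _).mp (Subgroup.inv_mem _ hu))⟩
  rw [hbot, Subgroup.mem_bot, mul_inv_eq_one, mul_inv_eq_iff_eq_mul] at h1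
  exact h1

end Cfsg.Agent.S1177
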