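import Cfsg.Statements.S1178

import Cfsg.Agent.Fusion.WeakClosure

set_option autoImplicit false
open Cfsg

namespace Cfsg.Agent.S1178

open Cfsg.Agent

/-- Let A be a subgroup of a Sylow 2-subgroup S of the finite group G which is weakly closed in S. If a conjugate g A g⁻¹ commutes elementwise with A, then g A g⁻¹ = A. -/
theorem result {G : Type*} [Group G] [Finite G] (S : Sylow 2 G) (A : Subgroup G) (hW : Cfsg.IsWeaklyClosed A (S : Subgroup G)) (g : G) (hc : ∀ a ∈ A, ∀ b ∈ A.map (MulAut.conj g).toMonoidHom, a * b = b * a) : A.map (MulAut.conj g).toMonoidHom = A := by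
  have : Fact (Nat.Prime 2) := ⟨Nat.prime_two⟩
  set B := A.map (MulAut.conj g).toMonoidHom
  have hA2 : IsPGroup 2 A := S.2.to_le hW.1
  have hB2 : IsPGroup 2 B := hA2.map _
  have hBN : B ≤ Subgroup.normalizer (A : Set G) := fun b hb =>
    Subgroup.centralizer_le_normalizer _ (Subgroup.mem_centralizer_iff.mpr fun a ha => hc a ha b hb)
  obtain ⟨R, hR⟩ := (IsPGroup.to_sup_of_normal_right' hB2 hA2 hBN).exists_le_sylow
  exact (Fusion.wc_sylow hW R (le_sup_right.trans hR)).2 g (le_sup_left.trans hR)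

end Cfsg.Agent.S1178
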