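import Cfsg.Statements.S1182

import Cfsg.Agent.TwoFusion.Isolated

set_option autoImplicit false
open Cfsg

namespace Cfsg.Agent.S1182

open Cfsg.Agent.TwoFusion

/-- Let z be an isolated involution of the finite group G and H a subgroup normalized by z. If x, y ∈ H both commute with z and y = h x h⁻¹ for some h ∈ H, then y = c x c⁻¹ for some c ∈ H commuting with z. -/
theorem result {G : Type*} [Group G] [Finite G] (z : G) (hz : Cfsg.IsIsolatedInvolution z) (H : Subgroup G) (hzH : z ∈ Subgroup.normalizer (H : Set G)) (x y : G) (hx : x ∈ H) (hy : y ∈ H) (hxz : Commute x z) (hyz : Commute y z) (h : G) (hh : h ∈ H) (hconj : h * x * h⁻¹ = y) : ∃ c ∈ H, Commute c z ∧ c * x * c⁻¹ = y := by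
  obtain ⟨hodd, hinv, hc⟩ := invRep_spec hz h
  set k := invRep z h with hk
  have hkH : k ∈ H := by
    refine invRep_mem ?_
    rw [mul_assoc, mul_assoc]
    refine mul_mem hh ?_
    have h1 := (Subgroup.mem_normalizer_iff.mp hzH h⁻¹).mp (inv_mem hh)
    rwa [isolated_inv hz, mul_assoc] at h1
  rw [Subgroup.mem_centralizer_singleton_iff] at hc
  have hcc : Commute (k⁻¹ * h) z := by
    have := (show Commute (h⁻¹ * k) z from hc).inv_left
    rwa [mul_inv_rev, inv_inv] at this
  refine ⟨k⁻¹ * h, mul_mem (inv_mem hkH) hh, hcc, ?_⟩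
  set x' := k⁻¹ * h * x * (k⁻¹ * h)⁻¹ with hx'
  have hy' : k * x' * k⁻¹ = y := by rw [hx', ← hconj]; group
  have hx'z : Commute x' z := (hcc.mul_left hxz).mul_left hcc.inv_left
  have hy'' : k⁻¹ * x' * k = y := by
    have h2 : z * y * z⁻¹ = y := by rw [← hyz.eq, mul_inv_cancel_right]
    have h3 : z * x' * z⁻¹ = x' := by rw [← hx'z.eq, mul_inv_cancel_right]
    calc k⁻¹ * x' * k = (z * k * z⁻¹) * (z * x' * z⁻¹) * (z * k * z⁻¹)⁻¹ := by
          rw [hinv, h3, inv_inv]
      _ = z * (k * x' * k⁻¹) * z⁻¹ := by group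
      _ = y := by rw [hy', h2]
  have hc2 : Commute x' (k * k) := by
    show x' * (k * k) = k * k * x'
    calc x' * (k * k) = k * (k⁻¹ * x' * k) * k := by group
      _ = k * (k * x' * k⁻¹) * k := by rw [hy'', hy']
      _ = k * k * x' := by group
  rw [← hy', ← (commute_of_commute_sq hodd hc2).eq, mul_inv_cancel_right]

end Cfsg.Agent.S1182
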