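import Cfsg.Statements.S1183

import Cfsg.Agent.TwoFusion.Isolated
import Cfsg.Agent.Transfer.Fusion

set_option autoImplicit false
open Cfsg

namespace Cfsg.Agent.S1183

open Cfsg.Agent Cfsg.Agent.TwoFusion

/-- Let z be an isolated involution of the finite group G and C = C_G(z). Then the subgroup of G generated by its elements of odd order is all of G if and only if the subgroup of C generated by its elements of odd order is all of C. -/
theorem result {G : Type*} [Group G] [Finite G] (z : G) (hz : Cfsg.IsIsolatedInvolution z) : Cfsg.pResidual 2 G = ⊤ ↔ Cfsg.pResidual 2 ↥(Subgroup.centralizer ({z} : Set G)) = ⊤ := by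
  have : Fact (Nat.Prime 2) := ⟨Nat.prime_two⟩
  set C := Subgroup.centralizer ({z} : Set G) with hC
  obtain ⟨P, hzP⟩ : ∃ P : Sylow 2 G, z ∈ (P : Subgroup G) := by
    obtain ⟨P, hP, -⟩ := Invol.exists_sylow_of_commute hz.1 hz.1 (Commute.refl z)
    exact ⟨P, hP⟩
  have hPC : (P : Subgroup G) ≤ C := fun u hu =>
    Subgroup.mem_centralizer_singleton_iff.mpr (commute_of_mem_two_group hz P.2 hzP hu).eq
  have hctrl : Transfer.ControlsFusion C (P : Subgroup G) := by
    intro x hx g hg
    set y := g * x * g⁻¹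
    obtain ⟨hodd, hinv, hc⟩ := invRep_spec hz g
    set k := invRep z g
    rw [Subgroup.mem_centralizer_singleton_iff] at hc
    have hcc : Commute (k⁻¹ * g) z := by
      have := (show Commute (g⁻¹ * k) z from hc).inv_left
      rwa [mul_inv_rev, inv_inv] at this
    refine ⟨k⁻¹ * g, Subgroup.mem_centralizer_singleton_iff.mpr hcc.eq, ?_⟩
    have hxz : Commute x z := commute_of_mem_two_group hz P.2 hzP hx
    have hyz : Commute y z := commute_of_mem_two_group hz P.2 hzP hg
    set x' := k⁻¹ * g * x * (k⁻¹ * g)⁻¹ with hx'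
    have hy' : k * x' * k⁻¹ = y := by rw [hx']; simp only [y]; group
    have hx'z : Commute x' z := (hcc.mul_left hxz).mul_left hcc.inv_left
    have hy'' : k⁻¹ * x' * k = y := by
      have h2 : z * y * z⁻¹ = y := by rw [← hyz.eq, mul_inv_cancel_right]
      have h3 : z * x' * z⁻¹ = x' := by rw [← hx'z.eq, mul_inv_cancel_right]
      calc k⁻¹ * x' * k = (z * k * z⁻¹) * (z * x' * z⁻¹) * (z * k * z⁻¹)⁻¹ := by
            rw [hinv, h3, inv_inv]
        _ = z * (k * x' * k⁻¹) * z⁻¹ := by group
        _ = y := by rw [hy', h2]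
    have hc2 : Commute x' (k * k) := by
      show x' * (k * k) = k * k * x'
      calc x' * (k * k) = k * (k⁻¹ * x' * k) * k := by group
        _ = k * (k * x' * k⁻¹) * k := by rw [hy'', hy']
        _ = k * k * x' := by group
    rw [← hy', ← (commute_of_commute_sq hodd hc2).eq, mul_inv_cancel_right]
  have hkey := hctrl.inf_pResidual_eq P hPC
  have hPsub : (P : Subgroup G) ≤ Cfsg.pResidual 2 G ↔
      (P : Subgroup G) ≤ (Cfsg.pResidual 2 C).map C.subtype :=
    ⟨fun h u hu => ((hkey ▸ ⟨hu, h hu⟩ : u ∈ (P : Subgroup G) ⊓ (Cfsg.pResidual 2 C).map C.subtype)).2,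
      fun h u hu => ((hkey.symm ▸ ⟨hu, h hu⟩ : u ∈ (P : Subgroup G) ⊓ Cfsg.pResidual 2 G)).2⟩
  constructor
  · intro hG
    let Q : Sylow 2 C := P.subtype hPC
    have hQ : (Q : Subgroup C) ≤ Cfsg.pResidual 2 C := by
      intro u hu
      have hu' : (u : G) ∈ (P : Subgroup G) := by
        have h0 : u ∈ (P : Subgroup G).subgroupOf C := by
          rw [← Sylow.coe_subtype P]; exact hu
        exact h0
      obtain ⟨v, hv, hvu⟩ := hPsub.mp (hG ▸ le_top) hu'
      rwa [← Subtype.ext (hvu : (v : G) = u)]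
    exact (sup_eq_left.mpr hQ) ▸ Transfer.pResidual_sup_sylow Q
  · intro hCt
    have hP : (P : Subgroup G) ≤ Cfsg.pResidual 2 G := hPsub.mpr (fun u hu =>
      ⟨⟨u, hPC hu⟩, by rw [hCt]; exact Subgroup.mem_top _, rfl⟩)
    exact (sup_eq_left.mpr hP) ▸ Transfer.pResidual_sup_sylow P

end Cfsg.Agent.S1183
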