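import Cfsg.Statements.S1184

import Cfsg.Agent.TwoFusion.Isolated

set_option autoImplicit false
open Cfsg

namespace Cfsg.Agent.S1184

open Cfsg.Agent.TwoFusion

/-- Let z be an isolated involution of the finite group G. If s and t are distinct conjugates of z, then st does not commute with z. -/
theorem result {G : Type*} [Group G] [Finite G] (z : G) (hz : Cfsg.IsIsolatedInvolution z) (g h : G) (hne : g * z * g⁻¹ ≠ h * z * h⁻¹) : ¬ Commute (g * z * g⁻¹ * (h * z * h⁻¹)) z := by
  intro hc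
  have hu : IsConj z (g * z * g⁻¹) := isConj_iff.mpr ⟨g, rfl⟩
  have hv : IsConj z (h * z * h⁻¹) := isConj_iff.mpr ⟨h, rfl⟩
  set u := g * z * g⁻¹ with hu'
  set v := h * z * h⁻¹ with hv'
  have hu2 : u⁻¹ = u := by rw [hu', mul_inv_rev, mul_inv_rev, inv_inv, isolated_inv hz, mul_assoc]
  have hv2 : v⁻¹ = v := by rw [hv', mul_inv_rev, mul_inv_rev, inv_inv, isolated_inv hz, mul_assoc]
  have h1 : u * v = 1 := eq_one_of_inverts_of_commute hz (odd_mul_of_isConj hz hu hv) hu
    (by rw [← mul_assoc, show u * u = 1 by rw [← mul_inv_cancel u, hu2], one_mul, hu2,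
      mul_inv_rev u v, hv2, hu2]) hc
  exact hne (by rw [mul_eq_one_iff_eq_inv.mp h1, hv2])

end Cfsg.Agent.S1184
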