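import Cfsg.Statements.S1185

import Cfsg.Agent.TwoFusion.Isolated

set_option autoImplicit false
open Cfsg

namespace Cfsg.Agent.S1185

open Cfsg.Agent.TwoFusion

/-- Let z be an isolated involution of the finite group G with centralizer C. Then for every g ∈ G there is exactly one element k in the coset gC that has odd order and is inverted by z. -/
theorem result {G : Type*} [Group G] [Finite G] (z : G) (hz : Cfsg.IsIsolatedInvolution z) (g : G) : ∃! k : G, (Odd (orderOf k) ∧ z * k * z⁻¹ = k⁻¹) ∧ g⁻¹ * k ∈ Subgroup.centralizer ({z} : Set G) := by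
  obtain ⟨h1, h2, h3⟩ := invRep_spec hz g
  exact ⟨invRep z g, ⟨⟨h1, h2⟩, h3⟩, fun k hk => invRep_unique hz hk.1.1 hk.1.2 hk.2⟩

end Cfsg.Agent.S1185
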