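import Cfsg.Statements.S1186

import Cfsg.Agent.TwoFusion.Isolated

set_option autoImplicit false
open Cfsg

namespace Cfsg.Agent.S1186

open Cfsg.Agent.TwoFusion

/-- Let z be an isolated involution of the finite group G, C = C_G(z), K the set of elements of odd order inverted by z, and s an involution of C. Then |G| = |C| · |C_K(sz)| · |C_K(s)|. -/
theorem result {G : Type*} [Group G] [Finite G] (z : G) (hz : Cfsg.IsIsolatedInvolution z) (s : G) (hs : orderOf s = 2) (hsz : Commute s z) : Nat.card G = Nat.card (Subgroup.centralizer ({z} : Set G)) * Nat.card {k : G // Odd (orderOf k) ∧ z * k * z⁻¹ = k⁻¹ ∧ Commute k (s * z)} * Nat.card {k : G // Odd (orderOf k) ∧ z * k * z⁻¹ = k⁻¹ ∧ Commute k s} := by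
  set C := Subgroup.centralizer ({z} : Set G)
  have hss : s * s = 1 := Invol.inv_mul_self hs
  have hsi : s⁻¹ = s := Invol.inv_eq hs
  have hti : (s * z)⁻¹ = z * s := by rw [mul_inv_rev, hsi, isolated_inv hz]
  have hzz : z * z = 1 := isolated_mul_self hz
  have hzi : z⁻¹ = z := isolated_inv hz
  let K := {k : G // Odd (orderOf k) ∧ z * k * z⁻¹ = k⁻¹}
  have hidx : Nat.card K = C.index := by
    refine Nat.card_congr (Equiv.ofBijective (fun k : K => (QuotientGroup.mk k.1 : G ⧸ C)) ⟨?_, ?_⟩)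
    · intro k l hkl
      have h1 : k.1⁻¹ * l.1 ∈ C := QuotientGroup.eq.mp hkl
      have := invRep_unique hz l.2.1 l.2.2 h1
      exact Subtype.ext ((invRep_unique hz k.2.1 k.2.2 (by simp)).trans this.symm)
    · intro q
      obtain ⟨g, rfl⟩ := QuotientGroup.mk_surjective q
      obtain ⟨a1, a2, a3⟩ := invRep_spec hz g
      exact ⟨⟨invRep z g, a1, a2⟩, (QuotientGroup.eq.mpr a3).symm⟩
  -- the inverse maps
  let R : G → G := fun k => oddSqrt (s * k * s * k⁻¹)
  let A : G → G := fun k => oddSqrt (R k * k)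
  have hconjz : ∀ {c : G}, z * c * z⁻¹ = c⁻¹ → z * c⁻¹ * z⁻¹ = c := fun {c} hc => by
    rw [← conj_inv, hc, inv_inv]
  have hb : ∀ {b : G}, z * b * z⁻¹ = b⁻¹ → Commute b (s * z) → s * b * s = b⁻¹ := fun {b} hb hbt => by
    have e : z * (s * z) = s := by rw [← mul_assoc, ← hsz.eq, mul_assoc, hzz, mul_one]
    calc s * b * s = (z * (s * z)) * b * (z * (s * z))⁻¹ := by rw [e, hsi]
      _ = z * ((s * z) * b * (s * z)⁻¹) * z⁻¹ := by group
      _ = b⁻¹ := by rw [← hbt.eq, mul_inv_cancel_right, hb]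
  have hR : ∀ a b : G, Odd (orderOf a) → Odd (orderOf b) → z * b * z⁻¹ = b⁻¹ → Commute a s →
      Commute b (s * z) → R (a * b * a) = a * b⁻¹ * a⁻¹ := fun a b ha hbo hbz has hbs => by
    refine (eq_oddSqrt ?_ ?_).symm
    · rw [Invol.orderOf_conj, orderOf_inv]; exact hbo
    · calc a * b⁻¹ * a⁻¹ * (a * b⁻¹ * a⁻¹) = a * b⁻¹ * a * (a⁻¹ * b⁻¹ * a⁻¹) := by group
        _ = a * (s * b * s) * a * (a * b * a)⁻¹ := by rw [hb hbz hbs]; group
        _ = (a * s) * b * (s * a) * (a * b * a)⁻¹ := by simp only [mul_assoc]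
        _ = (s * a) * b * (a * s) * (a * b * a)⁻¹ := by rw [has.eq]
        _ = s * (a * b * a) * s * (a * b * a)⁻¹ := by simp only [mul_assoc]
  have hA : ∀ a b : G, Odd (orderOf a) → Odd (orderOf b) → z * b * z⁻¹ = b⁻¹ → Commute a s →
      Commute b (s * z) → A (a * b * a) = a := fun a b ha hbo hbz has hbs => by
    refine (eq_oddSqrt ha ?_).symm
    show a * a = R (a * b * a) * (a * b * a)
    rw [hR a b ha hbo hbz has hbs]; group
  let F : {k : G // Odd (orderOf k) ∧ z * k * z⁻¹ = k⁻¹ ∧ Commute k s} ×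
      {k : G // Odd (orderOf k) ∧ z * k * z⁻¹ = k⁻¹ ∧ Commute k (s * z)} → K := fun p =>
    ⟨p.1.1 * p.2.1 * p.1.1, by
      refine odd_of_isConj_mul hz ((isConj_mul_of_inverts hz p.2.2.1 p.2.2.2.1).trans
        (isConj_iff.mpr ⟨p.1.1, ?_⟩))
      have e := hconjz p.1.2.2.1
      calc p.1.1 * (p.2.1 * z) * p.1.1⁻¹ = p.1.1 * p.2.1 * (z * p.1.1⁻¹ * z⁻¹) * z := by group
        _ = p.1.1 * p.2.1 * p.1.1 * z := by rw [e]⟩
  have hF : Function.Bijective F := by
    refine ⟨fun p q hpq => ?_, fun k => ?_⟩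
    · have h0 : p.1.1 * p.2.1 * p.1.1 = q.1.1 * q.2.1 * q.1.1 := congrArg Subtype.val hpq
      have h1 := hA p.1.1 p.2.1 p.1.2.1 p.2.2.1 p.2.2.2.1 p.1.2.2.2 p.2.2.2.2
      rw [h0, hA q.1.1 q.2.1 q.1.2.1 q.2.2.1 q.2.2.2.1 q.1.2.2.2 q.2.2.2.2] at h1
      have h2 : p.2.1 = q.2.1 := by rw [h1] at h0; exact mul_left_cancel (mul_right_cancel h0)
      exact Prod.ext (Subtype.ext h1.symm) (Subtype.ext h2)
    · obtain ⟨k, hk, hkinv⟩ := k
      have hu : IsConj z (k * z) := isConj_mul_of_inverts hz hk hkinv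
      have hu' : IsConj z (s * (k * z) * s⁻¹) := hu.trans (isConj_iff.mpr ⟨s, rfl⟩)
      set m := s * k * s * k⁻¹ with hm
      have hmu : s * (k * z) * s⁻¹ * (k * z) = m := by
        rw [hsi]
        calc s * (k * z) * s * (k * z) = s * k * (z * s) * (k * z) := by group
          _ = s * k * s * (z * k * z) := by rw [← hsz.eq]; group
          _ = m := by rw [hm]; nth_rewrite 2 [← hzi]; rw [hkinv]
      have hmodd : Odd (orderOf m) := hmu ▸ odd_mul_of_isConj hz hu' hu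
      set r := R k
      have hr2 : r * r = m := oddSqrt_sq hmodd
      have hrodd : Odd (orderOf r) := odd_oddSqrt hmodd
      have hu2 : (k * z)⁻¹ = k * z := Invol.inv_eq ((Invol.orderOf_eq_of_isConj hu).symm.trans hz.1)
      have hu2' : (s * (k * z) * s⁻¹)⁻¹ = s * (k * z) * s⁻¹ :=
        Invol.inv_eq ((Invol.orderOf_eq_of_isConj hu').symm.trans hz.1)
      have hur : (k * z) * r * (k * z)⁻¹ = r⁻¹ := by
        show (k * z) * oddSqrt m * (k * z)⁻¹ = (oddSqrt m)⁻¹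
        rw [conj_oddSqrt, ← oddSqrt_inv]
        congr 1
        rw [← hmu]
        calc (k * z) * (s * (k * z) * s⁻¹ * (k * z)) * (k * z)⁻¹
            = (k * z) * (s * (k * z) * s⁻¹) := by group
          _ = (k * z)⁻¹ * (s * (k * z) * s⁻¹)⁻¹ := by rw [hu2, hu2']
          _ = _ := (mul_inv_rev _ _).symm
      have hsr : s * r * s⁻¹ = r⁻¹ := by
        show s * oddSqrt m * s⁻¹ = (oddSqrt m)⁻¹
        rw [conj_oddSqrt, ← oddSqrt_inv]
        congr 1
        rw [hm, hsi]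
        calc s * (s * k * s * k⁻¹) * s = (s * s) * k * s * k⁻¹ * s := by group
          _ = (s * k * s * k⁻¹)⁻¹ := by rw [hss, one_mul, mul_inv_rev, mul_inv_rev, mul_inv_rev, inv_inv, hsi]; group
      -- `w = r k` is inverted by `z` and centralized by `s`
      have hw : IsConj z (r * k * z) := by
        refine hu.trans (isConj_iff.mpr ⟨oddSqrt r, ?_⟩)
        have e : (k * z) * (oddSqrt r)⁻¹ * (k * z)⁻¹ = oddSqrt r := by
          rw [← oddSqrt_inv, conj_oddSqrt]; congr 1; rw [← conj_inv, hur, inv_inv]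
        calc oddSqrt r * (k * z) * (oddSqrt r)⁻¹
            = oddSqrt r * ((k * z) * (oddSqrt r)⁻¹ * (k * z)⁻¹) * (k * z) := by group
          _ = r * k * z := by rw [e, oddSqrt_sq hrodd, mul_assoc r]
      obtain ⟨hwodd, hwinv⟩ := odd_of_isConj_mul hz hw
      have hsk : s * k * s⁻¹ = r * r * k := by rw [hr2, hm, hsi, inv_mul_cancel_right]
      have hws : Commute (r * k) s := by
        have : s * (r * k) * s⁻¹ = r * k := by
          rw [show s * (r * k) * s⁻¹ = (s * r * s⁻¹) * (s * k * s⁻¹) by group, hsr, hsk]; group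
        exact (mul_inv_eq_iff_eq_mul.mp this).symm
      set a := A k
      have ha2 : a * a = r * k := oddSqrt_sq hwodd
      have hainv : z * a * z⁻¹ = a⁻¹ := by
        show z * oddSqrt (r * k) * z⁻¹ = (oddSqrt (r * k))⁻¹
        rw [conj_oddSqrt, hwinv, oddSqrt_inv]
      have has : Commute a s := (commute_oddSqrt hws.symm).symm
      have hbconj : IsConj z (a⁻¹ * k * a⁻¹ * z) := by
        refine hu.trans (isConj_iff.mpr ⟨a⁻¹, ?_⟩)
        calc a⁻¹ * (k * z) * a⁻¹⁻¹ = a⁻¹ * k * (z * a * z⁻¹) * z := by group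
          _ = a⁻¹ * k * a⁻¹ * z := by rw [hainv]
      obtain ⟨hbodd, hbinv⟩ := odd_of_isConj_mul hz hbconj
      have hbt : Commute (a⁻¹ * k * a⁻¹) (s * z) := by
        have e1 : s * a⁻¹ * s⁻¹ = a⁻¹ := by rw [← has.inv_left.eq, mul_inv_cancel_right]
        have h2 : s * (a⁻¹ * k * a⁻¹) * s⁻¹ = (a⁻¹ * k * a⁻¹)⁻¹ := by
          calc s * (a⁻¹ * k * a⁻¹) * s⁻¹
              = (s * a⁻¹ * s⁻¹) * (s * k * s⁻¹) * (s * a⁻¹ * s⁻¹) := by group
            _ = a⁻¹ * (r * r * k) * a⁻¹ := by rw [e1, hsk]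
            _ = a * (a * a)⁻¹ * r * (r * k) * a⁻¹ := by group
            _ = a * k⁻¹ * (r⁻¹ * r) * (a * a) * a⁻¹ := by rw [ha2]; group
            _ = (a⁻¹ * k * a⁻¹)⁻¹ := by group
        have h3 : (s * z) * (a⁻¹ * k * a⁻¹) * (s * z)⁻¹ = a⁻¹ * k * a⁻¹ := by
          calc (s * z) * (a⁻¹ * k * a⁻¹) * (s * z)⁻¹
              = s * (z * (a⁻¹ * k * a⁻¹) * z⁻¹) * s⁻¹ := by group
            _ = _ := by rw [hbinv, ← conj_inv, h2, inv_inv]
        exact (mul_inv_eq_iff_eq_mul.mp h3).symm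
      exact ⟨(⟨a, odd_oddSqrt hwodd, hainv, has⟩, ⟨_, hbodd, hbinv, hbt⟩), Subtype.ext (by
        show a * (a⁻¹ * k * a⁻¹) * a = k
        group)⟩
  rw [← C.card_mul_index, ← hidx, ← Nat.card_eq_of_bijective F hF, Nat.card_prod, mul_assoc]
  congr 1
  exact mul_comm _ _

end Cfsg.Agent.S1186
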