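import Cfsg.Statements.S1188
import Cfsg.Agent.TwoFusion.ZStarHolds
import Cfsg.Agent.Cores.Pi

set_option autoImplicit false
open Cfsg

namespace Cfsg.Agent.S1188

/-- The soluble Z*-Theorem: let z be an isolated involution of the finite group G whose centralizer C_G(z) is solvable. Then z is central modulo O(G): every commutator z g z⁻¹ g⁻¹ lies in the largest normal subgroup of odd order. -/
theorem result {G : Type*} [Group G] [Finite G] (z : G) (hz : Cfsg.IsIsolatedInvolution z) (hsol : Group.IsSolvable ↥(Subgroup.centralizer ({z} : Set G))) : ∀ g : G, z * g * z⁻¹ * g⁻¹ ∈ Cfsg.oddCore G := by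
  intro g
  obtain ⟨N, hN, hNodd, hcom⟩ := TwoFusion.exists_odd_normal_of_isolated hz
  exact Cores.le_oddCore hN hNodd (hcom g)

end Cfsg.Agent.S1188
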