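import Cfsg.Statements.S1228
import Cfsg.Agent.TwoFusion.BSW

set_option autoImplicit false
open Cfsg

namespace Cfsg.Agent.S1228

/-- Let G be a finite group with a Sylow 2-subgroup T that is neither cyclic nor normal, such that the centralizer of every involution is an elementary abelian 2-group; put H = N_G(T), let u be an involution outside H and D = H ∩ uHu⁻¹. Then N_G(D) = D ⊔ ⟨u⟩, and a coset gH is fixed by every element of D exactly when gH = H or gH = uH. -/
theorem result {G : Type*} [Group G] [Finite G] (T : Sylow 2 G) (hnc : ¬ IsCyclic (T : Subgroup G)) (hnn : ¬ (T : Subgroup G).Normal) (hC : ∀ t : G, orderOf t = 2 → IsMulCommutative (Subgroup.centralizer ({t} : Set G)) ∧ ∀ c ∈ Subgroup.centralizer ({t} : Set G), c ^ 2 = 1) (u : G) (hu : orderOf u = 2) (huH : u ∉ Subgroup.normalizer ((T : Subgroup G) : Set G)) : Subgroup.normalizer ((Subgroup.normalizer ((T : Subgroup G) : Set G) ⊓ (Subgroup.normalizer ((T : Subgroup G) : Set G)).map (MulAut.conj u).toMonoidHom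 : Subgroup G) : Set G) = (Subgroup.normalizer ((T : Subgroup G) : Set G) ⊓ (Subgroup.normalizer ((T : Subgroup G) : Set G)).map (MulAut.conj u).toMonoidHom) ⊔ Subgroup.zpowers u ∧ ∀ g : G, ((∀ d ∈ Subgroup.normalizer ((T : Subgroup G) : Set G) ⊓ (Subgroup.normalizer ((T : Subgroup G) : Set G)).map (MulAut.conj u).toMonoidHom, d • (QuotientGroup.mk g : G ⧸ Subgroup.normalizer ((T : Subgroup G) : Set G)) = QuotientGroup.mk g) ↔ (QuotientGroup.mk g : G ⧸ Subgroup.normalizer ((T : Subgroup G) : Set G)) = QuotientGroup.mk 1 ∨ (QuotientGroup.mk g : G ⧸ Subgroup.normalizer ((T : Subgroup G) : Set G)) = QuotientGroup.mk u) := by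
  have h : TwoFusion.BSW.Hyp T := ⟨hnc, hnn, hC⟩
  refine ⟨TwoFusion.BSW.normalizer_dD h hu huH, fun g => ⟨fun hd => ?_, ?_⟩⟩
  · rcases TwoFusion.BSW.fixed_two h hu huH (b := g) (fun d hdD => TwoFusion.mem_map_conj_iff.2
      (TwoFusion.BSW.smul_mk_iff.1 (hd d hdD))) with h1 | h1
    · exact Or.inl (TwoFusion.BSW.mk_eq_one_iff'.2 h1)
    · exact Or.inr (QuotientGroup.eq.2 h1).symm
  · rintro (h1 | h1) d hd <;> rw [h1]
    · exact TwoFusion.BSW.mem_nT_iff_fix.1 hd.1
    · exact (TwoFusion.BSW.mem_dD_iff.1 hd).2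

end Cfsg.Agent.S1228
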