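import Cfsg.Statements.S1231
import Cfsg.Agent.TwoFusion.Basic
import Cfsg.Agent.PGroup.Basic
import Cfsg.Agent.Fusion.Basic

set_option autoImplicit false
open Cfsg

namespace Cfsg.Agent.S1231

/-- Let H be a subgroup of the finite group G, p a prime, k ≥ 1, and P a Sylow p-subgroup of H whose p-rank is at least k. Then N_G(X) ≤ H for every subgroup X of P of p-rank at least k if and only if H ∩ gHg⁻¹ has p-rank less than k for every g ∉ H. -/
theorem result {G : Type*} [Group G] [Finite G] {p : ℕ} [Fact p.Prime] (k : ℕ) (hk : 1 ≤ k) (H : Subgroup G) (P : Sylow p ↥H) (hP : ¬ Cfsg.PRankLE p (k - 1) ↥(P : Subgroup ↥H)) : (∀ X : Subgroup G, X ≤ (P : Subgroup ↥H).map H.subtype → ¬ Cfsg.PRankLE p (k - 1) ↥X → Subgroup.normalizer (X : Set G) ≤ H) ↔ (∀ g : G, g ∉ H → Cfsg.PRankLE p (k - 1) ↥(H ⊓ H.map (MulAut.conj g).toMonoidHom)) := by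
  classical
  set Pg : Subgroup G := (P : Subgroup ↥H).map H.subtype with hPg
  have mono : ∀ {A B : Subgroup G}, A ≤ B → Cfsg.PRankLE p (k - 1) ↥B → Cfsg.PRankLE p (k - 1) ↥A := by
    intro A B hAB hB E hE1 hE2
    have h := hB (E.map (Subgroup.inclusion hAB)) inferInstance (by
      rintro _ ⟨a, ha, rfl⟩; rw [← map_pow, hE2 a ha, map_one])
    rwa [Subgroup.card_map_of_injective (Subgroup.inclusion_injective hAB)] at h
  have conjinv : ∀ (A : Subgroup G) (g : G),
      Cfsg.PRankLE p (k - 1) ↥(A.map (MulAut.conj g).toMonoidHom) → Cfsg.PRankLE p (k - 1) ↥A := by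
    intro A g hB E hE1 hE2
    have h := hB (E.map (A.equivMapOfInjective _ (MulAut.conj g).injective).toMonoidHom) inferInstance (by
      rintro _ ⟨a, ha, rfl⟩; rw [← map_pow, hE2 a ha, map_one])
    rwa [Subgroup.card_map_of_injective (f := (A.equivMapOfInjective _ (MulAut.conj g).injective).toMonoidHom)
      (A.equivMapOfInjective _ (MulAut.conj g).injective).injective] at h
  have hPH : Pg ≤ H := Subgroup.map_subtype_le _
  have hPp : IsPGroup p Pg := P.isPGroup'.map _
  have hPrank : ¬ Cfsg.PRankLE p (k - 1) ↥Pg := by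
    intro h
    exact hP fun F hF1 hF2 => by
      have h' := h (F.map ((P : Subgroup ↥H).equivMapOfInjective _ H.subtype_injective).toMonoidHom) inferInstance
        (by rintro _ ⟨a, ha, rfl⟩; rw [← map_pow, hF2 a ha, map_one])
      rwa [Subgroup.card_map_of_injective
        (f := ((P : Subgroup ↥H).equivMapOfInjective _ H.subtype_injective).toMonoidHom)
        ((P : Subgroup ↥H).equivMapOfInjective _ H.subtype_injective).injective] at h'
  have into : ∀ R : Subgroup G, IsPGroup p R → R ≤ H →
      ∃ h ∈ H, ∀ x ∈ R, h * x * h⁻¹ ∈ Pg := by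
    intro R hR hRH
    obtain ⟨h, hh⟩ := TwoFusion.exists_conj_le_sylow P (hR.comap_subtype (K := H))
    exact ⟨h, h.2, fun x hx => ⟨h * ⟨x, hRH hx⟩ * h⁻¹, hh ⟨x, hRH hx⟩ hx, rfl⟩⟩
  constructor
  · intro hN
    have main : ∀ (m : ℕ) (D : Subgroup G) (g : G), Nat.card Pg - Nat.card D ≤ m → D ≤ Pg →
        ¬ Cfsg.PRankLE p (k - 1) ↥D → D.map (MulAut.conj g).toMonoidHom ≤ Pg → g ∈ H := by
      intro m
      induction m with
      | zero =>
        intro D g hm hD hr hgD
        have hDP : D = Pg := Subgroup.eq_of_le_of_card_ge hD (by omega)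
        subst hDP
        have hgP : Pg.map (MulAut.conj g).toMonoidHom = Pg :=
          Subgroup.eq_of_le_of_card_ge hgD (by rw [TwoFusion.card_map_conj])
        exact hN Pg le_rfl hr ((TwoFusion.map_conj_eq_self_iff_mem_normalizer _ _).1 hgP)
      | succ m ih =>
        intro D g hm hD hr hgD
        by_cases hDP : D = Pg
        · subst hDP
          have hgP : Pg.map (MulAut.conj g).toMonoidHom = Pg :=
            Subgroup.eq_of_le_of_card_ge hgD (by rw [TwoFusion.card_map_conj])
          exact hN Pg le_rfl hr ((TwoFusion.map_conj_eq_self_iff_mem_normalizer _ _).1 hgP)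
        · have hlt : D < Pg ⊓ Subgroup.normalizer (D : Set G) :=
            Cfsg.Agent.PGroup.lt_inf_normalizer hPp (lt_of_le_of_ne hD hDP)
          set N1 := Pg ⊓ Subgroup.normalizer (D : Set G) with hN1
          set E := D.map (MulAut.conj g).toMonoidHom with hE
          have hEr : ¬ Cfsg.PRankLE p (k - 1) ↥E := fun h => hr (conjinv D g h)
          have hR : N1.map (MulAut.conj g).toMonoidHom ≤ H := by
            refine le_trans ?_ (hN E hgD hEr)
            rintro _ ⟨x, hx, rfl⟩
            rw [← TwoFusion.map_conj_eq_self_iff_mem_normalizer, hE, TwoFusion.map_conj_map_conj]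
            show D.map (MulAut.conj (g * x * g⁻¹ * g)).toMonoidHom = _
            rw [inv_mul_cancel_right, ← TwoFusion.map_conj_map_conj,
              (TwoFusion.map_conj_eq_self_iff_mem_normalizer D x).2 hx.2]
          obtain ⟨h, hhH, hh⟩ := into _ ((hPp.to_le inf_le_left).map _) hR
          have hg' : h * g ∈ H := by
            refine ih N1 (h * g) ?_ inf_le_left (fun h' => hr (mono hlt.le h')) ?_
            · have := Cfsg.Agent.Fusion.card_lt_card hlt
              have := Subgroup.card_le_of_le (inf_le_left : N1 ≤ Pg)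
              omega
            · rw [← TwoFusion.map_conj_map_conj]
              rintro _ ⟨y, hy, rfl⟩
              exact hh y hy
          have := mul_mem (inv_mem hhH) hg'
          simpa using this
    intro g hg
    by_contra hr
    have hr' : ∃ A : Subgroup ↥(H ⊓ H.map (MulAut.conj g).toMonoidHom),
        IsMulCommutative A ∧ (∀ a ∈ A, a ^ p = 1) ∧ ¬ Nat.card A ≤ p ^ (k - 1) := by
      simpa [Cfsg.PRankLE] using hr
    obtain ⟨A, hA1, hA2, hA3⟩ := hr'
    haveI := hA1
    set A' := A.map (H ⊓ H.map (MulAut.conj g).toMonoidHom).subtype with hA'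
    have hA'H : A' ≤ H := (Subgroup.map_subtype_le _).trans inf_le_left
    have hA'p : IsPGroup p A' := by
      intro x
      obtain ⟨y, hy, hyx⟩ := x.2
      exact ⟨1, Subtype.ext (by rw [pow_one, Subgroup.coe_pow, ← hyx, ← map_pow, hA2 y hy]; rfl)⟩
    have hA'r : ¬ Cfsg.PRankLE p (k - 1) ↥A' := by
      intro h
      refine hA3 ?_
      have := h ⊤ inferInstance (fun x _ => Subtype.ext (by
        obtain ⟨y, hy, hyx⟩ := x.2
        rw [Subgroup.coe_pow, ← hyx, ← map_pow, hA2 y hy]; rfl))
      rwa [Subgroup.card_top, Subgroup.card_map_of_injective (Subgroup.subtype_injective _)] at this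
    set B := A'.map (MulAut.conj g⁻¹).toMonoidHom with hB
    have hBH : B ≤ H := by
      rintro _ ⟨x, hx, rfl⟩
      have := TwoFusion.mem_map_conj_iff.1 (Subgroup.map_subtype_le A hx).2
      simpa using this
    obtain ⟨h1, hh1H, hh1⟩ := into A' hA'p hA'H
    obtain ⟨h2, hh2H, hh2⟩ := into B (hA'p.map _) hBH
    set D := B.map (MulAut.conj h2).toMonoidHom with hD
    have hDP : D ≤ Pg := by rintro _ ⟨x, hx, rfl⟩; exact hh2 x hx
    have key := main _ D (h1 * g * h2⁻¹) le_rfl hDP (fun h => hA'r (conjinv _ _ (conjinv _ _ h))) (by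
      rw [hD, hB, TwoFusion.map_conj_map_conj, TwoFusion.map_conj_map_conj,
        show h1 * g * h2⁻¹ * h2 * g⁻¹ = h1 by group]
      rintro _ ⟨x, hx, rfl⟩
      exact hh1 x hx)
    refine hg ?_
    have := mul_mem (mul_mem (inv_mem hh1H) key) hh2H
    simpa [mul_assoc] using this
  · intro hI X hX hr g hgN
    by_contra hg
    refine hr (mono ?_ (hI g hg))
    refine le_inf (hX.trans hPH) ?_
    intro x hx
    rw [TwoFusion.mem_map_conj_iff]
    exact hPH (hX ((Subgroup.mem_normalizer_iff''.1 hgN x).1 hx))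

end Cfsg.Agent.S1231
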