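import Cfsg.Statements.S1234
import Cfsg.Agent.S1232
-- import your own Cfsg.Agent.* helpers here

set_option autoImplicit false
open Cfsg

namespace Cfsg.Agent.S1234

/-- Let S be a finite 2-group and Q ≤ S a subgroup of order 32 having an elementary abelian subgroup E of order 16 and an involution s ∉ E whose centralizer in E has order 4 (so Q ≅ (Z₂ × Z₂) ≀ Z₂). If C_S(Z(Q)) = Q, then every section of S has 2-rank at most 4. -/
theorem result {S : Type*} [Group S] [Finite S] (hS : IsPGroup 2 S) (Q E : Subgroup S) (hEQ : E ≤ Q) (hE : Cfsg.IsElementaryAbelian 2 E) (hE16 : Nat.card E = 16) (hQ32 : Nat.card Q = 32) (s : S) (hsQ : s ∈ Q) (hsE : s ∉ E) (hs : orderOf s = 2) (hfix : Nat.card ↥(E ⊓ Subgroup.centralizer ({s} : Set S)) = 4) (hC : Subgroup.centralizer (((Subgroup.center Q).map Q.subtype : Subgroup S) : Set S) = Q) : Cfsg.SectionalPRankLE 2 4 S := by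
  classical
  have hEc : ∀ x ∈ E, ∀ y ∈ E, x * y = y * x := fun x hx y hy =>
    congrArg Subtype.val (hE.1.is_comm.comm ⟨x, hx⟩ ⟨y, hy⟩)
  have hs2 : s * s = 1 := by rw [← sq, ← hs, pow_orderOf_eq_one]
  have hsinv : s⁻¹ = s := inv_eq_of_mul_eq_one_right hs2
  -- the two cosets of `E` in `Q`
  have hidx : (E.subgroupOf Q).index = 2 := by
    have := (E.subgroupOf Q).card_mul_index
    rw [Nat.card_congr (Subgroup.subgroupOfEquivOfLe hEQ).toEquiv, hE16, hQ32] at this
    omega
  have hcos : ∀ x ∈ Q, x ∈ E ∨ x * s ∈ E := by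
    intro x hx
    by_cases h : x ∈ E
    · exact Or.inl h
    · right
      have := (Subgroup.mul_mem_iff_of_index_two hidx (a := (⟨x, hx⟩ : Q)) (b := (⟨s, hsQ⟩ : Q))).2
        (by rw [Subgroup.mem_subgroupOf, Subgroup.mem_subgroupOf]; exact iff_of_false h hsE)
      exact this
  set A := Q ⊓ Subgroup.centralizer ({s} : Set S) with hA
  set Z := E ⊓ Subgroup.centralizer ({s} : Set S) with hZ
  have hsA : s ∈ A := ⟨hsQ, Subgroup.mem_centralizer_singleton_iff.2 rfl⟩
  have hZA : Z ≤ A := fun x hx => ⟨hEQ hx.1, hx.2⟩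
  have hdec : ∀ x ∈ A, x ∈ Z ∨ x * s ∈ Z := fun x hx => by
    rcases hcos x hx.1 with h | h
    · exact Or.inl ⟨h, hx.2⟩
    · exact Or.inr ⟨h, Subgroup.mul_mem _ hx.2 (Subgroup.mem_centralizer_singleton_iff.2 rfl)⟩
  have hback : ∀ x, x * s * s = x := fun x => by rw [mul_assoc, hs2, mul_one]
  have hZs : ∀ z ∈ Z, Commute z s := fun z hz => Subgroup.mem_centralizer_singleton_iff.1 hz.2
  have hdec' : ∀ x ∈ A, ∃ z ∈ Z, x = z ∨ x = z * s := fun x hx => by
    rcases hdec x hx with h | h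
    · exact ⟨x, h, Or.inl rfl⟩
    · exact ⟨x * s, h, Or.inr (hback x).symm⟩
  have hAc : ∀ x ∈ A, ∀ y ∈ A, Commute x y := by
    intro x hx y hy
    obtain ⟨z, hz, e1⟩ := hdec' x hx
    obtain ⟨w, hw, e2⟩ := hdec' y hy
    have c1 : Commute z w := hEc z hz.1 w hw.1
    have c2 := hZs z hz
    have c3 := hZs w hw
    rcases e1 with e1 | e1 <;> rcases e2 with e2 | e2 <;> rw [e1, e2]
    · exact c1
    · exact c1.mul_right c2
    · exact c1.mul_left c3.symm
    · exact (c1.mul_right c2).mul_left (c3.symm.mul_right (Commute.refl s))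
  have hA2 : ∀ x ∈ A, x ^ 2 = 1 := by
    intro x hx
    obtain ⟨z, hz, e1 | e1⟩ := hdec' x hx <;> rw [e1]
    · exact hE.2 _ hz.1
    · rw [(hZs z hz).mul_pow, hE.2 _ hz.1, sq, hs2, one_mul]
  have hA8 : Nat.card A = 8 := by
    have h1 : Nat.card A ≤ 8 := by
      have h := Cfsg.Agent.Harada.card_le_mul_inter (T := Bool) A Z (fun x => decide (x ∈ E))
        fun x hx y hy hxy => by
          simp only [decide_eq_decide] at hxy
          rcases hdec x hx with h | h <;> rcases hdec y hy with h' | h'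
          · exact Z.mul_mem (Z.inv_mem h) h'
          · exact Z.mul_mem (Z.inv_mem h) ⟨hxy.1 h.1, hy.2⟩
          · exact Z.mul_mem (Z.inv_mem ⟨hxy.2 h'.1, hx.2⟩) h'
          · have e : x⁻¹ * y = s * ((x * s)⁻¹ * (y * s)) * s⁻¹ := by group
            have hc := hZs _ (Z.mul_mem (Z.inv_mem h) h')
            rw [e, ← hc.eq, mul_inv_cancel_right]
            exact Z.mul_mem (Z.inv_mem h) h'
      rw [inf_eq_right.2 hZA, hfix] at h
      simpa using h
    have h2 : 4 < Nat.card A := by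
      have hlt : Z < A := lt_of_le_of_ne hZA fun e => hsE (by
        have : s ∈ Z := e ▸ hsA
        exact this.1)
      by_contra hle
      exact hlt.ne (Subgroup.eq_of_le_of_card_ge hZA (by rw [hfix]; omega))
    have hd := Subgroup.card_dvd_of_le (inf_le_left : A ≤ Q)
    rw [hQ32] at hd
    interval_cases hn : Nat.card A <;> omega
  refine Cfsg.Agent.S1232.result hS A ⟨⟨⟨fun x y => Subtype.ext (hAc x x.2 y y.2).eq⟩⟩, hA2⟩ hA8 ?_
  refine le_antisymm (fun x hx => ?_)
    (fun x hx => Subgroup.mem_centralizer_iff.2 fun y hy => (hAc y hy x hx).eq)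
  have hxs : x * s = s * x := (Subgroup.mem_centralizer_iff.1 hx s hsA).symm
  refine ⟨?_, Subgroup.mem_centralizer_singleton_iff.2 hxs⟩
  have h : x ∈ Subgroup.centralizer (((Subgroup.center Q).map Q.subtype : Subgroup S) : Set S) := by
    rw [Subgroup.mem_centralizer_iff]
    rintro _ ⟨q, hq, rfl⟩
    refine Subgroup.mem_centralizer_iff.1 hx _ ⟨q.2, Subgroup.mem_centralizer_singleton_iff.2 ?_⟩
    exact congrArg Subtype.val (Subgroup.mem_center_iff.1 hq ⟨s, hsQ⟩).symm
  rwa [hC] at h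

end Cfsg.Agent.S1234
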