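import Cfsg.Statements.S1235
import Cfsg.Agent.Harada.DihedralByFour
-- import your own Cfsg.Agent.* helpers here

set_option autoImplicit false
open Cfsg

namespace Cfsg.Agent.S1235

/-- Let G be a finite group, x an involution and T ≤ G a Sylow 2-subgroup of C_G(x) (T ≤ C_G(x) with |C_G(x) : T| odd) which is the internal direct product of a subgroup D that is dihedral (of order ≥ 4) or quasi-dihedral and a Klein four-subgroup B. Suppose that for every involution b ∈ B, T ≤ C_G(b) with |C_G(b) : T| odd. Then every section of G has 2-rank at most 4. -/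
theorem result {G : Type*} [Group G] [Finite G] (x : G) (hx : orderOf x = 2) (T D B : Subgroup G) (hT : IsPGroup 2 T) (hTx : T ≤ Subgroup.centralizer ({x} : Set G)) (hTxi : Odd (T.relIndex (Subgroup.centralizer ({x} : Set G)))) (hprod : Cfsg.IsInternalDirectProduct D B T) (hD : (∃ m : ℕ, 2 ≤ m ∧ Nonempty (D ≃* DihedralGroup m)) ∨ Cfsg.IsQuasiDihedral D) (hB : IsKleinFour B) (hTb : ∀ b ∈ B, orderOf b = 2 → T ≤ Subgroup.centralizer ({b} : Set G) ∧ Odd (T.relIndex (Subgroup.centralizer ({b} : Set G)))) : Cfsg.SectionalPRankLE 2 4 G := by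
  haveI : Fact (Nat.Prime 2) := ⟨Nat.prime_two⟩
  obtain ⟨S, hTS⟩ := hT.exists_le_sylow
  refine Cfsg.Agent.Harada.sectional_of_sylow S ?_
  obtain ⟨hDT, hBT, hc, hinf, hsup⟩ := hprod
  set S0 : Subgroup G := (S : Subgroup G)
  have hcoord := Cfsg.Agent.Harada.dihedral_coords
    (X := D.subgroupOf S0) (by
      let e : D.subgroupOf S0 ≃* D := Subgroup.subgroupOfEquivOfLe (hDT.trans hTS)
      rcases hD with ⟨m, hm, ⟨φ⟩⟩ | ⟨n, hn, hcard, x, y, hx, hy, hxy⟩
      · exact Or.inl ⟨m, hm, ⟨e.trans φ⟩⟩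
      · exact Or.inr ⟨n, hn, by rw [Nat.card_congr e.toEquiv, hcard], e.symm x, e.symm y,
          by rw [MulEquiv.orderOf_eq, hx], by rw [MulEquiv.orderOf_eq, hy],
          by rw [← map_inv, ← map_mul, ← map_mul, ← map_pow, hxy]⟩)
  have h : Cfsg.Agent.Harada.DByFour (T.subgroupOf S0) (D.subgroupOf S0) (B.subgroupOf S0) := by
    have hBS : B ≤ S0 := hBT.trans hTS
    refine ⟨S.isPGroup', fun a ha => hDT ha, fun a ha => hBT ha,
      fun a ha b hb => Subtype.ext (hc _ ha _ hb), ?_, ?_, ?_, ?_, ?_⟩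
    · rw [Subgroup.eq_bot_iff_forall]
      intro a ha
      have : (a : G) ∈ D ⊓ B := ⟨ha.1, ha.2⟩
      rw [hinf, Subgroup.mem_bot] at this
      exact Subtype.ext this
    · rw [← Subgroup.subgroupOf_sup (hDT.trans hTS) hBS, hsup]
    · rw [Nat.card_congr (Subgroup.subgroupOfEquivOfLe hBS).toEquiv, hB.card_four]
    · intro b hb
      haveI := hB
      have := IsKleinFour.mul_self (G := B) ⟨b, hb⟩
      exact Subtype.ext (congrArg (fun z : B => (z : G)) this)
    · intro b hb hb1
      have ho : orderOf (b : G) = 2 := by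
        haveI := hB
        have := IsKleinFour.mul_self (G := B) ⟨b, hb⟩
        exact orderOf_eq_prime (by rw [pow_two]; exact congrArg Subtype.val this)
          fun e => hb1 (Subtype.ext e)
      obtain ⟨hle, hodd⟩ := hTb _ hb ho
      apply le_antisymm
      · intro y hy
        exact Cfsg.Agent.Harada.inf_le_of_odd S.isPGroup' hTS hle hodd
          ⟨y.2, Subgroup.mem_centralizer_singleton_iff.2
            (congrArg Subtype.val (Subgroup.mem_centralizer_singleton_iff.1 hy))⟩
      · intro y hy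
        exact Subgroup.mem_centralizer_singleton_iff.2 (Subtype.ext
          (Subgroup.mem_centralizer_singleton_iff.1 (hle hy)))
  refine h.sectional ?_
  rcases hcoord with ⟨h1, h2, h4⟩ | ⟨h1, r, hr⟩
  · exact Or.inl ⟨fun a ha c hc => congrArg Subtype.val (h1 ⟨a, ha⟩ ⟨c, hc⟩),
      fun a ha => congrArg Subtype.val (h2 ⟨a, ha⟩), h4⟩
  · refine Or.inr ⟨fun d hd e he hd1 he1 hdc hec => ?_, r, r.2, by rwa [Subgroup.orderOf_coe]⟩
    exact congrArg Subtype.val (h1 ⟨d, hd⟩ ⟨e, he⟩ (fun q => hd1 (congrArg Subtype.val q))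
      (fun q => he1 (congrArg Subtype.val q)) (fun y => Subtype.ext (hdc y y.2))
      fun y => Subtype.ext (hec y y.2))


end Cfsg.Agent.S1235
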