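import Cfsg.Statements.S1241
import Cfsg.Agent.TwoFusion.TransferControl
import Mathlib.GroupTheory.Abelianization.Defs

set_option autoImplicit false
open Cfsg

namespace Cfsg.Agent.S1241

/-- Let G be a finite group, p a prime, H a subgroup of index prime to p, K a subgroup of H normal in H with H/K commutative, and g ∈ H ∖ K an element of p-power order such that for all integers m and all a ∈ G with a g^m a⁻¹ ∈ H one has a g^m a⁻¹ ∈ g^m K. Then g ∉ G'. -/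
theorem result {G : Type*} [Group G] [Finite G] {p : ℕ} [Fact p.Prime] (H K : Subgroup G) (hHK : K ≤ H) (hKn : (K.subgroupOf H).Normal) (hab : ∀ x ∈ H, ∀ y ∈ H, x * y * x⁻¹ * y⁻¹ ∈ K) (hidx : Nat.Coprime p H.index) (g : G) (hgH : g ∈ H) (hgK : g ∉ K) (hgp : ∃ k : ℕ, orderOf g = p ^ k) (hctrl : ∀ (m : ℤ) (a : G), a * g ^ m * a⁻¹ ∈ H → (a * g ^ m * a⁻¹) * (g ^ m)⁻¹ ∈ K) : g ∉ commutator G := by
  classical
  haveI := hKn
  haveI hcomm : IsMulCommutative (H ⧸ K.subgroupOf H) := ⟨⟨fun a b => by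
    obtain ⟨x, rfl⟩ := QuotientGroup.mk'_surjective _ a
    obtain ⟨y, rfl⟩ := QuotientGroup.mk'_surjective _ b
    rw [← map_mul, ← map_mul, QuotientGroup.mk'_eq_mk']
    refine ⟨(x * y)⁻¹ * (y * x), ?_, by group⟩
    have h := hab _ (inv_mem y.2) _ (inv_mem x.2)
    simpa [Subgroup.mem_subgroupOf, mul_assoc] using h⟩⟩
  letI : CommGroup (H ⧸ K.subgroupOf H) :=
    { (inferInstance : Group (H ⧸ K.subgroupOf H)) with mul_comm := hcomm.is_comm.comm }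
  intro hg
  let φ : H →* H ⧸ K.subgroupOf H := QuotientGroup.mk' _
  have h1 := TwoFusion.transfer_eq_pow_of_control φ g hgH (fun k g₀ hk => by
    rw [← map_pow]
    have h := hctrl k g₀⁻¹ (by simpa using hk)
    refine (QuotientGroup.mk'_eq_mk' _).2 ?_
    refine ⟨(⟨g₀⁻¹ * g ^ k * g₀, hk⟩ : H)⁻¹ * (⟨g, hgH⟩ : H) ^ k, ?_, by group⟩
    rw [Subgroup.mem_subgroupOf]
    have h2 := inv_mem h
    have h3 : ((g₀⁻¹ * g ^ (k : ℤ) * g₀⁻¹⁻¹) * (g ^ (k : ℤ))⁻¹)⁻¹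
        = g ^ k * (g₀⁻¹ * g ^ k * g₀)⁻¹ := by rw [zpow_natCast]; group
    rw [h3] at h2
    have hn := hKn.conj_mem ⟨_, mul_mem (pow_mem hgH k) (inv_mem hk)⟩
      (Subgroup.mem_subgroupOf.2 h2) (⟨g₀⁻¹ * g ^ k * g₀, hk⟩ : H)⁻¹
    rw [Subgroup.mem_subgroupOf] at hn
    simpa [mul_assoc] using hn)
  have h2 : MonoidHom.transfer φ g = 1 :=
    MonoidHom.mem_ker.1 (Abelianization.commutator_subset_ker _ hg)
  rw [h2] at h1
  obtain ⟨k, hk⟩ := hgp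
  have h3 : φ ⟨g, hgH⟩ ^ (p ^ k) = 1 := by
    rw [← map_pow]
    have : (⟨g, hgH⟩ : H) ^ (p ^ k) = 1 := Subtype.ext (by simp [← hk, pow_orderOf_eq_one])
    rw [this, map_one]
  have h4 : φ ⟨g, hgH⟩ = 1 := by
    have := pow_gcd_eq_one.2 ⟨h3, h1.symm⟩
    rwa [(Nat.Coprime.pow_left k hidx).gcd_eq_one, pow_one] at this
  exact hgK ((QuotientGroup.eq_one_iff (⟨g, hgH⟩ : H)).1 h4)

end Cfsg.Agent.S1241
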