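import Cfsg.Statements.S1242
import Cfsg.Agent.TwoFusion.TransferControl
import Cfsg.Agent.Transfer.Residual
import Cfsg.Agent.Lib.Element
import Mathlib.GroupTheory.Abelianization.Defs

set_option autoImplicit false
open Cfsg

namespace Cfsg.Agent.S1242

/-- Let G be a finite group, p a prime and H a subgroup of index prime to p such that any two elements of H of p-power order that are conjugate in G are conjugate in H. Then (O^p(G)·G') ∩ H = O^p(H)·H', where O^p denotes the subgroup generated by the elements of order prime to p. -/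
theorem result {G : Type*} [Group G] [Finite G] {p : ℕ} [Fact p.Prime] (H : Subgroup G) (hidx : Nat.Coprime p H.index) (hfus : ∀ g ∈ H, (∃ k : ℕ, orderOf g = p ^ k) → ∀ a : G, a * g * a⁻¹ ∈ H → ∃ h ∈ H, h * g * h⁻¹ = a * g * a⁻¹) : (Cfsg.pResidual p G ⊔ commutator G) ⊓ H = (Cfsg.pResidual p ↥H ⊔ commutator ↥H).map H.subtype := by
  classical
  have hp : p.Prime := Fact.out
  set Kb := Cfsg.pResidual p ↥H ⊔ commutator ↥H with hKb
  haveI : (Cfsg.pResidual p ↥H).Normal := inferInstance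
  haveI hKbn : Kb.Normal := Subgroup.sup_normal _ _
  haveI hcomm : IsMulCommutative (H ⧸ Kb) := ⟨⟨fun a b => by
    obtain ⟨x, rfl⟩ := QuotientGroup.mk'_surjective _ a
    obtain ⟨y, rfl⟩ := QuotientGroup.mk'_surjective _ b
    rw [← map_mul, ← map_mul, QuotientGroup.mk'_eq_mk']
    refine ⟨(x * y)⁻¹ * (y * x), Subgroup.mem_sup_right ?_, by group⟩
    have h := Subgroup.commutator_mem_commutator (Subgroup.mem_top y⁻¹) (Subgroup.mem_top x⁻¹)
    rw [commutatorElement_def, inv_inv, inv_inv] at h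
    rw [commutator_def]
    simpa [mul_assoc] using h⟩⟩
  letI : CommGroup (H ⧸ Kb) :=
    { (inferInstance : Group (H ⧸ Kb)) with mul_comm := hcomm.is_comm.comm }
  have hQ : IsPGroup p (H ⧸ Kb) := by
    intro x
    obtain ⟨h, rfl⟩ := QuotientGroup.mk'_surjective _ x
    obtain ⟨k, hk⟩ := Cfsg.Agent.Transfer.exists_pow_mem_pResidual (p := p) h
    exact ⟨k, by rw [← map_pow]; exact (QuotientGroup.eq_one_iff _).2 (Subgroup.mem_sup_left hk)⟩
  set φ : H →* H ⧸ Kb := QuotientGroup.mk' Kb with hφ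
  set τ := MonoidHom.transfer φ with hτ
  have hker : Cfsg.pResidual p G ⊔ commutator G ≤ τ.ker :=
    sup_le (Cfsg.Agent.Transfer.pResidual_le_ker hQ τ) (Abelianization.commutator_subset_ker τ)
  refine le_antisymm ?_ ?_
  · rintro x ⟨hx, hxH⟩
    refine ⟨⟨x, hxH⟩, ?_, rfl⟩
    have hτx : τ x = 1 := hker hx
    set h : H := ⟨x, hxH⟩
    set a := Cfsg.Agent.Element.pPart p h
    set b := Cfsg.Agent.Element.pComplPart p h
    have hab : a * b = h := Cfsg.Agent.Element.pPart_mul_pComplPart p h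
    have hb : b ∈ Cfsg.pResidual p ↥H :=
      Subgroup.subset_closure (Cfsg.Agent.Element.coprime_orderOf_pComplPart hp h)
    have hbG : (b : G) ∈ Cfsg.pResidual p G := by
      refine Subgroup.subset_closure ?_
      show Nat.Coprime (orderOf (b : G)) p
      rw [Subgroup.orderOf_coe]
      exact Cfsg.Agent.Element.coprime_orderOf_pComplPart hp h
    have hτa : τ (a : G) = 1 := by
      have h1 : τ (b : G) = 1 := hker (Subgroup.mem_sup_left hbG)
      have h2 : τ ((a : G) * b) = 1 := by rw [← Subgroup.coe_mul, hab]; exact hτx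
      rwa [map_mul, h1, mul_one] at h2
    obtain ⟨ka, hka⟩ : ∃ ka : ℕ, orderOf a = p ^ ka :=
      ⟨_, Cfsg.Agent.Element.orderOf_pPart_eq_pow hp h⟩
    have h3 : τ (a : G) = φ ⟨(a : G), a.2⟩ ^ H.index := by
      refine TwoFusion.transfer_eq_pow_of_control φ (a : G) a.2 fun k g₀ hk => ?_
      obtain ⟨c, hc, hce⟩ := hfus ((a : G) ^ k) (pow_mem a.2 k) (by
        have hd : orderOf ((a : G) ^ k) ∣ p ^ ka := by
          rw [← hka, ← Subgroup.orderOf_coe]; exact orderOf_pow_dvd k
        obtain ⟨i, -, hi⟩ := (Nat.dvd_prime_pow hp).1 hd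
        exact ⟨i, hi⟩) g₀⁻¹ (by simpa using hk)
      rw [inv_inv] at hce
      rw [← map_pow]
      have h4 : (⟨g₀⁻¹ * (a : G) ^ k * g₀, hk⟩ : H) = ⟨c, hc⟩ * (⟨(a : G), a.2⟩ : H) ^ k * ⟨c, hc⟩⁻¹ :=
        Subtype.ext hce.symm
      rw [h4, map_mul, map_mul, map_inv, mul_comm (φ ⟨c, hc⟩), mul_inv_cancel_right]
    rw [h3] at hτa
    have h5 : φ a ^ (p ^ ka) = 1 := by rw [← map_pow, ← hka, pow_orderOf_eq_one, map_one]
    have h6 : φ a = 1 := by
      have := pow_gcd_eq_one.2 ⟨h5, hτa⟩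
      rwa [(Nat.Coprime.pow_left ka hidx).gcd_eq_one, pow_one] at this
    rw [SetLike.mem_coe, ← hab]
    exact mul_mem ((QuotientGroup.eq_one_iff a).1 h6) (Subgroup.mem_sup_left hb)
  · refine le_inf ?_ (Subgroup.map_subtype_le _)
    rw [Subgroup.map_sup]
    refine sup_le_sup (Cfsg.Agent.Transfer.map_subtype_pResidual_le H) ?_
    rw [commutator_def, Subgroup.map_commutator, commutator_def]
    exact Subgroup.commutator_mono le_top le_top

end Cfsg.Agent.S1242
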