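import Cfsg.Statements.S1243
import Cfsg.Agent.TwoFusion.Basic

set_option autoImplicit false
open Cfsg

namespace Cfsg.Agent.S1243

/-- Let T be a Sylow p-subgroup of the finite group G and W ≤ T a subgroup weakly closed in T. If d and g d g⁻¹ both centralize W, then g d g⁻¹ = h d h⁻¹ for some h ∈ N_G(W). -/
theorem result {G : Type*} [Group G] [Finite G] {p : ℕ} [Fact p.Prime] (T : Sylow p G) (W : Subgroup G) (hW : Cfsg.IsWeaklyClosed W (T : Subgroup G)) (d g : G) (hd : d ∈ Subgroup.centralizer (W : Set G)) (hgd : g * d * g⁻¹ ∈ Subgroup.centralizer (W : Set G)) : ∃ h ∈ Subgroup.normalizer (W : Set G), h * d * h⁻¹ = g * d * g⁻¹ := by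
  classical
  obtain ⟨hWT, hWc⟩ := hW
  set C := Subgroup.centralizer ({d} : Set G) with hC
  have hWp : IsPGroup p W := T.isPGroup'.to_le hWT
  have hdW : ∀ w ∈ W, w * d = d * w := Subgroup.mem_centralizer_iff.1 hd
  have hgdW : ∀ w ∈ W, w * (g * d * g⁻¹) = (g * d * g⁻¹) * w := Subgroup.mem_centralizer_iff.1 hgd
  have hW1 : ∀ w ∈ W, w ∈ C := fun w hw =>
    Subgroup.mem_centralizer_singleton_iff.2 (by simp [hdW w hw])
  set W' := W.map (MulAut.conj g⁻¹).toMonoidHom with hW'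
  have hW2 : W' ≤ C := by
    rintro x ⟨w, hw, rfl⟩
    refine Subgroup.mem_centralizer_singleton_iff.2 ?_
    have h := hgdW w hw
    simp only [MulEquiv.coe_toMonoidHom, MulAut.conj_apply, inv_inv]
    calc g⁻¹ * w * g * d = g⁻¹ * (w * (g * d * g⁻¹)) * g := by group
      _ = g⁻¹ * ((g * d * g⁻¹) * w) * g := by rw [h]
      _ = d * (g⁻¹ * w * g) := by group
  obtain ⟨R, hR⟩ := ((hWp.comap_subtype (K := C))).exists_le_sylow
  have hW'p : IsPGroup p W' := hWp.map _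
  obtain ⟨R', hR'⟩ := ((hW'p.comap_subtype (K := C))).exists_le_sylow
  obtain ⟨c, hc⟩ := MulAction.exists_smul_eq C R' R
  set RG : Subgroup G := (R : Subgroup C).map C.subtype with hRG
  have hRGp : IsPGroup p RG := R.isPGroup'.map _
  obtain ⟨a, ha⟩ := TwoFusion.exists_conj_le_sylow T hRGp
  have h1 : W.map (MulAut.conj a).toMonoidHom = W := by
    apply hWc
    rintro x ⟨w, hw, rfl⟩
    exact ha w ⟨⟨w, hW1 w hw⟩, hR (show (⟨w, hW1 w hw⟩ : C) ∈ W.comap C.subtype from hw), rfl⟩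
  have h2 : W.map (MulAut.conj (a * (c : G) * g⁻¹)).toMonoidHom = W := by
    apply hWc
    rintro x ⟨w, hw, rfl⟩
    have hm : g⁻¹ * w * g ∈ W' := ⟨w, hw, by simp⟩
    have hm' : (⟨_, hW2 hm⟩ : C) ∈ R' :=
      hR' (show (⟨_, hW2 hm⟩ : C) ∈ W'.comap C.subtype from hm)
    have hm'' : c * ⟨_, hW2 hm⟩ * c⁻¹ ∈ R := by
      rw [← hc, TwoFusion.sylow_smul_mem]
      have e : ∀ y : C, c⁻¹ * (c * y * c⁻¹) * c = y := fun y => by group
      rw [e]
      exact hm'
    have := ha _ ⟨_, hm'', rfl⟩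
    simpa [mul_assoc] using this
  rw [TwoFusion.map_conj_eq_self_iff_mem_normalizer] at h1 h2
  have h3 : (c : G) * g⁻¹ ∈ Subgroup.normalizer (W : Set G) := by
    have := mul_mem (inv_mem h1) h2
    simpa [mul_assoc] using this
  refine ⟨((c : G) * g⁻¹)⁻¹, inv_mem h3, ?_⟩
  have hcd : (c : G) * d = d * (c : G) := Subgroup.mem_centralizer_singleton_iff.1 c.2
  calc ((c : G) * g⁻¹)⁻¹ * d * ((c : G) * g⁻¹)⁻¹⁻¹ = g * ((c : G)⁻¹ * (d * c)) * g⁻¹ := by group
    _ = g * d * g⁻¹ := by rw [← hcd]; group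

end Cfsg.Agent.S1243
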