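import Cfsg.Statements.S1244
import Cfsg.Agent.TwoFusion.TransferControl
import Mathlib.GroupTheory.Sylow

set_option autoImplicit false
open Cfsg

namespace Cfsg.Agent.S1244

/-- The involutions (and identity) of an abelian subgroup. -/
def omegaTwo {G : Type*} [Group G] (S : Subgroup G) (hS : ∀ a ∈ S, ∀ b ∈ S, a * b = b * a) :
    Subgroup G where
  carrier := {x | x ∈ S ∧ x ^ 2 = 1}
  one_mem' := ⟨one_mem _, one_pow _⟩
  mul_mem' := fun {a b} ha hb => ⟨mul_mem ha.1 hb.1, by
    rw [(show Commute a b from hS a ha.1 b hb.1).mul_pow, ha.2, hb.2, one_mul]⟩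
  inv_mem' := fun {a} ha => ⟨inv_mem ha.1, by rw [inv_pow, ha.2, inv_one]⟩

theorem card_omegaTwo {G : Type*} [Group G] [Finite G] (S : Subgroup G)
    (hS : ∀ a ∈ S, ∀ b ∈ S, a * b = b * a) (h2 : IsPGroup 2 S) {k : ℕ}
    (hle : Cfsg.PRankLE 2 k S) : Nat.card (omegaTwo S hS) ≤ 2 ^ k ∧
      (∀ j, j + 1 = k → ¬ Cfsg.PRankLE 2 j S → Nat.card (omegaTwo S hS) = 2 ^ k) := by
  have : Fact (Nat.Prime 2) := ⟨Nat.prime_two⟩
  have hsub : omegaTwo S hS ≤ S := fun x hx => hx.1
  have e := (Subgroup.subgroupOfEquivOfLe hsub).toEquiv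
  have h1 : Nat.card (omegaTwo S hS) ≤ 2 ^ k := by
    rw [← Nat.card_congr e]
    refine hle _ ⟨⟨fun a b => ?_⟩⟩ fun a ha => Subtype.ext ha.2
    exact Subtype.ext (Subtype.ext (hS _ a.1.2 _ b.1.2))
  refine ⟨h1, fun j hj hnot => ?_⟩
  obtain ⟨m, hm⟩ := IsPGroup.iff_card.mp (h2.to_le hsub)
  rw [Cfsg.PRankLE] at hnot
  push Not at hnot
  obtain ⟨A, -, hA, hcard⟩ := hnot
  have hAle : A.map S.subtype ≤ omegaTwo S hS := by
    rintro _ ⟨a, ha, rfl⟩
    exact ⟨a.2, congrArg Subtype.val (hA a ha)⟩
  have h3 : Nat.card A ≤ Nat.card (omegaTwo S hS) := by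
    rw [Nat.card_congr (A.equivMapOfInjective S.subtype S.subtype_injective).toEquiv]
    exact Subgroup.card_le_of_le hAle
  have h4 : 2 ^ j < 2 ^ m := by omega
  have h5 : j < m := (Nat.pow_lt_pow_iff_right (by norm_num)).mp h4
  have h6 : m ≤ k := (Nat.pow_le_pow_iff_right (by norm_num)).mp (hm ▸ h1)
  rw [hm]; congr 1; omega


/-- Let G be a finite group with no subgroup of index 2 whose Sylow 2-subgroup S is commutative, and let R ≤ S be a subgroup whose 2-rank is exactly one less than the 2-rank r of S. Then every involution of S is conjugate, by an element of N_G(S), to an element of R. -/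
theorem result {G : Type*} [Group G] [Finite G] (hG : ∀ H : Subgroup G, H.index ≠ 2) (S : Sylow 2 G) (hS : IsMulCommutative (S : Subgroup G)) (r : ℕ) (hr1 : 1 ≤ r) (hSr : Cfsg.PRankLE 2 r (S : Subgroup G) ∧ ¬ Cfsg.PRankLE 2 (r - 1) (S : Subgroup G)) (R : Subgroup G) (hRS : R ≤ S) (hRr : Cfsg.PRankLE 2 (r - 1) R ∧ (r = 1 ∨ ¬ Cfsg.PRankLE 2 (r - 2) R)) (t : G) (ht : orderOf t = 2) (htS : t ∈ S) : ∃ n ∈ Subgroup.normalizer ((S : Subgroup G) : Set G), n * t * n⁻¹ ∈ R := by
  classical
  have : Fact (Nat.Prime 2) := ⟨Nat.prime_two⟩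
  by_contra hne
  push Not at hne
  have hScomm : ∀ a ∈ (S : Subgroup G), ∀ b ∈ (S : Subgroup G), a * b = b * a := fun a ha b hb =>
    congrArg Subtype.val (hS.is_comm.comm (⟨a, ha⟩ : (S : Subgroup G)) ⟨b, hb⟩)
  have hRcomm : ∀ a ∈ R, ∀ b ∈ R, a * b = b * a := fun a ha b hb => hScomm a (hRS ha) b (hRS hb)
  set N := Subgroup.normalizer ((S : Subgroup G) : Set G) with hN
  set V := omegaTwo (S : Subgroup G) hScomm with hV
  set W := omegaTwo R hRcomm with hW
  have hWV : W ≤ V := fun x hx => ⟨hRS hx.1, hx.2⟩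
  have hcV : Nat.card V = 2 ^ r :=
    (card_omegaTwo _ hScomm S.isPGroup' hSr.1).2 (r - 1) (by omega) hSr.2
  have hcW : Nat.card W = 2 ^ (r - 1) := by
    rcases hRr.2 with hr | hr
    · subst hr
      have h1 := (card_omegaTwo R hRcomm (S.isPGroup'.to_le hRS) hRr.1).1
      have h2 : 0 < Nat.card W := Nat.card_pos
      simp only [Nat.sub_self, pow_zero] at h1 ⊢
      exact le_antisymm h1 h2
    · have hr2 : 2 ≤ r := by
        by_contra hlt
        exact hr (by rw [show r - 2 = r - 1 by omega]; exact hRr.1)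
      exact (card_omegaTwo R hRcomm (S.isPGroup'.to_le hRS) hRr.1).2 (r - 2) (by omega) hr
  have hidx : (W.subgroupOf V).index = 2 := by
    show W.relIndex V = 2
    have h1 := Subgroup.relIndex_mul_relIndex ⊥ W V bot_le hWV
    rw [Subgroup.relIndex_bot_left, Subgroup.relIndex_bot_left, hcW, hcV,
      show r = r - 1 + 1 by omega, pow_succ, show r - 1 + 1 - 1 = r - 1 by omega] at h1
    exact Nat.eq_of_mul_eq_mul_left (by positivity) h1
  have hconjV : ∀ n ∈ N, ∀ x ∈ V, n * x * n⁻¹ ∈ V := fun n hn x hx =>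
    ⟨(Subgroup.mem_normalizer_iff.mp hn x).mp hx.1, by rw [conj_pow, hx.2, mul_one, mul_inv_cancel]⟩
  have htV : t ∈ V := ⟨htS, ht ▸ pow_orderOf_eq_one t⟩
  -- the orbit of `t` under the normalizer
  let f : N → V := fun n => ⟨(n : G) * t * (n : G)⁻¹, hconjV _ n.2 _ htV⟩
  let _ : CommGroup V :=
    { (inferInstance : Group V) with
      mul_comm := fun a b => Subtype.ext (hScomm _ a.2.1 _ b.2.1) }
  let _ := Fintype.ofFinite N
  let O : Finset V := Finset.univ.image f
  have hOodd : Odd O.card := by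
    let Hst : Subgroup N := (Subgroup.centralizer ({t} : Set G)).subgroupOf N
    have he : N ⧸ Hst ≃ O :=
      Equiv.ofBijective (Quotient.lift (fun n : N => (⟨f n, Finset.mem_image.mpr ⟨n, Finset.mem_univ _, rfl⟩⟩ : O))
        (fun a b hab => by
          have h0 : a⁻¹ * b ∈ Hst :=
            QuotientGroup.leftRel_apply.mp (show QuotientGroup.leftRel Hst a b from hab)
          have h1 : (a : G)⁻¹ * (b : G) ∈ Subgroup.centralizer ({t} : Set G) := h0
          rw [Subgroup.mem_centralizer_singleton_iff] at h1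
          refine Subtype.ext (Subtype.ext ?_)
          show (a : G) * t * (a : G)⁻¹ = (b : G) * t * (b : G)⁻¹
          calc (a : G) * t * (a : G)⁻¹
              = (a : G) * (t * ((a : G)⁻¹ * (b : G))) * (b : G)⁻¹ := by group
            _ = (b : G) * t * (b : G)⁻¹ := by rw [← h1]; group))
      ⟨by
        intro p q hpq
        induction p using Quotient.inductionOn with | _ a => ?_
        induction q using Quotient.inductionOn with | _ b => ?_
        refine Quotient.sound (QuotientGroup.leftRel_apply.mpr ?_)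
        have h1 : (a : G) * t * (a : G)⁻¹ = (b : G) * t * (b : G)⁻¹ :=
          congrArg (fun o : O => ((o : V) : G)) hpq
        show (a : G)⁻¹ * (b : G) ∈ Subgroup.centralizer ({t} : Set G)
        rw [Subgroup.mem_centralizer_singleton_iff]
        calc (a : G)⁻¹ * (b : G) * t = (a : G)⁻¹ * ((b : G) * t * (b : G)⁻¹) * (b : G) := by group
          _ = (a : G)⁻¹ * ((a : G) * t * (a : G)⁻¹) * (b : G) := by rw [h1]
          _ = t * ((a : G)⁻¹ * (b : G)) := by group, by
        rintro ⟨v, hv⟩
        obtain ⟨n, -, rfl⟩ := Finset.mem_image.mp hv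
        exact ⟨QuotientGroup.mk n, rfl⟩⟩
    have hcard : O.card = Hst.index := by
      rw [Subgroup.index_eq_card, Nat.card_congr he, Nat.card_eq_fintype_card, Fintype.card_coe]
    rw [hcard, ← Nat.not_even_iff_odd, even_iff_two_dvd]
    intro h2
    have hle : (S : Subgroup G).subgroupOf N ≤ Hst := fun x hx =>
      Subgroup.mem_centralizer_singleton_iff.mpr (hScomm _ hx _ htS)
    have h3 : (S : Subgroup G).relIndex N ∣ (S : Subgroup G).index :=
      Subgroup.relIndex_dvd_index_of_le Subgroup.le_normalizer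
    exact S.not_dvd_index ((h2.trans (Subgroup.index_dvd_of_le hle)).trans h3)
  set u : V := ∏ v ∈ O, v with hu
  -- it lies outside `W`
  have hOnot : ∀ v ∈ O, (v : G) ∉ R := fun v hv => by
    obtain ⟨n, -, rfl⟩ := Finset.mem_image.mp hv
    exact hne _ n.2
  have hmem : ∀ s : Finset V, (∀ v ∈ s, (v : G) ∉ R) → ((∏ v ∈ s, v) ∈ W.subgroupOf V ↔ Even s.card) := by
    intro s
    induction s using Finset.induction with
    | empty => intro _; simp
    | @insert a s ha ih =>
      intro hs
      have h1 : a ∉ W.subgroupOf V := fun h => hs a (Finset.mem_insert_self a s) h.1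
      rw [Finset.prod_insert ha, Subgroup.mul_mem_iff_of_index_two hidx,
        ih fun v hv => hs v (Finset.mem_insert_of_mem hv), Finset.card_insert_of_notMem ha,
        Nat.even_add_one]
      tauto
  have huW : u ∉ W.subgroupOf V := fun h =>
    Nat.not_even_iff_odd.mpr hOodd ((hmem O hOnot).mp h)
  -- it is fixed by the normalizer
  have hfix : ∀ n ∈ N, n * (u : G) * n⁻¹ = u := by
    intro n hn
    let c : V →* V :=
      { toFun := fun v => ⟨n * (v : G) * n⁻¹, hconjV n hn _ v.2⟩
        map_one' := Subtype.ext (by simp)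
        map_mul' := fun a b => Subtype.ext (by simp [mul_assoc]) }
    have hinj : Function.Injective c := fun a b hab => Subtype.ext (by
      have h1 : n * (a : G) * n⁻¹ = n * (b : G) * n⁻¹ := congrArg Subtype.val hab
      simpa using h1)
    have himg : O.image c = O := by
      refine Finset.eq_of_subset_of_card_le (fun v hv => ?_) (Finset.card_image_of_injective O hinj).ge
      obtain ⟨w, hw, rfl⟩ := Finset.mem_image.mp hv
      obtain ⟨m, -, rfl⟩ := Finset.mem_image.mp hw
      refine Finset.mem_image.mpr ⟨⟨n, hn⟩ * m, Finset.mem_univ _, Subtype.ext ?_⟩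
      simp [f, c, mul_assoc]
    have h1 : c u = u := by
      rw [hu, map_prod]
      conv_rhs => rw [← himg, Finset.prod_image hinj.injOn]
    exact congrArg Subtype.val h1
  -- transfer
  let _ : CommGroup (S : Subgroup G) :=
    { (inferInstance : Group (S : Subgroup G)) with
      mul_comm := fun a b => Subtype.ext (hScomm _ a.2 _ b.2) }
  have hCS : (S : Subgroup G) ≤ Subgroup.centralizer ((S : Subgroup G) : Set G) := fun a ha =>
    Subgroup.mem_centralizer_iff.mpr fun b hb => hScomm b hb a ha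
  have htr := TwoFusion.transfer_eq_pow_of_control (MonoidHom.id (S : Subgroup G)) (u : G) u.2.1
    (fun k g hk => by
      obtain ⟨n, hn, hne'⟩ := S.conj_eq_normalizer_conj_of_mem_centralizer ((u : G) ^ k) g
        (hCS (pow_mem u.2.1 k)) (hCS hk)
      refine Subtype.ext ?_
      simp only [MonoidHom.id_apply, SubgroupClass.coe_pow]
      rw [hne']
      have h1 := hfix n⁻¹ (inv_mem hn)
      rw [inv_inv] at h1
      calc n⁻¹ * (u : G) ^ k * n = (n⁻¹ * (u : G) * n) ^ k := by
            have := conj_pow (i := k) (a := n⁻¹) (b := (u : G))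
            rw [inv_inv] at this
            exact this.symm
        _ = (u : G) ^ k := by rw [h1])
  set τ := MonoidHom.transfer (MonoidHom.id (S : Subgroup G)) with hτ
  have hu1 : (u : G) ≠ 1 := fun h => huW (by
    rw [show u = 1 from Subtype.ext h]; exact one_mem _)
  have hτu : τ (u : G) ≠ 1 := by
    intro h
    rw [htr, MonoidHom.id_apply] at h
    have h1 : (u : G) ^ (S : Subgroup G).index = 1 := congrArg Subtype.val h
    obtain ⟨m, hm⟩ := Nat.not_even_iff_odd.mp (fun he => S.not_dvd_index (even_iff_two_dvd.mp he))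
    rw [hm, pow_succ, pow_mul, u.2.2, one_pow, one_mul] at h1
    exact hu1 h1
  -- a subgroup of index two
  have hrange : IsPGroup 2 τ.range := S.isPGroup'.to_subgroup τ.range
  rcases eq_top_or_exists_le_coatom (⊥ : Subgroup τ.range) with htop | ⟨M, hM, -⟩
  · have h1 : (⟨τ (u : G), u, rfl⟩ : τ.range) ∈ (⊥ : Subgroup τ.range) := htop ▸ Subgroup.mem_top _
    exact hτu (congrArg Subtype.val (Subgroup.mem_bot.mp h1))
  · have hn := Subgroup.NormalizerCondition.normal_of_coatom M (@Group.normalizerCondition_of_isNilpotent _ _ hrange.isNilpotent) hM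
    obtain ⟨k, hk⟩ := hrange.index M
    have hk1 : M.index = 2 := by
      have hcop : ¬ M.index = 1 := fun h => hM.1 (Subgroup.index_eq_one.mp h)
      rcases k with _ | k
      · exact absurd hk (by simpa using hcop)
      have hdvd : 2 ∣ Nat.card (τ.range ⧸ M) := by
        rw [← Subgroup.index_eq_card, hk]; exact dvd_pow_self 2 (Nat.succ_ne_zero k)
      obtain ⟨q, hq⟩ := exists_prime_orderOf_dvd_card' 2 hdvd
      have hle : M < (Subgroup.zpowers q).comap (QuotientGroup.mk' M) := by
        obtain ⟨w, rfl⟩ := QuotientGroup.mk'_surjective M q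
        refine lt_of_le_of_ne (fun m hm => ?_) fun e => ?_
        · rw [Subgroup.mem_comap, show QuotientGroup.mk' M m = 1 from (QuotientGroup.eq_one_iff m).mpr hm]
          exact one_mem _
        · have hwM : w ∈ M := e ▸ Subgroup.mem_zpowers (QuotientGroup.mk' M w)
          rw [QuotientGroup.mk'_apply, (QuotientGroup.eq_one_iff w).mpr hwM, orderOf_one] at hq
          omega
      have h1 := hM.2 _ hle
      have h2 : Subgroup.zpowers q = ⊤ :=
        Subgroup.comap_injective (QuotientGroup.mk'_surjective M) (h1.trans (Subgroup.comap_top _).symm)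
      rw [Subgroup.index_eq_card, ← Subgroup.card_top, ← h2, Nat.card_zpowers, hq]
    refine hG (M.comap τ.rangeRestrict) ?_
    rw [Subgroup.index_comap_of_surjective _ τ.rangeRestrict_surjective, hk1]

end Cfsg.Agent.S1244
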