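import Cfsg.Statements.S1246
import Cfsg.Agent.Classif.CharTwo

set_option autoImplicit false
open Cfsg

namespace Cfsg.Agent.S1246

/-- Let V ≤ U be p-subgroups of the finite group G. If the generalized Fitting subgroup of C_G(V) is a p-group, then so is that of C_G(U). -/
theorem result {G : Type*} [Group G] [Finite G] {p : ℕ} [Fact p.Prime] (U V : Subgroup G) (hVU : V ≤ U) (hU : IsPGroup p U) (hV : IsPGroup p ↥(Cfsg.generalizedFittingSubgroup ↥(Subgroup.centralizer (V : Set G)))) : IsPGroup p ↥(Cfsg.generalizedFittingSubgroup ↥(Subgroup.centralizer (U : Set G))) := by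
  have key : ∀ (X : Subgroup G), IsPGroup p ↥(Cfsg.generalizedFittingSubgroup ↥X) ↔
      Classif.HasCharP p ↥X := by
    intro X
    constructor
    · intro h
      have := Components.genFitting_normal (G := X)
      refine Components.centralizer_pCore_le_of_genFitting_eq (le_antisymm ?_ ?_)
      · exact Components.subnormal_le_pCore this.isSubnormal h
      · exact Components.pCore_le_fitting.trans Components.fitting_le_genFitting
    · intro h
      rw [Components.genFitting_eq_pCore_of_centralizer_le h]
      exact Cores.pCore_isPGroup
  exact (key _).mpr (Classif.hasCharP_centralizer_mono hU hVU ((key _).mp hV))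

end Cfsg.Agent.S1246
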