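import Cfsg.Statements.S1247
import Cfsg.Agent.Bender.MaximalControl

set_option autoImplicit false
open Cfsg

namespace Cfsg.Agent.S1247

/-- Let G be a non-abelian finite simple group, A a maximal subgroup, F = F*(A) its generalized Fitting subgroup (viewed in G), and S ≤ F a subgroup subnormal in F with C_F(S) ≤ S. Let B be any subgroup of G containing S. Then (a) for every prime q not dividing |F(A)|, O_q(B) ∩ A = 1; and (b) for every prime p dividing |F(A)|, O_p(B) commutes elementwise with the subgroup of F generated by its elements of order prime to p. -/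
theorem result {G : Type*} [Group G] [Finite G] [IsSimpleGroup G] (hna : ¬ IsMulCommutative G) (A : Subgroup G) (hA : IsCoatom A) (S : Subgroup G) (hSF : S ≤ (Cfsg.generalizedFittingSubgroup ↥A).map A.subtype) (hSsn : (S.subgroupOf ((Cfsg.generalizedFittingSubgroup ↥A).map A.subtype)).IsSubnormal) (hSC : (Cfsg.generalizedFittingSubgroup ↥A).map A.subtype ⊓ Subgroup.centralizer (S : Set G) ≤ S) (B : Subgroup G) (hSB : S ≤ B) : (∀ q : ℕ, q.Prime → ¬ q ∣ Nat.card (Cfsg.fittingSubgroup ↥A) → (Cfsg.pCore q ↥B).map B.subtype ⊓ A = ⊥) ∧ (∀ p : ℕ, p.Prime → p ∣ Nat.card (Cfsg.fittingSubgroup ↥A) → ∀ x ∈ (Cfsg.pCore p ↥B).map B.subtype, ∀ y ∈ (Cfsg.pResidual p ↥(Cfsg.generalizedFittingSubgroup ↥A)).map ((Cfsg.generalizedFittingSubgroup ↥A).subtype) , x * (A.subtype y) = (A.subtype y) * x) := by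
  set FX := Cfsg.generalizedFittingSubgroup ↥A with hFX
  have hFA : FX.map A.subtype ≤ A := Subgroup.map_subtype_le _
  have hSA : S ≤ A := hSF.trans hFA
  set S' := S.subgroupOf A with hS'
  have hmap : S'.map A.subtype = S := by
    rw [hS', Subgroup.subgroupOf_map_subtype, inf_eq_left.mpr hSA]
  have hle : S' ≤ FX := fun x hx => by
    obtain ⟨y, hy, hxy⟩ := hSF hx
    rwa [← A.subtype_injective hxy]
  have hsn : S'.IsSubnormal := by
    let e : FX ≃* FX.map A.subtype := FX.equivMapOfInjective A.subtype A.subtype_injective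
    have h1 : S'.subgroupOf FX = (S.subgroupOf (FX.map A.subtype)).comap e.toMonoidHom := by
      ext x; rfl
    have h2 : (S'.subgroupOf FX).IsSubnormal := h1 ▸ hSsn.comap _
    exact Subgroup.IsSubnormal.trans hle h2 Components.genFitting_normal.isSubnormal
  have hL : Bender.Large S' := ⟨hle, hsn, fun x hx => hSC ⟨⟨x, hx.1, rfl⟩,
    Subgroup.mem_centralizer_iff.mpr fun w hw =>
      congrArg Subtype.val (Subgroup.mem_centralizer_iff.mp hx.2 ⟨w, hSA hw⟩ hw)⟩⟩
  have hSB' : S'.map A.subtype ≤ B := hmap.le.trans hSB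
  refine ⟨fun q hq hnd => Bender.inf_eq_bot_of_not_dvd hL hSB' hq hnd, fun p hp hd x hx y hy => ?_⟩
  have : Fact p.Prime := ⟨hp⟩
  obtain ⟨hE, hP⟩ := Bender.pCore_le_centralizer hA hL hSB' hp hd hx
  obtain ⟨w, hw, rfl⟩ := hy
  have hmem : (Cfsg.pResidual p ↥FX) ≤
      ((Subgroup.centralizer ({x} : Set G)).subgroupOf A).comap FX.subtype := by
    rw [Cfsg.pResidual, Subgroup.closure_le]
    intro u hu
    refine Bender.pPrime_mem_of_genFitting hE hP u.2 fun hdu => ?_
    change p ∣ orderOf ((u : FX) : ↥A) at hdu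
    rw [Subgroup.orderOf_coe] at hdu
    exact Nat.Prime.not_coprime_iff_dvd.mpr ⟨p, hp, hdu, dvd_rfl⟩ hu
  have h := hmem hw
  exact (Subgroup.mem_centralizer_singleton_iff.mp h).symm

end Cfsg.Agent.S1247
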