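import Cfsg.Statements.S1253
import Cfsg.Agent.TwoFusion.ZStarHolds

set_option autoImplicit false
open Cfsg

namespace Cfsg.Agent.S1253

/-- Let z be an isolated involution of the finite group G with centralizer C, p an odd prime and P a Sylow p-subgroup of G normalized by z. Then P ∩ C has p-power-free index in C (it is a Sylow p-subgroup of C), and |P : C_P(z)| equals the number of elements x ∈ P with z x z⁻¹ = x⁻¹. -/
theorem result {G : Type*} [Group G] [Finite G] (z : G) (hz : Cfsg.IsIsolatedInvolution z) {p : ℕ} [Fact p.Prime] (hp : p ≠ 2) (P : Sylow p G) (hzP : z ∈ Subgroup.normalizer ((P : Subgroup G) : Set G)) : ¬ p ∣ ((P : Subgroup G) ⊓ Subgroup.centralizer ({z} : Set G)).relIndex (Subgroup.centralizer ({z} : Set G)) ∧ ((P : Subgroup G) ⊓ Subgroup.centralizer ({z} : Set G)).relIndex (P : Subgroup G) = Nat.card {x : G // x ∈ P ∧ z * x * z⁻¹ = x⁻¹} := by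
  have hP := P.isPGroup'
  set C := Subgroup.centralizer ({z} : Set G) with hC
  set P₀ := (P : Subgroup G) ⊓ C with hP₀
  constructor
  · -- a Sylow subgroup of the centralizer containing `P ⊓ C`
    obtain ⟨Q, hQ⟩ := ((hP.to_le (inf_le_left : P₀ ≤ (P : Subgroup G))).comap_subtype (K := C)).exists_le_sylow
    set Qm := (Q : Subgroup C).map C.subtype with hQm
    have hQC : Qm ≤ C := Subgroup.map_subtype_le _
    have hzQ : z ∈ Subgroup.normalizer (Qm : Set G) :=
      Subgroup.centralizer_le_normalizer _ (Subgroup.mem_centralizer_iff.mpr fun q hq =>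
        Subgroup.mem_centralizer_singleton_iff.mp (hQC hq))
    have hfin : {R : Subgroup G | IsPGroup p R ∧ z ∈ Subgroup.normalizer (R : Set G) ∧ Qm ≤ R}.Finite :=
      Set.toFinite _
    obtain ⟨R, ⟨⟨hRp, hzR, hQR⟩, hmaxR⟩⟩ := hfin.exists_maximal ⟨Qm, Q.isPGroup'.map _, hzQ, le_rfl⟩
    obtain ⟨N, hN, hNodd, hcom⟩ := TwoFusion.exists_odd_normal_of_isolated hz
    obtain ⟨P₂, hP₂⟩ := TwoFusion.exists_sylow_eq_of_maximal_invariant (hN := hN) hz hNodd hcom R hRp hzR
      fun T hT hzT hle => le_antisymm (hmaxR ⟨hT, hzT, hQR.trans hle⟩ hle) hle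
    obtain ⟨g, hg⟩ := MulAction.exists_smul_eq G P P₂
    have hmem : ∀ x : G, x ∈ R ↔ g⁻¹ * x * g ∈ (P : Subgroup G) := by
      intro x
      rw [← hP₂, ← hg]
      rw [Sylow.coe_subgroup_smul, Subgroup.mem_pointwise_smul_iff_inv_smul_mem]
      simp [MulAut.smul_def]
    have hzg : g * z * g⁻¹ ∈ Subgroup.normalizer (R : Set G) := by
      refine Subgroup.mem_normalizer_iff.mpr fun x => ?_
      rw [hmem, hmem, Subgroup.mem_normalizer_iff.mp hzP (g⁻¹ * x * g)]
      rw [show g⁻¹ * (g * z * g⁻¹ * x * (g * z * g⁻¹)⁻¹) * g = z * (g⁻¹ * x * g) * z⁻¹ by group]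
    obtain ⟨h, hh, hh'⟩ := TwoFusion.exists_conj_mem_of_isolated hz (isConj_iff.mpr ⟨g, rfl⟩ : IsConj z (g * z * g⁻¹))
      (IsConj.refl z) hzg hzR
    set c := h * g with hc
    have hcC : c ∈ C := by
      rw [hC, Subgroup.mem_centralizer_singleton_iff]
      calc c * z = h * (g * z * g⁻¹) * h⁻¹ * (h * g) := by rw [hc]; group
        _ = z * c := by rw [hh']
    have hmap : Qm.map (MulAut.conj c⁻¹).toMonoidHom ≤ P₀ := by
      rintro _ ⟨q, hq, rfl⟩
      simp only [MulEquiv.coe_toMonoidHom, MulAut.conj_apply, inv_inv]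
      refine ⟨?_, mul_mem (mul_mem (Subgroup.inv_mem _ hcC) (hQC hq)) hcC⟩
      have h1 : h⁻¹ * q * h ∈ R := by
        have := (Subgroup.mem_normalizer_iff.mp (inv_mem hh) q).mp (hQR hq)
        rwa [inv_inv] at this
      have h2 := (hmem _).mp h1
      rwa [show g⁻¹ * (h⁻¹ * q * h) * g = c⁻¹ * q * c by rw [hc]; group] at h2
    have hle : P₀.subgroupOf C ≤ (Q : Subgroup C) := hQ
    have hcard : Nat.card (Q : Subgroup C) ≤ Nat.card (P₀.subgroupOf C) := by
      have h1 := Subgroup.card_le_of_le hmap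
      rw [Nat.card_congr ((Qm.equivMapOfInjective _ (MulAut.conj c⁻¹).injective).symm.toEquiv),
        Nat.card_congr (((Q : Subgroup C).equivMapOfInjective C.subtype C.subtype_injective).symm.toEquiv),
        ← Nat.card_congr (Subgroup.subgroupOfEquivOfLe (inf_le_right : P₀ ≤ C)).toEquiv] at h1
      exact h1
    have heq := Subgroup.eq_of_le_of_card_ge hle hcard
    show ¬ p ∣ (P₀.subgroupOf C).index
    rw [heq]
    exact Q.not_dvd_index
  · -- the inverted elements represent the cosets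
    symm
    rw [Subgroup.relIndex, Subgroup.index_eq_card]
    refine Nat.card_congr (Equiv.ofBijective
      (fun x : {x : G // x ∈ P ∧ z * x * z⁻¹ = x⁻¹} =>
        (QuotientGroup.mk (⟨x.1, x.2.1⟩ : (P : Subgroup G)) : (P : Subgroup G) ⧸ P₀.subgroupOf (P : Subgroup G))) ?_)
    have hoddP : ∀ x ∈ (P : Subgroup G), Odd (orderOf x) := by
      intro x hx
      obtain ⟨k, hk⟩ := hP ⟨x, hx⟩
      have hk' : x ^ p ^ k = 1 := congrArg Subtype.val hk
      exact (((Fact.out : p.Prime).odd_of_ne_two hp).pow).of_dvd_nat (orderOf_dvd_of_pow_eq_one hk')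
    constructor
    · rintro ⟨x, hx, hxi⟩ ⟨y, hy, hyi⟩ hxy
      have h1 := (QuotientGroup.eq.mp hxy : (⟨x, hx⟩ : (P : Subgroup G))⁻¹ * ⟨y, hy⟩ ∈ _)
      have h2 : x⁻¹ * y ∈ C := h1.2
      refine Subtype.ext ?_
      show x = y
      rw [TwoFusion.invRep_unique hz (g := x) (hoddP x hx) hxi (by simp),
        TwoFusion.invRep_unique hz (g := x) (hoddP y hy) hyi h2]
    · intro q
      obtain ⟨⟨g, hg⟩, rfl⟩ := QuotientGroup.mk_surjective q
      obtain ⟨-, hinv, hk⟩ := TwoFusion.invRep_spec hz g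
      have hkP : TwoFusion.invRep z g ∈ (P : Subgroup G) := by
        refine TwoFusion.invRep_mem ?_
        rw [show g * z * g⁻¹ * z = g * (z * g⁻¹ * z⁻¹) by rw [TwoFusion.isolated_inv hz]; group]
        exact mul_mem hg ((Subgroup.mem_normalizer_iff.mp hzP _).mp (inv_mem hg))
      refine ⟨⟨_, hkP, hinv⟩, QuotientGroup.eq.mpr ?_⟩
      refine ⟨mul_mem (Subgroup.inv_mem _ hkP) hg, ?_⟩
      have := inv_mem hk
      rwa [mul_inv_rev, inv_inv] at this

end Cfsg.Agent.S1253
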