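import Cfsg.Statements.S1254
import Cfsg.Agent.TwoFusion.DihedralFusion

set_option autoImplicit false
open Cfsg

namespace Cfsg.Agent.S1254

/-- Let X be a finite group whose Sylow 2-subgroup S is dihedral (of order at least 4). Then X has a normal 2-complement if and only if, for every Klein four-subgroup U ≤ S, the normalizer N_X(U) is generated by C_X(U) and N_S(U). -/
theorem result {X : Type*} [Group X] [Finite X] (S : Sylow 2 X) (m : ℕ) (hm : 2 ≤ m) (eS : (S : Subgroup X) ≃* DihedralGroup m) : Cfsg.HasNormalPComplement 2 X ↔ ∀ U : Subgroup X, U ≤ S → IsKleinFour U → Subgroup.normalizer (U : Set X) = Subgroup.centralizer (U : Set X) ⊔ ((S : Subgroup X) ⊓ Subgroup.normalizer (U : Set X)) := by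
  refine ⟨fun hN U hUS _ => TwoFusion.normalizer_eq_of_complement hN S hUS, fun hsup => ?_⟩
  refine TwoFusion.hasNormalTwoComplement_of_odd_centralizes S fun U hUS c hc hodd => ?_
  have hfour : TwoFusion.IsFour U → c ∈ Subgroup.centralizer (U : Set X) := fun hU =>
    TwoFusion.odd_centralizes_of_sup S (hsup U hUS hU.isKleinFour) hc hodd
  rcases TwoFusion.dihedral_cases hm eS with h4 | ⟨⟨n, a, b, h⟩, -⟩
  · by_cases hU : U = (S : Subgroup X)
    · exact hfour (hU ▸ h4)
    have hd : Nat.card U ∣ 4 := h4.1 ▸ Subgroup.card_dvd_of_le hUS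
    have hle : Nat.card U ≤ 2 := by
      have h1 : Nat.card U ≠ 4 := fun e => hU (Subgroup.eq_of_le_of_card_ge hUS (by rw [e, h4.1]))
      rcases (Nat.dvd_prime_pow Nat.prime_two (m := 2)).1 hd with ⟨k, hk, e⟩
      interval_cases k <;> simp_all
    refine Subgroup.mem_centralizer_iff.2 fun x hx => ?_
    have hcx := (Subgroup.mem_normalizer_iff.1 hc x).1 hx
    by_cases hx1 : x = 1
    · subst hx1; simp
    suffices h1 : c * x * c⁻¹ = x from (mul_inv_eq_iff_eq_mul.1 h1).symm
    by_contra hne
    classical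
    haveI := Fintype.ofFinite U
    have h3 : ({1, ⟨x, hx⟩, ⟨_, hcx⟩} : Finset U).card = 3 := by
      rw [Finset.card_eq_three]
      exact ⟨_, _, _, fun e => hx1 (congrArg Subtype.val e).symm,
        fun e => hx1 (conj_eq_one_iff.1 (congrArg Subtype.val e).symm),
        fun e => hne (congrArg Subtype.val e).symm, rfl⟩
    have h5 := Finset.card_le_univ ({1, ⟨x, hx⟩, ⟨_, hcx⟩} : Finset U)
    rw [h3, ← Nat.card_eq_fintype_card] at h5
    omega
  · refine TwoFusion.MC.odd_centralizes h.toMaxClassData hUS (fun hU => ?_)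
      (fun hU => (TwoFusion.Dih.not_q8 h hU hUS).elim) hc hodd
    refine (TwoFusion.MC.four_r h.toMaxClassData hU hUS).resolve_right fun e6 => ?_
    obtain ⟨d, hdN, hdo, hdC⟩ :=
      TwoFusion.exists_odd_not_mem_of_six (TwoFusion.centralizer_normal_in_normalizer U) e6
    exact hdC (TwoFusion.odd_centralizes_of_sup S (hsup U hUS hU.isKleinFour) hdN hdo)

end Cfsg.Agent.S1254
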