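import Cfsg.Statements.S1255
import Cfsg.Agent.TwoFusion.DihedralFusion

set_option autoImplicit false
open Cfsg

namespace Cfsg.Agent.S1255

/-- Let X be a finite group whose Sylow 2-subgroup S is dihedral of order 2m ≥ 4. Then X has no subgroup of index 2 and no isolated involution if and only if either all involutions of X are conjugate, or for every Klein four-subgroup U ≤ S the index |N_X(U) : C_X(U)| equals 3 when |S| = 4 and equals 6 when |S| > 4. -/
theorem result {X : Type*} [Group X] [Finite X] (S : Sylow 2 X) (m : ℕ) (hm : 2 ≤ m) (eS : (S : Subgroup X) ≃* DihedralGroup m) : ((∀ H : Subgroup X, H.index ≠ 2) ∧ (∀ z : X, ¬ Cfsg.IsIsolatedInvolution z)) ↔ ((∀ a b : X, orderOf a = 2 → orderOf b = 2 → IsConj a b) ∨ (∀ U : Subgroup X, U ≤ S → IsKleinFour U → (Subgroup.centralizer (U : Set X)).relIndex (Subgroup.normalizer (U : Set X)) = (if Nat.card S = 4 then 3 else 6))) := by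
  have hiff : (∀ a b : X, orderOf a = 2 → orderOf b = 2 → IsConj a b) ↔
      (∀ U : Subgroup X, U ≤ S → IsKleinFour U →
        (Subgroup.centralizer (U : Set X)).relIndex (Subgroup.normalizer (U : Set X)) =
          (if Nat.card S = 4 then 3 else 6)) := by
    rcases TwoFusion.dihedral_cases hm eS with h4 | ⟨⟨n, a, b, h⟩, hlt⟩
    · have hS4 : Nat.card S = 4 := h4.1
      refine ⟨fun hA U hUS hU => ?_, fun hB =>
        TwoFusion.all_conj_of_relIndex_ne_one h4 (by
          rw [hB _ le_rfl h4.isKleinFour, if_pos hS4]; norm_num)⟩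
      have hU' := TwoFusion.isFour_of_isKleinFour hU
      rw [if_pos hS4, Subgroup.eq_of_le_of_card_ge hUS (by rw [hU'.1, h4.1])]
      exact TwoFusion.relIndex_eq_three_of_all_conj h4 hA
    · have hS4 : ¬ Nat.card S = 4 := fun e => by
        have e' : Nat.card (S : Subgroup X) = 4 := e
        omega
      refine ⟨fun hA U hUS hU => ?_, fun hB => TwoFusion.Dih.all_conj_of_six h fun U hU hUS => ?_⟩
      · rw [if_neg hS4]
        exact TwoFusion.Dih.six_of_all_conj h hA (TwoFusion.isFour_of_isKleinFour hU) hUS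
      · rw [hB U hUS hU.isKleinFour, if_neg hS4]
  constructor
  · rintro ⟨hno, -⟩
    rcases TwoFusion.dihedral_cases hm eS with h4 | ⟨⟨n, a, b, h⟩, -⟩
    · exact Or.inl (TwoFusion.all_conj_of_no_index_two_four h4 hno)
    · exact Or.inl (TwoFusion.Dih.all_conj_of_no_index_two h hno)
  · intro hor
    exact TwoFusion.simple_of_all_conj hm eS (hor.elim id hiff.2)

end Cfsg.Agent.S1255
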