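import Cfsg.Statements.S1258
import Cfsg.Agent.Components.Basic
open Subgroup Cfsg.Agent.Components
open scoped commutatorElement
-- import your own Cfsg.Agent.* helpers here

set_option autoImplicit false
open Cfsg

namespace Cfsg.Agent.S1258

/-- If the central quotient of a finite group X is non-abelian simple, then X = X' Z(X) and the commutator subgroup X' is quasisimple. -/
theorem result {X : Type*} [Group X] [Finite X] (hs : IsSimpleGroup (X ⧸ Subgroup.center X)) (hna : ¬ IsMulCommutative (X ⧸ Subgroup.center X)) : commutator X ⊔ Subgroup.center X = ⊤ ∧ Cfsg.IsQuasisimple ↥(commutator X) := by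
  classical
  set Z := Subgroup.center X with hZ
  set D := commutator X with hD
  have hcomm : ∀ N : Subgroup X, N ⊔ Z = ⊤ → D ≤ ⁅N, N⁆ := by
    intro N hN
    rw [hD, commutator_def, commutator_le]
    intro a _ b _
    have ha : a ∈ N ⊔ Z := by rw [hN]; exact mem_top a
    have hb : b ∈ N ⊔ Z := by rw [hN]; exact mem_top b
    obtain ⟨n, hn, z, hz, rfl⟩ := mem_sup_of_normal_right.mp ha
    obtain ⟨m, hm, w, hw, rfl⟩ := mem_sup_of_normal_right.mp hb
    have e : ⁅n * z, m * w⁆ = ⁅n, m⁆ := by
      rw [commutatorElement_def, commutatorElement_def]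
      have hz' := fun y : X => mem_center_iff.mp hz y
      have hw' := fun y : X => mem_center_iff.mp hw y
      calc n * z * (m * w) * (n * z)⁻¹ * (m * w)⁻¹
          = n * (z * (m * w)) * z⁻¹ * n⁻¹ * (m * w)⁻¹ := by group
        _ = n * ((m * w) * z) * z⁻¹ * n⁻¹ * (m * w)⁻¹ := by rw [hz']
        _ = n * m * (w * n⁻¹) * w⁻¹ * m⁻¹ := by group
        _ = n * m * (n⁻¹ * w) * w⁻¹ * m⁻¹ := by rw [hw']
        _ = n * m * n⁻¹ * m⁻¹ := by group
    rw [e]
    exact commutator_mem_commutator hn hm
  have htop : D ⊔ Z = ⊤ := by
    have := hs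
    have hn : (D.map (QuotientGroup.mk' Z)).Normal :=
      (inferInstance : D.Normal).map _ (QuotientGroup.mk'_surjective _)
    rcases hn.eq_bot_or_eq_top with hb | ht
    · exfalso
      refine hna ((commutator_eq_bot_iff (G := X ⧸ Z)).mp ?_)
      rw [← hb, hD, commutator_def, commutator_def, Subgroup.map_commutator,
        map_top_of_surjective _ (QuotientGroup.mk'_surjective _)]
    · have := congrArg (comap (QuotientGroup.mk' Z)) ht
      rwa [comap_map_eq, QuotientGroup.ker_mk', comap_top] at this
  refine ⟨htop, ?_⟩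
  have hperf : ⁅D, D⁆ = D := le_antisymm (commutator_le_self D) (hcomm D htop)
  have : Group.IsPerfect D := Subgroup.isPerfect_iff.mpr hperf
  have hne : D ≠ ⊥ := fun h => by
    rw [hD, commutator_eq_bot_iff] at h
    refine hna ⟨⟨fun a b => ?_⟩⟩
    induction a using QuotientGroup.induction_on with | _ a =>
    induction b using QuotientGroup.induction_on with | _ b =>
    rw [← QuotientGroup.mk_mul, ← QuotientGroup.mk_mul, h.is_comm.comm]
  have : Nontrivial D := (nontrivial_iff_ne_bot D).mpr hne
  refine quasisimple_of_forall_normal fun N hN => ?_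
  set N' := N.map D.subtype with hN'
  have hle : N' ≤ D := map_subtype_le N
  have hnorm : N'.Normal := by
    rw [← normalizer_eq_top_iff, eq_top_iff, ← htop]
    refine sup_le ?_ ((center_le_centralizer _).trans (centralizer_le_normalizer _))
    have := le_normalizer_map (H := N) D.subtype
    rwa [normalizer_eq_top_iff.mpr hN, ← MonoidHom.range_eq_map, range_subtype] at this
  have := hs
  rcases (hnorm.map _ (QuotientGroup.mk'_surjective Z)).eq_bot_or_eq_top with hb | ht
  · right
    rw [Subgroup.map_eq_bot_iff, QuotientGroup.ker_mk'] at hb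
    intro n hn
    rw [mem_center_iff]
    exact fun d => Subtype.ext (mem_center_iff.mp (hb (mem_map_of_mem D.subtype hn)) d)
  · left
    have h1 : N' ⊔ Z = ⊤ := by
      have := congrArg (comap (QuotientGroup.mk' Z)) ht
      rwa [comap_map_eq, QuotientGroup.ker_mk', comap_top] at this
    have h2 : D ≤ N' := (hcomm N' h1).trans (commutator_le_self N')
    rw [← map_subtype_inj, ← hN', ← MonoidHom.range_eq_map, range_subtype]
    exact le_antisymm hle h2

end Cfsg.Agent.S1258
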