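import Cfsg.Statements.S1263
import Cfsg.Agent.Components.Basic
open Subgroup Cfsg.Agent.Components
open scoped commutatorElement
-- import your own Cfsg.Agent.* helpers here

set_option autoImplicit false
open Cfsg

namespace Cfsg.Agent.S1263

/-- For a finite group G, Z(E(G)) is the subgroup generated by the centres Z(L) of the components L of G (all viewed as subgroups of G). -/
theorem result {G : Type*} [Group G] [Finite G] : (Subgroup.center ↥(Cfsg.layer G)).map (Cfsg.layer G).subtype = ⨆ L : {K : Subgroup G // Cfsg.IsComponent K}, (Subgroup.center ↥(L : Subgroup G)).map (L : Subgroup G).subtype := by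
  classical
  set W := ⨆ L : {K : Subgroup G // Cfsg.IsComponent K},
    (Subgroup.center ↥(L : Subgroup G)).map (L : Subgroup G).subtype with hW
  have key : ∀ S : Set (Subgroup G), S.Finite → (∀ K ∈ S, Cfsg.IsComponent K) →
      ∀ x : G, x ∈ sSup S → (∀ K ∈ S, ∀ k ∈ K, k * x = x * k) → x ∈ W := by
    intro S hS
    induction S, hS using Set.Finite.induction_on with
    | empty =>
      intro _ x hx _
      rw [sSup_empty, mem_bot] at hx
      exact hx ▸ one_mem _
    | @insert K S hKS _ ih =>
      intro hcomp x hx hcent
      have hK := hcomp K (Set.mem_insert _ _)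
      have hC : ⁅K, sSup S⁆ = ⊥ := by
        rw [commutator_comm, commutator_eq_bot_iff_le_centralizer, sSup_le_iff]
        intro L hL
        rw [← commutator_eq_bot_iff_le_centralizer]
        exact component_commute (hcomp L (Set.mem_insert_of_mem _ hL)) hK
          (fun h => hKS (h ▸ hL))
      have hle : sSup S ≤ normalizer (K : Set G) := sSup_le fun L hL =>
        component_normalizes hK (hcomp L (Set.mem_insert_of_mem _ hL))
      rw [sSup_insert, ← SetLike.mem_coe, coe_mul_of_right_le_normalizer_left _ _ hle] at hx
      obtain ⟨k, hk, y, hy, rfl⟩ := Set.mem_mul.mp hx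
      have hyK : ∀ z ∈ K, z * y = y * z := fun z hz =>
        commutatorElement_eq_one_iff_mul_comm.mp (mem_bot.mp (hC ▸ commutator_mem_commutator hz hy))
      have hkK : ∀ z ∈ K, z * k = k * z := by
        intro z hz
        have h := hcent K (Set.mem_insert _ _) z hz
        rw [← mul_assoc, mul_assoc k y z, ← hyK z hz, ← mul_assoc] at h
        exact mul_right_cancel h
      refine mul_mem (le_iSup (fun L : {K : Subgroup G // Cfsg.IsComponent K} =>
        (Subgroup.center ↥(L : Subgroup G)).map (L : Subgroup G).subtype) ⟨K, hK⟩ ?_) ?_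
      · exact ⟨⟨k, hk⟩, mem_center_iff.mpr fun z => Subtype.ext (hkK z z.2), rfl⟩
      · refine ih (fun L hL => hcomp L (Set.mem_insert_of_mem _ hL)) y hy fun L hL l hl => ?_
        have h := hcent L (Set.mem_insert_of_mem _ hL) l hl
        have hlk : k * l = l * k := commutatorElement_eq_one_iff_mul_comm.mp (mem_bot.mp
          (component_commute hK (hcomp L (Set.mem_insert_of_mem _ hL)) (fun h => hKS (h ▸ hL)) ▸
            commutator_mem_commutator hk hl))
        rw [← mul_assoc, ← hlk, mul_assoc, mul_assoc] at h
        exact mul_left_cancel h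
  refine le_antisymm ?_ (iSup_le ?_)
  · rintro _ ⟨z, hz, rfl⟩
    refine key _ (Set.toFinite {K : Subgroup G | Cfsg.IsComponent K}) (fun K hK => hK) _ z.2 ?_
    intro K hK k hk
    exact congrArg Subtype.val (mem_center_iff.mp hz ⟨k, component_le_layer hK hk⟩)
  · rintro ⟨K, hK⟩ _ ⟨z, hz, rfl⟩
    refine ⟨⟨z, component_le_layer hK z.2⟩, ?_, rfl⟩
    have h : Cfsg.layer G ≤ centralizer {(z : G)} := by
      rw [layer_le_iff]
      intro L hL l hl
      rw [mem_centralizer_singleton_iff]
      rcases eq_or_ne L K with rfl | hne
      · exact congrArg Subtype.val (mem_center_iff.mp hz ⟨l, hl⟩)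
      · exact commutatorElement_eq_one_iff_mul_comm.mp
          (mem_bot.mp (component_commute hL hK hne ▸ commutator_mem_commutator hl z.2))
    exact mem_center_iff.mpr fun l => Subtype.ext (mem_centralizer_singleton_iff.mp (h l.2))

end Cfsg.Agent.S1263
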