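import Cfsg.Statements.S1264
import Cfsg.Agent.Components.FStar
open Subgroup Cfsg.Agent.Components
open scoped commutatorElement
-- import your own Cfsg.Agent.* helpers here

set_option autoImplicit false
open Cfsg

namespace Cfsg.Agent.S1264

/-- Let G be finite, C = C_G(F(G)) the centralizer of the Fitting subgroup, and N a solvable subgroup of C normalized by C. Then N ≤ Z(F(G)). -/
theorem result {G : Type*} [Group G] [Finite G] (N : Subgroup G) (hN : N ≤ Subgroup.centralizer (Cfsg.fittingSubgroup G : Set G)) (hnorm : Subgroup.centralizer (Cfsg.fittingSubgroup G : Set G) ≤ Subgroup.normalizer (N : Set G)) (hsolv : Group.IsSolvable ↥N) : N ≤ (Subgroup.center ↥(Cfsg.fittingSubgroup G)).map (Cfsg.fittingSubgroup G).subtype := by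
  classical
  set F := Cfsg.fittingSubgroup G with hF
  set C := centralizer (F : Set G) with hC
  have hFn : F.Normal := fitting_normal
  have hCn : C.Normal := normal_centralizer
  suffices h : N ≤ F by
    intro n hn
    exact ⟨⟨n, h hn⟩, mem_center_iff.mpr fun f => Subtype.ext (hN hn _ f.2), rfl⟩
  have hNs : N.IsSubnormal :=
    IsSubnormal.step _ C hN hCn.isSubnormal (normal_subgroupOf_of_le_normalizer hnorm)
  by_contra hle
  obtain ⟨X, ⟨hXs, hXN, hXF⟩, hmin⟩ := WellFounded.has_min wellFounded_lt
    {X : Subgroup G | X.IsSubnormal ∧ X ≤ N ∧ ¬ X ≤ F} ⟨N, hNs, le_rfl, hle⟩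
  have : Group.IsSolvable X := by
    have := hsolv
    exact Group.isSolvable_of_isSolvable_injective (f := Subgroup.inclusion hXN)
      (Subgroup.inclusion_injective hXN)
  refine hXF (subnormal_nilpotent_le_fitting hXs ?_)
  by_cases hD : ⁅X, X⁆ ≤ F
  · refine nilpotent_of_commutator_le_center fun d hd => ?_
    have hdX : (d : G) ∈ ⁅X, X⁆ := by
      rw [← map_subtype_commutator]
      exact ⟨d, hd, rfl⟩
    exact mem_center_iff.mpr fun x => Subtype.ext ((hN (hXN x.2) _ (hD hdX)).symm)
  · exfalso
    have hDs : ⁅X, X⁆.IsSubnormal :=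
      IsSubnormal.step _ X (commutator_le_self X) hXs
        (normal_subgroupOf_of_le_normalizer (normalizer_commutator_ge_left X X))
    rcases (commutator_le_self X).eq_or_lt with h | h
    · exact hXF ((eq_bot_of_perfect_solvable h).le.trans bot_le)
    · exact hmin _ ⟨hDs, (commutator_le_self X).trans hXN, hD⟩ h

end Cfsg.Agent.S1264
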