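import Cfsg.Statements.S1266
import Cfsg.Agent.Components.Local
open Subgroup Cfsg.Agent.Components
open scoped commutatorElement
-- import your own Cfsg.Agent.* helpers here

set_option autoImplicit false
open Cfsg

namespace Cfsg.Agent.S1266

/-- Let P be a p-subgroup of the finite group G and N = N_G(P). Then the preimage in N of E(N / O_{p'}(N)) centralizes O_p(G). -/
theorem result {G : Type*} [Group G] [Finite G] (p : ℕ) [Fact p.Prime] (P : Subgroup G) (hP : IsPGroup p ↥P) : (((Cfsg.layer (↥(Subgroup.normalizer ((P : Subgroup G) : Set G)) ⧸ Cfsg.pPrimeCore p ↥(Subgroup.normalizer ((P : Subgroup G) : Set G)))).comap (QuotientGroup.mk' (Cfsg.pPrimeCore p ↥(Subgroup.normalizer ((P : Subgroup G) : Set G))))).map (Subgroup.normalizer ((P : Subgroup G) : Set G)).subtype) ≤ Subgroup.centralizer (Cfsg.pCore p G : Set G) := by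
  rw [← layerCore_eq]
  refine layerCore_le_centralizer hP (centralizer_le_normalizer _) le_rfl
    (layerCore_le_centralizer_self hP le_rfl (Or.inl le_normalizer)) Cores.pCore_isPGroup ?_ ?_ <;>
  · rw [normalizer_eq_top_iff.mpr (inferInstance : (Cfsg.pCore p G).Normal)]
    exact le_top

end Cfsg.Agent.S1266
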