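import Cfsg.Statements.S1267
import Cfsg.Agent.Components.Local
open Subgroup Cfsg.Agent.Components
open scoped commutatorElement
-- import your own Cfsg.Agent.* helpers here

set_option autoImplicit false
open Cfsg

namespace Cfsg.Agent.S1267

/-- Let G be finite and P ≤ O_p(G). Then E(N_G(P)) = E(G). -/
theorem result {G : Type*} [Group G] [Finite G] (p : ℕ) [Fact p.Prime] (P : Subgroup G) (hP : P ≤ Cfsg.pCore p G) : (Cfsg.layer ↥(Subgroup.normalizer ((P : Subgroup G) : Set G))).map (Subgroup.normalizer ((P : Subgroup G) : Set G)).subtype = Cfsg.layer G := by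
  set N := Subgroup.normalizer (P : Set G) with hN
  have hQ : IsPGroup p (Cfsg.pCore p G) := Cores.pCore_isPGroup
  have hPp : IsPGroup p P := hQ.to_le hP
  set C := centralizer (Cfsg.pCore p G : Set G) with hC
  have hCn : C.Normal := normal_centralizer
  have hCP : C ≤ centralizer (P : Set G) := centralizer_le hP
  have hCN : C ≤ N := hCP.trans (centralizer_le_normalizer _)
  have hsolv : ∀ V : Subgroup G, IsPGroup p V → Group.IsSolvable (V.subgroupOf N) := by
    intro V hV
    have : Group.IsNilpotent (V.subgroupOf N) := (hV.comap_subtype (K := N)).isNilpotent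
    infer_instance
  refine le_antisymm ?_ (layer_le_iff.mpr fun K hK => ?_)
  · rw [map_le_iff_le_comap, layer_le_iff]
    intro K hK
    rw [← map_le_iff_le_comap]
    have hKP : ∀ V : Subgroup G, IsPGroup p V → V ≤ N → N ≤ normalizer (V : Set G) →
        K.map N.subtype ≤ centralizer (V : Set G) := by
      intro V hV hVN hn
      have hVn := normal_subgroupOf_of_le_normalizer hn
      have h := component_centralizes_solvable hK (hsolv V hV)
        (le_top.trans (normalizer_eq_top_iff.mpr hVn).ge)
      rw [commutator_eq_bot_iff_le_centralizer] at h
      rintro _ ⟨k, hk, rfl⟩ v hv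
      exact congrArg Subtype.val (h hk ⟨v, hVN hv⟩ (mem_subgroupOf.mpr hv))
    have hK1 : K.map N.subtype ≤ centralizer (P : Set G) := hKP P hPp le_normalizer le_rfl
    have hK2 : K.map N.subtype ≤ C := by
      have hQn : ∀ X : Subgroup G, X ≤ normalizer (Cfsg.pCore p G : Set G) := fun X => by
        rw [normalizer_eq_top_iff.mpr (inferInstance : (Cfsg.pCore p G).Normal)]
        exact le_top
      refine perfect_centralizes_of_pxq hPp hQ (hQn _) ?_ (hQn _) hK1 (hKP _ (hQ.to_le inf_le_left)
        (inf_le_right.trans (centralizer_le_normalizer _)) ?_)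
      · rw [← Subgroup.map_commutator, component_commutator_self hK]
      · refine le_normalizer_iff_commutator_le_right.mpr (le_inf ?_ ?_)
        · exact (commutator_mono le_rfl inf_le_left).trans (commutator_le_right _ _)
        · exact (commutator_mono le_rfl inf_le_right).trans
            (le_normalizer_iff_commutator_le_right.mp (normalizer_le_normalizer_centralizer P))
    have hKc : Cfsg.IsComponent ((K.map N.subtype).subgroupOf C) := by
      refine ⟨?_, quasisimple_of_mulEquiv ((K.equivMapOfInjective _ N.subtype_injective).trans
        (subgroupOfEquivOfLe hK2).symm) hK.2⟩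
      have heq : (K.map N.subtype).subgroupOf C = K.comap (Subgroup.inclusion hCN) := by
        ext x
        constructor
        · rintro ⟨k, hk, hkx⟩
          have : k = Subgroup.inclusion hCN x := Subtype.ext hkx
          show Subgroup.inclusion hCN x ∈ K
          rw [← this]
          exact hk
        · exact fun h => ⟨_, h, rfl⟩
      rw [heq]
      exact hK.1.comap _
    have h := component_of_subnormal_subgroup hCn.isSubnormal hKc
    rw [map_subgroupOf_eq_of_le hK2] at h
    exact component_le_layer h
  · have hKC : K ≤ C := by
      rw [hC, ← commutator_eq_bot_iff_le_centralizer]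
      exact le_bot_iff.mp ((commutator_mono le_rfl pCore_le_fitting).trans
        (component_centralizes_fitting hK).le)
    rw [← map_subgroupOf_eq_of_le (hKC.trans hCN)]
    exact map_mono (component_le_layer (component_subgroupOf hK (hKC.trans hCN)))

end Cfsg.Agent.S1267
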