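import Cfsg.Statements.S1268
import Cfsg.Agent.Components.Local
open Subgroup Cfsg.Agent.Components
open scoped commutatorElement
-- import your own Cfsg.Agent.* helpers here

set_option autoImplicit false
open Cfsg

namespace Cfsg.Agent.S1268

/-- Let G be finite with F*(G) = O_p(G). Then F*(N) = O_p(N) for N the normalizer of any p-subgroup P of G. -/
theorem result {G : Type*} [Group G] [Finite G] (p : ℕ) [Fact p.Prime] (h : Cfsg.generalizedFittingSubgroup G = Cfsg.pCore p G) (P : Subgroup G) (hP : IsPGroup p ↥P) : Cfsg.generalizedFittingSubgroup ↥(Subgroup.normalizer ((P : Subgroup G) : Set G)) = Cfsg.pCore p ↥(Subgroup.normalizer ((P : Subgroup G) : Set G)) := by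
  rw [genFitting_eq_pCore_iff] at h ⊢
  refine centralizer_pCore_le_local (Y := ⊤) hP (centralizer_le_normalizer _) le_rfl
    (Or.inl le_normalizer) le_top (le_top.trans (le_normalizer (H := ⊤))) ?_
  intro c hc
  have hmap := Cores.map_pCore_equiv (p := p) (Subgroup.topEquiv (G := G))
  have hc' : (c : G) ∈ centralizer (Cfsg.pCore p G : Set G) := by
    intro v hv
    rw [← hmap] at hv
    obtain ⟨w, hw, rfl⟩ := hv
    exact congrArg Subtype.val (hc w hw)
  have := h hc'
  rw [← hmap] at this
  obtain ⟨w, hw, hwc⟩ := this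
  exact (Subtype.ext hwc : w = c) ▸ hw

end Cfsg.Agent.S1268
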