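import Cfsg.Statements.S1279
import Cfsg.Agent.Signalizer.Functor
import Cfsg.Agent.CharTwo.Locals
import Cfsg.Agent.PSolv.HallHigman
import Cfsg.Agent.PSolv.Basic

set_option autoImplicit false
open Cfsg

namespace Cfsg.Agent.S1279

/-- Let A be a noncyclic elementary abelian p-subgroup of the finite group G such that C_G(a) is solvable for every non-identity a ∈ A. Then a ↦ O_{p'}(C_G(a)) is a solvable A-signalizer functor on G. -/
theorem result {G : Type*} [Group G] [Finite G] (p : ℕ) [Fact p.Prime] (A : Subgroup G) (hA : Cfsg.IsElementaryAbelian p A) (hA2 : p ^ 2 ≤ Nat.card ↥A) (hsolv : ∀ a ∈ A, a ≠ 1 → Group.IsSolvable ↥(Subgroup.centralizer ({a} : Set G))) : Cfsg.IsSolvableSignalizerFunctor p A (fun a => Cfsg.centralizerPPrimeCore p a) := by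
  open Cfsg.Agent.Signalizer in
  have hcore : ∀ a ∈ A, ∀ b ∈ A, ∀ x ∈ Cfsg.centralizerPPrimeCore p a,
      b * x * b⁻¹ ∈ Cfsg.centralizerPPrimeCore p a := by
    rintro a ha b hb _ ⟨y, hy, rfl⟩
    have hbC : b ∈ Subgroup.centralizer ({a} : Set G) := elemAb_le_centralizer hA ha hb
    exact ⟨⟨b, hbC⟩ * y * ⟨b, hbC⟩⁻¹, (Cfsg.pPrimeCore_normal p _).conj_mem y hy _, rfl⟩
  refine ⟨⟨fun a _ _ => Subgroup.map_subtype_le _, fun a _ _ h => ?_,
    fun a ha _ => hcore a ha, fun a ha ha1 b hb hb1 => ?_⟩, fun a ha ha1 => ?_⟩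
  · have h' : p ∣ Nat.card ↥((Cfsg.pPrimeCore p ↥(Subgroup.centralizer ({a} : Set G))).map
        (Subgroup.centralizer ({a} : Set G)).subtype) := h
    rw [Subgroup.card_map_of_injective (Subgroup.subtype_injective _)] at h'
    exact Cfsg.Agent.Cores.not_dvd_card_pPrimeCore h'
  · exact Cfsg.Agent.CharTwo.coreIn_inf_le (Cfsg.Agent.Signalizer.elemAb_comm hA ha hb)
      (Cfsg.Agent.Signalizer.elemAb_orderOf hA ha ha1)
      (Cfsg.Agent.PSolv.isPConstrained_of_isPSolvable
        (Cfsg.Agent.PSolv.isPSolvable_of_isSolvable (hsolv b hb hb1)))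
  · exact Cfsg.Agent.Signalizer.isSolvable_subgroup_of_le (Subgroup.map_subtype_le _)
      (hsolv a ha ha1)

end Cfsg.Agent.S1279
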