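import Cfsg.Statements.S1281
import Cfsg.Agent.Signalizer.Functor

set_option autoImplicit false
open Cfsg

namespace Cfsg.Agent.S1281

/-- Let θ be a solvable A-signalizer functor on the finite group G (A a noncyclic elementary abelian p-subgroup) and N a normal subgroup of order prime to p. Then for all non-identity a, b ∈ A, the image of θ a in G / N meets the centralizer of the image of b inside the image of θ b. -/
theorem result {G : Type*} [Group G] [Finite G] (p : ℕ) [Fact p.Prime] (A : Subgroup G) (hA : Cfsg.IsElementaryAbelian p A) (hA2 : p ^ 2 ≤ Nat.card ↥A) (θ : G → Subgroup G) (hθ : Cfsg.IsSolvableSignalizerFunctor p A θ) (N : Subgroup G) [N.Normal] (hN : ¬ p ∣ Nat.card ↥N) (a b : G) (ha : a ∈ A) (ha1 : a ≠ 1) (hb : b ∈ A) (hb1 : b ≠ 1) : (θ a).map (QuotientGroup.mk' N) ⊓ Subgroup.centralizer {QuotientGroup.mk' N b} ≤ (θ b).map (QuotientGroup.mk' N) := by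
  open Cfsg.Agent.Signalizer in
  have hz : Subgroup.zpowers b ≤ A := Subgroup.zpowers_le.2 hb
  have h := map_inf_centralizer (p := p) (A := Subgroup.zpowers b) (X := θ a) (QuotientGroup.mk' N)
    ((Cfsg.Agent.Signalizer.elemAb_isPGroup hA).to_le hz)
    (hz.trans (Cfsg.Agent.Signalizer.SF.le_normalizer hθ.1 ha ha1))
    (Cfsg.Agent.Signalizer.not_dvd_card_of_le inf_le_left (hθ.1.2.1 a ha ha1))
  rw [MonoidHom.map_zpowers, Cfsg.Agent.Signalizer.centralizer_zpowers,
    Cfsg.Agent.Signalizer.centralizer_zpowers] at h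
  rw [h]
  exact Subgroup.map_mono (hθ.1.2.2.2 a ha ha1 b hb hb1)

end Cfsg.Agent.S1281
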