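import Cfsg.Statements.S1282
import Cfsg.Agent.Signalizer.Generation
import Cfsg.Agent.Components.Basic
open Subgroup Cfsg.Agent.Components
open scoped commutatorElement
-- import your own Cfsg.Agent.* helpers here

set_option autoImplicit false
open Cfsg

namespace Cfsg.Agent.S1282

/-- Let A be an elementary abelian p-subgroup of rank at least 3 of the finite group G, q ≠ p a prime, and Q₁, Q₂ q-subgroups normalized by A with D = Q₁ ∩ Q₂ different from both. Then there is a non-identity a ∈ A such that, for i = 1 and i = 2, N_{Q_i}(D) ∩ C_G(a) is not contained in D. -/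
theorem result {G : Type*} [Group G] [Finite G] (p : ℕ) [Fact p.Prime] (A : Subgroup G) (hA : Cfsg.IsElementaryAbelian p A) (hA3 : p ^ 3 ≤ Nat.card ↥A) (q : ℕ) [Fact q.Prime] (hqp : q ≠ p) (Q₁ Q₂ : Subgroup G) (h₁ : IsPGroup q ↥Q₁) (h₂ : IsPGroup q ↥Q₂) (hA₁ : A ≤ Subgroup.normalizer (Q₁ : Set G)) (hA₂ : A ≤ Subgroup.normalizer (Q₂ : Set G)) (hD₁ : Q₁ ⊓ Q₂ ≠ Q₁) (hD₂ : Q₁ ⊓ Q₂ ≠ Q₂) : ∃ a ∈ A, a ≠ 1 ∧ ¬ (Subgroup.normalizer ((Q₁ ⊓ Q₂ : Subgroup G) : Set G) ⊓ Q₁ ⊓ Subgroup.centralizer {a} ≤ Q₁ ⊓ Q₂) ∧ ¬ (Subgroup.normalizer ((Q₁ ⊓ Q₂ : Subgroup G) : Set G) ⊓ Q₂ ⊓ Subgroup.centralizer {a} ≤ Q₁ ⊓ Q₂) := by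
  classical
  set D := Q₁ ⊓ Q₂ with hD
  have hAD : A ≤ normalizer (D : Set G) := Signalizer.le_normalizer_inf hA₁ hA₂
  have key : ∀ Q : Subgroup G, IsPGroup q Q → A ≤ normalizer (Q : Set G) → D < Q →
      ∃ B : Subgroup G, B ≤ A ∧ B.relIndex A ≤ p ∧
        ¬ normalizer (D : Set G) ⊓ Q ⊓ centralizer (B : Set G) ≤ D := by
    intro Q hQ hAQ hlt
    have hcard : ¬ p ∣ Nat.card (normalizer (D : Set G) ⊓ Q : Subgroup G) := by
      obtain ⟨n, hn⟩ := IsPGroup.iff_card.mp (hQ.to_le (inf_le_right : normalizer (D : Set G) ⊓ Q ≤ Q))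
      rw [hn]
      exact fun h => hqp ((Nat.prime_dvd_prime_iff_eq (Fact.out : p.Prime) (Fact.out : q.Prime)).mp
        ((Fact.out : p.Prime).dvd_of_dvd_pow h)).symm
    have hnot : ¬ normalizer (D : Set G) ⊓ Q ≤ D := by
      intro hle
      have : Group.IsNilpotent Q := hQ.isNilpotent
      have hlt' : D.subgroupOf Q < ⊤ := lt_top_iff_ne_top.mpr fun h =>
        hlt.not_ge (subgroupOf_eq_top.mp h)
      obtain ⟨g, hg1, hg2⟩ := SetLike.exists_of_lt (Group.normalizerCondition_of_isNilpotent _ hlt')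
      refine hg2 (mem_subgroupOf.mpr (hle ⟨?_, g.2⟩))
      refine mem_normalizer_iff_map_conj_eq.symm.mp (eq_of_le_of_card_ge ?_ ?_)
      · rintro _ ⟨y, hy, rfl⟩
        exact (mem_normalizer_iff.mp hg1 ⟨y, hlt.le hy⟩).mp hy
      · rw [card_map_of_injective (MulAut.conj (g : G)).injective]
    by_contra hcon
    push Not at hcon
    exact hnot (Signalizer.le_of_forall_hyperplane hA
      (Signalizer.le_normalizer_inf (hAD.trans le_normalizer) hAQ) hcard hcon)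
  obtain ⟨B₁, hB₁, hi₁, hn₁⟩ := key Q₁ h₁ hA₁ (lt_of_le_of_ne inf_le_left hD₁)
  obtain ⟨B₂, hB₂, hi₂, hn₂⟩ := key Q₂ h₂ hA₂ (lt_of_le_of_ne inf_le_right hD₂)
  obtain ⟨a, ha, ha1⟩ : ∃ a ∈ B₁ ⊓ B₂, a ≠ 1 := by
    refine Signalizer.exists_ne_one_of_le_card ?_
    have h := Nat.card_pos (α := (B₁ ⊓ B₂ : Subgroup G))
    have hmul : Nat.card (B₁ ⊓ B₂ : Subgroup G) * (B₁ ⊓ B₂).relIndex A = Nat.card A := by
      rw [← relIndex_bot_left, relIndex_mul_relIndex _ _ _ bot_le (inf_le_left.trans hB₁),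
        relIndex_bot_left]
    have hle : (B₁ ⊓ B₂).relIndex A ≤ p * p :=
      (relIndex_inf_le).trans (Nat.mul_le_mul hi₁ hi₂)
    by_contra hle1
    push Not at hle1
    have h2 : Nat.card A ≤ 1 * (p * p) := hmul ▸ Nat.mul_le_mul hle1 hle
    have h3 : p ^ 3 ≤ p * p := hA3.trans (by rwa [one_mul] at h2)
    have := (Fact.out : p.Prime).two_le
    nlinarith
  refine ⟨a, hB₁ ha.1, ha1, fun h => hn₁ ?_, fun h => hn₂ ?_⟩
  · exact (inf_le_inf_left _ (centralizer_le (Set.singleton_subset_iff.mpr ha.1))).trans h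
  · exact (inf_le_inf_left _ (centralizer_le (Set.singleton_subset_iff.mpr ha.2))).trans h

end Cfsg.Agent.S1282
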