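import Cfsg.Statements.S1288
import Cfsg.Agent.Components.Perm
import Cfsg.Agent.Signalizer.Generation
import Cfsg.Agent.PSolv.HallHigman
import Cfsg.Agent.Coprime.Generation
open Subgroup Cfsg.Agent.Components
open scoped commutatorElement
-- import your own Cfsg.Agent.* helpers here

set_option autoImplicit false
open Cfsg

namespace Cfsg.Agent.S1288

/-- Let A be a noncyclic elementary abelian p-subgroup of a finite group H normalizing a solvable subgroup K of order prime to p, q a prime dividing |K|, and U ≤ K a subgroup of order prime to q such that ⁅U, C_K(B)⁆ has order prime to q for every subgroup B of index p in A. Then U ≤ O_{q'}(K). -/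
theorem result {H : Type*} [Group H] [Finite H] (p : ℕ) [Fact p.Prime] (A K : Subgroup H) (hA : Cfsg.IsElementaryAbelian p A) (hA2 : p ^ 2 ≤ Nat.card ↥A) (hK : ¬ p ∣ Nat.card ↥K) (hKs : Group.IsSolvable ↥K) (hAK : A ≤ Subgroup.normalizer (K : Set H)) (q : ℕ) [Fact q.Prime] (hqK : q ∣ Nat.card ↥K) (U : Subgroup H) (hU : U ≤ K) (hUq : ¬ q ∣ Nat.card ↥U) (hcomm : ∀ B : Subgroup H, B ≤ A → B.relIndex A = p → ¬ q ∣ Nat.card ↥⁅U, K ⊓ Subgroup.centralizer (B : Set H)⁆) : U ≤ (Cfsg.pPrimeCore q ↥K).map K.subtype := by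
  classical
  set O := Cfsg.pPrimeCore q ↥K with hO
  set π := QuotientGroup.mk' O with hπ
  set V := Cfsg.pCore q (↥K ⧸ O) with hV
  have hKO : Cfsg.pPrimeCore q (↥K ⧸ O) = ⊥ := Cores.pPrimeCore_quotient_pPrimeCore_eq_bot
  have hCV : centralizer (V : Set (↥K ⧸ O)) ≤ V := by
    have := hKs
    have h := Cores.centralizer_fittingSubgroup_le (G := ↥K ⧸ O)
    rwa [fitting_eq_pCore hKO] at h
  set W := Cfsg.pPrimePCore q ↥K with hW
  have hWn : W.Normal := PSolv.pPrimePCore_normal q ↥K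
  have hWchar : W.Characteristic := by
    rw [characteristic_iff_le_comap]
    intro φ x hx
    obtain ⟨φ', hφ'⟩ := pPrimeCore_quotient_map_equiv (p := q) φ
    rw [mem_comap]
    show QuotientGroup.mk' (Cfsg.pPrimeCore q ↥K) (φ x) ∈ Cfsg.pCore q (↥K ⧸ O)
    rw [← Cores.map_pCore_equiv φ']
    exact ⟨π x, hx, DFunLike.congr_fun hφ' x⟩
  set W' := W.map K.subtype with hW'
  have hAW : A ≤ normalizer (W' : Set H) :=
    hAK.trans (Coprime.normalizer_le_normalizer_map_characteristic K W)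
  have hAp := Signalizer.elemAb_isPGroup hA
  have hW'K : W' ≤ K := map_subtype_le W
  obtain ⟨S, hS, hSA⟩ := Signalizer.exists_isSyl_invariant (q := q) hAp hAW
    (Signalizer.not_dvd_card_of_le hW'K hK)
  have hhyper : ∀ B : Subgroup H, B ≤ A → B.relIndex A ≤ p →
      ∃ B' : Subgroup H, B' ≤ A ∧ B'.relIndex A = p ∧ B' ≤ B := by
    intro B hB hBi
    obtain ⟨n, hn⟩ := IsPGroup.iff_card.mp hAp
    have hmul : Nat.card B * B.relIndex A = Nat.card A := by
      rw [← relIndex_bot_left, relIndex_mul_relIndex _ _ _ bot_le hB, relIndex_bot_left]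
    obtain ⟨m, hm, hm'⟩ := (Nat.dvd_prime_pow (Fact.out : p.Prime)).mp
      (hn ▸ Dvd.intro_left _ hmul : B.relIndex A ∣ p ^ n)
    have hm1 : m ≤ 1 := by
      rw [hm'] at hBi
      exact (Nat.pow_le_pow_iff_right (Fact.out : p.Prime).one_lt).mp (by rwa [pow_one])
    rcases Nat.le_one_iff_eq_zero_or_eq_one.mp hm1 with rfl | rfl
    · have hBA : B = A := le_antisymm hB (relIndex_eq_one.mp (by rw [hm', pow_zero]))
      subst hBA
      have hn2 : 2 ≤ n := (Nat.pow_le_pow_iff_right (Fact.out : p.Prime).one_lt).mp (hn ▸ hA2)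
      obtain ⟨C, hC⟩ := Sylow.exists_subgroup_card_pow_prime (G := B) p (n := n - 1)
        (by rw [hn]; exact pow_dvd_pow p (Nat.sub_le n 1))
      refine ⟨C.map B.subtype, map_subtype_le C, ?_, map_subtype_le C⟩
      rw [relIndex, subgroupOf, comap_map_eq_self_of_injective B.subtype_injective]
      have h1 := C.card_mul_index
      rw [hC, hn] at h1
      have h2 : p ^ (n - 1) * C.index = p ^ (n - 1) * p := by
        rw [h1, ← pow_succ, show n - 1 + 1 = n by omega]
      exact Nat.eq_of_mul_eq_mul_left (pow_pos (Fact.out : p.Prime).pos _) h2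
    · exact ⟨B, hB, by rw [hm', pow_one], le_rfl⟩
  have hπS : ((S.subgroupOf K)).map π = V := by
    obtain ⟨T, hT⟩ := hS.exists_sylow
    obtain ⟨P, hP⟩ : ∃ P : Sylow q ↥W, (P : Subgroup ↥W).map W.subtype = S.subgroupOf K := by
      have hsyl : Signalizer.IsSyl q (S.subgroupOf K) W := by
        refine ⟨?_, hS.isPGroup.comap_subtype, fun R hR hRq hle => ?_⟩
        · intro x hx
          obtain ⟨w, hw, hwx⟩ := hS.le (mem_subgroupOf.mp hx)
          exact (Subtype.ext hwx : w = x) ▸ hw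
        · have h := hS.2.2 (R.map K.subtype) (map_mono hR) (hRq.map _) fun s hs =>
            ⟨⟨s, hW'K (hS.le hs)⟩, hle (mem_subgroupOf.mpr hs), rfl⟩
          rw [← h]
          exact (comap_map_eq_self_of_injective K.subtype_injective R).symm
      exact hsyl.exists_sylow
    rw [← hP]
    exact PSolv.map_sylow_pPrimePCore P
  intro u hu
  refine ⟨⟨u, hU hu⟩, ?_, rfl⟩
  have hcent : π ⟨u, hU hu⟩ ∈ centralizer (V : Set (↥K ⧸ O)) := by
    suffices h : S ≤ (((centralizer {π ⟨u, hU hu⟩}).comap π).map K.subtype) by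
      intro v hv
      rw [← hπS] at hv
      obtain ⟨s, hs, rfl⟩ := hv
      obtain ⟨t, ht, hts⟩ := h (mem_subgroupOf.mp hs)
      have hts' : t = s := Subtype.ext hts
      subst hts'
      exact mem_centralizer_singleton_iff.mp ht
    refine Signalizer.le_of_forall_hyperplane hA hSA
      (Signalizer.not_dvd_card_of_le (hS.le.trans hW'K) hK) fun B hB hBi c hc => ?_
    obtain ⟨B', hB', hB'i, hle⟩ := hhyper B hB hBi
    have hcK : c ∈ K := hW'K (hS.le hc.1)
    refine ⟨⟨c, hcK⟩, ?_, rfl⟩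
    rw [SetLike.mem_coe, mem_comap, mem_centralizer_singleton_iff, eq_comm, ← commutatorElement_eq_one_iff_mul_comm,
      ← map_commutatorElement]
    set z : ↥K := ⁅(⟨u, hU hu⟩ : ↥K), ⟨c, hcK⟩⁆ with hz
    have hzq : (orderOf z).Coprime q := by
      rw [← Subgroup.orderOf_coe]
      refine Nat.Coprime.coprime_dvd_left (Subgroup.orderOf_dvd_natCard _ ?_)
        ((Fact.out : q.Prime).coprime_iff_not_dvd.mpr (hcomm B' hB' hB'i)).symm
      exact commutator_mem_commutator hu ⟨hcK, centralizer_le hle hc.2⟩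
    have hcW : (⟨c, hcK⟩ : ↥K) ∈ W := by
      obtain ⟨w, hw, hwc⟩ := hS.le hc.1
      exact (Subtype.ext hwc : w = ⟨c, hcK⟩) ▸ hw
    have hzW : z ∈ W := by
      rw [hz, commutatorElement_def]
      exact W.mul_mem (hWn.conj_mem _ hcW _) (W.inv_mem hcW)
    obtain ⟨k, hk⟩ := (Cores.pCore_isPGroup (p := q) (G := ↥K ⧸ O)) ⟨π z, hzW⟩
    exact orderOf_eq_one_iff.mp (Nat.eq_one_of_dvd_coprimes
      ((Nat.Coprime.coprime_dvd_left (orderOf_map_dvd π z) hzq).pow_right k) dvd_rfl
      (orderOf_dvd_of_pow_eq_one (congrArg Subtype.val hk)))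
  obtain ⟨k, hk⟩ := (Cores.pCore_isPGroup (p := q) (G := ↥K ⧸ O)) ⟨_, hCV hcent⟩
  have hord : (orderOf (π ⟨u, hU hu⟩)).Coprime q := by
    refine Nat.Coprime.coprime_dvd_left ?_ ((Fact.out : q.Prime).coprime_iff_not_dvd.mpr hUq).symm
    exact (orderOf_map_dvd π _).trans (by rw [← Subgroup.orderOf_coe]; exact Subgroup.orderOf_dvd_natCard _ hu)
  exact (QuotientGroup.eq_one_iff _).mp (orderOf_eq_one_iff.mp (Nat.eq_one_of_dvd_coprimes
    (hord.pow_right k) dvd_rfl (orderOf_dvd_of_pow_eq_one (congrArg Subtype.val hk))))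

end Cfsg.Agent.S1288
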