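import Cfsg.Statements.S1289
import Cfsg.Agent.Components.PComponent
open Subgroup Cfsg.Agent.Components
open scoped commutatorElement
-- import your own Cfsg.Agent.* helpers here

set_option autoImplicit false
open Cfsg

namespace Cfsg.Agent.S1289

/-- A p-component K of the finite group X is subnormal, perfect, of order divisible by p, and minimal among the subnormal perfect subgroups of X of order divisible by p. -/
theorem result {X : Type*} [Group X] [Finite X] (p : ℕ) [Fact p.Prime] (K : Subgroup X) (hK : Cfsg.IsPComponent p K) : K.IsSubnormal ∧ ⁅K, K⁆ = K ∧ p ∣ Nat.card ↥K ∧ ∀ H : Subgroup X, H ≤ K → H.IsSubnormal → ⁅H, H⁆ = H → p ∣ Nat.card ↥H → H = K := by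
  refine ⟨hK.1, pComponent_commutator_self hK, pComponent_card_dvd hK, fun H hle hH hperf hd => ?_⟩
  refine hK.2.2 H hH hle ?_
  have hsub := component_subgroupOf hK.2.1 (le_refl _)
  set π := QuotientGroup.mk' (Cfsg.pPrimeCore p X) with hπ
  rcases quasisimple_subnormal hK.2.1.2 ((hH.map (QuotientGroup.mk'_surjective _)).subgroupOf)
    with h | h
  · exact le_antisymm (map_mono hle) (subgroupOf_eq_top.mp h)
  · exfalso
    have hc : ⁅H.map π, H.map π⁆ = ⊥ := by
      rw [commutator_eq_bot_iff_le_centralizer]
      intro x hx y hy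
      exact congrArg Subtype.val (mem_center_iff.mp
        (h (x := ⟨x, map_mono hle hx⟩) (mem_subgroupOf.mpr hx)) ⟨y, map_mono hle hy⟩)
    rw [← Subgroup.map_commutator, hperf, Subgroup.map_eq_bot_iff, hπ, QuotientGroup.ker_mk'] at hc
    exact Cores.not_dvd_card_pPrimeCore (hd.trans (card_dvd_of_le hc))

end Cfsg.Agent.S1289
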