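import Cfsg.Statements.S1298
import Cfsg.Agent.Components.LocalBalance
open Subgroup Cfsg.Agent.Components
open scoped commutatorElement
-- import your own Cfsg.Agent.* helpers here

set_option autoImplicit false
open Cfsg

namespace Cfsg.Agent.S1298

/-- Let G be finite and k ≥ 1. Suppose that for every x of order p, writing C = C_G(x), every component K of C / O_{p'}(C) has K / Z(K) locally k-balanced for p. Then G is k-balanced for p. -/
theorem result {G : Type*} [Group G] [Finite G] (p k : ℕ) [Fact p.Prime] (hk : 1 ≤ k) (h : ∀ x : G, orderOf x = p → ∀ K : Subgroup (↥(Subgroup.centralizer ({x} : Set G)) ⧸ Cfsg.pPrimeCore p ↥(Subgroup.centralizer ({x} : Set G))), Cfsg.IsComponent K → Cfsg.IsLocallyKBalanced p k (↥K ⧸ Subgroup.center ↥K)) : Cfsg.IsKBalanced p k G := by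
  classical
  intro A hA hcard b hb hcomm
  set C := Subgroup.centralizer ({b} : Set G) with hC
  set O := Cfsg.pPrimeCore p C with hO
  set π := QuotientGroup.mk' O with hπ
  have hAC : A ≤ C := fun a ha => mem_centralizer_singleton_iff.mpr (hcomm a ha)
  have hinj : ∀ a : C, (a : G) ∈ A → π a = 1 → a = 1 := by
    intro a ha h1
    have h2 : a ^ p = 1 := Subtype.ext (hA.2 a ha)
    have h3 : (orderOf a).Coprime p :=
      Cores.orderOf_coprime_of_mem_pPrimeCore ((QuotientGroup.eq_one_iff _).mp h1)
    exact orderOf_eq_one_iff.mp (Nat.eq_one_of_dvd_coprimes h3 dvd_rfl (orderOf_dvd_of_pow_eq_one h2))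
  set A' := (A.subgroupOf C).map π with hA'
  have hA'e : Cfsg.IsElementaryAbelian p A' := by
    refine ⟨⟨⟨?_⟩⟩, ?_⟩
    · rintro ⟨_, a, ha, rfl⟩ ⟨_, c, hc, rfl⟩
      refine Subtype.ext ?_
      show π a * π c = π c * π a
      rw [← map_mul, ← map_mul]
      have := hA.1
      exact congrArg π (Subtype.ext (congrArg Subtype.val
        (mul_comm' (⟨a, ha⟩ : A) ⟨c, hc⟩) : (a : G) * c = c * a))
    · rintro _ ⟨a, ha, rfl⟩
      rw [← map_pow, show a ^ p = 1 from Subtype.ext (hA.2 a ha), map_one]
  have hA'card : Nat.card A' = p ^ k := by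
    rw [← hcard, ← Nat.card_congr (subgroupOfEquivOfLe hAC).toEquiv]
    refine Nat.card_congr (Equiv.ofBijective (π.subgroupMap (A.subgroupOf C)) ⟨?_, ?_⟩).symm
    · rw [injective_iff_map_eq_one]
      exact fun x hx => Subtype.ext (hinj x x.2 (congrArg Subtype.val hx))
    · exact π.subgroupMap_surjective _
  set D := Cfsg.signalizerDelta p A ⊓ C with hD
  have hbot : (D.subgroupOf C).map π = ⊥ := by
    refine eq_bot_of_locallyKBalanced (G := C ⧸ O) Cores.pPrimeCore_quotient_pPrimeCore_eq_bot hk
      (h b hb) hA'e hA'card ?_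
    rintro _ ⟨a, ha, rfl⟩ hane
    have ha1 : (a : G) ≠ 1 := fun h1 => hane (by rw [show a = 1 from Subtype.ext h1, map_one])
    set W := Cfsg.centralizerPPrimeCore p (a : G) with hW
    have hDW : D ≤ W := inf_le_left.trans
      (iInf_le (fun c : {c : G // c ∈ A ∧ c ≠ 1} => Cfsg.centralizerPPrimeCore p (c : G))
        ⟨a, ha, ha1⟩)
    refine (map_mono (comap_mono hDW)).trans (le_pPrimeCore_map_of_normal ?_ ?_ ?_)
    · rintro _ ⟨w, hw, rfl⟩
      rw [mem_centralizer_singleton_iff, ← map_mul, ← map_mul]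
      refine congrArg π (Subtype.ext ?_)
      exact mem_centralizer_singleton_iff.mp (centralizerPPrimeCore_le (a : G) hw)
    · have hcop : (Nat.card (zpowers a)).Coprime (Nat.card O) := by
        rw [Nat.card_zpowers]
        refine Nat.Coprime.coprime_dvd_left (orderOf_dvd_of_pow_eq_one
          (Subtype.ext (hA.2 a ha) : a ^ p = 1)) ?_
        exact Cores.pPrimeCore_coprime.symm
      have hcz := Coprime.centralizer_map_mk' (zpowers a) O hcop (Or.inl inferInstance)
      rw [MonoidHom.map_zpowers, centralizer_zpowers_eq, centralizer_zpowers_eq] at hcz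
      rw [hπ, hcz]
      rintro _ ⟨c, hc, rfl⟩
      have hc' : (c : G) ∈ Subgroup.centralizer ({(a : G)} : Set G) :=
        mem_centralizer_singleton_iff.mpr (congrArg Subtype.val (mem_centralizer_singleton_iff.mp hc))
      refine conj_eq_iff_mem_normalizer.mp ?_
      have hmem : c ∈ normalizer ((W.subgroupOf C : Subgroup C) : Set C) :=
        le_normalizer_comap C.subtype (le_normalizer_centralizerPPrimeCore (a : G) hc')
      exact conj_eq_iff_mem_normalizer.mpr (le_normalizer_map _ ⟨c, hmem, rfl⟩)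
    · refine Nat.Coprime.coprime_dvd_left ?_ (centralizerPPrimeCore_coprime (p := p) (a : G))
      exact (card_map_dvd _ π).trans (card_comap_dvd_of_injective _ _ C.subtype_injective)
  rw [Subgroup.map_eq_bot_iff, hπ, QuotientGroup.ker_mk'] at hbot
  exact fun d hd => ⟨⟨d, hd.2⟩, hbot (mem_subgroupOf.mpr hd), rfl⟩

end Cfsg.Agent.S1298
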