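import Cfsg.Statements.S1300
import Cfsg.Agent.Components.Centralizer
open Subgroup Cfsg.Agent.Components
open scoped commutatorElement
-- import your own Cfsg.Agent.* helpers here

set_option autoImplicit false
open Cfsg

namespace Cfsg.Agent.S1300

/-- For a finite group G, balance in the sense of commuting involutions is the same as 1-balance for the prime 2. -/
theorem result {G : Type*} [Group G] [Finite G] : Cfsg.IsBalanced G ↔ Cfsg.IsKBalanced 2 1 G := by
  constructor
  · intro h A hA hcard b hb hcomm
    obtain ⟨a, ha⟩ := exists_prime_orderOf_dvd_card' (G := A) 2 (by rw [hcard, pow_one])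
    have ha2 : orderOf (a : G) = 2 := by rw [Subgroup.orderOf_coe, ha]
    have ha1 : (a : G) ≠ 1 := fun h1 => by simp [h1] at ha2
    refine le_trans (inf_le_inf_right _ (iInf_le
      (fun c : {c : G // c ∈ A ∧ c ≠ 1} => Cfsg.centralizerPPrimeCore 2 (c : G)) ⟨a, a.2, ha1⟩)) ?_
    exact (h a b ha2 hb (hcomm a a.2)).trans_le inf_le_left
  · intro h x y hx hy hxy
    have key : ∀ x y : G, orderOf x = 2 → orderOf y = 2 → x * y = y * x →
        Cfsg.centralizerPPrimeCore 2 x ⊓ Subgroup.centralizer {y} ≤
          Cfsg.centralizerPPrimeCore 2 y ⊓ Subgroup.centralizer {x} := by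
      intro x y hx hy hxy
      refine le_inf ?_ (inf_le_left.trans (map_subtype_le _))
      have hA : Cfsg.IsElementaryAbelian 2 (zpowers x) := by
        refine ⟨inferInstance, fun a ha => ?_⟩
        obtain ⟨j, rfl⟩ := mem_zpowers_iff.mp ha
        rw [← zpow_natCast, ← zpow_mul, mul_comm, zpow_mul, zpow_natCast, ← hx, pow_orderOf_eq_one,
          one_zpow]
      refine le_trans (inf_le_inf_right _ (le_iInf fun c => le_of_eq ?_))
        (h (zpowers x) hA (by rw [Nat.card_zpowers, hx, pow_one]) y hy fun a ha => ?_)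
      · obtain ⟨c, hc, hc1⟩ := c
        congr 1
        obtain ⟨j, rfl⟩ := mem_zpowers_iff.mp hc
        rcases Int.even_or_odd j with ⟨i, rfl⟩ | ⟨i, rfl⟩
        · refine absurd ?_ hc1
          rw [← two_mul, zpow_mul, show x ^ (2 : ℤ) = 1 by
            rw [show (2 : ℤ) = ((2 : ℕ) : ℤ) from rfl, zpow_natCast, ← hx, pow_orderOf_eq_one],
            one_zpow]
        · show x = x ^ (2 * i + 1)
          rw [zpow_add, zpow_mul, show x ^ (2 : ℤ) = 1 by
            rw [show (2 : ℤ) = ((2 : ℕ) : ℤ) from rfl, zpow_natCast, ← hx, pow_orderOf_eq_one],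
            one_zpow, one_mul, zpow_one]
      · obtain ⟨j, rfl⟩ := mem_zpowers_iff.mp ha
        exact (Commute.zpow_left hxy j).eq
    exact le_antisymm (key x y hx hy hxy) (key y x hy hx hxy.symm)

end Cfsg.Agent.S1300
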