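import Cfsg.Statements.S1297
import Cfsg.Agent.S1298
import Cfsg.Agent.S1300
open Subgroup Cfsg.Agent.Components
open scoped commutatorElement
-- import your own Cfsg.Agent.* helpers here

set_option autoImplicit false
open Cfsg

namespace Cfsg.Agent.S1297

/-- Let G be finite. Suppose that for every involution x, writing C = C_G(x), every component K of C / O(C) has K / Z(K) locally balanced. Then G is balanced. -/
theorem result {G : Type*} [Group G] [Finite G] (h : ∀ x : G, orderOf x = 2 → ∀ K : Subgroup (↥(Subgroup.centralizer ({x} : Set G)) ⧸ Cfsg.oddCore ↥(Subgroup.centralizer ({x} : Set G))), Cfsg.IsComponent K → Cfsg.IsLocallyBalanced (↥K ⧸ Subgroup.center ↥K)) : Cfsg.IsBalanced G := by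
  refine (Cfsg.Agent.S1300.result (G := G)).mpr (Cfsg.Agent.S1298.result 2 1 le_rfl ?_)
  intro x hx K hK H hH A _ hcard
  obtain ⟨a, ha⟩ := exists_prime_orderOf_dvd_card' (G := A) 2 (by rw [hcard, pow_one])
  have ha1 : (a : H) ≠ 1 := fun h1 => by
    rw [← Subgroup.orderOf_coe, h1, orderOf_one] at ha
    exact absurd ha (by norm_num)
  rw [eq_bot_iff, ← h x hx K hK H hH a (by rw [Subgroup.orderOf_coe, ha])]
  exact iInf_le (fun c : {c : H // c ∈ A ∧ c ≠ 1} => Cfsg.centralizerPPrimeCore 2 (c : H)) ⟨a, a.2, ha1⟩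

end Cfsg.Agent.S1297
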