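import Cfsg.Statements.S1299
import Cfsg.Agent.Signalizer.FamilyClosure
import Cfsg.Agent.Tech.LocalBalanceMain
import Cfsg.Agent.OddLocal.SigmaBasic

set_option autoImplicit false
open Cfsg

namespace Cfsg.Agent.S1299
open Subgroup Cfsg.Agent.Signalizer

/-- Let G be finite and k-balanced for the prime p (k ≥ 1), A an elementary abelian p-subgroup of order at least p^(k+2) such that O_{p'}(C_G(a)) is solvable for every non-identity a ∈ A. For a ∈ A put θ a = the subgroup generated by the Δ_G(D) ∩ C_G(a) over the subgroups D ≤ A of order p^k. Then θ is an A-signalizer functor. -/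
theorem result {G : Type*} [Group G] [Finite G] (p k : ℕ) [Fact p.Prime] (hk : 1 ≤ k) (hbal : Cfsg.IsKBalanced p k G) (A : Subgroup G) (hA : Cfsg.IsElementaryAbelian p A) (hAk : p ^ (k + 2) ≤ Nat.card ↥A) (hsolv : ∀ a ∈ A, a ≠ 1 → Group.IsSolvable ↥(Cfsg.centralizerPPrimeCore p a)) : Cfsg.IsSignalizerFunctor p A (fun a => ⨆ D : {D : Subgroup G // D ≤ A ∧ Nat.card ↥D = p ^ k}, Cfsg.signalizerDelta p (D : Subgroup G) ⊓ Subgroup.centralizer {a}) := by
  classical
  have hp : p.Prime := Fact.out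
  have hAp : IsPGroup p A := elemAb_isPGroup hA
  set Θ : G → Subgroup G := fun a => ⨆ D : {D : Subgroup G // D ≤ A ∧ Nat.card ↥D = p ^ k},
    Cfsg.signalizerDelta p (D : Subgroup G) ⊓ centralizer {a} with hΘ
  have hθC : ∀ a, Θ a ≤ centralizer ({a} : Set G) := fun a => iSup_le fun D => inf_le_right
  -- `k`-balance gives `θ a ≤ O_{p'}(C(a))`
  have hθO : ∀ a ∈ A, a ≠ 1 → Θ a ≤ Cfsg.centralizerPPrimeCore p a := fun a ha ha1 =>
    iSup_le fun D => hbal _ (elemAb_mono hA D.2.1) D.2.2 a (elemAb_orderOf hA ha ha1)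
      (fun d hd => elemAb_comm hA (D.2.1 hd) ha)
  have hΔA : ∀ D : Subgroup G, D ≤ A →
      A ≤ normalizer ((Cfsg.signalizerDelta p D : Subgroup G) : Set G) := fun D hD =>
    le_trans (fun x hx => mem_centralizer_iff.2 fun d hd => elemAb_comm hA (hD hd) hx)
      (Tech.signalizerDelta_normalized D)
  have hθA : ∀ a ∈ A, A ≤ normalizer (Θ a : Set G) := fun a ha =>
    le_normalizer_iSup fun D => le_normalizer_inf (hΔA _ D.2.1)
      (le_normalizer_centralizer_singleton hA.1 ha)
  have hθp : ∀ a ∈ A, a ≠ 1 → ¬ p ∣ Nat.card (Θ a) := fun a ha ha1 =>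
    not_dvd_card_of_le (hθO a ha ha1)
      (hp.coprime_iff_not_dvd.1 (Tech.centralizerPPrimeCore_coprime a).symm)
  refine ⟨fun a _ _ => hθC a, hθp,
    fun a ha ha1 b hb x hx => le_normalizer_iff.1 (hθA a ha) b hb x hx, fun a ha ha1 b hb hb1 => ?_⟩
  -- the family of hyperplanes through `a`
  set 𝓕 : Set (Subgroup G) := {F | F ≤ A ∧ a ∈ F ∧ F.relIndex A ≤ p} with h𝓕
  set Y : Subgroup G → Subgroup G := fun F =>
    Cfsg.signalizerDelta p F ⊓ centralizer (F : Set G) with hY
  have hmono : ∀ {D E : Subgroup G}, D ≤ E →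
      Cfsg.signalizerDelta p E ≤ Cfsg.signalizerDelta p D := fun {D E} h =>
    le_iInf fun c => Tech.signalizerDelta_le (h c.2.1) c.2.2
  -- subgroups of order `p ^ k` exist below every member of index at most `p ^ 2`
  have hsub : ∀ E : Subgroup G, E ≤ A → p ^ k ≤ Nat.card E →
      ∃ D : {D : Subgroup G // D ≤ A ∧ Nat.card ↥D = p ^ k}, (D : Subgroup G) ≤ E := by
    intro E hE hEk
    obtain ⟨n, hn⟩ := IsPGroup.iff_card.1 (hAp.to_le hE)
    obtain ⟨D', hD'⟩ := Sylow.exists_subgroup_card_pow_prime p (G := E) (n := k)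
      (by rw [hn]; exact pow_dvd_pow p ((Nat.pow_le_pow_iff_right hp.one_lt).1 (hn ▸ hEk)))
    exact ⟨⟨D'.map E.subtype, (map_subtype_le _).trans hE,
      by rw [card_map_of_injective E.subtype_injective, hD']⟩, map_subtype_le _⟩
  have hcardF : ∀ F ∈ 𝓕, p ^ (k + 1) ≤ Nat.card F := fun F hF => by
    have h1 := Cfsg.Agent.OddLocal.relIndex_mul_card hF.1
    have h2 : p ^ (k + 1) * p ≤ Nat.card F * p := by
      rw [← pow_succ]
      refine hAk.trans ?_
      rw [← h1]
      exact Nat.mul_le_mul_left _ hF.2.2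
    exact Nat.le_of_mul_le_mul_right h2 hp.pos
  have hYθ : ∀ F ∈ 𝓕, ∀ c ∈ F, Y F ≤ Θ c := fun F hF c hc => by
    obtain ⟨D, hD⟩ := hsub F hF.1 ((Nat.pow_le_pow_right hp.pos k.le_succ).trans (hcardF F hF))
    exact le_trans (le_inf (inf_le_left.trans (hmono hD))
      (inf_le_right.trans (centralizer_le (Set.singleton_subset_iff.2 hc))))
      (le_iSup (fun D : {D : Subgroup G // D ≤ A ∧ Nat.card ↥D = p ^ k} =>
        Cfsg.signalizerDelta p (D : Subgroup G) ⊓ centralizer {c}) D)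
  have hΔY : ∀ D : {D : Subgroup G // D ≤ A ∧ Nat.card ↥D = p ^ k}, ∀ F ∈ 𝓕,
      Cfsg.signalizerDelta p (D : Subgroup G) ⊓ centralizer (F : Set G) ≤ Y F := fun D F hF =>
    le_inf (le_iInf fun c => (inf_le_inf_left _
      (centralizer_le (Set.singleton_subset_iff.2 c.2.1))).trans
        (hbal _ (elemAb_mono hA D.2.1) D.2.2 c (elemAb_orderOf hA (hF.1 c.2.1) c.2.2)
          (fun d hd => elemAb_comm hA (D.2.1 hd) (hF.1 c.2.1)))) inf_le_right
  -- generation by the centralizers of the members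
  have hgen : ∀ S H : Subgroup G, S ≤ Θ a → A ≤ normalizer (S : Set G) →
      (∀ F ∈ 𝓕, S ⊓ centralizer (F : Set G) ≤ H) → S ≤ H := by
    intro S H hS hSA h
    refine le_of_forall_hyperplane hA hSA (not_dvd_card_of_le hS (hθp a ha ha1)) fun B hB hi => ?_
    have haA : zpowers a ≤ A := zpowers_le.2 ha
    refine le_trans (le_inf inf_le_left ?_) (h (B ⊔ zpowers a) ⟨sup_le hB haA,
      mem_sup_right (mem_zpowers a),
      (Nat.le_of_dvd (Nat.pos_of_ne_zero index_ne_zero_of_finite)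
        (relIndex_dvd_of_le_left A le_sup_left)).trans hi⟩)
    rw [centralizer_sup, centralizer_zpowers]
    exact le_inf inf_le_right (inf_le_left.trans (hS.trans (hθC a)))
  have hclos : ∀ F ∈ 𝓕, Θ a ⊓ centralizer (F : Set G) ≤ Y F := by
    refine family_closure_inf_centralizer_le hAp hA.1 𝓕 (fun F hF => hF.1) Y (hθA a ha)
      (hθp a ha ha1) (isSolvable_subgroup_of_le (hθO a ha ha1) (hsolv a ha ha1)) hgen
      (fun F hF => le_inf (hYθ F hF a hF.2.1) inf_le_right)
      (fun F hF => le_normalizer_inf (hΔA F hF.1) (le_normalizer_centralizer_of_le hA.1 hF.1))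
      ?_ ?_
    · refine iSup_le fun D => hgen _ _ (le_iSup (fun D : {D : Subgroup G // D ≤ A ∧ Nat.card ↥D = p ^ k} =>
        Cfsg.signalizerDelta p (D : Subgroup G) ⊓ centralizer {a}) D)
        (le_normalizer_inf (hΔA _ D.2.1) (le_normalizer_centralizer_singleton hA.1 ha))
        fun F hF => ((inf_le_inf_right _ inf_le_left).trans (hΔY D F hF)).trans
          (le_iSup₂ (f := fun F (_ : F ∈ 𝓕) => Y F) F hF)
    · intro F₁ h₁ F₂ h₂
      have hE : F₁ ⊓ F₂ ≤ A := inf_le_left.trans h₁.1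
      have hEk : p ^ k ≤ Nat.card (F₁ ⊓ F₂ : Subgroup G) := by
        have h3 : (F₁ ⊓ F₂).relIndex F₁ ≤ p := by
          rw [inf_comm, inf_relIndex_right]
          exact (relIndex_le_of_le_right h₁.1 index_ne_zero_of_finite).trans h₂.2.2
        have h4 := Cfsg.Agent.OddLocal.relIndex_mul_card (inf_le_left : F₁ ⊓ F₂ ≤ F₁)
        have h5 : p ^ k * p ≤ Nat.card (F₁ ⊓ F₂ : Subgroup G) * p := by
          rw [← pow_succ]
          refine (hcardF F₁ h₁).trans ?_
          rw [← h4]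
          exact Nat.mul_le_mul_left _ h3
        exact Nat.le_of_mul_le_mul_right h5 hp.pos
      obtain ⟨D, hD⟩ := hsub _ hE hEk
      refine ⟨Cfsg.signalizerDelta p (F₁ ⊓ F₂) ⊓ centralizer ((F₁ ⊓ F₂ : Subgroup G) : Set G),
        le_trans (le_inf (inf_le_left.trans (hmono hD))
          (inf_le_right.trans (centralizer_le (Set.singleton_subset_iff.2 ⟨h₁.2.1, h₂.2.1⟩))))
          (le_iSup (fun D : {D : Subgroup G // D ≤ A ∧ Nat.card ↥D = p ^ k} =>
            Cfsg.signalizerDelta p (D : Subgroup G) ⊓ centralizer {a}) D),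
        le_normalizer_inf (hΔA _ hE) (le_normalizer_centralizer_of_le hA.1 hE),
        inf_le_inf (hmono inf_le_left) (centralizer_le inf_le_left),
        inf_le_inf (hmono inf_le_right) (centralizer_le inf_le_right), fun F hF => ?_⟩
      exact (inf_le_inf_right _ (inf_le_left.trans (hmono hD))).trans (hΔY D F hF)
  refine hgen _ _ inf_le_left
    (le_normalizer_inf (hθA a ha) (le_normalizer_centralizer_singleton hA.1 hb)) fun F hF => ?_
  have hbA : zpowers b ≤ A := zpowers_le.2 hb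
  have hF' : F ⊔ zpowers b ∈ 𝓕 := ⟨sup_le hF.1 hbA, mem_sup_left hF.2.1,
    (Nat.le_of_dvd (Nat.pos_of_ne_zero index_ne_zero_of_finite)
      (relIndex_dvd_of_le_left A le_sup_left)).trans hF.2.2⟩
  refine le_trans (le_trans ?_ (hclos _ hF')) (hYθ _ hF' b (mem_sup_right (mem_zpowers b)))
  rw [centralizer_sup, centralizer_zpowers, inf_assoc, inf_comm (centralizer {b})]

end Cfsg.Agent.S1299
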