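import Cfsg.Statements.S1302
import Cfsg.Agent.Cores.Basic
import Cfsg.Agent.Components.BaerSum
import Cfsg.Agent.Components.Basic
import Cfsg.Agent.PGroup.Critical
import Cfsg.Agent.PSolv.HallHigman
import Cfsg.Agent.Coprime.Action
import Cfsg.Agent.Lib.Element
import Cfsg.Agent.Coprime.Generation
open Subgroup Cfsg.Agent.Components
open scoped commutatorElement
-- import your own Cfsg.Agent.* helpers here

set_option autoImplicit false
open Cfsg

namespace Cfsg.Agent.S1302

/-- Let X be a finite p-constrained group, p an odd prime, and A an abelian p-subgroup of X containing every element of order p of C_X(A). Then every subgroup of X of order prime to p that is normalized by A lies in O_{p'}(X). -/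
theorem result {X : Type*} [Group X] [Finite X] (p : ℕ) [Fact p.Prime] (hp : p ≠ 2) (hX : Cfsg.IsPConstrained p X) (A : Subgroup X) (hA : IsMulCommutative ↥A) (hAp : IsPGroup p ↥A) (hΩ : ∀ x ∈ Subgroup.centralizer (A : Set X), orderOf x = p → x ∈ A) (Q : Subgroup X) (hQ : ¬ p ∣ Nat.card ↥Q) (hAQ : A ≤ Subgroup.normalizer (Q : Set X)) : Q ≤ Cfsg.pPrimeCore p X := by
  classical
  set O := Cfsg.pPrimeCore p X with hO
  set π := QuotientGroup.mk' O with hπ
  have : Group.IsNilpotent A := hAp.isNilpotent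
  set V := Cfsg.pCore p (X ⧸ O) with hV
  have hVp : IsPGroup p V := Cores.pCore_isPGroup
  -- the quotient is constrained
  obtain ⟨P⟩ := (inferInstance : Nonempty (Sylow p ↥(Cfsg.pPrimePCore p X)))
  set P' := (P : Subgroup ↥(Cfsg.pPrimePCore p X)).map (Cfsg.pPrimePCore p X).subtype with hP'
  have hP'map : P'.map π = V := PSolv.map_sylow_pPrimePCore P
  have hP'p : IsPGroup p P' := P.2.map _
  have hcopP : ∀ B : Subgroup X, IsPGroup p B → (Nat.card B).Coprime (Nat.card O) := by
    intro B hB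
    obtain ⟨n, hn⟩ := IsPGroup.iff_card.mp hB
    rw [hn]
    exact Nat.Coprime.pow_left _ Cores.pPrimeCore_coprime.symm
  have hCV : Subgroup.centralizer (V : Set (X ⧸ O)) ≤ V := by
    have : Group.IsNilpotent P' := hP'p.isNilpotent
    rw [← hP'map, hπ, Coprime.centralizer_map_mk' P' O (hcopP P' hP'p) (Or.inl inferInstance)]
    refine le_trans (map_mono (hX P)) ?_
    rw [hP'map]
    exact map_comap_le _ _
  set A' := A.map π with hA'
  set Q' := Q.map π with hQ'
  have hQ'p : (Nat.card Q').Coprime p := Nat.Coprime.coprime_dvd_left (card_map_dvd Q π)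
    ((Fact.out : p.Prime).coprime_iff_not_dvd.mpr hQ).symm
  have hAQ' : A' ≤ normalizer (Q' : Set (X ⧸ O)) :=
    (map_mono hAQ).trans (le_normalizer_map _)
  have hΩ' : ∀ u ∈ Subgroup.centralizer (A' : Set (X ⧸ O)), orderOf u = p → u ∈ A' := by
    intro u hu huo
    rw [hA', hπ, Coprime.centralizer_map_mk' A O (hcopP A hAp) (Or.inl inferInstance)] at hu
    obtain ⟨c, hc, rfl⟩ := hu
    set c' := Element.pPart p c with hc'
    have hc'u : π c' = π c := by
      rw [hc', (Element.map_pPart (Fact.out : p.Prime) π c).1,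
        (Element.pPart_eq_self (Fact.out : p.Prime)
          (show orderOf (π c) = p ^ 1 by rw [pow_one]; exact huo)).1]
    have hc'C : c' ∈ Subgroup.centralizer (A : Set X) := fun a ha =>
      (Element.commute_pPart (hc a ha)).eq
    refine ⟨c', hΩ c' hc'C ?_, hc'u⟩
    have hord := Element.orderOf_pPart_eq_pow (Fact.out : p.Prime) c
    rw [← hc'] at hord
    have hmem : c' ^ p ∈ O := by
      rw [← QuotientGroup.eq_one_iff, ← QuotientGroup.mk'_apply, ← hπ, map_pow, hc'u,
        orderOf_dvd_iff_pow_eq_one.mp huo.dvd]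
    have h1 : (orderOf (c' ^ p)).Coprime p := Cores.orderOf_coprime_of_mem_pPrimeCore hmem
    have h2 : orderOf (c' ^ p) ∣ p ^ (orderOf c).factorization p := hord ▸ orderOf_pow_dvd p
    refine orderOf_eq_prime
      (orderOf_eq_one_iff.mp (Nat.eq_one_of_dvd_coprimes (h1.pow_right _) dvd_rfl h2)) fun h => ?_
    rw [← hπ, ← hc'u, h, map_one, orderOf_one] at huo
    exact (Fact.out : p.Prime).one_lt.ne huo
  obtain ⟨D, hDc, hDcl, hDexp, hDdet⟩ := PGroup.exists_characteristic_exponent_prime hp hVp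
  set D' := D.map V.subtype with hD'
  have hD'n : D'.Normal := by
    rw [← normalizer_eq_top_iff, eq_top_iff]
    refine le_trans ?_ (Coprime.normalizer_le_normalizer_map_characteristic V D)
    rw [normalizer_eq_top_iff.mpr (inferInstance : V.Normal)]
  have hnD : ∀ g : X ⧸ O, g ∈ normalizer (D' : Set (X ⧸ O)) := fun g => by
    rw [normalizer_eq_top_iff.mpr hD'n]
    exact mem_top g
  let cj : (X ⧸ O) →* MulAut D' := (normalizerMonoidHom D').comp
    ((MonoidHom.id (X ⧸ O)).codRestrict (normalizer (D' : Set (X ⧸ O))) hnD)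
  have hcj : ∀ (g : X ⧸ O) (d : D'), (cj g d : X ⧸ O) = g * d * g⁻¹ := fun g d => rfl
  suffices hQD : Q'.map cj = ⊥ by
    have hQV : Q' ≤ Subgroup.centralizer (V : Set (X ⧸ O)) := by
      intro q hq
      have hnV : q ∈ normalizer (V : Set (X ⧸ O)) := by
        rw [normalizer_eq_top_iff.mpr (inferInstance : V.Normal)]
        exact mem_top q
      set α := V.normalizerMonoidHom ⟨q, hnV⟩ with hα
      have h1 : α = 1 := by
        refine hDdet α ?_ fun d hd => ?_
        · refine Nat.Coprime.coprime_dvd_left ?_ hQ'p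
          exact (orderOf_map_dvd _ _).trans (by
            rw [← Subgroup.orderOf_coe]; exact Subgroup.orderOf_dvd_natCard _ hq)
        · refine Subtype.ext ?_
          have h2 : cj q = 1 := by
            rw [← mem_bot, ← hQD]
            exact mem_map_of_mem cj hq
          exact congrArg (fun z : D' => (z : X ⧸ O)) (DFunLike.congr_fun h2 ⟨d, d, hd, rfl⟩)
      have hker : (⟨q, hnV⟩ : normalizer (V : Set (X ⧸ O))) ∈ V.normalizerMonoidHom.ker := h1
      rw [normalizerMonoidHom_ker] at hker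
      exact hker
    intro x hx
    have hxV : π x ∈ V := hCV (hQV (mem_map_of_mem π hx))
    obtain ⟨k, hk⟩ := hVp ⟨π x, hxV⟩
    have hcop : (orderOf (π x)).Coprime p :=
      Nat.Coprime.coprime_dvd_left (Subgroup.orderOf_dvd_natCard _ (mem_map_of_mem π hx)) hQ'p
    exact (QuotientGroup.eq_one_iff _).mp (orderOf_eq_one_iff.mp (Nat.eq_one_of_dvd_coprimes
      (hcop.pow_right k) dvd_rfl (orderOf_dvd_of_pow_eq_one (congrArg Subtype.val hk))))
  by_contra hne
  let e : D ≃* D' := D.equivMapOfInjective _ V.subtype_injective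
  have hexp : ∀ d : D', d ^ p = 1 := by
    intro d
    obtain ⟨d0, rfl⟩ := e.surjective d
    rw [← map_pow, show d0 ^ p = 1 from Subtype.ext (hDexp d0 d0.2), map_one]
  have hcl : ∀ a b c : D', ⁅a, b⁆ * c = c * ⁅a, b⁆ := by
    intro a b c
    obtain ⟨a0, rfl⟩ := e.surjective a
    obtain ⟨b0, rfl⟩ := e.surjective b
    obtain ⟨c0, rfl⟩ := e.surjective c
    rw [← map_commutatorElement, ← map_mul, ← map_mul,
      (mem_center_iff.mp (hDcl (commutator_mem_commutator (mem_top a0) (mem_top b0))) c0)]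
  obtain ⟨u, hufix, q', hq', hqu⟩ := exists_fixed_moved hp hcl hexp (hAp.map π) (Q'.map cj)
    (Nat.Coprime.coprime_dvd_left (card_map_dvd Q' cj) hQ'p) (cj.comp A'.subtype)
    (by
      rintro a _ ⟨q, hq, rfl⟩
      exact ⟨a * q * a⁻¹, (mem_normalizer_iff.mp (hAQ' a.2) q).mp hq, by
        simp⟩) hne
  obtain ⟨q, hq, rfl⟩ := hq'
  refine hqu ?_
  have hu1 : (u : X ⧸ O) ∈ Subgroup.centralizer (A' : Set (X ⧸ O)) := fun a ha => by
    have h := congrArg Subtype.val (hufix ⟨a, ha⟩)
    exact mul_inv_eq_iff_eq_mul.mp h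
  refine Subtype.ext ?_
  rw [hcj]
  rcases eq_or_ne (u : X ⧸ O) 1 with h1 | h1
  · rw [h1]; group
  · have huo : orderOf (u : X ⧸ O) = p :=
      orderOf_eq_prime (congrArg Subtype.val (hexp u)) h1
    have huA := hΩ' _ hu1 huo
    have huV : (u : X ⧸ O) ∈ V := map_subtype_le D u.2
    have hmem : ⁅q, (u : X ⧸ O)⁆ ∈ Q' ⊓ V := by
      refine ⟨?_, ?_⟩
      · have h2 := (mem_normalizer_iff.mp (hAQ' huA) q⁻¹).mp (Subgroup.inv_mem Q' hq)
        have h3 := mul_mem hq h2
        rw [commutatorElement_def]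
        simpa [mul_assoc] using h3
      · rw [commutatorElement_def]
        exact V.mul_mem ((inferInstance : V.Normal).conj_mem _ huV q) (V.inv_mem huV)
    obtain ⟨k, hk⟩ := hVp ⟨_, hmem.2⟩
    have h4 : ⁅q, (u : X ⧸ O)⁆ = 1 := orderOf_eq_one_iff.mp (Nat.eq_one_of_dvd_coprimes
      ((Nat.Coprime.coprime_dvd_left (Subgroup.orderOf_dvd_natCard _ hmem.1) hQ'p).pow_right k)
      dvd_rfl (orderOf_dvd_of_pow_eq_one (congrArg Subtype.val hk)))
    rw [commutatorElement_eq_one_iff_mul_comm] at h4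
    rw [h4, mul_inv_cancel_right]

end Cfsg.Agent.S1302
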