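import Cfsg.Statements.S1303
import Cfsg.Agent.Cores.Basic
import Cfsg.Agent.Components.SL23
import Cfsg.Agent.PSolv.HallHigman
import Cfsg.Agent.Components.Basic
open Subgroup Cfsg.Agent.Components
open scoped commutatorElement
-- import your own Cfsg.Agent.* helpers here

set_option autoImplicit false
open Cfsg

namespace Cfsg.Agent.S1303

/-- The group X = SL(2, 3): it is 2-constrained, O_{2'}(X) = 1, its centre A = Z(X) contains every involution of X = C_X(A), and X has a subgroup of order 3 (normalized by A) not contained in O_{2'}(X). -/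
theorem result : Cfsg.IsPConstrained 2 (Matrix.SpecialLinearGroup (Fin 2) (ZMod 3)) ∧ Cfsg.pPrimeCore 2 (Matrix.SpecialLinearGroup (Fin 2) (ZMod 3)) = ⊥ ∧ (∀ t : Matrix.SpecialLinearGroup (Fin 2) (ZMod 3), orderOf t = 2 → t ∈ Subgroup.center (Matrix.SpecialLinearGroup (Fin 2) (ZMod 3))) ∧ ∃ Q : Subgroup (Matrix.SpecialLinearGroup (Fin 2) (ZMod 3)), Nat.card ↥Q = 3 ∧ ¬ (Q ≤ Cfsg.pPrimeCore 2 (Matrix.SpecialLinearGroup (Fin 2) (ZMod 3))) := by
  open Cfsg.Agent.SL23 in
  set X := Matrix.SpecialLinearGroup (Fin 2) (ZMod 3)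
  have hofq : ∀ q : Quad, qdet q = 1 → ∃ g : X, coord g = q := by
    intro q hq
    refine ⟨⟨!![q.1, q.2.1; q.2.2.1, q.2.2.2], ?_⟩, ?_⟩
    · rw [Matrix.det_fin_two_of]
      exact hq
    · simp [coord]
  obtain ⟨i, hi⟩ := hofq (0, 2, 1, 0) (by decide)
  obtain ⟨j, hj⟩ := hofq (1, 1, 1, 2) (by decide)
  obtain ⟨u, hu⟩ := hofq (1, 1, 0, 1) (by decide)
  have hfour : ∀ g : X, g ^ 4 = 1 ↔ qfour (coord g) = qone := by
    intro g
    rw [← coord_injective.eq_iff, coord_one, show g ^ 4 = g * g * (g * g) by simp [pow_succ, mul_assoc], coord_mul,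
      coord_mul]
    rfl
  have hthree : ∀ g : X, g ^ 3 = 1 ↔ qthree (coord g) = qone := by
    intro g
    rw [← coord_injective.eq_iff, coord_one, show g ^ 3 = g * g * g by simp [pow_succ, mul_assoc], coord_mul, coord_mul]
    rfl
  have hcard : Nat.card X = 24 := by
    have hbij : Nat.card X = Nat.card {q : Quad // qdet q = 1} :=
      Nat.card_congr (Equiv.ofBijective (fun g : X => (⟨coord g, coord_det g⟩ : {q : Quad // qdet q = 1}))
        ⟨fun a b h => coord_injective (congrArg Subtype.val h), fun q => by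
          obtain ⟨g, hg⟩ := hofq q.1 q.2
          exact ⟨g, Subtype.ext hg⟩⟩)
    rw [hbij, Nat.card_eq_fintype_card]
    decide
  -- the trivial odd core
  have hO : Cfsg.pPrimeCore 2 X = ⊥ := by
    rw [eq_bot_iff]
    intro x hx
    have h3 : ∀ y ∈ Cfsg.pPrimeCore 2 X, y ^ 3 = 1 := by
      intro y hy
      rw [← orderOf_dvd_iff_pow_eq_one]
      have h1 : orderOf y ∣ 8 * 3 := (by rw [show (8 * 3 : ℕ) = Nat.card X from hcard.symm]; exact _root_.orderOf_dvd_natCard y)
      exact ((Cores.orderOf_coprime_of_mem_pPrimeCore hy).pow_right 3).dvd_of_dvd_mul_left h1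
    have hc : ∀ g : X, g * x * g⁻¹ * x⁻¹ ∈ Cfsg.pPrimeCore 2 X := fun g =>
      mul_mem ((inferInstance : (Cfsg.pPrimeCore 2 X).Normal).conj_mem x hx g) (inv_mem hx)
    have h := core_small (coord x) (coord_det x) ((hthree x).mp (h3 x hx))
      (by
        have := (hthree _).mp (h3 _ (hc i))
        rwa [coord_mul, coord_mul, coord_mul, coord_inv, coord_inv, hi] at this)
      (by
        have := (hthree _).mp (h3 _ (hc j))
        rwa [coord_mul, coord_mul, coord_mul, coord_inv, coord_inv, hj] at this)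
    rw [mem_bot]
    exact coord_injective (h.trans coord_one.symm)
  let V : Subgroup X :=
    { carrier := {g | g ^ 4 = 1}
      one_mem' := one_pow 4
      mul_mem' := fun {a b} ha hb => by
        rw [Set.mem_setOf_eq, hfour, coord_mul]
        exact four_mul _ (coord_det a) ((hfour a).mp ha) _ (coord_det b) ((hfour b).mp hb)
      inv_mem' := fun {a} ha => by
        rw [Set.mem_setOf_eq, inv_pow, ha, inv_one] }
  have hVn : V.Normal := ⟨fun g hg x => by
    show (x * g * x⁻¹) ^ 4 = 1
    rw [conj_pow, show g ^ 4 = 1 from hg, mul_one, mul_inv_cancel]⟩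
  have hVp : IsPGroup 2 V := fun g => ⟨2, Subtype.ext g.2⟩
  have hle : V ≤ Cfsg.pCore 2 X := Cores.le_pCore hVn hVp
  refine ⟨PSolv.isPConstrained_of_centralizer_pCore_le ?_, hO, ?_, ?_⟩
  · intro x hx
    refine hle ((hfour x).mpr (centralizer_small _ (coord_det x) ?_ ?_))
    · have h := congrArg coord (hx i (hle ((hfour i).mpr (by rw [hi]; decide))))
      rw [coord_mul, coord_mul, hi] at h
      exact h.symm
    · have h := congrArg coord (hx j (hle ((hfour j).mpr (by rw [hj]; decide))))
      rw [coord_mul, coord_mul, hj] at h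
      exact h.symm
  · intro t ht
    rw [mem_center_iff]
    intro g
    have h2 : qmul (coord t) (coord t) = qone := by
      rw [← coord_mul, ← pow_two, orderOf_dvd_iff_pow_eq_one.mp ht.dvd, coord_one]
    rcases central_involution _ (coord_det t) h2 with h | h
    · rw [coord_injective (h.trans coord_one.symm), mul_one, one_mul]
    · refine coord_injective ?_
      rw [coord_mul, coord_mul, h]
      simp [qmul, mul_comm]
  · refine ⟨zpowers u, ?_, fun hle' => ?_⟩
    · rw [Nat.card_zpowers]
      refine orderOf_eq_prime ((hthree u).mpr (by rw [hu]; decide)) fun h => ?_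
      rw [h, coord_one] at hu
      exact absurd hu (by decide)
    · have h := hle' (mem_zpowers u)
      rw [hO, mem_bot] at h
      rw [h, coord_one] at hu
      exact absurd hu (by decide)

end Cfsg.Agent.S1303
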