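import Cfsg.Statements.S1304
import Cfsg.Agent.Signalizer.Layer

set_option autoImplicit false
open Cfsg

namespace Cfsg.Agent.S1304
open scoped commutatorElement

/-- Let X be a perfect group and α an automorphism of X with α(x) x⁻¹ central for every x. Then α is the identity. -/
theorem result {X : Type*} [Group X] (hperf : commutator X = ⊤) (α : X ≃* X) (h : ∀ x : X, α x * x⁻¹ ∈ Subgroup.center X) : ∀ x : X, α x = x := by
  let K : Subgroup X := commutator X
  have key : commutator X ≤ MonoidHom.eqLocus α.toMonoidHom (MonoidHom.id X) := by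
    rw [commutator_def, Subgroup.commutator_le]
    intro a _ b _
    show α ⁅a, b⁆ = ⁅a, b⁆
    have ha := Subgroup.mem_center_iff.1 (h a)
    have hb := Subgroup.mem_center_iff.1 (h b)
    rw [map_commutatorElement]
    obtain ⟨za, hza, hae⟩ : ∃ z ∈ Subgroup.center X, α a = z * a := ⟨_, h a, by group⟩
    obtain ⟨zb, hzb, hbe⟩ : ∃ z ∈ Subgroup.center X, α b = z * b := ⟨_, h b, by group⟩
    rw [Subgroup.mem_center_iff] at hza hzb
    rw [hae, hbe]
    calc ⁅za * a, zb * b⁆ = za * (a * zb) * b * a⁻¹ * za⁻¹ * b⁻¹ * zb⁻¹ := by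
          simp [commutatorElement_def, mul_assoc]
      _ = za * zb * (a * b * a⁻¹) * za⁻¹ * b⁻¹ * zb⁻¹ := by rw [hzb a]; group
      _ = (za * zb * (a * b * a⁻¹)) * (za⁻¹ * b⁻¹) * zb⁻¹ := by group
      _ = ((a * b * a⁻¹) * (za * zb)) * (b⁻¹ * za⁻¹) * zb⁻¹ := by
          rw [((show Commute (a * b * a⁻¹) za from hza _).mul_right (hzb _)).eq,
            ((show Commute b⁻¹ za from hza _).inv_right).eq]
      _ = (a * b * a⁻¹) * za * (zb * b⁻¹) * za⁻¹ * zb⁻¹ := by group
      _ = (a * b * a⁻¹) * (za * b⁻¹) * (zb * za⁻¹) * zb⁻¹ := by rw [← hzb b⁻¹]; group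
      _ = (a * b * a⁻¹) * (b⁻¹ * za) * (za⁻¹ * zb) * zb⁻¹ := by
          rw [(show Commute za zb from hzb za).inv_left.eq, hza b⁻¹]
      _ = ⁅a, b⁆ := by simp [commutatorElement_def, mul_assoc]
  intro x
  exact key (hperf ▸ Subgroup.mem_top x)

end Cfsg.Agent.S1304
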