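import Cfsg.Statements.S1306
import Cfsg.Agent.Components.Basic
open Subgroup Cfsg.Agent.Components
-- import your own Cfsg.Agent.* helpers here

set_option autoImplicit false
open Cfsg

namespace Cfsg.Agent.S1306

/-- Let G be finite, x an involution and L ≤ C_G(x) a component of C_G(x). Suppose L is a component of C_G(y) for every involution y ∈ C_G(L), and ⁅L, g L g⁻¹⁆ ≠ 1 whenever g L g⁻¹ ≠ L. Then L is a standard subgroup of G. -/
theorem result {G : Type*} [Group G] [Finite G] (x : G) (hx : orderOf x = 2) (L : Subgroup G) (hLx : L ≤ Subgroup.centralizer ({x} : Set G)) (hL : Cfsg.IsComponent (L.subgroupOf (Subgroup.centralizer ({x} : Set G)))) (hne : ∀ y : G, orderOf y = 2 → y ∈ Subgroup.centralizer (L : Set G) → L ≤ Subgroup.centralizer ({y} : Set G) ∧ Cfsg.IsComponent (L.subgroupOf (Subgroup.centralizer ({y} : Set G)))) (hnc : ∀ g : G, L.map (MulAut.conj g).toMonoidHom ≠ L → ⁅L, L.map (MulAut.conj g).toMonoidHom⁆ ≠ ⊥) : Cfsg.IsStandardSubgroup L := by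
  classical
  have hq : Cfsg.IsQuasisimple L :=
    quasisimple_of_mulEquiv (subgroupOfEquivOfLe hLx) hL.2
  set C := centralizer (L : Set G) with hC
  have hNC : normalizer (L : Set G) ≤ normalizer (C : Set G) := by
    intro g hg
    rw [mem_normalizer_iff]
    have key : ∀ h ∈ normalizer (L : Set G), ∀ c ∈ C, h * c * h⁻¹ ∈ C := by
      intro h hh c hc l hl
      have := hc _ ((mem_normalizer_iff''.mp hh l).mp hl)
      calc l * (h * c * h⁻¹) = h * (h⁻¹ * l * h * c) * h⁻¹ := by group
        _ = h * (c * (h⁻¹ * l * h)) * h⁻¹ := by rw [this]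
        _ = h * c * h⁻¹ * l := by group
    intro c
    refine ⟨key g hg c, fun hc => ?_⟩
    have := key g⁻¹ (inv_mem hg) _ hc
    simpa [mul_assoc] using this
  have hconj : ∀ g y : G, orderOf y = 2 → y ∈ C →
      y ∈ C.map (MulAut.conj g).toMonoidHom → L.map (MulAut.conj g).toMonoidHom = L := by
    intro g y hy hyC hyg
    obtain ⟨y', hy', hyy⟩ := hyg
    have hy'o : orderOf y' = 2 := by
      rw [← hy, ← hyy]
      exact (orderOf_injective _ (MulAut.conj g).injective y').symm
    obtain ⟨h1, h2⟩ := hne y hy hyC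
    obtain ⟨h3, h4⟩ := hne y' hy'o hy'
    by_contra hgne
    refine hnc g hgne ?_
    set L' := L.map (MulAut.conj g).toMonoidHom with hL'
    have hmap : (centralizer ({y'} : Set G)).map (MulAut.conj g).toMonoidHom =
        centralizer ({y} : Set G) := by
      rw [← hyy]
      ext z
      rw [mem_map_equiv, mem_centralizer_singleton_iff, mem_centralizer_singleton_iff,
        MulAut.conj_symm_apply, MulEquiv.coe_toMonoidHom, MulAut.conj_apply]
      constructor
      · intro h
        calc z * (g * y' * g⁻¹) = g * (g⁻¹ * z * g * y') * g⁻¹ := by group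
          _ = g * (y' * (g⁻¹ * z * g)) * g⁻¹ := by rw [h]
          _ = g * y' * g⁻¹ * z := by group
      · intro h
        calc g⁻¹ * z * g * y' = g⁻¹ * (z * (g * y' * g⁻¹)) * g := by group
          _ = g⁻¹ * (g * y' * g⁻¹ * z) * g := by rw [h]
          _ = y' * (g⁻¹ * z * g) := by group
    let e : centralizer ({y'} : Set G) ≃* centralizer ({y} : Set G) :=
      ((MulAut.conj g).subgroupMap _).trans (MulEquiv.subgroupCongr hmap)
    have hL'le : L' ≤ centralizer ({y} : Set G) := hmap ▸ map_mono h3
    have h5 : Cfsg.IsComponent (L'.subgroupOf (centralizer ({y} : Set G))) := by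
      have h := component_map_equiv e h4
      rwa [show (L.subgroupOf (centralizer ({y'} : Set G))).map e.toMonoidHom =
        L'.subgroupOf (centralizer ({y} : Set G)) from ?_] at h
      apply map_injective (subtype_injective (centralizer ({y} : Set G)))
      rw [map_map, map_subgroupOf_eq_of_le hL'le, hL']
      conv_rhs => rw [← map_subgroupOf_eq_of_le h3, map_map]
      congr 1
    rcases eq_or_ne (L.subgroupOf (centralizer ({y} : Set G)))
        (L'.subgroupOf (centralizer ({y} : Set G))) with heq | hne'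
    · refine absurd ?_ hgne
      rw [← map_subgroupOf_eq_of_le hL'le, ← heq, map_subgroupOf_eq_of_le h1]
    · have := congrArg (Subgroup.map (centralizer ({y} : Set G)).subtype)
        (component_commute h2 h5 hne')
      rwa [Subgroup.map_commutator, map_subgroupOf_eq_of_le h1, map_subgroupOf_eq_of_le hL'le,
        Subgroup.map_bot] at this
  have hxC : x ∈ C := fun l hl => mem_centralizer_singleton_iff.mp (hLx hl)
  refine ⟨hq, ⟨?_, fun g hg => ?_⟩, hnc, le_antisymm hNC fun g hg => ?_⟩
  · rw [even_iff_two_dvd, ← hx]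
    exact Subgroup.orderOf_dvd_natCard C hxC
  · rw [← Nat.not_even_iff_odd, even_iff_two_dvd]
    intro h2
    have : Fact (Nat.Prime 2) := ⟨Nat.prime_two⟩
    obtain ⟨⟨y, hy⟩, hyo⟩ := exists_prime_orderOf_dvd_card' 2 h2
    rw [← Subgroup.orderOf_coe] at hyo
    have hgL := hconj g y hyo hy.1 hy.2
    exact hg (hNC (mem_normalizer_iff_map_conj_eq.mpr hgL))
  · refine mem_normalizer_iff_map_conj_eq.mpr (hconj g (g * x * g⁻¹) ?_ ?_ ⟨x, hxC, rfl⟩)
    · rw [← hx]
      exact orderOf_injective (MulAut.conj g).toMonoidHom (MulAut.conj g).injective x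
    · exact (mem_normalizer_iff.mp hg x).mp hxC

end Cfsg.Agent.S1306
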