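import Cfsg.Statements.S1307
import Cfsg.Agent.S0215
import Cfsg.Agent.TwoGroups.UniqueInvolution
import Cfsg.Agent.Components.Basic
import Mathlib.GroupTheory.Transfer
open Subgroup Cfsg.Agent.Components
open scoped commutatorElement
-- import your own Cfsg.Agent.* helpers here

set_option autoImplicit false
open Cfsg

namespace Cfsg.Agent.S1307

/-- Let G be finite, x an involution and L ≤ C_G(x) a component of C_G(x) of even order and 2-rank 1, such that L is a component of C_G(y) for every involution y ∈ C_G(L). Then some involution of L is a classical involution of G. -/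
theorem result {G : Type*} [Group G] [Finite G] (x : G) (hx : orderOf x = 2) (L : Subgroup G) (hLx : L ≤ Subgroup.centralizer ({x} : Set G)) (hL : Cfsg.IsComponent (L.subgroupOf (Subgroup.centralizer ({x} : Set G)))) (heven : Even (Nat.card ↥L)) (hrk : Cfsg.PRankLE 2 1 ↥L) (hne : ∀ y : G, orderOf y = 2 → y ∈ Subgroup.centralizer (L : Set G) → L ≤ Subgroup.centralizer ({y} : Set G) ∧ Cfsg.IsComponent (L.subgroupOf (Subgroup.centralizer ({y} : Set G)))) : ∃ t ∈ L, Cfsg.IsClassicalInvolution t := by
  classical
  have : Fact (Nat.Prime 2) := ⟨Nat.prime_two⟩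
  have _ := hx
  have hq : Cfsg.IsQuasisimple L := quasisimple_of_mulEquiv (subgroupOfEquivOfLe hLx) hL.2
  have : Group.IsPerfect L := hq.1
  obtain ⟨P⟩ : Nonempty (Sylow 2 L) := inferInstance
  -- at most one involution in a Sylow subgroup
  have huniq : ∀ a b : (P : Subgroup L), orderOf a = 2 → orderOf b = 2 → a = b := by
    have hcomm : ∀ a z : (P : Subgroup L), orderOf a = 2 → orderOf z = 2 →
        z ∈ Subgroup.center (P : Subgroup L) → a = z := by
      intro a z ha hz hzc
      by_contra hne
      set A := closure ({(a : L), (z : L)} : Set L) with hA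
      have hc : Commute (a : L) (z : L) := congrArg Subtype.val (mem_center_iff.mp hzc a)
      have ha2 : (a : L) ^ 2 = 1 := congrArg Subtype.val (show a ^ 2 = 1 from orderOf_dvd_iff_pow_eq_one.mp ha.dvd)
      have hz2 : (z : L) ^ 2 = 1 := congrArg Subtype.val (show z ^ 2 = 1 from orderOf_dvd_iff_pow_eq_one.mp hz.dvd)
      have hAc : IsMulCommutative A := Subgroup.isMulCommutative_closure (by
        rintro u (rfl | rfl) v (rfl | rfl)
        exacts [rfl, hc.eq, hc.eq.symm, rfl])
      have hexp : ∀ u ∈ A, u ^ 2 = 1 := by
        intro u hu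
        induction hu using Subgroup.closure_induction with
        | mem u hu => rcases hu with rfl | rfl <;> assumption
        | one => exact one_pow _
        | mul u v hu hv hu2 hv2 =>
          have huv : Commute u v := congrArg Subtype.val (mul_comm' (⟨u, hu⟩ : A) ⟨v, hv⟩)
          rw [huv.mul_pow, hu2, hv2, one_mul]
        | inv u _ hu2 => rw [inv_pow, hu2, inv_one]
      have haA : (a : L) ∈ A := subset_closure (Or.inl rfl)
      have hzA : (z : L) ∈ A := subset_closure (Or.inr rfl)
      let f : Fin 3 → A := ![⟨a, haA⟩, ⟨z, hzA⟩, 1]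
      have ha1 : (a : L) ≠ 1 := fun h => by
        rw [← Subgroup.orderOf_coe, h, orderOf_one] at ha; norm_num at ha
      have hz1 : (z : L) ≠ 1 := fun h => by
        rw [← Subgroup.orderOf_coe, h, orderOf_one] at hz; norm_num at hz
      have haz : (a : L) ≠ z := fun h => hne (Subtype.ext h)
      have hf : Function.Injective f := by
        intro i j hij
        fin_cases i <;> fin_cases j <;> first
          | rfl
          | exact absurd (congrArg Subtype.val hij) haz
          | exact absurd (congrArg Subtype.val hij).symm haz
          | exact absurd (congrArg Subtype.val hij) ha1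
          | exact absurd (congrArg Subtype.val hij).symm ha1
          | exact absurd (congrArg Subtype.val hij) hz1
          | exact absurd (congrArg Subtype.val hij).symm hz1
      have := Nat.card_le_card_of_injective f hf
      have h2 := hrk A hAc hexp
      rw [Nat.card_fin] at this
      norm_num at h2
      omega
    intro a b ha hb
    have : Nontrivial (P : Subgroup L) :=
      nontrivial_of_ne a 1 fun h => by rw [h, orderOf_one] at ha; norm_num at ha
    have hne : (⊤ : Subgroup (P : Subgroup L)) ≠ ⊥ := top_ne_bot
    obtain ⟨z, -, hzc, hz⟩ := TwoGroups.exists_central_involution_of_normal P.2 ⊤ hne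
    rw [hcomm a z ha hz hzc, hcomm b z hb hz hzc]
  have hL2 : 2 ∣ Nat.card L := even_iff_two_dvd.mp heven
  have hPne : (P : Subgroup L) ≠ ⊥ := P.ne_bot_of_dvd_card hL2
  -- the Sylow subgroup is quaternion
  rcases TwoGroups.cyclic_or_quaternion_of_unique_involution P.2 huniq with hcyc | ⟨n, hn, -, ⟨e⟩⟩
  · exfalso
    have hmin : (Nat.card L).minFac = 2 := Nat.minFac_eq_two_iff _ |>.mpr hL2
    have hP : normalizer ((P : Subgroup L) : Set L) ≤ centralizer ((P : Subgroup L) : Set L) :=
      hcyc.normalizer_le_centralizer hmin
    have htop : (MonoidHom.transferSylow P hP).ker = ⊤ := by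
      rw [eq_top_iff, ← Group.IsPerfect.commutator_eq_top, _root_.commutator_def, commutator_le]
      intro a _ b _
      rw [MonoidHom.mem_ker, map_commutatorElement, commutatorElement_eq_one_iff_mul_comm]
      exact mul_comm' (M := (P : Subgroup L)) _ _
    have hc := MonoidHom.ker_transferSylow_isComplement' P hP
    rw [htop] at hc
    refine hPne ?_
    exact Subgroup.isComplement'_top_left.mp hc
  -- the involution is central in `L`
  have : Nontrivial (P : Subgroup L) := (nontrivial_iff_ne_bot _).mpr hPne
  obtain ⟨t, -, -, htP⟩ := TwoGroups.exists_central_involution_of_normal P.2 ⊤ top_ne_bot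
  obtain ⟨N, hN, hNodd, hNt⟩ := S0215.result P (t : L) (by rw [Subgroup.orderOf_coe]; exact htP)
    t.2 fun g hg => by
      have h := huniq ⟨g * t * g⁻¹, hg⟩ t ?_ htP
      · exact congrArg Subtype.val h
      · refine Eq.trans ?_ htP
        rw [← Subgroup.orderOf_coe, ← Subgroup.orderOf_coe t]
        exact orderOf_injective (MulAut.conj g).toMonoidHom (MulAut.conj g).injective (t : L)
  have hNc : N ≤ Subgroup.center L := (quasisimple_normal hq hN).resolve_left fun h => by
    rw [h, card_top] at hNodd
    exact (Nat.not_even_iff_odd.mpr hNodd) heven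
  have htc : (t : L) ∈ Subgroup.center L := by
    have h : ⁅(⊤ : Subgroup L), zpowers (t : L)⁆ = ⊥ := by
      refine perfect_centralizes_of_commutator
        ((_root_.commutator_def L).symm.trans Group.IsPerfect.commutator_eq_top) ?_
      rw [commutator_eq_bot_iff_le_centralizer]
      refine le_trans ?_ ((Subgroup.center_le_centralizer _))
      have hnc : ∀ g : L, ⁅(t : L), g⁆ ∈ Subgroup.center L := fun g => by
        rw [commutatorElement_def]; exact hNc (hNt g)
      rw [commutator_le]
      intro u hu v _
      obtain ⟨j, rfl⟩ := hu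
      show ⁅(t : L) ^ j, v⁆ ∈ Subgroup.center L
      have hpi := QuotientGroup.mk'_surjective (Subgroup.center L)
      rw [← QuotientGroup.eq_one_iff, ← QuotientGroup.mk'_apply, map_commutatorElement,
        commutatorElement_eq_one_iff_mul_comm, map_zpow]
      refine (Commute.zpow_left ?_ j).eq
      show Commute (QuotientGroup.mk' (Subgroup.center L) (t : L))
        (QuotientGroup.mk' (Subgroup.center L) v)
      refine commutatorElement_eq_one_iff_mul_comm.mp ?_
      rw [← map_commutatorElement]
      exact (QuotientGroup.eq_one_iff _).mpr (hnc v)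
    rw [commutator_comm, commutator_eq_bot_iff_le_centralizer, zpowers_le] at h
    exact mem_center_iff.mpr fun g => h g (mem_top g)
  have ht2 : orderOf ((t : L) : G) = 2 := by rw [Subgroup.orderOf_coe, Subgroup.orderOf_coe, htP]
  have htC : ((t : L) : G) ∈ Subgroup.centralizer (L : Set G) := fun l hl =>
    congrArg Subtype.val (mem_center_iff.mp htc ⟨l, hl⟩)
  obtain ⟨hLt, hLtc⟩ := hne _ ht2 htC
  refine ⟨_, (t : L).2, ht2, L, hLt, (t : L).2, hLtc.1, P, n - 2, ⟨e.trans ?_⟩⟩
  rw [show n - 2 + 1 = n - 1 by omega]

end Cfsg.Agent.S1307
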