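import Cfsg.Statements.S1314
import Cfsg.Agent.Signalizer.Layer

set_option autoImplicit false
open Cfsg

namespace Cfsg.Agent.S1314
open scoped commutatorElement

/-- Let x be an involution of a group G and L a perfect subgroup with ⁅L, x L x⁻¹⁆ = 1. Then l ↦ l (x l x⁻¹) is a group homomorphism π from L to G whose kernel is central in L and whose image lies in C_G(x); and the commutator subgroup of C_{L ⊔ xLx⁻¹}(x) equals the image of π. -/
theorem result {G : Type*} [Group G] [Finite G] (x : G) (hx : orderOf x = 2) (L : Subgroup G) (hperf : ⁅L, L⁆ = L) (hcomm : ⁅L, L.map (MulAut.conj x).toMonoidHom⁆ = ⊥) : ∃ π : ↥L →* G, (∀ l : ↥L, π l = (l : G) * (x * (l : G) * x⁻¹)) ∧ π.ker ≤ Subgroup.center ↥L ∧ π.range ≤ Subgroup.centralizer ({x} : Set G) ∧ ⁅(L ⊔ L.map (MulAut.conj x).toMonoidHom) ⊓ Subgroup.centralizer ({x} : Set G), (L ⊔ L.map (MulAut.conj x).toMonoidHom) ⊓ Subgroup.centralizer ({x} : Set G)⁆ = π.range := by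
  have hc : ∀ a ∈ L, ∀ b ∈ L, a * (x * b * x⁻¹) = x * b * x⁻¹ * a := fun a ha b hb =>
    (Subgroup.mem_centralizer_iff.1 (Subgroup.commutator_eq_bot_iff_le_centralizer.1 hcomm ha) _
      ⟨b, hb, rfl⟩).symm
  have hx2 : x * x = 1 := by rw [← pow_two, ← hx]; exact pow_orderOf_eq_one x
  have hxi : x⁻¹ = x := inv_eq_of_mul_eq_one_right hx2
  have hxx : ∀ g : G, x * (x * g * x⁻¹) * x⁻¹ = g := fun g => by
    calc x * (x * g * x⁻¹) * x⁻¹ = (x * x) * g * (x * x)⁻¹ := by group
      _ = g := by rw [hx2]; group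
  let π : ↥L →* G :=
    { toFun := fun l => (l : G) * (x * (l : G) * x⁻¹)
      map_one' := by simp
      map_mul' := fun a b => by
        show (a : G) * b * (x * ((a : G) * b) * x⁻¹)
          = (a : G) * (x * a * x⁻¹) * ((b : G) * (x * b * x⁻¹))
        calc (a : G) * b * (x * ((a : G) * b) * x⁻¹)
            = (a : G) * ((b : G) * (x * a * x⁻¹)) * (x * b * x⁻¹) := by group
          _ = _ := by rw [hc b b.2 a a.2]; group }
  refine ⟨π, fun l => rfl, ?_, ?_, ?_⟩
  · intro l hl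
    rw [Subgroup.mem_center_iff]
    intro m
    apply Subtype.ext
    have h : (l : G) * (x * l * x⁻¹) = 1 := MonoidHom.mem_ker.1 hl
    have h2 : (l : G) = x * (l : G)⁻¹ * x⁻¹ := (eq_inv_of_mul_eq_one_left h).trans (by group)
    show (m : G) * l = l * m
    rw [h2]
    exact hc m m.2 _ (L.inv_mem l.2)
  · rintro _ ⟨l, rfl⟩
    rw [Subgroup.mem_centralizer_singleton_iff]
    show (l : G) * (x * l * x⁻¹) * x = x * ((l : G) * (x * l * x⁻¹))
    symm
    rw [← mul_inv_eq_iff_eq_mul]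
    calc x * ((l : G) * (x * l * x⁻¹)) * x⁻¹
        = (x * l * x⁻¹) * (x * (x * l * x⁻¹) * x⁻¹) := by group
      _ = _ := by rw [hxx, hc l l.2 l l.2]
  · set L' := L.map (MulAut.conj x).toMonoidHom with hL'
    have hn : L ≤ Subgroup.normalizer (L' : Set G) :=
      (Subgroup.commutator_eq_bot_iff_le_centralizer.1 hcomm).trans
        (Subgroup.centralizer_le_normalizer _)
    have hrC : ∀ l : ↥L, π l ∈ (L ⊔ L') ⊓ Subgroup.centralizer ({x} : Set G) := by
      intro l
      refine ⟨Subgroup.mul_mem_sup l.2 ⟨l, l.2, rfl⟩, Subgroup.mem_centralizer_singleton_iff.2 ?_⟩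
      show (l : G) * (x * l * x⁻¹) * x = x * ((l : G) * (x * l * x⁻¹))
      symm
      rw [← mul_inv_eq_iff_eq_mul]
      calc x * ((l : G) * (x * l * x⁻¹)) * x⁻¹
          = (x * l * x⁻¹) * (x * (x * l * x⁻¹) * x⁻¹) := by group
        _ = _ := by rw [hxx, hc l l.2 l l.2]
    apply le_antisymm
    · have hz : ∀ c ∈ (L ⊔ L') ⊓ Subgroup.centralizer ({x} : Set G), ∃ l : ↥L,
          ∃ z ∈ Subgroup.centralizer ((L ⊔ L' : Subgroup G) : Set G),
            z ∈ L ⊔ L' ∧ c = π l * z := by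
        rintro c ⟨hc1, hc2⟩
        obtain ⟨l, hl, m', hm', rfl⟩ := Cfsg.Agent.SigLayer.exists_mul_of_mem_sup hn hc1
        obtain ⟨m, hm, hme⟩ := hm'
        have hme' : x * m * x⁻¹ = m' := hme
        subst hme'
        have hfix : x * (l * (x * m * x⁻¹)) * x⁻¹ = l * (x * m * x⁻¹) :=
          mul_inv_eq_iff_eq_mul.2 (Subgroup.mem_centralizer_singleton_iff.1 hc2).symm
        rw [show x * (l * (x * m * x⁻¹)) * x⁻¹
          = (x * l * x⁻¹) * (x * (x * m * x⁻¹) * x⁻¹) by group, hxx, ← hc m hm l hl] at hfix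
        have hzz : l⁻¹ * m = (x * m * x⁻¹) * (x * l * x⁻¹)⁻¹ := by
          calc l⁻¹ * m = l⁻¹ * (m * (x * l * x⁻¹)) * (x * l * x⁻¹)⁻¹ := by group
            _ = _ := by rw [hfix]; group
        have hzL' : l⁻¹ * m ∈ L' := ⟨m * l⁻¹, L.mul_mem hm (L.inv_mem hl), by
          show x * (m * l⁻¹) * x⁻¹ = l⁻¹ * m
          rw [hzz]; group⟩
        have hzc : l⁻¹ * m ∈ Subgroup.centralizer ((L ⊔ L' : Subgroup G) : Set G) := by
          refine Cfsg.Agent.SigLayer.centralizer_sup_le ⟨?_, ?_⟩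
          · show l⁻¹ * m ∈ Subgroup.centralizer (L : Set G)
            rw [Subgroup.mem_centralizer_iff]
            obtain ⟨b, hb, hbe⟩ := hzL'
            intro a ha
            rw [← hbe]
            exact hc a ha b hb
          · exact Subgroup.commutator_eq_bot_iff_le_centralizer.1 hcomm
              (L.mul_mem (L.inv_mem hl) hm)
        refine ⟨⟨l, hl⟩, l⁻¹ * m, hzc,
          Subgroup.mem_sup_left (L.mul_mem (L.inv_mem hl) hm), ?_⟩
        show l * (x * m * x⁻¹) = l * (x * l * x⁻¹) * (l⁻¹ * m)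
        have hz' : x * l * x⁻¹ * (l⁻¹ * m) = l⁻¹ * m * (x * l * x⁻¹) :=
          Subgroup.mem_centralizer_iff.1 hzc _ (Subgroup.mem_sup_right ⟨l, hl, rfl⟩)
        rw [mul_assoc l, hz', hzz]
        group
      rw [Subgroup.commutator_le]
      intro c hcC d hdC
      obtain ⟨a, z, hz1, hz2, rfl⟩ := hz c hcC
      obtain ⟨b, w, hw1, hw2, rfl⟩ := hz d hdC
      refine ⟨⁅a, b⁆, ?_⟩
      rw [map_commutatorElement]
      have e1 : π a * w = w * π a := Subgroup.mem_centralizer_iff.1 hw1 _ (hrC a).1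
      have e2 : π b * z = z * π b := Subgroup.mem_centralizer_iff.1 hz1 _ (hrC b).1
      have e3 : z * w = w * z := Subgroup.mem_centralizer_iff.1 hw1 _ hz2
      symm
      calc ⁅π a * z, π b * w⁆ = π a * (z * π b) * w * z⁻¹ * (π a)⁻¹ * w⁻¹ * (π b)⁻¹ := by
            simp [commutatorElement_def, mul_assoc]
        _ = π a * π b * (z * w) * z⁻¹ * (π a)⁻¹ * w⁻¹ * (π b)⁻¹ := by rw [← e2]; group
        _ = π a * π b * w * (w * π a)⁻¹ * (π b)⁻¹ := by rw [e3]; group
        _ = ⁅π a, π b⁆ := by rw [← e1]; simp [commutatorElement_def, mul_assoc]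
    · haveI : Group.IsPerfect ↥L := L.isPerfect_iff.2 hperf
      have h1 : π.range = ⁅π.range, π.range⁆ := by
        rw [π.range_eq_map, ← Subgroup.map_commutator]
        congr 1
        rw [← commutator_def]
        exact ((Group.isPerfect_def (G := ↥L)).1 inferInstance).symm
      rw [h1]
      exact Subgroup.commutator_mono (by rintro _ ⟨l, rfl⟩; exact hrC l)
        (by rintro _ ⟨l, rfl⟩; exact hrC l)

end Cfsg.Agent.S1314
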