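import Cfsg.Statements.S1315
import Cfsg.Agent.Intrinsic.Order4
import Cfsg.Agent.Intrinsic.Part2
import Cfsg.Agent.Intrinsic.Class
import Cfsg.Agent.Components.Local

set_option autoImplicit false
open Cfsg

namespace Cfsg.Agent.S1315

open Intrinsic

/-- Let G be finite and J ≠ K subgroups, each containing exactly one involution, z(J) resp. z(K), each a 2-component of the centralizer of its involution, with J / O(J) and K / O(K) both isomorphic to SL(2, F) for one finite field F of odd order, or both non-split double covers of A7. Then (i) every 2-element of K of order at least 4 centralizing z(J) normalizes J; (ii) if z(J) normalizes K then z(K) normalizes J. -/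
theorem result {G : Type*} [Group G] [Finite G] (J K : Subgroup G) (hJK : J ≠ K) (zJ zK : G) (hzJ : zJ ∈ J ∧ orderOf zJ = 2 ∧ ∀ t ∈ J, orderOf t = 2 → t = zJ) (hzK : zK ∈ K ∧ orderOf zK = 2 ∧ ∀ t ∈ K, orderOf t = 2 → t = zK) (hJ : J ≤ Subgroup.centralizer ({zJ} : Set G) ∧ Cfsg.IsPComponent 2 (J.subgroupOf (Subgroup.centralizer ({zJ} : Set G)))) (hK : K ≤ Subgroup.centralizer ({zK} : Set G) ∧ Cfsg.IsPComponent 2 (K.subgroupOf (Subgroup.centralizer ({zK} : Set G)))) (htype : (∃ (F : Type) (_ : Field F) (_ : Fintype F), Odd (Fintype.card F) ∧ Nonempty (↥J ⧸ Cfsg.oddCore ↥J ≃* Matrix.SpecialLinearGroup (Fin 2) F) ∧ Nonempty (↥K ⧸ Cfsg.oddCore ↥K ≃* Matrix.SpecialLinearGroup (Fin 2) F)) ∨ (Cfsg.IsNonsplitDoubleCover (↥J ⧸ Cfsg.oddCore ↥J) ↥(alternatingGroup (Fin 7)) ∧ Cfsg.IsNonsplitDoubleCover (↥K ⧸ Cfsg.oddCore ↥K) ↥(alternatingGroup (Fin 7)))) : (∀ y ∈ K, IsPGroup 2 ↥(Subgroup.zpowers y) → 4 ≤ orderOf y → y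 * zJ = zJ * y → y ∈ Subgroup.normalizer (J : Set G)) ∧ (zJ ∈ Subgroup.normalizer (K : Set G) → zK ∈ Subgroup.normalizer (J : Set G)) := by
  have hcomp : ∀ (J : Subgroup G) (z : G), z ∈ J ∧ orderOf z = 2 ∧ (∀ t ∈ J, orderOf t = 2 → t = z) →
      (J ≤ Subgroup.centralizer ({z} : Set G) ∧
        IsPComponent 2 (J.subgroupOf (Subgroup.centralizer ({z} : Set G)))) →
      ((∃ (F : Type) (_ : Field F) (_ : Fintype F), Odd (Fintype.card F) ∧
        Nonempty (↥J ⧸ oddCore ↥J ≃* Matrix.SpecialLinearGroup (Fin 2) F)) ∨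
        IsNonsplitDoubleCover (↥J ⧸ oddCore ↥J) ↥(alternatingGroup (Fin 7))) →
      Comp J z ∧ ClassFour J z := by
    intro J z h1 h2 h3
    refine ⟨⟨h1.2.1, h1.1, h1.2.2, h2⟩, fun a ha b hb ha2 hb2 => ?_⟩
    obtain ⟨w, hw, u, hu, h⟩ := order_four_class ⟨h1.1, h1.2.1⟩ h1.2.2 h3 a ha b hb ha2 hb2
    exact ⟨w, hw, u, Components.pPrimeCore_map_le_of_subnormal h2.1 h2.2.1 hu, h⟩
  obtain ⟨hJ', hclJ⟩ := hcomp J zJ hzJ hJ (htype.imp
    (fun ⟨F, i1, i2, h1, h2, _⟩ => ⟨F, i1, i2, h1, h2⟩) (fun h => h.1))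
  obtain ⟨hK', hclK⟩ := hcomp K zK hzK hK (htype.imp
    (fun ⟨F, i1, i2, h1, _, h3⟩ => ⟨F, i1, i2, h1, h3⟩) (fun h => h.2))
  have key : ∀ y ∈ K, IsPGroup 2 ↥(Subgroup.zpowers y) → y * y ≠ 1 → Commute y zJ →
      y ∈ Subgroup.normalizer (J : Set G) := by
    intro y hy hy2 hy4 hc
    by_cases hzt : zJ = zK
    · subst hzt
      exact normalizes_of_same hJ hK hy
    · exact part_one hJ' hK' hclJ hclK hzt y hy hy2 hy4 hc
  refine ⟨fun y hy hy2 hy4 hc => key y hy hy2 (fun h => ?_) hc, fun hzN => ?_⟩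
  · have h2 : orderOf y ∣ 2 := orderOf_dvd_of_pow_eq_one (by rw [pow_two, h])
    have := Nat.le_of_dvd (by omega) h2
    omega
  · by_cases hzt : zJ = zK
    · exact hzt ▸ Subgroup.le_normalizer hzJ.1
    by_cases hs : ∀ a ∈ K, IsPGroup 2 ↥(Subgroup.zpowers a) → a * zJ = zJ * a → a ^ 2 = 1
    · exact part_two hJ' hK' hzt hzN hs
    · push Not at hs
      obtain ⟨a, ha, ha2, hac, hne⟩ := hs
      rw [pow_two] at hne
      obtain ⟨k, hk⟩ := hK'.exists_pow ha ha2 hne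
      rw [← hk]
      exact Subgroup.pow_mem _ (Subgroup.pow_mem _ (key a ha ha2 hne hac) k) 2

end Cfsg.Agent.S1315
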