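import Cfsg.Statements.S1319
import Cfsg.Agent.Signalizer.Layer

set_option autoImplicit false
open Cfsg

namespace Cfsg.Agent.S1319

/-- Let A be a subnormal subgroup of the finite group X with E(A) = A. Then A ≤ E(X) and A is normal in E(X). -/
theorem result {X : Type*} [Group X] [Finite X] (A : Subgroup X) (hsn : A.IsSubnormal) (hA : Cfsg.layer ↥A = ⊤) : A ≤ Cfsg.layer X ∧ (A.subgroupOf (Cfsg.layer X)).Normal := by
  refine ⟨?_, Subgroup.normal_subgroupOf_of_le_normalizer
    (Cfsg.Agent.Components.layer_le_iff.2 fun K hK => ?_)⟩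
  · refine le_trans ?_ (Cfsg.Agent.Components.layer_map_subnormal_le hsn)
    rw [hA, ← MonoidHom.range_eq_map, Subgroup.range_subtype]
  · rcases Cfsg.Agent.Components.component_le_or_commute hK hsn with h | h
    · exact h.trans Subgroup.le_normalizer
    · exact (Subgroup.commutator_eq_bot_iff_le_centralizer.1 h).trans
        (Subgroup.centralizer_le_normalizer _)

end Cfsg.Agent.S1319
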