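import Cfsg.Statements.S1326
import Cfsg.Agent.Signalizer.Layer

set_option autoImplicit false
open Cfsg

namespace Cfsg.Agent.S1326

/-- For a finite group X: the Fitting subgroup contains its centralizer if and only if the layer of X is trivial. -/
theorem result {X : Type*} [Group X] [Finite X] : Subgroup.centralizer (Cfsg.fittingSubgroup X : Set X) ≤ Cfsg.fittingSubgroup X ↔ Cfsg.layer X = ⊥ := by
  constructor
  · intro h
    rw [Cfsg.Agent.Components.layer_eq_bot_iff]
    intro K hK
    have h1 := Subgroup.commutator_eq_bot_iff_le_centralizer.1
      (Cfsg.Agent.Components.component_centralizes_fitting hK)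
    have := Cfsg.Agent.Cores.fittingSubgroup_isNilpotent (G := X)
    exact Cfsg.Agent.Components.quasisimple_solvable_le hK.2 (h1.trans h)
  · intro h
    have h1 := Cfsg.Agent.Components.centralizer_genFitting_le (G := X)
    rwa [Cfsg.generalizedFittingSubgroup, h, bot_sup_eq] at h1

end Cfsg.Agent.S1326
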