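import Cfsg.Statements.S1327
import Cfsg.Agent.Components.PComponent
import Cfsg.Agent.Components.FStar
import Cfsg.Agent.Cores.Fitting
import Cfsg.Agent.CharTwo.Constrained

set_option autoImplicit false
open Cfsg

namespace Cfsg.Agent.S1327

/-- A finite group X is p-constrained if and only if its p-layer L_{p'}(X) is trivial (equivalently X / O_{p'}(X) has trivial layer). -/
theorem result {X : Type*} [Group X] [Finite X] (p : ℕ) [Fact p.Prime] : Cfsg.IsPConstrained p X ↔ Cfsg.pLayer p X = ⊥ := by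
  rw [Cfsg.Agent.Components.pLayer_eq_bot_iff, Cfsg.Agent.CharTwo.isPConstrained_iff]
  set Y := X ⧸ Cfsg.pPrimeCore p X
  have hO : Cfsg.pPrimeCore p Y = ⊥ := Cfsg.Agent.Cores.pPrimeCore_quotient_pPrimeCore_eq_bot
  have hF : Cfsg.fittingSubgroup Y = Cfsg.pCore p Y := by
    refine le_antisymm ?_ Cfsg.Agent.Cores.pCore_le_fittingSubgroup
    rw [Cfsg.Agent.Cores.fittingSubgroup_eq_iSup_pCore]
    refine iSup_le fun q => ?_
    rcases eq_or_ne (q : ℕ) p with h | h
    · rw [h]
    · refine le_trans (Cfsg.Agent.Cores.le_pPrimeCore inferInstance ?_) (hO.le.trans bot_le)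
      haveI : Fact (Nat.Prime (q : ℕ)) := ⟨q.2⟩
      obtain ⟨n, hn⟩ := IsPGroup.iff_card.1 (Cfsg.Agent.Cores.pCore_isPGroup (p := (q : ℕ)) (G := Y))
      rw [hn]
      exact Nat.Coprime.pow_left _ ((Nat.coprime_primes q.2 (Fact.out : p.Prime)).2 h)
  rw [Cfsg.Agent.CharTwo.CFCon, ← hF]
  constructor
  · intro h
    rw [Cfsg.Agent.Components.layer_eq_bot_iff]
    intro K hK
    have h1 := Subgroup.commutator_eq_bot_iff_le_centralizer.1
      (Cfsg.Agent.Components.component_centralizes_fitting hK)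
    have := Cfsg.Agent.Cores.fittingSubgroup_isNilpotent (G := Y)
    exact Cfsg.Agent.Components.quasisimple_solvable_le hK.2 (h1.trans h)
  · intro h
    have h1 := Cfsg.Agent.Components.centralizer_genFitting_le (G := Y)
    rwa [Cfsg.generalizedFittingSubgroup, h, bot_sup_eq] at h1

end Cfsg.Agent.S1327
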