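import Cfsg.Statements.S1328
import Cfsg.Agent.Components.LocalBalance
-- import your own Cfsg.Agent.* helpers here

set_option autoImplicit false
open Cfsg

open Subgroup Cfsg.Agent.Components
open scoped commutatorElement

namespace Cfsg.Agent.S1328

/-- Let G be finite, H ≤ G with O(H) = 1, t an involution of G normalizing H, and Y a nontrivial subgroup of O(C_H(t)). Then some component E of H is normalized by t and by Y and centralized by neither t nor Y. -/
theorem result {G : Type*} [Group G] [Finite G] (H : Subgroup G) (hO : Cfsg.oddCore ↥H = ⊥) (t : G) (ht : orderOf t = 2) (htH : t ∈ Subgroup.normalizer (H : Set G)) (Y : Subgroup G) (hY1 : Y ≠ ⊥) (hY : Y ≤ (Cfsg.oddCore ↥(H ⊓ Subgroup.centralizer ({t} : Set G))).map (H ⊓ Subgroup.centralizer ({t} : Set G)).subtype) : ∃ E : Subgroup ↥H, Cfsg.IsComponent E ∧ (E.map H.subtype).map (MulAut.conj t).toMonoidHom = E.map H.subtype ∧ Y ≤ Subgroup.normalizer ((E.map H.subtype : Subgroup G) : Set G) ∧ ¬ (t ∈ Subgroup.centralizer ((E.map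 H.subtype : Subgroup G) : Set G)) ∧ ¬ (Y ≤ Subgroup.centralizer ((E.map H.subtype : Subgroup G) : Set G)) := by
  haveI : Fact (Nat.Prime 2) := ⟨Nat.prime_two⟩
  set K : Subgroup G := H ⊔ zpowers t with hK
  have hHK : H ≤ K := le_sup_left
  have htK : t ∈ K := mem_sup_right (mem_zpowers t)
  have hKH : K ≤ normalizer (H : Set G) := sup_le Subgroup.le_normalizer (zpowers_le.2 htH)
  haveI hHn : (H.subgroupOf K).Normal := normal_subgroupOf_of_le_normalizer hKH
  set q := QuotientGroup.mk' (H.subgroupOf K) with hq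
  set τ := q ⟨t, htK⟩ with hτ
  have hgen : ∀ x : ↥K ⧸ H.subgroupOf K, x ∈ zpowers τ := by
    intro x
    obtain ⟨⟨k, hk⟩, rfl⟩ := QuotientGroup.mk'_surjective _ x
    have hk' : k ∈ zpowers t ⊔ H := sup_comm H (zpowers t) ▸ hk
    rw [← SetLike.mem_coe, coe_mul_of_left_le_normalizer_right _ _ (zpowers_le.2 htH)] at hk'
    obtain ⟨_, ⟨j, rfl⟩, h, hh, hjk⟩ := hk'
    refine ⟨j, ?_⟩
    show τ ^ j = q ⟨k, hk⟩
    rw [hτ, ← map_zpow, hq, QuotientGroup.mk'_apply, QuotientGroup.mk'_apply, QuotientGroup.eq,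
      mem_subgroupOf]
    simp only [coe_mul, InvMemClass.coe_inv, coe_zpow]
    rw [← hjk]
    simpa using hh
  have hτ2 : orderOf τ ∣ 2 := by
    refine (orderOf_map_dvd q _).trans ?_
    rw [← Subgroup.orderOf_coe, ht]
  have hcardq : Nat.card (↥K ⧸ H.subgroupOf K) ∣ 2 := by
    rw [← orderOf_eq_card_of_forall_mem_zpowers hgen]
    exact hτ2
  -- `O(K) = 1`
  have hOK : Cfsg.pPrimeCore 2 ↥K = ⊥ := by
    set O := Cfsg.pPrimeCore 2 ↥K with hO'
    have hOc : (Nat.card O).Coprime 2 := Cores.pPrimeCore_coprime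
    have hOH : O ≤ H.subgroupOf K := by
      rw [← QuotientGroup.ker_mk' (H.subgroupOf K), ← Subgroup.map_eq_bot_iff, ← card_eq_one]
      exact Nat.eq_one_of_dvd_coprimes (hOc.coprime_dvd_left (card_map_dvd _ q)) dvd_rfl
        ((card_subgroup_dvd_card _).trans hcardq)
    set e := subgroupOfEquivOfLe hHK
    have hsub : (O.subgroupOf (H.subgroupOf K)).map e.toMonoidHom ≤ Cfsg.pPrimeCore 2 ↥H := by
      refine Cores.le_pPrimeCore ((inferInstance : (O.subgroupOf (H.subgroupOf K)).Normal).map _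
        e.surjective) ?_
      rw [card_map_of_injective e.injective, Nat.card_congr (subgroupOfEquivOfLe hOH).toEquiv]
      exact hOc
    rw [show Cfsg.pPrimeCore 2 ↥H = ⊥ from hO, le_bot_iff, map_eq_bot_iff_of_injective _ e.injective,
      subgroupOf_eq_bot, disjoint_iff, inf_eq_left.2 hOH] at hsub
    exact hsub
  set tK : ↥K := ⟨t, htK⟩ with htKdef
  have htK2 : orderOf tK = 2 := by rw [← Subgroup.orderOf_coe]; exact ht
  -- `Y` lies in `O(C_K(t))`
  have hC : (H ⊓ centralizer ({t} : Set G)).subgroupOf K ≤ centralizer ({tK} : Set ↥K) := fun c hc =>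
    mem_centralizer_singleton_iff.2 (Subtype.ext (mem_centralizer_singleton_iff.1 hc.2))
  set W := (Cfsg.oddCore ↥(H ⊓ centralizer ({t} : Set G))).map
    (H ⊓ centralizer ({t} : Set G)).subtype with hW
  have hWC : W ≤ H ⊓ centralizer ({t} : Set G) := map_subtype_le _
  have hWn : K ⊓ centralizer ({t} : Set G) ≤ normalizer (W : Set G) := by
    refine le_trans ?_ (Coprime.normalizer_le_normalizer_map_characteristic _ _)
    exact (le_inf (inf_le_left.trans hKH) (inf_le_right.trans Subgroup.le_normalizer)).trans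
      inf_normalizer_le_normalizer_inf
  have hWK : W.subgroupOf K ≤ Cfsg.centralizerPPrimeCore 2 tK := by
    refine le_pPrimeCore_map_of_normal ((comap_mono hWC).trans hC) ?_ ?_
    · intro c hc
      refine le_normalizer_comap K.subtype (mem_comap.2 (hWn ⟨c.2, ?_⟩))
      exact mem_centralizer_singleton_iff.2
        (congrArg Subtype.val (mem_centralizer_singleton_iff.1 hc))
    · rw [Nat.card_congr (subgroupOfEquivOfLe (hWC.trans (inf_le_left.trans hHK))).toEquiv, hW,
        card_map_of_injective (H ⊓ centralizer ({t} : Set G)).subtype_injective]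
      exact Cores.pPrimeCore_coprime
  have hYK : Y ≤ K := hY.trans (hWC.trans (inf_le_left.trans hHK))
  obtain ⟨L, hL, hLY⟩ : ∃ L : Subgroup ↥K, Cfsg.IsComponent L ∧ ⁅L, Y.subgroupOf K⁆ ≠ ⊥ := by
    by_contra hc
    push Not at hc
    have h := eq_bot_of_centralizes_components hOK htK2 ((comap_mono hY).trans hWK) hc
    rw [← Subgroup.subgroupOf, subgroupOf_eq_bot, disjoint_iff, inf_eq_left.2 hYK] at h
    exact hY1 h
  have hLt : ⁅L, zpowers tK⁆ = L := by
    by_contra hne
    refine hLY (le_bot_iff.1 ?_)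
    rw [← component_commute_centralizerPPrimeCore hOK htK2 hL hne]
    exact commutator_mono le_rfl ((comap_mono hY).trans hWK)
  have hLH : L ≤ H.subgroupOf K := by
    rw [← QuotientGroup.ker_mk' (H.subgroupOf K), ← Subgroup.map_eq_bot_iff]
    rw [← component_commutator_self hL, Subgroup.map_commutator,
      commutator_eq_bot_iff_le_centralizer]
    intro x _
    refine mem_centralizer_iff.2 fun y _ => ?_
    obtain ⟨i, hi⟩ := hgen x
    obtain ⟨j, hj⟩ := hgen y
    rw [← hi, ← hj]
    exact ((Commute.refl τ).zpow_zpow j i).eq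
  set LG := L.map K.subtype with hLG
  have hLGH : LG ≤ H := by
    rintro _ ⟨x, hx, rfl⟩
    exact hLH hx
  have hnorm : ∀ x : ↥K, x ∈ normalizer (L : Set ↥K) → (x : G) ∈ normalizer (LG : Set G) :=
    fun x hx => le_normalizer_map K.subtype ⟨x, hx, rfl⟩
  have htL : t ∈ normalizer (LG : Set G) := hnorm tK
    ((le_normalizer_iff_commutator_le_left.2 hLt.le) (mem_zpowers tK))
  refine ⟨LG.subgroupOf H, ?_, ?_, ?_, ?_, ?_⟩
  · have h := component_subgroupOf hL hLH
    have h' := component_map_equiv (subgroupOfEquivOfLe hHK) h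
    refine cast (congrArg Cfsg.IsComponent ?_) h'
    ext ⟨x, hx⟩
    constructor
    · rintro ⟨y, hy, he⟩
      rw [mem_subgroupOf]
      exact ⟨(y : ↥K), hy, congrArg Subtype.val he⟩
    · rintro ⟨y, hy, he⟩
      exact ⟨⟨y, hLH hy⟩, hy, Subtype.ext he⟩
  all_goals rw [map_subgroupOf_eq_of_le hLGH]
  · exact conj_eq_iff_mem_normalizer.2 htL
  · intro y hy
    exact hnorm ⟨y, hYK hy⟩ (mem_componentsKernel.1
      (centralizerPPrimeCore_le_componentsKernel hOK htK2 (hWK (hY hy : (⟨y, hYK hy⟩ : ↥K) ∈ _))) L hL)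
  · intro htc
    refine component_ne_bot hL ?_
    rw [← hLt, commutator_eq_bot_iff_le_centralizer]
    intro l hl
    refine mem_centralizer_iff.2 fun z hz => ?_
    obtain ⟨j, rfl⟩ := hz
    exact (Commute.zpow_left (show Commute tK l from
      Subtype.ext (mem_centralizer_iff.1 htc _ ⟨l, hl, rfl⟩).symm) j).eq
  · intro hYc
    refine hLY ?_
    rw [commutator_eq_bot_iff_le_centralizer]
    intro l hl
    exact mem_centralizer_iff.2 fun y hy =>
      Subtype.ext (mem_centralizer_iff.1 (hYc hy) _ ⟨l, hl, rfl⟩).symm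

end Cfsg.Agent.S1328
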