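import Cfsg.Statements.S1335
import Cfsg.Agent.Signalizer.PAction

set_option autoImplicit false
open Cfsg

namespace Cfsg.Agent.S1335

/-- Let H be a subgroup of the finite group G, p a prime, k ≥ 1, P a Sylow p-subgroup of H of p-rank at least k, and suppose N_G(X) ≤ H for every subgroup X ≤ P of p-rank at least k. Then P is a Sylow p-subgroup of G. -/
theorem result {G : Type*} [Group G] [Finite G] {p : ℕ} [Fact p.Prime] (k : ℕ) (hk : 1 ≤ k) (H : Subgroup G) (P : Sylow p ↥H) (hP : ¬ Cfsg.PRankLE p (k - 1) ↥(P : Subgroup ↥H)) (hΓ : (∀ X : Subgroup G, X ≤ (P : Subgroup ↥H).map H.subtype → ¬ Cfsg.PRankLE p (k - 1) ↥X → Subgroup.normalizer (X : Set G) ≤ H)) : ∃ Q : Sylow p G, (Q : Subgroup G) = (P : Subgroup ↥H).map H.subtype := by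
  open Cfsg.Agent.Signalizer in
  have hP' := Cfsg.Agent.Signalizer.isSyl_of_sylow P
  set P' := (P : Subgroup ↥H).map H.subtype with hP'def
  obtain ⟨Q, hQ⟩ := hP'.2.1.exists_le_sylow
  refine ⟨Q, Cfsg.Agent.Signalizer.eq_of_normalizer_inf_le_self Q.isPGroup' hQ ?_⟩
  have hr : ¬ Cfsg.PRankLE p (k - 1) ↥P' := by
    intro h
    refine hP fun B hB hB' => ?_
    let e := (P : Subgroup ↥H).equivMapOfInjective H.subtype H.subtype_injective
    have := h (B.map e.toMonoidHom) (by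
      refine ⟨⟨?_⟩⟩
      rintro ⟨_, a, ha, rfl⟩ ⟨_, b, hb, rfl⟩
      exact Subtype.ext ((map_mul e a b).symm.trans ((congrArg e (congrArg Subtype.val
        (hB.is_comm.comm (⟨a, ha⟩ : B) ⟨b, hb⟩))).trans (map_mul e b a)))) (by
      rintro _ ⟨a, ha, rfl⟩
      rw [← map_pow, hB' a ha, map_one])
    rwa [Subgroup.card_map_of_injective e.injective] at this
  refine le_of_eq (hP'.2.2 _ ?_ (Q.isPGroup'.to_le inf_le_right) (le_inf Subgroup.le_normalizer hQ))
  exact inf_le_left.trans (hΓ P' le_rfl hr)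

end Cfsg.Agent.S1335
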