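import Cfsg.Statements.S1441
import Cfsg.Agent.OddPre.Stability
-- import your own Cfsg.Agent.* helpers here

set_option autoImplicit false
open Cfsg

namespace Cfsg.Agent.S1441

/-- Let G be a finite group, H a solvable subgroup and A a subgroup normalizing H. Suppose there is a chain H = H₀ ≥ H₁ ≥ ⋯ ≥ H_n = 1 of subgroups normal in H and normalized by A such that A acts trivially on each factor H_{i-1}/H_i (that is, [H_{i-1}, A] ≤ H_i). Then every prime dividing the index of C_A(H) in A divides the order of H. -/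
theorem result {G : Type*} [Group G] [Finite G] (H A : Subgroup G) (hH : Group.IsSolvable H) (hA : (A ≤ Subgroup.normalizer (H : Set G)))
    (n : ℕ) (c : Fin (n + 1) → Subgroup G) (hc0 : c 0 = H) (hcn : c (Fin.last n) = ⊥) (hanti : Antitone c)
    (hcN : ∀ i, H ≤ Subgroup.normalizer ((c i : Subgroup G) : Set G)) (hcA : ∀ i, A ≤ Subgroup.normalizer ((c i : Subgroup G) : Set G))
    (htriv : ∀ i : Fin n, ⁅c i.castSucc, A⁆ ≤ c i.succ) :
    ∀ p : ℕ, p.Prime → p ∣ (A ⊓ Subgroup.centralizer (H : Set G)).relIndex A → p ∣ Nat.card H := by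
  intro p hp hdvd
  by_contra hpH
  haveI : Fact p.Prime := ⟨hp⟩
  set C := (A ⊓ Subgroup.centralizer (H : Set G)).subgroupOf A
  obtain ⟨P⟩ := (inferInstance : Nonempty (Sylow p ↥A))
  have hPC : (P : Subgroup A) ≤ C := by
    intro a ha
    refine Subgroup.mem_subgroupOf.2 ⟨a.2, Subgroup.mem_centralizer_iff.2 fun x hx => ?_⟩
    have hcop : ∀ i, (orderOf (a : G)).Coprime (Nat.card (c i)) := by
      intro i
      obtain ⟨k, hk⟩ := IsPGroup.iff_orderOf.1 P.isPGroup' ⟨a, ha⟩
      have hk' : orderOf (a : G) = p ^ k := by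
        rw [← hk]; simp
      have hle : c i ≤ H := hc0 ▸ hanti (Fin.zero_le i)
      exact hk' ▸ (Nat.Coprime.pow_left k (hp.coprime_iff_not_dvd.2 hpH)).coprime_dvd_right
        (Subgroup.card_dvd_of_le hle)
    have hstep : ∀ i : Fin n, ∀ h ∈ c i.castSucc, h⁻¹ * ((a : G) * h * (a : G)⁻¹) ∈ c i.succ := by
      intro i h hh
      simpa [commutatorElement_def, mul_assoc] using
        htriv i (Subgroup.commutator_mem_commutator (inv_mem hh) a.2)
    have h := Cfsg.Agent.OddPre.centralizes_of_series (a : G) n c hcn hcop hstep 0 x (hc0.symm ▸ hx)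
    calc x * (a : G) = ((a : G) * x * (a : G)⁻¹) * a := by rw [h]
      _ = (a : G) * x := by group
  exact P.not_dvd_index (hdvd.trans (Subgroup.index_dvd_of_le hPC))

end Cfsg.Agent.S1441
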