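import Cfsg.Statements.S1456
import Cfsg.Agent.FT.BG5.SmallCentralizer

set_option autoImplicit false
open Cfsg

namespace Cfsg.Agent.S1456

/-- Let G be a solvable group of odd order, p a prime, and E an elementary abelian p-subgroup of the Fitting subgroup F(G) such that F(G) ∩ C_G(E) has no elementary abelian subgroup of order q ^ 3 for any prime q. Then the derived subgroup of G is contained in F(G). -/
theorem result {G : Type*} [Group G] [Finite G] [Group.IsSolvable G] (hodd : Odd (Nat.card G)) (p : ℕ) [Fact p.Prime] (E : Subgroup G) (hE : E ≤ Cfsg.fittingSubgroup G) (hEe : Cfsg.IsElementaryAbelian p E)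
    (hr : Cfsg.RankLE 2 ↥(Cfsg.fittingSubgroup G ⊓ Subgroup.centralizer (E : Set G))) :
    commutator G ≤ Cfsg.fittingSubgroup G := by
  classical
  refine Cfsg.Agent.FT.BG5.commutator_le_fitting fun s hs x hx hxc => ?_
  haveI := Fact.mk hs
  set R := Cfsg.pCore s G
  have hRp : IsPGroup s R := Cfsg.Agent.Cores.pCore_isPGroup
  rcases eq_or_ne s 2 with rfl | hs2
  · have h1 : R = ⊥ := by
      obtain ⟨i, hi⟩ := IsPGroup.iff_card.1 hRp
      rcases i with _ | i
      · exact Subgroup.eq_bot_of_card_eq _ (by rw [hi, pow_zero])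
      · exact absurd (even_iff_two_dvd.2 (((dvd_pow_self 2 i.succ_ne_zero).trans hi.symm.dvd).trans
          R.card_subgroup_dvd_card)) (Nat.not_even_iff_odd.2 hodd)
    rw [h1]
    exact Subgroup.mem_centralizer_iff.2 fun h hh => by simp [Subgroup.mem_bot.1 hh]
  have hn : (⊤ : Subgroup G) ≤ Subgroup.normalizer (R : Set G) :=
    (Subgroup.normalizer_eq_top_iff.2 inferInstance).ge
  have hrC : Cfsg.PRankLE s 2 ↥(R ⊓ Subgroup.centralizer (E : Set G)) :=
    Cfsg.Agent.PGroup.pRankLE_of_le
      (inf_le_inf_right _ Cfsg.Agent.Cores.pCore_le_fittingSubgroup) (hr s hs)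
  by_cases hrR : Cfsg.PRankLE s 2 R
  · exact Cfsg.Agent.OddPre.Rank2.centralizes_of_commutator hs2 R ⊤ hRp hrR hn
      (by rwa [Subgroup.card_top]) (by rwa [← commutator_def]) hxc
  have hEmem : ∀ e ∈ E, e ∈ Cfsg.pCore p G := fun e he =>
    Cfsg.Agent.OddPre.Rank2.mem_pCore_of_mem_fitting (hE he) (by
      obtain ⟨j, -, hj⟩ := (Nat.dvd_prime_pow (Fact.out : p.Prime)).mp
        ((orderOf_dvd_of_pow_eq_one (hEe.2 e he)).trans (pow_one p).symm.dvd)
      exact ⟨j, hj⟩)
  have hsp : s = p := by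
    by_contra hne
    refine hrR ?_
    have hle : R ≤ R ⊓ Subgroup.centralizer (E : Set G) := fun r hr' =>
      Subgroup.mem_inf.mpr ⟨hr', Subgroup.mem_centralizer_iff.mpr fun e he =>
        Subgroup.commute_of_normal_of_disjoint (Cfsg.pCore p G) R inferInstance inferInstance
          (disjoint_iff.mpr (Subgroup.inf_eq_bot_of_coprime (by
            obtain ⟨i, hi⟩ := IsPGroup.iff_card.1 (Cfsg.Agent.Cores.pCore_isPGroup (p := p) (G := G))
            obtain ⟨j, hj⟩ := IsPGroup.iff_card.1 hRp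
            rw [hi, hj]
            exact ((Nat.coprime_primes Fact.out hs).mpr (Ne.symm hne)).pow i j))) e r (hEmem e he) hr'⟩
    exact Cfsg.Agent.PGroup.pRankLE_of_le hle hrC
  subst hsp
  have hER : E ≤ R := hEmem
  have hnar : Cfsg.IsNarrow s R := by
    refine Cfsg.Agent.FT.BG5.isNarrow_of_centralizer_rank hs2 hRp (E.subgroupOf R)
      ⟨⟨⟨fun a b => Subtype.ext (Subtype.ext (congrArg Subtype.val
        (hEe.1.is_comm.comm ⟨((a : R) : G), a.2⟩ ⟨((b : R) : G), b.2⟩) :))⟩⟩,
        fun a ha => Subtype.ext (by simpa using hEe.2 _ (Subgroup.mem_subgroupOf.mp ha))⟩ ?_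
    refine Cfsg.Agent.PGroup.pRankLE_of_injective
      ((R.subtype.comp (Subgroup.centralizer ((E.subgroupOf R : Subgroup R) : Set R)).subtype).codRestrict
        (R ⊓ Subgroup.centralizer (E : Set G)) fun c => Subgroup.mem_inf.mpr ⟨(c : R).2,
          Subgroup.mem_centralizer_iff.mpr fun e he => ?_⟩) (fun a b hab => ?_) hrC
    · exact congrArg Subtype.val (Subgroup.mem_centralizer_iff.mp c.2 ⟨e, hER he⟩
        (Subgroup.mem_subgroupOf.mpr he))
    · exact Subtype.ext (Subtype.ext (congrArg Subtype.val hab :))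
  let θ : G →* MulAut R := MulAut.conjNormal
  have h1 : θ x ∈ commutator (MulAut R) := by
    have h2 : (commutator G).map θ ≤ commutator (MulAut R) := by
      rw [commutator_def, Subgroup.map_commutator]
      exact Subgroup.commutator_mono le_top le_top
    exact h2 ⟨x, hx, rfl⟩
  have h3 := Cfsg.Agent.FT.BG5.commutator_eq_one hs2 hRp hnar hrR _ h1
    (hxc.coprime_dvd_left (orderOf_map_dvd θ x))
  refine Subgroup.mem_centralizer_iff.mpr fun r hr' => ?_
  have h4 := congrArg Subtype.val (DFunLike.congr_fun h3 (⟨r, hr'⟩ : R))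
  change x * r * x⁻¹ = r at h4
  calc r * x = x * r * x⁻¹ * x := by rw [h4]
    _ = x * r := by group

end Cfsg.Agent.S1456
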