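import Cfsg.Statements.S1462
import Cfsg.Agent.OddLocal.NormedConstrainedA
-- import your own Cfsg.Agent.* helpers here

set_option autoImplicit false
open Cfsg

namespace Cfsg.Agent.S1462

/-- Let G be a finite solvable group, p an odd prime with G = O_{p',p,p'}(G), E an elementary abelian p-subgroup contained in no larger elementary abelian p-subgroup of G, and L a subgroup of order coprime to p normalized by E. Then L ≤ O_{p'}(G). -/
theorem result {G : Type*} [Group G] [Finite G] [Group.IsSolvable G] (p : ℕ) [Fact p.Prime] (hp : p ≠ 2) (hpl : Cfsg.PLengthLE p 1 G) (E L : Subgroup G) (hE : Cfsg.IsElementaryAbelian p E)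
    (hEmax : ∀ B : Subgroup G, Cfsg.IsElementaryAbelian p B → E ≤ B → B = E) (hL : (Nat.card L).Coprime p) (hEL : E ≤ Subgroup.normalizer (L : Set G)) :
    L ≤ Cfsg.pPrimeCore p G := by
  refine Cfsg.Agent.OddLocal.normed_le_pPrimeCore_of_pLength hp hpl hE (fun x hx hxp => ?_) hEL hL
  haveI := hE.1
  have hxc : ∀ e ∈ E, e * x = x * e := fun e he => Subgroup.mem_centralizer_iff.1 hx e he
  have hcl : Cfsg.IsElementaryAbelian p (Subgroup.closure ((E : Set G) ∪ {x})) := by
    have hcomm : ∀ u ∈ (E : Set G) ∪ {x}, ∀ v ∈ (E : Set G) ∪ {x}, u * v = v * u := by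
      rintro u (hu | rfl) v (hv | rfl)
      · exact congrArg Subtype.val (hE.1.is_comm.comm (⟨u, hu⟩ : E) ⟨v, hv⟩)
      · exact hxc u hu
      · exact (hxc v hv).symm
      · rfl
    haveI hc := Subgroup.isMulCommutative_closure hcomm
    refine ⟨hc, fun g hg => ?_⟩
    induction hg using Subgroup.closure_induction with
    | mem y hy =>
      rcases hy with hy | rfl
      · exact hE.2 y hy
      · exact hxp
    | one => exact one_pow _
    | mul a b ha hb iha ihb =>
      rw [Commute.mul_pow (congrArg Subtype.val (hc.is_comm.comm (⟨a, ha⟩ :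
        Subgroup.closure ((E : Set G) ∪ {x})) ⟨b, hb⟩)), iha, ihb, one_mul]
    | inv a ha iha => rw [inv_pow, iha, inv_one]
  have h := hEmax _ hcl (fun e he => Subgroup.subset_closure (Or.inl he))
  exact h ▸ Subgroup.subset_closure (Or.inr rfl)

end Cfsg.Agent.S1462
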