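import Cfsg.Statements.S1464
import Cfsg.Agent.OddPre.PStable
-- import your own Cfsg.Agent.* helpers here

set_option autoImplicit false
open Cfsg

namespace Cfsg.Agent.S1464

/-- Let p be an odd prime and G a solvable group of odd order, P a p-subgroup with O_{p'}(G)P normal in G, and A a p-subgroup of N_G(P) with [[P, A], A] = 1. Then the image of A in the quotient N_G(P)/C_G(P) is contained in the p-core of that quotient. -/
theorem result {G : Type*} [Group G] [Finite G] [Group.IsSolvable G] (hodd : Odd (Nat.card G)) (p : ℕ) [Fact p.Prime] (hp : p ≠ 2) (P A : Subgroup G) (hP : IsPGroup p P) (hPn : (Cfsg.pPrimeCore p G ⊔ P).Normal)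
    (hA : IsPGroup p A) (hAN : A ≤ Subgroup.normalizer (P : Set G)) (hquad : ⁅⁅P, A⁆, A⁆ = ⊥) :
    (A.subgroupOf (Subgroup.normalizer (P : Set G))).map
        (QuotientGroup.mk' ((Subgroup.centralizer (P : Set G)).subgroupOf (Subgroup.normalizer (P : Set G))))
      ≤ Cfsg.pCore p _ := by
  set N := Subgroup.normalizer (P : Set G) with hN
  set C := (Subgroup.centralizer (P : Set G)).subgroupOf N with hC
  haveI : (P.subgroupOf N).Normal := Subgroup.normal_in_normalizer
  have hCeq : C = Subgroup.centralizer ((P.subgroupOf N : Subgroup N) : Set N) := by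
    ext t
    constructor
    · exact fun ht => Subgroup.mem_centralizer_iff.2 fun u hu =>
        Subtype.ext (Subgroup.mem_centralizer_iff.1 ht u hu)
    · exact fun ht => Subgroup.mem_centralizer_iff.2 fun u hu =>
        congrArg Subtype.val (Subgroup.mem_centralizer_iff.1 ht ⟨u, Subgroup.le_normalizer hu⟩ hu)
  haveI : C.Normal := hCeq ▸ inferInstance
  rw [Subgroup.map_le_iff_le_comap]
  intro a ha
  refine Cfsg.Agent.OddPre.Quad.quad_map_mem_pCore hp (hodd.of_dvd_nat N.card_subgroup_dvd_card)
    (P.subgroupOf N) hP.comap_subtype C hCeq a fun u hu => Subtype.ext ?_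
  have h1 := Subgroup.commutator_mem_commutator (Subgroup.commutator_mem_commutator (show (u : G) ∈ P from hu) (show (a : G) ∈ A from ha)) (show (a : G) ∈ A from ha)
  rw [hquad, Subgroup.mem_bot] at h1
  exact h1

end Cfsg.Agent.S1464
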