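import Cfsg.Statements.S1466
import Cfsg.Agent.OddPre.PuigCenter
-- import your own Cfsg.Agent.* helpers here

set_option autoImplicit false
open Cfsg

namespace Cfsg.Agent.S1466

/-- Let p be a prime and R a nontrivial finite p-group. Then for every i > 0, Z(R) ≤ C_R(L_i(R)) ≤ L_i(R); likewise Z(R) ≤ C_R(L_*(R)) ≤ L_*(R) and Z(R) ≤ C_R(L(R)) ≤ L(R); and L(R) ≠ 1, L_*(R) ≠ 1. -/
theorem result {R : Type*} [Group R] [Finite R] (p : ℕ) [Fact p.Prime] (hR : IsPGroup p R) [Nontrivial R] :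
    (∀ i : ℕ, 0 < i → Subgroup.center R ≤ Subgroup.centralizer ((Cfsg.puigSeq R i : Subgroup R) : Set R) ∧
        Subgroup.centralizer ((Cfsg.puigSeq R i : Subgroup R) : Set R) ≤ Cfsg.puigSeq R i) ∧
      (Subgroup.center R ≤ Subgroup.centralizer ((Cfsg.puigLower R : Subgroup R) : Set R) ∧ Subgroup.centralizer ((Cfsg.puigLower R : Subgroup R) : Set R) ≤ Cfsg.puigLower R) ∧
      (Subgroup.center R ≤ Subgroup.centralizer ((Cfsg.puigSubgroup R : Subgroup R) : Set R) ∧ Subgroup.centralizer ((Cfsg.puigSubgroup R : Subgroup R) : Set R) ≤ Cfsg.puigSubgroup R) ∧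
      Cfsg.puigSubgroup R ≠ ⊥ ∧ Cfsg.puigLower R ≠ ⊥ := by
  have h1 := Cfsg.Agent.OddPre.Puig.centralizer_puigLower_le hR
  have h2 := Cfsg.Agent.OddPre.Puig.centralizer_puigSubgroup_le hR
  refine ⟨fun i hi => ⟨Subgroup.center_le_centralizer _,
      Cfsg.Agent.OddPre.Puig.centralizer_puigSeq_le hR hi⟩,
    ⟨Subgroup.center_le_centralizer _, h1⟩, ⟨Subgroup.center_le_centralizer _, h2⟩, ?_⟩
  haveI := hR.center_nontrivial
  have hz : Subgroup.center R ≠ ⊥ := (Subgroup.nontrivial_iff_ne_bot _).1 inferInstance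
  exact ⟨fun h => hz (le_bot_iff.1 (h ▸ (Subgroup.center_le_centralizer _).trans h2)),
    fun h => hz (le_bot_iff.1 (h ▸ (Subgroup.center_le_centralizer _).trans h1))⟩

end Cfsg.Agent.S1466
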