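import Cfsg.Statements.S1471
import Cfsg.Agent.FT.AppCField
-- import your own Cfsg.Agent.* helpers here

set_option autoImplicit false
open Cfsg

namespace Cfsg.Agent.S1471

/-- Let p and q be odd primes with (p^q − 1)/(p − 1) coprime to p − 1. Then there are at least two elements a of the field with p ^ q elements such that both a and 2 − a have norm 1 to the prime field. -/
theorem result (p q : ℕ) [Fact p.Prime] [Fact q.Prime] (hp : p ≠ 2) (hq : q ≠ 2) (hA : Nat.Coprime ((p ^ q - 1) / (p - 1)) (p - 1)) :
    2 ≤ Set.ncard {a : GaloisField p q | Algebra.norm (ZMod p) a = 1 ∧ Algebra.norm (ZMod p) (2 - a) = 1} := by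
  have hq0 : q ≠ 0 := (Fact.out : q.Prime).ne_zero
  classical
  letI := Fintype.ofFinite (GaloisField p q)
  have hF : Fintype.card (GaloisField p q) = p ^ q := by
    rw [← Nat.card_eq_fintype_card, GaloisField.card p q hq0]
  have hiff : ∀ x : GaloisField p q, Algebra.norm (ZMod p) x = 1 ↔ x ^ FT.AppC.normExp p q = 1 := by
    intro x
    rw [← (algebraMap (ZMod p) (GaloisField p q)).injective.eq_iff, map_one,
      FiniteField.algebraMap_norm_eq_pow, GaloisField.card p q hq0, Nat.card_zmod, FT.AppC.normExp]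
  simp only [hiff]
  obtain ⟨a, ha, ha1⟩ := FT.AppC.exists_pair hA Fact.out hp Fact.out hq hF
  refine (Set.one_lt_ncard (Set.toFinite _)).2 ⟨1, ?_, a, ha, ha1.symm⟩
  exact ⟨one_pow _, by rw [show (2 : GaloisField p q) - 1 = 1 by norm_num, one_pow]⟩

end Cfsg.Agent.S1471
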