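import Cfsg.Statements.S1474
import Cfsg.Agent.OddLocal.Basic
import Cfsg.Agent.Cores.Fitting
import Cfsg.Agent.Lib.FrobeniusComplement

set_option autoImplicit false
open Cfsg

open Subgroup
open scoped Pointwise
namespace Cfsg.Agent.S1474

theorem commute_of_isNilpotent {X : Type*} [Group X] [Finite X] (hX : Group.IsNilpotent X) {r : ℕ} [Fact r.Prime]
    {x y : X} {i : ℕ} (hx : orderOf x = r ^ i) (hy : ¬ r ∣ orderOf y) : Commute x y := by
  have hsn : ∀ (s : ℕ) (_ : Fact s.Prime) (R : Sylow s X), (R : Subgroup X).Normal :=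
    ((Group.isNilpotent_of_finite_tfae (G := X)).out 0 3 : Group.IsNilpotent X ↔ _).mp hX
  obtain ⟨P, hP⟩ := (IsPGroup.of_card (n := i) (by rw [Nat.card_zpowers, hx]) : IsPGroup r (zpowers x)).exists_le_sylow
  have hPn : (P : Subgroup X).Normal := hsn r inferInstance P
  have hym : y ∈ centralizer ((P : Subgroup X) : Set X) := by
    rw [← QuotientGroup.eq_one_iff, ← orderOf_eq_one_iff]
    refine Nat.eq_one_of_dvd_coprimes ?_ (orderOf_map_dvd (QuotientGroup.mk' _) y) (orderOf_dvd_natCard _)
    rw [← index_eq_card]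
    refine Nat.coprime_of_dvd fun s hs hsy hsi => ?_
    have : Fact s.Prime := ⟨hs⟩
    have hsr : s ≠ r := fun e => hy (e ▸ hsy)
    obtain ⟨R⟩ : Nonempty (Sylow s X) := inferInstance
    refine R.not_dvd_index (hsi.trans (index_dvd_of_le ?_))
    intro z hz w hw
    exact commute_of_normal_of_disjoint _ _ hPn (hsn s inferInstance R)
      (IsPGroup.disjoint_of_ne r s (Ne.symm hsr) _ _ P.2 R.2) w z hw hz
  exact hym x (hP (mem_zpowers x))

/-- Let G be a finite group in which every non-identity element has nilpotent centralizer, not itself nilpotent, and having a nontrivial normal Sylow p-subgroup for some prime p. Let H be the largest normal nilpotent Hall subgroup of G. Then H is a nontrivial proper normal subgroup with a complement E that is a Frobenius complement in G (no non-identity element of E centralizes a non-identity element of H), and G/H is nilpotent. -/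
theorem result {G : Type*} [Group G] [Finite G] (hCN : Cfsg.IsCNGroup G) (hnn : ¬ Group.IsNilpotent G) (p : ℕ) [Fact p.Prime] (P : Sylow p G)
    (hP1 : (P : Subgroup G) ≠ ⊥) (hPn : (P : Subgroup G).Normal) :
    Cfsg.fittingHall G ≠ ⊥ ∧ Cfsg.fittingHall G ≠ ⊤ ∧
      (∃ E : Subgroup G, Subgroup.IsComplement' (Cfsg.fittingHall G) E ∧ Cfsg.IsFrobeniusComplement E ∧
        ∀ e ∈ E, e ≠ 1 → Cfsg.fittingHall G ⊓ Subgroup.centralizer ({e} : Set G) = ⊥) ∧
      Group.IsNilpotent (G ⧸ Cfsg.fittingHall G) := by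
  classical
  set H := Cfsg.fittingHall G with hHdef
  have hHn : H.Normal := Cfsg.fittingHall_normal G
  have hHnil : Group.IsNilpotent H := by
    have := Cores.fittingSubgroup_isNilpotent (G := G)
    have hle : H ≤ Cfsg.fittingSubgroup G := sSup_le fun N hN => Cores.le_fittingSubgroup hN.1 hN.2.1
    exact Group.nilpotent_of_mulEquiv (subgroupOfEquivOfLe hle)
  have hPH : (P : Subgroup G) ≤ H := le_sSup ⟨hPn, P.2.isNilpotent, P.card_coprime_index⟩
  have hHbot : H ≠ ⊥ := fun e => hP1 (le_bot_iff.mp (e ▸ hPH))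
  have hHtop : H ≠ ⊤ := fun e => hnn (by
    have : Group.IsNilpotent (⊤ : Subgroup G) := e ▸ hHnil
    exact Group.nilpotent_of_mulEquiv topEquiv)
  have hcop : (Nat.card H).Coprime H.index := OddLocal.fittingHall_hall G
  -- no `r`-element, `r` prime to `|H|`, centralises a nontrivial element of `H`
  have key : ∀ (r : ℕ), r.Prime → ¬ r ∣ Nat.card H → ∀ e : G, orderOf e = r →
      ∀ x ∈ H, Commute x e → x = 1 := by
    intro r hr hrH e he x hx hxe
    by_contra hx1
    have : Fact r.Prime := ⟨hr⟩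
    have : Nontrivial H := H.bot_or_nontrivial.resolve_left hHbot
    obtain ⟨⟨z, hzc⟩, hz1⟩ := (center H).ne_bot_iff_exists_ne_one.mp (Group.IsNilpotent.center_ne_bot H)
    have hz1' : (z : G) ≠ 1 := fun h => hz1 (Subtype.ext (Subtype.ext h))
    have hrz : ¬ r ∣ orderOf (z : G) := fun h => hrH (h.trans (H.orderOf_dvd_natCard z.2))
    have hzx : (z : G) * x = x * z := (congrArg Subtype.val (mem_center_iff.mp hzc ⟨x, hx⟩)).symm
    have hez : Commute e (z : G) := by
      have h := commute_of_isNilpotent (hCN x hx1) (r := r) (i := 1)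
        (x := ⟨e, mem_centralizer_singleton_iff.mpr hxe.symm.eq⟩)
        (y := ⟨z, mem_centralizer_singleton_iff.mpr hzx⟩)
        (by rw [Subgroup.orderOf_mk, he, pow_one]) (by rw [Subgroup.orderOf_mk]; exact hrz)
      exact congrArg Subtype.val h
    have heH : ∀ h ∈ H, Commute e h := by
      intro h hh
      have h1 := commute_of_isNilpotent (hCN (z : G) hz1') (r := r) (i := 1)
        (x := ⟨e, mem_centralizer_singleton_iff.mpr hez.eq⟩)
        (y := ⟨h, mem_centralizer_singleton_iff.mpr (congrArg Subtype.val (mem_center_iff.mp hzc ⟨h, hh⟩))⟩)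
        (by rw [Subgroup.orderOf_mk, he, pow_one])
        (by rw [Subgroup.orderOf_mk]; exact fun hd => hrH (hd.trans (H.orderOf_dvd_natCard hh)))
      exact congrArg Subtype.val h1
    set K := centralizer (H : Set G) with hK
    have hKn : K.Normal := inferInstance
    have hKz : K ≤ centralizer ({(z : G)} : Set G) := centralizer_le (Set.singleton_subset_iff.mpr z.2)
    have hKnil : Group.IsNilpotent K := by
      have := hCN (z : G) hz1'
      exact Group.nilpotent_of_mulEquiv (subgroupOfEquivOfLe hKz)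
    have htfae : Group.IsNilpotent K ↔ ∀ (q : ℕ) (_ : Fact q.Prime) (R : Sylow q K), (R : Subgroup K).Normal :=
      Group.isNilpotent_of_finite_tfae.out 0 3
    have hsn : ∀ (R : Sylow r K), (R : Subgroup K).Normal := fun R => htfae.mp hKnil r inferInstance R
    obtain ⟨R⟩ : Nonempty (Sylow r K) := inferInstance
    have : (R : Subgroup K).Characteristic := Sylow.characteristic_of_normal R (hsn R)
    set R' := (R : Subgroup K).map K.subtype with hR'
    have hR'n : R'.Normal := by rw [hR']; infer_instance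
    have hR'ne : R' ≠ ⊥ := by
      rw [hR', Ne, map_eq_bot_iff_of_injective _ K.subtype_injective]
      refine R.ne_bot_of_dvd_card ?_
      have h := K.orderOf_dvd_natCard (show e ∈ K from fun h hh => (heH h hh).eq.symm)
      rwa [he] at h
    obtain ⟨S, hS⟩ := (R.2.map K.subtype).exists_le_sylow
    have : (R'.subgroupOf (S : Subgroup G)).Normal := inferInstance
    have hRS : R'.subgroupOf (S : Subgroup G) ≠ ⊥ := by
      rw [Ne, subgroupOf_eq_bot, disjoint_iff, inf_eq_left.mpr hS]; exact hR'ne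
    have : Nontrivial (R'.subgroupOf (S : Subgroup G)) := (R'.subgroupOf (S : Subgroup G)).bot_or_nontrivial.resolve_left hRS
    obtain ⟨y, hy, hy1⟩ : ∃ y : (S : Subgroup G), y ∈ R'.subgroupOf (S : Subgroup G) ⊓ center (S : Subgroup G) ∧ y ≠ 1 := by
      by_contra hno
      push Not at hno
      have hfix := IsPGroup.card_modEq_card_fixedPoints (G := ConjAct (S : Subgroup G)) (p := r)
        (by exact S.2) (R'.subgroupOf (S : Subgroup G))
      have h1 : r ∣ Nat.card (R'.subgroupOf (S : Subgroup G)) := by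
        obtain ⟨k, hk⟩ := IsPGroup.iff_card.mp (S.2.to_subgroup (R'.subgroupOf (S : Subgroup G)))
        rw [hk]
        refine dvd_pow_self r ?_
        rintro rfl
        exact hRS (card_eq_one.mp (by rw [hk, pow_zero]))
      have h2 : Nat.card (MulAction.fixedPoints (ConjAct (S : Subgroup G)) (R'.subgroupOf (S : Subgroup G))) = 1 := by
        rw [Nat.card_eq_one_iff_unique]
        refine ⟨⟨fun a b => ?_⟩, ⟨⟨1, fun c => smul_one c⟩⟩⟩
        have hc : ∀ a : MulAction.fixedPoints (ConjAct (S : Subgroup G)) (R'.subgroupOf (S : Subgroup G)), ((a.1 : (S : Subgroup G))) = 1 := by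
          intro a
          refine hno _ ⟨a.1.2, mem_center_iff.mpr fun g => ?_⟩
          have := congrArg Subtype.val (a.2 (ConjAct.toConjAct g))
          exact mul_inv_eq_iff_eq_mul.mp this
        exact Subtype.ext (Subtype.ext ((hc a).trans (hc b).symm))
      rw [h2] at hfix
      exact hr.not_dvd_one (Nat.modEq_zero_iff_dvd.mp (hfix.symm.trans (Nat.modEq_zero_iff_dvd.mpr h1)))
    have hyG : (y : G) ≠ 1 := fun h => hy1 (Subtype.ext h)
    have hyR : (y : G) ∈ R' := hy.1
    have hSK : (S : Subgroup G) ≤ K := by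
      intro s hs h hh
      obtain ⟨k, hk⟩ := S.2 ⟨s, hs⟩
      obtain ⟨j, -, hj⟩ := (Nat.dvd_prime_pow hr).mp
        (orderOf_dvd_of_pow_eq_one (show s ^ r ^ k = 1 from congrArg Subtype.val hk))
      have hsy : s * (y : G) = (y : G) * s := congrArg Subtype.val (mem_center_iff.mp hy.2 ⟨s, hs⟩)
      have hhy : h * (y : G) = (y : G) * h := (map_subtype_le _ hyR : (y : G) ∈ K) h hh
      have h1 := commute_of_isNilpotent (hCN (y : G) hyG) (r := r) (i := j)
        (x := ⟨s, mem_centralizer_singleton_iff.mpr hsy⟩) (y := ⟨h, mem_centralizer_singleton_iff.mpr hhy⟩)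
        (by rw [Subgroup.orderOf_mk, hj]) (by rw [Subgroup.orderOf_mk]; exact fun hd => hrH (hd.trans (H.orderOf_dvd_natCard hh)))
      exact (congrArg Subtype.val h1).symm
    have hR'S : R' = (S : Subgroup G) := by
      refine le_antisymm hS fun s hs => ?_
      have hle : (S : Subgroup G).subgroupOf K = (R : Subgroup K) :=
        R.3 (S.2.comap_of_injective K.subtype K.subtype_injective) fun w hw => hS ⟨w, hw, rfl⟩
      exact ⟨⟨s, hSK hs⟩, hle ▸ hs, rfl⟩
    have hSn : (S : Subgroup G).Normal := hR'S ▸ hR'n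
    have hSH : (S : Subgroup G) ≤ H := le_sSup ⟨hSn, S.2.isNilpotent, S.card_coprime_index⟩
    exact hrH ((S.dvd_card_of_dvd_card (he ▸ orderOf_dvd_natCard e)).trans (card_dvd_of_le hSH))
  obtain ⟨E, hE⟩ := exists_right_complement'_of_coprime (N := H) hcop
  have hEcard : Nat.card E = H.index := hE.symm.index_eq_card.symm
  have hEbot : E ≠ ⊥ := fun h => hHtop (index_eq_one.mp (by rw [← hEcard, h, card_bot]))
  have hfpf : ∀ e ∈ E, e ≠ 1 → H ⊓ Subgroup.centralizer ({e} : Set G) = ⊥ := by
    intro e he he1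
    rw [eq_bot_iff]
    rintro x ⟨hx, hxe⟩
    rw [mem_bot]
    have hc : Commute x e := mem_centralizer_singleton_iff.mp hxe
    obtain ⟨r, hr, hrd⟩ := Nat.exists_prime_and_dvd (fun h => he1 (orderOf_eq_one_iff.mp h))
    have hrH : ¬ r ∣ Nat.card H := fun h => hr.not_dvd_one
      (hcop ▸ Nat.dvd_gcd h (hEcard ▸ hrd.trans (E.orderOf_dvd_natCard he)))
    refine key r hr hrH (e ^ (orderOf e / r)) ?_ x hx (hc.pow_right _)
    have h0 : orderOf e / r ≠ 0 := Nat.div_ne_zero_iff_of_dvd hrd |>.mpr ⟨(orderOf_pos e).ne', hr.ne_zero⟩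
    rw [orderOf_pow_of_dvd h0 (Nat.div_dvd_of_dvd hrd), Nat.div_div_self hrd (orderOf_pos e).ne']
  refine ⟨hHbot, hHtop, ⟨E, hE, Frobenius.isFrobeniusComplement_of_fpf hE hHbot hEbot hfpf, hfpf⟩, ?_⟩
  obtain ⟨⟨z, hzc⟩, hz1⟩ := (center E).ne_bot_iff_exists_ne_one.mp (FrobeniusCompl.center_ne_bot hE hHbot hEbot hfpf)
  have hz1' : (z : G) ≠ 1 := fun h => hz1 (Subtype.ext (Subtype.ext h))
  have hEz : E ≤ centralizer ({(z : G)} : Set G) := fun e he =>
    mem_centralizer_singleton_iff.mpr (congrArg Subtype.val (mem_center_iff.mp hzc ⟨e, he⟩))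
  have hEnil : Group.IsNilpotent E := by
    have := hCN (z : G) hz1'
    exact Group.nilpotent_of_mulEquiv (subgroupOfEquivOfLe hEz)
  refine Group.nilpotent_of_surjective ((QuotientGroup.mk' H).comp E.subtype) fun q => ?_
  obtain ⟨g, rfl⟩ := QuotientGroup.mk'_surjective H q
  have : g ∈ (H : Set G) * (E : Set G) := by rw [hE.mul_eq]; trivial
  obtain ⟨a, ha, b, hb, rfl⟩ := this
  refine ⟨⟨b, hb⟩, ?_⟩
  show QuotientGroup.mk' H b = QuotientGroup.mk' H (a * b)
  rw [map_mul, show QuotientGroup.mk' H a = 1 from (QuotientGroup.eq_one_iff a).mpr ha, one_mul]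

end Cfsg.Agent.S1474
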