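import Cfsg.Statements.S1478
import Cfsg.Agent.CharInd.CN.Main

set_option autoImplicit false
open Cfsg

namespace Cfsg.Agent.S1478

/-- Let G be a minimal simple group of odd order in which every non-identity element has nilpotent centralizer. Then no subgroup of G is a three-step group with respect to any prime. -/
theorem result {G : Type*} [Group G] [Finite G] (hG : Cfsg.IsMinSimpleOddOrder G) (hCN : Cfsg.IsCNGroup G) :
    ∀ (H : Subgroup G) (p : ℕ), ¬ Cfsg.IsThreeStepGroup p ↥H := by
  haveI : IsSimpleGroup G := hG.2.1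
  have hs : Group.IsSolvable G := Cfsg.Agent.CharInd.CN.isSolvable_of_isCNGroup hG.1 hCN
  exact absurd (⟨⟨IsSimpleGroup.comm_iff_isSolvable.mpr hs⟩⟩ : IsMulCommutative G) hG.2.2.1

end Cfsg.Agent.S1478
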