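import Cfsg.Statements.S1482
import Cfsg.Agent.OddLocal.Bender
-- import your own Cfsg.Agent.* helpers here

set_option autoImplicit false
open Cfsg

namespace Cfsg.Agent.S1482

/-- Let G be a minimal simple group of odd order, H a maximal subgroup whose Fitting subgroup F has at least two prime divisors, and M a subgroup of F containing the centre of F such that the only M-invariant subgroup of G of order coprime to #F is the trivial one. Then H is the only maximal subgroup of G containing M. -/
theorem result {G : Type*} [Group G] [Finite G] (hG : Cfsg.IsMinSimpleOddOrder G) (H : Subgroup G) (hH : IsCoatom H) (hF2 : 2 ≤ (Nat.card (Cfsg.fittingOf H)).primeFactors.card)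
    (M : Subgroup G) (hM : M ≤ Cfsg.fittingOf H) (hZM : Cfsg.fittingOf H ⊓ Subgroup.centralizer (Cfsg.fittingOf H : Set G) ≤ M)
    (hinv : ∀ Y ∈ Cfsg.invSubgroups ⊤ M (Cfsg.primesNotDvd (Nat.card (Cfsg.fittingOf H))), Y = ⊥) :
    ∀ L : Subgroup G, IsCoatom L → M ≤ L → L = H := by
  intro L hL hML
  have hF2' : OddLocal.FittingTwoPrimes H := by
    intro q
    obtain ⟨r, hr, hrq⟩ := Finset.exists_mem_ne (s := (Nat.card (Cfsg.fittingOf H)).primeFactors) hF2 q
    haveI : Fact r.Prime := ⟨Nat.prime_of_mem_primeFactors hr⟩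
    exact ⟨r, Nat.prime_of_mem_primeFactors hr, hrq,
      (OddLocal.Fp_ne_bot_iff H).2 (Nat.dvd_of_mem_primeFactors hr)⟩
  refine OddLocal.unique_maximal_of_no_invariant hG hH hF2' (A := M) (fun q hq => ?_) hinv hL hML
  haveI : Fact q.Prime := ⟨hq⟩
  intro z hz
  exact hZM ⟨OddLocal.Zc_le_fittingOf H q hz,
    Subgroup.mem_centralizer_iff.2 fun y hy => OddLocal.Zc_commute hz hy⟩

end Cfsg.Agent.S1482
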