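import Cfsg.Statements.S1489
import Cfsg.Agent.OddChar.Inertia

set_option autoImplicit false
open Cfsg

namespace Cfsg.Agent.S1489

/-- Let H be a normal subgroup of the finite group G, θ an irreducible character of H, and T the inertia group of θ (the elements g with θ(g h g⁻¹) = θ(h) for all h ∈ H). If ψ and ψ' are irreducible characters of T having nonzero inner product with the function induced from θ to T, then the function induced from ψ to G is an irreducible character of G, and it equals the one induced from ψ' only if ψ = ψ'. -/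
theorem result {G : Type*} [Group G] [Fintype G] (H T : Subgroup G) [hN : H.Normal] [Fintype T] (θ : H → ℂ) (hθ : Cfsg.IsIrrCharacter H θ) (hT : ∀ g : G, g ∈ T ↔ ∀ h : H, θ ⟨g * h * g⁻¹, hN.conj_mem h h.2 g⟩ = θ h) (hHT : H ≤ T) (ψ ψ' : T → ℂ) (hψ : Cfsg.IsIrrCharacter T ψ) (hψ' : Cfsg.IsIrrCharacter T ψ') (hc : Cfsg.classInner (Cfsg.indFun (H.subgroupOf T) (fun x => θ ⟨(x : T), Subgroup.mem_subgroupOf.mp x.2⟩)) ψ ≠ 0) (hc' : Cfsg.classInner (Cfsg.indFun (H.subgroupOf T) (fun x => θ ⟨(x : T), Subgroup.mem_subgroupOf.mp x.2⟩)) ψ' ≠ 0) : Cfsg.IsIrrCharacter G (Cfsg.indFun T ψ) ∧ (Cfsg.indFun T ψ = Cfsg.indFun T ψ' → ψ = ψ') := by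
  classical
  let : Fintype H := Fintype.ofFinite _
  have key : ∀ φ : T → ℂ, Cfsg.IsIrrCharacter T φ →
      Cfsg.classInner (Cfsg.indFun (H.subgroupOf T) (fun x => θ ⟨(x : T), Subgroup.mem_subgroupOf.mp x.2⟩)) φ ≠ 0 →
      Cfsg.classInner (fun n : H => φ ⟨(n : G), hHT n.2⟩) θ ≠ 0 := by
    intro φ hφ h h0
    let : Fintype (H.subgroupOf T) := Fintype.ofFinite _
    apply h
    rw [Cfsg.Agent.CharInd.classInner_indFun_left _ _ (Cfsg.Agent.Char.irr_isClassFunction hφ),
      ← Cfsg.Agent.Char.classInner_conj, Cfsg.Agent.OddChar.classInner_subgroupOf H T hHT φ θ, h0,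
      map_zero]
  refine ⟨Cfsg.Agent.OddChar.indFun_inertia_irr H T hHT hθ hT hψ (key ψ hψ hc), fun h => ?_⟩
  by_contra hne
  have e := Cfsg.Agent.OddChar.classInner_indFun_inertia H T hHT hθ hT hψ hψ' (key ψ hψ hc) (key ψ' hψ' hc')
  rw [Cfsg.Agent.Char.classInner_irr_ne hψ hψ' hne, ← h,
    Cfsg.Agent.Char.classInner_irr_self (Cfsg.Agent.OddChar.indFun_inertia_irr H T hHT hθ hT hψ (key ψ hψ hc))] at e
  exact one_ne_zero e

end Cfsg.Agent.S1489
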