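import Cfsg.Statements.S1497
import Cfsg.Agent.OddChar.DadeBasic

set_option autoImplicit false
open Cfsg

namespace Cfsg.Agent.S1497

/-- Let A be a nonempty subset of the finite group G not containing 1 and L a subgroup. Then A is a TI-subset whose normaliser is L if and only if the Dade hypothesis holds for A, L and the constant choice H(a) = ⊥. -/
theorem result {G : Type*} [Group G] [Finite G] (A : Set G) (hA : A.Nonempty) (h1 : (1 : G) ∉ A) (L : Subgroup G) : (Cfsg.IsTISubset A ∧ Subgroup.normalizer A = L) ↔ Cfsg.DadeHypothesis A L (fun _ => ⊥) := by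
  constructor
  · rintro ⟨hTI, hL⟩
    refine Cfsg.Agent.OddChar.dade_trivial_of_ti h1 hTI hL fun a ha => hL ▸ ?_
    by_contra h
    exact h1 (hTI a h a ha (by rw [mul_inv_cancel_right]; exact ha) ▸ ha)
  · intro hD
    have key : ∀ a ∈ A, ∀ g : G, g * a * g⁻¹ ∈ A → g ∈ L := by
      intro a ha g hg
      obtain ⟨x, hx, hxa⟩ := hD.fusion a ha g hg
      have hc : x⁻¹ * g ∈ Subgroup.centralizer ({a} : Set G) := by
        rw [Cfsg.Agent.OddChar.mem_cent_singleton]
        calc a * (x⁻¹ * g) = x⁻¹ * (x * a * x⁻¹) * g := by group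
          _ = x⁻¹ * g * a := by rw [hxa]; group
      rw [← hD.sup_eq a ha, bot_sup_eq] at hc
      simpa using L.mul_mem hx hc.1
    have hL : Subgroup.normalizer A = L := by
      refine le_antisymm (fun g hg => ?_) (fun g hg => ?_)
      · obtain ⟨a, ha⟩ := hA
        exact key a ha g ((Subgroup.mem_set_normalizer_iff.1 hg a).1 ha)
      · rw [Subgroup.mem_set_normalizer_iff]
        refine fun u => ⟨hD.conj_mem g hg u, fun hu => ?_⟩
        have h := hD.conj_mem g⁻¹ (inv_mem hg) _ hu
        rwa [show g⁻¹ * (g * u * g⁻¹) * g⁻¹⁻¹ = u by group] at h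
    exact ⟨fun g hg x hx hgx => absurd (hL ▸ key x hx g hgx) hg, hL⟩

end Cfsg.Agent.S1497
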