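import Cfsg.Statements.S1504
import Cfsg.Agent.OddChar.TIFamily

set_option autoImplicit false
open Cfsg

namespace Cfsg.Agent.S1504

/-- Let W₁, W₂ be subgroups of a finite group with W₁ ⊓ W₂ = ⊥ whose elements commute, and W = W₁ ⊔ W₂. For linear characters φ, ψ of W with φ trivial on W₂ and ψ trivial on W₁, the function (1 − φ)(1 − ψ) vanishes on W₁ ∪ W₂; and the family of these functions, indexed by pairs (φ, ψ) with φ ≠ 1 ≠ ψ, is linearly independent over ℂ. -/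
theorem result {G : Type*} [Group G] [Finite G] (W₁ W₂ : Subgroup G) (hdisj : W₁ ⊓ W₂ = ⊥) (hcomm : ∀ a ∈ W₁, ∀ b ∈ W₂, a * b = b * a) : (∀ φ ψ : ↥(W₁ ⊔ W₂) →* ℂˣ, (∀ w : ↥(W₁ ⊔ W₂), (w : G) ∈ W₂ → φ w = 1) → (∀ w : ↥(W₁ ⊔ W₂), (w : G) ∈ W₁ → ψ w = 1) → ∀ w : ↥(W₁ ⊔ W₂), ((w : G) ∈ W₁ ∨ (w : G) ∈ W₂) → (1 - (φ w : ℂ) - (ψ w : ℂ) + (φ w : ℂ) * (ψ w : ℂ)) = 0) ∧ LinearIndependent ℂ (fun p : {p : (↥(W₁ ⊔ W₂) →* ℂˣ) × (↥(W₁ ⊔ W₂) →* ℂˣ) // p.1 ≠ 1 ∧ p.2 ≠ 1 ∧ (∀ w : ↥(W₁ ⊔ W₂), (w : G) ∈ W₂ → p.1 w = 1) ∧ (∀ w : ↥(W₁ ⊔ W₂), (w : G) ∈ W₁ → p.2 w = 1)} => fun w : ↥(W₁ ⊔ W₂) => 1 - (p.1.1 w : ℂ) - (p.1.2 w : ℂ) + (p.1.1 w : ℂ) * (p.1.2 w : ℂ)) := by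
  classical
  let : Fintype ↥(W₁ ⊔ W₂) := Fintype.ofFinite _
  refine ⟨fun φ ψ hφ hψ w hw => Cfsg.Agent.OddChar.alphaFun_eq_zero hφ hψ w hw, ?_⟩
  let : Fintype {p : (↥(W₁ ⊔ W₂) →* ℂˣ) × (↥(W₁ ⊔ W₂) →* ℂˣ) // p.1 ≠ 1 ∧ p.2 ≠ 1 ∧ (∀ w : ↥(W₁ ⊔ W₂), (w : G) ∈ W₂ → p.1 w = 1) ∧ (∀ w : ↥(W₁ ⊔ W₂), (w : G) ∈ W₁ → p.2 w = 1)} := Fintype.ofFinite _
  rw [Fintype.linearIndependent_iff]
  intro c hc q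
  have h := congrArg (fun f => Cfsg.classInner f (Cfsg.Agent.OddChar.linFun (q.1.1 * q.1.2))) hc
  simp only [Cfsg.Agent.Char.classInner_sum_left, Cfsg.Agent.Char.classInner_smul_left,
    Cfsg.Agent.Char.classInner_zero_left] at h
  rw [Finset.sum_eq_single q] at h
  · rw [show (fun w : ↥(W₁ ⊔ W₂) => 1 - (q.1.1 w : ℂ) - (q.1.2 w : ℂ) + (q.1.1 w : ℂ) * (q.1.2 w : ℂ))
      = Cfsg.Agent.OddChar.alphaFun q.1.1 q.1.2 from rfl,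
      Cfsg.Agent.OddChar.classInner_alphaFun_pair hcomm q.2.2.2.1 q.2.2.2.2 q.2.2.2.1 q.2.2.2.2
        q.2.1 q.2.2.1, if_pos ⟨rfl, rfl⟩, mul_one] at h
    exact h
  · intro p _ hp
    rw [show (fun w : ↥(W₁ ⊔ W₂) => 1 - (p.1.1 w : ℂ) - (p.1.2 w : ℂ) + (p.1.1 w : ℂ) * (p.1.2 w : ℂ))
      = Cfsg.Agent.OddChar.alphaFun p.1.1 p.1.2 from rfl,
      Cfsg.Agent.OddChar.classInner_alphaFun_pair hcomm p.2.2.2.1 p.2.2.2.2 q.2.2.2.1 q.2.2.2.2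
        q.2.1 q.2.2.1, if_neg (fun e => hp (Subtype.ext (Prod.ext e.1 e.2))), mul_zero]
  · simp

end Cfsg.Agent.S1504
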