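import Cfsg.Statements.S1524

import Cfsg.Agent.OddChar43.FrobCoherence
import Cfsg.Agent.CharInd.FrobGroup

set_option autoImplicit false
open Cfsg
open Cfsg.Agent Cfsg.Agent.OddChar43

namespace Cfsg.Agent.S1524



/-- Let G be a finite group and H ≤ L subgroups with L of odd order, H ≠ ⊥ nilpotent and normal in L with a nontrivial complement W₁ in L (H ⊓ W₁ = ⊥, H ⊔ W₁ = L) acting on H without non-identity fixed points (L is a Frobenius group with kernel H), and suppose the underlying set of H is a TI-subset of G whose normaliser is L. Let S be the set of functions on L induced from the non-principal irreducible characters of H. Then (S, L minus 1, induction to G) is coherent. -/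
theorem result {G : Type*} [Group G] [Fintype G] (H L W₁ : Subgroup G) [Fintype L] (hodd : Odd (Nat.card L)) (hHL : H ≤ L) (hW₁L : W₁ ≤ L) (hH1 : H ≠ ⊥) (hW1 : W₁ ≠ ⊥) (hnil : Group.IsNilpotent H) (hHn : ∀ x ∈ L, ∀ h ∈ H, x * h * x⁻¹ ∈ H) (hinf : H ⊓ W₁ = ⊥) (hsup : H ⊔ W₁ = L) (hfpf : ∀ w ∈ W₁, w ≠ 1 → ∀ h ∈ H, w * h = h * w → h = 1) (hTI : Cfsg.IsTISubset (H : Set G)) (hN : Subgroup.normalizer (H : Set G) = L) : Cfsg.IsCoherent (Cfsg.inducedIrrAbove (H.subgroupOf L) ⊥) {1}ᶜ (fun α : L → ℂ => Cfsg.indFun L α) := by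
  have hKmap : (H.subgroupOf L).map L.subtype = H := Subgroup.map_subgroupOf_eq_of_le hHL
  haveI hKn : (H.subgroupOf L).Normal := ⟨fun k hk x => Subgroup.mem_subgroupOf.2
    (by simpa using hHn x x.2 k (Subgroup.mem_subgroupOf.1 hk))⟩
  have hsupK : H.subgroupOf L ⊔ W₁.subgroupOf L = ⊤ := by
    rw [← Subgroup.subgroupOf_sup hHL hW₁L, hsup, Subgroup.subgroupOf_self]
  have hfix : ∀ h ∈ W₁.subgroupOf L, h ≠ 1 → ∀ k ∈ H.subgroupOf L, h * k = k * h → k = 1 := by
    intro h hh h1 k hk e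
    exact Subtype.ext (hfpf _ (Subgroup.mem_subgroupOf.1 hh) (fun e' => h1 (Subtype.ext e')) _
      (Subgroup.mem_subgroupOf.1 hk) (congrArg Subtype.val e))
  refine frob_ti_coherent L (H.subgroupOf L) ?_ hodd ?_ ?_ ?_ ?_ ?_
  · haveI := hnil
    exact Group.nilpotent_of_mulEquiv (Subgroup.subgroupOfEquivOfLe hHL).symm
  · intro e
    exact hH1 (by rw [← hKmap, e, Subgroup.map_bot])
  · refine lt_top_iff_ne_top.2 fun e => hW1 ?_
    rw [Subgroup.subgroupOf_eq_top] at e
    rw [← le_bot_iff, ← hinf]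
    exact le_inf (hW₁L.trans e) le_rfl
  · intro n hn hn1 x hx
    by_contra hxK
    exact hn1 (CharInd.frob_centralizer_free _ _ hsupK hfix hxK hn
      (Subgroup.mem_centralizer_iff.1 hx n rfl).symm)
  · rw [hKmap]
    intro g hg t ht h
    exact hTI g (by rw [hN]; exact hg) t ht h
  · rw [hKmap, hN]

end Cfsg.Agent.S1524
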