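import Cfsg.Statements.S1527

set_option autoImplicit false
open Cfsg

namespace Cfsg.Agent.S1527

theorem aux_card_union {G : Type*} [Group G] [Finite G] (H : Subgroup G)
    (hTI : Cfsg.IsTISubset (H : Set G)) :
    Nat.card {g : G // g ≠ 1 ∧ ∃ x : G, x * g * x⁻¹ ∈ H} =
      (Subgroup.normalizer (H : Set G)).index * (Nat.card H - 1) := by
  classical
  set N := Subgroup.normalizer (H : Set G) with hN
  have e : Nat.card {g : G // g ≠ 1 ∧ ∃ x : G, x * g * x⁻¹ ∈ H} =
      Nat.card ((G ⧸ N) × {h : H // h ≠ 1}) := by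
    refine (Nat.card_eq_of_bijective (fun p : (G ⧸ N) × {h : H // h ≠ 1} =>
      (⟨p.1.out * (p.2.1 : G) * p.1.out⁻¹, ?_, ⟨p.1.out⁻¹, ?_⟩⟩ :
        {g : G // g ≠ 1 ∧ ∃ x : G, x * g * x⁻¹ ∈ H})) ⟨?_, ?_⟩).symm
    · intro h
      exact p.2.2 (Subtype.ext (conj_eq_one_iff.1 h))
    · simp [mul_assoc]
    · rintro ⟨a, ⟨⟨h, hh⟩, hh1⟩⟩ ⟨b, ⟨⟨h', hh'⟩, hh1'⟩⟩ heq
      have heq' : a.out * h * a.out⁻¹ = b.out * h' * b.out⁻¹ := congrArg Subtype.val heq
      have hconj : (b.out⁻¹ * a.out) * h * (b.out⁻¹ * a.out)⁻¹ = h' := by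
        calc (b.out⁻¹ * a.out) * h * (b.out⁻¹ * a.out)⁻¹
            = b.out⁻¹ * (a.out * h * a.out⁻¹) * b.out := by group
          _ = h' := by rw [heq']; group
      have hmem : b.out⁻¹ * a.out ∈ N := by
        by_contra hnot
        refine hh1 (Subtype.ext (hTI _ hnot h hh ?_))
        rw [hconj]; exact hh'
      have hab : a = b := by
        rw [← QuotientGroup.out_eq' a, ← QuotientGroup.out_eq' b]
        exact (QuotientGroup.eq.2 hmem).symm
      subst hab
      have : h = h' := mul_left_cancel (mul_right_cancel heq')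
      subst this
      rfl
    · rintro ⟨g, hg1, x, hx⟩
      obtain ⟨n, hn⟩ := QuotientGroup.mk_out_eq_mul N x⁻¹
      refine ⟨⟨((x⁻¹ : G) : G ⧸ N), ⟨⟨(n : G)⁻¹ * (x * g * x⁻¹) * (n : G), ?_⟩, ?_⟩⟩, ?_⟩
      · have := (Subgroup.mem_set_normalizer_iff.1 (inv_mem n.2) (x * g * x⁻¹)).1 hx
        simpa using this
      · intro h
        have h' := congrArg (Subtype.val : H → G) h
        simp only [OneMemClass.coe_one] at h'
        apply hg1
        calc g = x⁻¹ * (n : G) * ((n : G)⁻¹ * (x * g * x⁻¹) * (n : G)) * (n : G)⁻¹ * x := by group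
          _ = 1 := by rw [h']; group
      · apply Subtype.ext
        show Quotient.out (((x⁻¹ : G) : G ⧸ N)) * _ * _ = g
        rw [hn]; group
  rw [e, Nat.card_prod, Subgroup.index]
  congr 1
  rw [← Nat.card_congr (Equiv.subtypeEquivRight (p := fun h : H => h ≠ 1) (fun h => Iff.rfl))]
  haveI := Fintype.ofFinite H
  simp [Nat.card_eq_fintype_card, Fintype.card_subtype_compl]

/-- Let G be a finite group and H i (i in a finite index type) subgroups of pairwise coprime orders, each of whose underlying sets is a TI-subset of G, such that every non-identity element of G is conjugate to an element of some H i. Then Nat.card G − 1 = Σ_i [G : N_G(H i)] · (Nat.card (H i) − 1). -/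
theorem result {G : Type*} [Group G] [Finite G] {ι : Type*} [Fintype ι] (H : ι → Subgroup G) (hcop : ∀ i j, i ≠ j → Nat.Coprime (Nat.card (H i)) (Nat.card (H j))) (hTI : ∀ i, Cfsg.IsTISubset (H i : Set G)) (hcover : ∀ g : G, g ≠ 1 → ∃ i, ∃ x : G, x * g * x⁻¹ ∈ H i) : Nat.card G - 1 = ∑ i, (Subgroup.normalizer (H i : Set G)).index * (Nat.card (H i) - 1) := by
  classical
  rw [← Finset.sum_congr rfl (fun i _ => aux_card_union (H i) (hTI i)), ← Nat.card_sigma]
  haveI := Fintype.ofFinite G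
  have hG : Nat.card G - 1 = Nat.card {g : G // g ≠ 1} := by
    simp [Nat.card_eq_fintype_card, Fintype.card_subtype_compl]
  rw [hG]
  refine (Nat.card_eq_of_bijective
    (fun s : Σ i, {g : G // g ≠ 1 ∧ ∃ x : G, x * g * x⁻¹ ∈ H i} =>
      (⟨s.2.1, s.2.2.1⟩ : {g : G // g ≠ 1})) ⟨?_, ?_⟩).symm
  · rintro ⟨i, g, hg, x, hx⟩ ⟨j, g', hg', y, hy⟩ heq
    have hgg : g = g' := congrArg Subtype.val heq
    subst hgg
    have hij : i = j := by
      by_contra hne
      apply hg
      rw [← orderOf_eq_one_iff]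
      have hdi : orderOf g ∣ Nat.card (H i) := by
        have h1 : orderOf (x * g * x⁻¹) = orderOf g :=
          (orderOf_injective (MulAut.conj x).toMonoidHom (MulAut.conj x).injective g)
        rw [← h1, ← Subgroup.orderOf_mk (x * g * x⁻¹) hx]
        exact orderOf_dvd_natCard _
      have hdj : orderOf g ∣ Nat.card (H j) := by
        have h1 : orderOf (y * g * y⁻¹) = orderOf g :=
          (orderOf_injective (MulAut.conj y).toMonoidHom (MulAut.conj y).injective g)
        rw [← h1, ← Subgroup.orderOf_mk (y * g * y⁻¹) hy]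
        exact orderOf_dvd_natCard _
      exact Nat.eq_one_of_dvd_coprimes (hcop i j hne) hdi hdj
    subst hij
    rfl
  · rintro ⟨g, hg⟩
    obtain ⟨i, x, hx⟩ := hcover g hg
    exact ⟨⟨i, g, hg, x, hx⟩, rfl⟩

end Cfsg.Agent.S1527
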