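import Cfsg.Statements.S1529

import Cfsg.Agent.OddChar43.Isometry

set_option autoImplicit false
open Cfsg
open Cfsg.Agent Cfsg.Agent.OddChar43

namespace Cfsg.Agent.S1529



/-- Let N be a subgroup of the finite group G, S a set of irreducible characters of N with at least two members, and τ₁ a linear isometry on the integer combinations of S with virtual-character values such that τ₁ α vanishes at 1 whenever α ∈ ℤ[S] does. Then there is ε ∈ {1, −1} such that ε • τ₁ χ is an irreducible character of G for every χ ∈ S, and distinct members of S give distinct characters. -/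
theorem result {G : Type*} [Group G] [Fintype G] (N : Subgroup G) [Fintype N] (S : Set (N → ℂ)) (hirr : ∀ χ ∈ S, Cfsg.IsIrrCharacter N χ) (htwo : ∃ χ ∈ S, ∃ ψ ∈ S, χ ≠ ψ) (τ₁ : (N → ℂ) → (G → ℂ)) (hτ₁ : Cfsg.IsLinearIsometryOn (Cfsg.zspan S) τ₁) (h0 : ∀ α ∈ Cfsg.zspan S, α 1 = 0 → τ₁ α 1 = 0) : ∃ ε : ℂ, (ε = 1 ∨ ε = -1) ∧ (∀ χ ∈ S, Cfsg.IsIrrCharacter G (ε • τ₁ χ)) ∧ (∀ χ ∈ S, ∀ ψ ∈ S, τ₁ χ = τ₁ ψ → χ = ψ) := by
  classical
  have hτ' : Cfsg.IsLinearIsometryOn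
      ((Submodule.span ℤ S : Submodule ℤ (N → ℂ)) : Set (N → ℂ)) τ₁ := hτ₁
  have hmem : ∀ χ ∈ S, χ ∈ Submodule.span ℤ S := fun χ h => Submodule.subset_span h
  have hrep : ∀ χ ∈ S, ∃ (e : ℤ) (μ : G → ℂ),
      (e = 1 ∨ e = -1) ∧ Cfsg.IsIrrCharacter G μ ∧ τ₁ χ = e • μ := fun χ h =>
    isGen_norm_one (iso_gen hτ' (hmem χ h))
      (by rw [iso_inner hτ' (hmem χ h) (hmem χ h), irr_self (hirr χ h)])
  choose! e μ he hμ hτe using hrep
  have hsame : ∀ χ ∈ S, ∀ ψ ∈ S, e χ = e ψ := by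
    intro χ hχ ψ hψ
    obtain ⟨a, ha, ha'⟩ := Char.irr_one_pos (hirr χ hχ)
    obtain ⟨b, hb, hb'⟩ := Char.irr_one_pos (hirr ψ hψ)
    obtain ⟨m, hm, hm'⟩ := Char.irr_one_pos (hμ χ hχ)
    obtain ⟨n, hn, hn'⟩ := Char.irr_one_pos (hμ ψ hψ)
    have h1 := h0 ((b : ℤ) • χ - (a : ℤ) • ψ)
      (sub_mem (Submodule.smul_mem _ _ (hmem χ hχ)) (Submodule.smul_mem _ _ (hmem ψ hψ)))
      (by simp [ha', hb', mul_comm])
    rw [iso_sub hτ' (Submodule.smul_mem _ _ (hmem χ hχ)) (Submodule.smul_mem _ _ (hmem ψ hψ)),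
      iso_zsmul hτ' (hmem χ hχ), iso_zsmul hτ' (hmem ψ hψ), hτe χ hχ, hτe ψ hψ] at h1
    rw [Pi.sub_apply, Pi.smul_apply, Pi.smul_apply, Pi.smul_apply, Pi.smul_apply, hm', hn'] at h1
    simp only [zsmul_eq_mul] at h1
    have h2 : (b : ℤ) * (e χ * (m : ℤ)) - (a : ℤ) * (e ψ * (n : ℤ)) = 0 := by exact_mod_cast h1
    have p1 : 0 < (b : ℤ) * m := by positivity
    have p2 : 0 < (a : ℤ) * n := by positivity
    rcases he χ hχ with e1 | e1 <;> rcases he ψ hψ with e2 | e2 <;> rw [e1, e2] at h2 ⊢ <;> linarith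
  obtain ⟨χ₀, hχ₀, -⟩ := htwo
  refine ⟨(e χ₀ : ℂ), ?_, ?_, ?_⟩
  · rcases he χ₀ hχ₀ with h | h <;> simp [h]
  · intro χ hχ
    rw [Int.cast_smul_eq_zsmul, hτe χ hχ, hsame χ₀ hχ₀ χ hχ, smul_smul]
    rcases he χ hχ with h | h <;> simp [h] <;> exact hμ χ hχ
  · intro χ hχ ψ hψ heq
    by_contra hne
    have h := iso_inner hτ' (hmem χ hχ) (hmem ψ hψ)
    rw [← heq, iso_inner hτ' (hmem χ hχ) (hmem χ hχ), irr_self (hirr χ hχ),
      irr_ne (hirr χ hχ) (hirr ψ hψ) hne] at h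
    exact one_ne_zero h

end Cfsg.Agent.S1529
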