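import Cfsg.Statements.S1530

import Cfsg.Agent.OddChar43.Isometry

set_option autoImplicit false
open Cfsg
open Cfsg.Agent Cfsg.Agent.OddChar43

namespace Cfsg.Agent.S1530



/-- Let N be a subgroup of the finite group G and S₀ a finite set of irreducible characters of N, χ an irreducible character of N not in S₀, with degrees ξ 1 = d ξ. Let τ be a linear isometry on the integer combinations of S₀ ∪ {χ} vanishing at 1, with values virtual characters of G vanishing at 1, such that (S₀, N minus 1, τ) is coherent. If some ψ ∈ S₀ has d ψ dividing d χ and 2 · d ψ · d χ < Σ_{ξ ∈ S₀} (d ξ)², then (S₀ ∪ {χ}, N minus 1, τ) is coherent. -/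
theorem result {G : Type*} [Group G] [Fintype G] (N : Subgroup G) [Fintype N] (S₀ : Finset (N → ℂ)) (χ : N → ℂ) (hirr : ∀ ξ ∈ S₀, Cfsg.IsIrrCharacter N ξ) (hχ : Cfsg.IsIrrCharacter N χ) (hχS : χ ∉ S₀) (d : (N → ℂ) → ℕ) (hd : ∀ ξ ∈ insert χ S₀, ξ 1 = (d ξ : ℂ)) (τ : (N → ℂ) → (G → ℂ)) (hτ : Cfsg.IsLinearIsometryOn (Cfsg.zspanOn (↑(insert χ S₀) : Set (N → ℂ)) {1}ᶜ) τ) (hτ1 : ∀ α ∈ Cfsg.zspanOn (↑(insert χ S₀) : Set (N → ℂ)) {1}ᶜ, τ α 1 = 0) (hcoh : Cfsg.IsCoherent (↑S₀ : Set (N → ℂ)) {1}ᶜ τ) (ψ : N → ℂ) (hψ : ψ ∈ S₀) (hdvd : d ψ ∣ d χ) (hlt : 2 * d ψ * d χ < ∑ ξ ∈ S₀, d ξ ^ 2) : Cfsg.IsCoherent (↑(insert χ S₀) : Set (N → ℂ)) {1}ᶜ τ := by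
  classical
  obtain ⟨hne0, σ, hσ, hσα⟩ := hcoh
  have hσ' : Cfsg.IsLinearIsometryOn
      ((Submodule.span ℤ (↑S₀ : Set (N → ℂ)) : Submodule ℤ (N → ℂ)) : Set (N → ℂ)) σ := hσ
  set T : Set (N → ℂ) := (↑(insert χ S₀) : Set (N → ℂ)) with hT
  have hτ' : Cfsg.IsLinearIsometryOn (spanOnSub T {1}ᶜ : Set (N → ℂ)) τ := hτ
  have hsub : (↑S₀ : Set (N → ℂ)) ⊆ T := by rw [hT]; exact_mod_cast Finset.subset_insert χ S₀
  have hchiT : χ ∈ T := by rw [hT]; exact Finset.mem_coe.2 (Finset.mem_insert_self χ S₀)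
  have m0 : ∀ ξ ∈ S₀, ξ ∈ Submodule.span ℤ (↑S₀ : Set (N → ℂ)) := fun ξ h =>
    Submodule.subset_span h
  have dχ : χ 1 = (d χ : ℂ) := hd χ (Finset.mem_insert_self χ S₀)
  have d0 : ∀ ξ ∈ S₀, ξ 1 = (d ξ : ℂ) := fun ξ h => hd ξ (Finset.mem_insert_of_mem h)
  have dpos : 0 < d ψ := by
    obtain ⟨n, hn, hn'⟩ := Char.irr_one_pos (hirr ψ hψ)
    rw [d0 ψ hψ] at hn'
    have : d ψ = n := by exact_mod_cast hn'
    omega
  have dχpos : 0 < d χ := by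
    obtain ⟨n, hn, hn'⟩ := Char.irr_one_pos hχ
    rw [dχ] at hn'
    have : d χ = n := by exact_mod_cast hn'
    omega
  obtain ⟨a, ha⟩ := hdvd
  have hapos : 0 < a := Nat.pos_of_ne_zero (by rintro rfl; simp at ha; omega)
  have hnmem : ∀ ξ ∈ S₀, ξ ≠ χ := fun ξ h e => hχS (e ▸ h)
  -- the comparison element
  obtain ⟨β, hβdef⟩ : ∃ β, β = (a : ℤ) • ψ - χ := ⟨_, rfl⟩
  have hβ : β ∈ spanOnSub T {1}ᶜ := mem_zspanOn_one.2
    ⟨hβdef ▸ sub_mem (Submodule.smul_mem _ _ (Submodule.subset_span (hsub hψ))) (Submodule.subset_span hchiT),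
      by simp [hβdef, d0 ψ hψ, dχ, ha, mul_comm]⟩
  have hc : ∀ ξ ∈ S₀, ∃ n : ℤ, Cfsg.classInner (τ β) (σ ξ) = n := fun ξ h =>
    isGen_ci_int (iso_gen hτ' hβ) (iso_gen hσ' (m0 ξ h))
  choose! b hb using hc
  -- the differences inside `S₀`
  have hD : ∀ ξ ∈ S₀, (d ψ : ℤ) • ξ - (d ξ : ℤ) • ψ ∈ Cfsg.zspanOn (↑S₀ : Set (N → ℂ)) {1}ᶜ :=
    fun ξ h => mem_zspanOn_one.2 ⟨sub_mem (Submodule.smul_mem _ _ (m0 ξ h))
      (Submodule.smul_mem _ _ (m0 ψ hψ)), by simp [d0 ξ h, d0 ψ hψ, mul_comm]⟩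
  have hσD : ∀ ξ ∈ S₀, σ ((d ψ : ℤ) • ξ - (d ξ : ℤ) • ψ) = (d ψ : ℤ) • σ ξ - (d ξ : ℤ) • σ ψ :=
    fun ξ h => by
      rw [iso_sub hσ' (Submodule.smul_mem _ _ (m0 ξ h)) (Submodule.smul_mem _ _ (m0 ψ hψ)),
        iso_zsmul hσ' (m0 ξ h), iso_zsmul hσ' (m0 ψ hψ)]
  let v : (N → ℂ) → ℤ := fun ξ => b ξ - if ξ = ψ then (a : ℤ) else 0
  have hrel : ∀ ξ ∈ S₀, (d ψ : ℤ) * v ξ = (d ξ : ℤ) * v ψ := by
    intro ξ h
    have h1 := hτ'.2.2.1 β hβ _ (zspanOn_mono hsub _ (hD ξ h))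
    rw [← hσα _ (hD ξ h), hσD ξ h] at h1
    simp only [hβdef, CharInd.classInner_sub_left, CharInd.classInner_sub_right, ci_zsmul_left,
      ci_zsmul_right, irr_ne hχ (hirr ξ h) (hnmem ξ h).symm, irr_ne hχ (hirr ψ hψ) (hnmem ψ hψ).symm,
      irr_self (hirr ψ hψ), irr_ortho (hirr ψ hψ) (hirr ξ h)] at h1
    rw [← hβdef, hb ξ h, hb ψ hψ] at h1
    by_cases e : ξ = ψ
    · subst e; rfl
    · simp only [Ne.symm e, if_false, mul_zero, sub_zero, mul_one, zero_sub] at h1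
      have h2 : (d ψ : ℤ) * b ξ - (d ξ : ℤ) * b ψ = -((d ξ : ℤ) * (a : ℤ)) := by exact_mod_cast h1
      simp only [v, if_neg e, if_pos, sub_zero]
      linarith
  -- the norm
  obtain ⟨Δ, hΔdef⟩ : ∃ Δ, Δ = τ β - ∑ ξ ∈ S₀, b ξ • σ ξ := ⟨_, rfl⟩
  have hΔgen : Cfsg.IsGeneralizedCharacter G Δ := hΔdef ▸
    isGen_sub (iso_gen hτ' hβ) (isGen_sum _ fun ξ h => isGen_zsmul _ (iso_gen hσ' (m0 ξ h)))
  obtain ⟨k, hk, hk0⟩ := isGen_ci_self hΔgen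
  have hσor : ∀ ξ ∈ S₀, ∀ η ∈ S₀, Cfsg.classInner (σ ξ) (σ η) = if ξ = η then 1 else 0 :=
    fun ξ h η h' => by rw [iso_inner hσ' (m0 ξ h) (m0 η h'), irr_ortho (hirr ξ h) (hirr η h')]
  have hsum1 : Cfsg.classInner (∑ ξ ∈ S₀, b ξ • σ ξ) (τ β) = ∑ ξ ∈ S₀, ((b ξ : ℂ)) ^ 2 := by
    rw [ci_sum_left]
    refine Finset.sum_congr rfl fun ξ h => ?_
    rw [ci_zsmul_left, ← CharInd.classInner_swap, hb ξ h, map_intCast, sq]
  have hsum2 : Cfsg.classInner (τ β) (∑ ξ ∈ S₀, b ξ • σ ξ) = ∑ ξ ∈ S₀, ((b ξ : ℂ)) ^ 2 := by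
    rw [ci_sum_right]
    refine Finset.sum_congr rfl fun ξ h => ?_
    rw [ci_zsmul_right, hb ξ h, sq]
  have hsum3 : Cfsg.classInner (∑ ξ ∈ S₀, b ξ • σ ξ) (∑ ξ ∈ S₀, b ξ • σ ξ) =
      ∑ ξ ∈ S₀, ((b ξ : ℂ)) ^ 2 := by
    rw [ci_sum_right]
    refine Finset.sum_congr rfl fun ξ h => ?_
    rw [ci_zsmul_right, ci_sum_left, Finset.sum_eq_single ξ, ci_zsmul_left, hσor ξ h ξ h, if_pos rfl,
      mul_one, sq]
    · intro η h' hne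
      rw [ci_zsmul_left, hσor η h' ξ h, if_neg hne, mul_zero]
    · exact fun h' => absurd h h'
  have hββ : Cfsg.classInner (τ β) (τ β) = ((a : ℂ)) ^ 2 + 1 := by
    rw [iso_inner hτ' hβ hβ, hβdef]
    simp only [CharInd.classInner_sub_left, CharInd.classInner_sub_right, ci_zsmul_left,
      ci_zsmul_right, irr_self hχ, irr_self (hirr ψ hψ), irr_ne hχ (hirr ψ hψ) (hnmem ψ hψ).symm,
      irr_ne (hirr ψ hψ) hχ (hnmem ψ hψ), Int.cast_natCast]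
    ring
  have hnorm : (k : ℤ) + ∑ ξ ∈ S₀, b ξ ^ 2 = (a : ℤ) ^ 2 + 1 := by
    have h1 : Cfsg.classInner Δ Δ = ((a : ℂ)) ^ 2 + 1 - ∑ ξ ∈ S₀, ((b ξ : ℂ)) ^ 2 := by
      simp only [hΔdef, CharInd.classInner_sub_left, CharInd.classInner_sub_right, hsum1, hsum2,
        hsum3, hββ]
      ring
    rw [hk] at h1
    have h2 : (k : ℂ) + ∑ ξ ∈ S₀, ((b ξ : ℂ)) ^ 2 = ((a : ℂ)) ^ 2 + 1 := by rw [h1]; ring
    exact_mod_cast h2
  have hbv : ∀ ξ, b ξ = v ξ + if ξ = ψ then (a : ℤ) else 0 := fun ξ => by simp [v]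
  have hbsum : ∑ ξ ∈ S₀, b ξ ^ 2 = (∑ ξ ∈ S₀, v ξ ^ 2) + 2 * a * v ψ + (a : ℤ) ^ 2 := by
    simp only [hbv, add_sq, Finset.sum_add_distrib, mul_ite, mul_zero, ite_pow, zero_pow two_ne_zero,
      Finset.sum_ite_eq' S₀, if_pos hψ]
    ring
  obtain ⟨W, hW⟩ : ∃ W : ℤ, W = ∑ ξ ∈ S₀, (d ξ : ℤ) ^ 2 := ⟨_, rfl⟩
  have hscaled : (d ψ : ℤ) ^ 2 * ∑ ξ ∈ S₀, v ξ ^ 2 = v ψ ^ 2 * W := by
    rw [hW, Finset.mul_sum, Finset.mul_sum]
    refine Finset.sum_congr rfl fun ξ h => ?_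
    rw [← mul_pow, hrel ξ h, mul_pow, mul_comm]
  have hbig : 2 * (a : ℤ) * (d ψ : ℤ) ^ 2 < W := by
    have : (2 * d ψ * d χ : ℤ) < ∑ ξ ∈ S₀, (d ξ : ℤ) ^ 2 := by exact_mod_cast hlt
    rw [hW, ha] at *
    push_cast at this
    linarith
  have hu : v ψ = 0 := by
    by_contra hu
    have hk' : 1 = (∑ ξ ∈ S₀, v ξ ^ 2) + 2 * a * v ψ + (k : ℤ) := by linarith
    have hk1 : (d ψ : ℤ) ^ 2 = v ψ ^ 2 * W + 2 * a * v ψ * (d ψ : ℤ) ^ 2 + k * (d ψ : ℤ) ^ 2 := by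
      rw [← hscaled]
      linear_combination (d ψ : ℤ) ^ 2 * hk'
    have hp : (0 : ℤ) < (d ψ : ℤ) ^ 2 := by positivity
    have hkn : (0 : ℤ) ≤ (k : ℤ) * (d ψ : ℤ) ^ 2 := by positivity
    have ha1 : (1 : ℤ) ≤ a := by exact_mod_cast hapos
    have hadp : (d ψ : ℤ) ^ 2 ≤ (a : ℤ) * (d ψ : ℤ) ^ 2 := le_mul_of_one_le_left hp.le ha1
    have hu1 : v ψ = -1 := by
      rcases (show v ψ = -1 ∨ 1 ≤ v ψ ∨ v ψ ≤ -2 by omega) with h | h | h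
      · exact h
      · exfalso; nlinarith [mul_le_mul h h zero_le_one (by linarith : (0:ℤ) ≤ v ψ)]
      · exfalso
        nlinarith [mul_nonneg (by linarith : (0:ℤ) ≤ -v ψ - 2) (by linarith : (0:ℤ) ≤ W),
          mul_nonneg (by linarith : (0:ℤ) ≤ -v ψ) (by linarith : (0:ℤ) ≤ W - 2 * a * (d ψ : ℤ) ^ 2)]
    rw [hu1] at hk' hk1 hscaled
    have hk0' : k = 0 := by
      have h3 : 2 * (a : ℤ) < ∑ ξ ∈ S₀, v ξ ^ 2 := by nlinarith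
      omega
    have hΔ0 : τ β = ∑ ξ ∈ S₀, b ξ • σ ξ := by
      have := hk0 hk0'
      rw [hΔdef, sub_eq_zero] at this
      exact this
    obtain ⟨e, μ, he, hμ, heμ⟩ := isGen_norm_one (iso_gen hσ' (m0 ψ hψ))
      (by rw [hσor ψ hψ ψ hψ, if_pos rfl])
    have hσ1 : σ ψ 1 ≠ 0 := by
      rw [heμ, Pi.smul_apply, zsmul_eq_mul]
      exact mul_ne_zero (Int.cast_ne_zero.2 (by rcases he with h | h <;> omega)) (Char.irr_one_ne_zero hμ)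
    have hdeg : ∀ ξ ∈ S₀, (d ψ : ℂ) * σ ξ 1 = (d ξ : ℂ) * σ ψ 1 := by
      intro ξ h
      have h1 := hτ1 _ (zspanOn_mono hsub _ (hD ξ h))
      rw [← hσα _ (hD ξ h), hσD ξ h] at h1
      simpa [sub_eq_zero] using h1
    have h0 := congrFun hΔ0 1
    rw [hτ1 β hβ, Finset.sum_apply] at h0
    have h4 : (((∑ ξ ∈ S₀, b ξ * (d ξ : ℤ)) : ℤ) : ℂ) * σ ψ 1 = 0 := by
      have h5 := congrArg (fun z : ℂ => (d ψ : ℂ) * z) h0.symm
      simp only [mul_zero, Finset.mul_sum] at h5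
      push_cast
      rw [Finset.sum_mul, ← h5]
      refine Finset.sum_congr rfl fun ξ h => ?_
      rw [Pi.smul_apply, zsmul_eq_mul]
      linear_combination -(b ξ : ℂ) * hdeg ξ h
    have h6 : ∑ ξ ∈ S₀, b ξ * (d ξ : ℤ) = 0 := by
      exact_mod_cast (mul_eq_zero.1 h4).resolve_right hσ1
    have h7 : (d ψ : ℤ) * ∑ ξ ∈ S₀, b ξ * (d ξ : ℤ) = (a : ℤ) * (d ψ : ℤ) ^ 2 - W := by
      rw [Finset.mul_sum, hW]
      have : ∀ ξ ∈ S₀, (d ψ : ℤ) * (b ξ * (d ξ : ℤ)) =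
          (if ξ = ψ then (a : ℤ) * (d ψ : ℤ) ^ 2 else 0) - (d ξ : ℤ) ^ 2 := by
        intro ξ h
        have := hrel ξ h
        rw [hu1] at this
        rw [hbv ξ]
        by_cases e : ξ = ψ
        · rw [if_pos e, if_pos e]; subst e; linear_combination (d ξ : ℤ) * this
        · rw [if_neg e, if_neg e]; linear_combination (d ξ : ℤ) * this
      rw [Finset.sum_congr rfl this, Finset.sum_sub_distrib, Finset.sum_ite_eq', if_pos hψ]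
    rw [h6, mul_zero] at h7
    nlinarith
  have hv0 : ∀ ξ ∈ S₀, b ξ = if ξ = ψ then (a : ℤ) else 0 := by
    intro ξ h
    have := hrel ξ h
    rw [hu, mul_zero] at this
    rw [hbv ξ, (mul_eq_zero.1 this).resolve_left (by exact_mod_cast dpos.ne'), zero_add]
  -- the extension
  let f : (N → ℂ) → (G → ℂ) := fun ξ => if ξ = χ then (a : ℤ) • σ ψ - τ β else σ ξ
  have fχ : f χ = (a : ℤ) • σ ψ - τ β := if_pos rfl
  have f0 : ∀ ξ ∈ S₀, f ξ = σ ξ := fun ξ h => if_neg (hnmem ξ h)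
  have hx0 : ∀ ξ ∈ S₀, Cfsg.classInner ((a : ℤ) • σ ψ - τ β) (σ ξ) = 0 := by
    intro ξ h
    rw [CharInd.classInner_sub_left, ci_zsmul_left, hσor ψ hψ ξ h, hb ξ h, hv0 ξ h]
    by_cases e : ξ = ψ
    · simp [e]
    · simp [e, Ne.symm e]
  have hor : OrthoData (insert χ S₀) f := by
    have hall : ∀ ξ ∈ insert χ S₀, Cfsg.IsIrrCharacter N ξ := fun ξ h =>
      (Finset.mem_insert.1 h).elim (fun e => e ▸ hχ) (hirr ξ)
    refine ⟨fun ξ h => Char.irr_ne_zero (hall ξ h), fun ξ h η h' hne => irr_ne (hall ξ h) (hall η h') hne,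
      fun ξ h η h' => ?_, fun ξ h => ?_⟩
    · rcases Finset.mem_insert.1 h with e | g <;> rcases Finset.mem_insert.1 h' with e' | g'
      · subst e e'
        rw [fχ, CharInd.classInner_sub_right, ci_zsmul_right, hx0 ψ hψ, CharInd.classInner_sub_left,
          ci_zsmul_left, hββ, ← CharInd.classInner_swap (τ β) (σ ψ), hb ψ hψ, hv0 ψ hψ, irr_self hχ]
        simp
        ring
      · subst e
        rw [fχ, f0 η g', hx0 η g', irr_ne hχ (hirr η g') (hnmem η g').symm]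
      · subst e'
        rw [fχ, f0 ξ g, ← CharInd.classInner_swap, hx0 ξ g, map_zero, irr_ne (hirr ξ g) hχ (hnmem ξ g)]
      · rw [f0 ξ g, f0 η g', iso_inner hσ' (m0 ξ g) (m0 η g')]
    · rcases Finset.mem_insert.1 h with e | h
      · subst e
        rw [fχ]; exact isGen_sub (isGen_zsmul _ (iso_gen hσ' (m0 ψ hψ))) (iso_gen hτ' hβ)
      · rw [f0 ξ h]; exact iso_gen hσ' (m0 ξ h)
  obtain ⟨α, hα, hαne⟩ := hne0
  refine coherent_of_values hor ⟨α, zspanOn_mono hsub _ hα, hαne⟩ ?_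
  intro θ hθ
  obtain ⟨hθ1, hθ0⟩ := mem_zspanOn_one.1 hθ
  rw [mem_zspan, Finset.coe_insert, Submodule.mem_span_insert] at hθ1
  obtain ⟨n, x, hx, rfl⟩ := hθ1
  have hy : n • ((a : ℤ) • ψ) + x ∈ Cfsg.zspanOn (↑S₀ : Set (N → ℂ)) {1}ᶜ := by
    refine mem_zspanOn_one.2 ⟨add_mem (Submodule.smul_mem _ _ (Submodule.smul_mem _ _ (m0 ψ hψ))) hx, ?_⟩
    rw [Pi.add_apply, Pi.smul_apply, dχ, zsmul_eq_mul] at hθ0
    rw [Pi.add_apply, Pi.smul_apply, Pi.smul_apply, d0 ψ hψ, zsmul_eq_mul, zsmul_eq_mul]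
    rw [← hθ0, ha]
    push_cast
    ring
  have hy' : n • ((a : ℤ) • ψ) + x ∈ spanOnSub T {1}ᶜ := zspanOn_mono hsub _ hy
  have e1 : n • χ + x = (n • ((a : ℤ) • ψ) + x) + (-n) • β := by rw [hβdef]; module
  rw [map_add, map_zsmul_lin, extLin_self hor (Finset.mem_insert_self χ S₀), fχ,
    iso_eq_extLin hor (Finset.coe_subset.2 (Finset.subset_insert χ S₀)) hσ
      (fun ξ h => (f0 ξ h).symm) hx, e1, iso_add hτ' hy' (Submodule.smul_mem _ _ hβ),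
    iso_zsmul hτ' hβ, ← hσα _ hy,
    iso_add hσ' (Submodule.smul_mem _ _ (Submodule.smul_mem _ _ (m0 ψ hψ))) hx,
    iso_zsmul hσ' (Submodule.smul_mem _ _ (m0 ψ hψ)), iso_zsmul hσ' (m0 ψ hψ)]
  module

end Cfsg.Agent.S1530
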