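import Cfsg.Statements.S1532

import Cfsg.Agent.OddChar43.FeitSibley
import Cfsg.Agent.S1522

set_option autoImplicit false
open Cfsg
open Cfsg.Agent Cfsg.Agent.OddChar43

namespace Cfsg.Agent.S1532

open Cfsg.Agent.CharInd

/-- Let G be a finite group, p an odd prime and P a Sylow p-subgroup that is non-abelian, whose underlying set is a TI-subset of G, with P properly contained in its set normaliser N and C_G(x) ≤ P for every non-identity x ∈ P. Let Z be a nontrivial subgroup of the centre of P normalised by N. Then the set of irreducible characters χ of N with χ z ≠ χ 1 for some z ∈ Z is coherent for the map induced by induction from N to G. -/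
theorem result {G : Type*} [Group G] [Fintype G] (p : ℕ) [Fact p.Prime] (hp : p ≠ 2) (P : Sylow p G) (hna : ¬ IsMulCommutative (P : Subgroup G)) (hTI : Cfsg.IsTISubset ((P : Subgroup G) : Set G)) (hlt : (P : Subgroup G) < Subgroup.normalizer ((P : Subgroup G) : Set G)) (hC : ∀ k ∈ (P : Subgroup G), k ≠ 1 → Subgroup.centralizer ({k} : Set G) ≤ (P : Subgroup G)) [Fintype ↥(Subgroup.normalizer ((P : Subgroup G) : Set G))] (Z : Subgroup G) (hZ1 : Z ≠ ⊥) (hZP : ∀ z ∈ Z, z ∈ (P : Subgroup G) ∧ ∀ y ∈ (P : Subgroup G), z * y = y * z) (hZn : ∀ x ∈ Subgroup.normalizer ((P : Subgroup G) : Set G), ∀ z ∈ Z, x * z * x⁻¹ ∈ Z) : Cfsg.IsCoherent {χ : ↥(Subgroup.normalizer ((P : Subgroup G) : Set G)) → ℂ | Cfsg.IsIrrCharacter ↥(Subgroup.normalizer ((P : Subgroup G) : Set G)) χ ∧ ∃ z : ↥(Subgroup.normalizer ((P : Subgroup G) : Set G)), (z : G) ∈ Z ∧ χ z ≠ χ 1} {1}ᶜ (fun α => Cfsg.indFun (Subgroup.normalizer ((P : Subgroup G) : Set G)) α) := by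
  classical
  obtain ⟨hKL, hC', hTI'⟩ := kernel_hyps (P : Subgroup G) hTI hlt hC
  have hP1 : (P : Subgroup G) ≠ ⊥ := fun h => hna ⟨⟨fun a b => by
    have ha : a = 1 := Subtype.ext (Subgroup.mem_bot.1 (h ▸ a.2))
    simp [ha]⟩⟩
  have hne := subgroupOf_ne_bot (P : Subgroup G) hP1
  let L := Subgroup.normalizer ((P : Subgroup G) : Set G)
  let K : Subgroup L := (P : Subgroup G).subgroupOf L
  haveI : Fintype K := Fintype.ofFinite K
  obtain ⟨m, hm⟩ := IsPGroup.iff_card.1 P.isPGroup'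
  have hKcard : Nat.card K = p ^ m := (card_subgroupOf_normalizer (P : Subgroup G)).trans hm
  have hodd : Odd (Nat.card L) := by
    by_contra h
    have hab := kernel_comm_of_even K hC' (hKcard ▸ ((Fact.out : p.Prime).odd_of_ne_two hp).pow) h
    exact hna ⟨⟨fun a b => Subtype.ext (congrArg (fun t => ((t : L) : G)) (congrArg Subtype.val
      (hab.1.comm ⟨⟨a, Subgroup.le_normalizer a.2⟩, a.2⟩ ⟨⟨b, Subgroup.le_normalizer b.2⟩, b.2⟩)))⟩⟩
  have hnil : Group.IsNilpotent K := kernel_isNilpotent K hKL hC'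
  haveI := hnil
  have hsolv : Group.IsSolvable K := inferInstance
  obtain ⟨R, hS⟩ := frob_ti_system L K (K.map L.subtype : Set G) (mem_map_coe L K) hTI' hodd hC' hKL hsolv hne
  have hK'le : ⁅K, K⁆ ≤ K := Subgroup.commutator_le_self K
  have hK'lt : ⁅K, K⁆ < K := by
    refine lt_of_le_of_ne hK'le fun e => ?_
    haveI : Nontrivial K := (Subgroup.nontrivial_iff_ne_bot K).2 hne
    refine (Group.IsSolvable.commutator_lt_top_of_nontrivial (G := K)).ne ?_
    apply Subgroup.map_injective K.subtype_injective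
    rw [commutator_def, Subgroup.map_commutator, ← MonoidHom.range_eq_map, Subgroup.range_subtype, e]
  have hfrob := frob_quotient K ⁅K, K⁆ hK'le le_rfl hC'
  have hZK : Z.subgroupOf L ≤ K := fun z hz => (hZP z hz).1
  haveI : (Z.subgroupOf L).Normal := ⟨fun z hz g => hZn g g.2 z hz⟩
  have hZ1' : Z.subgroupOf L ≠ ⊥ := by
    obtain ⟨z, hz⟩ := Subgroup.ne_bot_iff_exists_ne_one.1 hZ1
    intro h
    have hzL : (z : G) ∈ L := Subgroup.le_normalizer (hZP z z.2).1
    have hmem : (⟨z, hzL⟩ : L) ∈ Z.subgroupOf L := z.2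
    rw [h, Subgroup.mem_bot] at hmem
    exact hz (Subtype.ext (show (z : G) = 1 from congrArg Subtype.val hmem))
  have hirr : ∀ χ ∈ Cfsg.inducedIrrAbove K ⊥ \ Cfsg.inducedIrrAbove K (Z.subgroupOf L),
      Cfsg.IsIrrCharacter L χ := by
    rintro χ ⟨⟨θ, hθ, hne', -, rfl⟩, -⟩
    exact indFun_irr_of_fpf K hC' hθ hne'
  obtain ⟨heq, hcoh⟩ := S1522.result K hsolv _ R hS hodd hnil hK'lt hKL hfrob (Z.subgroupOf L) hZ1'
    hZK (fun z hz k hk => Subtype.ext ((hZP z hz).2 k hk)) hirr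
  rw [heq] at hcoh
  exact hcoh

end Cfsg.Agent.S1532
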