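import Cfsg.Statements.S1533

import Cfsg.Agent.OddChar43.FeitSibley

set_option autoImplicit false
open Cfsg
open Cfsg.Agent Cfsg.Agent.OddChar43

namespace Cfsg.Agent.S1533

open Cfsg.Agent.CharInd

/-- Let G be a finite group, p an odd prime, and P a nontrivial Sylow p-subgroup whose underlying set is a TI-subset of G, with P properly contained in its set normaliser N and C_G(x) ≤ P for every non-identity x ∈ P. Let S be the set of irreducible characters χ of N with χ x ≠ χ 1 for some x ∈ P. Then either S has exactly one member, P is elementary abelian and Nat.card P = [N:P] + 1; or (S, N minus 1, induction to G) is coherent. -/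
theorem result {G : Type*} [Group G] [Fintype G] (p : ℕ) [Fact p.Prime] (hp : p ≠ 2) (P : Sylow p G) (hP1 : (P : Subgroup G) ≠ ⊥) (hTI : Cfsg.IsTISubset ((P : Subgroup G) : Set G)) (hlt : (P : Subgroup G) < Subgroup.normalizer ((P : Subgroup G) : Set G)) (hC : ∀ k ∈ (P : Subgroup G), k ≠ 1 → Subgroup.centralizer ({k} : Set G) ≤ (P : Subgroup G)) [Fintype ↥(Subgroup.normalizer ((P : Subgroup G) : Set G))] : (Nat.card {χ : ↥(Subgroup.normalizer ((P : Subgroup G) : Set G)) → ℂ // Cfsg.IsIrrCharacter ↥(Subgroup.normalizer ((P : Subgroup G) : Set G)) χ ∧ ∃ x : ↥(Subgroup.normalizer ((P : Subgroup G) : Set G)), (x : G) ∈ (P : Subgroup G) ∧ χ x ≠ χ 1} = 1 ∧ Cfsg.IsElementaryAbelian p (P : Subgroup G) ∧ Nat.card (P : Subgroup G) = ((P : Subgroup G).subgroupOf (Subgroup.normalizer ((P : Subgroup G) : Set G))).index + 1) ∨ Cfsg.IsCoherent {χ : ↥(Subgroup.normalizer ((P : Subgroup G) : Set G)) → ℂ | Cfsg.IsIrrCharacter ↥(Subgroup.normalizer ((P : Subgroup G) : Set G)) χ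 ∧ ∃ x : ↥(Subgroup.normalizer ((P : Subgroup G) : Set G)), (x : G) ∈ (P : Subgroup G) ∧ χ x ≠ χ 1} {1}ᶜ (fun α => Cfsg.indFun (Subgroup.normalizer ((P : Subgroup G) : Set G)) α) := by
  classical
  obtain ⟨hKL, hC', hTI'⟩ := kernel_hyps (P : Subgroup G) hTI hlt hC
  have hset : {χ : ↥(Subgroup.normalizer ((P : Subgroup G) : Set G)) → ℂ | Cfsg.IsIrrCharacter ↥(Subgroup.normalizer ((P : Subgroup G) : Set G)) χ ∧ ∃ x : ↥(Subgroup.normalizer ((P : Subgroup G) : Set G)), (x : G) ∈ (P : Subgroup G) ∧ χ x ≠ χ 1} =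
      kerFree ((P : Subgroup G).subgroupOf (Subgroup.normalizer ((P : Subgroup G) : Set G))) := rfl
  have hne := subgroupOf_ne_bot (P : Subgroup G) hP1
  have hnil : Group.IsNilpotent ((P : Subgroup G).subgroupOf (Subgroup.normalizer ((P : Subgroup G) : Set G))) :=
    kernel_isNilpotent _ hKL hC'
  rcases feit_sibley _ _ hnil hne hKL hC' hTI' (by rw [map_kernel_eq]) with h | ⟨⟨m, hm⟩, -⟩ | h
  · refine Or.inl ⟨?_, ?_, ?_⟩
    · exact card_kerFree_eq_one _ hC' hne h
    · obtain ⟨q, hq, hel⟩ := elementary_of_card_eq _ hC' hne h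
      have hel' := elementary_of_subgroupOf (P : Subgroup G) hel
      obtain ⟨a, ha⟩ := Subgroup.ne_bot_iff_exists_ne_one.1 hP1
      obtain ⟨k, hk⟩ := IsPGroup.iff_orderOf.1 P.isPGroup' a
      have haq : orderOf a = q := by
        haveI := Fact.mk hq
        exact orderOf_eq_prime (Subtype.ext (hel'.2 a a.2)) ha
      have hqp : q = p := by
        rw [haq] at hk
        have h1 : q ∣ p ^ k := hk ▸ dvd_rfl
        exact (Nat.prime_dvd_prime_iff_eq hq Fact.out).1 (hq.dvd_of_dvd_pow h1)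
      exact hqp ▸ hel'
    · rw [← card_subgroupOf_normalizer]; exact h
  · exfalso
    rw [card_subgroupOf_normalizer] at hm
    obtain ⟨k, hk⟩ := IsPGroup.iff_card.1 P.isPGroup'
    rcases Nat.eq_zero_or_pos k with rfl | hk0
    · exact hP1 (Subgroup.eq_bot_of_card_eq _ (by rw [hk, pow_zero]))
    · have h1 : p ∣ 2 ^ m := hm ▸ hk ▸ dvd_pow_self p hk0.ne'
      exact hp ((Nat.prime_dvd_prime_iff_eq Fact.out Nat.prime_two).1
        ((Fact.out : p.Prime).dvd_of_dvd_pow h1))
  · exact Or.inr h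

end Cfsg.Agent.S1533
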