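import Cfsg.Statements.S1534

import Cfsg.Agent.OddChar43.FeitSibley

set_option autoImplicit false
open Cfsg
open Cfsg.Agent Cfsg.Agent.OddChar43

namespace Cfsg.Agent.S1534

open Cfsg.Agent.CharInd

/-- Let G be a finite group and K a nontrivial nilpotent subgroup whose underlying set is a TI-subset of G, properly contained in its set normaliser N, with C_G(k) ≤ K for every non-identity k ∈ K; let e be the index of K in N and S the set of irreducible characters χ of N with χ k ≠ χ 1 for some k ∈ K. Then one of: S has exactly one member, Nat.card K = e + 1 and K is an elementary abelian p-group for some prime p; or K is a Sylow 2-subgroup of G (Nat.card K is the largest power of 2 dividing Nat.card G) and [K : [K,K]] < 4e²; or (S, N minus 1, induction to G) is coherent. -/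
theorem result {G : Type*} [Group G] [Fintype G] (K : Subgroup G) (hK1 : K ≠ ⊥) (hnil : Group.IsNilpotent K) (hTI : Cfsg.IsTISubset (K : Set G)) (hlt : K < Subgroup.normalizer (K : Set G)) (hC : ∀ k ∈ K, k ≠ 1 → Subgroup.centralizer ({k} : Set G) ≤ K) [Fintype ↥(Subgroup.normalizer (K : Set G))] : (Nat.card {χ : ↥(Subgroup.normalizer (K : Set G)) → ℂ // Cfsg.IsIrrCharacter ↥(Subgroup.normalizer (K : Set G)) χ ∧ ∃ k : ↥(Subgroup.normalizer (K : Set G)), (k : G) ∈ K ∧ χ k ≠ χ 1} = 1 ∧ Nat.card K = (K.subgroupOf (Subgroup.normalizer (K : Set G))).index + 1 ∧ ∃ p : ℕ, p.Prime ∧ Cfsg.IsElementaryAbelian p K) ∨ (Nat.card K = 2 ^ (Nat.card G).factorization 2 ∧ (⁅K, K⁆.subgroupOf K).index < 4 * (K.subgroupOf (Subgroup.normalizer (K : Set G))).index ^ 2) ∨ Cfsg.IsCoherent {χ : ↥(Subgroup.normalizer (K : Set G)) → ℂ | Cfsg.IsIrrCharacter ↥(Subgroup.normalizer (K : Set G)) χ ∧ ∃ k : ↥(Subgroup.normalizer (K : Set G)), (k : G) ∈ K ∧ χ k ≠ χ 1} {1}ᶜ (fun α => Cfsg.indFun (Subgroup.normalizer (K : Set G)) α) := by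
  classical
  obtain ⟨hKL, hC', hTI'⟩ := kernel_hyps K hTI hlt hC
  have hne := subgroupOf_ne_bot K hK1
  have hnil' : Group.IsNilpotent (K.subgroupOf (Subgroup.normalizer (K : Set G))) :=
    kernel_isNilpotent _ hKL hC'
  rcases feit_sibley _ _ hnil' hne hKL hC' hTI' (by rw [map_kernel_eq]) with h | ⟨⟨m, hm⟩, hlt'⟩ | h
  · refine Or.inl ⟨card_kerFree_eq_one _ hC' hne h, ?_, ?_⟩
    · rw [← card_subgroupOf_normalizer]; exact h
    · obtain ⟨q, hq, hel⟩ := elementary_of_card_eq _ hC' hne h
      exact ⟨q, hq, elementary_of_subgroupOf K hel⟩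
  · refine Or.inr (Or.inl ⟨?_, ?_⟩)
    · rw [card_subgroupOf_normalizer] at hm
      haveI : Fact (Nat.Prime 2) := ⟨Nat.prime_two⟩
      haveI : Nontrivial K := (Subgroup.nontrivial_iff_ne_bot K).2 hK1
      obtain ⟨P, hKP⟩ := (IsPGroup.of_card hm).exists_le_sylow
      haveI : Nontrivial (P : Subgroup G) := (Subgroup.nontrivial_iff_ne_bot _).2
        (fun h => hK1 (le_bot_iff.1 (h ▸ hKP)))
      haveI := P.isPGroup'.center_nontrivial
      obtain ⟨z, hz⟩ := exists_ne (1 : Subgroup.center (P : Subgroup G))
      obtain ⟨k, hk⟩ := exists_ne (1 : K)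
      have hcomm : ∀ x : (P : Subgroup G), (x : G) * ((z : (P : Subgroup G)) : G) = ((z : (P : Subgroup G)) : G) * x :=
        fun x => congrArg Subtype.val (Subgroup.mem_center_iff.1 z.2 x)
      have hzK : ((z : (P : Subgroup G)) : G) ∈ K := hC k k.2 (fun e => hk (Subtype.ext e)) (by
        rw [Subgroup.mem_centralizer_singleton_iff]
        exact (hcomm ⟨k, hKP k.2⟩).symm)
      have hPK : (P : Subgroup G) ≤ K := fun x hx =>
        hC _ hzK (fun e => hz (Subtype.ext (Subtype.ext e))) (by
          rw [Subgroup.mem_centralizer_singleton_iff]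
          exact hcomm ⟨x, hx⟩)
      rw [← P.card_eq_multiplicity, le_antisymm hKP hPK]
    · have e : (⁅K, K⁆.subgroupOf K).index =
          (commutator (K.subgroupOf (Subgroup.normalizer (K : Set G)))).index := by
        have e1 : (commutator K).map K.subtype = ⁅K, K⁆ := by
          rw [commutator_def, Subgroup.map_commutator, ← MonoidHom.range_eq_map, Subgroup.range_subtype]
        rw [← e1, Subgroup.subgroupOf, Subgroup.comap_map_eq_self_of_injective K.subtype_injective]
        let f := Subgroup.subgroupOfEquivOfLe (Subgroup.le_normalizer (H := K))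
        have e2 : (commutator (K.subgroupOf (Subgroup.normalizer (K : Set G)))).map f.toMonoidHom =
            commutator K := by
          rw [commutator_def, commutator_def, Subgroup.map_commutator,
            Subgroup.map_top_of_surjective _ f.surjective]
        rw [← e2]
        exact Subgroup.index_map_equiv _ f
      rw [e]
      exact hlt'
  · exact Or.inr (Or.inr h)

end Cfsg.Agent.S1534
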