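import Cfsg.Statements.S1546

set_option autoImplicit false
open Cfsg

namespace Cfsg.Agent.S1546

theorem aux_geom_eq (p q : ℕ) (hp : 2 ≤ p) :
    (p ^ q - 1) / (p - 1) = ∑ i ∈ Finset.range q, p ^ i := by
  rw [Nat.geomSum_eq hp]

theorem aux_prime_dvd (p q r : ℕ) (hr : r.Prime) (hq : q.Prime)
    (hrN : r ∣ ∑ i ∈ Finset.range q, p ^ i) (hpq : p % q ≠ 1) :
    r % q = 1 ∧ (p : ZMod r) ≠ 1 := by
  haveI := Fact.mk hr
  have h0 : (∑ i ∈ Finset.range q, (p : ZMod r) ^ i) = 0 := by
    have h := (ZMod.natCast_eq_zero_iff _ r).2 hrN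
    push_cast at h
    exact h
  have hne : (p : ZMod r) ≠ 1 := by
    intro h1
    simp only [h1, one_pow, Finset.sum_const, Finset.card_range, nsmul_eq_mul, mul_one] at h0
    have hrq : r ∣ q := (ZMod.natCast_eq_zero_iff q r).1 h0
    have hrq' : r = q := (Nat.prime_dvd_prime_iff_eq hr hq).1 hrq
    subst hrq'
    apply hpq
    have h2 : ((p : ℕ) : ZMod r) = ((1 : ℕ) : ZMod r) := by simpa using h1
    have h3 := (ZMod.natCast_eq_natCast_iff' p 1 r).1 h2
    rwa [Nat.mod_eq_of_lt hr.one_lt] at h3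
  refine ⟨?_, hne⟩
  have hpow : (p : ZMod r) ^ q = 1 := by
    have := geom_sum_mul (p : ZMod r) q
    rw [h0, zero_mul] at this
    exact (sub_eq_zero.1 this.symm)
  have hord : orderOf (p : ZMod r) = q := by
    haveI := Fact.mk hq
    exact orderOf_eq_prime hpow hne
  have hne0 : (p : ZMod r) ≠ 0 := by
    intro hz
    rw [hz, zero_pow hq.ne_zero] at hpow
    exact zero_ne_one hpow
  have hd : q ∣ r - 1 := hord ▸ ZMod.orderOf_dvd_card_sub_one hne0
  obtain ⟨k, hk⟩ := hd
  have h2 := hr.two_le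
  have hrk : r = q * k + 1 := by omega
  rw [hrk, Nat.mul_add_mod, Nat.mod_eq_of_lt hq.one_lt]

/-- Let p and q be odd primes and N = (p ^ q − 1) / (p − 1) = 1 + p + ⋯ + p^(q−1). Then N is odd; if p ≡ 1 (mod q) then q ∣ N; and if p is not ≡ 1 (mod q) then N is coprime to p − 1 and every divisor of N is ≡ 1 (mod q). -/
theorem result (p q : ℕ) (hp : p.Prime) (hq : q.Prime) (hp2 : p ≠ 2) (hq2 : q ≠ 2) : Odd ((p ^ q - 1) / (p - 1)) ∧ (p % q = 1 → q ∣ (p ^ q - 1) / (p - 1)) ∧ (p % q ≠ 1 → Nat.Coprime ((p ^ q - 1) / (p - 1)) (p - 1) ∧ ∀ x : ℕ, x ∣ (p ^ q - 1) / (p - 1) → x % q = 1) := by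
  rw [aux_geom_eq p q hp.two_le]
  refine ⟨?_, ?_, ?_⟩
  · have hpo : Odd p := hp.odd_of_ne_two hp2
    have hqo : Odd q := hq.odd_of_ne_two hq2
    have h1 : ((p : ℕ) : ZMod 2) = 1 := (ZMod.natCast_eq_one_iff_odd).2 hpo
    rw [← ZMod.natCast_eq_one_iff_odd]
    push_cast
    simp only [h1, one_pow, Finset.sum_const, Finset.card_range, nsmul_eq_mul, mul_one]
    exact (ZMod.natCast_eq_one_iff_odd).2 hqo
  · intro h1
    rw [Nat.dvd_iff_mod_eq_zero, Finset.sum_nat_mod]
    have : ∀ i ∈ Finset.range q, p ^ i % q = 1 := by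
      intro i _
      rw [Nat.pow_mod, h1, one_pow, Nat.mod_eq_of_lt hq.one_lt]
    rw [Finset.sum_congr rfl this]
    simp
  · intro hne
    refine ⟨?_, ?_⟩
    · refine Nat.coprime_of_dvd fun r hr hrN hrp => ?_
      apply (aux_prime_dvd p q r hr hq hrN hne).2
      have h2 : ((p - 1 : ℕ) : ZMod r) = 0 := (ZMod.natCast_eq_zero_iff _ r).2 hrp
      rw [Nat.cast_sub hp.one_le, Nat.cast_one, sub_eq_zero] at h2
      exact h2
    · intro x
      induction x using Nat.strong_induction_on with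
      | _ x ih =>
        intro hx
        rcases Nat.lt_or_ge x 2 with hlt | hge
        · interval_cases x
          · have h0 := Nat.eq_zero_of_zero_dvd hx
            have hpos : 0 < ∑ i ∈ Finset.range q, p ^ i :=
              Finset.sum_pos (fun i _ => pow_pos hp.pos i) (Finset.nonempty_range_iff.2 hq.ne_zero)
            omega
          · exact Nat.mod_eq_of_lt hq.one_lt
        · obtain ⟨r, hr, hrx⟩ := Nat.exists_prime_and_dvd (show x ≠ 1 by omega)
          obtain ⟨y, rfl⟩ := hrx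
          have hy0 : y ≠ 0 := by rintro rfl; simp at hge
          have hylt : y < r * y := by
            have := hr.two_le
            nlinarith [Nat.pos_of_ne_zero hy0]
          have hy := ih y hylt (dvd_trans (dvd_mul_left y r) hx)
          have hr1 := (aux_prime_dvd p q r hr hq (dvd_trans (dvd_mul_right r y) hx) hne).1
          rw [Nat.mul_mod, hy, hr1, mul_one, Nat.mod_eq_of_lt hq.one_lt]

end Cfsg.Agent.S1546
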