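import Cfsg.Statements.S1562
import Cfsg.Agent.M24Geo.Small

set_option autoImplicit false
open scoped Pointwise
open Cfsg

namespace Cfsg.Agent.S1562

/-- Orbits of a triad stabiliser on the triads disjoint from it: the 210 triads inside a common octad with it form one orbit and the remaining 1120 another. -/
theorem result (T : Finset Cfsg.GolayPt) (hT : T.card = 3) : {U : Finset Cfsg.GolayPt | U.card = 3 ∧ Disjoint T U ∧ (∃ o ∈ Cfsg.octads, T ∪ U ⊆ o)}.ncard = 210 ∧ {U : Finset Cfsg.GolayPt | U.card = 3 ∧ Disjoint T U ∧ ¬ (∃ o ∈ Cfsg.octads, T ∪ U ⊆ o)}.ncard = 1120 ∧ ∀ U U' : Finset Cfsg.GolayPt, U.card = 3 → U'.card = 3 → Disjoint T U → Disjoint T U' → ((∃ o ∈ Cfsg.octads, T ∪ U ⊆ o) ↔ (∃ o ∈ Cfsg.octads, T ∪ U' ⊆ o)) → ∃ g : Equiv.Perm Cfsg.GolayPt, g ∈ Cfsg.M24 ∧ g • T = T ∧ g • U = U' := by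
  obtain ⟨-, -, -, h1, h0, -⟩ := Cfsg.Agent.M24Geo.triadCnt_values
  refine ⟨?_, ?_, ?_⟩
  · refine Eq.trans ?_ ((Cfsg.Agent.M24Geo.triadFamily.count hT 1).trans h1)
    congr 1
    ext U
    exact and_congr_right fun _ =>
      ⟨fun h => (Cfsg.Agent.M24Geo.triadRel_disjoint h.1).1.mpr h.2,
        fun h => ⟨Cfsg.Agent.M24Geo.disjoint_of_triadRel_le h.le,
          (Cfsg.Agent.M24Geo.triadRel_disjoint (Cfsg.Agent.M24Geo.disjoint_of_triadRel_le h.le)).1.mp h⟩⟩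
  · refine Eq.trans ?_ ((Cfsg.Agent.M24Geo.triadFamily.count hT 0).trans h0)
    congr 1
    ext U
    exact and_congr_right fun _ =>
      ⟨fun h => (Cfsg.Agent.M24Geo.triadRel_disjoint h.1).2.mpr h.2,
        fun h => ⟨Cfsg.Agent.M24Geo.disjoint_of_triadRel_le (h.trans_le zero_le_one),
          (Cfsg.Agent.M24Geo.triadRel_disjoint
            (Cfsg.Agent.M24Geo.disjoint_of_triadRel_le (h.trans_le zero_le_one))).2.mp h⟩⟩
  · intro U U' hU hU' hd hd' hiff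
    refine Cfsg.Agent.M24Geo.triadFamily.stab_trans hT hU hU' ?_
    show Cfsg.Agent.M24Geo.triadRel T U = Cfsg.Agent.M24Geo.triadRel T U'
    by_cases h : ∃ o ∈ Cfsg.octads, T ∪ U ⊆ o
    · rw [(Cfsg.Agent.M24Geo.triadRel_disjoint hd).1.mpr h,
        (Cfsg.Agent.M24Geo.triadRel_disjoint hd').1.mpr (hiff.mp h)]
    · rw [(Cfsg.Agent.M24Geo.triadRel_disjoint hd).2.mpr h,
        (Cfsg.Agent.M24Geo.triadRel_disjoint hd').2.mpr (fun h' => h (hiff.mpr h'))]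

end Cfsg.Agent.S1562
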