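import Cfsg.Statements.S1564
import Cfsg.Agent.M24Geo.Small

set_option autoImplicit false
open scoped Pointwise
open Cfsg

namespace Cfsg.Agent.S1564

/-- The stabiliser of a set of three points (setwise) is a maximal proper subgroup of the group of the length-24 code. -/
theorem result (s : Finset Cfsg.GolayPt) (hs : s.card = 3) : IsCoatom (MulAction.stabilizer Cfsg.M24 s) :=
  Cfsg.Agent.M24Geo.triad_stab_isCoatom hs

end Cfsg.Agent.S1564
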