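import Cfsg.Statements.S1566
import Cfsg.Agent.M24Geo.Dodecad

set_option autoImplicit false
open scoped Pointwise
open Cfsg

namespace Cfsg.Agent.S1566

/-- The setwise stabiliser of a dodecad together with its complement is a maximal proper subgroup of the group of the length-24 code. -/
theorem result (d : Finset Cfsg.GolayPt) (hd : d ∈ Cfsg.dodecads) : IsCoatom (MulAction.stabilizer Cfsg.M24 ({d, dᶜ} : Finset (Finset Cfsg.GolayPt))) :=
  Cfsg.Agent.M24Geo.dodecad_pair_stab_isCoatom hd

end Cfsg.Agent.S1566
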