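import Cfsg.Statements.S1567
import Cfsg.Agent.Leech.Span

set_option autoImplicit false
open Cfsg

namespace Cfsg.Agent.S1567

/-- The rank-24 lattice is the additive subgroup generated by its 196560 minimal vectors. -/
theorem result : AddSubgroup.closure {x : Cfsg.GolayPt → ℤ | x ∈ Cfsg.leechLattice ∧ Cfsg.sqNorm x = 32} = Cfsg.leechLattice := by
  refine le_antisymm ((AddSubgroup.closure_le _).mpr fun x hx => hx.1)
    (Cfsg.Agent.Leech.leechLattice_le_of_gens ?_)
  set K := AddSubgroup.closure {x : Cfsg.GolayPt → ℤ | x ∈ Cfsg.leechLattice ∧ Cfsg.sqNorm x = 32}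
  have hmin : ∀ x : Cfsg.GolayPt → ℤ, Cfsg.Agent.Leech.inLeechB x = true →
      Cfsg.sqNorm x = 32 → x ∈ K :=
    fun x h1 h2 => AddSubgroup.subset_closure ⟨Cfsg.Agent.Leech.mem_of_inLeechB h1, h2⟩
  have hplus : (4 : ℤ) • (Cfsg.Agent.Leech.unitVec none +
      Cfsg.Agent.Leech.unitVec (Cfsg.Agent.Golay.ptOf 0)) ∈ K :=
    hmin _ (by decide +kernel) (by decide +kernel)
  have hminus : (4 : ℤ) • (Cfsg.Agent.Leech.unitVec none -
      Cfsg.Agent.Leech.unitVec (Cfsg.Agent.Golay.ptOf 0)) ∈ K :=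
    hmin _ (by decide +kernel) (by decide +kernel)
  intro g hg
  simp only [Cfsg.Agent.Leech.genVecs, List.mem_append, List.mem_map, List.mem_cons,
    List.not_mem_nil, or_false] at hg
  rcases hg with (⟨r, hr, rfl⟩ | ⟨j, hj, rfl⟩) | rfl | rfl
  · have h : (Cfsg.Agent.Golay.rows.all fun r =>
        Cfsg.Agent.Leech.inLeechB ((2 : ℤ) • Cfsg.Agent.Leech.maskVec r) &&
          decide (Cfsg.sqNorm ((2 : ℤ) • Cfsg.Agent.Leech.maskVec r) = 32)) = true := by
      decide +kernel
    have h' := List.all_eq_true.mp h r hr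
    simp only [Bool.and_eq_true, decide_eq_true_eq] at h'
    exact hmin _ h'.1 h'.2
  · have h : ((List.range 23).all fun j =>
        Cfsg.Agent.Leech.inLeechB ((4 : ℤ) • (Cfsg.Agent.Leech.unitVec none +
            Cfsg.Agent.Leech.unitVec (Cfsg.Agent.Golay.ptOf j))) &&
          decide (Cfsg.sqNorm ((4 : ℤ) • (Cfsg.Agent.Leech.unitVec none +
            Cfsg.Agent.Leech.unitVec (Cfsg.Agent.Golay.ptOf j))) = 32)) = true := by
      decide +kernel
    have h' := List.all_eq_true.mp h j hj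
    simp only [Bool.and_eq_true, decide_eq_true_eq] at h'
    exact hmin _ h'.1 h'.2
  · convert add_mem hplus hminus using 1
    rw [← smul_add]
    funext p
    simp only [Pi.smul_apply, Pi.add_apply, Pi.sub_apply, smul_eq_mul]
    ring
  · have h3 : Cfsg.Spor.vecV + (4 : ℤ) • (Cfsg.Agent.Leech.unitVec none +
        Cfsg.Agent.Leech.unitVec (Cfsg.Agent.Golay.ptOf 0)) ∈ K :=
      hmin _ (by decide +kernel) (by decide +kernel)
    simpa using sub_mem h3 hplus

end Cfsg.Agent.S1567
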