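import Cfsg.Statements.S1579
import Cfsg.Agent.Leech.Orbit552
-- import your own Cfsg.Agent.* helpers here

set_option autoImplicit false
open Cfsg

namespace Cfsg.Agent.S1579

/-- The stabiliser of a vector of customary norm 6 is transitive on the 552 minimal vectors that complete it to a sum of two minimal vectors. -/
theorem result (u v v' : ↥Cfsg.leechLattice) (hu : Cfsg.sqNorm (u : Cfsg.GolayPt → ℤ) = 48) (hv : Cfsg.sqNorm (v : Cfsg.GolayPt → ℤ) = 32 ∧ Cfsg.sqNorm ((u - v) : Cfsg.GolayPt → ℤ) = 32) (hv' : Cfsg.sqNorm (v' : Cfsg.GolayPt → ℤ) = 32 ∧ Cfsg.sqNorm ((u - v') : Cfsg.GolayPt → ℤ) = 32) : ∃ g : ↥Cfsg.Co0, g • u = u ∧ g • v = v' := by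
  obtain ⟨g, hg, hgv⟩ :=
    Leech.exists_to_552 hu hv.1 ((Leech.summand_iff hu).mp hv).2
  obtain ⟨h, hh, hhv⟩ := Leech.exists_to_552 hu hv'.1 ((Leech.summand_iff hu).mp hv').2
  refine ⟨h⁻¹ * g, ?_, ?_⟩
  · rw [mul_smul, hg, inv_smul_eq_iff, hh]
  · rw [mul_smul, hgv, inv_smul_eq_iff, hhv]

end Cfsg.Agent.S1579
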