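import Cfsg.Statements.S1580
import Cfsg.Agent.Leech.Orbit275
-- import your own Cfsg.Agent.* helpers here

set_option autoImplicit false
open Cfsg

namespace Cfsg.Agent.S1580

/-- The McLaughlin configuration: for u of customary norm 6 and v minimal with u − v minimal, there are 275 further such summands x of customary inner product 2 with v, permuted transitively by the stabiliser of u and v. -/
theorem result (u v : ↥Cfsg.leechLattice) (hu : Cfsg.sqNorm (u : Cfsg.GolayPt → ℤ) = 48) (hv : Cfsg.sqNorm (v : Cfsg.GolayPt → ℤ) = 32 ∧ Cfsg.sqNorm ((u - v) : Cfsg.GolayPt → ℤ) = 32) : {x : ↥Cfsg.leechLattice | Cfsg.sqNorm (x : Cfsg.GolayPt → ℤ) = 32 ∧ Cfsg.sqNorm ((u - x) : Cfsg.GolayPt → ℤ) = 32 ∧ Cfsg.dotInt (v : Cfsg.GolayPt → ℤ) (x : Cfsg.GolayPt → ℤ) = 16}.ncard = 275 ∧ ∀ x ∈ {x : ↥Cfsg.leechLattice | Cfsg.sqNorm (x : Cfsg.GolayPt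 → ℤ) = 32 ∧ Cfsg.sqNorm ((u - x) : Cfsg.GolayPt → ℤ) = 32 ∧ Cfsg.dotInt (v : Cfsg.GolayPt → ℤ) (x : Cfsg.GolayPt → ℤ) = 16}, ∀ x' ∈ {x : ↥Cfsg.leechLattice | Cfsg.sqNorm (x : Cfsg.GolayPt → ℤ) = 32 ∧ Cfsg.sqNorm ((u - x) : Cfsg.GolayPt → ℤ) = 32 ∧ Cfsg.dotInt (v : Cfsg.GolayPt → ℤ) (x : Cfsg.GolayPt → ℤ) = 16}, ∃ g : ↥Cfsg.Co0, g • u = u ∧ g • v = v ∧ g • x = x' := by
  have hd := ((Leech.summand_iff hu).mp hv).2
  have e : ∀ x : ↥Cfsg.leechLattice, x ∈ {x : ↥Cfsg.leechLattice | Cfsg.sqNorm (x : Cfsg.GolayPt → ℤ) = 32 ∧ Cfsg.sqNorm ((u - x) : Cfsg.GolayPt → ℤ) = 32 ∧ Cfsg.dotInt (v : Cfsg.GolayPt → ℤ) (x : Cfsg.GolayPt → ℤ) = 16} ↔ x ∈ Leech.set275 u v := fun x => by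
    simp only [Set.mem_ofPred_eq, Leech.set275]
    rw [← and_assoc, ← and_assoc, Leech.summand_iff hu]
  refine ⟨?_, fun x hx x' hx' => ?_⟩
  · rw [Set.ext e]; exact Leech.ncard_set275 hu hv.1 hd
  obtain ⟨g, hg, hgv, hgx⟩ := Leech.exists_to_275 hu hv.1 hd ((e x).mp hx)
  obtain ⟨h, hh, hhv, hhx⟩ := Leech.exists_to_275 hu hv.1 hd ((e x').mp hx')
  refine ⟨h⁻¹ * g, ?_, ?_, ?_⟩
  · rw [mul_smul, hg, inv_smul_eq_iff, hh]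
  · rw [mul_smul, hgv, inv_smul_eq_iff, hhv]
  · rw [mul_smul, hgx, inv_smul_eq_iff, hhx]

end Cfsg.Agent.S1580
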