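import Cfsg.Agent.Sporadic.OctadSub
-- import your own Cfsg.Agent.* helpers here

set_option autoImplicit false
open scoped Pointwise
open Cfsg

namespace Cfsg.Agent.S1604

/-- A hexad stabiliser in the two-point stabiliser has orbits of sizes 1, 16, 60 on the 77 hexads: the 16 hexads disjoint from it and the 60 meeting it in two points. -/
theorem result (p q : Cfsg.GolayPt) (hpq : p ≠ q) (o o' o'' : Finset Cfsg.GolayPt) (ho : o ∈ Cfsg.octads) (ho' : o' ∈ Cfsg.octads) (ho'' : o'' ∈ Cfsg.octads) (hp : p ∈ o ∧ p ∈ o' ∧ p ∈ o'') (hq : q ∈ o ∧ q ∈ o' ∧ q ∈ o'') (h : (o ∩ o').card = (o ∩ o'').card) : {x : Finset Cfsg.GolayPt | x ∈ Cfsg.octads ∧ p ∈ x ∧ q ∈ x ∧ (o ∩ x).card = 2}.ncard = 16 ∧ {x : Finset Cfsg.GolayPt | x ∈ Cfsg.octads ∧ p ∈ x ∧ q ∈ x ∧ (o ∩ x).card = 4}.ncard = 60 ∧ ∃ g : Equiv.Perm Cfsg.GolayPt, g ∈ Cfsg.M24 ∧ g p = p ∧ g q = q ∧ g •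 o = o ∧ g • o' = o'' := by
  obtain ⟨g, hg, hgo, hgp, hgq⟩ := Cfsg.Agent.OctadSub.exists_two_in ho hp.1 hq.1 hpq
  have hlt : ∀ e ∈ [((0 : ℕ), true), (1, true)], e.1 < 24 := by simp
  have M : ∀ x : Finset Cfsg.GolayPt,
      Cfsg.Agent.OctadSub.Meets [((0 : ℕ), true), (1, true)] g x ↔ p ∈ x ∧ q ∈ x := fun x => by
    simp [Cfsg.Agent.OctadSub.Meets, hgp, hgq]
  have cnt := Cfsg.Agent.OctadSub.cert_twoIn.count hlt hg
  simp only [hgo, M, and_assoc] at cnt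
  refine ⟨(cnt 2).trans Cfsg.Agent.OctadSub.counts.1.1, (cnt 4).trans Cfsg.Agent.OctadSub.counts.1.2, ?_⟩
  obtain ⟨k, hk, hfix, hkO, hko⟩ := Cfsg.Agent.OctadSub.cert_twoIn.trans hg hlt ho'
    ((M o').2 ⟨hp.2.1, hq.2.1⟩) ho'' ((M o'').2 ⟨hp.2.2, hq.2.2⟩) (by rw [hgo]; exact h)
  have h0 := hfix (0, true) (by simp)
  have h1 := hfix (1, true) (by simp)
  rw [hgp] at h0
  rw [hgq] at h1
  rw [hgo] at hkO
  exact ⟨k, hk, h0, h1, hkO, hko⟩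

end Cfsg.Agent.S1604
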