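import Cfsg.Agent.Sporadic.OctadSub
-- import your own Cfsg.Agent.* helpers here

set_option autoImplicit false
open scoped Pointwise
open Cfsg

namespace Cfsg.Agent.S1605

/-- The two-point stabiliser acts on the 176 octads through the first point avoiding the second with rank 3 and subdegrees 1, 70, 105 (intersections 8, 2, 4). -/
theorem result (p q : Cfsg.GolayPt) (hpq : p ≠ q) : {x : Finset Cfsg.GolayPt | (x ∈ Cfsg.octads ∧ p ∈ x ∧ q ∉ x)}.ncard = 176 ∧ (∀ o o' : Finset Cfsg.GolayPt, (o ∈ Cfsg.octads ∧ p ∈ o ∧ q ∉ o) → (o' ∈ Cfsg.octads ∧ p ∈ o' ∧ q ∉ o') → ∃ g : Equiv.Perm Cfsg.GolayPt, g ∈ Cfsg.M24 ∧ g p = p ∧ g q = q ∧ g • o = o') ∧ ∀ o : Finset Cfsg.GolayPt, (o ∈ Cfsg.octads ∧ p ∈ o ∧ q ∉ o) → {x : Finset Cfsg.GolayPt | (x ∈ Cfsg.octads ∧ p ∈ x ∧ q ∉ x) ∧ (o ∩ x).card = 2}.ncard = 70 ∧ {x : Finset Cfsg.GolayPt | (x ∈ Cfsg.octads ∧ p ∈ x ∧ q ∉ x) ∧ (o ∩ x).card = 4}.ncard = 105 ∧ ∀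 o' o'' : Finset Cfsg.GolayPt, (o' ∈ Cfsg.octads ∧ p ∈ o' ∧ q ∉ o') → (o'' ∈ Cfsg.octads ∧ p ∈ o'' ∧ q ∉ o'') → (o ∩ o').card = (o ∩ o'').card → ∃ g : Equiv.Perm Cfsg.GolayPt, g ∈ Cfsg.M24 ∧ g p = p ∧ g q = q ∧ g • o = o ∧ g • o' = o'' := by
  have hlt : ∀ e ∈ [((0 : ℕ), true), (Cfsg.Agent.OctadSub.outPos, false)], e.1 < 24 := by
    simp [Cfsg.Agent.OctadSub.outPos]
  have M : ∀ (g : Equiv.Perm Cfsg.GolayPt), g (Cfsg.Agent.M24Geo.pt 0) = p →
      g (Cfsg.Agent.M24Geo.pt Cfsg.Agent.OctadSub.outPos) = q → ∀ x : Finset Cfsg.GolayPt,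
      Cfsg.Agent.OctadSub.Meets [((0 : ℕ), true), (Cfsg.Agent.OctadSub.outPos, false)] g x ↔
        p ∈ x ∧ q ∉ x := fun g h1 h2 x => by simp [Cfsg.Agent.OctadSub.Meets, h1, h2]
  have base : ∀ o : Finset Cfsg.GolayPt, (o ∈ Cfsg.octads ∧ p ∈ o ∧ q ∉ o) →
      ∃ g ∈ Cfsg.M24, g • Cfsg.Agent.M24Geo.ofMask Cfsg.Agent.M24Geo.octad0 = o ∧
        g (Cfsg.Agent.M24Geo.pt 0) = p ∧
        g (Cfsg.Agent.M24Geo.pt Cfsg.Agent.OctadSub.outPos) = q :=
    fun o h => Cfsg.Agent.OctadSub.exists_in_out h.1 h.2.1 h.2.2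
  refine ⟨?_, ?_, ?_⟩
  · obtain ⟨g, hg, hgp⟩ : ∃ g ∈ Cfsg.M24, g (Cfsg.Agent.M24Geo.pt 0) = p ∧
        g (Cfsg.Agent.M24Geo.pt Cfsg.Agent.OctadSub.outPos) = q := by
      obtain ⟨g, hg, hga⟩ := Cfsg.Agent.M24Geo.trans_tuple 2 (by norm_num)
        (fun i => if i = 0 then p else q) (by
          intro i hi j hj h
          interval_cases i <;> interval_cases j <;> simp_all)
      obtain ⟨h, hh, hha⟩ := Cfsg.Agent.M24Geo.trans_tuple 2 (by norm_num)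
        (fun i => Cfsg.Agent.M24Geo.pt (if i = 0 then 0 else Cfsg.Agent.OctadSub.outPos)) (by
          intro i hi j hj h
          interval_cases i <;> interval_cases j <;> revert h <;>
            decide +kernel)
      refine ⟨g * h⁻¹, mul_mem hg (inv_mem hh), ?_, ?_⟩
      · have e := hha 0 (by norm_num)
        simp only [if_true] at e
        rw [Equiv.Perm.mul_apply, ← e, Equiv.Perm.coe_inv, Equiv.symm_apply_apply,
          hga 0 (by norm_num)]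
        simp
      · have e := hha 1 (by norm_num)
        simp only [one_ne_zero, if_false] at e
        rw [Equiv.Perm.mul_apply, ← e, Equiv.Perm.coe_inv, Equiv.symm_apply_apply,
          hga 1 (by norm_num)]
        simp
    have h := Cfsg.Agent.OctadSub.cert_inOut.count_all hlt hg
    simp only [M g hgp.1 hgp.2] at h
    exact h.trans Cfsg.Agent.OctadSub.counts.2.2.2.2
  · intro o o' ho ho'
    obtain ⟨g, hg, hgo, hgp, hgq⟩ := base o ho
    obtain ⟨g', hg', hgo', hgp', hgq'⟩ := base o' ho'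
    refine ⟨g' * g⁻¹, mul_mem hg' (inv_mem hg), ?_, ?_, ?_⟩
    · conv_lhs => rw [← hgp]
      rw [Equiv.Perm.mul_apply, Equiv.Perm.coe_inv, Equiv.symm_apply_apply, hgp']
    · conv_lhs => rw [← hgq]
      rw [Equiv.Perm.mul_apply, Equiv.Perm.coe_inv, Equiv.symm_apply_apply, hgq']
    · rw [← hgo, mul_smul, inv_smul_smul, hgo']
  · intro o ho
    obtain ⟨g, hg, hgo, hgp, hgq⟩ := base o ho
    have cnt := Cfsg.Agent.OctadSub.cert_inOut.count hlt hg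
    simp only [hgo, M g hgp hgq] at cnt
    refine ⟨?_, ?_, fun o' o'' h' h'' h => ?_⟩
    · rw [← Cfsg.Agent.OctadSub.counts.2.2.2.1.1, ← cnt 2]
      congr 1
      ext x
      simp only [Set.mem_ofPred_eq, and_assoc]
    · rw [← Cfsg.Agent.OctadSub.counts.2.2.2.1.2, ← cnt 4]
      congr 1
      ext x
      simp only [Set.mem_ofPred_eq, and_assoc]
    · obtain ⟨k, hk, hfix, hkO, hko⟩ := Cfsg.Agent.OctadSub.cert_inOut.trans hg hlt h'.1
        ((M g hgp hgq o').2 h'.2) h''.1 ((M g hgp hgq o'').2 h''.2) (by rw [hgo]; exact h)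
      have h0 := hfix (0, true) (by simp)
      have h1 := hfix (Cfsg.Agent.OctadSub.outPos, false) (by simp)
      rw [hgp] at h0
      rw [hgq] at h1
      rw [hgo] at hkO
      exact ⟨k, hk, h0, h1, hkO, hko⟩

end Cfsg.Agent.S1605
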