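import Cfsg.Agent.Sporadic.OctadSub
-- import your own Cfsg.Agent.* helpers here

set_option autoImplicit false
open scoped Pointwise
open Cfsg

namespace Cfsg.Agent.S1607

/-- The point stabiliser acts on the 253 heptads of its S(4, 7, 23) with rank 3 and subdegrees 1, 112, 140 (intersections 8, 2, 4). -/
theorem result (x : Cfsg.GolayPt) (o : Finset Cfsg.GolayPt) (ho : o ∈ Cfsg.octads) (hx : x ∈ o) : {o' : Finset Cfsg.GolayPt | o' ∈ Cfsg.octads ∧ x ∈ o' ∧ (o ∩ o').card = 2}.ncard = 112 ∧ {o' : Finset Cfsg.GolayPt | o' ∈ Cfsg.octads ∧ x ∈ o' ∧ (o ∩ o').card = 4}.ncard = 140 ∧ ∀ o' o'' : Finset Cfsg.GolayPt, o' ∈ Cfsg.octads → o'' ∈ Cfsg.octads → x ∈ o' → x ∈ o'' → (o ∩ o').card = (o ∩ o'').card → ∃ g : Equiv.Perm Cfsg.GolayPt, g ∈ Cfsg.M24 ∧ g x = x ∧ g • o = o ∧ g • o' = o'' := by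
  obtain ⟨g, hg, hgo, hgp⟩ := Cfsg.Agent.OctadSub.exists_one_in ho hx
  have hlt : ∀ e ∈ [((0 : ℕ), true)], e.1 < 24 := by simp
  have M : ∀ y : Finset Cfsg.GolayPt, Cfsg.Agent.OctadSub.Meets [((0 : ℕ), true)] g y ↔ x ∈ y :=
    fun y => by simp [Cfsg.Agent.OctadSub.Meets, hgp]
  have cnt := Cfsg.Agent.OctadSub.cert_oneIn.count hlt hg
  simp only [hgo, M] at cnt
  refine ⟨(cnt 2).trans Cfsg.Agent.OctadSub.counts.2.1.1,
    (cnt 4).trans Cfsg.Agent.OctadSub.counts.2.1.2, fun o' o'' ho' ho'' hx' hx'' h => ?_⟩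
  obtain ⟨k, hk, hfix, hkO, hko⟩ := Cfsg.Agent.OctadSub.cert_oneIn.trans hg hlt ho'
    ((M o').2 hx') ho'' ((M o'').2 hx'') (by rw [hgo]; exact h)
  have h0 := hfix (0, true) (by simp)
  rw [hgp] at h0
  rw [hgo] at hkO
  exact ⟨k, hk, h0, hkO, hko⟩

end Cfsg.Agent.S1607
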