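import Cfsg.Agent.Sporadic.OctadSub
-- import your own Cfsg.Agent.* helpers here

set_option autoImplicit false
open scoped Pointwise
open Cfsg

namespace Cfsg.Agent.S1608

/-- The point stabiliser acts on the 506 octads avoiding the point with rank 4 and subdegrees 1, 15, 210, 280, the suborbits being given by intersection size with the fixed octad. -/
theorem result (x : Cfsg.GolayPt) (o : Finset Cfsg.GolayPt) (ho : o ∈ Cfsg.octads) (hx : x ∉ o) : {o' : Finset Cfsg.GolayPt | o' ∈ Cfsg.octads ∧ x ∉ o' ∧ (o ∩ o').card = 0}.ncard = 15 ∧ {o' : Finset Cfsg.GolayPt | o' ∈ Cfsg.octads ∧ x ∉ o' ∧ (o ∩ o').card = 4}.ncard = 210 ∧ {o' : Finset Cfsg.GolayPt | o' ∈ Cfsg.octads ∧ x ∉ o' ∧ (o ∩ o').card = 2}.ncard = 280 ∧ ∀ o' o'' : Finset Cfsg.GolayPt, o' ∈ Cfsg.octads → o'' ∈ Cfsg.octads → x ∉ o' → x ∉ o'' → (o ∩ o').card = (o ∩ o'').card → ∃ g : Equiv.Perm Cfsg.GolayPt, g ∈ Cfsg.M24 ∧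 g x = x ∧ g • o = o ∧ g • o' = o'' := by
  obtain ⟨g, hg, hgo, hgx⟩ := Cfsg.Agent.OctadSub.exists_one_out ho hx
  have hlt : ∀ e ∈ [(Cfsg.Agent.OctadSub.outPos, false)], e.1 < 24 := by
    simp [Cfsg.Agent.OctadSub.outPos]
  have M : ∀ y : Finset Cfsg.GolayPt,
      Cfsg.Agent.OctadSub.Meets [(Cfsg.Agent.OctadSub.outPos, false)] g y ↔ x ∉ y :=
    fun y => by simp [Cfsg.Agent.OctadSub.Meets, hgx]
  have cnt := Cfsg.Agent.OctadSub.cert_oneOut.count hlt hg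
  simp only [hgo, M] at cnt
  refine ⟨(cnt 0).trans Cfsg.Agent.OctadSub.counts.2.2.1.1,
    (cnt 4).trans Cfsg.Agent.OctadSub.counts.2.2.1.2.1,
    (cnt 2).trans Cfsg.Agent.OctadSub.counts.2.2.1.2.2, fun o' o'' ho' ho'' hx' hx'' h => ?_⟩
  obtain ⟨k, hk, hfix, hkO, hko⟩ := Cfsg.Agent.OctadSub.cert_oneOut.trans hg hlt ho'
    ((M o').2 hx') ho'' ((M o'').2 hx'') (by rw [hgo]; exact h)
  have h0 := hfix (Cfsg.Agent.OctadSub.outPos, false) (by simp)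
  rw [hgx] at h0
  rw [hgo] at hkO
  exact ⟨k, hk, h0, hkO, hko⟩

end Cfsg.Agent.S1608
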