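import Cfsg.Statements.S1626
import Cfsg.Agent.J3Line.Orbit

set_option autoImplicit false
open scoped MatrixGroups
open Matrix
open Cfsg

namespace Cfsg.Agent.S1626

/-- Orbits of the triple cover of the third Janko group on lines of its 9-space over the field with 4 elements: the line through the first basis vector has exactly 23256 images, and the isotropic lines (nonzero v with Σ v_z³ = 0) form a single orbit. -/
theorem result (F : Type) [Field F] [Fintype F] (hF : Fintype.card F = 4) (ω : F) (hω : ω ^ 2 + ω + 1 = 0) : {L : Submodule F (Cfsg.Spor.F9 → F) | ∃ g ∈ Cfsg.Spor.threeJ3 F ω, L = F ∙ ((g : Matrix Cfsg.Spor.F9 Cfsg.Spor.F9 F) *ᵥ (Pi.single (0 : Cfsg.Spor.F9) (1 : F) : Cfsg.Spor.F9 → F))}.ncard = 23256 ∧ ∀ v w : Cfsg.Spor.F9 → F, v ≠ 0 → w ≠ 0 → ∑ z, (v z) ^ 3 = 0 → ∑ z, (w z) ^ 3 = 0 → ∃ g ∈ Cfsg.Spor.threeJ3 F ω, ∃ c : F, c ≠ 0 ∧ (g : Matrix Cfsg.Spor.F9 Cfsg.Spor.F9 F) *ᵥ v = c • w := by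
  haveI := SporB.J3.charP_two_of_card hF
  rw [SporB.J3.threeJ3_eq ω hω]
  set e0 : Spor.F9 → F := Pi.single (0 : Spor.F9) (1 : F) with he0
  have hb : J3Line.toV ω 1 = e0 := by
    funext i
    have h : ∀ i : Spor.F9, Nat.testBit 1 (SporB.J3.ix i) = decide (i = 0) ∧
        Nat.testBit 1 (9 + SporB.J3.ix i) = false := by decide +kernel
    rw [he0, J3Line.toV, (h i).1, (h i).2, Pi.single_apply]
    by_cases hi : i = 0 <;> simp [SporB.J3.bitF, hi]
  set T := (Finset.range 262144).filter fun c ↦ J3Line.okN c = true ∧ J3Line.supPar c = 1 ∧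
    J3Line.digit c ≠ 0 with hT
  have hmem : ∀ c, c ∈ T ↔ (c < 262144 ∧ J3Line.okN c = true ∧ J3Line.supPar c = 1 ∧
      J3Line.digit c ≠ 0) := fun c ↦ by simp [hT]
  have hT1 : (1 : ℕ) ∈ T := (hmem 1).2 (by decide +kernel)
  refine ⟨?_, ?_⟩
  · have hset : {L : Submodule F (Spor.F9 → F) | ∃ g ∈ SporB.J3.GS ω,
        L = F ∙ ((g : Matrix Spor.F9 Spor.F9 F) *ᵥ e0)} =
        (fun c ↦ F ∙ J3Line.toV ω c) '' (T : Set ℕ) := by
      ext L
      constructor
      · rintro ⟨g, hg, rfl⟩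
        obtain ⟨d, hd, a, ha, e⟩ := J3Line.odd_orbit ω hω hg 1 ((hmem 1).1 hT1)
        refine ⟨d, (hmem d).2 hd, ?_⟩
        rw [← hb, e, Submodule.span_singleton_smul_eq (IsUnit.mk0 a ha)]
      · rintro ⟨c, hc, rfl⟩
        obtain ⟨h1, h2, h3, h4⟩ := (hmem c).1 hc
        have h := J3Line.descend ω hω _ c h1 h2 h4 rfl
        rw [h3, show J3Line.base 1 = 1 from rfl, hb] at h
        obtain ⟨g, hg, a, ha, e⟩ := h
        refine ⟨g, hg, ?_⟩
        rw [e, Submodule.span_singleton_smul_eq (IsUnit.mk0 a ha)]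
    have hinj : Set.InjOn (fun c ↦ F ∙ J3Line.toV ω c) (T : Set ℕ) := by
      intro c hc d hd h
      obtain ⟨c1, c2, -, -⟩ := (hmem c).1 hc
      obtain ⟨d1, d2, -, -⟩ := (hmem d).1 hd
      have hn := (J3Line.okN_iff ω hω c1).1 c2
      obtain ⟨a, ha⟩ := Submodule.mem_span_singleton.1
        ((SetLike.ext_iff.1 h (J3Line.toV ω c)).1 (Submodule.mem_span_singleton_self _))
      have ha0 : a ≠ 0 := fun h0 ↦ by
        obtain ⟨i, hi, -⟩ := hn
        rw [h0, zero_smul] at ha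
        rw [← ha] at hi
        simp at hi
      have := J3Line.normal_unique hn ((J3Line.okN_iff ω hω d1).1 d2) ha0 ha.symm
      rw [this, one_smul] at ha
      exact J3Line.toV_inj ω hω c1 d1 ha.symm
    rw [hset, hinj.ncard_image, Set.ncard_coe_finset, hT, ← J3Line.cnt_eq_card, J3Line.count_all]
  · have key : ∀ v : Spor.F9 → F, v ≠ 0 → ∑ z, v z ^ 3 = 0 →
        J3Line.Img ω (J3Line.toV ω 72) v := by
      intro v hv hs
      obtain ⟨a, ha, hn⟩ := J3Line.exists_normal hv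
      obtain ⟨c, hc, hcv⟩ := J3Line.exists_code ω hω hF (a • v)
      have hok : J3Line.okN c = true := (J3Line.okN_iff ω hω hc).2 (hcv ▸ hn)
      have hpar : J3Line.supPar c = 0 := by
        have h := J3Line.cubeSum ω hω hc
        rw [hcv] at h
        simp only [Pi.smul_apply, smul_eq_mul, mul_pow, ← Finset.mul_sum, hs, mul_zero] at h
        have hlt : J3Line.supPar c < 2 := Nat.mod_lt _ (by norm_num)
        interval_cases hp : J3Line.supPar c
        · rfl
        · simp at h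
      have hd : J3Line.digit c ≠ 0 := by
        intro h0
        have h := J3Line.pointB_of_lt hc
        simp [J3Line.pointB, hok, h0, hpar] at h
      have h := J3Line.descend ω hω _ c hc hok hd rfl
      rw [hpar, show J3Line.base 0 = 72 from rfl, hcv] at h
      exact h.trans ω (J3Line.img_of_smul ω ha rfl)
    intro v w hv hw hsv hsw
    obtain ⟨g, hg, c, hc, e⟩ := ((key v hv hsv).symm ω).trans ω (key w hw hsw)
    exact ⟨g, hg, c, hc, e⟩

end Cfsg.Agent.S1626
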