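import Cfsg.Statements.S1632
import Cfsg.Agent.Theta.LatticeTheta

set_option autoImplicit false
open Matrix
open Cfsg

namespace Cfsg.Agent.S1632

open ModularForm EisensteinSeries UpperHalfPlane MatrixGroups Theta ArithmeticFunction
open scoped ArithmeticFunction.sigma

/-- The target weight 12 form. -/
private noncomputable def target : ModularForm 𝒮ℒ 12 :=
  (7 / 12 : ℂ) • ModularForm.mcast (by decide) (E₄.pow 3) +
    (5 / 12 : ℂ) • ModularForm.mcast (by decide) (E₆.pow 2)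

private lemma target_qExpansion :
    qExpansion 1 target = (7 / 12 : ℂ) • (qExpansion 1 E₄ * qExpansion 1 E₄ * qExpansion 1 E₄) +
      (5 / 12 : ℂ) • (qExpansion 1 E₆ * qExpansion 1 E₆) := by
  rw [target, FunLike.coe_add, ModularForm.qExpansion_add one_pos one_mem_strictPeriods_SL,
    FunLike.coe_smul, ModularForm.qExpansion_smul one_pos one_mem_strictPeriods_SL,
    FunLike.coe_smul, ModularForm.qExpansion_smul one_pos one_mem_strictPeriods_SL]
  simp only [coe_mcast, ModularForm.qExpansion_pow one_pos one_mem_strictPeriods_SL]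
  ring_nf

private lemma e4_coeff :
    (qExpansion 1 E₄).coeff 0 = 1 ∧ (qExpansion 1 E₄).coeff 1 = 240 ∧
    (qExpansion 1 E₄).coeff 2 = 2160 ∧ (qExpansion 1 E₄).coeff 3 = 6720 ∧
    (qExpansion 1 E₄).coeff 4 = 17520 := by
  have hb : bernoulli 4 = -1 / 30 := by
    rw [bernoulli_eq_bernoulli'_of_ne_one (by decide), bernoulli'_four]
  have s1 : σ 3 1 = 1 := by decide
  have s2 : σ 3 2 = 9 := by decide
  have s3 : σ 3 3 = 28 := by decide
  have s4 : σ 3 4 = 73 := by decide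
  refine ⟨?_, ?_, ?_, ?_, ?_⟩ <;>
    simp [E_qExpansion_coeff _ (show Even 4 by decide), hb, s1, s2, s3, s4] <;> norm_num

private lemma e6_coeff :
    (qExpansion 1 E₆).coeff 0 = 1 ∧ (qExpansion 1 E₆).coeff 1 = -504 ∧
    (qExpansion 1 E₆).coeff 2 = -16632 ∧ (qExpansion 1 E₆).coeff 3 = -122976 ∧
    (qExpansion 1 E₆).coeff 4 = -532728 := by
  have hb : bernoulli 6 = 1 / 42 := by
    rw [bernoulli_eq_bernoulli'_of_ne_one (by decide), bernoulli'_def]
    norm_num [Finset.sum_range_succ, Nat.choose, bernoulli'_eq_zero_of_odd (show Odd 5 by decide) (by decide)]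
  have s1 : σ 5 1 = 1 := by decide
  have s2 : σ 5 2 = 33 := by decide
  have s3 : σ 5 3 = 244 := by decide
  have s4 : σ 5 4 = 1057 := by decide
  refine ⟨?_, ?_, ?_, ?_, ?_⟩ <;>
    simp [E_qExpansion_coeff _ (show Even 6 by decide), hb, s1, s2, s3, s4] <;> norm_num

private lemma target_coeff :
    (qExpansion 1 target).coeff 0 = 1 ∧ (qExpansion 1 target).coeff 1 = 0 ∧
    (qExpansion 1 target).coeff 2 = 196560 ∧ (qExpansion 1 target).coeff 3 = 16773120 ∧
    (qExpansion 1 target).coeff 4 = 398034000 := by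
  obtain ⟨a0, a1, a2, a3, a4⟩ := e4_coeff
  obtain ⟨b0, b1, b2, b3, b4⟩ := e6_coeff
  refine ⟨?_, ?_, ?_, ?_, ?_⟩ <;>
    norm_num [target_qExpansion, map_add, PowerSeries.coeff_smul, PowerSeries.coeff_mul,
      -PowerSeries.coeff_zero_eq_constantCoeff, Finset.Nat.antidiagonal_succ, a0, a1, a2, a3, a4,
      b0, b1, b2, b3, b4]


/-- An even unimodular lattice of rank 24 without roots has 196560, 16773120 and 398034000 vectors of norms 4, 6 and 8. -/
theorem result (B : Matrix (Fin 24) (Fin 24) ℤ) (hsymm : B.IsSymm) (hpos : ∀ x : Fin 24 → ℤ, x ≠ 0 → 0 < x ⬝ᵥ (B *ᵥ x)) (heven : ∀ x : Fin 24 → ℤ, (2 : ℤ) ∣ x ⬝ᵥ (B *ᵥ x)) (hdet : B.det = 1) (h2 : ∀ x : Fin 24 → ℤ, x ⬝ᵥ (B *ᵥ x) ≠ 2) : {x : Fin 24 → ℤ | x ⬝ᵥ (B *ᵥ x) = 4}.ncard = 196560 ∧ {x : Fin 24 → ℤ | x ⬝ᵥ (B *ᵥ x) = 6}.ncard = 16773120 ∧ {x : Fin 24 → ℤ | x ⬝ᵥ (B *ᵥ x) = 8}.ncard = 398034000 := by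
  have hB : EvenUnimodular B := ⟨hsymm, hpos, heven, hdet⟩
  obtain ⟨t0, t1, t2, t3, t4⟩ := target_coeff
  have c0 : count B 0 = 1 := by
    have : {x : Fin 24 → ℤ | Q B x = 2 * ((0 : ℕ) : ℤ)} = {0} := by
      ext x
      simp only [Set.mem_ofPred_eq, Set.mem_singleton_iff, Nat.cast_zero, mul_zero]
      refine ⟨fun h ↦ by_contra fun hx ↦ (hpos x hx).ne' h, fun h ↦ by simp [Q, h]⟩
    rw [count, this, Set.ncard_singleton]
  have c1 : count B 1 = 0 := by
    have : {x : Fin 24 → ℤ | Q B x = 2 * ((1 : ℕ) : ℤ)} = ∅ :=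
      Set.eq_empty_iff_forall_notMem.2 fun x hx ↦ h2 x (by simpa using hx)
    rw [count, this, Set.ncard_empty]
  have hd : thetaForm hB - target = 0 := by
    refine ModularForm.sturm_bound_levelOne_nat (k := 12) ?_
    refine lt_of_lt_of_le (b := (2 : ℕ∞)) (by norm_num) (PowerSeries.nat_le_order _ 2 fun i hi ↦ ?_)
    rw [FunLike.coe_sub, ModularForm.qExpansion_sub one_pos one_mem_strictPeriods_SL, map_sub,
      thetaForm_coeff]
    interval_cases i <;> simp [c0, c1, t0, t1, -PowerSeries.coeff_zero_eq_constantCoeff]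
  have he : thetaForm hB = target := sub_eq_zero.1 hd
  have hc : ∀ m, (count B m : ℂ) = (qExpansion 1 target).coeff m := fun m ↦ by
    rw [← thetaForm_coeff hB m, he]
  have h4 := (hc 2).trans t2
  have h6 := (hc 3).trans t3
  have h8 := (hc 4).trans t4
  simp only [count, Q, Nat.cast_ofNat] at h4 h6 h8
  norm_num at h4 h6 h8
  exact ⟨by exact_mod_cast h4, by exact_mod_cast h6, by exact_mod_cast h8⟩

end Cfsg.Agent.S1632
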