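import Cfsg.Statements.S1638
import Cfsg.Agent.M24Geo.Octad
import Cfsg.Agent.M24Geo.DataPairStab
-- import your own Cfsg.Agent.* helpers here

set_option autoImplicit false
open scoped Pointwise
open Cfsg

namespace Cfsg.Agent.S1638

open Cfsg.Agent.M24Geo

/-- Some octad through the first four positions contains the mask. -/
def inOct (k : ℕ) : Bool := octadsFirstFour.any fun o => (15 ||| k) &&& o == (15 ||| k)

/-- Invariant of a duad for the configuration of positions 0, 1 and the duad of positions 2, 3. -/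
def kinv (k : ℕ) : ℕ := 2 * popc (k &&& 12) + bif inOct k then 1 else 0

theorem cert_check : pairStabTree.check stepMask pairStabGens pairStabRoots = true := by
  decide +kernel

theorem cert_auts : pairStabGens.all autL = true := by decide +kernel

theorem cert_fix :
    (pairStabGens.all fun l => l.getD 0 0 == 0 && l.getD 1 0 == 1 && stepMask l 12 12) = true := by
  decide +kernel

theorem cert_sep : (pairStabRoots.map kinv).Nodup ∧ sortedB pairStabTree.keys = true := by
  decide +kernel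

theorem cert_keys : pairStabTree.keys.all (fun k =>
    Nat.blt k (2 ^ 24) && popc k == 2 && !k.testBit 0 && !k.testBit 1) = true := by
  decide +kernel

theorem cert_all : ((List.range 24).all fun i => (List.range 24).all fun j =>
    Nat.blt j i || Nat.blt i 2 || i == j || (pairStabTree.find (2 ^ i ||| 2 ^ j)).isSome) = true := by
  decide +kernel

theorem octads_first_four :
    (((wordList 8).filter fun o => o &&& 15 == 15).all fun o => octadsFirstFour.contains o) = true ∧
      octadsFirstFour.all (isWord 8) = true := by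
  decide +kernel

theorem cert_counts :
    (pairStabTree.keys.filter fun k => kinv k == 1).length = 30 ∧
      (pairStabTree.keys.filter fun k => kinv k == 0).length = 160 := by
  decide +kernel

/-- The condition on a duad in the reference configuration. -/
def Avoid (t : Finset GolayPt) : Prop := t.card = 2 ∧ pt 0 ∉ t ∧ pt 1 ∉ t

/-- The octad property in the reference configuration. -/
def InOct (t : Finset GolayPt) : Prop :=
  ∃ o ∈ octads, pt 0 ∈ o ∧ pt 1 ∈ o ∧ ofMask 12 ∪ t ⊆ o

theorem avoid_iff {t : Finset GolayPt} :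
    Avoid t ↔ ∃ k ∈ pairStabTree.keys, ofMask k = t := by
  constructor
  · rintro ⟨hc, h0, h1⟩
    obtain ⟨a, b, hab, rfl⟩ := Finset.card_eq_two.mp hc
    simp only [Finset.mem_insert, Finset.mem_singleton, not_or] at h0 h1
    wlog hle : idx a ≤ idx b generalizing a b
    · rw [Finset.pair_comm]
      exact this b a hab.symm (by rw [Finset.card_pair hab.symm]) ⟨h0.2, h0.1⟩ ⟨h1.2, h1.1⟩
        (by omega)
    have hne : idx a ≠ idx b := fun h => hab (idx_injective h)
    have ha : 2 ≤ idx a := by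
      by_contra h
      have : idx a = 0 ∨ idx a = 1 := by omega
      rcases this with h | h
      · exact h0.1 (by rw [← pt_idx a, h])
      · exact h1.1 (by rw [← pt_idx a, h])
    have := List.all_eq_true.mp (List.all_eq_true.mp cert_all (idx a)
      (List.mem_range.mpr (idx_lt a))) (idx b) (List.mem_range.mpr (idx_lt b))
    simp only [Bool.or_eq_true, Nat.blt_eq, beq_iff_eq] at this
    rcases this with ((h | h) | h) | h
    · omega
    · omega
    · omega
    refine ⟨2 ^ idx a ||| 2 ^ idx b, OT.mem_keys_of_isSome h, ?_⟩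
    ext p
    rw [mem_ofMask, Nat.testBit_or, Nat.testBit_two_pow, Nat.testBit_two_pow]
    simp only [Bool.or_eq_true, decide_eq_true_eq, Finset.mem_insert, Finset.mem_singleton]
    exact or_congr ⟨fun h => (idx_injective h).symm, fun h => by rw [h]⟩
      ⟨fun h => (idx_injective h).symm, fun h => by rw [h]⟩
  · rintro ⟨k, hk, rfl⟩
    have h := List.all_eq_true.mp cert_keys k hk
    simp only [Bool.and_eq_true, beq_iff_eq, Bool.not_eq_true'] at h
    refine ⟨by rw [card_ofMask, h.1.1.2], ?_, ?_⟩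
    · rw [mem_ofMask, idx_pt 0 (by norm_num), h.1.2]; simp
    · rw [mem_ofMask, idx_pt 1 (by norm_num), h.2]; simp

theorem key_lt' {k : ℕ} (hk : k ∈ pairStabTree.keys) : k < 2 ^ 24 := by
  have h := List.all_eq_true.mp cert_keys k hk
  simp only [Bool.and_eq_true, Nat.blt_eq] at h
  exact h.1.1.1

theorem inOct_iff {k : ℕ} (hk : k < 2 ^ 24) : InOct (ofMask k) ↔ inOct k = true := by
  have hor : (15 ||| k) < 2 ^ 24 := Nat.or_lt_two_pow (by norm_num) hk
  have key : ∀ m, m < 2 ^ 24 →
      ((pt 0 ∈ ofMask m ∧ pt 1 ∈ ofMask m ∧ ofMask 12 ∪ ofMask k ⊆ ofMask m) ↔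
        (15 ||| k) &&& m = 15 ||| k) := by
    intro m hm
    rw [← ofMask_subset_iff hor hm, show (15 : ℕ) = 1 ||| 2 ||| 12 from rfl, ofMask_or, ofMask_or,
      ofMask_or, show ofMask 1 = {pt 0} by decide +kernel, show ofMask 2 = {pt 1} by decide +kernel]
    simp only [Finset.union_subset_iff, Finset.singleton_subset_iff]
    tauto
  constructor
  · rintro ⟨o, ho, h⟩
    obtain ⟨m, hm, rfl⟩ := mem_wordsOfWeight_iff.mp ho
    have hlt : m < 2 ^ 24 := by
      rw [isWord, Bool.and_eq_true] at hm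
      exact inCode_lt hm.1
    have hs := (key m hlt).mp h
    have h15 : m &&& 15 = 15 := by
      have e := congrArg (· &&& 15) hs
      refine Nat.eq_of_testBit_eq fun i => ?_
      have ei := congrArg (fun z => Nat.testBit z i) e
      simp only [Nat.testBit_and, Nat.testBit_or] at ei ⊢
      revert ei
      cases m.testBit i <;> cases Nat.testBit 15 i <;> simp
    refine List.any_eq_true.mpr ⟨m, ?_, beq_iff_eq.mpr hs⟩
    simpa using List.all_eq_true.mp octads_first_four.1 m
      (List.mem_filter.mpr ⟨mem_wordList hm, beq_iff_eq.mpr h15⟩)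
  · intro h
    obtain ⟨m, hm, hs⟩ := List.any_eq_true.mp h
    have hw := List.all_eq_true.mp octads_first_four.2 m hm
    refine ⟨ofMask m, mem_wordsOfWeight_iff.mpr ⟨m, hw, rfl⟩, (key m ?_).mpr (beq_iff_eq.mp hs)⟩
    rw [isWord, Bool.and_eq_true] at hw
    exact inCode_lt hw.1

theorem kinv_eq {k : ℕ} (hk : k < 2 ^ 24) :
    kinv k = 2 * (ofMask 12 ∩ ofMask k).card + @ite ℕ (InOct (ofMask k))
      (Classical.propDecidable _) 1 0 := by
  rw [kinv, inter_card_mask]
  congr 1
  by_cases h : InOct (ofMask k)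
  · rw [if_pos h, (inOct_iff hk).mp h]; rfl
  · rw [if_neg h]
    cases hb : inOct k
    · rfl
    · exact absurd ((inOct_iff hk).mpr hb) h

theorem inOct_smul {g : Equiv.Perm GolayPt} (hg : g ∈ M24) (h0 : g (pt 0) = pt 0)
    (h1 : g (pt 1) = pt 1) (h12 : g • ofMask 12 = ofMask 12) {t : Finset GolayPt} (h : InOct t) :
    InOct (g • t) := by
  obtain ⟨o, ho, ha, hb, hc⟩ := h
  refine ⟨g • o, smul_mem_words hg ho, ?_, ?_, ?_⟩
  · rw [← h0]; exact Finset.smul_mem_smul_finset ha
  · rw [← h1]; exact Finset.smul_mem_smul_finset hb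
  · rw [← h12, ← Finset.smul_finset_union]
    exact Finset.smul_finset_subset_smul_finset hc

/-- The group fixing the reference configuration. -/
def refStab : Subgroup (Equiv.Perm GolayPt) :=
  M24 ⊓ MulAction.stabilizer (Equiv.Perm GolayPt) (pt 0) ⊓
    MulAction.stabilizer (Equiv.Perm GolayPt) (pt 1) ⊓
    MulAction.stabilizer (Equiv.Perm GolayPt) (ofMask 12)

theorem mem_refStab {g : Equiv.Perm GolayPt} : g ∈ refStab ↔
    g ∈ M24 ∧ g (pt 0) = pt 0 ∧ g (pt 1) = pt 1 ∧ g • ofMask 12 = ofMask 12 := by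
  simp only [refStab, Subgroup.mem_inf, MulAction.mem_stabilizer_iff, Equiv.Perm.smul_def, and_assoc]

theorem kinv_orbit {g : Equiv.Perm GolayPt} (hg : g ∈ refStab) {k k' : ℕ} (hk : k < 2 ^ 24)
    (hk' : k' < 2 ^ 24) (h : g • ofMask k = ofMask k') : kinv k = kinv k' := by
  have hgi := inv_mem hg
  rw [mem_refStab] at hg hgi
  have hiff : InOct (ofMask k) ↔ InOct (ofMask k') := by
    refine ⟨fun hi => h ▸ inOct_smul hg.1 hg.2.1 hg.2.2.1 hg.2.2.2 hi, fun hi => ?_⟩
    have := inOct_smul hgi.1 hgi.2.1 hgi.2.2.1 hgi.2.2.2 hi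
    rwa [← h, inv_smul_smul] at this
  have hcard : (ofMask 12 ∩ ofMask k).card = (ofMask 12 ∩ ofMask k').card := by
    rw [← h]
    conv_rhs => rw [← hg.2.2.2]
    rw [inter_card_smul]
  classical
  rw [kinv_eq hk, kinv_eq hk', hcard]
  congr 1
  simp [hiff]

theorem root_of_key {k : ℕ} (hk : k ∈ pairStabTree.keys) :
    ∃ r ∈ pairStabRoots, kinv r = kinv k ∧ ∃ g ∈ refStab, g • ofMask r = ofMask k := by
  have hK : ∀ l ∈ pairStabGens, permOf l ∈ refStab := by
    intro l hl
    have hf := List.all_eq_true.mp cert_fix l hl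
    have hl' := List.all_eq_true.mp cert_auts l hl
    have hv : validL l = true := by
      simp only [autL, Bool.and_eq_true] at hl'
      exact hl'.1
    simp only [Bool.and_eq_true, beq_iff_eq] at hf
    refine mem_refStab.mpr ⟨gens_le_M24 cert_auts l hl, ?_, ?_,
      stepMask_sound l _ _ hl' hf.2⟩
    · rw [permOf_pt hv (by norm_num), hf.1.1]
    · rw [permOf_pt hv (by norm_num), hf.1.2]
  obtain ⟨r, hr, g, hg, hge⟩ := orbit_cert stepMask_sound cert_check cert_auts refStab hK k hk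
  have hrlt : r < 2 ^ 24 := by
    have : ∀ x ∈ pairStabRoots, x < 2 ^ 24 := by decide
    exact this r hr
  exact ⟨r, hr, kinv_orbit hg hrlt (key_lt' hk) hge, g, hg, hge⟩

theorem count_of {g : Equiv.Perm GolayPt} (S : Set (Finset GolayPt)) (v : ℕ)
    (hS : ∀ t, t ∈ S ↔ ∃ k ∈ pairStabTree.keys, kinv k = v ∧ g • ofMask k = t) :
    S.ncard = (pairStabTree.keys.filter fun k => kinv k == v).length := by
  have hset : S = (fun k => g • ofMask k) ''
      ↑((pairStabTree.keys.filter fun k => kinv k == v).toFinset) := by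
    ext t
    rw [hS]
    simp [and_assoc]
  rw [hset, Set.InjOn.ncard_image, Set.ncard_coe_finset,
    List.toFinset_card_of_nodup ((sortedB_nodup cert_sep.2).filter _)]
  intro a ha b hb h
  simp only [List.coe_toFinset, List.mem_filter, Set.mem_ofPred_eq] at ha hb
  exact ofMask_inj (key_lt' ha.1) (key_lt' hb.1) (smul_left_cancel g h)


/-- Fix two points p ≠ q and a pair s of two further points. Among the pairs avoiding p, q and disjoint from s, exactly 30 lie in an octad together with p, q and s and exactly 160 do not; and any two pairs other than s that meet s in equally many points and agree on that octad property are carried to one another by an element of the group of the length-24 code fixing p, q and s. -/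
theorem result (p q : Cfsg.GolayPt) (hpq : p ≠ q) (s : Finset Cfsg.GolayPt) (hs : (s.card = 2 ∧ p ∉ s ∧ q ∉ s)) : {t : Finset Cfsg.GolayPt | (t.card = 2 ∧ p ∉ t ∧ q ∉ t) ∧ Disjoint s t ∧ (∃ o ∈ Cfsg.octads, p ∈ o ∧ q ∈ o ∧ s ∪ t ⊆ o)}.ncard = 30 ∧ {t : Finset Cfsg.GolayPt | (t.card = 2 ∧ p ∉ t ∧ q ∉ t) ∧ Disjoint s t ∧ ¬ (∃ o ∈ Cfsg.octads, p ∈ o ∧ q ∈ o ∧ s ∪ t ⊆ o)}.ncard = 160 ∧ ∀ t t' : Finset Cfsg.GolayPt, (t.card = 2 ∧ p ∉ t ∧ q ∉ t) → (t'.card = 2 ∧ p ∉ t' ∧ q ∉ t') → t ≠ s → t' ≠ s → (s ∩ t).card = (s ∩ t').card → ((∃ o ∈ Cfsg.octads, p ∈ o ∧ q ∈ o ∧ s ∪ t ⊆ o) ↔ (∃ o ∈ Cfsg.octads, p ∈ o ∧ q ∈ o ∧ s ∪ t' ⊆ o)) → ∃ g : Equiv.Perm Cfsg.GolayPt, g ∈ Cfsg.M24 ∧ g p = p ∧ g q = q ∧ g • s = s ∧ g • t = t' := by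
  classical
  obtain ⟨a, b, hab, rfl⟩ := Finset.card_eq_two.mp hs.1
  obtain ⟨-, hps, hqs⟩ := hs
  simp only [Finset.mem_insert, Finset.mem_singleton, not_or] at hps hqs
  obtain ⟨g, hg, hga⟩ := trans_tuple 4 (by norm_num)
    (fun i => [p, q, a, b].getD i none) (by
      intro i hi j hj hij
      interval_cases i <;> interval_cases j <;> simp_all)
  have g0 : g (pt 0) = p := hga 0 (by norm_num)
  have g1 : g (pt 1) = q := hga 1 (by norm_num)
  have g12 : g • ofMask 12 = {a, b} := by
    rw [show ofMask 12 = {pt 2, pt 3} by decide +kernel]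
    simp [Finset.smul_finset_insert, Finset.smul_finset_singleton, Equiv.Perm.smul_def,
      hga 2 (by norm_num), hga 3 (by norm_num)]
  have hmem : ∀ (x : GolayPt) (u : Finset GolayPt), g x ∈ g • u ↔ x ∈ u := fun x u =>
    Finset.smul_mem_smul_finset_iff g (b := x)
  have hP : ∀ t, (t.card = 2 ∧ p ∉ t ∧ q ∉ t) ↔
      ∃ k ∈ pairStabTree.keys, g • ofMask k = t := by
    intro t
    constructor
    · intro h
      have hA : Avoid (g⁻¹ • t) := by
        refine ⟨by rw [Finset.card_smul_finset, h.1], ?_, ?_⟩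
        · rw [← hmem, smul_inv_smul, g0]; exact h.2.1
        · rw [← hmem, smul_inv_smul, g1]; exact h.2.2
      obtain ⟨k, hk, hke⟩ := avoid_iff.mp hA
      exact ⟨k, hk, by rw [hke, smul_inv_smul]⟩
    · rintro ⟨k, hk, rfl⟩
      obtain ⟨h2, h0, h1⟩ := avoid_iff.mpr ⟨k, hk, rfl⟩
      exact ⟨by rw [Finset.card_smul_finset, h2], by rw [← g0, hmem]; exact h0,
        by rw [← g1, hmem]; exact h1⟩
  have hQ : ∀ u, (∃ o ∈ octads, p ∈ o ∧ q ∈ o ∧ {a, b} ∪ g • u ⊆ o) ↔ InOct u := by
    intro u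
    constructor
    · rintro ⟨o, ho, hp, hq, hsub⟩
      refine ⟨g⁻¹ • o, smul_mem_words (inv_mem hg) ho, ?_, ?_, ?_⟩
      · rw [← hmem, smul_inv_smul, g0]; exact hp
      · rw [← hmem, smul_inv_smul, g1]; exact hq
      · rw [← Finset.smul_finset_subset_smul_finset_iff (a := g), smul_inv_smul,
          Finset.smul_finset_union, g12]
        exact hsub
    · rintro ⟨o, ho, hp, hq, hsub⟩
      refine ⟨g • o, smul_mem_words hg ho, ?_, ?_, ?_⟩
      · rw [← g0, hmem]; exact hp
      · rw [← g1, hmem]; exact hq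
      · rw [← g12, ← Finset.smul_finset_union]
        exact Finset.smul_finset_subset_smul_finset hsub
  have hI : ∀ u : Finset GolayPt, ({a, b} ∩ g • u).card = (ofMask 12 ∩ u).card := fun u => by
    rw [← g12, inter_card_smul]
  have hD : ∀ u : Finset GolayPt, Disjoint {a, b} (g • u) ↔ (ofMask 12 ∩ u).card = 0 := fun u => by
    rw [← hI, Finset.card_eq_zero, Finset.disjoint_iff_inter_eq_empty]
  refine ⟨?_, ?_, ?_⟩
  · rw [count_of (g := g) _ 1, cert_counts.1]
    intro t
    rw [Set.mem_ofPred_eq]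
    constructor
    · rintro ⟨ht, hd, ho⟩
      obtain ⟨k, hk, rfl⟩ := (hP t).mp ht
      refine ⟨k, hk, ?_, rfl⟩
      rw [kinv_eq (key_lt' hk), (hD _).mp hd, if_pos ((hQ _).mp ho)]
    · rintro ⟨k, hk, hv, rfl⟩
      rw [kinv_eq (key_lt' hk)] at hv
      by_cases hi : InOct (ofMask k)
      · rw [if_pos hi] at hv
        exact ⟨(hP _).mpr ⟨k, hk, rfl⟩, (hD _).mpr (by omega), (hQ _).mpr hi⟩
      · rw [if_neg hi] at hv; omega
  · rw [count_of (g := g) _ 0, cert_counts.2]
    intro t
    rw [Set.mem_ofPred_eq]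
    constructor
    · rintro ⟨ht, hd, ho⟩
      obtain ⟨k, hk, rfl⟩ := (hP t).mp ht
      refine ⟨k, hk, ?_, rfl⟩
      rw [kinv_eq (key_lt' hk), (hD _).mp hd, if_neg (fun h => ho ((hQ _).mpr h))]
    · rintro ⟨k, hk, hv, rfl⟩
      rw [kinv_eq (key_lt' hk)] at hv
      by_cases hi : InOct (ofMask k)
      · rw [if_pos hi] at hv; omega
      · rw [if_neg hi] at hv
        exact ⟨(hP _).mpr ⟨k, hk, rfl⟩, (hD _).mpr (by omega), fun h => hi ((hQ _).mp h)⟩
  · intro t t' ht ht' _ _ hcard hoct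
    obtain ⟨k, hk, rfl⟩ := (hP t).mp ht
    obtain ⟨k', hk', rfl⟩ := (hP t').mp ht'
    rw [hI, hI] at hcard
    rw [hQ, hQ] at hoct
    obtain ⟨r, hr, hrk, x, hx, hxe⟩ := root_of_key hk
    obtain ⟨r', hr', hrk', y, hy, hye⟩ := root_of_key hk'
    obtain rfl : r = r' := List.inj_on_of_nodup_map cert_sep.1 hr hr' (by
      rw [hrk, hrk', kinv_eq (key_lt' hk), kinv_eq (key_lt' hk'), hcard]
      simp [hoct])
    have hyx := mem_refStab.mp (mul_mem hy (inv_mem hx))
    refine ⟨g * (y * x⁻¹) * g⁻¹, mul_mem (mul_mem hg hyx.1) (inv_mem hg), ?_, ?_, ?_, ?_⟩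
    · rw [← g0, Equiv.Perm.mul_apply, Equiv.Perm.mul_apply, Equiv.Perm.coe_inv,
        Equiv.symm_apply_apply, hyx.2.1]
    · rw [← g1, Equiv.Perm.mul_apply, Equiv.Perm.mul_apply, Equiv.Perm.coe_inv,
        Equiv.symm_apply_apply, hyx.2.2.1]
    · rw [← g12, mul_smul, inv_smul_smul, mul_smul g, hyx.2.2.2]
    · rw [mul_smul, inv_smul_smul, mul_smul g, ← hxe, ← hye, mul_smul y, inv_smul_smul]

end Cfsg.Agent.S1638
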