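import Cfsg.Statements.S1639
import Cfsg.Agent.M24Geo.Dodecad
import Cfsg.Agent.M24Geo.DataDodecadPoint
-- import your own Cfsg.Agent.* helpers here

set_option autoImplicit false
open scoped Pointwise
open Cfsg

namespace Cfsg.Agent.S1639

open Cfsg.Agent.M24Geo

theorem cert : CertOK dodecadPointTree stepMask dodecadPointGens dodecadPointRoots dodecad0
    (fun k => popc (k &&& dodecad0)) :=
  ⟨by decide +kernel, by decide +kernel, by decide +kernel, by decide +kernel, by decide +kernel⟩

theorem cert_pt :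
    (dodecadPointGens.all fun l => l.getD dodecadPos 0 == dodecadPos) = true ∧ dodecadPos < 24 := by
  decide +kernel

theorem cert_keys : dodecadPointTree.keys.all (fun k => isWord 12 k && k.testBit dodecadPos) = true := by
  decide +kernel

theorem cert_all : ((wordList 12).filter fun k => k.testBit dodecadPos).all
    (fun k => (dodecadPointTree.find k).isSome) = true := by
  decide +kernel

theorem cert_counts :
    (dodecadPointTree.keys.filter fun k => popc (k &&& dodecad0) == 4).length = 165 ∧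
    (dodecadPointTree.keys.filter fun k => popc (k &&& dodecad0) == 8).length = 330 ∧
    (dodecadPointTree.keys.filter fun k => popc (k &&& dodecad0) == 6).length = 792 := by
  decide +kernel

theorem in_cert : dodecadInTree.check stepMask dodecadGens [2 ^ dodecadPos] = true ∧
    ((List.range 24).all fun i => !dodecad0.testBit i || (dodecadInTree.find (2 ^ i)).isSome) = true := by
  decide +kernel

/-- Some element of the group carries the reference flag to a given point and dodecad. -/
theorem exists_flag {d : Finset GolayPt} (hd : d ∈ dodecads) {x : GolayPt} (hx : x ∈ d) :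
    ∃ g ∈ M24, g • ofMask dodecad0 = d ∧ g (pt dodecadPos) = x := by
  obtain ⟨g, hg, rfl⟩ := dodecad_trans hd
  have hy : dodecad0.testBit (idx (g⁻¹ x)) = true := by
    rw [← mem_ofMask, ← Finset.smul_mem_smul_finset_iff g]
    simpa using hx
  have h := List.all_eq_true.mp in_cert.2 (idx (g⁻¹ x)) (List.mem_range.mpr (idx_lt _))
  simp only [hy, Bool.not_true, Bool.false_or] at h
  have hK := gens_le_stab stepMask_sound dodecad_cert.auts dodecad_cert.fixes
  obtain ⟨r, hr, k, hk, hke⟩ := orbit_cert stepMask_sound in_cert.1 dodecad_cert.auts _ hK _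
    (OT.mem_keys_of_isSome h)
  obtain rfl : r = 2 ^ dodecadPos := by simpa using hr
  have single : ∀ i < 24, ofMask (2 ^ i) = {pt i} := by decide +kernel
  rw [single _ cert_pt.2, single _ (idx_lt _), pt_idx, Finset.smul_finset_singleton,
    Finset.singleton_inj, Equiv.Perm.smul_def] at hke
  rw [Subgroup.mem_inf, MulAction.mem_stabilizer_iff] at hk
  exact ⟨g * k, mul_mem hg hk.1, by rw [mul_smul, hk.2],
    by rw [Equiv.Perm.mul_apply, hke, Equiv.Perm.coe_inv, Equiv.apply_symm_apply]⟩


/-- The point stabiliser acts on the 1288 dodecads through the point with rank 4 and subdegrees 1, 165, 330, 792, distinguished by intersection 4, 8, 6 with the fixed dodecad. -/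
theorem result (x : Cfsg.GolayPt) (d : Finset Cfsg.GolayPt) (hd : d ∈ Cfsg.dodecads) (hx : x ∈ d) : {d' : Finset Cfsg.GolayPt | d' ∈ Cfsg.dodecads ∧ x ∈ d' ∧ (d ∩ d').card = 4}.ncard = 165 ∧ {d' : Finset Cfsg.GolayPt | d' ∈ Cfsg.dodecads ∧ x ∈ d' ∧ (d ∩ d').card = 8}.ncard = 330 ∧ {d' : Finset Cfsg.GolayPt | d' ∈ Cfsg.dodecads ∧ x ∈ d' ∧ (d ∩ d').card = 6}.ncard = 792 ∧ ∀ d' d'' : Finset Cfsg.GolayPt, d' ∈ Cfsg.dodecads → d'' ∈ Cfsg.dodecads → x ∈ d' → x ∈ d'' → (d ∩ d').card = (d ∩ d'').card → ∃ g : Equiv.Perm Cfsg.GolayPt, g ∈ Cfsg.M24 ∧ g x = x ∧ g • d = d ∧ g • d' = d'' := by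
  obtain ⟨g, hg, rfl, rfl⟩ := exists_flag hd hx
  have hmem : ∀ (u : Finset GolayPt), g (pt dodecadPos) ∈ g • u ↔ pt dodecadPos ∈ u := fun u =>
    Finset.smul_mem_smul_finset_iff g (b := pt dodecadPos)
  have hkw : dodecadPointTree.keys.all (isWord 12) = true := by
    rw [List.all_eq_true]
    intro k hk
    have h := List.all_eq_true.mp cert_keys k hk
    rw [Bool.and_eq_true] at h
    exact h.1
  have hP : ∀ d', (d' ∈ dodecads ∧ g (pt dodecadPos) ∈ d') ↔
      ∃ k ∈ dodecadPointTree.keys, g • ofMask k = d' := by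
    intro d'
    constructor
    · rintro ⟨hd', hx'⟩
      obtain ⟨m, hm, hme⟩ := mem_wordsOfWeight_iff.mp (smul_mem_words (inv_mem hg) hd')
      have hb : pt dodecadPos ∈ ofMask m := by
        rw [← hmem, hme, smul_inv_smul]
        exact hx'
      rw [mem_ofMask, idx_pt _ cert_pt.2] at hb
      exact ⟨m, OT.mem_keys_of_isSome (List.all_eq_true.mp cert_all m
        (List.mem_filter.mpr ⟨mem_wordList hm, hb⟩)), by rw [hme, smul_inv_smul]⟩
    · rintro ⟨k, hk, rfl⟩
      have h := List.all_eq_true.mp cert_keys k hk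
      rw [Bool.and_eq_true] at h
      refine ⟨smul_mem_words hg (mem_wordsOfWeight_iff.mpr ⟨k, h.1, rfl⟩), ?_⟩
      rw [hmem, mem_ofMask, idx_pt _ cert_pt.2]
      exact h.2
  have hcount : ∀ v, {d' : Finset GolayPt | d' ∈ dodecads ∧ g (pt dodecadPos) ∈ d' ∧
      (g • ofMask dodecad0 ∩ d').card = v}.ncard =
      (dodecadPointTree.keys.filter fun k => popc (k &&& dodecad0) == v).length := by
    intro v
    have hset : {d' : Finset GolayPt | d' ∈ dodecads ∧ g (pt dodecadPos) ∈ d' ∧
        (g • ofMask dodecad0 ∩ d').card = v} = (fun k => g • ofMask k) ''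
        ↑((dodecadPointTree.keys.filter fun k => popc (k &&& dodecad0) == v).toFinset) := by
      ext d'
      simp only [Set.mem_ofPred_eq, List.coe_toFinset, Set.mem_image, List.mem_filter, beq_iff_eq]
      constructor
      · rintro ⟨hd', hx', hv⟩
        obtain ⟨k, hk, rfl⟩ := (hP d').mp ⟨hd', hx'⟩
        rw [inter_card_smul, inter_card_mask] at hv
        exact ⟨k, ⟨hk, hv⟩, rfl⟩
      · rintro ⟨k, ⟨hk, hv⟩, rfl⟩
        exact ⟨((hP _).mpr ⟨k, hk, rfl⟩).1, ((hP _).mpr ⟨k, hk, rfl⟩).2,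
          by rw [inter_card_smul, inter_card_mask, hv]⟩
    rw [hset, Set.InjOn.ncard_image, Set.ncard_coe_finset,
      List.toFinset_card_of_nodup ((sortedB_nodup cert.sorted).filter _)]
    intro a ha b hb h
    simp only [List.coe_toFinset, List.mem_filter, Set.mem_ofPred_eq] at ha hb
    exact ofMask_inj (key_lt hkw ha.1) (key_lt hkw hb.1) (smul_left_cancel g h)
  refine ⟨(hcount 4).trans cert_counts.1, (hcount 8).trans cert_counts.2.1,
    (hcount 6).trans cert_counts.2.2, ?_⟩
  intro d' d'' hd' hd'' hx' hx'' hcard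
  obtain ⟨k, hk, rfl⟩ := (hP d').mp ⟨hd', hx'⟩
  obtain ⟨k', hk', rfl⟩ := (hP d'').mp ⟨hd'', hx''⟩
  rw [inter_card_smul, inter_card_smul] at hcard
  let K : Subgroup (Equiv.Perm GolayPt) :=
    M24 ⊓ MulAction.stabilizer (Equiv.Perm GolayPt) (ofMask dodecad0) ⊓
      MulAction.stabilizer (Equiv.Perm GolayPt) (pt dodecadPos)
  have hK : ∀ l ∈ dodecadPointGens, permOf l ∈ K := fun l hl => Subgroup.mem_inf.mpr
    ⟨gens_le_stab stepMask_sound cert.auts cert.fixes l hl, MulAction.mem_stabilizer_iff.mpr (by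
      have hv : validL l = true := by
        have := List.all_eq_true.mp cert.auts l hl
        simp only [autL, Bool.and_eq_true] at this
        exact this.1
      rw [Equiv.Perm.smul_def, permOf_pt hv cert_pt.2,
        beq_iff_eq.mp (List.all_eq_true.mp cert_pt.1 l hl)])⟩
  have key : ∀ m ∈ dodecadPointTree.keys, ∃ r ∈ dodecadPointRoots,
      (ofMask dodecad0 ∩ ofMask m).card = popc (r &&& dodecad0) ∧
      ∃ y ∈ K, y • ofMask r = ofMask m := by
    intro m hm
    obtain ⟨r, hr, y, hy, hye⟩ := orbit_cert stepMask_sound cert.check cert.auts K hK m hm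
    refine ⟨r, hr, ?_, y, hy, hye⟩
    have hyd : y • ofMask dodecad0 = ofMask dodecad0 :=
      MulAction.mem_stabilizer_iff.mp (Subgroup.mem_inf.mp (Subgroup.mem_inf.mp hy).1).2
    rw [← inter_card_mask, ← inter_card_smul y (ofMask dodecad0) (ofMask r), hyd, hye]
  obtain ⟨r, hr, hrk, a, ha, hae⟩ := key k hk
  obtain ⟨r', hr', hrk', b, hb, hbe⟩ := key k' hk'
  obtain rfl : r = r' := List.inj_on_of_nodup_map cert.sep hr hr' (by rw [← hrk, ← hrk', hcard])
  have hba : b * a⁻¹ ∈ K := mul_mem hb (inv_mem ha)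
  simp only [K, Subgroup.mem_inf, MulAction.mem_stabilizer_iff, Equiv.Perm.smul_def] at hba
  refine ⟨g * (b * a⁻¹) * g⁻¹, mul_mem (mul_mem hg hba.1.1) (inv_mem hg), ?_, ?_, ?_⟩
  · rw [Equiv.Perm.mul_apply, Equiv.Perm.mul_apply, Equiv.Perm.coe_inv, Equiv.symm_apply_apply,
      hba.2]
  · rw [mul_smul, inv_smul_smul, mul_smul g, hba.1.2]
  · rw [mul_smul, inv_smul_smul, mul_smul g, ← hae, ← hbe, mul_smul b, inv_smul_smul]

end Cfsg.Agent.S1639
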