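import Cfsg.Statements.S1640
import Cfsg.Agent.Leech.Orbit11178
-- import your own Cfsg.Agent.* helpers here

set_option autoImplicit false
open Cfsg

namespace Cfsg.Agent.S1640

/-- The stabiliser of a vector of customary norm 6 is transitive on the 11178 minimal vectors of customary inner product −2 with it. -/
theorem result (u : ↥Cfsg.leechLattice) (hu : Cfsg.sqNorm (u : Cfsg.GolayPt → ℤ) = 48) : {x : ↥Cfsg.leechLattice | Cfsg.sqNorm (x : Cfsg.GolayPt → ℤ) = 32 ∧ Cfsg.dotInt (u : Cfsg.GolayPt → ℤ) (x : Cfsg.GolayPt → ℤ) = -16}.ncard = 11178 ∧ ∀ x ∈ {x : ↥Cfsg.leechLattice | Cfsg.sqNorm (x : Cfsg.GolayPt → ℤ) = 32 ∧ Cfsg.dotInt (u : Cfsg.GolayPt → ℤ) (x : Cfsg.GolayPt → ℤ) = -16}, ∀ x' ∈ {x : ↥Cfsg.leechLattice | Cfsg.sqNorm (x : Cfsg.GolayPt → ℤ) = 32 ∧ Cfsg.dotInt (u : Cfsg.GolayPt → ℤ) (x : Cfsg.GolayPt → ℤ) = -16}, ∃ g : ↥Cfsg.Co0,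 g • u = u ∧ g • x = x' := by
  refine ⟨Leech.ncard_set11178 hu, fun x hx x' hx' => ?_⟩
  obtain ⟨g, hg, hgx⟩ := Leech.exists_to_11178 hu hx.1 hx.2
  obtain ⟨h, hh, hhx⟩ := Leech.exists_to_11178 hu hx'.1 hx'.2
  refine ⟨h⁻¹ * g, ?_, ?_⟩
  · rw [mul_smul, hg, inv_smul_eq_iff, hh]
  · rw [mul_smul, hgx, inv_smul_eq_iff, hhx]

end Cfsg.Agent.S1640
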