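import Cfsg.Statements.S1643
import Cfsg.Agent.Golay.OutIndex
-- import your own Cfsg.Agent.* helpers here

set_option autoImplicit false
open scoped Pointwise
open Cfsg

namespace Cfsg.Agent.S1643

open Cfsg.Agent.Golay

/-- The translation by a residue. -/
def tr (b : ZMod 23) : Equiv.Perm GolayPt := Equiv.optionCongr (Equiv.addRight b)

theorem shiftPerm_pow_apply : ∀ (b : ZMod 23) (p : GolayPt), (shiftPerm ^ b.val) p = tr b p := by
  decide +kernel

/-- The affine maps with square multiplier. -/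
def aff : Subgroup (Equiv.Perm GolayPt) where
  carrier := {g | g none = none ∧ ∃ (k : ℕ) (b : ZMod 23), ∀ x, g (some x) = some (2 ^ k * x + b)}
  one_mem' := ⟨rfl, 0, 0, fun x => by simp⟩
  mul_mem' := by
    rintro g h ⟨g0, k, b, hg⟩ ⟨h0, l, c, hh⟩
    refine ⟨by rw [Equiv.Perm.mul_apply, h0, g0], k + l, 2 ^ k * c + b, fun x => ?_⟩
    rw [Equiv.Perm.mul_apply, hh, hg, pow_add]
    congr 1
    ring
  inv_mem' := by
    rintro g ⟨g0, k, b, hg⟩
    refine ⟨Equiv.Perm.inv_eq_iff_eq.mpr g0.symm, 10 * k, -(2 ^ (10 * k) * b), fun x => ?_⟩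
    rw [Equiv.Perm.inv_eq_iff_eq, hg]
    have h2 : (2 : ZMod 23) ^ k * 2 ^ (10 * k) = 1 := by
      rw [← pow_add, show k + 10 * k = 11 * k by omega, pow_mul, show (2 : ZMod 23) ^ 11 = 1 by decide,
        one_pow]
    congr 1
    linear_combination (b - x) * h2

theorem card_aff : Nat.card aff = 253 := by
  let f : Fin 11 × ZMod 23 → Equiv.Perm GolayPt := fun z => tr z.2 * doublePerm ^ z.1.val
  have hval : ∀ (z : Fin 11 × ZMod 23) (x : ZMod 23),
      f z (some x) = some (2 ^ z.1.val * x + z.2) := by decide +kernel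
  have hnone : ∀ z, f z none = none := by decide +kernel
  have hinj : Function.Injective f := by
    intro z z' h
    have e0 := congrArg (fun g : Equiv.Perm GolayPt => g (some 0)) h
    have e1 := congrArg (fun g : Equiv.Perm GolayPt => g (some 1)) h
    simp only [hval, mul_zero, zero_add, mul_one, Option.some_inj] at e0 e1
    rw [e0] at e1
    have hp : ∀ i j : Fin 11, (2 : ZMod 23) ^ i.val = 2 ^ j.val → i = j := by decide
    exact Prod.ext (hp _ _ (add_right_cancel e1)) e0
  rw [show (253 : ℕ) = Nat.card (Fin 11 × ZMod 23) by simp]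
  refine (Nat.card_eq_of_bijective (fun z => (⟨f z, hnone z, z.1.val, z.2, hval z⟩ : aff))
    ⟨fun a b h => hinj (congrArg Subtype.val h), ?_⟩).symm
  rintro ⟨g, g0, k, b, hg⟩
  refine ⟨(⟨k % 11, Nat.mod_lt _ (by norm_num)⟩, b), Subtype.ext (Equiv.ext fun p => ?_)⟩
  rcases p with _ | x
  · show f _ none = g none
    rw [hnone, g0]
  · show f _ (some x) = g (some x)
    rw [hval, hg]
    congr 3
    conv_rhs => rw [← Nat.mod_add_div k 11, pow_add, pow_mul,
      show (2 : ZMod 23) ^ 11 = 1 by decide, one_pow, mul_one]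

theorem square_unit : ∀ u : (ZMod 23)ˣ, IsSquare u → ∃ k : Fin 11, (u : ZMod 23) = 2 ^ k.val := by
  have h : ∀ r : (ZMod 23)ˣ, ∃ k : Fin 11, ((r * r : (ZMod 23)ˣ) : ZMod 23) = 2 ^ k.val := by
    decide +kernel
  rintro u ⟨r, rfl⟩
  exact h r

theorem closure_affine : Subgroup.closure ({Equiv.optionCongr (Equiv.addRight (1 : ZMod 23))} ∪
    {g : Equiv.Perm GolayPt | ∃ u : (ZMod 23)ˣ, IsSquare u ∧
      g = Equiv.optionCongr (Units.mulLeft u)}) = aff := by
  refine le_antisymm ?_ ?_
  · rw [Subgroup.closure_le]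
    rintro g (rfl | ⟨u, hu, rfl⟩)
    · exact ⟨rfl, 0, 1, fun x => by simp⟩
    · obtain ⟨k, hk⟩ := square_unit u hu
      exact ⟨rfl, k, 0, fun x => by simp [hk]⟩
  · rintro g ⟨g0, k, b, hg⟩
    have e : g = shiftPerm ^ b.val * doublePerm ^ k := by
      have hd : ∀ (n : ℕ) (x : ZMod 23), (doublePerm ^ n) (some x) = some (2 ^ n * x) := by
        intro n
        induction n with
        | zero => intro x; simp
        | succ n ih =>
          intro x
          rw [pow_succ, Equiv.Perm.mul_apply, show doublePerm (some x) = some (2 * x) from rfl, ih,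
            pow_succ, mul_assoc]
      have hn : ∀ n : ℕ, (doublePerm ^ n) none = none := fun n => by
        induction n with
        | zero => rfl
        | succ n ih => rw [pow_succ, Equiv.Perm.mul_apply, show doublePerm none = none from rfl, ih]
      refine Equiv.ext fun p => ?_
      rcases p with _ | x
      · rw [g0, Equiv.Perm.mul_apply, hn, shiftPerm_pow_apply]; rfl
      · rw [hg, Equiv.Perm.mul_apply, hd, shiftPerm_pow_apply]; rfl
    rw [e]
    have hs : shiftPerm ∈ ({Equiv.optionCongr (Equiv.addRight (1 : ZMod 23))} ∪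
        {g : Equiv.Perm GolayPt | ∃ u : (ZMod 23)ˣ, IsSquare u ∧
          g = Equiv.optionCongr (Units.mulLeft u)} : Set (Equiv.Perm GolayPt)) := Or.inl rfl
    have hd : doublePerm ∈ ({Equiv.optionCongr (Equiv.addRight (1 : ZMod 23))} ∪
        {g : Equiv.Perm GolayPt | ∃ u : (ZMod 23)ˣ, IsSquare u ∧
          g = Equiv.optionCongr (Units.mulLeft u)} : Set (Equiv.Perm GolayPt)) :=
      Or.inr ⟨twoUnit, ⟨⟨5, 14, by decide, by decide⟩, Units.ext (by decide)⟩, rfl⟩
    exact mul_mem (pow_mem (Subgroup.subset_closure hs) _) (pow_mem (Subgroup.subset_closure hd) _)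

theorem aff_le_M23 : aff ≤ Spor.M23 := by
  rw [← closure_affine, Subgroup.closure_le]
  rintro g (rfl | ⟨u, hu, rfl⟩)
  · exact shiftPerm_mem_M23
  · obtain ⟨k, hk⟩ := square_unit u hu
    have : Equiv.optionCongr (Units.mulLeft u) = doublePerm ^ k.val := by
      have h : ∀ (k : Fin 11) (x : ZMod 23), (doublePerm ^ k.val) (some x) = some (2 ^ k.val * x) ∧
          (doublePerm ^ k.val) none = none := by decide +kernel
      refine Equiv.ext fun p => ?_
      rcases p with _ | x
      · exact ((h k 0).2).symm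
      · rw [(h k x).1, ← hk]; rfl
    rw [this]
    exact pow_mem (⟨doublePerm_mem, doublePerm_fix.1⟩ : doublePerm ∈ Spor.M23) _

theorem shiftPerm_mem_aff : shiftPerm ∈ aff := ⟨rfl, 0, 1, fun x => by simp [shiftPerm]⟩

theorem doublePerm_mem_aff : doublePerm ∈ aff :=
  ⟨rfl, 1, 0, fun x => by simp [doublePerm, twoUnit]⟩

theorem doublePerm_conj_shiftPerm : doublePerm * shiftPerm * doublePerm⁻¹ = shiftPerm ^ 2 := by
  refine Equiv.ext ?_
  decide +kernel

/-- In a subgroup the number of Sylow subgroups through a normaliser dividing a known order. -/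
theorem sylow_arith {M : Type*} [Group M] [Finite M] {p : ℕ} [hp : Fact p.Prime] (g : M)
    (hg : orderOf g = p) (hp2 : ¬p ^ 2 ∣ Nat.card M) {c : ℕ}
    (hN : Nat.card (Subgroup.normalizer ((Subgroup.zpowers g) : Set M)) = c) (K : Subgroup M)
    (hgK : g ∈ K) :
    ∃ m n, m ∣ c ∧ p ∣ m ∧ n % p = 1 ∧ n * m = Nat.card K ∧
      ∀ h ∈ K, h * g * h⁻¹ ∈ Subgroup.zpowers g → orderOf h ∣ m := by
  let gK : K := ⟨g, hgK⟩
  have hgo : orderOf gK = p := (Subgroup.orderOf_mk _ _).trans hg
  obtain ⟨P, hP⟩ := exists_sylow_zpowers gK hgo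
    fun h => hp2 (h.trans (Subgroup.card_subgroup_dvd_card K))
  refine ⟨Nat.card (Subgroup.normalizer ((P : Subgroup K) : Set K)), Nat.card (Sylow p K),
    ?_, ?_, ?_, ?_, ?_⟩
  · have hmap : (P : Subgroup K).map K.subtype = Subgroup.zpowers g := by
      rw [hP, MonoidHom.map_zpowers]; rfl
    rw [← hN, ← hmap, ← Subgroup.card_map_of_injective (f := K.subtype) K.subtype_injective]
    exact Subgroup.card_dvd_of_le (Subgroup.le_normalizer_map K.subtype)
  · refine (dvd_of_eq ?_).trans (Subgroup.card_dvd_of_le Subgroup.le_normalizer)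
    rw [hP, Nat.card_zpowers, hgo]
  · exact Eq.trans (card_sylow_modEq_one p K) (Nat.mod_eq_of_lt hp.out.one_lt)
  · rw [Sylow.card_eq_index_normalizer P]
    exact Subgroup.index_mul_card _
  · intro h hh hc
    have hmem : (⟨h, hh⟩ : K) ∈ Subgroup.normalizer ((P : Subgroup K) : Set K) := by
      rw [hP]
      have hc' : (⟨h, hh⟩ : K) * gK * (⟨h, hh⟩ : K)⁻¹ ∈ Subgroup.zpowers gK := by
        obtain ⟨j, hj⟩ := Subgroup.mem_zpowers_iff.mp hc
        exact Subgroup.mem_zpowers_iff.mpr ⟨j, Subtype.ext (by simpa [gK] using hj)⟩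
      have hle : (Subgroup.zpowers gK).map (MulAut.conj (⟨h, hh⟩ : K)).toMonoidHom ≤
          Subgroup.zpowers gK := by
        rw [MonoidHom.map_zpowers, Subgroup.zpowers_le]
        exact hc'
      have heq := Subgroup.eq_of_le_of_card_ge hle
        (le_of_eq (Subgroup.card_map_of_injective (MulAut.conj _).injective).symm)
      rw [Subgroup.mem_normalizer_iff]
      intro z
      conv_rhs => rw [← heq]
      rw [Subgroup.mem_map]
      exact ⟨fun hz => ⟨z, hz, rfl⟩, fun ⟨y, hy, he⟩ => (MulAut.conj _).injective he ▸ hy⟩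
    rw [← Subgroup.orderOf_mk h hh]
    exact Subgroup.orderOf_dvd_natCard _ hmem

theorem normalizer_shift (g : Spor.M23) (hg' : (g : Equiv.Perm GolayPt) = shiftPerm) :
    Nat.card (Subgroup.normalizer ((Subgroup.zpowers g) : Set Spor.M23)) = 253 := by
  have : Fact (Nat.Prime 23) := ⟨by norm_num⟩
  have hg : orderOf g = 23 := by rw [← Subgroup.orderOf_coe, hg', orderOf_shiftPerm]
  have hp2 : ¬23 ^ 2 ∣ Nat.card Spor.M23 := by rw [card_M23]; norm_num
  obtain ⟨P, hP⟩ := exists_sylow_zpowers g hg hp2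
  have hfix : ∀ m : Spor.M23, (m : Equiv.Perm GolayPt) none = none := fun m => m.2.2
  have hT : ∀ m : Spor.M23, ∀ x ≠ none, (m : Equiv.Perm GolayPt) x ≠ none := fun m x hx e =>
    hx ((m : Equiv.Perm GolayPt).injective (e.trans (hfix m).symm))
  have hle := card_normalizer_zpowers_le g hg (some 0) ({none}ᶜ : Finset GolayPt)
    (fun n _ => by simpa using hT n (some 0) (by simp))
    (fun m hm => Subtype.ext (Equiv.ext fun x => by
      rcases x with _ | x
      · exact hfix m
      · have := hm x.val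
        rw [hg', show (shiftPerm ^ x.val) (some 0) = some x from shift_pow_apply x] at this
        exact this))
  rw [← hP, Finset.card_compl, card_golayPt, Finset.card_singleton] at hle
  have hchk : ∀ m ≤ 22, 10200960 % (23 * m) = 0 → 10200960 / (23 * m) % 23 = 1 → m = 11 := by
    decide +kernel
  rw [← hP, card_normalizer_sylow card_M23 P (by rw [hP, Nat.card_zpowers, hg])
    (b := 22) (m₀ := 11) hle hchk]

theorem normalizer_double (g : Spor.M23) (hg' : (g : Equiv.Perm GolayPt) = doublePerm) :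
    Nat.card (Subgroup.normalizer ((Subgroup.zpowers g) : Set Spor.M23)) = 55 := by
  have : Fact (Nat.Prime 11) := ⟨by norm_num⟩
  have hg : orderOf g = 11 := by rw [← Subgroup.orderOf_coe, hg', orderOf_doublePerm]
  obtain ⟨P, hP⟩ := exists_sylow_zpowers g hg (by rw [card_M23]; norm_num)
  have hle := card_normalizer_M23_double g hg'
  rw [← hP] at hle ⊢
  rw [card_normalizer_sylow card_M23 P (by rw [hP, Nat.card_zpowers, hg]) (b := 5) (m₀ := 5) hle
    (by decide +kernel)]

theorem small_divisors : ((List.range 202).all fun k =>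
    k == 0 || 40320 % k != 0 || [11, 55].all fun m =>
      [k, 40320 / k].all fun n =>
        n == 1 || n == 40320 ||
          !(253 * n % m == 0 && 253 * n / 253 % 23 == 1 && 253 * n / m % 11 == 1)) = true := by
  decide +kernel

theorem card_between {K : Subgroup (Equiv.Perm GolayPt)} (h1 : aff ≤ K) (h2 : K ≤ Spor.M23) :
    Nat.card K = 253 ∨ Nat.card K = 10200960 := by
  have : Fact (Nat.Prime 23) := ⟨by norm_num⟩
  have : Fact (Nat.Prime 11) := ⟨by norm_num⟩
  set K' : Subgroup Spor.M23 := K.subgroupOf Spor.M23 with hK'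
  have hc : Nat.card K' = Nat.card K := Nat.card_congr (Subgroup.subgroupOfEquivOfLe h2).toEquiv
  let s : Spor.M23 := ⟨shiftPerm, shiftPerm_mem_M23⟩
  let d : Spor.M23 := ⟨doublePerm, doublePerm_mem, doublePerm_fix.1⟩
  obtain ⟨m, n, hm, hpm, hn, hnm, hord⟩ := sylow_arith s
    ((Subgroup.orderOf_mk _ _).trans orderOf_shiftPerm) (by rw [card_M23]; norm_num)
    (normalizer_shift s rfl) K' (show shiftPerm ∈ K from h1 shiftPerm_mem_aff)
  obtain ⟨m', n', hm', hpm', hn', hnm', -⟩ := sylow_arith d
    ((Subgroup.orderOf_mk _ _).trans orderOf_doublePerm) (by rw [card_M23]; norm_num)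
    (normalizer_double d rfl) K' (show doublePerm ∈ K from h1 doublePerm_mem_aff)
  have h11 : 11 ∣ m := by
    have h := hord d (show doublePerm ∈ K from h1 doublePerm_mem_aff)
      (Subgroup.mem_zpowers_iff.mpr ⟨(2 : ℕ), Subtype.ext (by
        simp only [Subgroup.coe_mul, Subgroup.coe_inv, zpow_natCast, Subgroup.coe_pow]
        exact doublePerm_conj_shiftPerm.symm)⟩)
    rwa [show orderOf d = 11 from (Subgroup.orderOf_mk _ _).trans orderOf_doublePerm] at h
  obtain rfl : m = 253 := Nat.dvd_antisymm hm (Nat.Coprime.mul_dvd_of_dvd_of_dvd (by norm_num) hpm h11)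
  have hm5 : m' ∈ [11, 55] := by
    have : m' ∈ Nat.divisors 55 := Nat.mem_divisors.mpr ⟨hm', by norm_num⟩
    rw [show Nat.divisors 55 = {1, 5, 11, 55} by decide] at this
    simp only [Finset.mem_insert, Finset.mem_singleton] at this
    rcases this with rfl | rfl | rfl | rfl <;> simp_all
  have hdvd : n ∣ 40320 := by
    have h := Subgroup.card_subgroup_dvd_card K'
    rw [card_M23, ← hnm, show (10200960 : ℕ) = 40320 * 253 by norm_num] at h
    exact Nat.dvd_of_mul_dvd_mul_right (by norm_num) h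
  have e : 253 * n = n' * m' := by rw [hnm', ← hnm, mul_comm]
  have emod : 253 * n % m' = 0 := by rw [e, Nat.mul_mod_left]
  have ediv : 253 * n / m' % 11 = 1 := by
    rw [e, Nat.mul_div_cancel _ (Nat.pos_of_dvd_of_pos hm' (by norm_num)), hn']
  have e23 : 253 * n / 253 % 23 = 1 := by rw [Nat.mul_div_cancel_left _ (by norm_num), hn]
  have hcases : n = 1 ∨ n = 40320 := by
    obtain ⟨j, hj⟩ := hdvd
    have hn0 : 0 < n := by
      rcases Nat.eq_zero_or_pos n with rfl | h
      · simp at hj
      · exact h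
    have hj0 : 0 < j := by
      rcases Nat.eq_zero_or_pos j with rfl | h
      · simp at hj
      · exact h
    obtain ⟨k, hk, hk0, hkdvd, hkn⟩ :
        ∃ k, k < 202 ∧ 0 < k ∧ 40320 % k = 0 ∧ n ∈ [k, 40320 / k] := by
      by_cases hlt : n < 202
      · exact ⟨n, hlt, hn0, by rw [hj, Nat.mul_mod_right], by simp⟩
      · exact ⟨j, by nlinarith, hj0, by rw [hj, Nat.mul_mod_left],
          by simp [hj, Nat.mul_div_cancel _ hj0]⟩
    have h := List.all_eq_true.mp small_divisors k (List.mem_range.mpr hk)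
    simp only [Bool.or_eq_true, beq_iff_eq, bne_iff_ne, Nat.pos_iff_ne_zero.mp hk0, hkdvd, ne_eq,
      not_true, false_or] at h
    have h' := List.all_eq_true.mp (List.all_eq_true.mp h m' hm5) n hkn
    simpa [emod, ediv, e23, hn] using h'
  rw [← hc, ← hnm]
  rcases hcases with rfl | rfl <;> norm_num

/-- Coset representatives of the affine maps in the projective group. -/
def rep : GolayPt → Equiv.Perm GolayPt
  | none => 1
  | some b => tr b * projInv

/-- Decidable form of membership in the affine maps. -/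
def IsAffine (g : Equiv.Perm GolayPt) : Prop :=
  g none = none ∧ ∃ k : Fin 11, ∀ x : ZMod 23,
    g (some x) = (g (some 0)).map fun b => 2 ^ k.val * x + b

theorem mem_aff_of_isAffine {g : Equiv.Perm GolayPt} (h : IsAffine g) : g ∈ aff := by
  obtain ⟨g0, k, hk⟩ := h
  rcases hb : g (some 0) with _ | b
  · exact absurd (g.injective (hb.trans g0.symm)) (Option.some_ne_none _)
  · exact ⟨g0, k, b, fun x => by rw [hk, hb]; rfl⟩

instance : DecidablePred IsAffine := fun g =>
  inferInstanceAs (Decidable (g none = none ∧ ∃ k : Fin 11, ∀ x : ZMod 23,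
    g (some x) = (g (some 0)).map fun b => 2 ^ k.val * x + b))

theorem coset_shift : ∀ x, IsAffine ((rep (tr 1 x))⁻¹ * tr 1 * rep x) := by
  decide +kernel

theorem coset_double : ∀ x, IsAffine ((rep (doublePerm x))⁻¹ * doublePerm * rep x) := by
  decide +kernel

theorem coset_inv : ∀ x, IsAffine ((rep (projInv x))⁻¹ * projInv * rep x) := by
  decide +kernel

theorem rep_none : ∀ x, rep x none = x := by decide +kernel

/-- The group generated by translation, doubling and the inversion. -/
def pslGroup : Subgroup (Equiv.Perm GolayPt) :=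
  Subgroup.closure ({Equiv.optionCongr (Equiv.addRight (1 : ZMod 23)), Cfsg.projInv} ∪
    {g : Equiv.Perm Cfsg.GolayPt | ∃ u : (ZMod 23)ˣ, IsSquare u ∧
      g = Equiv.optionCongr (Units.mulLeft u)})

theorem aff_le_psl : aff ≤ pslGroup := by
  rw [← closure_affine]
  exact Subgroup.closure_mono (Set.union_subset_union_left _ (by simp))

theorem projInv_mem_psl : projInv ∈ pslGroup := Subgroup.subset_closure (Or.inl (by simp))

theorem psl_le_M24 : pslGroup ≤ M24 := by
  rw [pslGroup, Subgroup.closure_le]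
  rintro g ((rfl | rfl) | hg)
  · exact shiftPerm_mem
  · exact projInv_mem
  · have : g ∈ aff := by rw [← closure_affine]; exact Subgroup.subset_closure (Or.inr hg)
    exact (aff_le_M23 this).1

theorem rep_mem_psl : ∀ x, rep x ∈ pslGroup
  | none => one_mem _
  | some b => mul_mem (aff_le_psl ⟨rfl, 0, b, fun x => by simp [tr]⟩) projInv_mem_psl

theorem psl_coset {g : Equiv.Perm GolayPt} (hg : g ∈ pslGroup) : ∃ x, ∃ f ∈ aff, g = rep x * f := by
  let T : Set (Equiv.Perm GolayPt) := {g | ∃ x, ∃ f ∈ aff, g = rep x * f}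
  have hstab : ∀ s, (∀ x, (rep (s x))⁻¹ * s * rep x ∈ aff) →
      s ∈ MulAction.stabilizer (Equiv.Perm GolayPt) T := by
    intro s hs
    refine MulAction.mem_stabilizer_iff.mpr (Set.eq_of_subset_of_ncard_le ?_ ?_ (Set.toFinite _))
    · rintro _ ⟨_, ⟨x, f, hf, rfl⟩, rfl⟩
      refine ⟨s x, _, mul_mem (hs x) hf, ?_⟩
      simp only [smul_eq_mul]
      group
    · rw [← Set.image_smul, Set.ncard_image_of_injective _ (MulAction.injective s)]
  have hle : pslGroup ≤ MulAction.stabilizer (Equiv.Perm GolayPt) T := by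
    have h : ∀ s ∈ [tr 1, doublePerm, projInv],
        s ∈ MulAction.stabilizer (Equiv.Perm GolayPt) T :=
      fun s hs => hstab s fun x => mem_aff_of_isAffine (by
        simp only [List.mem_cons, List.not_mem_nil, or_false] at hs
        rcases hs with rfl | rfl | rfl
        exacts [coset_shift x, coset_double x, coset_inv x])
    rw [pslGroup, Subgroup.closure_le]
    rintro z ((rfl | rfl) | ⟨u, hu, rfl⟩)
    · exact h (tr 1) (by simp)
    · exact h _ (by simp)
    · obtain ⟨k, hk⟩ := square_unit u hu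
      have hd : ∀ (k : Fin 11) (x : ZMod 23), (doublePerm ^ k.val) (some x) = some (2 ^ k.val * x) ∧
          (doublePerm ^ k.val) none = none := by decide +kernel
      rw [show Equiv.optionCongr (Units.mulLeft u) = doublePerm ^ k.val from Equiv.ext fun p => by
        rcases p with _ | x
        · exact ((hd k 0).2).symm
        · rw [(hd k x).1, ← hk]; rfl]
      exact pow_mem (h _ (by simp)) _
  have h1 : g • (1 : Equiv.Perm GolayPt) ∈ g • T :=
    Set.smul_mem_smul_set ⟨none, 1, one_mem _, by simp [rep]⟩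
  rw [MulAction.mem_stabilizer_iff.mp (hle hg), smul_eq_mul, mul_one] at h1
  exact h1

theorem psl_stab : pslGroup ⊓ MulAction.stabilizer (Equiv.Perm GolayPt) (none : GolayPt) = aff := by
  refine le_antisymm ?_ (le_inf aff_le_psl fun g hg => hg.1)
  rintro g ⟨hg, h0⟩
  obtain ⟨x, f, hf, rfl⟩ := psl_coset hg
  have : rep x (f none) = none := h0
  rw [hf.1, rep_none] at this
  subst this
  simpa [rep] using hf

theorem card_of_transitive {H : Subgroup (Equiv.Perm GolayPt)} (h : pslGroup ≤ H) :
    Nat.card H = 24 * Nat.card ↥(H ⊓ MulAction.stabilizer (Equiv.Perm GolayPt) (none : GolayPt)) := by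
  have : MulAction.IsPretransitive H GolayPt :=
    (MulAction.isPretransitive_iff_base (G := H) (none : GolayPt)).mpr fun x =>
      ⟨⟨rep x, h (rep_mem_psl x)⟩, rep_none x⟩
  rw [← Nat.card_congr (stabilizerInfEquiv H (none : GolayPt)).toEquiv,
    ← Subgroup.index_mul_card (MulAction.stabilizer H (none : GolayPt)),
    MulAction.index_stabilizer_of_transitive, Nat.card_eq_fintype_card, card_golayPt]

theorem card_psl : Nat.card pslGroup = 6072 := by
  rw [card_of_transitive le_rfl, psl_stab, card_aff]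

theorem psl_coatom : IsCoatom (pslGroup.subgroupOf M24) := by
  refine ⟨fun h => ?_, fun H hH => ?_⟩
  · rw [Subgroup.subgroupOf_eq_top] at h
    have := Subgroup.card_le_of_le h
    rw [card_psl, card_M24] at this
    norm_num at this
  · set K := H.map M24.subtype with hK
    have hle : pslGroup ≤ K := fun g hg =>
      ⟨⟨g, psl_le_M24 hg⟩, hH.le hg, rfl⟩
    have hKc : Nat.card K = Nat.card H := Subgroup.card_map_of_injective M24.subtype_injective
    have hK24 : K ≤ M24 := by rintro _ ⟨g, -, rfl⟩; exact g.2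
    rcases card_between (K := K ⊓ MulAction.stabilizer (Equiv.Perm GolayPt) (none : GolayPt))
      (psl_stab.ge.trans (inf_le_inf_right _ hle)) (inf_le_inf_right _ hK24) with h | h
    · exfalso
      refine hH.ne (Subgroup.eq_of_le_of_card_ge hH.le (le_of_eq ?_))
      rw [← hKc, card_of_transitive hle, h,
        Nat.card_congr (Subgroup.subgroupOfEquivOfLe psl_le_M24).toEquiv, card_psl]
    · refine Subgroup.eq_top_of_card_eq _ ?_
      rw [← hKc, card_of_transitive hle, h, card_M24]

theorem aff_coatom : IsCoatom ((aff.subgroupOf M24).subgroupOf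
    (MulAction.stabilizer M24 (none : GolayPt))) := by
  set S := MulAction.stabilizer M24 (none : GolayPt) with hS
  have hcS : Nat.card S = 10200960 :=
    (Nat.card_congr (stabilizerInfEquiv M24 (none : GolayPt)).toEquiv).trans card_M23
  have hcA : Nat.card ((aff.subgroupOf M24).subgroupOf S) = 253 := by
    rw [Nat.card_congr (Subgroup.subgroupOfEquivOfLe ?_).toEquiv,
      Nat.card_congr (Subgroup.subgroupOfEquivOfLe (aff_le_M23.trans inf_le_left)).toEquiv, card_aff]
    intro g hg
    exact (aff_le_M23 (Subgroup.mem_subgroupOf.mp hg)).2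
  refine ⟨fun h => ?_, fun H hH => ?_⟩
  · rw [h, Subgroup.card_top, hcS] at hcA
    norm_num at hcA
  · set K := (H.map S.subtype).map M24.subtype with hK
    have hKc : Nat.card K = Nat.card H := by
      rw [Subgroup.card_map_of_injective M24.subtype_injective,
        Subgroup.card_map_of_injective S.subtype_injective]
    have h1 : aff ≤ K := fun g hg =>
      ⟨⟨g, (aff_le_M23 hg).1⟩, ⟨⟨⟨g, (aff_le_M23 hg).1⟩, (aff_le_M23 hg).2⟩, hH.le hg, rfl⟩, rfl⟩
    have h2 : K ≤ Spor.M23 := by
      rintro _ ⟨_, ⟨g, -, rfl⟩, rfl⟩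
      exact ⟨(g : M24).2, g.2⟩
    rcases card_between h1 h2 with h | h
    · exact absurd (Subgroup.eq_of_le_of_card_ge hH.le (by rw [hcA, ← hKc, h])) hH.ne
    · exact Subgroup.eq_top_of_card_eq _ (by rw [← hKc, h, hcS])


/-- PSL(2, 23) = ⟨t ↦ t+1, t ↦ u t (u square), t ↦ −1/t⟩ is maximal of order 6072 in the group of the length-24 code, and its point stabiliser 23:11 (order 253) is maximal in the Mathieu group of degree 23. -/
theorem result : (Subgroup.closure ({Equiv.optionCongr (Equiv.addRight (1 : ZMod 23)), Cfsg.projInv} ∪ {g : Equiv.Perm Cfsg.GolayPt | ∃ u : (ZMod 23)ˣ, IsSquare u ∧ g = Equiv.optionCongr (Units.mulLeft u)}) ≤ Cfsg.M24 ∧ Nat.card ↥(Subgroup.closure ({Equiv.optionCongr (Equiv.addRight (1 : ZMod 23)), Cfsg.projInv} ∪ {g : Equiv.Perm Cfsg.GolayPt | ∃ u : (ZMod 23)ˣ, IsSquare u ∧ g = Equiv.optionCongr (Units.mulLeft u)})) = 6072 ∧ IsCoatom ((Subgroup.closure ({Equiv.optionCongr (Equiv.addRight (1 : ZMod 23)), Cfsg.projInv} ∪ {g : Equiv.Perm Cfsg.GolayPt | ∃ u : (ZMod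 23)ˣ, IsSquare u ∧ g = Equiv.optionCongr (Units.mulLeft u)})).subgroupOf Cfsg.M24)) ∧ (Subgroup.closure ({Equiv.optionCongr (Equiv.addRight (1 : ZMod 23))} ∪ {g : Equiv.Perm Cfsg.GolayPt | ∃ u : (ZMod 23)ˣ, IsSquare u ∧ g = Equiv.optionCongr (Units.mulLeft u)}) ≤ Cfsg.M24 ⊓ MulAction.stabilizer (Equiv.Perm Cfsg.GolayPt) (none : Cfsg.GolayPt) ∧ Nat.card ↥(Subgroup.closure ({Equiv.optionCongr (Equiv.addRight (1 : ZMod 23))} ∪ {g : Equiv.Perm Cfsg.GolayPt | ∃ u : (ZMod 23)ˣ, IsSquare u ∧ g = Equiv.optionCongr (Units.mulLeft u)})) = 253 ∧ IsCoatom (((Subgroup.closure ({Equiv.optionCongr (Equiv.addRight (1 : ZMod 23))} ∪ {g : Equiv.Perm Cfsg.GolayPt | ∃ u : (ZMod 23)ˣ, IsSquare u ∧ g = Equiv.optionCongr (Units.mulLeft u)})).subgroupOf Cfsg.M24).subgroupOf (MulAction.stabilizer Cfsg.M24 (none : Cfsg.GolayPt)))) := by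
  rw [closure_affine]
  refine ⟨⟨psl_le_M24, card_psl, psl_coatom⟩, ?_, card_aff, aff_coatom⟩
  exact aff_le_M23

end Cfsg.Agent.S1643
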