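import Cfsg.Statements.S1651
import Cfsg.Agent.J2Type.WeakClosure
import Cfsg.Agent.J2Type.Gens
import Cfsg.Agent.Janko2.Unitary
import Mathlib.FieldTheory.Finite.GaloisField

set_option autoImplicit false
open Cfsg

namespace Cfsg.Agent.S1651

/-- A group of Hall–Janko type contains U₃(3): let a finite simple group have exactly two conjugacy classes of involutions and an involution t whose centraliser C has a normal extraspecial subgroup Q of order 32 with no elementary abelian subgroup of order 8, whose centraliser in C lies in Q, with C / Q isomorphic to the alternating group of degree 5. Then the group has a subgroup isomorphic to PSU(3, 3), realised over a field with 9 elements. -/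
theorem result {G : Type*} [Group G] [Finite G] [IsSimpleGroup G] (t : G) (ht : orderOf t = 2) (Q : Subgroup (Subgroup.centralizer ({t} : Set G))) [Q.Normal] (hQ : Cfsg.IsExtraspecial 2 Q) (hcard : Nat.card Q = 32) (hminus : ∀ E : Subgroup Q, Cfsg.IsElementaryAbelian 2 E → Nat.card E ≤ 2 ^ 2) (h2c : Subgroup.centralizer (Q : Set (Subgroup.centralizer ({t} : Set G))) ≤ Q) (e : (Subgroup.centralizer ({t} : Set G)) ⧸ Q ≃* alternatingGroup (Fin 5)) (htwo : ∃ x y : G, orderOf x = 2 ∧ orderOf y = 2 ∧ ¬ IsConj x y ∧ ∀ z : G, orderOf z = 2 → IsConj z x ∨ IsConj z y) : ∃ (H : Subgroup G) (K : Type) (_ : Field K) (_ : Fintype K), Fintype.card K = 9 ∧ Nonempty (H ≃* Cfsg.PSU 3 K 3) := by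
  obtain ⟨a, b, ha, hb, hab, -⟩ := htwo
  obtain ⟨p, x, c⟩ := Cfsg.Agent.J2Type.exists_cfg_of_simple t ht Q hQ hcard hminus h2c e ⟨a, b, ha, hb, hab⟩
  obtain ⟨i⟩ := c.nonempty_iso_model
  haveI : Fact (Nat.Prime 3) := ⟨Nat.prime_three⟩
  let F := GaloisField 3 2
  haveI : Fintype F := Fintype.ofFinite _
  have hF : Fintype.card F = 9 := by
    rw [← Nat.card_eq_fintype_card, GaloisField.card 3 2 two_ne_zero]
    norm_num
  obtain ⟨f⟩ := Cfsg.Agent.Janko2.Hs_psu hF
  exact ⟨Cfsg.Agent.Janko2.Hs.map i.symm.toMonoidHom, F, inferInstance, inferInstance, hF,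
    ⟨(Cfsg.Agent.Janko2.Hs.equivMapOfInjective i.symm.toMonoidHom i.symm.injective).symm.trans f⟩⟩

end Cfsg.Agent.S1651
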