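import Cfsg.Statements.S1665
import Cfsg.Agent.J2Type.WeakClosure
import Cfsg.Agent.J2Type.Gens
import Cfsg.Agent.Janko2.Group

set_option autoImplicit false
open Cfsg

namespace Cfsg.Agent.S1665

/-- Uniqueness of the Hall–Janko group at the level of isomorphism: a finite simple group with exactly two conjugacy classes of involutions, having an involution t whose centraliser C has a normal extraspecial subgroup Q of order 32 with no elementary abelian subgroup of order 8 whose centraliser in C lies in Q, and with C / Q isomorphic to the alternating group of degree 5, is isomorphic to the Hall–Janko group J₂ (the reflection group of the icosian Leech lattice modulo its centre). -/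
theorem result {G : Type*} [Group G] [Finite G] [IsSimpleGroup G] (t : G) (ht : orderOf t = 2) (Q : Subgroup (Subgroup.centralizer ({t} : Set G))) [Q.Normal] (hQ : Cfsg.IsExtraspecial 2 Q) (hcard : Nat.card Q = 32) (hminus : ∀ E : Subgroup Q, Cfsg.IsElementaryAbelian 2 E → Nat.card E ≤ 2 ^ 2) (h2c : Subgroup.centralizer (Q : Set (Subgroup.centralizer ({t} : Set G))) ≤ Q) (e : (Subgroup.centralizer ({t} : Set G)) ⧸ Q ≃* alternatingGroup (Fin 5)) (htwo : ∃ x y : G, orderOf x = 2 ∧ orderOf y = 2 ∧ ¬ IsConj x y ∧ ∀ z : G, orderOf z = 2 → IsConj z x ∨ IsConj z y) : Cfsg.Spor.IsoJ2 G := by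
  obtain ⟨a, b, ha, hb, hab, -⟩ := htwo
  obtain ⟨p, x, c⟩ := Cfsg.Agent.J2Type.exists_cfg_of_simple t ht Q hQ hcard hminus h2c e ⟨a, b, ha, hb, hab⟩
  obtain ⟨i⟩ := c.nonempty_iso_model
  exact ⟨i.trans Cfsg.Agent.Janko2.j2Equiv.symm⟩

end Cfsg.Agent.S1665
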