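import Cfsg.Statements.S1669
import Cfsg.Agent.RuRank.Main

set_option autoImplicit false
open Cfsg

namespace Cfsg.Agent.S1669

open RuRank MulAction in
/-- Recognition of the Rudvalis group as a rank 3 permutation group: a transitive permutation group on 4060 points in which the stabiliser of a point is isomorphic to the Ree group ²F₄(2) and has two further orbits, of sizes 1755 and 2304, is isomorphic to the Rudvalis group. -/
theorem result {Ω : Type*} [Fintype Ω] [DecidableEq Ω] (hΩ : Fintype.card Ω = 4060) (G : Subgroup (Equiv.Perm Ω)) [MulAction.IsPretransitive G Ω] (a : Ω)  (e : MulAction.stabilizer G a ≃* Cfsg.Lie.twistedF4 (ZMod 2) 1) (b c : Ω) (hb : (MulAction.orbit (MulAction.stabilizer G a) b).ncard = 1755) (hc : (MulAction.orbit (MulAction.stabilizer G a) c).ncard = 2304) : Cfsg.Spor.IsoRu G := by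
  obtain ⟨ε⟩ := tits_iso
  obtain ⟨G', ⟨φ⟩, htr, hst⟩ := exists_transport card_S0 (fun _ hg => cls_smul hg) (fun _ => cls_eq_zero) hΩ G a (e.trans ε) b c hb hc index_1755 (index_2304 S0_le_closure)
  obtain ⟨ψ⟩ := isoRu_RK
  exact ⟨(φ.trans (MulEquiv.subgroupCongr (eq_RK G' (adj_invariant G' htr hst) htr hst))).trans ψ⟩

end Cfsg.Agent.S1669
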