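import Cfsg.Statements.S1680
import Cfsg.Agent.CosetCert.SuzukiG.Main
-- import your own Cfsg.Agent.* helpers here

set_option autoImplicit false
open Cfsg

namespace Cfsg.Agent.S1680

/-- In the presented sporadic Suzuki group, let H be the subgroup generated by the images of a, …, f. Then H has index 1782, H has orbits of sizes 416 and 1365 on the cosets of H other than H itself (with the index 1782 this makes the action rank 3). -/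
theorem result : (((Subgroup.closure ({Cfsg.Spor.Suz.a, Cfsg.Spor.Suz.b, Cfsg.Spor.Suz.c, Cfsg.Spor.Suz.d, Cfsg.Spor.Suz.e, Cfsg.Spor.Suz.f} : Set (FreeGroup Cfsg.Spor.Suz.Gen))).map (PresentedGroup.mk (Cfsg.Spor.coxRelators Cfsg.Spor.Suz.edges ∪ {r | r ∈ Cfsg.Spor.Suz.extra})))).index = 1782 ∧ ∃ q₁ q₂ : Cfsg.Spor.Suz ⧸ (((Subgroup.closure ({Cfsg.Spor.Suz.a, Cfsg.Spor.Suz.b, Cfsg.Spor.Suz.c, Cfsg.Spor.Suz.d, Cfsg.Spor.Suz.e, Cfsg.Spor.Suz.f} : Set (FreeGroup Cfsg.Spor.Suz.Gen))).map (PresentedGroup.mk (Cfsg.Spor.coxRelators Cfsg.Spor.Suz.edges ∪ {r | r ∈ Cfsg.Spor.Suz.extra})))), (MulAction.orbit (((Subgroup.closure ({Cfsg.Spor.Suz.a, Cfsg.Spor.Suz.b, Cfsg.Spor.Suz.c, Cfsg.Spor.Suz.d, Cfsg.Spor.Suz.e, Cfsg.Spor.Suz.f} : Set (FreeGroup Cfsg.Spor.Suz.Gen))).map (PresentedGroup.mk (Cfsg.Spor.coxRelators Cfsg.Spor.Suz.edges ∪ {r | r ∈ Cfsg.Spor.Suz.extra}))))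 q₁).ncard = 416 ∧ (MulAction.orbit (((Subgroup.closure ({Cfsg.Spor.Suz.a, Cfsg.Spor.Suz.b, Cfsg.Spor.Suz.c, Cfsg.Spor.Suz.d, Cfsg.Spor.Suz.e, Cfsg.Spor.Suz.f} : Set (FreeGroup Cfsg.Spor.Suz.Gen))).map (PresentedGroup.mk (Cfsg.Spor.coxRelators Cfsg.Spor.Suz.edges ∪ {r | r ∈ Cfsg.Spor.Suz.extra})))) q₂).ncard = 1365 := by
  have hS : ({Cfsg.Spor.Suz.a, Cfsg.Spor.Suz.b, Cfsg.Spor.Suz.c, Cfsg.Spor.Suz.d, Cfsg.Spor.Suz.e, Cfsg.Spor.Suz.f} : Set (FreeGroup Cfsg.Spor.Suz.Gen)) = {r | r ∈ Cfsg.Agent.CosetCert.SuzukiG.gensList} := by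
    ext r
    simp [Cfsg.Agent.CosetCert.SuzukiG.gensList]
  rw [hS]
  refine ⟨(Cfsg.Agent.CosetCert.index_eq Cfsg.Agent.CosetCert.SuzukiG.valid Cfsg.Agent.CosetCert.SuzukiG.word_letters Cfsg.Agent.CosetCert.SuzukiG.base_letters).trans (by decide +kernel), ?_⟩
  obtain ⟨e, he⟩ := Cfsg.Agent.CosetCert.orbit_ncard Cfsg.Agent.CosetCert.SuzukiG.valid Cfsg.Agent.CosetCert.SuzukiG.word_letters Cfsg.Agent.CosetCert.SuzukiG.base_letters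
  obtain ⟨q0, hq0, hc0, hm0⟩ := he _ Cfsg.Agent.CosetCert.SuzukiG.orbit0_valid
  obtain ⟨q1, hq1, hc1, hm1⟩ := he _ Cfsg.Agent.CosetCert.SuzukiG.orbit1_valid
  exact ⟨q0, q1, hc0.trans (by decide +kernel), hc1.trans (by decide +kernel)⟩

end Cfsg.Agent.S1680
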