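import Cfsg.Statements.S1714
import Cfsg.Agent.FiTrans.Near
import Cfsg.Agent.FiTrans.Quot

set_option autoImplicit false
open Cfsg Cfsg.Agent.TTLink Cfsg.Agent.ThreeTransp45 Cfsg.Agent.SporB Cfsg.Agent.FiTrans

namespace Cfsg.Agent.S1714

/-- The Fischer group Fi₂₃ from a transposition centraliser: let G be a finite group with an involution d such that the centraliser C of d is quasisimple, C modulo the subgroup generated by d is isomorphic to the presented Fischer group Fi₂₂, and some conjugate of d different from d commutes with d. Then G is isomorphic to the presented Fischer group Fi₂₃. -/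
theorem result {G : Type*} [Group G] [Finite G] (d : G) (hd : orderOf d = 2) (hq : Cfsg.IsQuasisimple (Subgroup.centralizer ({d} : Set G))) [((Subgroup.zpowers d).subgroupOf (Subgroup.centralizer ({d} : Set G))).Normal] (e : Cfsg.Spor.IsoFi22 ((Subgroup.centralizer ({d} : Set G)) ⧸ (Subgroup.zpowers d).subgroupOf (Subgroup.centralizer ({d} : Set G)))) (hnwc : ∃ g : G, g * d * g⁻¹ ∈ Subgroup.centralizer ({d} : Set G) ∧ g * d * g⁻¹ ≠ d) : Cfsg.Spor.IsoFi23 G := by
  obtain ⟨φ⟩ := e
  haveI := finite22
  haveI : IsSimpleGroup Cfsg.Spor.Fi22 := CosetEnum.FiTwentyTwo.main.1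
  have P : M22Prim (φ.symm '' conjugatesOf (PresentedGroup.of Cfsg.Spor.Fi22.Gen.a : Cfsg.Spor.Fi22)) :=
    m22Prim_image φ.symm fi22Prim
  obtain ⟨ε, -⟩ := (hyp_quot hd hq P hnwc).iso_model
  exact ⟨ε⟩

end Cfsg.Agent.S1714
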