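import Cfsg.Statements.S1717
import Cfsg.Agent.SporRec.Transvection
-- import your own Cfsg.Agent.* helpers here

set_option autoImplicit false
open Cfsg

namespace Cfsg.Agent.S1717

/-- Let G be a finite group with an involution z whose centraliser C is isomorphic to the centraliser of a transvection of SL(5, 2). Then a Sylow 2-subgroup of C, viewed in G, is a Sylow 2-subgroup of G (its index in G is odd). -/
theorem result {G : Type*} [Group G] [Finite G] (s : Matrix.SpecialLinearGroup (Fin 5) (ZMod 2)) (hs : (s : Matrix (Fin 5) (Fin 5) (ZMod 2)) = Matrix.transvection 0 1 1) (z : G) (hz : orderOf z = 2) (e : (Subgroup.centralizer ({z} : Set G)) ≃* Subgroup.centralizer ({s} : Set (Matrix.SpecialLinearGroup (Fin 5) (ZMod 2)))) (T : Sylow 2 (Subgroup.centralizer ({z} : Set G))) : ¬ 2 ∣ ((T : Subgroup (Subgroup.centralizer ({z} : Set G))).map (Subgroup.subtype (Subgroup.centralizer ({z} : Set G)))).index := by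
  classical
  have : Fact (Nat.Prime 2) := ⟨Nat.prime_two⟩
  let C := Subgroup.centralizer ({z} : Set G)
  have hzC : z ∈ C := Subgroup.mem_centralizer_singleton_iff.2 rfl
  let zc : C := ⟨z, hzC⟩
  have hzc : orderOf zc = 2 := by rw [← Subgroup.orderOf_coe]; exact hz
  have hzcen : ∀ y : C, y * zc = zc * y := fun y =>
    Subtype.ext (Subgroup.mem_centralizer_singleton_iff.1 y.2)
  -- Sylow centres
  have hcentre : ∀ (T₀ : Sylow 2 C) (x : C), x ∈ T₀ → (∀ y ∈ T₀, y * x = x * y) → x = 1 ∨ x = zc := by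
    intro T₀ x hxT hx
    let T₁ : Sylow 2 (Subgroup.centralizer ({s} : Set (Matrix.SpecialLinearGroup (Fin 5) (ZMod 2)))) :=
      IsPGroup.toSylow (p := 2) (P := (T₀ : Subgroup C).map (e : C →* _))
        (T₀.2.map _) (by
          rw [Subgroup.index_map_equiv]
          exact T₀.not_dvd_index)
    have key : ∀ w : C, w ∈ T₀ → (∀ y ∈ T₀, y * w = w * y) → e w = 1 ∨ ((e w : _) : Matrix.SpecialLinearGroup (Fin 5) (ZMod 2)) = s := by
      intro w hw hwc
      refine Cfsg.Agent.SporRec.tv_sylow_center s hs T₁ (e w) ⟨w, hw, rfl⟩ ?_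
      rintro _ ⟨y, hy, rfl⟩
      show e y * e w = e w * e y
      rw [← map_mul, ← map_mul, hwc y hy]
    have hzT : zc ∈ T₀ := by
      have hp : IsPGroup 2 (Subgroup.zpowers zc) := IsPGroup.of_card (n := 1) (by rw [Nat.card_zpowers, hzc, pow_one])
      haveI : (Subgroup.zpowers zc).Normal := ⟨fun n hn g => by
        obtain ⟨k, rfl⟩ := Subgroup.mem_zpowers_iff.1 hn
        have : g * zc ^ k = zc ^ k * g := ((show Commute g zc from hzcen g).zpow_right k)
        rw [this, mul_inv_cancel_right]
        exact Subgroup.zpow_mem _ (Subgroup.mem_zpowers zc) k⟩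
      obtain ⟨S, hS⟩ := hp.exists_le_sylow
      obtain ⟨g, hg⟩ := MulAction.exists_smul_eq C S T₀
      rw [← hg]
      have h := Subgroup.smul_mem_pointwise_smul zc (MulAut.conj g) (S : Subgroup C) (hS (Subgroup.mem_zpowers zc))
      have he : (MulAut.conj g) • zc = zc := by
        show g * zc * g⁻¹ = zc
        rw [hzcen g, mul_inv_cancel_right]
      rw [he] at h
      exact h
    have hz1 : e zc ≠ 1 := fun h => by
      have : zc = 1 := e.injective (h.trans (map_one e).symm)
      rw [this, orderOf_one] at hzc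
      exact absurd hzc (by decide)
    rcases key x hxT hx with h | h
    · exact Or.inl (e.injective (h.trans (map_one e).symm))
    · refine Or.inr (e.injective (Subtype.ext ?_))
      exact h.trans ((key zc hzT fun y _ => hzcen y).resolve_left hz1).symm
  let T' : Subgroup G := (T : Subgroup C).map C.subtype
  intro hdvd
  obtain ⟨P, hP⟩ := (T.2.map C.subtype).exists_le_sylow
  have hne : T' ≠ (P : Subgroup G) := fun h => P.not_dvd_index (h ▸ hdvd)
  have hlt : T' < (P : Subgroup G) := lt_of_le_of_ne hP hne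
  -- in the 2-group P the normaliser of T' is larger
  haveI : Group.IsNilpotent (P : Subgroup G) := P.2.isNilpotent
  have hlt' : T'.subgroupOf (P : Subgroup G) < ⊤ := by
    rw [lt_top_iff_ne_top]
    intro h
    exact hne (le_antisymm hP (Subgroup.subgroupOf_eq_top.1 h))
  obtain ⟨n, hn, hnT⟩ := SetLike.exists_of_lt (normalizerCondition_of_isNilpotent _ hlt')
  have hzT' : z ∈ T' := by
    by_contra hzn
    -- the centre of T is non-trivial
    haveI : Nontrivial (T : Subgroup C) := by
      rw [Subgroup.nontrivial_iff_ne_bot]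
      intro hbot
      have h2 : 2 ∣ Nat.card C := hzc ▸ orderOf_dvd_natCard zc
      apply T.not_dvd_index
      rw [hbot, Subgroup.index_bot]
      exact h2
    have hnt := T.2.center_nontrivial
    obtain ⟨w, hw⟩ := exists_ne (1 : Subgroup.center (T : Subgroup C))
    rcases hcentre T (w.1.1) w.1.2 (fun y hy => congrArg Subtype.val ((Subgroup.mem_center_iff.1 w.2) ⟨y, hy⟩)) with h | h
    · exact hw (Subtype.ext (Subtype.ext h))
    · exact hzn ⟨zc, h ▸ w.1.2, rfl⟩
  have hnorm : ∀ x ∈ T', (n : G) * x * (n : G)⁻¹ ∈ T' := by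
    intro x hx
    exact (Subgroup.mem_normalizer_iff.1 hn ⟨x, hP hx⟩).1 hx
  have hnorm' : ∀ x ∈ T', (n : G)⁻¹ * x * (n : G) ∈ T' := by
    intro x hx
    have h := (Subgroup.mem_normalizer_iff.1 (Subgroup.inv_mem _ hn) ⟨x, hP hx⟩).1 hx
    simpa [Subgroup.mem_subgroupOf] using h
  -- n fixes z
  obtain ⟨w, hwT, hwz⟩ := hnorm z hzT'
  have hwcen : ∀ y ∈ T, y * w = w * y := by
    intro y hy
    apply Subtype.ext
    have hy' : (n : G)⁻¹ * y * n ∈ T' := hnorm' _ ⟨y, hy, rfl⟩
    obtain ⟨u, -, hu⟩ := hy'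
    have hcomm : (u : G) * z = z * u := Subgroup.mem_centralizer_singleton_iff.1 u.2
    show (y : G) * (w : G) = (w : G) * y
    rw [show (w : G) = (n : G) * z * (n : G)⁻¹ from hwz]
    have hu' : (y : G) = n * (u : G) * (n : G)⁻¹ := by
      rw [show (u : G) = (n : G)⁻¹ * y * n from hu]; group
    rw [hu']
    calc (n : G) * u * (n : G)⁻¹ * (n * z * (n : G)⁻¹) = n * (u * z) * (n : G)⁻¹ := by group
      _ = n * (z * u) * (n : G)⁻¹ := by rw [hcomm]
      _ = _ := by group
  have hnC : (n : G) ∈ C := by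
    rcases hcentre T w hwT hwcen with h | h
    · exfalso
      have h1 : (n : G) * z * (n : G)⁻¹ = 1 := by rw [← hwz, h]; rfl
      have : z = 1 := by simpa using h1
      rw [this, orderOf_one] at hz
      exact absurd hz (by decide)
    · have h1 : (n : G) * z * (n : G)⁻¹ = z := by rw [← hwz, h]; rfl
      exact Subgroup.mem_centralizer_singleton_iff.2 (mul_inv_eq_iff_eq_mul.1 h1)
  -- so n lies in a 2-subgroup of C normalised T
  let nc : C := ⟨n, hnC⟩
  let L : Subgroup C := (P : Subgroup G).comap C.subtype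
  have hTL : (T : Subgroup C) ≤ L := fun y hy => hP ⟨y, hy, rfl⟩
  have hL : IsPGroup 2 L := P.2.comap_of_injective C.subtype Subtype.val_injective
  have hLT : L = (T : Subgroup C) := T.3 hL hTL
  refine hnT ?_
  show (n : G) ∈ T'
  exact ⟨nc, hLT ▸ (show nc ∈ L from n.2), rfl⟩

end Cfsg.Agent.S1717
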