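import Cfsg.Statements.S1743
import Cfsg.Agent.G2Fusion.Main
import Cfsg.Agent.G2Fusion.Chev

set_option autoImplicit false
open Cfsg

namespace Cfsg.Agent.S1743

/-- Let G be a finite simple group whose Sylow 2-subgroups are isomorphic to a Sylow 2-subgroup of the Chevalley group of type G₂ over a finite field of odd order, and let S be a Sylow 2-subgroup of G. Then either all involutions of G are conjugate, or S has order 64 and the involutions of G form exactly two conjugacy classes. -/
theorem result {G : Type*} [Group G] [Finite G] [IsSimpleGroup G]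
    {F : Type*} [Field F] [Fintype F] (hF : Odd (Fintype.card F)) (S : Sylow 2 G) (P : Sylow 2 ↥(Cfsg.Lie.chevG2.group F))
    (hS : Nonempty (↥(S : Subgroup G) ≃* ↥(P : Subgroup ↥(Cfsg.Lie.chevG2.group F)))) :
    (∀ x y : G, orderOf x = 2 → orderOf y = 2 → IsConj x y) ∨
      (Nat.card ↥(S : Subgroup G) = 64 ∧ ∃ x y : G, orderOf x = 2 ∧ orderOf y = 2 ∧ ¬ IsConj x y ∧
        ∀ z : G, orderOf z = 2 → IsConj z x ∨ IsConj z y) := by
  classical
  obtain ⟨e⟩ := hS
  have h2 : (2 : F) ≠ 0 := Classical.two_ne_zero_of_odd (by rwa [Nat.card_eq_fintype_card])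
  obtain ⟨m, ⟨d⟩⟩ := G2Fusion.exists_equiv h2 P
  let φ : G2Fusion.D m →* G := (S : Subgroup G).subtype.comp (d.trans e.symm).toMonoidHom
  have hφ : Function.Injective φ := Subtype.val_injective.comp (d.trans e.symm).injective
  have hS' : φ.range = (S : Subgroup G) := by
    rw [MonoidHom.range_comp, MonoidHom.range_eq_top.2 (d.trans e.symm).surjective,
      ← MonoidHom.range_eq_map, Subgroup.range_subtype]
  have hna : ¬ IsMulCommutative G := by
    intro hcomm
    have h : φ (G2Fusion.c * G2Fusion.t 1 0) = φ (G2Fusion.t 1 0 * G2Fusion.c) := by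
      rw [map_mul, map_mul]; exact mul_comm' _ _
    have hx := congrArg G2Fusion.D.x (hφ h)
    simp [G2Fusion.c, G2Fusion.t, G2Fusion.mul_def, G2Fusion.sg] at hx
    have h2' : (1 : G2Fusion.R m) + 1 = 0 := by linear_combination -hx
    rcases G2Fusion.eq_zero_or_hh h2' with h1 | h1
    · have := congrArg (G2Fusion.par m) h1
      rw [map_one, map_zero] at this
      exact one_ne_zero this
    · have := congrArg (G2Fusion.par m) h1
      rw [map_one, G2Fusion.par_hh] at this
      exact one_ne_zero this
  rcases G2Fusion.classes hna S φ hφ hS' with h | ⟨hm, h⟩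
  · exact Or.inl h
  · refine Or.inr ⟨?_, h⟩
    rw [Nat.card_congr (d.trans e.symm).symm.toEquiv, G2Fusion.card_D, hm]
    norm_num

end Cfsg.Agent.S1743
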