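import Cfsg.Statements.S1753


set_option autoImplicit false
universe u
open Cfsg

namespace Cfsg.Agent.S1753

/-- Let K be any property of groups. (1) If G is a minimal counterexample relative to K — a finite non-abelian simple group not satisfying K such that every finite non-abelian simple group of smaller order satisfies K — then every proper subgroup of G is a K-group (all its non-abelian simple sections satisfy K), since such sections have smaller order than G. (2) Consequently (induction on the order), if every finite non-abelian simple group all of whose proper subgroups are K-groups satisfies K, then every finite non-abelian simple group satisfies K. -/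
theorem result (K : ∀ (X : Type u) [Group X], Prop) :
    (∀ (G : Type u) [Group G], Cfsg.IsMinCounterexampleWith K G → Cfsg.IsKProperWith K G) ∧
      ((∀ (X : Type u) [Group X] [Finite X], IsSimpleGroup X → ¬ IsMulCommutative X → Cfsg.IsKProperWith K X → K X) →
        ∀ (G : Type u) [Group G] [Finite G], IsSimpleGroup G → ¬ IsMulCommutative G → K G) := by
  refine ⟨?_, ?_⟩
  · intro G _ hG H hH H' N _ hs hna
    obtain ⟨hfin, -, -, -, hmin⟩ := hG
    refine hmin _ hs hna ?_
    have h1 : Nat.card (↥H' ⧸ N) ≤ Nat.card H' := N.card_quotient_dvd_card |> Nat.le_of_dvd Nat.card_pos
    have h2 : Nat.card H' ≤ Nat.card H := Subgroup.card_le_card_group H'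
    have h3 : Nat.card H < Nat.card G := by
      refine lt_of_le_of_ne (Subgroup.card_le_card_group H) fun h => hH ?_
      exact Subgroup.eq_top_of_card_eq H h
    omega
  · intro hstep G
    suffices h : ∀ n, ∀ (G : Type u) [Group G] [Finite G], Nat.card G = n →
        IsSimpleGroup G → ¬ IsMulCommutative G → K G from fun _ _ => h _ G rfl
    intro n
    induction n using Nat.strong_induction_on with
    | _ n ih =>
      intro G _ _ hn hs hna
      refine hstep G hs hna fun H hH H' N _ hs' hna' => ?_
      refine ih _ ?_ _ rfl hs' hna'
      have h1 : Nat.card (↥H' ⧸ N) ≤ Nat.card H' := N.card_quotient_dvd_card |> Nat.le_of_dvd Nat.card_pos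
      have h2 : Nat.card H' ≤ Nat.card H := Subgroup.card_le_card_group H'
      have h3 : Nat.card H < Nat.card G := by
        refine lt_of_le_of_ne (Subgroup.card_le_card_group H) fun h => hH ?_
        exact Subgroup.eq_top_of_card_eq H h
      omega

end Cfsg.Agent.S1753
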