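import Cfsg.Statements.S1754
import Cfsg.Agent.Components.Basic

set_option autoImplicit false
open Cfsg

namespace Cfsg.Agent.S1754

/-- Let A be a standard subgroup of the finite group G (A quasisimple, C_G(A) tightly embedded of even order, A commuting elementwise with no other conjugate of itself, and N_G(A) = N_G(C_G(A))), and let t be an involution of G centralizing A. Then the centralizer of t lies in the normalizer of A; in particular A, viewed inside C_G(t), is a component of C_G(t). -/
theorem result {G : Type*} [Group G] [Finite G]
    (A : Subgroup G) (hA : Cfsg.IsStandardSubgroup A) (t : G) (ht : orderOf t = 2) (htA : t ∈ Subgroup.centralizer (A : Set G)) :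
    Subgroup.centralizer ({t} : Set G) ≤ Subgroup.normalizer (A : Set G) ∧
      Cfsg.IsComponent (A.subgroupOf (Subgroup.centralizer ({t} : Set G))) := by
  obtain ⟨hq, ⟨-, htight⟩, -, hN⟩ := hA
  have hle : Subgroup.centralizer ({t} : Set G) ≤ Subgroup.normalizer (A : Set G) := by
    intro g hg
    rw [hN]
    by_contra hgn
    refine (Nat.not_even_iff_odd.mpr (htight g hgn)) ?_
    have htg : t ∈ (Subgroup.centralizer (A : Set G)).map (MulAut.conj g).toMonoidHom := by
      refine ⟨t, htA, ?_⟩
      have h : g * t = t * g := Subgroup.mem_centralizer_singleton_iff.mp hg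
      simp [h, mul_assoc]
    have hmem : t ∈ Subgroup.centralizer (A : Set G) ⊓
        (Subgroup.centralizer (A : Set G)).map (MulAut.conj g).toMonoidHom := ⟨htA, htg⟩
    have hd := Subgroup.orderOf_dvd_natCard _ hmem
    rw [ht] at hd
    exact even_iff_two_dvd.mpr hd
  refine ⟨hle, ?_, ?_⟩
  · have hAC : A ≤ Subgroup.centralizer ({t} : Set G) := by
      intro a ha
      rw [Subgroup.mem_centralizer_singleton_iff]
      exact (Subgroup.mem_centralizer_iff.mp htA a ha)
    exact (Subgroup.normal_subgroupOf_of_le_normalizer hle).isSubnormal
  · have hAC : A ≤ Subgroup.centralizer ({t} : Set G) := by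
      intro a ha
      rw [Subgroup.mem_centralizer_singleton_iff]
      exact (Subgroup.mem_centralizer_iff.mp htA a ha)
    exact Cfsg.Agent.Components.quasisimple_of_mulEquiv (Subgroup.subgroupOfEquivOfLe hAC).symm hq

end Cfsg.Agent.S1754
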