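import Cfsg.Statements.S1755
import Cfsg.Agent.Components.Basic
import Cfsg.Agent.Cores.Fitting
import Cfsg.Agent.Fusion.Basic
import Cfsg.Agent.PGroup.Basic
import Mathlib.GroupTheory.SpecificGroups.Cyclic

set_option autoImplicit false
open Cfsg

namespace Cfsg.Agent.S1755

/-- Let G be a finite group and let z be an involution of G such that Q, the generalized Fitting subgroup of the centralizer C of z, is a 2-group of symplectic type (every characteristic abelian subgroup of Q is cyclic). Let B be a characteristic abelian subgroup of Q, viewed as a subgroup of G. Then for every g in G, the conjugate of B by g either equals B or meets B trivially. -/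
theorem result {G : Type*} [Group G] [Finite G] (z : G) (hz : orderOf z = 2) (hQ : Cfsg.IsOfSymplecticType ↥(Cfsg.generalizedFittingSubgroup ↥(Subgroup.centralizer ({z} : Set G))))
    (B : Subgroup ↥(Cfsg.generalizedFittingSubgroup ↥(Subgroup.centralizer ({z} : Set G)))) (hBc : B.Characteristic) (hBa : IsMulCommutative ↥B) (g : G) :
    ((B.map (Cfsg.generalizedFittingSubgroup ↥(Subgroup.centralizer ({z} : Set G))).subtype).map (Subgroup.centralizer ({z} : Set G)).subtype).map (MulAut.conj g).toMonoidHom =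
        (B.map (Cfsg.generalizedFittingSubgroup ↥(Subgroup.centralizer ({z} : Set G))).subtype).map (Subgroup.centralizer ({z} : Set G)).subtype ∨
      ((B.map (Cfsg.generalizedFittingSubgroup ↥(Subgroup.centralizer ({z} : Set G))).subtype).map (Subgroup.centralizer ({z} : Set G)).subtype).map (MulAut.conj g).toMonoidHom ⊓
        (B.map (Cfsg.generalizedFittingSubgroup ↥(Subgroup.centralizer ({z} : Set G))).subtype).map (Subgroup.centralizer ({z} : Set G)).subtype = ⊥ := by
  haveI hgn : (Cfsg.generalizedFittingSubgroup ↥(Subgroup.centralizer ({z} : Set G))).Normal := by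
    haveI := Cfsg.Agent.Components.layer_normal (G := ↥(Subgroup.centralizer ({z} : Set G)))
    unfold Cfsg.generalizedFittingSubgroup
    exact Subgroup.sup_normal _ _
  suffices key : ∀ (C : Subgroup G), C = Subgroup.centralizer ({z} : Set G) → ∀ (Q : Subgroup ↥C) [Q.Normal],
      Cfsg.fittingSubgroup ↥C ≤ Q → Cfsg.IsOfSymplecticType ↥Q →
      ∀ B : Subgroup ↥Q, B.Characteristic → IsMulCommutative ↥B →
      ((B.map Q.subtype).map C.subtype).map (MulAut.conj g).toMonoidHom = (B.map Q.subtype).map C.subtype ∨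
        ((B.map Q.subtype).map C.subtype).map (MulAut.conj g).toMonoidHom ⊓
          (B.map Q.subtype).map C.subtype = ⊥ from key _ rfl (Cfsg.generalizedFittingSubgroup _) le_sup_right hQ B hBc hBa
  clear hQ hBc hBa hgn B
  intro C hC Q _ hFQ hQ B hBc hBa
  subst hC
  set B' := (B.map Q.subtype).map (Subgroup.centralizer ({z} : Set G)).subtype with hB'
  by_cases hB0 : B = ⊥
  · left
    rw [hB', hB0]
    simp
  haveI := hBc
  haveI hBcyc : IsCyclic ↥B := hQ.2 B hBc hBa
  haveI hZcyc : IsCyclic ↥(Subgroup.center ↥Q) := hQ.2 _ inferInstance inferInstance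
  -- `z` lies in `Q`
  have hzC : z ∈ Subgroup.centralizer ({z} : Set G) := Subgroup.mem_centralizer_singleton_iff.mpr rfl
  let zC : ↥(Subgroup.centralizer ({z} : Set G)) := ⟨z, hzC⟩
  have hzc : zC ∈ Subgroup.center ↥(Subgroup.centralizer ({z} : Set G)) := by
    rw [Subgroup.mem_center_iff]
    intro g
    exact Subtype.ext (Subgroup.mem_centralizer_singleton_iff.mp g.2)
  have hzQ : zC ∈ Q := by
    have hn : (Subgroup.zpowers zC).Normal := by
      refine ⟨fun n hn g => ?_⟩
      have h1 : n ∈ Subgroup.center ↥(Subgroup.centralizer ({z} : Set G)) := (Subgroup.zpowers_le.mpr hzc) hn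
      rw [(Subgroup.mem_center_iff.mp h1 g), mul_assoc, mul_inv_cancel, mul_one]
      exact hn
    have : Subgroup.zpowers zC ≤ Cfsg.fittingSubgroup ↥(Subgroup.centralizer ({z} : Set G)) :=
      Cfsg.Agent.Cores.le_fittingSubgroup hn (@CommGroup.isNilpotent ↥(Subgroup.zpowers zC) { (inferInstance : Group ↥(Subgroup.zpowers zC)) with mul_comm := fun a b => Std.Commutative.comm a b })
    exact hFQ (this (Subgroup.mem_zpowers _))
  let zQ : ↥Q := ⟨zC, hzQ⟩
  have hzQc : zQ ∈ Subgroup.center ↥Q := by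
    rw [Subgroup.mem_center_iff]
    intro q
    exact Subtype.ext (Subgroup.mem_center_iff.mp hzc q)
  have hzQo : orderOf zQ = 2 := by
    have h : (orderOf zQ) = orderOf z :=
      (orderOf_injective ((Subgroup.centralizer ({z} : Set G)).subtype.comp Q.subtype)
        ((Subgroup.centralizer ({z} : Set G)).subtype_injective.comp Q.subtype_injective) zQ).symm
    rw [h, hz]
  -- unique involution in a cyclic subgroup
  have huniq : ∀ (W : Subgroup ↥Q), IsCyclic ↥W → ∀ u ∈ W, ∀ v ∈ W, orderOf u = 2 → orderOf v = 2 → u = v := by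
    intro W hW u hu v hv hou hov
    classical
    haveI := hW
    haveI := Fintype.ofFinite ↥W
    have hcard := IsCyclic.card_orderOf_eq_totient (α := ↥W) (d := 2) (by
      rw [← Nat.card_eq_fintype_card]
      simpa [hou] using Subgroup.orderOf_dvd_natCard W hu)
    rw [Nat.totient_two, Finset.card_eq_one] at hcard
    obtain ⟨a, ha⟩ := hcard
    have h1 : (⟨u, hu⟩ : ↥W) ∈ ({a} : Finset ↥W) := ha ▸ Finset.mem_filter.mpr
      ⟨Finset.mem_univ _, by simpa using hou⟩
    have h2 : (⟨v, hv⟩ : ↥W) ∈ ({a} : Finset ↥W) := ha ▸ Finset.mem_filter.mpr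
      ⟨Finset.mem_univ _, by simpa using hov⟩
    rw [Finset.mem_singleton] at h1 h2
    exact congrArg Subtype.val (h1.trans h2.symm)
  have hzB : zQ ∈ B := by
    have hne : B ⊓ Subgroup.center ↥Q ≠ ⊥ := Cfsg.Agent.PGroup.inf_center_ne_bot hQ.1 B hB0
    have hp : IsPGroup 2 ↥(B ⊓ Subgroup.center ↥Q) := hQ.1.to_subgroup _
    haveI : Nontrivial ↥(B ⊓ Subgroup.center ↥Q) := (Subgroup.nontrivial_iff_ne_bot _).mpr hne
    obtain ⟨n, hn0, hn⟩ := hp.nontrivial_iff_card.mp inferInstance
    obtain ⟨w, hw⟩ := exists_prime_orderOf_dvd_card' (G := ↥(B ⊓ Subgroup.center ↥Q)) 2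
      (hn ▸ dvd_pow_self 2 hn0.ne')
    have hwo : orderOf (w : ↥Q) = 2 := by rwa [Subgroup.orderOf_coe]
    have := huniq _ hZcyc _ w.2.2 _ hzQc hwo hzQo
    exact this ▸ w.2.1
  have hzB' : ∀ u : G, u ∈ B' → orderOf u = 2 → u = z := by
    rintro u ⟨_, ⟨b, hb, rfl⟩, rfl⟩ hu
    have hbo : orderOf b = 2 := by
      rwa [← orderOf_injective ((Subgroup.centralizer ({z} : Set G)).subtype.comp Q.subtype)
        ((Subgroup.centralizer ({z} : Set G)).subtype_injective.comp Q.subtype_injective) b]
    rw [huniq B hBcyc b hb zQ hzB hbo hzQo]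
    rfl
  have hp' : IsPGroup 2 ↥B' := ((hQ.1.to_subgroup B).map Q.subtype).map (Subgroup.centralizer ({z} : Set G)).subtype
  by_cases hint : B'.map (MulAut.conj g).toMonoidHom ⊓ B' = ⊥
  · exact Or.inr hint
  left
  have hp2 : IsPGroup 2 ↥(B'.map (MulAut.conj g).toMonoidHom ⊓ B') := hp'.to_le inf_le_right
  haveI : Nontrivial ↥(B'.map (MulAut.conj g).toMonoidHom ⊓ B') :=
    (Subgroup.nontrivial_iff_ne_bot _).mpr hint
  obtain ⟨n, hn0, hn⟩ := hp2.nontrivial_iff_card.mp inferInstance
  obtain ⟨w, hw⟩ := exists_prime_orderOf_dvd_card' (G := ↥(B'.map (MulAut.conj g).toMonoidHom ⊓ B')) 2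
    (hn ▸ dvd_pow_self 2 hn0.ne')
  have hwo : orderOf (w : G) = 2 := by rwa [Subgroup.orderOf_coe]
  have hwz : (w : G) = z := hzB' _ w.2.2 hwo
  obtain ⟨v, hv, hvw⟩ := w.2.1
  have hvo : orderOf v = 2 := by
    rwa [← orderOf_injective (MulAut.conj g).toMonoidHom (MulAut.conj g).injective v, hvw]
  have hgz : g * z * g⁻¹ = z := by
    have := hzB' v hv hvo
    subst this
    rw [hwz] at hvw
    simpa using hvw
  have hgC : g ∈ Subgroup.centralizer ({z} : Set G) := Subgroup.mem_centralizer_singleton_iff.mpr (mul_inv_eq_iff_eq_mul.mp hgz)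
  haveI := hBc
  haveI hBn : (B.map Q.subtype).Normal := inferInstance
  exact Cfsg.Agent.Fusion.cj_eq_of_mem
    (Subgroup.le_normalizer_map (Subgroup.centralizer ({z} : Set G)).subtype
      ⟨⟨g, hgC⟩, Subgroup.normalizer_eq_top (B.map Q.subtype) ▸ Subgroup.mem_top _, rfl⟩)

end Cfsg.Agent.S1755
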