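import Cfsg.Statements.S1756
import Cfsg.Agent.PGroup.Extraspecial

set_option autoImplicit false
open Cfsg

namespace Cfsg.Agent.S1756

/-- Let Q be an extraspecial 2-subgroup of the finite group G (special with centre of order 2) and t an involution of G normalizing Q such that the centralizer of t in Q has index at most 2 in Q. Then t lies in the product of Q with the centralizer of Q. -/
theorem result {G : Type*} [Group G] [Finite G] (Q : Subgroup G)
    (hQ : Cfsg.IsExtraspecial 2 ↥Q) (t : G) (ht : orderOf t = 2) (htN : t ∈ Subgroup.normalizer (Q : Set G))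
    (hi : (Subgroup.centralizer ({t} : Set G) ⊓ Q).relIndex Q ≤ 2) :
    t ∈ Q ⊔ Subgroup.centralizer (Q : Set G) := by
  classical
  have hconj : ∀ q ∈ Q, t * q * t⁻¹ ∈ Q := fun q hq => (Subgroup.mem_normalizer_iff.mp htN q).mp hq
  have htt : t * t = 1 := by rw [← pow_two, ← ht, pow_orderOf_eq_one]
  let α : MulAut ↥Q :=
    { toFun := fun q => ⟨t * q * t⁻¹, hconj q q.2⟩
      invFun := fun q => ⟨t * q * t⁻¹, hconj q q.2⟩
      left_inv := fun q => Subtype.ext (by
        show t * (t * q * t⁻¹) * t⁻¹ = q
        calc t * (t * q * t⁻¹) * t⁻¹ = (t * t) * q * (t * t)⁻¹ := by group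
          _ = q := by rw [htt]; simp)
      right_inv := fun q => Subtype.ext (by
        show t * (t * q * t⁻¹) * t⁻¹ = q
        calc t * (t * q * t⁻¹) * t⁻¹ = (t * t) * q * (t * t)⁻¹ := by group
          _ = q := by rw [htt]; simp)
      map_mul' := fun a b => Subtype.ext (by simp [mul_assoc]) }
  have hαα : ∀ q, α (α q) = q := fun q => α.left_inv q
  let H : Subgroup ↥Q := (Subgroup.centralizer ({t} : Set G) ⊓ Q).subgroupOf Q
  have hH : ∀ q : ↥Q, q ∈ H ↔ α q = q := by
    intro q
    rw [Subgroup.mem_subgroupOf]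
    constructor
    · intro h
      refine Subtype.ext ?_
      show t * q * t⁻¹ = q
      rw [← Subgroup.mem_centralizer_singleton_iff.mp h.1, mul_inv_cancel_right]
    · intro h
      refine ⟨Subgroup.mem_centralizer_singleton_iff.mpr ?_, q.2⟩
      have h' : t * q * t⁻¹ = q := congrArg Subtype.val h
      exact (mul_inv_eq_iff_eq_mul.mp h').symm
  have hidx : H.index ≤ 2 := hi
  have key : ∀ q : ↥Q, q⁻¹ * α q ∈ Subgroup.center ↥Q := by
    intro q
    by_cases hq : q ∈ H
    · rw [(hH q).mp hq, inv_mul_cancel]; exact one_mem _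
    have h2 : H.index = 2 := by
      have h0 : H.index ≠ 0 := Subgroup.index_ne_zero_of_finite
      have h1 : H.index ≠ 1 := fun h => hq (by rw [Subgroup.index_eq_one.mp h]; exact Subgroup.mem_top q)
      omega
    have hHn : H.Normal := ⟨fun n hn x => by simp only [Subgroup.mul_mem_iff_of_index_two h2, hn, iff_true, inv_mem_iff]⟩
    set u := q⁻¹ * α q with hu
    have hαq : α q ∉ H := fun h => hq ((hH q).mpr (α.injective ((hH _).mp h)))
    have huH : u ∈ H := (Subgroup.mul_mem_iff_of_index_two h2).mpr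
      ⟨fun h => absurd (inv_mem_iff.mp h) hq, fun h => absurd h hαq⟩
    have hαu : α u = u := (hH u).mp huH
    have huinv : u = u⁻¹ := by
      calc u = α u := hαu.symm
        _ = u⁻¹ := by simp [hu, hαα]
    have hcomm : ∀ h ∈ H, h * u = u * h := by
      intro h hh
      have h1 : α (q * h * q⁻¹) = q * h * q⁻¹ := (hH _).mp (hHn.conj_mem h hh q)
      rw [map_mul, map_mul, map_inv, (hH h).mp hh] at h1
      calc h * u = q⁻¹ * (q * h * q⁻¹) * α q := by rw [hu]; group
        _ = q⁻¹ * (α q * h * (α q)⁻¹) * α q := by rw [h1]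
        _ = u * h := by rw [hu]; group
    have hqu : q * u = u * q := by
      have h1 := (hH _).mp (Subgroup.mul_self_mem_of_index_two h2 q)
      rw [map_mul, show α q = q * u by rw [hu, mul_inv_cancel_left]] at h1
      have h3 : u * q * u = q := mul_left_cancel (a := q) (by simpa [mul_assoc] using h1)
      calc q * u = (u * q * u) * u := by rw [h3]
        _ = u * q * (u * u) := by group
        _ = u * q := by
          rw [show u * u = 1 from mul_eq_one_iff_eq_inv.mpr huinv, mul_one]
    rw [Subgroup.mem_center_iff]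
    intro g
    by_cases hg : g ∈ H
    · exact hcomm g hg
    · have h1 : q⁻¹ * g ∈ H := (Subgroup.mul_mem_iff_of_index_two h2).mpr
        ⟨fun h => absurd (inv_mem_iff.mp h) hq, fun h => absurd h hg⟩
      calc g * u = q * ((q⁻¹ * g) * u) := by group
        _ = q * (u * (q⁻¹ * g)) := by rw [hcomm _ h1]
        _ = (q * u) * (q⁻¹ * g) := by group
        _ = u * g := by rw [hqu]; group
  haveI : Fact (Nat.Prime 2) := ⟨Nat.prime_two⟩
  obtain ⟨g, hg⟩ := Cfsg.Agent.PGroup.extraspecial_exists_conj hQ α key
  have hcent : (g : G)⁻¹ * t ∈ Subgroup.centralizer (Q : Set G) := by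
    rw [Subgroup.mem_centralizer_iff]
    intro q hq
    have h : t * q * t⁻¹ = (g : G) * q * (g : G)⁻¹ :=
      congrArg Subtype.val (MulEquiv.congr_fun hg ⟨q, hq⟩)
    calc q * ((g : G)⁻¹ * t) = (g : G)⁻¹ * ((g : G) * q * (g : G)⁻¹) * t := by group
      _ = (g : G)⁻¹ * (t * q * t⁻¹) * t := by rw [h]
      _ = (g : G)⁻¹ * t * q := by group
  have h := mul_mem (Subgroup.mem_sup_left (T := Subgroup.centralizer (Q : Set G)) g.2)
    (Subgroup.mem_sup_right (S := Q) hcent)
  rwa [mul_inv_cancel_left] at h

end Cfsg.Agent.S1756
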