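import Cfsg.Statements.S1757
import Cfsg.Agent.Fusion.Basic
import Mathlib.Algebra.Group.Pointwise.Set.Card
import Mathlib.GroupTheory.Nilpotent

set_option autoImplicit false
open Cfsg

namespace Cfsg.Agent.S1757

/-- Let p be a prime and A, B p-subgroups of the finite group G, each of which meets every conjugate of itself other than itself trivially. Suppose the order of A is at most that of B, A and B intersect trivially, and B normalizes A. Then A and B commute elementwise. -/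
theorem result {G : Type*} [Group G] [Finite G] (p : ℕ) [Fact p.Prime] (A B : Subgroup G)
    (hA : IsPGroup p ↥A) (hB : IsPGroup p ↥B)
    (hAti : ∀ g : G, A.map (MulAut.conj g).toMonoidHom = A ∨ A.map (MulAut.conj g).toMonoidHom ⊓ A = ⊥)
    (hBti : ∀ g : G, B.map (MulAut.conj g).toMonoidHom = B ∨ B.map (MulAut.conj g).toMonoidHom ⊓ B = ⊥)
    (hle : Nat.card ↥A ≤ Nat.card ↥B) (hAB : A ⊓ B = ⊥) (hN : B ≤ Subgroup.normalizer (A : Set G)) : ⁅A, B⁆ = ⊥ := by
  clear hAti
  by_cases hAN : A ≤ Subgroup.normalizer (B : Set G)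
  · rw [eq_bot_iff, ← hAB]
    refine le_inf ?_ ?_
    · rw [Subgroup.commutator_le]
      intro a ha b hb
      have h := (Subgroup.mem_normalizer_iff.mp (hN hb) a⁻¹).mp (inv_mem ha)
      have e : a * b * a⁻¹ * b⁻¹ = a * (b * a⁻¹ * b⁻¹) := by group
      rw [commutatorElement_def, e]
      exact mul_mem ha h
    · rw [Subgroup.commutator_le]
      intro a ha b hb
      rw [commutatorElement_def]
      exact mul_mem ((Subgroup.mem_normalizer_iff.mp (hAN ha) b).mp hb) (inv_mem hb)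
  exfalso
  obtain ⟨a, ha, haN⟩ := SetLike.not_le_iff_exists.mp hAN
  have hBa : B.map (MulAut.conj a).toMonoidHom ⊓ B = ⊥ := by
    refine (hBti a).resolve_left fun h => haN ?_
    exact Cfsg.Agent.Fusion.cj_eq_iff_mem_normalizer.mp h
  have hXp : IsPGroup p ↥(A ⊔ B) := by
    rw [sup_comm]
    exact hB.to_sup_of_normal_right' hA hN
  have hXcard : Nat.card ↥(A ⊔ B) ≤ Nat.card ↥A * Nat.card ↥B := by
    open scoped Pointwise in
    have h : ((A ⊔ B : Subgroup G) : Set G) = (A : Set G) * (B : Set G) :=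
      Subgroup.coe_mul_of_right_le_normalizer_left A B hN
    open scoped Pointwise in
    have h2 : Nat.card ↥(A ⊔ B) = Nat.card (((A : Set G) * (B : Set G) : Set G)) :=
      Nat.card_congr (Equiv.setCongr h)
    rw [h2]
    exact Set.natCard_mul_le
  set B₁ : Subgroup ↥(A ⊔ B) := B.subgroupOf (A ⊔ B) with hB₁
  have hne : B₁ ≠ ⊤ := by
    intro h
    have hle : A ⊔ B ≤ B := Subgroup.subgroupOf_eq_top.mp h
    exact haN (Subgroup.le_normalizer (hle (le_sup_left (a := A) (b := B) ha)))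
  obtain ⟨M, hM, hBM⟩ := (eq_top_or_exists_le_coatom B₁).resolve_left hne
  haveI : Group.IsNilpotent ↥(A ⊔ B) := hXp.isNilpotent
  haveI hMn : M.Normal :=
    Subgroup.NormalizerCondition.normal_of_coatom M Group.normalizerCondition_of_isNilpotent hM
  have haX : a ∈ A ⊔ B := le_sup_left (a := A) (b := B) ha
  have hmem : ∀ b ∈ B, ∀ hbX : b ∈ A ⊔ B, (⟨b, hbX⟩ : ↥(A ⊔ B)) ∈ M :=
    fun b hb hbX => hBM (Subgroup.mem_subgroupOf.mpr hb)
  have hBM' : B ≤ M.map (A ⊔ B).subtype := fun b hb =>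
    ⟨⟨b, le_sup_right (a := A) hb⟩, hmem b hb _, rfl⟩
  have hBaM : B.map (MulAut.conj a).toMonoidHom ≤ M.map (A ⊔ B).subtype := by
    rintro _ ⟨b, hb, rfl⟩
    exact ⟨⟨a, haX⟩ * ⟨b, le_sup_right (a := A) hb⟩ * ⟨a, haX⟩⁻¹,
      hMn.conj_mem _ (hmem b hb _) _, by simp⟩
  have hinj : Nat.card ↥B * Nat.card ↥(B.map (MulAut.conj a).toMonoidHom) ≤ Nat.card ↥M := by
    rw [← Subgroup.card_subtype (A ⊔ B) M, ← Nat.card_prod]
    refine Nat.card_le_card_of_injective
      (fun x => (⟨(x.1 : G) * x.2, mul_mem (hBM' x.1.2) (hBaM x.2.2)⟩ : ↥(M.map (A ⊔ B).subtype))) ?_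
    intro x y hxy
    have h := congrArg Subtype.val hxy
    exact Subgroup.mul_injective_of_disjoint (disjoint_iff.mpr (by rw [inf_comm]; exact hBa)) h
  have hlt : Nat.card ↥M < Nat.card ↥(A ⊔ B) :=
    lt_of_le_of_ne (Subgroup.card_le_card_group M) fun h => hM.1 (Subgroup.eq_top_of_card_eq M h)
  have hc : Nat.card ↥(B.map (MulAut.conj a).toMonoidHom) = Nat.card ↥B :=
    Cfsg.Agent.Fusion.card_cj a B
  rw [hc] at hinj
  have := Nat.mul_le_mul_right (Nat.card ↥B) hle
  omega

end Cfsg.Agent.S1757
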