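import Cfsg.Statements.S1774
import Cfsg.Agent.PGroup.Critical
import Cfsg.Agent.Components.FStar
import Cfsg.Agent.Fusion.Basic
import Cfsg.Agent.Invol.FourGroup

set_option autoImplicit false
open Cfsg

namespace Cfsg.Agent.S1774

open Subgroup
open scoped commutatorElement
open Cfsg.Agent.Fusion (cj cj_cj conj_mem_cj mem_cj cj_eq_of_mem)

/-- In a 2-group of symplectic type and exponent dividing four, squares, commutators and central
involutions lie in the group generated by any central involution. -/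
theorem symplectic_facts {T : Type*} [Group T] [Finite T] (hT : Cfsg.IsOfSymplecticType T)
    (h4 : ∀ x : T, x ^ 4 = 1) {z : T} (hzc : z ∈ center T) (hz2 : z * z = 1) (hz1 : z ≠ 1) :
    (∀ x : T, x * x = 1 ∨ x * x = z) ∧ (∀ x y : T, x * y * x⁻¹ * y⁻¹ = 1 ∨ x * y * x⁻¹ * y⁻¹ = z) ∧
      (∀ t ∈ center T, t * t = 1 → t = 1 ∨ t = z) := by
  classical
  have : Fact (Nat.Prime 2) := ⟨Nat.prime_two⟩
  obtain ⟨C, hC⟩ := PGroup.exists_isCriticalSubgroup hT.1
  haveI := hC.characteristic
  set Z := C ⊓ centralizer (C : Set T) with hZdef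
  haveI hZchar : Z.Characteristic := by
    rw [characteristic_iff_le_comap]
    intro φ x hx
    have hCφ : ∀ ψ : MulAut T, ∀ c ∈ C, ψ c ∈ C := fun ψ c hc =>
      (characteristic_iff_le_comap.1 inferInstance ψ) hc
    refine ⟨hCφ φ x hx.1, mem_centralizer_iff.2 fun c hc => ?_⟩
    show c * φ x = φ x * c
    rw [← φ.apply_symm_apply c, ← map_mul, ← map_mul, mem_centralizer_iff.1 hx.2 _ (hCφ φ.symm c hc)]
  have hZcomm : IsMulCommutative Z :=
    ⟨⟨fun a b => Subtype.ext (mem_centralizer_iff.1 b.2.2 a a.2.1)⟩⟩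
  have hcyc := hT.2 Z hZchar hZcomm
  have hcenC : ∀ t ∈ center T, t ∈ Z := fun t ht => by
    have := center_le_centralizer (C : Set T) ht
    exact ⟨hC.centralizer_le this, this⟩
  have hcZ : ∀ t, t ∈ centralizer (C : Set T) → t ∈ Z := fun t ht => ⟨hC.centralizer_le ht, ht⟩
  -- an element of `Z` with square one is `1` or `z`
  have huniq : ∀ t ∈ Z, t * t = 1 → t = 1 ∨ t = z := by
    intro t ht htt
    by_contra hcon
    push Not at hcon
    obtain ⟨g, hg⟩ := hcyc.exists_generator
    have := Fintype.ofFinite Z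
    have hle := IsCyclic.card_pow_eq_one_le (α := Z) (n := 2) (by norm_num)
    have hsub : ({1, ⟨z, hcenC z hzc⟩, ⟨t, ht⟩} : Finset Z) ⊆
        Finset.univ.filter fun a : Z => a ^ 2 = 1 := by
      intro a ha
      simp only [Finset.mem_insert, Finset.mem_singleton] at ha
      simp only [Finset.mem_filter, Finset.mem_univ, true_and]
      rcases ha with rfl | rfl | rfl
      · exact one_pow 2
      · exact Subtype.ext (by simpa [pow_two] using hz2)
      · exact Subtype.ext (by simpa [pow_two] using htt)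
    have := Finset.card_le_card hsub
    rw [Finset.card_eq_three.2 ⟨1, ⟨z, hcenC z hzc⟩, ⟨t, ht⟩, fun h => hz1 (congrArg Subtype.val h).symm,
      fun h => hcon.1 (congrArg Subtype.val h).symm, fun h => hcon.2 (congrArg Subtype.val h).symm,
      rfl⟩] at this
    omega
  have hzz : ∀ {e : T}, e = 1 ∨ e = z → ∀ g : T, g * e = e * g := by
    rintro e (rfl | rfl) g
    · rw [mul_one, one_mul]
    · exact mem_center_iff.1 hzc g
  -- every element moves elements of `C` only by `1` or `z`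
  have hCQ : ∀ q : T, ∀ c ∈ C, ∃ e : T, (e = 1 ∨ e = z) ∧ q * c * q⁻¹ = e * c := by
    intro q c hc
    have hcp : c * c ∈ centralizer (C : Set T) := by rw [← pow_two]; exact hC.pow_mem c hc
    set h := q * c * q⁻¹ * c⁻¹ with hh
    have hh' : h ∈ centralizer (C : Set T) := by
      have := (hC.commutator_le (commutator_mem_commutator hc (mem_top q)))
      have e : h = ⁅c, q⁆⁻¹ := by rw [hh, commutatorElement_def]; group
      rw [e]; exact inv_mem this
    refine ⟨h, huniq h (hcZ h hh') ?_, by rw [hh, inv_mul_cancel_right]⟩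
    have hcc : c * c = 1 ∨ c * c = z := huniq _ (hcZ _ hcp) (by
      rw [show c * c * (c * c) = c ^ 4 by rw [pow_succ, pow_succ, pow_succ, pow_one]; simp only [mul_assoc], h4])
    have h1 : c * h = h * c := mem_centralizer_iff.1 hh' c hc
    have hqc : q * (c * c) * q⁻¹ = c * c := by rw [hzz hcc, mul_inv_cancel_right]
    have e2 : h * h * (c * c) = c * c := by
      calc h * h * (c * c) = h * (h * c) * c := by simp only [mul_assoc]
        _ = h * (c * h) * c := by rw [h1]
        _ = (h * c) * (h * c) := by simp only [mul_assoc]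
        _ = (q * c * q⁻¹) * (q * c * q⁻¹) := by rw [hh, inv_mul_cancel_right]
        _ = q * (c * c) * q⁻¹ := by group
        _ = c * c := hqc
    exact mul_eq_right.1 e2
  have hact : ∀ w : T, (∀ c ∈ C, w * c * w⁻¹ = c) → w ∈ Z := fun w hw =>
    hcZ w (mem_centralizer_iff.2 fun c hc => (mul_inv_eq_iff_eq_mul.1 (hw c hc)).symm)
  have hesq : ∀ {e : T}, e = 1 ∨ e = z → e * e = 1 := by
    rintro e (rfl | rfl)
    · exact one_mul _
    · exact hz2
  have hsqT : ∀ x : T, x * x = 1 ∨ x * x = z := by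
    intro x
    refine huniq _ (hact _ fun c hc => ?_)
      (by rw [show x * x * (x * x) = x ^ 4 by rw [pow_succ, pow_succ, pow_succ, pow_one]; simp only [mul_assoc], h4])
    obtain ⟨e, he, hxc⟩ := hCQ x c hc
    calc x * x * c * (x * x)⁻¹ = x * (x * c * x⁻¹) * x⁻¹ := by group
      _ = x * e * c * x⁻¹ := by rw [hxc]; group
      _ = e * (x * c * x⁻¹) := by rw [hzz he x]; group
      _ = c := by rw [hxc, ← mul_assoc, hesq he, one_mul]
  have hmem : ∀ x : T, x * x ∈ zpowers z := fun x => by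
    rcases hsqT x with h | h <;> rw [h]
    · exact one_mem _
    · exact mem_zpowers z
  refine ⟨hsqT, fun x y => ?_, fun t ht htt => huniq t (hcenC t ht) htt⟩
  -- commutators are products of squares
  have key : x * y * x⁻¹ * y⁻¹ = (x * x) * ((x⁻¹ * y) * (x⁻¹ * y)) * (y⁻¹ * y⁻¹) := by group
  have hc : x * y * x⁻¹ * y⁻¹ ∈ zpowers z := key ▸ mul_mem (mul_mem (hmem x) (hmem _)) (hmem _)
  obtain ⟨i, hi⟩ := mem_zpowers_iff.1 hc
  have hz' : z ^ (2 : ℤ) = 1 := by rw [zpow_two, hz2]
  rcases Int.even_or_odd i with ⟨j, rfl⟩ | ⟨j, rfl⟩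
  · left; rw [← hi, ← two_mul, zpow_mul, hz', one_zpow]
  · right; rw [← hi, zpow_add, zpow_mul, hz', one_zpow, one_mul, zpow_one]

section Local

variable {G : Type*} [Group G] [Finite G]

/-- The properties of `Q = O₂(C(z))` used below. -/
structure Setup (z : G) (Q : Subgroup G) : Prop where
  z_sq : z * z = 1
  z_ne : z ≠ 1
  z_mem : z ∈ Q
  le_cent : ∀ x ∈ Q, Commute x z
  conj_mem : ∀ c : G, Commute c z → ∀ x ∈ Q, c * x * c⁻¹ ∈ Q
  isPGroup : IsPGroup 2 Q
  self_cent : ∀ y : G, Commute y z → (∀ x ∈ Q, Commute y x) → y ∈ Q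
  comm : ∀ x ∈ Q, ∀ y ∈ Q, x * y * x⁻¹ * y⁻¹ = 1 ∨ x * y * x⁻¹ * y⁻¹ = z
  central : ∀ t ∈ Q, t * t = 1 → (∀ x ∈ Q, Commute t x) → t = 1 ∨ t = z

omit [Finite G] in
theorem Setup.conj {z : G} {Q : Subgroup G} (S : Setup z Q) (g : G) :
    Setup (g * z * g⁻¹) (cj g Q) where
  z_sq := by rw [conj_mul, S.z_sq, mul_one, mul_inv_cancel]
  z_ne := fun h => S.z_ne (conj_eq_one_iff.1 h)
  z_mem := conj_mem_cj.2 S.z_mem
  le_cent := by
    rintro _ ⟨x, hx, rfl⟩
    exact (S.le_cent x hx).map (MulAut.conj g).toMonoidHom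
  conj_mem := by
    rintro c hc _ ⟨x, hx, rfl⟩
    have h1 : Commute (g⁻¹ * c * g) z := by
      have := hc.map (MulAut.conj g⁻¹).toMonoidHom
      simpa [mul_assoc] using this
    refine ⟨g⁻¹ * c * g * x * (g⁻¹ * c * g)⁻¹, S.conj_mem _ h1 x hx, ?_⟩
    show g * _ * g⁻¹ = c * (g * x * g⁻¹) * c⁻¹
    group
  isPGroup := Fusion.isPGroup_cj S.isPGroup g
  self_cent := by
    intro y hy hall
    rw [mem_cj]
    refine S.self_cent _ ?_ fun x hx => ?_
    · have := hy.map (MulAut.conj g⁻¹).toMonoidHom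
      simpa [mul_assoc] using this
    · have := (hall _ (conj_mem_cj.2 hx)).map (MulAut.conj g⁻¹).toMonoidHom
      simpa [mul_assoc] using this
  comm := by
    rintro _ ⟨x, hx, rfl⟩ _ ⟨y, hy, rfl⟩
    have := S.comm x hx y hy
    rcases this with h | h
    · left; rw [← map_inv, ← map_inv, ← map_mul, ← map_mul, ← map_mul, h, map_one]
    · right; rw [← map_inv, ← map_inv, ← map_mul, ← map_mul, ← map_mul, h]; rfl
  central := by
    rintro _ ⟨t, ht, rfl⟩ htt hall
    have h1 : t * t = 1 := (MulAut.conj g).injective (by rw [map_one]; simpa using htt)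
    rcases S.central t ht h1 (fun x hx => Commute.of_map (MulAut.conj g).injective (hall _ ⟨x, hx, rfl⟩))
      with rfl | rfl
    · left; exact map_one _
    · right; rfl

omit [Finite G] in
/-- A noncentral involution of `Q` is moved to its product with `z`. -/
theorem Setup.exists_move {z : G} {Q : Subgroup G} (S : Setup z Q) {t : G} (ht : t ∈ Q)
    (htt : t * t = 1) (ht1 : t ≠ 1) (htz : t ≠ z) : ∃ q ∈ Q, q * t * q⁻¹ = z * t := by
  by_contra hcon
  push Not at hcon
  have hc : ∀ x ∈ Q, Commute t x := by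
    intro x hx
    rcases S.comm x hx t ht with h | h
    · exact (mul_inv_eq_iff_eq_mul.1 (mul_inv_eq_one.1 h)).symm
    · exact absurd (mul_inv_eq_iff_eq_mul.1 h) (hcon x hx)
  rcases S.central t ht htt hc with h | h
  · exact ht1 h
  · exact htz h

/-- If `g z g⁻¹ ≠ z` lies in `Q`, then `z` lies in `g Q g⁻¹`. -/
theorem Setup.mem_conj {z : G} {Q : Subgroup G} (S : Setup z Q) {g : G}
    (hne : g * z * g⁻¹ ≠ z) (hin : g * z * g⁻¹ ∈ Q) : z ∈ cj g Q := by
  classical
  have : Fact (Nat.Prime 2) := ⟨Nat.prime_two⟩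
  set w := g * z * g⁻¹ with hw
  have S' := S.conj g
  rw [← hw] at S'
  obtain ⟨q, hqQ, hq⟩ := S.exists_move hin S'.z_sq S'.z_ne hne
  have hwz : Commute w z := S.le_cent w hin
  -- conjugation by elements of `Q` moves `w` to `w` or `z * w`
  have hmove : ∀ x ∈ Q, x * w * x⁻¹ = w ∨ x * w * x⁻¹ = z * w := by
    intro x hx
    rcases S.comm x hx w hin with h | h
    · left; exact mul_inv_eq_one.1 h
    · right; exact mul_inv_eq_iff_eq_mul.1 h
  have hzQ' : ∀ x ∈ Q, x * z * x⁻¹ = z := fun x hx => by rw [(S.le_cent x hx).eq, mul_inv_cancel_right]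
  have hind : ∀ x ∈ Q, ¬ Commute x w → Commute (q⁻¹ * x) w := by
    intro x hx hxw
    have h1 : x * w * x⁻¹ = z * w := (hmove x hx).resolve_left fun h => hxw (mul_inv_eq_iff_eq_mul.1 h)
    have h2 : q⁻¹ * x * w * (q⁻¹ * x)⁻¹ = w := by
      calc q⁻¹ * x * w * (q⁻¹ * x)⁻¹ = q⁻¹ * (x * w * x⁻¹) * q := by group
        _ = q⁻¹ * (q * w * q⁻¹) * q := by rw [h1, hq]
        _ = w := by group
    exact mul_inv_eq_iff_eq_mul.1 h2
  have hqw : ¬ Commute q w := fun h => by
    have : q * w * q⁻¹ = w := by rw [h.eq, mul_inv_cancel_right]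
    rw [hq] at this
    exact S.z_ne (mul_eq_right.1 this)
  -- an element commuting with `C_Q(w)` and with `q` is central in `Q`
  have hcent : ∀ d : G, (∀ x ∈ Q, Commute x w → Commute d x) → Commute d q → ∀ x ∈ Q, Commute d x := by
    intro d hd hdq x hx
    by_cases hxw : Commute x w
    · exact hd x hx hxw
    · have h := hdq.mul_right (hd _ (Q.mul_mem (Q.inv_mem hqQ) hx) (hind x hx hxw))
      rwa [mul_inv_cancel_left] at h
  -- central involutions of `C_Q(w)`
  have hL : ∀ d ∈ Q, d * d = 1 → (∀ x ∈ Q, Commute x w → Commute d x) →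
      d = 1 ∨ d = z ∨ d = w ∨ d = z * w := by
    intro d hd hdd hdc
    rcases S.comm q hqQ d hd with h | h
    · rcases S.central d hd hdd (hcent d hdc (mul_inv_eq_iff_eq_mul.1 (mul_inv_eq_one.1 h)).symm) with h | h
      · exact Or.inl h
      · exact Or.inr (Or.inl h)
    · have hdw : Commute d w := hdc w hin (Commute.refl w)
      have hdq : q * d * q⁻¹ = z * d := mul_inv_eq_iff_eq_mul.1 h
      have hq2 : q * (d * w) * q⁻¹ = d * w := by
        calc q * (d * w) * q⁻¹ = (q * d * q⁻¹) * (q * w * q⁻¹) := by group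
          _ = z * d * (z * w) := by rw [hdq, hq]
          _ = (z * z) * (d * w) := by
              rw [mul_assoc z d, ← mul_assoc d z, (S.le_cent d hd).eq]; simp only [mul_assoc]
          _ = d * w := by rw [S.z_sq, one_mul]
      have hsq : d * w * (d * w) = 1 := by
        rw [mul_assoc, ← mul_assoc w d, ← hdw.eq, mul_assoc, S'.z_sq, mul_one, hdd]
      rcases S.central (d * w) (mul_mem hd hin) hsq (hcent _ (fun x hx hxw => (hdc x hx hxw).mul_left hxw.symm)
        (mul_inv_eq_iff_eq_mul.1 hq2).symm) with h' | h'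
      · right; right; left
        rw [eq_inv_of_mul_eq_one_left h', inv_eq_of_mul_eq_one_right S'.z_sq]
      · right; right; right
        rw [← h', mul_assoc, S'.z_sq, mul_one]
  -- an involution of `C(z)` centralising `C_Q(w)` lies in `Q`
  have hM : ∀ y : G, y * y = 1 → Commute y z → (∀ x ∈ Q, Commute x w → Commute y x) → y ∈ Q := by
    intro y hyy hyz hyc
    set d := y * q * y⁻¹ * q⁻¹ with hd
    have hdQ : d ∈ Q := mul_mem (S.conj_mem y hyz q hqQ) (inv_mem hqQ)
    have hDn : ∀ u ∈ Q, ∀ x ∈ Q, Commute x w → Commute (u * x * u⁻¹) w := by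
      intro u hu x hx hxw
      rcases S.comm u hu x hx with h | h
      · rw [mul_inv_eq_one.1 h]; exact hxw
      · rw [mul_inv_eq_iff_eq_mul.1 h]; exact hwz.symm.mul_left hxw
    have hdD : ∀ x ∈ Q, Commute x w → Commute d x := by
      intro x hx hxw
      have hx' := hDn q hqQ x hx hxw
      have hqxQ : q * x * q⁻¹ ∈ Q := mul_mem (mul_mem hqQ hx) (inv_mem hqQ)
      have h1 : y * (q * x * q⁻¹) * y⁻¹ = q * x * q⁻¹ := by
        rw [(hyc _ hqxQ hx').eq, mul_inv_cancel_right]
      have h2 : y * x * y⁻¹ = x := by rw [(hyc x hx hxw).eq, mul_inv_cancel_right]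
      have h3 : d * (q * x * q⁻¹) * d⁻¹ = q * x * q⁻¹ := by
        calc d * (q * x * q⁻¹) * d⁻¹ = (y * q * y⁻¹) * x * (y * q * y⁻¹)⁻¹ := by rw [hd]; group
          _ = (y * q * y⁻¹) * (y * x * y⁻¹) * (y * q * y⁻¹)⁻¹ := by rw [h2]
          _ = y * (q * x * q⁻¹) * y⁻¹ := by group
          _ = q * x * q⁻¹ := h1
      -- `x` differs from its conjugate by a central element
      rcases S.comm q hqQ x hx with h | h
      · rw [mul_inv_eq_one.1 h] at h3; exact mul_inv_eq_iff_eq_mul.1 h3
      · have hqx : q * x * q⁻¹ = z * x := mul_inv_eq_iff_eq_mul.1 h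
        rw [hqx] at h3
        have hc : Commute d (z * x) := mul_inv_eq_iff_eq_mul.1 h3
        have hz : Commute d z⁻¹ := (S.le_cent d hdQ).inv_right
        have := hz.mul_right hc
        rwa [inv_mul_cancel_left] at this
    have hdw : Commute d w := by
      by_contra hdw
      have hqd := hind d hdQ hdw
      have hdq' : Commute d q := by
        have h1 : Commute d (q⁻¹ * d) := hdD _ (mul_mem (inv_mem hqQ) hdQ) hqd
        have h2 : Commute d q⁻¹ := by
          have := h1.mul_right (Commute.refl d).inv_right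
          rwa [mul_inv_cancel_right] at this
        simpa using h2.inv_right
      exact hdw (hcent d hdD hdq' w hin)
    have hyd : Commute y d := hyc d hdQ hdw
    have hdd : d * d = 1 := by
      have e : y * (y * q * y⁻¹) * y⁻¹ = d * d * q := by
        rw [show y * q * y⁻¹ = d * q by rw [hd]; group]
        calc y * (d * q) * y⁻¹ = (y * d * y⁻¹) * (y * q * y⁻¹) := by group
          _ = d * d * q := by rw [hyd.eq, mul_inv_cancel_right, hd]; group
      rw [show y * (y * q * y⁻¹) * y⁻¹ = (y * y) * q * (y * y)⁻¹ by group, hyy, inv_one, one_mul,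
        mul_one] at e
      exact mul_eq_right.1 e.symm
    -- squares
    have hqq : Commute y (q * q) := by
      refine hyc _ (mul_mem hqQ hqQ) ?_
      have : q * q * w * (q * q)⁻¹ = w := by
        calc q * q * w * (q * q)⁻¹ = q * (q * w * q⁻¹) * q⁻¹ := by group
          _ = q * (z * w) * q⁻¹ := by rw [hq]
          _ = (q * z * q⁻¹) * (q * w * q⁻¹) := by group
          _ = w := by rw [hq, hzQ' q hqQ, ← mul_assoc, S.z_sq, one_mul]
      exact mul_inv_eq_iff_eq_mul.1 this
    have hdq : Commute d q := by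
      have e : d * q * (d * q) = q * q := by
        rw [show d * q = y * q * y⁻¹ by rw [hd]; group]
        calc y * q * y⁻¹ * (y * q * y⁻¹) = y * (q * q) * y⁻¹ := by group
          _ = q * q := by rw [hqq.eq, mul_inv_cancel_right]
      have e2 : d * q * d = q := by
        rw [← mul_assoc] at e
        exact mul_right_cancel e
      calc d * q = d * q * (d * d) := by rw [hdd, mul_one]
        _ = (d * q * d) * d := by simp only [mul_assoc]
        _ = q * d := by rw [e2]
    rcases S.central d hdQ hdd (hcent d hdD hdq) with h | h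
    · refine S.self_cent y hyz (hcent y hyc ?_)
      exact mul_inv_eq_iff_eq_mul.1 (mul_inv_eq_one.1 (hd.symm.trans h))
    · have hyw : y * w ∈ Q := by
        refine S.self_cent _ (hyz.mul_left hwz) (hcent _ (fun x hx hxw => (hyc x hx hxw).mul_left hxw.symm) ?_)
        have e1 : y * q * y⁻¹ = z * q := by rw [← h, hd]; group
        have e3 : z⁻¹ = z := inv_eq_of_mul_eq_one_right S.z_sq
        have e2 : w * q * w⁻¹ = z * q := by
          calc w * q * w⁻¹ = (q * w * q⁻¹ * w⁻¹)⁻¹ * q := by group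
            _ = z * q := by rw [hq, mul_inv_cancel_right, e3]
        have e : y * w * q * (y * w)⁻¹ = q := by
          calc y * w * q * (y * w)⁻¹ = y * (w * q * w⁻¹) * y⁻¹ := by group
            _ = (y * z * y⁻¹) * (y * q * y⁻¹) := by rw [e2]; group
            _ = q := by rw [e1, hyz.eq, mul_inv_cancel_right, ← mul_assoc, S.z_sq, one_mul]
        exact mul_inv_eq_iff_eq_mul.1 e
      have := mul_mem hyw (inv_mem hin)
      rwa [mul_inv_cancel_right] at this
  -- a Sylow 2-subgroup of `C(z) ⊓ C(w)`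
  set C := centralizer ({z} : Set G) with hC
  set A := centralizer ({w} : Set G) with hA
  set W := C ⊓ A with hW
  obtain ⟨P⟩ : Nonempty (Sylow 2 W) := inferInstance
  set T₀ := (P : Subgroup W).map W.subtype with hT₀
  have hT₀W : T₀ ≤ W := map_subtype_le _
  have hT₀p : IsPGroup 2 T₀ := P.isPGroup'.map _
  have hmemC : ∀ {x : G}, x ∈ C ↔ Commute x z := fun {x} => mem_centralizer_singleton_iff
  have hmemA : ∀ {x : G}, x ∈ A ↔ Commute x w := fun {x} => mem_centralizer_singleton_iff
  have hQC : Q ≤ C := fun x hx => hmemC.2 (S.le_cent x hx)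
  have hDT : ∀ x ∈ Q, Commute x w → x ∈ T₀ := by
    intro x hx hxw
    let E : Subgroup W := (Q ⊓ A).subgroupOf W
    have hEn : E.Normal := ⟨fun e he c => by
      refine ⟨S.conj_mem c (hmemC.1 c.2.1) e he.1, ?_⟩
      exact hmemA.2 (((hmemA.1 c.2.2).mul_left (hmemA.1 he.2)).mul_left (hmemA.1 c.2.2).inv_left)⟩
    have hEp : IsPGroup 2 E := (S.isPGroup.to_le inf_le_left).comap_of_injective W.subtype Subtype.val_injective
    have hle : E ≤ (P : Subgroup W) := by
      have := P.3 (hEp.to_sup_of_normal_left P.2) le_sup_right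
      exact le_sup_left.trans this.le
    exact ⟨⟨x, hQC hx, hmemA.2 hxw⟩, hle ⟨hx, hmemA.2 hxw⟩, rfl⟩
  have hmax : ∀ R : Subgroup G, IsPGroup 2 R → T₀ ≤ R → R ≤ W → R ≤ T₀ := by
    intro R hR hTR hRW x hx
    have h := P.3 (hR.comap_of_injective W.subtype Subtype.val_injective)
      (fun y hy => hTR ⟨y, hy, rfl⟩ : (P : Subgroup W) ≤ R.comap W.subtype)
    exact ⟨⟨x, hRW hx⟩, h ▸ hx, rfl⟩
  -- `T₀` is not a Sylow subgroup of `C(w)`
  have hbig : Nat.card T₀ < Nat.card ↥(T₀ ⊔ Q : Subgroup G) := by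
    refine Fusion.card_lt_card (lt_of_le_not_ge le_sup_left fun h => hqw ?_)
    exact hmemA.1 (hT₀W (h (mem_sup_right hqQ))).2
  have hTQ : IsPGroup 2 ↥(T₀ ⊔ Q : Subgroup G) := by
    refine hT₀p.to_sup_of_normal_right' S.isPGroup ?_
    rw [le_normalizer_iff]
    exact fun t ht x hx => S.conj_mem t (hmemC.1 (hT₀W ht).1) x hx
  obtain ⟨PA, hPA⟩ : ∃ PA : Sylow 2 A, T₀.subgroupOf A ≤ PA :=
    (hT₀p.comap_of_injective A.subtype Subtype.val_injective).exists_le_sylow
  set TA := (PA : Subgroup A).map A.subtype with hTA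
  have hT₀TA : T₀ < TA := by
    refine lt_of_le_of_ne (fun x hx => ⟨⟨x, (hT₀W hx).2⟩, hPA hx, rfl⟩) fun heq => ?_
    have hcjA : cj g (T₀ ⊔ Q) ≤ A := by
      rintro _ ⟨x, hx, rfl⟩
      have hxC : x ∈ C := sup_le (hT₀W.trans inf_le_left) hQC hx
      exact hmemA.2 ((hmemC.1 hxC).map (MulAut.conj g).toMonoidHom)
    obtain ⟨PB, hPB⟩ := ((Fusion.isPGroup_cj hTQ g).comap_of_injective A.subtype
      Subtype.val_injective).exists_le_sylow
    have h1 : Nat.card ↥(T₀ ⊔ Q : Subgroup G) ≤ Nat.card TA := by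
      rw [hTA, card_map_of_injective A.subtype_injective, PA.card_eq_multiplicity,
        ← PB.card_eq_multiplicity, ← Fusion.card_cj g (T₀ ⊔ Q),
        ← Nat.card_congr (subgroupOfEquivOfLe hcjA).toEquiv]
      exact card_le_of_le hPB
    rw [← heq] at h1
    omega
  have hTAA : TA ≤ A := map_subtype_le _
  have hTAp : IsPGroup 2 TA := PA.isPGroup'.map _
  have hgrow := Fusion.lt_normalizer_inf hTAp hT₀TA
  obtain ⟨x, ⟨hxTA, hxN⟩, hxT⟩ := SetLike.exists_of_lt hgrow
  -- the conjugate of `z` by `x` is `z * w`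
  set u := x * z * x⁻¹ with hu
  have hxw : Commute x w := hmemA.1 (hTAA hxTA)
  have huT : ∀ t ∈ T₀, Commute u t := by
    intro t ht
    have h1 : x⁻¹ * t * x ∈ T₀ := by
      have := (mem_normalizer_iff.1 (inv_mem hxN) t).1 ht
      rwa [inv_inv] at this
    have h2 : Commute (x⁻¹ * t * x) z := hmemC.1 (hT₀W h1).1
    have h3 := h2.symm.map (MulAut.conj x).toMonoidHom
    simpa [hu, mul_assoc] using h3
  have hzT : z ∈ T₀ := hDT z S.z_mem hwz.symm
  have huu : u * u = 1 := by rw [hu, conj_mul, S.z_sq, mul_one, mul_inv_cancel]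
  have huQ : u ∈ Q := hM u huu (huT z hzT) fun t ht htw => huT t (hDT t ht htw)
  rcases hL u huQ huu fun t ht htw => huT t (hDT t ht htw) with h | h | h | h
  · exact absurd (conj_eq_one_iff.1 h) S.z_ne
  · exfalso
    apply hxT
    have hxC : Commute x z := mul_inv_eq_iff_eq_mul.1 h
    refine hmax (T₀ ⊔ zpowers x) (hTAp.to_le (sup_le hT₀TA.le (zpowers_le.2 hxTA))) le_sup_left
      (sup_le hT₀W (zpowers_le.2 ⟨hmemC.2 hxC, hmemA.2 hxw⟩)) (mem_sup_right (mem_zpowers x))
  · exfalso
    apply hne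
    have hxwx : x * w * x⁻¹ = w := by rw [hxw.eq, mul_inv_cancel_right]
    exact mul_left_cancel (mul_right_cancel (hxwx.trans h.symm : x * w * x⁻¹ = x * z * x⁻¹))
  · -- so `q * x` maps `z` to `w` and `w` to `z * w`
    set σ := q * x with hσ
    have hσz : σ * z * σ⁻¹ = w := by
      calc σ * z * σ⁻¹ = q * (x * z * x⁻¹) * q⁻¹ := by rw [hσ]; group
        _ = (q * z * q⁻¹) * (q * w * q⁻¹) := by rw [show x * z * x⁻¹ = z * w from h]; group
        _ = w := by rw [hzQ' q hqQ, hq, ← mul_assoc, S.z_sq, one_mul]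
    have hσw : σ * w * σ⁻¹ = z * w := by
      calc σ * w * σ⁻¹ = q * (x * w * x⁻¹) * q⁻¹ := by rw [hσ]; group
        _ = z * w := by rw [hxw.eq, mul_inv_cancel_right, hq]
    have hcjeq : cj σ Q = cj g Q := by
      have hc : Commute (g⁻¹ * σ) z := by
        have : g⁻¹ * σ * z * (g⁻¹ * σ)⁻¹ = z := by
          calc g⁻¹ * σ * z * (g⁻¹ * σ)⁻¹ = g⁻¹ * (σ * z * σ⁻¹) * g := by group
            _ = z := by rw [hσz, hw]; group
        exact mul_inv_eq_iff_eq_mul.1 this
      have hfix : cj (g⁻¹ * σ) Q = Q := Subgroup.eq_of_le_of_card_ge (by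
        rintro _ ⟨a, ha, rfl⟩
        exact S.conj_mem _ hc a ha) (by rw [Fusion.card_cj])
      conv_rhs => rw [← hfix]
      rw [cj_cj, mul_inv_cancel_left]
    have hzw : z * w ∈ cj g Q := by rw [← hcjeq, ← hσw]; exact conj_mem_cj.2 hin
    have := mul_mem hzw S'.z_mem
    rwa [mul_assoc, S'.z_sq, mul_one] at this

end Local

theorem result {G : Type*} [Group G] [Finite G] (z : G) (hz : orderOf z = 2) (hQ : Cfsg.IsOfSymplecticType ↥(Cfsg.generalizedFittingSubgroup ↥(Subgroup.centralizer ({z} : Set G))))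
    (h4 : ∀ q ∈ (Cfsg.generalizedFittingSubgroup ↥(Subgroup.centralizer ({z} : Set G))).map (Subgroup.centralizer ({z} : Set G)).subtype, q ^ 4 = 1) (g : G) (hne : g * z * g⁻¹ ≠ z) (hin : g * z * g⁻¹ ∈ (Cfsg.generalizedFittingSubgroup ↥(Subgroup.centralizer ({z} : Set G))).map (Subgroup.centralizer ({z} : Set G)).subtype) :
    z ∈ ((Cfsg.generalizedFittingSubgroup ↥(Subgroup.centralizer ({z} : Set G))).map (Subgroup.centralizer ({z} : Set G)).subtype).map (MulAut.conj g).toMonoidHom ∧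
      ∀ u ∈ Subgroup.closure ({z, g * z * g⁻¹} : Set G), ∀ v ∈ Subgroup.closure ({z, g * z * g⁻¹} : Set G),
        u ≠ 1 → v ≠ 1 → u ≠ v →
          ∃ x ∈ (Cfsg.generalizedFittingSubgroup ↥(Subgroup.centralizer ({z} : Set G))).map (Subgroup.centralizer ({z} : Set G)).subtype ⊔ ((Cfsg.generalizedFittingSubgroup ↥(Subgroup.centralizer ({z} : Set G))).map (Subgroup.centralizer ({z} : Set G)).subtype).map (MulAut.conj g).toMonoidHom, x * z * x⁻¹ = u ∧ x * (g * z * g⁻¹) * x⁻¹ = v := by
  classical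
  set C := Subgroup.centralizer ({z} : Set G) with hC
  set F := Cfsg.generalizedFittingSubgroup ↥C with hF
  set Q := F.map C.subtype with hQdef
  haveI hFn : F.Normal := Components.genFitting_normal
  have hzC : z ∈ C := mem_centralizer_singleton_iff.2 rfl
  have hzF : (⟨z, hzC⟩ : C) ∈ F :=
    Components.centralizer_genFitting_le (mem_centralizer_iff.2 fun y _ =>
      Subtype.ext (mem_centralizer_singleton_iff.1 y.2))
  have hzsq : z * z = 1 := by rw [← pow_two, ← hz, pow_orderOf_eq_one]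
  have hz1 : z ≠ 1 := fun h => by rw [h, orderOf_one] at hz; norm_num at hz
  obtain ⟨-, hFc, hFz⟩ := symplectic_facts hQ
    (fun x => Subtype.ext (Subtype.ext (h4 _ (mem_map_of_mem _ x.2))))
    (z := ⟨⟨z, hzC⟩, hzF⟩)
    (mem_center_iff.2 fun x => Subtype.ext (Subtype.ext (mem_centralizer_singleton_iff.1 x.1.2)))
    (Subtype.ext (Subtype.ext hzsq))
    (fun h => hz1 (congrArg (fun x : F => ((x : C) : G)) h))
  have S : Setup z Q :=
    { z_sq := hzsq
      z_ne := hz1
      z_mem := ⟨⟨z, hzC⟩, hzF, rfl⟩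
      le_cent := by
        rintro _ ⟨x, -, rfl⟩
        exact mem_centralizer_singleton_iff.1 x.2
      conj_mem := by
        rintro c hc _ ⟨x, hx, rfl⟩
        exact ⟨⟨c, mem_centralizer_singleton_iff.2 hc⟩ * x * ⟨c, mem_centralizer_singleton_iff.2 hc⟩⁻¹,
          hFn.conj_mem x hx _, rfl⟩
      isPGroup := hQ.1.map _
      self_cent := by
        intro y hy hall
        refine ⟨⟨y, mem_centralizer_singleton_iff.2 hy⟩, Components.centralizer_genFitting_le
          (mem_centralizer_iff.2 fun x hx => Subtype.ext ?_), rfl⟩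
        exact (hall _ ⟨x, hx, rfl⟩).eq.symm
      comm := by
        rintro _ ⟨x, hx, rfl⟩ _ ⟨y, hy, rfl⟩
        exact (hFc ⟨x, hx⟩ ⟨y, hy⟩).imp (fun h => congrArg (fun a : F => ((a : C) : G)) h)
          (fun h => congrArg (fun a : F => ((a : C) : G)) h)
      central := by
        rintro _ ⟨t, ht, rfl⟩ htt hall
        refine (hFz ⟨t, ht⟩ (mem_center_iff.2 fun x => Subtype.ext (Subtype.ext ?_))
          (Subtype.ext (Subtype.ext htt))).imp (fun h => congrArg (fun a : F => ((a : C) : G)) h)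
          (fun h => congrArg (fun a : F => ((a : C) : G)) h)
        exact (hall _ ⟨x.1, x.2, rfl⟩).eq.symm }
  set w := g * z * g⁻¹ with hw
  have hzin := S.mem_conj hne hin
  refine ⟨hzin, ?_⟩
  have S' := S.conj g
  rw [← hw] at S'
  obtain ⟨q, hqQ, hq⟩ := S.exists_move hin S'.z_sq S'.z_ne hne
  obtain ⟨r, hrQ, hr⟩ := S'.exists_move hzin hzsq hz1 (Ne.symm hne)
  set X := Q ⊔ cj g Q with hX
  have hqX : q ∈ X := mem_sup_left hqQ
  have hrX : r ∈ X := mem_sup_right hrQ
  have hwz : w * z = z * w := (S.le_cent w hin).eq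
  have hqz : q * z * q⁻¹ = z := by rw [(S.le_cent q hqQ).eq, mul_inv_cancel_right]
  have hrw : r * w * r⁻¹ = w := by rw [(S'.le_cent r hrQ).eq, mul_inv_cancel_right]
  rw [hwz] at hr
  have hqzw : q * (z * w) * q⁻¹ = w := by
    calc q * (z * w) * q⁻¹ = (q * z * q⁻¹) * (q * w * q⁻¹) := by group
      _ = w := by rw [hqz, hq, ← mul_assoc, hzsq, one_mul]
  have hrzw : r * (z * w) * r⁻¹ = z := by
    calc r * (z * w) * r⁻¹ = (r * z * r⁻¹) * (r * w * r⁻¹) := by group
      _ = z := by rw [hr, hrw, mul_assoc, S'.z_sq, mul_one]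
  have hmem : ∀ u ∈ Subgroup.closure ({z, w} : Set G), u = 1 ∨ u = z ∨ u = w ∨ u = z * w := by
    intro u hu
    have : Subgroup.closure ({z, w} : Set G) ≤
        Invol.fourGroup z w hzsq S'.z_sq (show Commute z w from hwz.symm) := by
      rw [closure_le]
      rintro a (rfl | rfl)
      · exact Or.inr (Or.inl rfl)
      · exact Or.inr (Or.inr (Or.inl rfl))
    exact this hu
  intro u hu v hv hu1 hv1 huv
  have conj2 : ∀ a b t : G, a * b * t * (a * b)⁻¹ = a * (b * t * b⁻¹) * a⁻¹ := fun a b t => by group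
  have hqr : q * r ∈ X := mul_mem hqX hrX
  rcases hmem u hu with hu' | hu' | hu' | hu'
  · exact absurd hu' hu1
  all_goals rcases hmem v hv with hv' | hv' | hv' | hv'
  all_goals first
    | exact absurd hv' hv1
    | exact absurd (hu'.trans hv'.symm) huv
    | skip
  · rw [hu', hv']
    exact ⟨1, one_mem _, by group, by group⟩
  · rw [hu', hv']
    exact ⟨q, hqX, hqz, hq⟩
  · rw [hu', hv']
    exact ⟨q * r * q, mul_mem hqr hqX,
      by rw [conj2 (q * r) q, hqz, conj2, hr, hqzw],
      by rw [conj2 (q * r) q, hq, conj2, hrzw, hqz]⟩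
  · rw [hu', hv']
    exact ⟨q * r, hqr, by rw [conj2, hr, hqzw], by rw [conj2, hrw, hq]⟩
  · rw [hu', hv']
    exact ⟨r * q, mul_mem hrX hqX, by rw [conj2, hqz, hr], by rw [conj2, hq, hrzw]⟩
  · rw [hu', hv']
    exact ⟨r, hrX, hr, hrw⟩

end Cfsg.Agent.S1774
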