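import Cfsg.Statements.S1775
import Cfsg.Agent.Components.PComponent
import Cfsg.Agent.Components.FStar
import Cfsg.Agent.Coprime.Action

set_option autoImplicit false
set_option linter.all false
open Cfsg
open scoped Pointwise

namespace Cfsg.Agent.S1775

open Subgroup
open scoped commutatorElement

/-- A 2-component of an involution centralizer of a group with the B-property maps to a component modulo the core. -/
private lemma core_lemma {X : Type*} [Group X] [Finite X] (t : X) (ht : orderOf t = 2)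
    (hB : Cfsg.HasBProperty X)
    (J : Subgroup ↥(centralizer ({t} : Set X))) (hJ : Cfsg.IsPComponent 2 J) :
    Cfsg.IsComponent (((J.map (Subgroup.subtype _)).map (QuotientGroup.mk' (Cfsg.oddCore X))).subgroupOf
      (centralizer ({QuotientGroup.mk' (Cfsg.oddCore X) t} : Set (X ⧸ Cfsg.oddCore X)))) ∧
    ∀ E : Subgroup ↥(centralizer ({t} : Set X)), Odd (Nat.card E) → J ≤ normalizer (E : Set _) →
      (⁅J, E⁆).map (Subgroup.subtype _) ≤ Cfsg.oddCore X := by
  haveI := Fact.mk Nat.prime_two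
  let C : Subgroup X := centralizer ({t} : Set X)
  let π : X →* X ⧸ Cfsg.oddCore X := QuotientGroup.mk' (Cfsg.oddCore X)
  let Cb : Subgroup (X ⧸ Cfsg.oddCore X) := centralizer ({π t} : Set (X ⧸ Cfsg.oddCore X))
  have hCb : C.map π = Cb := by
    have hc := Agent.Coprime.centralizer_map_mk' (Subgroup.zpowers t) (Cfsg.oddCore X)
      (by rw [Nat.card_zpowers, ht]; exact (Agent.Cores.pPrimeCore_coprime (p := 2) (G := X)).symm)
      (Or.inl inferInstance)
    rw [MonoidHom.map_zpowers, zpowers_eq_closure, zpowers_eq_closure, centralizer_closure, centralizer_closure] at hc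
    exact hc.symm
  let f : ↥C →* ↥Cb := (π.comp C.subtype).codRestrict Cb
    (fun c => hCb ▸ mem_map_of_mem π c.2)
  have hf : Function.Surjective f := by
    rintro ⟨z, hz⟩
    rw [← hCb] at hz
    obtain ⟨c, hc, rfl⟩ := hz
    exact ⟨⟨c, hc⟩, rfl⟩
  have hfJ : ∀ K : Subgroup ↥C, K.map f = ((K.map C.subtype).map π).subgroupOf Cb := by
    intro K
    ext z
    simp only [mem_map, mem_subgroupOf]
    constructor
    · rintro ⟨c, hc, rfl⟩
      exact ⟨c, ⟨c, hc, rfl⟩, rfl⟩
    · rintro ⟨w, ⟨c, hc, rfl⟩, hw⟩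
      exact ⟨c, hc, Subtype.ext hw⟩
  have hker : f.ker ≤ Cfsg.pPrimeCore 2 ↥C := by
    refine Agent.Cores.le_pPrimeCore inferInstance ?_
    refine Nat.Coprime.coprime_dvd_left ?_ (Agent.Cores.pPrimeCore_coprime (p := 2) (G := X))
    refine (card_map_of_injective C.subtype_injective (K := f.ker)).symm.dvd.trans (card_dvd_of_le ?_)
    rintro _ ⟨c, hc, rfl⟩
    exact (QuotientGroup.eq_one_iff _).mp (congrArg Subtype.val hc)
  -- images in `C / O(C)` factor through `f`
  let πC : ↥C →* ↥C ⧸ Cfsg.pPrimeCore 2 ↥C := QuotientGroup.mk' _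
  let r : ↥Cb →* ↥C ⧸ Cfsg.pPrimeCore 2 ↥C :=
    f.liftOfSurjective hf ⟨πC, by rw [QuotientGroup.ker_mk']; exact hker⟩
  have hr : r.comp f = πC := MonoidHom.liftOfRightInverse_comp _ _ _ _
  have hmapr : ∀ K : Subgroup ↥C, (K.map f).map r = K.map πC := by
    intro K; rw [map_map, hr]
  have hJp : ⁅J, J⁆ = J := Agent.Components.pComponent_commutator_self hJ
  have hJb : Cfsg.IsComponent (J.map f) := by
    refine ⟨hJ.1.map hf, ?_⟩
    haveI : Group.IsPerfect ↥(J.map f) :=
      Subgroup.isPerfect_iff.mpr (by rw [← Subgroup.map_commutator, hJp])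
    haveI : Nontrivial ↥(J.map f) := by
      rw [nontrivial_iff_ne_bot]
      intro h
      apply Agent.Components.component_ne_bot hJ.2.1
      show J.map πC = ⊥
      rw [← hmapr, h, Subgroup.map_bot]
    refine Agent.Components.quasisimple_of_forall_normal fun M hM => or_iff_not_imp_left.mpr fun hne => ?_
    have hM' : M.map (J.map f).subtype ≤ J.map f := map_subtype_le M
    let N : Subgroup ↥C := J ⊓ (M.map (J.map f).subtype).comap f
    have hNf : N.map f = M.map (J.map f).subtype := by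
      apply le_antisymm
      · rintro _ ⟨c, hc, rfl⟩; exact (mem_inf.mp hc).2
      · intro z hz
        obtain ⟨c, hc, rfl⟩ := hM' hz
        exact mem_map_of_mem f (mem_inf.mpr ⟨hc, hz⟩)
    have hnM : J.map f ≤ normalizer (M.map (J.map f).subtype : Set ↥Cb) := by
      have := le_normalizer_map (H := M) (J.map f).subtype
      rwa [normalizer_eq_top_iff.mpr hM, ← MonoidHom.range_eq_map, range_subtype] at this
    have hJN : J ≤ normalizer (N : Set ↥C) := by
      intro j hj
      have hjn := hnM (mem_map_of_mem f hj)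
      rw [mem_normalizer_iff] at hjn ⊢
      intro c
      simp only [N, SetLike.mem_coe, mem_inf, mem_comap, map_mul, map_inv]
      refine and_congr ?_ (hjn (f c))
      exact ⟨fun h => J.mul_mem (J.mul_mem hj h) (J.inv_mem hj), fun h => by
        have := J.mul_mem (J.mul_mem (J.inv_mem hj) h) hj
        simpa [mul_assoc] using this⟩
    have hNs : N.IsSubnormal :=
      IsSubnormal.step _ J inf_le_left hJ.1 (normal_subgroupOf_of_le_normalizer hJN)
    rcases Agent.Components.quasisimple_normalized hJ.2.1.2 (map_mono (f := πC) (inf_le_left : N ≤ J))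
        ((map_mono hJN).trans (le_normalizer_map _)) with h | h
    · exfalso
      apply hne
      have hN : N = J := hJ.2.2 N hNs inf_le_left h
      rw [hN] at hNf
      rw [← map_subtype_inj, ← hNf, ← MonoidHom.range_eq_map, range_subtype]
    · rw [← Subgroup.map_commutator, Subgroup.map_eq_bot_iff, QuotientGroup.ker_mk'] at h
      have h2 : ⁅⁅N, J⁆, J⁆ ≤ f.ker := by
        refine (commutator_mono (commutator_comm_le N J |>.trans h) le_rfl).trans ?_
        refine (commutator_comm_le _ _).trans ?_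
        intro c hc
        apply Subtype.ext
        refine (QuotientGroup.eq_one_iff _).mpr (hB t ht (mem_map_of_mem C.subtype ?_))
        exact commutator_mono (Agent.Components.pComponent_le_pLayer hJ) le_rfl hc
      have h3 : ⁅⁅N.map f, J.map f⁆, J.map f⁆ = ⊥ := by
        rw [← Subgroup.map_commutator, ← Subgroup.map_commutator, Subgroup.map_eq_bot_iff]
        exact h2
      have h4 : ⁅J.map f, N.map f⁆ = ⊥ := Agent.Components.perfect_centralizes_of_commutator
        (by rw [← Subgroup.map_commutator, hJp]) h3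
      rw [hNf] at h4
      intro n hn
      rw [mem_center_iff]
      intro k
      apply Subtype.ext
      exact commutatorElement_eq_one_iff_mul_comm.mp
        (mem_bot.mp (h4 ▸ commutator_mem_commutator k.2 (mem_map_of_mem (J.map f).subtype hn)))
  refine ⟨(hfJ J) ▸ hJb, ?_⟩
  intro E hE hn
  have hodd : Odd (Nat.card (E.map f)) :=
    Odd.of_dvd_nat hE (card_map_dvd _ _)
  have hnf : J.map f ≤ normalizer (E.map f : Set ↥Cb) := (map_mono hn).trans (le_normalizer_map _)
  let S : Subgroup ↥Cb := J.map f ⊔ E.map f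
  have hS : ((E.map f).subgroupOf S).Normal :=
    normal_subgroupOf_of_le_normalizer (sup_le hnf le_normalizer)
  rcases Agent.Components.component_le_or_commute_normal
      (Agent.Components.component_subgroupOf hJb (le_sup_left : J.map f ≤ S)) hS with h | h
  · exfalso
    have hle : J.map f ≤ E.map f := fun z hz =>
      mem_subgroupOf.mp (h (show (⟨z, le_sup_left (a := J.map f) hz⟩ : ↥S) ∈ (J.map f).subgroupOf S from hz))
    have h2 : 2 ∣ Nat.card (J.map πC) := Agent.Components.component_card_dvd_of_pPrimeCore_eq_bot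
      Agent.Cores.pPrimeCore_quotient_pPrimeCore_eq_bot hJ.2.1
    rw [← hmapr] at h2
    have h3 : 2 ∣ Nat.card (E.map f) :=
      (h2.trans (card_map_dvd _ _)).trans (card_dvd_of_le hle)
    exact (Nat.not_even_iff_odd.mpr hodd) (even_iff_two_dvd.mpr h3)
  · have h1 : ⁅J.map f, E.map f⁆ = ⊥ := by
      rw [eq_bot_iff, commutator_le]
      intro a ha b hb
      rw [mem_bot]
      have := mem_bot.mp (h ▸ commutator_mem_commutator
        (show (⟨a, le_sup_left (a := J.map f) ha⟩ : ↥S) ∈ (J.map f).subgroupOf S from ha)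
        (show (⟨b, le_sup_right (a := J.map f) hb⟩ : ↥S) ∈ (E.map f).subgroupOf S from hb))
      exact congrArg Subtype.val this
    rintro _ ⟨c, hc, rfl⟩
    refine (QuotientGroup.eq_one_iff _).mp ?_
    have h5 : f c ∈ (⁅J, E⁆).map f := mem_map_of_mem f hc
    rw [Subgroup.map_commutator, h1, mem_bot] at h5
    exact congrArg Subtype.val h5

private lemma hasBProperty_congr {X Y : Type*} [Group X] [Group Y] [Finite X] (e : X ≃* Y)
    (h : Cfsg.HasBProperty X) : Cfsg.HasBProperty Y := by
  haveI := Fact.mk Nat.prime_two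
  haveI : Finite Y := Finite.of_equiv X e.toEquiv
  intro s hs
  have hes : e (e.symm s) = s := e.apply_symm_apply s
  have hC : (centralizer ({e.symm s} : Set X)).map e.toMonoidHom = centralizer ({s} : Set Y) := by
    ext y
    simp only [mem_map, mem_centralizer_singleton_iff, MulEquiv.coe_toMonoidHom]
    constructor
    · rintro ⟨x, hx, rfl⟩
      rw [← hes, ← map_mul, ← map_mul, hx]
    · intro hy
      refine ⟨e.symm y, ?_, e.apply_symm_apply y⟩
      rw [← map_mul, ← map_mul, hy]
  let eC : ↥(centralizer ({e.symm s} : Set X)) ≃* ↥(centralizer ({s} : Set Y)) :=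
    (e.subgroupMap _).trans (MulEquiv.subgroupCongr hC)
  have h1 := h (e.symm s) (by rw [MulEquiv.orderOf_eq]; exact hs)
  have hsub : (centralizer ({s} : Set Y)).subtype.comp eC.toMonoidHom =
      e.toMonoidHom.comp (centralizer ({e.symm s} : Set X)).subtype := MonoidHom.ext fun _ => rfl
  rw [← Agent.Components.pLayer_map_equiv eC]
  show (⁅_, Cfsg.pPrimeCore 2 _⁆).map _ ≤ Cfsg.pPrimeCore 2 Y
  rw [← Agent.Cores.map_pPrimeCore_equiv eC, ← Agent.Cores.map_pPrimeCore_equiv e]
  simp only [MulEquiv.toMonoidHom_eq_coe] at hsub ⊢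
  rw [← Subgroup.map_commutator, map_map, hsub, ← map_map]
  exact map_mono h1

theorem result {G : Type*} [Group G] [Finite G]
    (hF : IsSimpleGroup ↥(Cfsg.generalizedFittingSubgroup G)) (hF' : ¬ IsMulCommutative ↥(Cfsg.generalizedFittingSubgroup G))
    (hsec : ∀ (H : Subgroup G) (N : Subgroup ↥H) [N.Normal], (H ≠ ⊤ ∨ N ≠ ⊥) → Cfsg.HasBProperty (↥H ⧸ N))
    (x y : G) (hx : orderOf x = 2) (hy : orderOf y = 2) (hxy : x * y = y * x)
    (J : Subgroup ↥((Cfsg.pLayer 2 ↥(Subgroup.centralizer ({x} : Set G))).map (Subgroup.centralizer ({x} : Set G)).subtype ⊓ Subgroup.centralizer ({y} : Set G)))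
    (hJ : Cfsg.IsPComponent 2 J) :
    Cfsg.IsComponent
        ((((J.map (Subgroup.subtype _)).subgroupOf (Subgroup.centralizer ({y} : Set G))).map (QuotientGroup.mk' (Cfsg.oddCore ↥(Subgroup.centralizer ({y} : Set G))))).subgroupOf
          (Subgroup.centralizer ({(QuotientGroup.mk' (Cfsg.oddCore ↥(Subgroup.centralizer ({y} : Set G))) ⟨x, Subgroup.mem_centralizer_singleton_iff.mpr hxy⟩ : ↥(Subgroup.centralizer ({y} : Set G)) ⧸ Cfsg.oddCore ↥(Subgroup.centralizer ({y} : Set G)))} : Set _))) ∧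
      ∀ E : Subgroup G, E ≤ Subgroup.centralizer ({x} : Set G) ⊓ Subgroup.centralizer ({y} : Set G) → Odd (Nat.card ↥E) →
        (∀ j ∈ J.map (Subgroup.subtype _), ∀ e ∈ E, j * e * j⁻¹ ∈ E) →
          ⁅J.map (Subgroup.subtype _), E⁆ ≤ (Cfsg.oddCore ↥(Subgroup.centralizer ({y} : Set G))).map (Subgroup.centralizer ({y} : Set G)).subtype := by
  haveI := Fact.mk Nat.prime_two
  let Cx : Subgroup G := centralizer ({x} : Set G)
  let Cy : Subgroup G := centralizer ({y} : Set G)
  let L : Subgroup G := (Cfsg.pLayer 2 ↥Cx).map Cx.subtype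
  let D : Subgroup G := L ⊓ Cy
  have hDx : D ≤ Cx := inf_le_left.trans (map_subtype_le _)
  have hDy : D ≤ Cy := inf_le_right
  -- `C_G(y)` is proper, so it has the B-property
  have hCy : Cy ≠ ⊤ := by
    intro h
    have hyc : y ∈ Subgroup.center G := by
      rw [mem_center_iff]
      intro g
      exact mem_centralizer_singleton_iff.mp (show g ∈ Cy by rw [h]; exact mem_top g)
    have hyF : y ∈ Cfsg.generalizedFittingSubgroup G :=
      Agent.Components.centralizer_genFitting_le (mem_centralizer_iff.mpr fun g _ => (mem_center_iff.mp hyc g))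
    haveI := hF
    have hc : (⟨y, hyF⟩ : ↥(Cfsg.generalizedFittingSubgroup G)) ∈ Subgroup.center _ := by
      rw [mem_center_iff]
      intro g
      exact Subtype.ext (mem_center_iff.mp hyc g)
    rcases (inferInstance : (Subgroup.center ↥(Cfsg.generalizedFittingSubgroup G)).Normal).eq_bot_or_eq_top with h' | h'
    · rw [h', mem_bot] at hc
      have : y = 1 := congrArg Subtype.val hc
      rw [this, orderOf_one] at hy
      omega
    · exact hF' ⟨⟨fun a b => mem_center_iff.mp (show b ∈ Subgroup.center _ by rw [h']; exact mem_top b) a⟩⟩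
  have hBy : Cfsg.HasBProperty ↥Cy :=
    hasBProperty_congr QuotientGroup.quotientBot (hsec Cy ⊥ (Or.inl hCy))
  let t : ↥Cy := ⟨x, mem_centralizer_singleton_iff.mpr hxy⟩
  have ht : orderOf t = 2 := by rw [← Subgroup.orderOf_coe]; exact hx
  let C : Subgroup ↥Cy := centralizer ({t} : Set ↥Cy)
  have hCmem : ∀ c : ↥Cy, c ∈ C ↔ (c : G) ∈ Cx := by
    intro c
    show c ∈ centralizer _ ↔ (c : G) ∈ centralizer _
    rw [mem_centralizer_singleton_iff, mem_centralizer_singleton_iff]
    exact ⟨fun h => congrArg Subtype.val h, fun h => Subtype.ext h⟩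
  let DC : Subgroup ↥C := (D.subgroupOf Cy).subgroupOf C
  haveI hDC : DC.Normal := by
    constructor
    intro n hn g
    show ((g * n * g⁻¹ : ↥C) : ↥Cy).1 ∈ L ⊓ Cy
    refine mem_inf.mpr ⟨?_, ((g * n * g⁻¹ : ↥C) : ↥Cy).2⟩
    obtain ⟨l, hl, hle⟩ := (mem_inf.mp (show ((n : ↥Cy) : G) ∈ L ⊓ Cy from hn)).1
    have hg : ((g : ↥Cy) : G) ∈ Cx := (hCmem _).mp g.2
    refine ⟨⟨_, hg⟩ * l * ⟨_, hg⟩⁻¹, (Agent.Components.pLayer_normal).conj_mem l hl _, ?_⟩
    simp only [coe_subtype, Subgroup.coe_mul, InvMemClass.coe_inv] at hle ⊢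
    rw [hle]
  let eD : ↥D ≃* ↥DC :=
    { toFun := fun d => ⟨⟨⟨d, hDy d.2⟩, (hCmem _).mpr (hDx d.2)⟩, d.2⟩
      invFun := fun d => ⟨((d : ↥C) : ↥Cy), d.2⟩
      left_inv := fun d => rfl
      right_inv := fun d => rfl
      map_mul' := fun a b => rfl }
  let JC : Subgroup ↥C := (J.map eD.toMonoidHom).map DC.subtype
  have hJC : Cfsg.IsPComponent 2 JC :=
    (Agent.Components.pComponent_iff_of_subnormal hDC.isSubnormal).mp
      (Agent.Components.pComponent_map_equiv eD hJ)
  have hJmap : JC.map C.subtype = (J.map D.subtype).subgroupOf Cy := by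
    ext c
    constructor
    · rintro ⟨_, ⟨_, ⟨j, hj, rfl⟩, rfl⟩, rfl⟩
      exact ⟨j, hj, rfl⟩
    · rintro ⟨j, hj, hjc⟩
      exact ⟨_, ⟨_, ⟨j, hj, rfl⟩, rfl⟩, Subtype.ext hjc⟩
  obtain ⟨h1, h2⟩ := core_lemma t ht hBy JC hJC
  refine ⟨?_, ?_⟩
  · rw [hJmap] at h1
    exact h1
  · intro E hE hodd hn
    let EC : Subgroup ↥C := (E.subgroupOf Cy).subgroupOf C
    have hEodd : Odd (Nat.card EC) := by
      refine Odd.of_dvd_nat hodd ?_
      refine (card_map_of_injective (f := Cy.subtype.comp C.subtype)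
        (Cy.subtype_injective.comp C.subtype_injective) (K := EC)).symm.dvd.trans (card_dvd_of_le ?_)
      rintro _ ⟨c, hc, rfl⟩
      exact hc
    have hnorm : JC ≤ normalizer (EC : Set ↥C) := by
      rintro _ ⟨_, ⟨j, hj, rfl⟩, rfl⟩
      rw [mem_normalizer_iff]
      intro c
      constructor
      · intro hc
        exact hn j ⟨j, hj, rfl⟩ _ hc
      · intro hc
        have := hn ((j⁻¹ : ↥D) : G) ⟨j⁻¹, J.inv_mem hj, rfl⟩ _ hc
        show (((c : ↥C) : ↥Cy) : G) ∈ E
        convert this using 1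
        show ((c : ↥Cy) : G) = (j : G)⁻¹ * ((j : G) * (c : ↥Cy) * (j : G)⁻¹) * ((j : G)⁻¹)⁻¹
        group
    have h3 := h2 EC hEodd hnorm
    rw [commutator_le]
    rintro _ ⟨j, hj, rfl⟩ e he
    have hey : e ∈ Cy := (mem_inf.mp (hE he)).2
    let jc : ↥C := (eD j : ↥C)
    let ec : ↥C := ⟨⟨e, hey⟩, (hCmem _).mpr (mem_inf.mp (hE he)).1⟩
    refine ⟨((⁅jc, ec⁆ : ↥C) : ↥Cy), h3 ⟨⁅jc, ec⁆, commutator_mem_commutator ?_ ?_, rfl⟩, rfl⟩
    · exact ⟨eD j, ⟨j, hj, rfl⟩, rfl⟩
    · exact he

end Cfsg.Agent.S1775
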