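import Cfsg.Statements.S1780
import Mathlib.GroupTheory.Perm.Cycle.Type

set_option autoImplicit false
open Cfsg

namespace Cfsg.Agent.S1780

/-- Let A be a finite abelian 2-group and t an automorphism of A whose order is a power of 2. If every element of A fixed by t² is fixed by t, then t fixes every element of A. -/
theorem result {A : Type*} [CommGroup A] [Finite A]
    (hA : IsPGroup 2 A) (t : MulAut A) (ht : ∃ k : ℕ, orderOf t = 2 ^ k) (hC : ∀ a : A, t (t a) = a → t a = a) :
    ∀ a : A, t a = a := by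
  classical
  by_contra hne
  obtain ⟨k, hk⟩ := ht
  let C : Subgroup A :=
    { carrier := {a | t a = a}
      mul_mem' := fun {a b} (ha : t a = a) (hb : t b = b) => by simp [ha, hb]
      one_mem' := map_one t
      inv_mem' := fun {a} (ha : t a = a) => by simp [ha] }
  have hCmem : ∀ a : A, a ∈ C ↔ t a = a := fun a => Iff.rfl
  have hmap : C.map t.toMonoidHom = C := by
    ext a
    constructor
    · rintro ⟨b, hb, rfl⟩
      show t (t b) = t b
      rw [(hCmem b).mp hb]; exact (hCmem b).mp hb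
    · intro ha
      exact ⟨a, ha, (hCmem a).mp ha⟩
  let s : (A ⧸ C) ≃* (A ⧸ C) := QuotientGroup.congr C C t hmap
  have hs : ∀ (n : ℕ) (a : A), (⇑s.toEquiv)^[n] (QuotientGroup.mk a) = QuotientGroup.mk ((⇑t)^[n] a) := by
    intro n
    induction n with
    | zero => intro a; rfl
    | succ n ih =>
      intro a
      rw [Function.iterate_succ_apply, Function.iterate_succ_apply, ← ih (t a)]
      rfl
  have htn : ∀ (n : ℕ) (a : A), (t ^ n) a = (⇑t)^[n] a := by
    intro n
    induction n with
    | zero => intro a; rfl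
    | succ n ih =>
      intro a
      rw [pow_succ, Function.iterate_succ_apply, ← ih (t a)]
      rfl
  have hspow : (s.toEquiv : Equiv.Perm (A ⧸ C)) ^ 2 ^ k = 1 := by
    refine Equiv.ext fun x => ?_
    induction x using QuotientGroup.induction_on with
    | _ a =>
      rw [Equiv.Perm.coe_pow, hs, ← htn, ← hk, pow_orderOf_eq_one]
      rfl
  have hCne : C ≠ ⊤ := fun h => hne fun a => (hCmem a).mp (h ▸ Subgroup.mem_top a)
  haveI : Nontrivial (A ⧸ C) := by
    obtain ⟨a, ha⟩ := not_forall.mp hne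
    refine ⟨⟨QuotientGroup.mk a, 1, fun h => ha ?_⟩⟩
    exact (hCmem a).mp ((QuotientGroup.eq_one_iff a).mp h)
  obtain ⟨n, hn0, hn⟩ := (hA.to_quotient C).nontrivial_iff_card.mp inferInstance
  haveI := Fintype.ofFinite (A ⧸ C)
  obtain ⟨b, hb, hb1⟩ := Equiv.Perm.exists_fixed_point_of_prime' (p := 2) (n := k)
    (by rw [← Nat.card_eq_fintype_card, hn]; exact dvd_pow_self 2 hn0.ne') hspow
    (a := (1 : A ⧸ C)) (map_one s)
  induction b using QuotientGroup.induction_on with
  | _ a =>
    have hc : a⁻¹ * t a ∈ C := QuotientGroup.eq.mp hb.symm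
    set c := a⁻¹ * t a with hcd
    have hta : t a = a * c := by rw [hcd, mul_inv_cancel_left]
    have hc1 : c ≠ 1 := fun h => hb1 ((QuotientGroup.eq_one_iff a).mpr ((hCmem a).mpr (by rw [hta, h, mul_one])))
    have htc : t c = c := (hCmem c).mp hc
    obtain ⟨m, hm⟩ := (IsPGroup.iff_orderOf.mp hA) c
    have hm0 : m ≠ 0 := fun h => hc1 (orderOf_eq_one_iff.mp (by rw [hm, h, pow_zero]))
    have hc' : (c ^ 2 ^ (m - 1)) ^ 2 = 1 := by
      rw [← pow_mul, ← pow_succ, Nat.sub_add_cancel (Nat.one_le_iff_ne_zero.mpr hm0), ← hm, pow_orderOf_eq_one]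
    have hcne : c ^ 2 ^ (m - 1) ≠ 1 := by
      intro h
      have hd := orderOf_dvd_of_pow_eq_one h
      rw [hm, Nat.pow_dvd_pow_iff_le_right (by norm_num)] at hd
      omega
    have h2 : t (t (a ^ 2 ^ (m - 1))) = a ^ 2 ^ (m - 1) := by
      rw [map_pow t a, hta, mul_pow, map_mul, map_pow, map_pow, hta, mul_pow, htc, mul_assoc, ← sq, hc', mul_one]
    have h1 := hC _ h2
    rw [map_pow, hta, mul_pow, mul_eq_left] at h1
    exact hcne h1

end Cfsg.Agent.S1780
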