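import Cfsg.Statements.S1781
import Cfsg.Agent.Fusion.Basic
import Cfsg.Agent.S1757
import Cfsg.Agent.S1780

set_option autoImplicit false
open Cfsg

namespace Cfsg.Agent.S1781

/-- Let A be an abelian 2-subgroup of the finite group G such that every conjugate of A equals A or meets A trivially, and let g ∈ G with g A g⁻¹ ≠ A. Then either the subgroup of those elements of A that normalize g A g⁻¹ is an elementary abelian 2-group, or A and g A g⁻¹ commute elementwise. -/
theorem result {G : Type*} [Group G] [Finite G] (A : Subgroup G)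
    (hA2 : IsPGroup 2 ↥A) (hAa : IsMulCommutative ↥A)
    (hti : ∀ h : G, A.map (MulAut.conj h).toMonoidHom = A ∨ A.map (MulAut.conj h).toMonoidHom ⊓ A = ⊥)
    (g : G) (hg : A.map (MulAut.conj g).toMonoidHom ≠ A) :
    Cfsg.IsElementaryAbelian 2 (A ⊓ Subgroup.normalizer ((A.map (MulAut.conj g).toMonoidHom : Subgroup G) : Set G)) ∨
      ⁅A, A.map (MulAut.conj g).toMonoidHom⁆ = ⊥ := by
  classical
  by_cases hel : Cfsg.IsElementaryAbelian 2
      (A ⊓ Subgroup.normalizer ((A.map (MulAut.conj g).toMonoidHom : Subgroup G) : Set G))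
  · exact Or.inl hel
  right
  set B := A.map (MulAut.conj g).toMonoidHom with hBd
  have hAB : A ⊓ B = ⊥ := by
    rw [inf_comm]; exact (hti g).resolve_left hg
  have hBti : ∀ h : G, B.map (MulAut.conj h).toMonoidHom = B ∨ B.map (MulAut.conj h).toMonoidHom ⊓ B = ⊥ := by
    intro h
    have e1 : B.map (MulAut.conj h).toMonoidHom = Fusion.cj g (Fusion.cj (g⁻¹ * h * g) A) := by
      rw [Fusion.cj_cj]
      show Fusion.cj h (Fusion.cj g A) = _
      rw [Fusion.cj_cj]
      congr 1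
      group
    rw [e1]
    rcases hti (g⁻¹ * h * g) with e | e
    · left
      show Fusion.cj g (Fusion.cj (g⁻¹ * h * g) A) = Fusion.cj g A
      exact congrArg (Fusion.cj g) e
    · right
      show Fusion.cj g (Fusion.cj (g⁻¹ * h * g) A) ⊓ Fusion.cj g A = ⊥
      rw [← Fusion.cj_inf]
      exact (congrArg (Fusion.cj g) e).trans (Subgroup.map_bot _)
  have hcomm : IsMulCommutative ↥(A ⊓ Subgroup.normalizer (B : Set G)) := by
    exact isMulCommutative_iff.mpr fun a b => Subtype.ext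
      (congrArg Subtype.val ((isMulCommutative_iff.mp hAa) ⟨a, a.2.1⟩ ⟨b, b.2.1⟩) :)
  obtain ⟨x, hx, hx2⟩ : ∃ x ∈ A ⊓ Subgroup.normalizer (B : Set G), x ^ 2 ≠ 1 := by
    by_contra h
    push Not at h
    exact hel ⟨hcomm, h⟩
  have hxA : x ∈ A := hx.1
  have hxB : x ∈ Subgroup.normalizer (B : Set G) := hx.2
  have hAcomm : ∀ a ∈ A, ∀ b ∈ A, a * b = b * a := fun a ha b hb => by
    exact congrArg Subtype.val ((isMulCommutative_iff.mp hAa) ⟨a, ha⟩ ⟨b, hb⟩)
  haveI : IsMulCommutative ↥B := ⟨⟨fun a b => Subtype.ext (by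
    obtain ⟨a', ha', e1⟩ := a.2
    obtain ⟨b', hb', e2⟩ := b.2
    show (a : G) * b = b * a
    rw [← e1, ← e2, ← map_mul, ← map_mul, hAcomm a' ha' b' hb'])⟩⟩
  letI : CommGroup ↥B := { (inferInstance : Group ↥B) with mul_comm := mul_comm' }
  have hB2 : IsPGroup 2 ↥B := hA2.map _
  let t : MulAut ↥B :=
    { toFun := fun b => ⟨x * b * x⁻¹, (Subgroup.mem_normalizer_iff.mp hxB b).mp b.2⟩
      invFun := fun b => ⟨x⁻¹ * b * x, (Subgroup.mem_normalizer_iff''.mp hxB b).mp b.2⟩
      left_inv := fun b => Subtype.ext (by simp [mul_assoc])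
      right_inv := fun b => Subtype.ext (by simp [mul_assoc])
      map_mul' := fun a b => Subtype.ext (by simp [mul_assoc]) }
  have htpow : ∀ (n : ℕ) (b : ↥B), (((t ^ n) b : ↥B) : G) = x ^ n * b * (x ^ n)⁻¹ := by
    intro n
    induction n with
    | zero => intro b; simp
    | succ n ih =>
      intro b
      rw [pow_succ, MulAut.mul_apply, ih, pow_succ]
      show x ^ n * (x * b * x⁻¹) * (x ^ n)⁻¹ = _
      group
  have htord : ∃ k : ℕ, orderOf t = 2 ^ k := by
    obtain ⟨k, hk⟩ := hA2 ⟨x, hxA⟩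
    obtain ⟨j, -, hj⟩ := (Nat.dvd_prime_pow Nat.prime_two).mp (orderOf_dvd_of_pow_eq_one (x := t) (n := 2 ^ k) (by
      refine MulEquiv.ext fun b => Subtype.ext ?_
      rw [htpow]
      have hk' : x ^ 2 ^ k = 1 := congrArg Subtype.val hk
      simp [hk']))
    exact ⟨j, hj⟩
  have hN : ∀ b : G, ∀ y ∈ A, y ≠ 1 → b * y = y * b → b ∈ Subgroup.normalizer (A : Set G) := by
    intro b y hy hy1 hby
    refine Fusion.cj_eq_iff_mem_normalizer.mp ((hti b).resolve_right fun h => hy1 ?_)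
    have hmem : y ∈ A.map (MulAut.conj b).toMonoidHom ⊓ A :=
      ⟨⟨y, hy, by simp [hby]⟩, hy⟩
    rw [h] at hmem
    exact Subgroup.mem_bot.mp hmem
  have hfix : ∀ a : ↥B, t a = a := by
    refine Cfsg.Agent.S1780.result hB2 t htord fun b hb => ?_
    have hb' : x ^ 2 * (b : G) * (x ^ 2)⁻¹ = b := by
      rw [← htpow 2 b, pow_two, MulAut.mul_apply, hb]
    have hbx : (b : G) * x ^ 2 = x ^ 2 * b := (mul_inv_eq_iff_eq_mul.mp hb').symm
    have hbN := hN b (x ^ 2) (pow_mem hxA 2) hx2 hbx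
    refine Subtype.ext ?_
    show x * b * x⁻¹ = b
    have h1 : x * b * x⁻¹ * (b : G)⁻¹ ∈ A ⊓ B := by
      refine ⟨?_, B.mul_mem ((Subgroup.mem_normalizer_iff.mp hxB b).mp b.2) (B.inv_mem b.2)⟩
      have h := (Subgroup.mem_normalizer_iff.mp hbN x⁻¹).mp (inv_mem hxA)
      have e : x * b * x⁻¹ * (b : G)⁻¹ = x * (b * x⁻¹ * (b : G)⁻¹) := by group
      rw [e]
      exact mul_mem hxA h
    rw [hAB, Subgroup.mem_bot] at h1
    exact mul_inv_eq_one.mp h1
  have hBN : B ≤ Subgroup.normalizer (A : Set G) := by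
    intro b hb
    refine hN b x hxA (fun h => hx2 (by rw [h, one_pow])) ?_
    have h : x * b * x⁻¹ = b := congrArg Subtype.val (hfix ⟨b, hb⟩)
    exact (mul_inv_eq_iff_eq_mul.mp h).symm
  exact Cfsg.Agent.S1757.result 2 A B hA2 hB2 hti hBti (Fusion.card_cj g A).ge hAB hBN

end Cfsg.Agent.S1781
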