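import Cfsg.Statements.S1782
import Cfsg.Agent.Classif.TIFamily

set_option autoImplicit false
open Cfsg

namespace Cfsg.Agent.S1782

/-- Let S be a finite 2-group and Δ a set of subgroups of S closed under conjugation by S, all of the same order, each with nontrivial Frattini subgroup, and such that two distinct members of Δ meet trivially. Then any two distinct members of Δ commute elementwise. -/
theorem result {S : Type*} [Group S] [Finite S] (hS : IsPGroup 2 S)
    (Δ : Set (Subgroup S)) (hinv : ∀ s : S, ∀ R ∈ Δ, R.map (MulAut.conj s).toMonoidHom ∈ Δ)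
    (hΦ : ∀ R ∈ Δ, frattini ↥R ≠ ⊥) (hord : ∀ R ∈ Δ, ∀ T ∈ Δ, Nat.card ↥R = Nat.card ↥T)
    (hti : ∀ R ∈ Δ, ∀ T ∈ Δ, R = T ∨ R ⊓ T = ⊥) :
    ∀ R ∈ Δ, ∀ T ∈ Δ, R ≠ T → ⁅R, T⁆ = ⊥ := by
  haveI : Fact (Nat.Prime 2) := ⟨Nat.prime_two⟩
  have hsq : ∀ R ∈ Δ, ∃ r ∈ R, r ^ 2 ≠ 1 := by
    intro R hR
    by_contra h
    push Not at h
    refine hΦ R hR ((Cfsg.Agent.PGroup.frattini_eq_bot_iff (hS.to_subgroup R)).mpr ⟨?_, fun x => ?_⟩)
    · refine isMulCommutative_iff.mpr fun a b => ?_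
      have hsq : ∀ c : ↥R, c⁻¹ = c := fun c =>
        inv_eq_of_mul_eq_one_right (Subtype.ext (by simpa [pow_two] using h c c.2))
      calc a * b = (a * b)⁻¹ := (hsq _).symm
        _ = b * a := by rw [mul_inv_rev, hsq, hsq]
    · exact Subtype.ext (h x x.2)
  intro R hR T hT hne
  exact Cfsg.Agent.Classif.ti_family_commute hS Δ hinv hsq hord hti _ R hR T hT rfl hne

end Cfsg.Agent.S1782
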