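import Cfsg.Statements.S1783
import Cfsg.Agent.Components.FStar
import Cfsg.Agent.PGroup.Frattini
import Cfsg.Agent.PGroup.Basic
import Cfsg.Agent.OddLocal.NormedConstrainedB
import Cfsg.Agent.Fusion.Basic
import Cfsg.Agent.Signalizer.PAction

set_option autoImplicit false
open Cfsg

namespace Cfsg.Agent.S1783

open Subgroup
open scoped commutatorElement
open Cfsg.Agent.Fusion (cj mem_cj cj_cj cj_one cj_inf cj_inv_cj cj_cj_inv cj_mono cj_eq_of_mem cj_eq_iff_mem_normalizer conj_mem_cj card_cj isPGroup_cj)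

variable {G : Type*} [Group G] [Finite G]

omit [Finite G] in
theorem comm_of_mem {A : Subgroup G} (hA : IsMulCommutative A) {a b : G} (ha : a ∈ A) (hb : b ∈ A) :
    a * b = b * a :=
  congrArg Subtype.val (hA.is_comm.comm ⟨a, ha⟩ ⟨b, hb⟩)

omit [Finite G] in
theorem isMulComm_of_le {A B : Subgroup G} (hA : IsMulCommutative A) (h : B ≤ A) :
    IsMulCommutative B :=
  ⟨⟨fun a b => Subtype.ext (comm_of_mem hA (h a.2) (h b.2))⟩⟩

/-- An element `y` of a 2-group normalising an abelian subgroup `W` and with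
`C_W(y ^ 2) = C_W(y)` centralises `W`. -/
theorem centralizes_of_sq {S W : Subgroup G} {y : G} (hS : IsPGroup 2 S) (hWS : W ≤ S) (hyS : y ∈ S)
    (hW : IsMulCommutative W) (hyW : y ∈ normalizer (W : Set G))
    (h : ∀ w ∈ W, y * y * w = w * (y * y) → y * w = w * y) :
    ∀ w ∈ W, y * w = w * y := by
  have : Fact (Nat.Prime 2) := ⟨Nat.prime_two⟩
  by_contra hcon
  push Not at hcon
  obtain ⟨w₀, hw₀, hne⟩ := hcon
  set F := W ⊓ centralizer ({y} : Set G) with hF
  have hWc : ∀ a ∈ W, ∀ b ∈ W, a * b = b * a := fun a ha b hb => comm_of_mem hW ha hb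
  set R := W ⊔ zpowers y with hR
  have hRS : R ≤ S := sup_le hWS (zpowers_le.2 hyS)
  have hRW : R ≤ normalizer (W : Set G) := sup_le le_normalizer (zpowers_le.2 hyW)
  obtain ⟨b, hb, hbF, hbc⟩ := OddLocal.exists_central_mod (P := R) (Ω := W) (Z₀ := F)
    (hS.to_le hRS) le_sup_left hRW fun hle => hne
      (mem_centralizer_singleton_iff.1 (hle hw₀).2).symm
  set u := ⁅y, b⁆ with hu
  obtain ⟨huW, huy⟩ := hbc y (mem_sup_right (mem_zpowers y))
  have hu1 : u ≠ 1 := fun e => hbF ⟨hb, mem_centralizer_singleton_iff.2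
    (commutatorElement_eq_one_iff_mul_comm.1 e).symm⟩
  obtain ⟨k, hk⟩ := IsPGroup.iff_orderOf.1 (hS.to_le hWS) ⟨u, huW⟩
  rw [Subgroup.orderOf_mk] at hk
  rcases k with _ | k
  · exact hu1 (orderOf_eq_one_iff.1 (by simpa using hk))
  have hyb : y * b * y⁻¹ = u * b := by rw [hu, commutatorElement_def]; group
  have hyu : y * u * y⁻¹ = u := by
    rw [← mem_centralizer_singleton_iff.1 huy, mul_inv_cancel_right]
  set m := 2 ^ k with hm
  have hcomm : Commute u b := hWc u huW b hb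
  have hyb' : y * b ^ m * y⁻¹ = u ^ m * b ^ m := by rw [← conj_pow, hyb, hcomm.mul_pow]
  have hu2 : u ^ m * u ^ m = 1 := by
    rw [← pow_add, ← two_mul, hm, ← pow_succ', ← hk, pow_orderOf_eq_one]
  have hyy : y * y * b ^ m = b ^ m * (y * y) := by
    have e : y * y * b ^ m * (y * y)⁻¹ = b ^ m := by
      calc y * y * b ^ m * (y * y)⁻¹ = y * (y * b ^ m * y⁻¹) * y⁻¹ := by group
        _ = y * (u ^ m * b ^ m) * y⁻¹ := by rw [hyb']
        _ = (y * u * y⁻¹) ^ m * (y * b ^ m * y⁻¹) := by rw [conj_pow]; group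
        _ = b ^ m := by rw [hyu, hyb', ← mul_assoc, hu2, one_mul]
    exact mul_inv_eq_iff_eq_mul.1 e
  have hfix := h _ (pow_mem hb m) hyy
  have h1 : u ^ m = 1 := by
    rw [hfix, mul_inv_cancel_right] at hyb'
    exact (mul_eq_right.1 hyb'.symm)
  have hle := Nat.le_of_dvd (by positivity) (hk ▸ orderOf_dvd_of_pow_eq_one h1)
  rw [hm, pow_succ] at hle
  have := Nat.one_le_two_pow (n := k)
  omega

/-- Distinct conjugates meet trivially. -/
def IsTI (A : Subgroup G) : Prop := ∀ h : G, cj h A = A ∨ cj h A ⊓ A = ⊥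

omit [Finite G] in
theorem IsTI.eq_of_mem {A : Subgroup G} (hA : IsTI A) {g h x : G} (hxg : x ∈ cj g A) (hxh : x ∈ cj h A)
    (hx : x ≠ 1) : cj g A = cj h A := by
  rcases hA (h⁻¹ * g) with e | e
  · have := congrArg (cj h) e
    rwa [cj_cj, mul_inv_cancel_left] at this
  · exfalso
    have hm : h⁻¹ * x * h ∈ cj (h⁻¹ * g) A ⊓ A := by
      refine ⟨?_, mem_cj.1 hxh⟩
      rw [← cj_cj]
      refine mem_cj.2 ?_
      simpa [mul_assoc] using hxg
    rw [e, mem_bot] at hm
    apply hx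
    have := congrArg (fun t => h * t * h⁻¹) hm
    simpa [mul_assoc] using this

/-- A conjugate of exponent at least four normalising another one centralises it. -/
theorem IsTI.comm_of_normalizes {A : Subgroup G} (hA : IsTI A) (hAc : IsMulCommutative A)
    (hA4 : ∃ a ∈ A, a ^ 2 ≠ 1) {g h : G} (hne : cj g A ≠ cj h A)
    (hn : cj h A ≤ normalizer (cj g A : Set G)) (h2 : IsPGroup 2 ↥(cj g A ⊔ cj h A)) :
    ∀ u ∈ cj g A, ∀ v ∈ cj h A, u * v = v * u := by
  have hcA : ∀ k : G, IsMulCommutative (cj k A) := fun k => ⟨⟨by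
    rintro ⟨_, a, ha, rfl⟩ ⟨_, b, hb, rfl⟩
    refine Subtype.ext ?_
    show (MulAut.conj k).toMonoidHom a * (MulAut.conj k).toMonoidHom b =
      (MulAut.conj k).toMonoidHom b * (MulAut.conj k).toMonoidHom a
    rw [← map_mul, ← map_mul, comm_of_mem hAc ha hb]⟩⟩
  obtain ⟨a₀, ha₀, ha₀2⟩ := hA4
  set y := h * a₀ * h⁻¹ with hy
  have hyP : y ∈ cj h A := conj_mem_cj.2 ha₀
  have hy2 : y ^ 2 ≠ 1 := by
    rw [hy, conj_pow]
    exact fun e => ha₀2 (conj_eq_one_iff.1 e)
  have hbot : cj g A ⊓ cj h A = ⊥ := (eq_bot_iff_forall _).2 fun x hx => by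
    by_contra hx1
    exact hne (hA.eq_of_mem hx.1 hx.2 hx1)
  -- an element of `cj g A` commuting with a nontrivial element of `cj h A` centralises it
  have key : ∀ z ∈ cj h A, z ≠ 1 → ∀ u ∈ cj g A, z * u = u * z → ∀ v ∈ cj h A, u * v = v * u := by
    intro z hz hz1 u hu hzu v hv
    have hcj : cj (u * h) A = cj h A := by
      refine hA.eq_of_mem ?_ hz hz1
      rw [← cj_cj, mem_cj]
      rw [show u⁻¹ * z * u = z by rw [mul_assoc, hzu, inv_mul_cancel_left]]
      exact hz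
    have hun : u * v * u⁻¹ ∈ cj h A := by
      rw [← hcj, ← cj_cj]
      exact conj_mem_cj.2 hv
    have h1 : u * v * u⁻¹ * v⁻¹ ∈ cj g A ⊓ cj h A := by
      refine ⟨?_, (cj h A).mul_mem hun ((cj h A).inv_mem hv)⟩
      have := mul_mem hu ((mem_normalizer_iff.1 (hn hv) u⁻¹).1 ((cj g A).inv_mem hu))
      simpa [mul_assoc] using this
    rw [hbot, mem_bot] at h1
    exact mul_inv_eq_iff_eq_mul.1 (mul_inv_eq_one.1 h1)
  intro u hu
  refine key y hyP (fun e => hy2 (by rw [e, one_pow])) u hu ?_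
  refine centralizes_of_sq h2 le_sup_left (mem_sup_right hyP) (hcA g) (hn hyP) (fun w hw hwy => ?_) u hu
  exact (key (y * y) (mul_mem hyP hyP) (by rwa [← pow_two]) w hw hwy y hyP).symm

/-- Conjugates of exponent at least four inside a common 2-group commute. -/
theorem IsTI.comm_of_pGroup {A : Subgroup G} (hA : IsTI A) (hAc : IsMulCommutative A)
    (hA4 : ∃ a ∈ A, a ^ 2 ≠ 1) : ∀ g h : G, IsPGroup 2 ↥(cj g A ⊔ cj h A) →
      ∀ u ∈ cj g A, ∀ v ∈ cj h A, u * v = v * u := by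
  have : Fact (Nat.Prime 2) := ⟨Nat.prime_two⟩
  suffices key : ∀ (n : ℕ) (g h : G), Nat.card ↥(cj g A ⊔ cj h A) = n →
      IsPGroup 2 ↥(cj g A ⊔ cj h A) → ∀ u ∈ cj g A, ∀ v ∈ cj h A, u * v = v * u from
    fun g h => key _ g h rfl
  intro n
  induction n using Nat.strong_induction_on with
  | _ n ih =>
  intro g h hn h2 u hu v hv
  have hcA : ∀ k : G, ∀ a ∈ cj k A, ∀ b ∈ cj k A, a * b = b * a := by
    rintro k _ ⟨a, ha, rfl⟩ _ ⟨b, hb, rfl⟩
    rw [← map_mul, ← map_mul, comm_of_mem hAc ha hb]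
  by_cases heq : cj g A = cj h A
  · exact hcA g u hu v (heq.symm ▸ hv)
  set K := cj g A ⊔ cj h A with hK
  obtain ⟨M, hM, hgM⟩ : ∃ M : Subgroup K, IsCoatom M ∧ (cj g A).subgroupOf K ≤ M := by
    rcases eq_top_or_exists_le_coatom ((cj g A).subgroupOf K) with e | e
    · exfalso
      apply heq
      refine (Subgroup.eq_of_le_of_card_ge ?_ (by rw [card_cj, card_cj])).symm
      intro x hx
      exact mem_subgroupOf.1 (e ▸ mem_top (⟨x, mem_sup_right hx⟩ : K))
    · exact e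
  haveI := PGroup.normal_of_isCoatom h2 hM
  set M' := M.map K.subtype with hM'
  have hM'lt : Nat.card M' < Nat.card K := by
    rw [hM', card_map_of_injective K.subtype_injective]
    refine lt_of_le_of_ne (Nat.le_of_dvd Nat.card_pos M.card_subgroup_dvd_card) fun e => hM.1 ?_
    exact eq_top_of_card_eq M e
  have hconjM : ∀ y ∈ cj h A, cj (y * g) A ≤ M' := by
    intro y hy x hx
    rw [← cj_cj] at hx
    obtain ⟨a, ha, rfl⟩ := hx
    have ham : (⟨a, mem_sup_left ha⟩ : K) ∈ M := hgM (mem_subgroupOf.2 ha)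
    exact ⟨⟨y, mem_sup_right hy⟩ * ⟨a, mem_sup_left ha⟩ * ⟨y, mem_sup_right hy⟩⁻¹,
      Subgroup.Normal.conj_mem inferInstance _ ham _, rfl⟩
  -- the subgroup generated by the `cj h A`-conjugates of `cj g A`
  set W := Subgroup.closure {x : G | ∃ y ∈ cj h A, x ∈ cj (y * g) A} with hW
  have hWc : IsMulCommutative W := by
    refine isMulCommutative_closure ?_
    rintro a ⟨y, hy, ha⟩ b ⟨y', hy', hb⟩
    have hle : cj (y * g) A ⊔ cj (y' * g) A ≤ M' := sup_le (hconjM y hy) (hconjM y' hy')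
    exact ih _ (hn ▸ lt_of_le_of_lt (card_le_of_le hle) hM'lt) (y * g) (y' * g) rfl
      (h2.to_le (hle.trans (map_subtype_le M))) a ha b hb
  have hWK : W ≤ K := (closure_le _).2 fun x ⟨y, hy, hx⟩ =>
    (hconjM y hy).trans (map_subtype_le M) hx
  have hgW : cj g A ≤ W := fun x hx => subset_closure ⟨1, one_mem _, by rwa [one_mul]⟩
  have hWn : ∀ z ∈ cj h A, z ∈ normalizer (W : Set G) := by
    intro z hz
    rw [← cj_eq_iff_mem_normalizer]
    refine eq_of_le_of_card_ge ?_ (by rw [card_cj])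
    show (Subgroup.closure _).map (MulAut.conj z).toMonoidHom ≤ W
    rw [MonoidHom.map_closure, closure_le]
    rintro _ ⟨x, ⟨y, hy, hx⟩, rfl⟩
    refine subset_closure ⟨z * y, mul_mem hz hy, ?_⟩
    rw [mul_assoc z y g, ← cj_cj]
    exact conj_mem_cj.2 hx
  by_cases hU : W ⊓ cj h A = ⊥
  · -- every element of `cj h A` of order at least four centralises `W`
    have hnorm : ∀ w ∈ W, ∀ z ∈ cj h A, z ≠ 1 → z * w = w * z → ∀ v ∈ cj h A, w * v = v * w := by
      intro w hw z hz hz1 hzw v hv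
      have hcj : cj (w * h) A = cj h A := by
        refine hA.eq_of_mem ?_ hz hz1
        rw [← cj_cj, mem_cj, show w⁻¹ * z * w = z by rw [mul_assoc, hzw, inv_mul_cancel_left]]
        exact hz
      have hwn : w * v * w⁻¹ ∈ cj h A := by
        rw [← hcj, ← cj_cj]
        exact conj_mem_cj.2 hv
      have h1 : w * v * w⁻¹ * v⁻¹ ∈ W ⊓ cj h A := by
        refine ⟨?_, (cj h A).mul_mem hwn ((cj h A).inv_mem hv)⟩
        have := mul_mem hw ((mem_normalizer_iff.1 (hWn v hv) w⁻¹).1 (W.inv_mem hw))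
        simpa [mul_assoc] using this
      rw [hU, mem_bot] at h1
      exact mul_inv_eq_iff_eq_mul.1 (mul_inv_eq_one.1 h1)
    obtain ⟨a₀, ha₀, ha₀2⟩ := hA4
    set y := h * a₀ * h⁻¹ with hy
    have hyP : y ∈ cj h A := conj_mem_cj.2 ha₀
    have hy2 : y ^ 2 ≠ 1 := by
      rw [hy, conj_pow]
      exact fun e => ha₀2 (conj_eq_one_iff.1 e)
    refine hnorm u (hgW hu) y hyP (fun e => hy2 (by rw [e, one_pow])) ?_ v hv
    refine centralizes_of_sq h2 hWK (mem_sup_right hyP) hWc (hWn y hyP) (fun w hw hwy => ?_) u (hgW hu)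
    exact (hnorm w hw (y * y) (mul_mem hyP hyP) (by rwa [← pow_two]) hwy y hyP).symm
  · obtain ⟨t, ⟨htW, htP⟩, ht1⟩ : ∃ t ∈ W ⊓ cj h A, t ≠ 1 := by
      by_contra hc
      push Not at hc
      exact hU ((eq_bot_iff_forall _).2 hc)
    have hnorm : cj g A ≤ normalizer (cj h A : Set G) := by
      intro w hw
      rw [← cj_eq_iff_mem_normalizer, cj_cj]
      refine hA.eq_of_mem ?_ htP ht1
      rw [← cj_cj, mem_cj, show w⁻¹ * t * w = t by
        rw [mul_assoc, comm_of_mem hWc htW (hgW hw), inv_mul_cancel_left]]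
      exact htP
    refine (hA.comm_of_normalizes hAc hA4 (Ne.symm heq) hnorm ?_ v hv u hu).symm
    rwa [sup_comm]

/-- Squares of a TI abelian 2-subgroup of a group of characteristic two. -/
theorem result {X : Type*} [Group X] [Finite X]
    (hX : Cfsg.generalizedFittingSubgroup X = Cfsg.pCore 2 X) (A : Subgroup X) (hA2 : IsPGroup 2 ↥A) (hAa : IsMulCommutative ↥A)
    (hti : ∀ h : X, A.map (MulAut.conj h).toMonoidHom = A ∨ A.map (MulAut.conj h).toMonoidHom ⊓ A = ⊥) :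
    Subgroup.closure ((fun a : X => a ^ 2) '' (A : Set X)) ≤ Cfsg.pCore 2 X ∧
      (¬ Cfsg.IsElementaryAbelian 2 (Subgroup.closure ((fun a : X => a ^ 2) '' (A : Set X))) →
        IsMulCommutative ↥(Subgroup.normalClosure ((fun a : X => a ^ 2) '' (A : Set X)))) := by
  classical
  have : Fact (Nat.Prime 2) := ⟨Nat.prime_two⟩
  have hCQ := Components.centralizer_pCore_le_of_genFitting_eq (p := 2) hX
  set Q := Cfsg.pCore 2 X with hQ
  haveI hQn : Q.Normal := Cfsg.pCore_normal 2 X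
  have hQp : IsPGroup 2 Q := Cores.pCore_isPGroup
  set B := Subgroup.closure ((fun a : X => a ^ 2) '' (A : Set X)) with hB
  have hTI : IsTI A := hti
  have hBQ : B ≤ Q := by
    rw [hB, closure_le]
    rintro _ ⟨a, ha, rfl⟩
    by_cases ha2 : a ^ 2 = 1
    · show a ^ 2 ∈ Q
      rw [ha2]; exact one_mem _
    have hA4 : ∃ a ∈ A, a ^ 2 ≠ 1 := ⟨a, ha, ha2⟩
    set Φ : Subgroup X := (frattini Q).map Q.subtype with hΦ
    haveI hΦn : Φ.Normal := inferInstance
    set π := QuotientGroup.mk' Φ with hπ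
    set K := (centralizer ((Q.map π : Subgroup (X ⧸ Φ)) : Set (X ⧸ Φ))).comap π with hK
    haveI : (Q.map π).Normal := hQn.map π (QuotientGroup.mk'_surjective Φ)
    haveI hKn : K.Normal :=
      (inferInstance : (centralizer ((Q.map π : Subgroup (X ⧸ Φ)) : Set (X ⧸ Φ))).Normal).comap π
    have hKp : IsPGroup 2 K := by
      intro y
      obtain ⟨k, m, hpm, hord⟩ := Nat.exists_eq_pow_mul_and_not_dvd (orderOf_pos y).ne' 2 (by norm_num)
      refine ⟨k, ?_⟩
      have hym : (orderOf ((y : X) ^ 2 ^ k)).Coprime 2 := by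
        rw [orderOf_pow' _ (pow_ne_zero k two_ne_zero), Subgroup.orderOf_coe, hord,
          Nat.gcd_eq_right (dvd_mul_right _ _), Nat.mul_div_cancel_left _ (pow_pos two_pos k)]
        exact (Nat.prime_two.coprime_iff_not_dvd.2 hpm).symm
      have hmem : (y : X) ^ 2 ^ k ∈ K := pow_mem y.2 _
      have hcomm : ∀ u ∈ Q, ((y : X) ^ 2 ^ k) * u = u * ((y : X) ^ 2 ^ k) :=
        PGroup.commute_of_coprime_of_frattini hQp hym
          ((normalizer_eq_top_iff.2 hQn).symm ▸ mem_top _) fun u hu => by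
          have h : π u * π ((y : X) ^ 2 ^ k) = π ((y : X) ^ 2 ^ k) * π u :=
            mem_centralizer_iff.1 (mem_comap.1 hmem) (π u) ⟨u, hu, rfl⟩
          refine (QuotientGroup.eq_one_iff (N := Φ) _).1 ?_
          show π (u⁻¹ * ((y : X) ^ 2 ^ k * u * ((y : X) ^ 2 ^ k)⁻¹)) = 1
          rw [map_mul, map_mul, map_mul, map_inv, map_inv, ← h, mul_inv_cancel_right, inv_mul_cancel]
      have hcQ : (y : X) ^ 2 ^ k ∈ Q := hCQ (mem_centralizer_iff.2 fun u hu => (hcomm u hu).symm)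
      obtain ⟨j, hj⟩ := hQp ⟨_, hcQ⟩
      have h1 : orderOf ((y : X) ^ 2 ^ k) ∣ 2 ^ j :=
        orderOf_dvd_of_pow_eq_one (congrArg Subtype.val hj)
      exact Subtype.ext (orderOf_eq_one_iff.1 (Nat.eq_one_of_dvd_coprimes (hym.pow_right j) dvd_rfl h1))
    refine Cores.le_pCore hKn hKp ?_
    show a ^ 2 ∈ K
    rw [hK, mem_comap, mem_centralizer_iff]
    rintro _ ⟨q, hq, rfl⟩
    -- `a` and `a` conjugated by `q` commute
    have hpQA : IsPGroup 2 ↥(cj 1 A ⊔ cj q A) := by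
      have hQA : IsPGroup 2 ↥(A ⊔ Q : Subgroup X) := hA2.to_sup_of_normal_right hQp
      refine hQA.to_le (sup_le (by rw [cj_one]; exact le_sup_left) fun x hx => ?_)
      obtain ⟨c, hc, rfl⟩ := hx
      exact mul_mem (mul_mem (mem_sup_right hq) (mem_sup_left hc)) (inv_mem (mem_sup_right hq))
    have hcom := hTI.comm_of_pGroup hAa hA4 1 q hpQA a (by rwa [cj_one]) (q * a * q⁻¹)
      (conj_mem_cj.2 ha)
    set e := q * a * q⁻¹ * a⁻¹ with he
    have he1 : e ∈ Q := by
      have := mul_mem hq (hQn.conj_mem q⁻¹ (inv_mem hq) a)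
      rw [he]; simpa [mul_assoc] using this
    have hae : Commute a e := (show Commute a (q * a * q⁻¹) from hcom).mul_right
      ((Commute.refl a).inv_right)
    have heq : q * a ^ 2 * q⁻¹ = e ^ 2 * a ^ 2 := by
      rw [← conj_pow, ← hae.symm.mul_pow, he, inv_mul_cancel_right]
    have heΦ : e ^ 2 ∈ Φ := ⟨(⟨e, he1⟩ : Q) ^ 2, PGroup.pow_mem_frattini hQp _, rfl⟩
    rw [← map_mul, ← map_mul, show q * a ^ 2 = e ^ 2 * (a ^ 2 * q) by
      rw [← mul_assoc, ← heq, inv_mul_cancel_right], map_mul,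
      show π (e ^ 2) = 1 from (QuotientGroup.eq_one_iff _).2 heΦ, one_mul]
  refine ⟨hBQ, fun hnB => ?_⟩
  have hBA : B ≤ A := (closure_le _).2 (by rintro _ ⟨a, ha, rfl⟩; exact pow_mem ha 2)
  have hBc : IsMulCommutative B := isMulComm_of_le hAa hBA
  have hB4 : ∃ b ∈ B, b ^ 2 ≠ 1 := by
    by_contra h
    push Not at h
    exact hnB ⟨hBc, h⟩
  have hBTI : IsTI B := by
    intro h
    by_cases e : cj h A = A
    · left
      rw [hB]
      show (Subgroup.closure _).map (MulAut.conj h).toMonoidHom = _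
      rw [MonoidHom.map_closure]
      congr 1
      ext x
      constructor
      · rintro ⟨_, ⟨a, ha, rfl⟩, rfl⟩
        refine ⟨h * a * h⁻¹, ?_, by simp [conj_pow]⟩
        rw [← e]; exact conj_mem_cj.2 ha
      · rintro ⟨a, ha, rfl⟩
        rw [← e] at ha
        obtain ⟨a', ha', rfl⟩ := ha
        exact ⟨a' ^ 2, ⟨a', ha', rfl⟩, by simp⟩
    · right
      have := (hti h).resolve_left e
      exact le_bot_iff.1 (le_trans (inf_le_inf (map_mono hBA) hBA) this.le)
  refine isMulCommutative_closure ?_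
  intro x hx y hy
  rw [Group.mem_conjugatesOfSet_iff] at hx hy
  obtain ⟨a, ha, hax⟩ := hx
  obtain ⟨b, hb, hby⟩ := hy
  obtain ⟨g, rfl⟩ := isConj_iff.1 hax
  obtain ⟨h, rfl⟩ := isConj_iff.1 hby
  refine hBTI.comm_of_pGroup hBc hB4 g h ?_ _ (conj_mem_cj.2 (subset_closure ha)) _
    (conj_mem_cj.2 (subset_closure hb))
  refine hQp.to_le (sup_le ?_ ?_) <;>
  · rintro _ ⟨c, hc, rfl⟩
    exact hQn.conj_mem c (hBQ hc) _

end Cfsg.Agent.S1783
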