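import Cfsg.Statements.S1784
import Cfsg.Agent.PGroup.Extraspecial
import Cfsg.Agent.Components.FStar

set_option autoImplicit false
open Cfsg

namespace Cfsg.Agent.S1784

open Subgroup
open scoped commutatorElement

theorem commutator_mul_right_central {E : Type*} [Group E] {x d y : E} (hd : ∀ g : E, d * g = g * d) :
    ⁅x, d * y⁆ = ⁅x, y⁆ ∧ ⁅d * x, y⁆ = ⁅x, y⁆ := by
  constructor
  · simp only [commutatorElement_def, mul_inv_rev]
    calc x * (d * y) * x⁻¹ * (y⁻¹ * d⁻¹) = (x * d) * y * x⁻¹ * y⁻¹ * d⁻¹ := by group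
      _ = d * (x * y * x⁻¹ * y⁻¹) * d⁻¹ := by rw [← hd x]; group
      _ = x * y * x⁻¹ * y⁻¹ := by rw [hd, mul_inv_cancel_right]
  · simp only [commutatorElement_def, mul_inv_rev]
    calc d * x * y * (x⁻¹ * d⁻¹) * y⁻¹ = d * (x * y * x⁻¹) * (y * d)⁻¹ := by group
      _ = d * (x * y * x⁻¹) * (d * y)⁻¹ := by rw [← hd y]
      _ = d * (x * y * x⁻¹ * y⁻¹) * d⁻¹ := by group
      _ = x * y * x⁻¹ * y⁻¹ := by rw [hd, mul_inv_cancel_right]

/-- For a noninner involutory automorphism of an extraspecial 2-group, the elements `φ x · x⁻¹`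
generate the centre of the subgroup of elements they send into the centre. -/
theorem core {E : Type*} [Group E] [Finite E] (hE : Cfsg.IsExtraspecial 2 E) (φ : MulAut E)
    (hφ2 : ∀ x, φ (φ x) = x) (hφc : ∀ x ∈ center E, φ x = x) (hnot : ∀ g : E, φ ≠ MulAut.conj g)
    (Q₀ : Subgroup E) (hQ₀ : ∀ x : E, x ∈ Q₀ ↔ φ x * x⁻¹ ∈ center E) :
    closure (Set.range fun x => φ x * x⁻¹) = Q₀ ⊓ centralizer (Q₀ : Set E) := by
  have : Fact (Nat.Prime 2) := ⟨Nat.prime_two⟩
  set c : E → E := fun x => φ x * x⁻¹ with hc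
  set D := closure (Set.range c) with hD
  have hcen : ∀ {d : E}, d ∈ center E → ∀ g, d * g = g * d := fun hd g => (mem_center_iff.1 hd g).symm
  have hcomm : ∀ x y : E, ⁅x, y⁆ ∈ center E := PGroup.special_commutatorElement_mem hE.1
  have hsq : ∀ x : E, x ^ 2 ∈ center E := PGroup.special_pow_mem_center hE.1
  have hcD : ∀ x, c x ∈ D := fun x => subset_closure ⟨x, rfl⟩
  have hcmul : ∀ x y, c (x * y) = c x * (x * c y * x⁻¹) := fun x y => by
    simp only [hc, map_mul, mul_inv_rev]; group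
  have hZQ : center E ≤ Q₀ := fun x hx => (hQ₀ x).2 (by rw [hφc x hx, mul_inv_cancel]; exact one_mem _)
  -- the generators lie in `Q₀`
  have hgen0 : ∀ x, c x ∈ Q₀ := by
    intro x
    rw [hQ₀]
    have e : φ (c x) = (c x)⁻¹ := by simp only [hc, map_mul, map_inv, hφ2, mul_inv_rev, inv_inv]
    rw [e, ← mul_inv_rev, ← pow_two]
    exact inv_mem (hsq _)
  have hgenC : ∀ x, c x ∈ centralizer (Q₀ : Set E) := by
    intro x
    refine mem_centralizer_iff.2 fun q hq => ?_
    have hd := (hQ₀ q).1 hq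
    have h1 : φ q = (φ q * q⁻¹) * q := (inv_mul_cancel_right _ _).symm
    have h2 : ⁅q, φ x⁆ = ⁅q, x⁆ := by
      rw [← hφc _ (hcomm q x), map_commutatorElement]
      conv_rhs => rw [h1, (commutator_mul_right_central (hcen hd)).2]
    have h3 : ⁅q, φ x⁆ = ⁅q, c x⁆ * ⁅q, x⁆ := by
      have e : φ x = c x * x := (inv_mul_cancel_right _ _).symm
      rw [e]
      simp only [commutatorElement_def, mul_inv_rev]
      calc q * (c x * x) * q⁻¹ * (x⁻¹ * (c x)⁻¹)
          = (q * c x * q⁻¹) * (q * x * q⁻¹ * x⁻¹) * (c x)⁻¹ := by group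
        _ = (q * c x * q⁻¹) * (c x)⁻¹ * (q * x * q⁻¹ * x⁻¹) := by
            have h := hcen (hcomm q x) (c x)⁻¹
            rw [commutatorElement_def] at h
            rw [mul_assoc, h, ← mul_assoc]
    rw [h2] at h3
    exact commutatorElement_eq_one_iff_mul_comm.1 (mul_eq_right.1 h3.symm)
  have hDle : D ≤ Q₀ ⊓ centralizer (Q₀ : Set E) := (closure_le _).2 (by
    rintro _ ⟨x, rfl⟩; exact ⟨hgen0 x, hgenC x⟩)
  -- the centre lies in `D`
  have hconjD : ∀ x y, x * c y * x⁻¹ ∈ D := fun x y => by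
    have := hcmul x y
    rw [eq_comm, ← eq_inv_mul_iff_mul_eq] at this
    rw [this]
    exact mul_mem (inv_mem (hcD x)) (hcD _)
  have hout : ∃ x, c x ∉ center E := by
    by_contra h
    push Not at h
    obtain ⟨g, hg⟩ := PGroup.extraspecial_exists_conj hE φ fun x => by
      have hcx := h x
      have e : φ x = c x * x := (inv_mul_cancel_right _ _).symm
      rw [e, hcen hcx x, inv_mul_cancel_left]
      exact hcx
    exact hnot g hg
  obtain ⟨x₀, hx₀⟩ := hout
  have hZD : center E ≤ D := by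
    obtain ⟨y, hy⟩ : ∃ y, ⁅y, c x₀⁆ ≠ 1 := by
      by_contra h
      push Not at h
      exact hx₀ (mem_center_iff.2 fun g => commutatorElement_eq_one_iff_mul_comm.1 (h g))
    rw [PGroup.extraspecial_center_eq_zpowers hE (hcomm _ _) hy, zpowers_le, commutatorElement_def]
    exact mul_mem (hconjD y x₀) (inv_mem (hcD x₀))
  -- counting
  let f : E →* E ⧸ center E := MonoidHom.mk' (fun x => QuotientGroup.mk' (center E) (c x)) fun x y => by
    rw [← map_mul, QuotientGroup.mk'_eq_mk']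
    refine ⟨⁅x, (c y)⁻¹⁆, hcomm _ _, ?_⟩
    rw [hcmul]
    simp only [commutatorElement_def]
    group
  have hker : f.ker = Q₀ := by
    ext x
    rw [MonoidHom.mem_ker, hQ₀]
    exact QuotientGroup.eq_one_iff _
  have hran : f.range ≤ D.map (QuotientGroup.mk' (center E)) := by
    rintro _ ⟨x, rfl⟩
    exact ⟨c x, hcD x, rfl⟩
  have hidx : Q₀.index ≤ Nat.card (D.map (QuotientGroup.mk' (center E))) := by
    rw [← hker, index_ker]
    exact card_le_of_le hran
  have hmul : Nat.card (D.map (QuotientGroup.mk' (center E))) * 2 = Nat.card D := by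
    have h1 := card_mul_index ((center E).subgroupOf D)
    rw [Nat.card_congr (subgroupOfEquivOfLe hZD).toEquiv, hE.2] at h1
    have h2 : ((center E).subgroupOf D).index = Nat.card (D.map (QuotientGroup.mk' (center E))) := by
      rw [← MonoidHom.restrict_range, ← index_ker, MonoidHom.ker_restrict, QuotientGroup.ker_mk']
    rw [← h2, mul_comm]; exact h1
  have hdual := PGroup.extraspecial_card_centralizer_mul hE hZQ
  have hQi := card_mul_index Q₀
  refine eq_of_le_of_card_ge hDle ((card_le_of_le inf_le_right).trans ?_)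
  refine Nat.le_of_mul_le_mul_right ?_ (Nat.card_pos (α := Q₀))
  calc Nat.card (centralizer (Q₀ : Set E)) * Nat.card Q₀ = Nat.card E * 2 := hdual
    _ = Nat.card Q₀ * Q₀.index * 2 := by rw [hQi]
    _ ≤ Nat.card Q₀ * Nat.card (D.map (QuotientGroup.mk' (center E))) * 2 :=
        Nat.mul_le_mul_right _ (Nat.mul_le_mul_left _ hidx)
    _ = Nat.card D * Nat.card Q₀ := by rw [mul_assoc, hmul, mul_comm]

theorem result {G : Type*} [Group G] [Finite G] (z : G) (hz : orderOf z = 2) (hQ : Cfsg.IsOfSymplecticType ↥(Cfsg.generalizedFittingSubgroup ↥(Subgroup.centralizer ({z} : Set G)))) (hE : Cfsg.IsExtraspecial 2 ↥(Cfsg.generalizedFittingSubgroup ↥(Subgroup.centralizer ({z} : Set G))))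
    (α : G) (hα : orderOf α = 2) (hαC : α ∈ Subgroup.centralizer ({z} : Set G)) (hαQ : α ∉ (Cfsg.generalizedFittingSubgroup ↥(Subgroup.centralizer ({z} : Set G))).map (Subgroup.centralizer ({z} : Set G)).subtype)
    (Q₀ : Subgroup G) (hQ₀ : ∀ q : G, q ∈ Q₀ ↔ (q ∈ (Cfsg.generalizedFittingSubgroup ↥(Subgroup.centralizer ({z} : Set G))).map (Subgroup.centralizer ({z} : Set G)).subtype ∧ α * q * α⁻¹ * q⁻¹ ∈ Subgroup.zpowers z)) :
    Subgroup.closure ((fun q : G => α * q * α⁻¹ * q⁻¹) '' ((Cfsg.generalizedFittingSubgroup ↥(Subgroup.centralizer ({z} : Set G))).map (Subgroup.centralizer ({z} : Set G)).subtype : Set G)) = (Subgroup.center ↥Q₀).map Q₀.subtype ∧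
      (¬ Q₀ ≤ ((Cfsg.generalizedFittingSubgroup ↥(Subgroup.centralizer ({z} : Set G))).map (Subgroup.centralizer ({z} : Set G)).subtype ⊓ Subgroup.centralizer ({α} : Set G)) ⊔ Subgroup.zpowers z →
        ∃ q ∈ (Cfsg.generalizedFittingSubgroup ↥(Subgroup.centralizer ({z} : Set G))).map (Subgroup.centralizer ({z} : Set G)).subtype, q * α * q⁻¹ = α * z) := by
  classical
  have : Fact (Nat.Prime 2) := ⟨Nat.prime_two⟩
  set C := Subgroup.centralizer ({z} : Set G) with hC
  set F := Cfsg.generalizedFittingSubgroup ↥C with hF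
  set Q := F.map C.subtype with hQdef
  haveI : F.Normal := Components.genFitting_normal
  set e : F →* G := C.subtype.comp F.subtype with he
  have hei : Function.Injective e := C.subtype_injective.comp F.subtype_injective
  have hQe : ∀ q, q ∈ Q ↔ ∃ x : F, e x = q := fun q =>
    ⟨fun ⟨y, hy, h⟩ => ⟨⟨y, hy⟩, h⟩, fun ⟨x, h⟩ => ⟨x.1, x.2, h⟩⟩
  have hzC : z ∈ C := mem_centralizer_singleton_iff.2 rfl
  have hzcen : ∀ y : C, y * ⟨z, hzC⟩ = ⟨z, hzC⟩ * y := fun y =>
    Subtype.ext (mem_centralizer_singleton_iff.1 y.2)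
  have hzF : (⟨z, hzC⟩ : C) ∈ F :=
    Components.centralizer_genFitting_le (mem_centralizer_iff.2 fun y _ => hzcen y)
  set zE : F := ⟨⟨z, hzC⟩, hzF⟩ with hzE
  have hzE1 : zE ≠ 1 := fun h => by
    have h1 : z = 1 := congrArg (fun x : F => ((x : C) : G)) h
    rw [h1, orderOf_one] at hz; norm_num at hz
  have hcenter : center F = zpowers zE :=
    PGroup.extraspecial_center_eq_zpowers hE (mem_center_iff.2 fun y => Subtype.ext (hzcen y.1)) hzE1
  have hecenter : (center F).map e = zpowers z := by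
    rw [hcenter, MonoidHom.map_zpowers]; rfl
  set αC : C := ⟨α, hαC⟩ with hαdef
  set φ : MulAut F := MulAut.conjNormal αC with hφ
  have hφe : ∀ x : F, e (φ x * x⁻¹) = α * e x * α⁻¹ * (e x)⁻¹ := fun x => rfl
  have hαα : α * α = 1 := by rw [← pow_two, ← hα, pow_orderOf_eq_one]
  have hφ2 : ∀ x, φ (φ x) = x := fun x => hei (by
    show α * (α * e x * α⁻¹) * α⁻¹ = e x
    calc α * (α * e x * α⁻¹) * α⁻¹ = (α * α) * e x * (α * α)⁻¹ := by group
      _ = e x := by rw [hαα, inv_one, one_mul, mul_one])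
  have hφc : ∀ x ∈ center F, φ x = x := by
    intro x hx
    have h1 : e x ∈ zpowers z := hecenter ▸ mem_map_of_mem e hx
    obtain ⟨i, hi⟩ := mem_zpowers_iff.1 h1
    refine hei ?_
    show α * e x * α⁻¹ = e x
    rw [← hi, ((show Commute α z from mem_centralizer_singleton_iff.1 hαC).zpow_right i).eq,
      mul_inv_cancel_right]
  have hnot : ∀ g : F, φ ≠ MulAut.conj g := by
    intro g hg
    apply hαQ
    have h1 : (g : C)⁻¹ * αC ∈ F := by
      refine Components.centralizer_genFitting_le (mem_centralizer_iff.2 fun y hy => ?_)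
      have h2 : αC * y * αC⁻¹ = g * y * (g : C)⁻¹ :=
        congrArg Subtype.val (congrArg (fun ψ : MulAut F => ψ ⟨y, hy⟩) hg)
      calc y * ((g : C)⁻¹ * αC) = (g : C)⁻¹ * ((g : C) * y * (g : C)⁻¹) * αC := by group
        _ = (g : C)⁻¹ * (αC * y * αC⁻¹) * αC := by rw [h2]
        _ = (g : C)⁻¹ * αC * y := by group
    have := mul_mem g.2 h1
    rw [mul_inv_cancel_left] at this
    exact ⟨αC, this, rfl⟩
  set R : Subgroup F := Q₀.comap e with hR
  have hRmem : ∀ x : F, x ∈ R ↔ φ x * x⁻¹ ∈ center F := by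
    intro x
    rw [hR, mem_comap, hQ₀, ← hφe, ← hecenter, mem_map_iff_mem hei]
    exact ⟨fun h => h.2, fun h => ⟨(hQe _).2 ⟨x, rfl⟩, h⟩⟩
  have hcore := core hE φ hφ2 hφc hnot R hRmem
  refine ⟨?_, fun hle => ?_⟩
  · have hset : (fun q : G => α * q * α⁻¹ * q⁻¹) '' (Q : Set G) =
        e '' Set.range (fun x => φ x * x⁻¹) := by
      ext w
      constructor
      · rintro ⟨q, hq, rfl⟩
        obtain ⟨x, rfl⟩ := (hQe q).1 hq
        exact ⟨_, ⟨x, rfl⟩, hφe x⟩
      · rintro ⟨_, ⟨x, rfl⟩, rfl⟩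
        exact ⟨e x, (hQe _).2 ⟨x, rfl⟩, (hφe x).symm⟩
    rw [hset, ← MonoidHom.map_closure, hcore]
    ext w
    constructor
    · rintro ⟨x, ⟨hx, hxc⟩, rfl⟩
      refine ⟨⟨e x, hx⟩, mem_center_iff.2 fun y => Subtype.ext ?_, rfl⟩
      obtain ⟨u, hu⟩ := (hQe _).1 ((hQ₀ _).1 y.2).1
      have huR : u ∈ R := by rw [hR, mem_comap, hu]; exact y.2
      show (y : G) * e x = e x * y
      rw [← hu, ← map_mul, ← map_mul, mem_centralizer_iff.1 hxc u huR]
    · rintro ⟨⟨w, hw⟩, hwc, rfl⟩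
      obtain ⟨x, rfl⟩ := (hQe _).1 ((hQ₀ _).1 hw).1
      refine ⟨x, ⟨hw, mem_centralizer_iff.2 fun u hu => hei ?_⟩, rfl⟩
      rw [map_mul, map_mul]
      exact congrArg Subtype.val (mem_center_iff.1 hwc ⟨e u, hu⟩)
  · obtain ⟨q, hq, hqn⟩ := SetLike.not_le_iff_exists.1 hle
    obtain ⟨hqQ, hqz⟩ := (hQ₀ q).1 hq
    refine ⟨q, hqQ, ?_⟩
    obtain ⟨i, hi⟩ := mem_zpowers_iff.1 hqz
    have h2 : α * q * α⁻¹ * q⁻¹ = z := by
      rw [← hi]
      rw [← zpow_mod_orderOf, hz]
      rcases Int.emod_two_eq_zero_or_one i with h | h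
      · exfalso
        apply hqn
        refine mem_sup_left ⟨hqQ, mem_centralizer_singleton_iff.2 ?_⟩
        rw [← zpow_mod_orderOf, hz] at hi
        push_cast at hi
        rw [h, zpow_zero] at hi
        exact (mul_inv_eq_iff_eq_mul.1 (mul_inv_eq_one.1 hi.symm)).symm
      · push_cast
        rw [h, zpow_one]
    have hαi : α⁻¹ = α := inv_eq_of_mul_eq_one_right hαα
    calc q * α * q⁻¹ = α * (α * q * α⁻¹ * q⁻¹) := by
          rw [hαi]
          simp only [← mul_assoc]
          rw [hαα, one_mul]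
      _ = α * z := by rw [h2]

end Cfsg.Agent.S1784
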