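import Cfsg.Statements.S1785
import Cfsg.Agent.Classif.Elementary
import Cfsg.Agent.PGroup.Basic
import Cfsg.Agent.Fusion.Basic
import Cfsg.Agent.Cores.Basic

set_option autoImplicit false
open Cfsg

namespace Cfsg.Agent.S1785

/-- Let X be a finite 2-group having a normal elementary abelian subgroup of order at least 32. Then (a) for any two elementary abelian subgroups A, B of X of order 8 there is a chain A = A₁, A₂, …, Aₙ = B of elementary abelian subgroups of order 8 in which consecutive members commute elementwise; and (b) every elementary abelian subgroup of X of order 4 is contained in an elementary abelian subgroup of order 8. -/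
theorem result {X : Type*} [Group X] [Finite X]
    (hX : IsPGroup 2 X) (E : Subgroup X) [E.Normal] (hE : Cfsg.IsElementaryAbelian 2 E) (hE32 : 32 ≤ Nat.card ↥E) :
    (∀ A B : Subgroup X, Cfsg.IsElementaryAbelian 2 A → Nat.card ↥A = 8 → Cfsg.IsElementaryAbelian 2 B → Nat.card ↥B = 8 →
        Relation.ReflTransGen
          (fun C D : Subgroup X => Cfsg.IsElementaryAbelian 2 C ∧ Nat.card ↥C = 8 ∧ Cfsg.IsElementaryAbelian 2 D ∧ Nat.card ↥D = 8 ∧ ⁅C, D⁆ = ⊥)
          A B) ∧
      (∀ V : Subgroup X, Cfsg.IsElementaryAbelian 2 V → Nat.card ↥V = 4 →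
        ∃ A : Subgroup X, V ≤ A ∧ Cfsg.IsElementaryAbelian 2 A ∧ Nat.card ↥A = 8) := by
  classical
  haveI : Fact (Nat.Prime 2) := ⟨Nat.prime_two⟩
  have hEn : ∀ x e : X, e ∈ E → x * e * x⁻¹ ∈ E := fun x e he =>
    (inferInstance : E.Normal).conj_mem e he x
  have hpow : ∀ W : Subgroup X, ∃ n : ℕ, Nat.card W = 2 ^ n := fun W => IsPGroup.iff_card.mp (hX.to_subgroup W)
  have hround : ∀ (W : Subgroup X) (k : ℕ), 2 ^ (2 * k + 1) ≤ Nat.card W ^ 2 → 2 ^ (k + 1) ≤ Nat.card W := by
    intro W k h
    obtain ⟨n, hn⟩ := hpow W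
    rw [hn, ← pow_mul] at h
    have := (Nat.pow_le_pow_iff_right (le_refl 2)).mp h
    rw [hn]
    exact Nat.pow_le_pow_right (by norm_num) (by omega)
  -- centralizers in `E` of commuting involutions
  have h1 : ∀ u : X, u ^ 2 = 1 → 8 ≤ Nat.card ↥(E ⊓ Subgroup.centralizer ({u} : Set X)) := by
    intro u hu
    refine hround _ 2 (le_trans ?_ (Cfsg.Agent.Classif.card_le_sq_centralizer hE (fun e he => hEn u e he) hu))
    exact hE32
  have h2 : ∀ u v : X, u ^ 2 = 1 → v ^ 2 = 1 → u * v = v * u →
      4 ≤ Nat.card ↥(E ⊓ Subgroup.centralizer ({u} : Set X) ⊓ Subgroup.centralizer ({v} : Set X)) := by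
    intro u v hu hv huv
    refine hround _ 1 (le_trans (h1 u hu) (Cfsg.Agent.Classif.card_le_sq_centralizer
      (Cfsg.Agent.Classif.elemAb_of_le hE inf_le_left) (fun e he => ?_) hv))
    refine ⟨hEn v e he.1, Subgroup.mem_centralizer_singleton_iff.mpr ?_⟩
    have he2 : e * u = u * e := Subgroup.mem_centralizer_singleton_iff.mp he.2
    have hinv : v⁻¹ * u = u * v⁻¹ := by
      rw [inv_mul_eq_iff_eq_mul, ← mul_assoc, ← huv, mul_inv_cancel_right]
    calc v * e * v⁻¹ * u = v * e * (u * v⁻¹) := by rw [mul_assoc _ v⁻¹, hinv]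
      _ = v * (e * u) * v⁻¹ := by group
      _ = (v * u) * e * v⁻¹ := by rw [he2]; group
      _ = u * (v * e * v⁻¹) := by rw [← huv]; group
  have hgen : ∀ V : Subgroup X, Cfsg.IsElementaryAbelian 2 V → 4 ≤ Nat.card V →
      ∃ u v : X, u ∈ V ∧ v ∈ V ∧ 4 ≤ Nat.card ↥(Subgroup.closure ({u, v} : Set X)) := by
    intro V hV hcard
    obtain ⟨u, huV, hu1⟩ : ∃ u ∈ V, u ≠ 1 := by
      rcases Subgroup.bot_or_exists_ne_one V with h | h
      · rw [h, Subgroup.card_bot] at hcard; omega
      · exact h
    have hu : orderOf u = 2 := orderOf_eq_prime (hV.2 u huV) hu1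
    obtain ⟨v, hvV, hv⟩ : ∃ v ∈ V, v ∉ Subgroup.zpowers u := by
      by_contra h
      push Not at h
      have hle := Nat.le_of_dvd Nat.card_pos (Subgroup.card_dvd_of_le (show V ≤ Subgroup.zpowers u from h))
      rw [Nat.card_zpowers, hu] at hle
      omega
    refine ⟨u, v, huV, hvV, ?_⟩
    obtain ⟨n, hn⟩ := hpow (Subgroup.closure ({u, v} : Set X))
    have hle : Subgroup.zpowers u ≤ Subgroup.closure ({u, v} : Set X) :=
      Subgroup.zpowers_le.mpr (Subgroup.subset_closure (Set.mem_insert _ _))
    have hlt : 2 < Nat.card ↥(Subgroup.closure ({u, v} : Set X)) := by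
      refine lt_of_le_of_ne ?_ fun h => hv ?_
      · have := Nat.le_of_dvd Nat.card_pos (Subgroup.card_dvd_of_le hle)
        rwa [Nat.card_zpowers, hu] at this
      · rw [Subgroup.eq_of_le_of_card_ge hle (by rw [Nat.card_zpowers, hu, ← h])]
        exact Subgroup.subset_closure (Set.mem_insert_of_mem _ rfl)
    rw [hn] at hlt ⊢
    have hn2 : 2 ≤ n := by
      by_contra h
      have := Nat.pow_le_pow_right (show 0 < 2 by norm_num) (show n ≤ 1 by omega)
      omega
    calc 4 = 2 ^ 2 := rfl
      _ ≤ 2 ^ n := Nat.pow_le_pow_right (by norm_num) hn2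
  refine ⟨?_, ?_⟩
  swap
  · intro V hV hV4
    obtain ⟨u, v, huV, hvV, hc⟩ := hgen V hV hV4.ge
    have hVeq : Subgroup.closure ({u, v} : Set X) = V :=
      Subgroup.eq_of_le_of_card_ge ((Subgroup.closure_le _).mpr (by
        rintro a (rfl | rfl) <;> assumption)) (hV4 ▸ hc)
    set W := E ⊓ Subgroup.centralizer ({u} : Set X) ⊓ Subgroup.centralizer ({v} : Set X) with hW
    have hW4 : 4 ≤ Nat.card W := h2 u v (hV.2 u huV) (hV.2 v hvV) (Cfsg.Agent.Classif.elemAb_commute hV huV hvV)
    have hcomm : ∀ a ∈ V, ∀ b ∈ W, a * b = b * a := by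
      intro a ha b hb
      have hsub : V ≤ Subgroup.centralizer ({b} : Set X) := by
        rw [← hVeq, Subgroup.closure_le]
        rintro c (rfl | rfl)
        · exact Subgroup.mem_centralizer_singleton_iff.mpr (Subgroup.mem_centralizer_singleton_iff.mp hb.1.2).symm
        · exact Subgroup.mem_centralizer_singleton_iff.mpr (Subgroup.mem_centralizer_singleton_iff.mp hb.2).symm
      exact Subgroup.mem_centralizer_singleton_iff.mp (hsub ha)
    have hWab : Cfsg.IsElementaryAbelian 2 W :=
      Cfsg.Agent.Classif.elemAb_of_le hE (inf_le_left.trans inf_le_left)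
    by_cases hWV : W ≤ V
    · have hWeq : W = V := Subgroup.eq_of_le_of_card_ge hWV (by omega)
      obtain ⟨A, hVA, -, hA, hAel⟩ := Cfsg.Agent.Classif.exists_le_card (m := 3) hE
        (show V ≤ E from hWeq ▸ inf_le_left.trans inf_le_left) (by omega) (by omega)
      exact ⟨A, hVA, hAel, hA⟩
    · have h8 : 8 ≤ Nat.card ↥(V ⊔ W) := by
        obtain ⟨n, hn⟩ := hpow (V ⊔ W)
        have hlt : 4 < Nat.card ↥(V ⊔ W) := by
          refine lt_of_le_of_ne ?_ fun h => hWV ?_
          · have := Nat.le_of_dvd Nat.card_pos (Subgroup.card_dvd_of_le (le_sup_left : V ≤ V ⊔ W))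
            omega
          · rw [Subgroup.eq_of_le_of_card_ge (le_sup_left : V ≤ V ⊔ W) (by omega)]
            exact le_sup_right
        rw [hn] at hlt ⊢
        have hn3 : 3 ≤ n := by
          by_contra h
          have := Nat.pow_le_pow_right (show 0 < 2 by norm_num) (show n ≤ 2 by omega)
          omega
        calc 8 = 2 ^ 3 := rfl
          _ ≤ 2 ^ n := Nat.pow_le_pow_right (by norm_num) hn3
      obtain ⟨A, hVA, -, hA, hAel⟩ := Cfsg.Agent.Classif.exists_le_card (m := 3)
        (Cfsg.Agent.Classif.elemAb_sup hV hWab hcomm) (le_sup_left : V ≤ V ⊔ W) h8 (by omega)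
      exact ⟨A, hVA, hAel, hA⟩
  · intro A B hA hA8 hB hB8
    set R := fun C D : Subgroup X => Cfsg.IsElementaryAbelian 2 C ∧ Nat.card ↥C = 8 ∧
      Cfsg.IsElementaryAbelian 2 D ∧ Nat.card ↥D = 8 ∧ ⁅C, D⁆ = ⊥ with hR
    have hstep : ∀ C D F : Subgroup X, Cfsg.IsElementaryAbelian 2 F → C ≤ F → D ≤ F →
        Nat.card ↥C = 8 → Nat.card ↥D = 8 → R C D := by
      intro C D F hF hC hD hC8 hD8
      refine ⟨Cfsg.Agent.Classif.elemAb_of_le hF hC, hC8, Cfsg.Agent.Classif.elemAb_of_le hF hD, hD8, ?_⟩
      rw [eq_bot_iff, Subgroup.commutator_le]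
      intro a ha b hb
      exact Subgroup.mem_bot.mpr (commutatorElement_eq_one_iff_mul_comm.mpr
        (Cfsg.Agent.Classif.elemAb_commute hF (hC ha) (hD hb)))
    have hsymm : ∀ C D : Subgroup X, R C D → R D C := fun C D h =>
      ⟨h.2.2.1, h.2.2.2.1, h.1, h.2.1, by rw [Subgroup.commutator_comm]; exact h.2.2.2.2⟩
    obtain ⟨z, hz⟩ : ∃ z : X, z ∈ E ∧ z ∈ Subgroup.center X ∧ z ≠ 1 := by
      have hne : E ⊓ Subgroup.center X ≠ ⊥ := Cfsg.Agent.PGroup.inf_center_ne_bot hX E (fun h => by
        rw [h, Subgroup.card_bot] at hE32; omega)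
      obtain ⟨z, hz, hz1⟩ := (Subgroup.bot_or_exists_ne_one _).resolve_left hne
      exact ⟨z, hz.1, hz.2, hz1⟩
    obtain ⟨hzE, hzZ, hz1⟩ := hz
    have hzc : ∀ x : X, x * z = z * x := fun x => Subgroup.mem_center_iff.mp hzZ x
    have hz2 : orderOf z = 2 := orderOf_eq_prime (hE.2 z hzE) hz1
    have hmain : ∀ C : Subgroup X, Cfsg.IsElementaryAbelian 2 C → Nat.card ↥C = 8 →
        ∃ D : Subgroup X, D ≤ E ∧ Nat.card ↥D = 8 ∧ Relation.ReflTransGen R C D ∧ Relation.ReflTransGen R D C := by
      intro C hC hC8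
      -- move to a subgroup containing `z`
      have hCz : Cfsg.IsElementaryAbelian 2 (C ⊔ Subgroup.zpowers z) :=
        Cfsg.Agent.Classif.elemAb_sup hC
          (Cfsg.Agent.Classif.elemAb_of_le hE (Subgroup.zpowers_le.mpr hzE))
          (fun a _ b hb => by
            obtain ⟨i, rfl⟩ := Subgroup.mem_zpowers_iff.mp hb
            exact ((show Commute a z from hzc a).zpow_right i).eq)
      obtain ⟨C1, hzC1, hC1F, hC18, hC1⟩ := Cfsg.Agent.Classif.exists_le_card (m := 3) hCz
        (le_sup_right : Subgroup.zpowers z ≤ _)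
        (le_trans hC8.ge (Nat.le_of_dvd Nat.card_pos (Subgroup.card_dvd_of_le le_sup_left)))
        (by rw [Nat.card_zpowers, hz2]; norm_num)
      have s1 := hstep C C1 _ hCz le_sup_left hC1F hC8 hC18
      -- move to a subgroup meeting `E` in at least four elements
      obtain ⟨u, huC, huz⟩ : ∃ u ∈ C1, u ∉ Subgroup.zpowers z := by
        by_contra h
        push Not at h
        have hle := Nat.le_of_dvd Nat.card_pos (Subgroup.card_dvd_of_le (show C1 ≤ Subgroup.zpowers z from h))
        rw [Nat.card_zpowers, hz2, hC18] at hle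
        omega
      obtain ⟨v, hvC, hv⟩ : ∃ v ∈ C1, v ∉ Subgroup.closure ({z, u} : Set X) := by
        by_contra h
        push Not at h
        have hle := Nat.le_of_dvd Nat.card_pos
          (Subgroup.card_dvd_of_le (show C1 ≤ Subgroup.closure ({z, u} : Set X) from h))
        have hle2 : Nat.card ↥(Subgroup.closure ({z, u} : Set X)) ≤ 4 := by
          have hzu : Subgroup.closure ({z, u} : Set X) = Subgroup.zpowers z ⊔ Subgroup.zpowers u := by
            rw [Subgroup.zpowers_eq_closure, Subgroup.zpowers_eq_closure, ← Subgroup.closure_union,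
              Set.singleton_union]
          rw [hzu]
          haveI : (Subgroup.zpowers z).Normal := ⟨fun n hn g => by
            obtain ⟨i, rfl⟩ := Subgroup.mem_zpowers_iff.mp hn
            rw [((show Commute g z from hzc g).zpow_right i).eq, mul_assoc, mul_inv_cancel, mul_one]
            exact hn⟩
          have h := Cfsg.Agent.Cores.card_sup_dvd_mul (Subgroup.zpowers u) (Subgroup.zpowers z)
          rw [sup_comm, Nat.card_zpowers, Nat.card_zpowers, hz2] at h
          have h3 : orderOf u ∣ 2 := orderOf_dvd_of_pow_eq_one (hC1.2 u huC)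
          have h4 := Nat.le_of_dvd (by norm_num) (h.trans (mul_dvd_mul_right h3 2))
          omega
        omega
      have hgenC : Subgroup.closure ({z, u, v} : Set X) = C1 := by
        have hle : Subgroup.closure ({z, u, v} : Set X) ≤ C1 := (Subgroup.closure_le _).mpr (by
          rintro a (rfl | rfl | rfl)
          · exact hzC1 (Subgroup.mem_zpowers _)
          · exact huC
          · exact hvC)
        have h12 : Subgroup.closure ({z, u} : Set X) < Subgroup.closure ({z, u, v} : Set X) :=
          lt_of_le_of_ne (Subgroup.closure_mono (by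
            rintro a (rfl | rfl) <;> simp)) fun h => hv (h ▸ Subgroup.subset_closure (by simp))
        have h01 : Subgroup.zpowers z < Subgroup.closure ({z, u} : Set X) :=
          lt_of_le_of_ne (Subgroup.zpowers_le.mpr (Subgroup.subset_closure (by simp))) fun h =>
            huz (h ▸ Subgroup.subset_closure (by simp))
        refine Subgroup.eq_of_le_of_card_ge hle ?_
        have c1 := Cfsg.Agent.Fusion.card_lt_card h01
        have c2 := Cfsg.Agent.Fusion.card_lt_card h12
        obtain ⟨n1, e1⟩ := hpow (Subgroup.closure ({z, u} : Set X))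
        obtain ⟨n2, e2⟩ := hpow (Subgroup.closure ({z, u, v} : Set X))
        rw [Nat.card_zpowers, hz2, e1] at c1
        rw [e1, e2] at c2
        rw [hC18, e2]
        have d1 : 2 ≤ n1 := Nat.succ_le_of_lt ((Nat.pow_lt_pow_iff_right (le_refl 2)).mp (by rwa [pow_one]))
        have d2 := (Nat.pow_lt_pow_iff_right (le_refl 2)).mp c2
        calc 8 = 2 ^ 3 := rfl
          _ ≤ 2 ^ n2 := Nat.pow_le_pow_right (by norm_num) (by omega)
      set W2 := E ⊓ Subgroup.centralizer ({u} : Set X) ⊓ Subgroup.centralizer ({v} : Set X) with hW2d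
      have hW2 : 4 ≤ Nat.card W2 :=
        h2 u v (hC1.2 u huC) (hC1.2 v hvC) (Cfsg.Agent.Classif.elemAb_commute hC1 huC hvC)
      obtain ⟨e, heW, hez⟩ : ∃ e ∈ W2, e ∉ Subgroup.zpowers z := by
        by_contra h
        push Not at h
        have hle := Nat.le_of_dvd Nat.card_pos (Subgroup.card_dvd_of_le (show W2 ≤ Subgroup.zpowers z from h))
        rw [Nat.card_zpowers, hz2] at hle
        omega
      have hF : Cfsg.IsElementaryAbelian 2 (C1 ⊔ Subgroup.zpowers e) :=
        Cfsg.Agent.Classif.elemAb_sup hC1 (Cfsg.Agent.Classif.elemAb_of_le hE (Subgroup.zpowers_le.mpr heW.1.1))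
          (fun a ha b hb => by
            obtain ⟨i, rfl⟩ := Subgroup.mem_zpowers_iff.mp hb
            refine (Commute.zpow_right ?_ i).eq
            have hsub : C1 ≤ Subgroup.centralizer ({e} : Set X) := by
              rw [← hgenC, Subgroup.closure_le]
              rintro c (rfl | rfl | rfl)
              · exact Subgroup.mem_centralizer_singleton_iff.mpr (hzc e).symm
              · exact Subgroup.mem_centralizer_singleton_iff.mpr (Subgroup.mem_centralizer_singleton_iff.mp heW.1.2).symm
              · exact Subgroup.mem_centralizer_singleton_iff.mpr (Subgroup.mem_centralizer_singleton_iff.mp heW.2).symm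
            exact Subgroup.mem_centralizer_singleton_iff.mp (hsub ha))
      have hze : Subgroup.closure ({z, e} : Set X) ≤ C1 ⊔ Subgroup.zpowers e := (Subgroup.closure_le _).mpr (by
        rintro a (rfl | rfl)
        · exact Subgroup.mem_sup_left (hzC1 (Subgroup.mem_zpowers _))
        · exact Subgroup.mem_sup_right (Subgroup.mem_zpowers _))
      have hzeE : Subgroup.closure ({z, e} : Set X) ≤ E := (Subgroup.closure_le _).mpr (by
        rintro a (rfl | rfl)
        · exact hzE
        · exact heW.1.1)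
      have hc8 : 8 ≤ Nat.card ↥(C1 ⊔ Subgroup.zpowers e) :=
        le_trans hC18.ge (Nat.le_of_dvd Nat.card_pos (Subgroup.card_dvd_of_le le_sup_left))
      have hze8 : Nat.card ↥(Subgroup.closure ({z, e} : Set X)) ≤ 8 := by
        have hEze := Cfsg.Agent.Classif.elemAb_of_le hE hzeE
        haveI : (Subgroup.zpowers z).Normal := ⟨fun n hn g => by
          obtain ⟨i, rfl⟩ := Subgroup.mem_zpowers_iff.mp hn
          rw [((show Commute g z from hzc g).zpow_right i).eq, mul_assoc, mul_inv_cancel, mul_one]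
          exact hn⟩
        have hzu : Subgroup.closure ({z, e} : Set X) = Subgroup.zpowers z ⊔ Subgroup.zpowers e := by
          rw [Subgroup.zpowers_eq_closure, Subgroup.zpowers_eq_closure, ← Subgroup.closure_union,
            Set.singleton_union]
        have h := Cfsg.Agent.Cores.card_sup_dvd_mul (Subgroup.zpowers e) (Subgroup.zpowers z)
        rw [sup_comm, Nat.card_zpowers, Nat.card_zpowers, hz2] at h
        have h3 : orderOf e ∣ 2 := orderOf_dvd_of_pow_eq_one (hE.2 e heW.1.1)
        have h4 := Nat.le_of_dvd (by norm_num) (h.trans (mul_dvd_mul_right h3 2))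
        rw [hzu]
        omega
      obtain ⟨C2, hzeC2, hC2F, hC28, hC2⟩ := Cfsg.Agent.Classif.exists_le_card (m := 3) hF hze hc8 hze8
      have s2 := hstep C1 C2 _ hF le_sup_left hC2F hC18 hC28
      -- move into `E`
      by_cases hC2E : C2 ≤ E
      · exact ⟨C2, hC2E, hC28, (Relation.ReflTransGen.single s1).tail s2,
          (Relation.ReflTransGen.single (hsymm _ _ s2)).tail (hsymm _ _ s1)⟩
      obtain ⟨a, haC, haE⟩ := SetLike.not_le_iff_exists.mp hC2E
      have hC2eq : Subgroup.closure ({z, e, a} : Set X) = C2 := by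
        have hle : Subgroup.closure ({z, e, a} : Set X) ≤ C2 := (Subgroup.closure_le _).mpr (by
          rintro c (rfl | rfl | rfl)
          · exact hzeC2 (Subgroup.subset_closure (Set.mem_insert _ _))
          · exact hzeC2 (Subgroup.subset_closure (Set.mem_insert_of_mem _ rfl))
          · exact haC)
        have h12 : Subgroup.closure ({z, e} : Set X) < Subgroup.closure ({z, e, a} : Set X) :=
          lt_of_le_of_ne (Subgroup.closure_mono (by
            rintro c (rfl | rfl) <;> simp)) fun h => haE (hzeE (h ▸ Subgroup.subset_closure (by simp)))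
        have h01 : Subgroup.zpowers z < Subgroup.closure ({z, e} : Set X) :=
          lt_of_le_of_ne (Subgroup.zpowers_le.mpr (Subgroup.subset_closure (by simp))) fun h =>
            hez (h ▸ Subgroup.subset_closure (by simp))
        refine Subgroup.eq_of_le_of_card_ge hle ?_
        have c1 := Cfsg.Agent.Fusion.card_lt_card h01
        have c2 := Cfsg.Agent.Fusion.card_lt_card h12
        obtain ⟨n1, e1⟩ := hpow (Subgroup.closure ({z, e} : Set X))
        obtain ⟨n2, e2⟩ := hpow (Subgroup.closure ({z, e, a} : Set X))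
        rw [Nat.card_zpowers, hz2, e1] at c1
        rw [e1, e2] at c2
        rw [hC28, e2]
        have d1 : 2 ≤ n1 := Nat.succ_le_of_lt ((Nat.pow_lt_pow_iff_right (le_refl 2)).mp (by rwa [pow_one]))
        have d2 := (Nat.pow_lt_pow_iff_right (le_refl 2)).mp c2
        calc 8 = 2 ^ 3 := rfl
          _ ≤ 2 ^ n2 := Nat.pow_le_pow_right (by norm_num) (by omega)
      obtain ⟨D, -, hDW, hD8, -⟩ := Cfsg.Agent.Classif.exists_le_card (m := 3)
        (Cfsg.Agent.Classif.elemAb_of_le hE (inf_le_left : E ⊓ Subgroup.centralizer ({a} : Set X) ≤ E))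
        (bot_le : (⊥ : Subgroup X) ≤ _) (h1 a (hC2.2 a haC)) (by rw [Subgroup.card_bot]; norm_num)
      have hF3 : Cfsg.IsElementaryAbelian 2 (C2 ⊔ D) :=
        Cfsg.Agent.Classif.elemAb_sup hC2 (Cfsg.Agent.Classif.elemAb_of_le hE (hDW.trans inf_le_left))
          (fun c hc d hd => by
            have hsub : C2 ≤ Subgroup.centralizer ({d} : Set X) := by
              rw [← hC2eq, Subgroup.closure_le]
              rintro w (rfl | rfl | rfl)
              · exact Subgroup.mem_centralizer_singleton_iff.mpr (hzc d).symm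
              · exact Subgroup.mem_centralizer_singleton_iff.mpr (Cfsg.Agent.Classif.elemAb_commute hE heW.1.1 (hDW hd).1)
              · exact Subgroup.mem_centralizer_singleton_iff.mpr (Subgroup.mem_centralizer_singleton_iff.mp (hDW hd).2).symm
            exact Subgroup.mem_centralizer_singleton_iff.mp (hsub hc))
      have s3 := hstep C2 D _ hF3 le_sup_left le_sup_right hC28 hD8
      exact ⟨D, hDW.trans inf_le_left, hD8, ((Relation.ReflTransGen.single s1).tail s2).tail s3,
        ((Relation.ReflTransGen.single (hsymm _ _ s3)).tail (hsymm _ _ s2)).tail (hsymm _ _ s1)⟩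
    obtain ⟨D1, hD1E, hD18, h1', -⟩ := hmain A hA hA8
    obtain ⟨D2, hD2E, hD28, -, h2'⟩ := hmain B hB hB8
    exact (h1'.tail (hstep D1 D2 E hE hD1E hD2E hD18 hD28)).trans h2'

end Cfsg.Agent.S1785
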