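import Cfsg.Statements.S1786
import Cfsg.Agent.Classif.TIRadicalField
import Cfsg.Agent.Cores.Basic
import Cfsg.Agent.PGroup.Frattini
import Cfsg.Agent.Components.FStar

set_option autoImplicit false
open Cfsg
open scoped Pointwise

namespace Cfsg.Agent.S1786

open Agent.Classif.TIRadical
open scoped commutatorElement

/-- Let G be a finite group, V an elementary abelian 2-subgroup of G and M the normalizer of V; write Q for the largest normal 2-subgroup of M. Suppose (1) the generalized Fitting subgroup of M equals Q; (2) V is a maximal abelian normal subgroup of M; (3) every conjugate of V equals V or meets V trivially, and for some g ∈ G the conjugate V' = g V g⁻¹ is different from V and contained in Q. Let P be the centralizer of V in Q, W the subgroup generated by V and V', and H the subgroup generated by P and g P g⁻¹. Then: (a) V is contained in g Q g⁻¹; (b) every non-identity element of W lies in exactly one conjugate of V contained in W, H normalizes W, and H modulo the centralizer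 of W in H is isomorphic to the special linear group of dimension 2 over the field with |V| elements; (c) P = Q, and V equals the Frattini subgroup, the centre and the commutator subgroup of Q. -/
theorem result {G : Type*} [Group G] [Finite G] (V : Subgroup G)
    (hV : Cfsg.IsElementaryAbelian 2 V)
    (h1 : (Cfsg.generalizedFittingSubgroup ↥(Subgroup.normalizer (V : Set G))).map (Subgroup.normalizer (V : Set G)).subtype =
      (Cfsg.pCore 2 ↥(Subgroup.normalizer (V : Set G))).map (Subgroup.normalizer (V : Set G)).subtype)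
    (h2 : ∀ A : Subgroup G, V ≤ A → A ≤ Subgroup.normalizer (V : Set G) → IsMulCommutative ↥A →
      (∀ m ∈ Subgroup.normalizer (V : Set G), ∀ a ∈ A, m * a * m⁻¹ ∈ A) → A = V)
    (hti : ∀ x : G, V.map (MulAut.conj x).toMonoidHom = V ∨ V.map (MulAut.conj x).toMonoidHom ⊓ V = ⊥)
    (g : G) (hg : V.map (MulAut.conj g).toMonoidHom ≠ V)
    (hgQ : V.map (MulAut.conj g).toMonoidHom ≤ (Cfsg.pCore 2 ↥(Subgroup.normalizer (V : Set G))).map (Subgroup.normalizer (V : Set G)).subtype) :
    let Q : Subgroup G := (Cfsg.pCore 2 ↥(Subgroup.normalizer (V : Set G))).map (Subgroup.normalizer (V : Set G)).subtype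
    let P : Subgroup G := Q ⊓ Subgroup.centralizer (V : Set G)
    let W : Subgroup G := V ⊔ V.map (MulAut.conj g).toMonoidHom
    let H : Subgroup G := P ⊔ P.map (MulAut.conj g).toMonoidHom
    V ≤ Q.map (MulAut.conj g).toMonoidHom ∧
      (∀ w ∈ W, w ≠ 1 → ∃! U : Subgroup G, (∃ x : G, U = V.map (MulAut.conj x).toMonoidHom) ∧ U ≤ W ∧ w ∈ U) ∧
      H ≤ Subgroup.normalizer (W : Set G) ∧
      (∀ hN : ((Subgroup.centralizer (W : Set G)).subgroupOf H).Normal, ∃ (F : Type) (_ : Field F) (_ : Fintype F), Fintype.card F = Nat.card ↥V ∧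
        Nonempty (↥H ⧸ (Subgroup.centralizer (W : Set G)).subgroupOf H ≃* Matrix.SpecialLinearGroup (Fin 2) F)) ∧
      P = Q ∧ (frattini ↥Q).map Q.subtype = V ∧ (Subgroup.center ↥Q).map Q.subtype = V ∧ (commutator ↥Q).map Q.subtype = V := by
  intro Q P W H
  haveI := Fact.mk Nat.prime_two
  let M : Subgroup G := Subgroup.normalizer (V : Set G)
  have hQn : ∀ m ∈ M, ∀ w ∈ Q, m * w * m⁻¹ ∈ Q := by
    rintro m hm _ ⟨w, hw, rfl⟩
    refine ⟨⟨m, hm⟩ * w * ⟨m, hm⟩⁻¹, ?_, rfl⟩
    haveI := Agent.Cores.pCore_normal_inst (p := 2) ↥M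
    exact Subgroup.Normal.conj_mem inferInstance w hw _
  have h : Hyp V Q :=
    { comm := fun a ha b hb => congrArg Subtype.val (hV.1.is_comm.comm ⟨a, ha⟩ ⟨b, hb⟩)
      sq := fun a ha => by rw [← pow_two]; exact hV.2 a ha
      nontriv := fun e => hg (by rw [e, Subgroup.map_bot])
      ti := fun x w hw hw1 hxw => by
        refine mem_normalizer_of_cj ((hti x).resolve_right fun e => hw1 ?_)
        have : x * w * x⁻¹ ∈ V.map (MulAut.conj x).toMonoidHom ⊓ V := ⟨conj_mem_cj hw, hxw⟩
        rw [e, Subgroup.mem_bot] at this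
        simpa using this
      q_le := Subgroup.map_subtype_le _
      q_conj := hQn
      q_2 := Agent.Cores.pCore_isPGroup.map _
      q_max := fun N hNM hN2 hNn w hw => by
        refine ⟨⟨w, hNM hw⟩, ?_, rfl⟩
        refine Agent.Cores.le_pCore (N := N.subgroupOf M) ?_ (hN2.comap_of_injective _ Subtype.val_injective) hw
        exact ⟨fun n hn m => hNn m m.2 n hn⟩
      cent_q := fun m hm hc => by
        have e : Cfsg.generalizedFittingSubgroup ↥M = Cfsg.pCore 2 ↥M :=
          Subgroup.map_injective M.subtype_injective h1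
        have hmem : (⟨m, hm⟩ : ↥M) ∈ Cfsg.generalizedFittingSubgroup ↥M := by
          refine Agent.Components.centralizer_genFitting_le (Subgroup.mem_centralizer_iff.mpr ?_)
          intro w hw
          rw [e] at hw
          exact Subtype.ext (hc w ⟨w, hw, rfl⟩).symm
        rw [e] at hmem
        exact ⟨⟨m, hm⟩, hmem, rfl⟩
      maximal := h2 }
  have hA : Rad V Q (cj g V) := ⟨⟨g, rfl⟩, hg, hgQ⟩
  obtain ⟨s, hsV, hsA, hsW⟩ := exists_swap h hA
  have hgs : g⁻¹ * s ∈ M := by
    apply mem_normalizer_of_cj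
    rw [← cj_cj, hsV, cj_cj, inv_mul_cancel, cj_one]
  have hconj : ∀ S : Subgroup G, (∀ m ∈ M, ∀ w ∈ S, m * w * m⁻¹ ∈ S) → cj s S = cj g S := by
    intro S hS
    have e : cj (g⁻¹ * s) S = S := by
      refine le_antisymm ?_ fun w hw => ?_
      · rintro _ ⟨w, hw, rfl⟩; exact hS _ hgs w hw
      · rw [mem_cj]
        have := hS _ (M.inv_mem hgs) w hw
        rwa [inv_inv] at this
    rw [show s = g * (g⁻¹ * s) by group, ← cj_cj, e]
  have hsP : cj s (PP V Q) = cj g (PP V Q) := hconj _ fun m hm w hw => h.PP_conj hm hw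
  have hPQ : PP V Q = Q := Q_centralizes h hA
  obtain ⟨a₁, ha₁, ha₁1⟩ := exists_ne_one' h hA
  obtain ⟨B, hB, hn⟩ := exists_partner h hA
  have hQmem : ∀ {w : G}, w ∈ Q → w ∈ PP V Q := fun {w} hw => by rw [hPQ]; exact hw
  have hcomm : (commutator ↥Q).map Q.subtype = V := by
    apply le_antisymm
    · rw [Subgroup.map_le_iff_le_comap, commutator_def, Subgroup.commutator_le]
      intro x _ y _
      exact h.comm_mem (hQmem x.2) (hQmem y.2)
    · intro v hv
      obtain ⟨b, hb, e⟩ := br_surj h hA hB hn ha₁ ha₁1 hv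
      have hbQ : b ∈ Q := hB.le hb
      have haQ : a₁ ∈ Q := hA.le ha₁
      refine ⟨⁅(⟨b, hbQ⟩ : ↥Q), ⟨a₁, haQ⟩⁆, ?_, ?_⟩
      · rw [commutator_def]
        exact Subgroup.commutator_mem_commutator (Subgroup.mem_top _) (Subgroup.mem_top _)
      · exact e
  refine ⟨?_, ?_, ?_, ?_, hPQ, ?_, ?_, hcomm⟩
  · show V ≤ cj g Q
    rw [← hconj Q hQn, ← hsA]
    exact cj_mono s hA.le
  · intro w hw hw1
    obtain ⟨v, hv, a, ha, rfl⟩ := (mem_WW h hA).mp hw
    obtain ⟨U, hU, hwU⟩ : ∃ U, (∃ x, U = cj x V) ∧ v * a ∈ U := by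
      rcases eq_or_ne a 1 with rfl | ha1
      · exact ⟨V, ⟨1, (cj_one V).symm⟩, by rwa [mul_one]⟩
      · obtain ⟨x, hx, e⟩ := translate h hA ha ha1 hv
        exact ⟨cj x (cj g V), ⟨x * g, cj_cj x g V⟩, by rw [← e]; exact conj_mem_cj ha⟩
    refine ⟨U, ⟨hU, member_le h hA hU hwU hw hw1, hwU⟩, ?_⟩
    rintro U' ⟨⟨y, rfl⟩, -, hwU'⟩
    obtain ⟨z, rfl⟩ := hU
    exact h.eq_of_shared hwU' hwU hw1
  · refine sup_le (fun x hx => mem_normalizer_of_cj (cj_WW_of_PP h hA hx)) ?_
    show cj g (PP V Q) ≤ _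
    rw [← hsP]
    rintro _ ⟨x₀, hx₀, rfl⟩
    apply mem_normalizer_of_cj
    show cj (s * x₀ * s⁻¹) (WW V (cj g V)) = WW V (cj g V)
    rw [← cj_cj, cj_inv_eq hsW, ← cj_cj, cj_WW_of_PP h hA hx₀, hsW]
  · intro hN
    have key := exists_field_iso h hA hsV hsA
    rw [hsP] at key
    exact key hN
  · apply le_antisymm
    · rw [Subgroup.map_le_iff_le_comap]
      refine Agent.PGroup.frattini_le_of_commutator_le_of_pow_mem Nat.prime_two ?_ fun x => ?_
      · rw [← Subgroup.map_le_iff_le_comap, hcomm]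
      · show ((x ^ 2 : ↥Q) : G) ∈ V
        rw [SubmonoidClass.coe_pow, pow_two]
        exact h.sq_mem (hQmem x.2)
    · exact hcomm.ge.trans (Subgroup.map_mono (Agent.PGroup.commutator_le_frattini h.q_2))
  · apply le_antisymm
    · rintro _ ⟨z, hz, rfl⟩
      refine h.center_PP_le (hQmem z.2) fun x hx => ?_
      exact congrArg Subtype.val (Subgroup.mem_center_iff.mp hz ⟨x, hPQ.le hx⟩)
    · intro v hv
      refine ⟨⟨v, h.V_le_Q hv⟩, ?_, rfl⟩
      rw [SetLike.mem_coe, Subgroup.mem_center_iff]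
      intro x
      exact Subtype.ext (h.V_central (hQmem x.2) hv).symm

end Cfsg.Agent.S1786
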