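import Cfsg.Statements.S1850
import Cfsg.Agent.Classif.CharTwo

set_option autoImplicit false
open Cfsg

namespace Cfsg.Agent.S1850

/-- Let G be a non-abelian finite simple QTKE-group and T a Sylow 2-subgroup of G. If U is a nontrivial 2-subgroup of G with U ∩ Z(T) ≠ 1, then F*(N_G(U)) = O₂(N_G(U)). -/
theorem result {G : Type*} [Group G] [Finite G] [IsSimpleGroup G]
    (hG : ¬ IsMulCommutative G) (hQ : Cfsg.IsQTKE G) (T : Sylow 2 G) (U : Subgroup G)
    (hU : IsPGroup 2 ↥U) (hZ : U ⊓ ((T : Subgroup G) ⊓ Subgroup.centralizer ((T : Subgroup G) : Set G)) ≠ ⊥) :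
    Subgroup.normalizer (U : Set G) ∈ Cfsg.calHe G := by
  obtain ⟨z, hz, hz1⟩ : ∃ z ∈ U ⊓ ((T : Subgroup G) ⊓ Subgroup.centralizer ((T : Subgroup G) : Set G)), z ≠ 1 := by
    rcases Subgroup.bot_or_exists_ne_one (U ⊓ ((T : Subgroup G) ⊓ Subgroup.centralizer ((T : Subgroup G) : Set G))) with h | h
    · exact absurd h hZ
    · exact h
  have hzp : IsPGroup 2 ↥(Subgroup.zpowers z) := hU.to_le (Subgroup.zpowers_le.mpr hz.1)
  have hzne : Subgroup.zpowers z ≠ ⊥ := fun h => hz1 (Subgroup.zpowers_eq_bot.mp h)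
  have hTM : (T : Subgroup G) ≤ Subgroup.centralizer ({z} : Set G) := by
    intro x hx
    rw [Subgroup.mem_centralizer_singleton_iff]
    exact (Subgroup.mem_centralizer_iff.mp hz.2.2 x hx)
  have hcl : Subgroup.centralizer (Subgroup.zpowers z : Set G) = Subgroup.centralizer ({z} : Set G) := by
    rw [Subgroup.zpowers_eq_closure, Subgroup.centralizer_closure]
  have hle : Subgroup.centralizer (Subgroup.zpowers z : Set G) ≤ Subgroup.normalizer (Subgroup.zpowers z : Set G) :=
    Cfsg.Agent.LocalEven.centralizer_le_normalizer_self _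
  have hM := hQ.2.2 _ ⟨_, hzp, hzne, rfl⟩ ⟨T, hTM.trans (hcl ▸ hle)⟩
  have h2 := Cfsg.Agent.LocalEven.charP_centralizer hM
    ((Subgroup.zpowers z).subgroupOf (Subgroup.normalizer (Subgroup.zpowers z : Set G)))
    (hzp.of_equiv (Subgroup.subgroupOfEquivOfLe Subgroup.le_normalizer).symm)
  have e1 : Subgroup.centralizer (((Subgroup.zpowers z).subgroupOf (Subgroup.normalizer (Subgroup.zpowers z : Set G)) :
        Subgroup ↥(Subgroup.normalizer (Subgroup.zpowers z : Set G))) : Set ↥(Subgroup.normalizer (Subgroup.zpowers z : Set G))) =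
      (Subgroup.centralizer ({z} : Set G)).subgroupOf (Subgroup.normalizer (Subgroup.zpowers z : Set G)) := by
    rw [← hcl]
    ext x
    rw [Subgroup.mem_subgroupOf, Subgroup.mem_centralizer_iff, Subgroup.mem_centralizer_iff]
    constructor
    · intro h b hb
      exact congrArg Subtype.val (h ⟨b, Subgroup.le_normalizer hb⟩ hb)
    · intro h b hb
      exact Subtype.ext (h b hb)
  rw [e1] at h2
  have hC : Cfsg.Agent.Classif.HasCharP 2 ↥(Subgroup.centralizer ({z} : Set G)) :=
    Cfsg.Agent.LocalEven.charP_congr (Subgroup.subgroupOfEquivOfLe (hcl ▸ hle)) h2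
  exact Cfsg.Agent.Components.genFitting_eq_pCore_of_centralizer_le
    (Cfsg.Agent.Classif.hasCharP_normalizer_of_mem (p := 2) hU hz.1 hC)

end Cfsg.Agent.S1850
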