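import Cfsg.Statements.S1851
import Cfsg.Agent.ClassicalMax.ThompsonWielandt
import Cfsg.Agent.LocalP.Norm
import Cfsg.Agent.CharTwo.Constrained
import Cfsg.Agent.OddLocal.NormedConstrainedB

set_option autoImplicit false
open Cfsg

namespace Cfsg.Agent.S1851

open Subgroup
open scoped commutatorElement
open Cfsg.Agent.ClassicalMax (coreIn coreIn_le coreIn_isPGroup le_coreIn le_normalizer_coreIn coreIn_subgroupOf opRes)

variable {G : Type*} [Group G] [Finite G]

/-- A perfect subgroup is generated by its elements of odd order. -/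
theorem oddGenerated_of_perfect {K : Subgroup G} (hK : ⁅K, K⁆ = K) : oddGenerated K = K := by
  refine le_antisymm ((closure_le _).2 fun x hx => hx.1) ?_
  set N := (oddGenerated K).subgroupOf K with hN
  haveI hNn : N.Normal := by
    refine (normal_subgroupOf_iff_le_normalizer ((closure_le _).2 fun x hx => hx.1)).2 ?_
    intro g hg
    refine ClassicalMax.mem_normalizer_of_map_conj_le ?_
    rw [MonoidHom.map_closure, closure_le]
    rintro _ ⟨x, ⟨hx, hxo⟩, rfl⟩
    refine subset_closure ⟨K.mul_mem (K.mul_mem hg hx) (K.inv_mem hg), ?_⟩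
    rwa [show orderOf ((MulAut.conj g).toMonoidHom x) = orderOf x from
      orderOf_injective _ (MulAut.conj g).injective x]
  have hp : IsPGroup 2 (K ⧸ N) := by
    intro q
    induction q using QuotientGroup.induction_on with
    | _ x =>
      obtain ⟨e, m, hm, hx⟩ := Nat.exists_eq_pow_mul_and_not_dvd (orderOf_pos x).ne' 2 (by norm_num)
      refine ⟨e, ?_⟩
      rw [← QuotientGroup.mk_pow, QuotientGroup.eq_one_iff]
      refine subset_closure ⟨(x ^ 2 ^ e).2, ?_⟩
      rw [orderOf_injective K.subtype K.subtype_injective, orderOf_pow' _ (by positivity), hx,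
        Nat.gcd_eq_right (dvd_mul_right _ _), Nat.mul_div_cancel_left _ (by positivity)]
      rw [← Nat.not_even_iff_odd, even_iff_two_dvd]; exact hm
  haveI := hp.isNilpotent
  have hperf : commutator (K ⧸ N) = ⊤ := by
    have h1 : (commutator K).map K.subtype = K := by rw [map_subtype_commutator, hK]
    have h2 : commutator K = ⊤ := by
      refine map_injective K.subtype_injective ?_
      rw [h1, ← MonoidHom.range_eq_map, range_subtype]
    rw [_root_.commutator_def, ← map_top_of_surjective (QuotientGroup.mk' N) (QuotientGroup.mk'_surjective N),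
      ← map_commutator, ← _root_.commutator_def, h2]
  have hsub : Subsingleton (K ⧸ N) := by
    by_contra h
    rw [not_subsingleton_iff_nontrivial] at h
    exact (Group.IsSolvable.commutator_lt_top_of_nontrivial (K ⧸ N)).ne hperf
  intro x hx
  have := (QuotientGroup.eq_one_iff (N := N) ⟨x, hx⟩).1 (Subsingleton.elim _ _)
  exact this

/-- The data attached to a member of `ℒ(G, T)`. -/
theorem calL_data (hE : Cfsg.IsOfEvenCharacteristic G) (T : Sylow 2 G) {K : Subgroup G}
    (hK : K ∈ Cfsg.calL (T : Subgroup G)) :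
    K ≠ ⊥ ∧ oddGenerated K = K ∧ K ∈ calHe G ∧
      (K.subgroupOf (K ⊔ (T : Subgroup G))).IsSubnormal ∧
      coreIn 2 (K ⊔ (T : Subgroup G)) ≤ (T : Subgroup G) ∧
      (∀ g ∈ K ⊔ (T : Subgroup G), g ∈ centralizer (coreIn 2 (K ⊔ (T : Subgroup G)) : Set G) →
        g ∈ coreIn 2 (K ⊔ (T : Subgroup G))) ∧
      coreIn 2 (K ⊔ (T : Subgroup G)) ≤ normalizer (K : Set G) ∧
      K ⊓ coreIn 2 (K ⊔ (T : Subgroup G)) = coreIn 2 K := by
  have : Fact (Nat.Prime 2) := ⟨Nat.prime_two⟩
  obtain ⟨⟨hne, hperf, hsn, -⟩, -, hO⟩ := hK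
  set H := K ⊔ (T : Subgroup G) with hH
  set R := coreIn 2 H with hR
  have hKH : K ≤ H := le_sup_left
  have hTH : (T : Subgroup G) ≤ H := le_sup_right
  have hKperf : ⁅K, K⁆ = K := by
    have := congrArg (Subgroup.map H.subtype) hperf
    rwa [map_commutator, map_subgroupOf_eq_of_le hKH] at this
  have hodd := oddGenerated_of_perfect hKperf
  have hRT : R ≤ (T : Subgroup G) := by
    have h1 : pCore 2 H ≤ (T.subtype hTH : Subgroup H) := by
      rw [Cores.pCore_eq_iInf_sylow]; exact iInf_le _ _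
    rintro _ ⟨r, hr, rfl⟩
    exact h1 hr
  have hRne : R ≠ ⊥ := fun h => hO (by
    rw [← coreIn_subgroupOf 2 H]
    rw [hR] at h
    rw [h, bot_subgroupOf])
  set M := normalizer (R : Set G) with hM
  have hHM : H ≤ M := le_normalizer_coreIn 2 H
  have hMchar := hE M ⟨R, coreIn_isPGroup H, hRne, rfl⟩ ⟨T, hTH.trans hHM⟩
  set OM := coreIn 2 M with hOM
  have hOMT : OM ≤ (T : Subgroup G) := by
    have h1 : pCore 2 M ≤ (T.subtype (hTH.trans hHM) : Subgroup M) := by
      rw [Cores.pCore_eq_iInf_sylow]; exact iInf_le _ _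
    rintro _ ⟨r, hr, rfl⟩
    exact h1 hr
  have hOMR : OM ≤ R := le_coreIn (hOMT.trans hTH)
    (((normal_subgroupOf_iff_le_normalizer (hOMT.trans hTH)).2
      (hHM.trans (le_normalizer_coreIn 2 M))).isSubnormal) (coreIn_isPGroup M)
  have hself : ∀ g ∈ H, g ∈ centralizer (R : Set G) → g ∈ R := by
    intro g hg hgc
    refine hOMR ⟨⟨g, hHM hg⟩, hMchar ?_, rfl⟩
    refine mem_centralizer_iff.2 fun y hy => Subtype.ext ?_
    exact mem_centralizer_iff.1 hgc (y : G) (hOMR ⟨y, hy, rfl⟩)
  have hHc : centralizer (pCore 2 H : Set H) ≤ pCore 2 H := by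
    intro h hh
    have h1 : (h : G) ∈ centralizer (R : Set G) := by
      refine mem_centralizer_iff.2 ?_
      rintro _ ⟨r, hr, rfl⟩
      exact congrArg Subtype.val (mem_centralizer_iff.1 hh r hr)
    obtain ⟨r, hr, hre⟩ := hself h h.2 h1
    exact (Subtype.ext hre : r = h) ▸ hr
  have hKc : centralizer (pCore 2 K : Set K) ≤ pCore 2 K :=
    LocalP.charP_congr (subgroupOfEquivOfLe hKH) (LocalP.charP_of_subnormal hsn hHc)
  have hne' : K ≠ ⊥ := fun h => hne (by rw [h, bot_subgroupOf])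
  have hop : opRes 2 K = K := by
    conv_rhs => rw [← hodd]
    unfold ClassicalMax.opRes oddGenerated
    congr 1
    ext x
    simp only [Set.mem_ofPred_eq]
    rw [← Nat.not_even_iff_odd, even_iff_two_dvd]
  have hnorm : R ≤ normalizer (K : Set G) := by
    have := ClassicalMax.pGroup_normalizes_opRes (p := 2) hKH (coreIn_le 2 H) hsn
      (by rw [coreIn_subgroupOf]; infer_instance) (coreIn_isPGroup H)
    rwa [hop] at this
  refine ⟨hne', hodd, Components.genFitting_eq_pCore_of_centralizer_le hKc, hsn, hRT, hself, hnorm, ?_⟩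
  refine le_antisymm ?_ (le_inf (coreIn_le 2 K) ?_)
  · refine le_coreIn inf_le_left (Subgroup.Normal.isSubnormal
      ((normal_subgroupOf_iff_le_normalizer inf_le_left).2 ?_)) ((coreIn_isPGroup H).to_le inf_le_right)
    exact Signalizer.le_normalizer_inf le_normalizer (hKH.trans (le_normalizer_coreIn 2 H))
  · refine le_coreIn ((coreIn_le 2 K).trans hKH) ?_ (coreIn_isPGroup K)
    refine Subgroup.IsSubnormal.step _ (K.subgroupOf H) (subgroupOf_mono' (coreIn_le 2 K)) hsn ?_
    refine (normal_subgroupOf_iff_le_normalizer (subgroupOf_mono' (coreIn_le 2 K))).2 ?_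
    intro k hk
    rw [← subgroupOf_normalizer_eq ((coreIn_le 2 K).trans hKH)]
    exact le_normalizer_coreIn 2 K hk
where
  subgroupOf_mono' {H X Y : Subgroup G} (h : X ≤ Y) : X.subgroupOf H ≤ Y.subgroupOf H :=
    fun _ hx => h hx

/-- Let G be a non-abelian finite simple QTKE-group; upward closure and maximality in `ℒ_f`. -/
theorem result {G : Type*} [Group G] [Finite G] [IsSimpleGroup G]
    (hG : ¬ IsMulCommutative G) (hQ : Cfsg.IsQTKE G) (T : Sylow 2 G) (L : Subgroup G)
    (hL : L ∈ Cfsg.calLf (T : Subgroup G)) :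
    (∀ K ∈ Cfsg.calL (T : Subgroup G), L ≤ K → K ∈ Cfsg.calLf (T : Subgroup G)) ∧
    ((∀ K ∈ Cfsg.calLf (T : Subgroup G), L ≤ K → K = L) → L ∈ Cfsg.calLfMax (T : Subgroup G)) := by
  have : Fact (Nat.Prime 2) := ⟨Nat.prime_two⟩
  suffices main : ∀ K ∈ Cfsg.calL (T : Subgroup G), L ≤ K → K ∈ Cfsg.calLf (T : Subgroup G) from
    ⟨main, fun hmax => ⟨⟨hL.1, fun K hK hLK => hmax K (main K hK hLK) hLK⟩, hL.2⟩⟩
  intro K hK hLK
  obtain ⟨hLcalL, -, hLV⟩ := hL
  obtain ⟨-, hLodd, -, -, hRLT, hLself, hLnorm, hLcore⟩ := calL_data hQ.2.2 T hLcalL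
  obtain ⟨hKne, hKodd, hKHe, -, hRKT, hKself, hKnorm, hKcore⟩ := calL_data hQ.2.2 T hK
  refine ⟨hK, ⟨hKne, hKodd, hKHe⟩, ?_⟩
  set HL := L ⊔ (T : Subgroup G) with hHL
  set HK := K ⊔ (T : Subgroup G) with hHK
  set RL := coreIn 2 HL with hRL
  set RK := coreIn 2 HK with hRK
  set OL := coreIn 2 L with hOL
  set OK := coreIn 2 K with hOK
  have hpow2 : ∀ {a b : G}, a ^ 2 = 1 → b ^ 2 = 1 → Commute a b → (a * b⁻¹) ^ 2 = 1 := by
    intro a b ha hb hab
    rw [hab.inv_right.mul_pow, ha, inv_pow, hb, inv_one, one_mul]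
  -- an involution in `Z(O_2(LT))` moved by an element of odd order of `L`
  obtain ⟨w, hw2, hwR, hwc, x, hxL, hxo, hxw⟩ : ∃ w : G, w ^ 2 = 1 ∧ w ∈ RL ∧
      w ∈ centralizer (RL : Set G) ∧ ∃ x ∈ L, Odd (orderOf x) ∧ ¬ Commute x w := by
    by_contra hcon
    push Not at hcon
    apply hLV
    have hZ0 : ∀ z, z ∈ OL ⊓ centralizer (OL : Set G) → z ^ 2 = 1 →
        ∀ x ∈ L, Odd (orderOf x) → Commute x z := by
      intro z₁ hz₁ hz₁2 x hxL hxo
      by_contra hne
      let Z : Subgroup G :=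
        { carrier := {z | z ∈ OL ⊓ centralizer (OL : Set G) ∧ z ^ 2 = 1}
          one_mem' := ⟨one_mem _, one_pow 2⟩
          mul_mem' := fun {a b} ha hb => ⟨mul_mem ha.1 hb.1, by
            rw [(show Commute a b from mem_centralizer_iff.1 hb.1.2 a ha.1.1).mul_pow, ha.2, hb.2,
              one_mul]⟩
          inv_mem' := fun {a} ha => ⟨inv_mem ha.1, by rw [inv_pow, ha.2, inv_one]⟩ }
      let F : Subgroup G := Z ⊓ centralizer ({x} : Set G)
      have hOLR : OL ≤ RL := hLcore ▸ inf_le_right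
      have hZR : Z ≤ RL := fun z hz => hOLR hz.1.1
      have hRZ : RL ≤ normalizer (Z : Set G) := by
        rw [le_normalizer_iff]
        intro r hr z hz
        have hn : r ∈ normalizer (OL : Set G) := by
          rw [← hLcore]
          exact Signalizer.le_normalizer_inf hLnorm le_normalizer hr
        refine ⟨⟨(mem_normalizer_iff.1 hn z).1 hz.1.1, mem_centralizer_iff.2 fun y hy => ?_⟩, ?_⟩
        · have h1 : r⁻¹ * y * r ∈ OL := by
            have := (mem_normalizer_iff.1 (inv_mem hn) y).1 hy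
            rwa [inv_inv] at this
          have h2 := mem_centralizer_iff.1 hz.1.2 _ h1
          calc y * (r * z * r⁻¹) = r * (r⁻¹ * y * r * z) * r⁻¹ := by group
            _ = r * (z * (r⁻¹ * y * r)) * r⁻¹ := by rw [h2]
            _ = r * z * r⁻¹ * y := by group
        · rw [conj_pow, hz.2, mul_one, mul_inv_cancel]
      obtain ⟨b, hbZ, hbF, hbc⟩ := OddLocal.exists_central_mod (P := RL) (Ω := Z) (Z₀ := F)
        (coreIn_isPGroup HL) hZR hRZ fun hle => hne
          (mem_centralizer_singleton_iff.1 (hle ⟨hz₁, hz₁2⟩).2).symm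
      apply hbF
      refine ⟨hbZ, mem_centralizer_singleton_iff.2 ?_⟩
      set d := x * b * x⁻¹ * b⁻¹ with hd
      have hxn : x ∈ normalizer (OL : Set G) := le_normalizer_coreIn 2 L hxL
      have hxbZ : x * b * x⁻¹ ∈ Z := by
        refine ⟨⟨(mem_normalizer_iff.1 hxn b).1 hbZ.1.1, mem_centralizer_iff.2 fun y hy => ?_⟩, ?_⟩
        · have h1 : x⁻¹ * y * x ∈ OL := by
            have := (mem_normalizer_iff.1 (inv_mem hxn) y).1 hy
            rwa [inv_inv] at this
          have h2 := mem_centralizer_iff.1 hbZ.1.2 _ h1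
          calc y * (x * b * x⁻¹) = x * (x⁻¹ * y * x * b) * x⁻¹ := by group
            _ = x * (b * (x⁻¹ * y * x)) * x⁻¹ := by rw [h2]
            _ = x * b * x⁻¹ * y := by group
        · rw [conj_pow, hbZ.2, mul_one, mul_inv_cancel]
      have hdZ : d ∈ Z := mul_mem hxbZ (inv_mem hbZ)
      have hZcomm : ∀ a ∈ Z, ∀ c ∈ Z, a * c = c * a := fun a ha c hc =>
        mem_centralizer_iff.1 hc.1.2 a ha.1.1
      have hdc : d ∈ centralizer (RL : Set G) := by
        refine mem_centralizer_iff.2 fun y hy => ?_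
        set f := ⁅y, b⁆ with hf
        obtain ⟨hfZ, hfx⟩ := hbc y hy
        set o := x⁻¹ * (y * x * y⁻¹) with ho
        have hoOL : o ∈ OL := by
          rw [← hLcore]
          refine ⟨L.mul_mem (L.inv_mem hxL) ((mem_normalizer_iff.1 (hLnorm hy) x).1 hxL), ?_⟩
          have := (mem_normalizer_iff.1 (inv_mem (le_normalizer_coreIn 2 HL (le_sup_left (b := (T : Subgroup G)) hxL))) y).1 hy
          rw [inv_inv] at this
          have h := RL.mul_mem this (RL.inv_mem hy)
          rw [ho]; simpa [mul_assoc] using h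
        have hyx : y * x * y⁻¹ = x * o := by rw [ho]; group
        have hyb : y * b * y⁻¹ = f * b := by rw [hf, commutatorElement_def]; group
        have hofb : o * (f * b) * o⁻¹ = f * b := by
          rw [mem_centralizer_iff.1 (mul_mem hfZ.1.2 hbZ.1.2) o hoOL, mul_inv_cancel_right]
        have hxf : x * f * x⁻¹ = f := by
          rw [(mem_centralizer_singleton_iff.1 hfx).symm, mul_inv_cancel_right]
        have key : y * d * y⁻¹ = d := by
          calc y * d * y⁻¹ = (y * x * y⁻¹) * (y * b * y⁻¹) * (y * x * y⁻¹)⁻¹ * (y * b * y⁻¹)⁻¹ := by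
                rw [hd]; group
            _ = x * (o * (f * b) * o⁻¹) * x⁻¹ * (f * b)⁻¹ := by rw [hyx, hyb]; group
            _ = (x * f * x⁻¹) * (x * b * x⁻¹) * b⁻¹ * f⁻¹ := by rw [hofb]; group
            _ = f * d * f⁻¹ := by rw [hxf, hd]; group
            _ = d := by rw [hZcomm f hfZ d hdZ, mul_inv_cancel_right]
        calc y * d = y * d * y⁻¹ * y := by group
          _ = d * y := by rw [key]
      have hxd : Commute x d := hcon d hdZ.2 (hZR hdZ) hdc x hxL hxo
      exact (CharTwo.commute_of_conj_eq_mul (p := 2) ⟨1, by rw [pow_one]; exact hdZ.2⟩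
        (Nat.coprime_two_right.2 hxo) hxd (show x * b * x⁻¹ = d * b by rw [hd]; group)).eq.symm
    show ⁅omegaOne 2 (pCoreTwoOf L ⊓ centralizer (pCoreTwoOf L : Set G)), L⁆ = ⊥
    rw [commutator_eq_bot_iff_le_centralizer, omegaOne, closure_le]
    rintro z ⟨hz, hz2⟩
    have hle : L ≤ centralizer ({z} : Set G) := by
      conv_lhs => rw [← hLodd]
      rw [oddGenerated, closure_le]
      rintro y ⟨hy, hyo⟩
      exact mem_centralizer_singleton_iff.2 (hZ0 z hz hz2 y hy hyo).eq
    exact mem_centralizer_iff.2 fun y hy => mem_centralizer_singleton_iff.1 (hle hy)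
  -- transfer to `K`
  intro hKV
  have hLH : HL ≤ HK := sup_le (hLK.trans le_sup_left) le_sup_right
  have hRKL : RK ≤ RL := le_coreIn (hRKT.trans le_sup_right)
    (((normal_subgroupOf_iff_le_normalizer (hRKT.trans le_sup_right)).2
      (hLH.trans (le_normalizer_coreIn 2 HK))).isSubnormal) (coreIn_isPGroup HK)
  have hwcK : w ∈ centralizer (RK : Set G) := centralizer_le (SetLike.coe_subset_coe.2 hRKL) hwc
  have hwRK : w ∈ RK := hKself w ((hRLT.trans le_sup_right) hwR) hwcK
  have hxK : x ∈ K := hLK hxL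
  have hxn : x ∈ normalizer (RK : Set G) := le_normalizer_coreIn 2 HK (le_sup_left (b := (T : Subgroup G)) hxK)
  set d := x * w * x⁻¹ * w⁻¹ with hd
  have hxwc : x * w * x⁻¹ ∈ centralizer (RK : Set G) :=
    (mem_normalizer_iff.1 (ClassicalMax.normalizer_le_normalizer_centralizer' RK hxn) w).1 hwcK
  have hdOK : d ∈ OK := by
    rw [← hKcore]
    refine ⟨?_, RK.mul_mem ((mem_normalizer_iff.1 hxn w).1 hwRK) (RK.inv_mem hwRK)⟩
    have h1 := (mem_normalizer_iff.1 (hKnorm hwRK) x⁻¹).1 (K.inv_mem hxK)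
    have := K.mul_mem hxK h1
    rw [hd]
    simpa [mul_assoc] using this
  have hdc : d ∈ centralizer (OK : Set G) :=
    centralizer_le (SetLike.coe_subset_coe.2 (hKcore ▸ inf_le_right)) (mul_mem hxwc (inv_mem hwcK))
  have hd2 : d ^ 2 = 1 := by
    refine hpow2 (by rw [conj_pow, hw2, mul_one, mul_inv_cancel]) hw2 ?_
    exact mem_centralizer_iff.1 hwcK _ ((mem_normalizer_iff.1 hxn w).1 hwRK)
  have hxd : Commute x d := by
    have h0 : ⁅omegaOne 2 (pCoreTwoOf K ⊓ centralizer (pCoreTwoOf K : Set G)), K⁆ = ⊥ := hKV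
    rw [commutator_eq_bot_iff_le_centralizer] at h0
    exact (mem_centralizer_iff.1 (h0 (subset_closure ⟨⟨hdOK, hdc⟩, hd2⟩)) x hxK)
  exact hxw (CharTwo.commute_of_conj_eq_mul (p := 2) ⟨1, by rw [pow_one]; exact hd2⟩
    (Nat.coprime_two_right.2 hxo) hxd (show x * w * x⁻¹ = d * w by rw [hd]; group))

end Cfsg.Agent.S1851
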