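import Cfsg.Statements.S1958
import Cfsg.Agent.CharTwo.Constrained
import Cfsg.Agent.PSolv.HallHigman
import Cfsg.Agent.PSolv.Basic
-- import your own Cfsg.Agent.* helpers here

set_option autoImplicit false
open Cfsg

namespace Cfsg.Agent.S1958

/-- Let `G` be a finite group, `p` a prime, and `x, y` commuting elements of order `p` whose centralizers `C_G(x)` and `C_G(y)` are both solvable. Then `O_{p'}(C_G(x)) ∩ C_G(y) = O_{p'}(C_G(y)) ∩ C_G(x)` (balance). -/
theorem result {G : Type*} [Group G] [Finite G]
    (p : ℕ) [Fact p.Prime] (x y : G) (hx : orderOf x = p) (hy : orderOf y = p) (hxy : x * y = y * x)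
    (hCx : Group.IsSolvable ↥(Subgroup.centralizer ({x} : Set G))) (hCy : Group.IsSolvable ↥(Subgroup.centralizer ({y} : Set G))) :
    Cfsg.centralizerPPrimeCore p x ⊓ Subgroup.centralizer {y} = Cfsg.centralizerPPrimeCore p y ⊓ Subgroup.centralizer {x} := by
  have key : ∀ (H : Type _) [Group H] [Finite H], Group.IsSolvable H → ∀ (h : H), IsPGroup p (Subgroup.zpowers h) →
      ∀ X : Subgroup H, X ≤ Subgroup.centralizer ({h} : Set H) →
      Subgroup.centralizer ({h} : Set H) ≤ Subgroup.normalizer (X : Set H) →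
      (Nat.card X).Coprime p → X ≤ Cfsg.pPrimeCore p H := by
    intro H _ _ hH h hh X hXC hn hX
    have hcon := (CharTwo.isPConstrained_iff (p := p) (G := H)).mp
      (PSolv.isPConstrained_of_isPSolvable (PSolv.isPSolvable_of_isSolvable hH))
    set π := QuotientGroup.mk' (Cfsg.pPrimeCore p H) with hπ
    have hA : IsPGroup p (Subgroup.zpowers (π h)) := by
      rw [← MonoidHom.map_zpowers]; exact hh.map π
    have hcz : Subgroup.centralizer ((Subgroup.zpowers (π h) : Subgroup (H ⧸ Cfsg.pPrimeCore p H)) : Set (H ⧸ Cfsg.pPrimeCore p H))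
        = (Subgroup.centralizer ({h} : Set H)).map π := by
      rw [CharTwo.centralizer_zpowers, hπ, CharTwo.map_centralizer_mk Cores.pPrimeCore_coprime hh]
    have hW : X.map π = ⊥ := hcon.eq_bot_of_centralizes hA
      (hX.coprime_dvd_left (Subgroup.card_map_dvd X π)) (by rw [hcz]; exact Subgroup.map_mono hXC) (by
        rw [hcz]
        exact inf_le_left.trans ((Subgroup.map_mono hn).trans (Subgroup.le_normalizer_map _)))
    rw [Subgroup.map_eq_bot_iff, hπ, QuotientGroup.ker_mk'] at hW
    exact hW
  have half : ∀ a b : G, orderOf a = p → a * b = b * a → Group.IsSolvable ↥(Subgroup.centralizer ({b} : Set G)) →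
      Cfsg.centralizerPPrimeCore p a ⊓ Subgroup.centralizer {b} ≤
        Cfsg.centralizerPPrimeCore p b ⊓ Subgroup.centralizer {a} := by
    intro a b ha hab hCb
    set Cb := Subgroup.centralizer ({b} : Set G) with hCbdef
    set Ca := Subgroup.centralizer ({a} : Set G) with hCadef
    have hOa : Cfsg.centralizerPPrimeCore p a ≤ Ca := Subgroup.map_subtype_le _
    have hOn : Ca ≤ Subgroup.normalizer (Cfsg.centralizerPPrimeCore p a : Set G) := by
      have h1 := Subgroup.le_normalizer_map (H := Cfsg.pPrimeCore p Ca) Ca.subtype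
      rwa [Subgroup.normalizer_eq_top (H := Cfsg.pPrimeCore p Ca), ← MonoidHom.range_eq_map, Subgroup.range_subtype] at h1
    refine le_inf ?_ (inf_le_left.trans hOa)
    have haCb : a ∈ Cb := Subgroup.mem_centralizer_singleton_iff.mpr hab
    set X := (Cfsg.centralizerPPrimeCore p a).subgroupOf Cb with hX
    have hcen : ∀ c : Cb, c ∈ Subgroup.centralizer ({(⟨a, haCb⟩ : Cb)} : Set Cb) ↔ (c : G) ∈ Ca := fun c => by
      rw [Subgroup.mem_centralizer_singleton_iff, hCadef, Subgroup.mem_centralizer_singleton_iff]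
      exact ⟨congrArg Subtype.val, fun h => Subtype.ext h⟩
    have hle : X ≤ Cfsg.pPrimeCore p Cb := by
      refine key Cb hCb ⟨a, haCb⟩ ?_ X (fun c hc => (hcen c).mpr (hOa hc)) (fun c hc => ?_) ?_
      · exact IsPGroup.of_card (n := 1) (by rw [Nat.card_zpowers, ← Subgroup.orderOf_coe, ha, pow_one])
      · rw [Subgroup.mem_normalizer_iff]
        intro x
        exact Subgroup.mem_normalizer_iff.mp (hOn ((hcen c).mp hc)) (x : G)
      · have hc : (Nat.card (Cfsg.centralizerPPrimeCore p a)).Coprime p := by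
          rw [Cfsg.centralizerPPrimeCore, Subgroup.card_map_of_injective Ca.subtype_injective]
          exact Cores.pPrimeCore_coprime
        refine hc.coprime_dvd_left ?_
        rw [← Subgroup.card_map_of_injective Cb.subtype_injective]
        exact Subgroup.card_dvd_of_le (by rintro _ ⟨x, hx, rfl⟩; exact hx)
    intro z hz
    exact ⟨⟨z, hz.2⟩, hle (show (⟨z, hz.2⟩ : Cb) ∈ X from hz.1), rfl⟩
  exact le_antisymm (half x y hx hxy hCy) (half y x hy hxy.symm hCx)

end Cfsg.Agent.S1958
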