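import Cfsg.Statements.S1961
import Cfsg.Agent.Tech.FunctorControl
-- import your own Cfsg.Agent.* helpers here

set_option autoImplicit false
open Cfsg

namespace Cfsg.Agent.S1961

/-- Local-to-global control of strong fusion through well-placed subgroups. Let p be a prime, G a finite group with Sylow p-subgroup S, and W a conjugacy functor for p on G. If W controls strong fusion in N_G(T) for every nonidentity subgroup T of S that is well placed in S with respect to W, then W controls strong fusion in G. -/
theorem result {G : Type*} [Group G] [Finite G] {p : ℕ} [Fact p.Prime] (S : Sylow p G) (W : Subgroup G → Subgroup G) (hW : Cfsg.IsConjugacyFunctor p W) (hloc : ∀ T : Subgroup G, T ≠ ⊥ → Cfsg.IsWellPlaced p W (S : Subgroup G) T → Cfsg.ControlsStrongFusionIn p W (Subgroup.normalizer ((T : Subgroup G) : Set G))) : Cfsg.ControlsStrongFusionIn p W ⊤ := by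
  have hsingle : ∀ H : Subgroup G, Cfsg.ControlsStrongFusionIn p W H →
      Cfsg.FamilyControlsStrongFusionIn p {W} H := by
    rintro H ⟨T, hT, hTp, hTi, hc⟩
    refine ⟨T, hT, hTp, hTi, fun A h hh hA hhA => ?_⟩
    obtain ⟨x, hx, hxa⟩ := hc A h hh hA hhA
    refine ⟨1, ![1, x], rfl, fun i => ⟨W, rfl, ?_⟩, fun i => ?_, hxa⟩
    · fin_cases i
      simpa using hx
    · fin_cases i
      · simpa using hA
      · rintro _ ⟨a, ha, rfl⟩
        exact hhA ⟨a, ha, (hxa a ha).symm⟩
  have hwp : ∀ U : Subgroup G, U ≤ (S : Subgroup G) → Tech.nor (S : Subgroup G) U = S →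
      Cfsg.IsWellPlaced p W (S : Subgroup G) U := by
    intro U hU hn
    obtain ⟨hW1, hW2, -⟩ := hW (S : Subgroup G) S.2
    have hWn : Tech.nor (S : Subgroup G) (W (S : Subgroup G)) = S :=
      inf_eq_left.mpr (Subgroup.le_normalizer.trans (Tech.le_normalizer_functor hW S.2))
    have h1 : ∀ i, Cfsg.functorTower W (S : Subgroup G) (W (S : Subgroup G)) i = W (S : Subgroup G) := by
      intro i
      induction i with
      | zero => rfl
      | succ i ih =>
        show W (_ ⊓ Subgroup.normalizer ((Cfsg.functorTower W _ _ i : Subgroup G) : Set G)) = _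
        rw [ih]
        exact congrArg W hWn
    refine ⟨hU, fun i hd => S.not_dvd_index ?_⟩
    have hall : Tech.nor (S : Subgroup G) (Cfsg.functorTower W (S : Subgroup G) U i) = S := by
      cases i with
      | zero => exact hn
      | succ i => rw [Tech.functorTower_shift, hn, h1]; exact hWn
    rw [show (S : Subgroup G) ⊓ Subgroup.normalizer
      ((Cfsg.functorTower W (S : Subgroup G) U i : Subgroup G) : Set G) = S from hall] at hd
    exact hd.trans (Subgroup.relIndex_dvd_index_of_le (inf_eq_left.mp hall))
  refine ⟨S, le_top, S.2, by rw [Subgroup.relIndex_top_right]; exact S.not_dvd_index,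
    fun A h _ hA hhA => ?_⟩
  obtain ⟨hAS, g', hg', hag⟩ := Tech.fusRel_global S {W} (by rintro _ rfl; exact hW)
    (fun U => Cfsg.IsWellPlaced p W (S : Subgroup G) U)
    (fun U hU hU1 => Tech.exists_wellPlaced S hW hU hU1) (fun U hG => hG.2 0)
    (fun U hU _ hn => hwp U hU hn) (fun U _ hU1 hG => hsingle _ (hloc U hU1 hG)) A h hA hhA
  refine ⟨g', ⟨Subgroup.mem_top _, ?_⟩, fun a ha => hag a (Subgroup.subset_closure ha)⟩
  clear hag hAS
  induction hg' with
  | one => exact one_mem _
  | step g'' y _ hy _ ih =>
    obtain ⟨W', rfl, hy⟩ := hy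
    exact mul_mem hy ih

end Cfsg.Agent.S1961
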