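import Cfsg.Statements.S1968
import Cfsg.Agent.CF.WeakClosure

set_option autoImplicit false
open Cfsg

namespace Cfsg.Agent.S1968

/-- Let p be a prime, G a finite group with Sylow p-subgroup S and W a conjugacy functor for p on G with Z(P) ≤ W(P) for every p-subgroup P. Let A be a subgroup of Z(S) normalized by N_G(W(S)) that is not weakly closed in S with respect to G. Then there is a subgroup T of S, well placed in S with respect to W, such that: A ≤ T; N_G(W(N_S(T))) normalizes A; N_S(T) is a Sylow p-subgroup of N_G(T); A ≤ Z(N_S(T)); and A is not weakly closed in N_S(T) with respect to N_G(T), that is, some N_G(T)-conjugate of A other than A lies in N_S(T). -/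
theorem result {G : Type*} [Group G] [Finite G] {p : ℕ} [Fact p.Prime] (S : Sylow p G) (W : Subgroup G → Subgroup G) (hW : Cfsg.IsConjugacyFunctor p W) (hWZ : ∀ P : Subgroup G, IsPGroup p ↥P → P ⊓ Subgroup.centralizer (P : Set G) ≤ W P) (A : Subgroup G) (hAZ : A ≤ (S : Subgroup G) ⊓ Subgroup.centralizer ((S : Subgroup G) : Set G)) (hAN : Subgroup.normalizer ((W (S : Subgroup G) : Subgroup G) : Set G) ≤ Subgroup.normalizer ((A : Subgroup G) : Set G)) (hnwc : ¬ Cfsg.IsWeaklyClosed A (S : Subgroup G)) : ∃ T : Subgroup G, Cfsg.IsWellPlaced p W (S : Subgroup G) T ∧ A ≤ T ∧ Subgroup.normalizer ((W ((S : Subgroup G) ⊓ Subgroup.normalizer ((T : Subgroup G) : Set G)) : Subgroup G) : Set G) ≤ Subgroup.normalizer ((A : Subgroup G) : Set G) ∧ ¬ p ∣ ((S : Subgroup G) ⊓ Subgroup.normalizer ((T : Subgroup G) : Set G)).relIndex (Subgroup.normalizer ((T : Subgroup G) : Set G)) ∧ A ≤ Subgroup.centralizer (((S : Subgroup G) ⊓ Subgroup.normalizer ((T : Subgroup G) : Set G) :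 Subgroup G) : Set G) ∧ ∃ g ∈ Subgroup.normalizer ((T : Subgroup G) : Set G), A.map (MulAut.conj g).toMonoidHom ≤ (S : Subgroup G) ⊓ Subgroup.normalizer ((T : Subgroup G) : Set G) ∧ A.map (MulAut.conj g).toMonoidHom ≠ A := by
  obtain ⟨g, hg, hne⟩ : ∃ g : G, A.map (MulAut.conj g).toMonoidHom ≤ (S : Subgroup G) ∧
      A.map (MulAut.conj g).toMonoidHom ≠ A := by
    by_contra h
    push Not at h
    exact hnwc ⟨hAZ.trans inf_le_left, h⟩
  obtain ⟨T, hwp, hAT, hTN, n, hn, hnA⟩ := Cfsg.Agent.CF.exists_wellPlaced_mover_top hW hWZ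
    (A := A) (M := Subgroup.normalizer (A : Set G))
    (fun c hc => Cfsg.Agent.CF.mem_Nz.mpr ((Cfsg.Agent.CF.cj_congr (g' := 1) fun d hd => by
      rw [← Subgroup.mem_centralizer_iff.mp hc d hd]; group).trans (Cfsg.Agent.Fusion.cj_one A)))
    le_rfl hAZ hAN hg (fun h => hne (Cfsg.Agent.CF.mem_Nz.mp h))
  refine ⟨T, hwp, hAT, hTN, hwp.2 0, ?_, n, hn, ?_, fun h => hnA (Cfsg.Agent.CF.mem_Nz.mpr h)⟩
  · exact hAZ.trans (inf_le_right.trans
      (Subgroup.centralizer_le (SetLike.coe_subset_coe.mpr inf_le_left)))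
  · exact ((Cfsg.Agent.Fusion.cj_mono n hAT).trans (Cfsg.Agent.Fusion.cj_eq_of_mem hn).le).trans
      (le_inf hwp.1 Subgroup.le_normalizer)

end Cfsg.Agent.S1968
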