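import Cfsg.Statements.S1970
import Cfsg.Agent.CF.TransferCore

set_option autoImplicit false
universe u
open Cfsg

namespace Cfsg.Agent.S1970

/-- Let p be a prime, G a finite group and W an isomorphism-invariant p-group functor (W assigns to every group Q a subgroup W(Q), nontrivial whenever Q is a nontrivial finite p-group, and every isomorphism from a finite p-group Q onto a group R carries W(Q) onto W(R)). Suppose that for every section G* = K/R of G with C_{G*}(O_p(G*)) ≤ O_p(G*) and every Sylow p-subgroup S* of G*, one has O_p(G*) ∩ (G*)' = O_p(G*) ∩ (N_{G*}(W(S*)))'. Then W controls transfer in every section G* of G: S* ∩ (G*)' = S* ∩ (N_{G*}(W(S*)))' for a Sylow p-subgroup S* of G*. -/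
theorem result {G : Type u} [Group G] [Finite G] {p : ℕ} [Fact p.Prime] (W : ∀ (Q : Type u) [Group Q], Subgroup Q) (hW : Cfsg.IsCharPFunctor.{u} p W) (hloc : ∀ (K R : Subgroup G) [hR : (R.subgroupOf K).Normal], Subgroup.centralizer ((Cfsg.pCore p (↥K ⧸ R.subgroupOf K) : Subgroup (↥K ⧸ R.subgroupOf K)) : Set (↥K ⧸ R.subgroupOf K)) ≤ Cfsg.pCore p (↥K ⧸ R.subgroupOf K) → ∀ T : Sylow p (↥K ⧸ R.subgroupOf K), Cfsg.pCore p (↥K ⧸ R.subgroupOf K) ⊓ commutator (↥K ⧸ R.subgroupOf K) = Cfsg.pCore p (↥K ⧸ R.subgroupOf K) ⊓ ⁅Subgroup.normalizer ((Cfsg.inducedFunctor (G := (↥K ⧸ R.subgroupOf K)) W ((T : Subgroup (↥K ⧸ R.subgroupOf K))) : Subgroup (↥K ⧸ R.subgroupOf K)) : Set (↥K ⧸ R.subgroupOf K)), Subgroup.normalizer ((Cfsg.inducedFunctor (G := (↥K ⧸ R.subgroupOf K)) W ((T : Subgroup (↥K ⧸ R.subgroupOf K))) : Subgroup (↥K ⧸ R.subgroupOf K)) : Set (↥K ⧸ R.subgroupOf K))⁆) : ∀ (K R : Subgroup G) [hR : (R.subgroupOf K).Normal], Cfsg.ControlsTransferIn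 p (Cfsg.inducedFunctor (G := (↥K ⧸ R.subgroupOf K)) W) ⊤ := by
  have h𝓦 : ∀ V ∈ ({W} : Set (∀ (Q : Type u) [Group Q], Subgroup Q)),
      Cfsg.IsCharPFunctor.{u} p V := fun V hV => (Set.mem_singleton_iff.mp hV) ▸ hW
  intro K R hR
  obtain ⟨T⟩ : Nonempty (Sylow p (↥K ⧸ R.subgroupOf K)) := inferInstance
  refine Cfsg.Agent.CF.controlsTransfer_of_trIn (Cfsg.Agent.CF.isSyl_sylow T) ?_
  rw [← Cfsg.Agent.CF.fam_singleton]
  refine Cfsg.Agent.CF.trIn_of_pCore_control h𝓦 ?_ _ (Cfsg.Agent.CF.IsSec.of_section K R) T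
  intro X _ _ hX hC _ S
  obtain ⟨K', R', hR', e, hC'⟩ := Cfsg.Agent.CF.exists_section_of_isSec hX hC
  let S' : Sylow p (↥K' ⧸ R'.subgroupOf K') :=
    S.comapOfInjective e.toMonoidHom e.injective (by
      rw [MonoidHom.range_eq_top.mpr e.surjective]; exact le_top)
  have hmap : (S' : Subgroup (↥K' ⧸ R'.subgroupOf K')).map e.toMonoidHom = (S : Subgroup X) :=
    Subgroup.map_comap_eq_self_of_surjective e.surjective _
  have h := hloc K' R' hC' S'
  have hpc : (Cfsg.pCore p (↥K' ⧸ R'.subgroupOf K')).map e.toMonoidHom = Cfsg.pCore p X :=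
    Cfsg.Agent.Cores.map_pCore_equiv e
  rw [← hpc, ← hmap, commutator_def,
    ← Subgroup.map_top_of_surjective e.toMonoidHom e.surjective, ← Subgroup.map_commutator,
    ← Subgroup.map_inf _ _ _ e.injective, ← commutator_def, h]
  rw [Cfsg.Agent.CF.fam_singleton]
  simp only [Cfsg.Agent.CF.TrT, iSup_singleton]
  rw [Cfsg.Agent.CF.inducedFunctor_map_of_injective hW e.toMonoidHom e.injective S'.2,
    Subgroup.map_inf _ _ _ e.injective, Subgroup.map_commutator]
  exact inf_le_inf (Subgroup.map_mono (Cfsg.Agent.Cores.pCore_le_sylow S'))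
    (Subgroup.commutator_mono (le_inf (Subgroup.map_mono le_top) (Subgroup.le_normalizer_map _))
      (le_inf (Subgroup.map_mono le_top) (Subgroup.le_normalizer_map _)))

end Cfsg.Agent.S1970
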