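import Cfsg.Statements.S1972
import Cfsg.Agent.CF.SectionTools

set_option autoImplicit false
universe u
open Cfsg

namespace Cfsg.Agent.S1972

/-- Let p be a prime, G a finite group and W an isomorphism-invariant p-group functor (W assigns to every group Q a subgroup W(Q), nontrivial whenever Q is a nontrivial finite p-group, and every isomorphism from a finite p-group Q onto a group R carries W(Q) onto W(R)). Suppose that whenever G* = K/R is a section of G with C_{G*}(O_p(G*)) ≤ O_p(G*) and S* is a Sylow p-subgroup of G* with W(S*) not normal in G*, there is an element g of S* outside O_p(G*) such that [X, g, …, g] ≤ Y with p − 1 entries g, for every chief factor X/Y of G* with X ≤ O_p(G*). Then W controls transfer in every section of G. -/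
theorem result {G : Type u} [Group G] [Finite G] {p : ℕ} [Fact p.Prime] (W : ∀ (Q : Type u) [Group Q], Subgroup Q) (hW : Cfsg.IsCharPFunctor.{u} p W) (hloc : ∀ (K R : Subgroup G) [hR : (R.subgroupOf K).Normal], Subgroup.centralizer ((Cfsg.pCore p (↥K ⧸ R.subgroupOf K) : Subgroup (↥K ⧸ R.subgroupOf K)) : Set (↥K ⧸ R.subgroupOf K)) ≤ Cfsg.pCore p (↥K ⧸ R.subgroupOf K) → ∀ T : Sylow p (↥K ⧸ R.subgroupOf K), ¬ (Cfsg.inducedFunctor (G := (↥K ⧸ R.subgroupOf K)) W ((T : Subgroup (↥K ⧸ R.subgroupOf K)))).Normal → ∃ g : (↥K ⧸ R.subgroupOf K), g ∈ (T : Subgroup (↥K ⧸ R.subgroupOf K)) ∧ g ∉ Cfsg.pCore p (↥K ⧸ R.subgroupOf K) ∧ ∀ U V : Subgroup (↥K ⧸ R.subgroupOf K), Cfsg.IsChiefFactor U V → U ≤ Cfsg.pCore p (↥K ⧸ R.subgroupOf K) → Cfsg.iterCommutator U (Subgroup.zpowers g) (p - 1) ≤ V) : ∀ (K R : Subgroup G) [hR : (R.subgroupOf K).Normal], Cfsg.ControlsTransferIn p (Cfsg.inducedFunctor (G := (↥K ⧸ R.subgroupOf K)) W) ⊤ := by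
  have h𝓦 : ∀ V ∈ ({W} : Set (∀ (Q : Type u) [Group Q], Subgroup Q)),
      Cfsg.IsCharPFunctor.{u} p V := fun V hV => (Set.mem_singleton_iff.mp hV) ▸ hW
  intro K R hR
  obtain ⟨T⟩ : Nonempty (Sylow p (↥K ⧸ R.subgroupOf K)) := inferInstance
  refine Cfsg.Agent.CF.controlsTransfer_of_trIn (Cfsg.Agent.CF.isSyl_sylow T) ?_
  rw [← Cfsg.Agent.CF.fam_singleton]
  refine Cfsg.Agent.CF.trIn_of_sections h𝓦 ?_ _ (Cfsg.Agent.CF.IsSec.of_section K R) T
  intro X _ _ hX hC hsub hquot S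
  by_contra hnot
  obtain ⟨K', R', hR', e, hC'⟩ := Cfsg.Agent.CF.exists_section_of_isSec hX hC
  have hnn : ¬ (Cfsg.inducedFunctor W (S : Subgroup X)).Normal := fun hn => hnot
    (le_iSup₂_of_le _ ⟨W, Set.mem_singleton W, rfl⟩ (le_of_eq (by
      rw [Cfsg.Agent.CF.Nz, Subgroup.normalizer_eq_top (h := hn), top_inf_eq])))
  obtain ⟨g, hg, hgQ, hall⟩ := Cfsg.Agent.CF.elementHyp_equiv hW e
    (Ψ := fun Z _ z => ∀ U V : Subgroup Z, Cfsg.IsChiefFactor U V → U ≤ Cfsg.pCore p Z →
      Cfsg.iterCommutator U (Subgroup.zpowers z) (p - 1) ≤ V)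
    (fun g hg U V hUV hU => by
      have h := hg _ _ (Cfsg.Agent.CF.chief_equiv e hUV) (by
        rw [← Cfsg.Agent.Cores.map_pCore_equiv (p := p) e] at hU
        exact (Subgroup.comap_mono hU).trans
          (Subgroup.comap_map_eq_self_of_injective e.injective _).le)
      have h2 := Subgroup.map_mono (f := e.toMonoidHom) h
      rw [Cfsg.Agent.CF.map_iterCommutator, MonoidHom.map_zpowers,
        Subgroup.map_comap_eq_self_of_surjective e.surjective,
        Subgroup.map_comap_eq_self_of_surjective e.surjective] at h2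
      exact h2)
    (hloc K' R' hC') S hnn
  obtain ⟨U, V, hUV, hU, hno⟩ := (Cfsg.Agent.CF.minimal_failure h𝓦 (Set.singleton_nonempty W) S
    hsub hquot hC hnot).2.2 g hg hgQ
  exact hno (hall U V hUV hU)

end Cfsg.Agent.S1972
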