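import Cfsg.Statements.S1981
import Cfsg.Agent.CF.KSeq

set_option autoImplicit false
open Cfsg

namespace Cfsg.Agent.S1981

/-- Let P be a finite p-group generated by its abelian normal subgroups. Then both K-infinity subgroups of P equal P. -/
theorem result {P : Type*} [Group P] [Finite P] {p : ℕ} [Fact p.Prime] (hP : IsPGroup p P) (hgen : ⨆ A ∈ {A : Subgroup P | A.Normal ∧ IsMulCommutative ↥A}, A = ⊤) : Cfsg.kInfLower P = ⊤ ∧ Cfsg.kInfUpper P = ⊤ := by
  have hl : ∀ n, Cfsg.kSeqEven P n = ⊤ := fun n => by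
    rw [← top_le_iff, ← hgen]
    refine iSup₂_le fun A hA => ?_
    haveI : A.Normal := hA.1
    exact Cfsg.Agent.CF.le_kSeqEven (Cfsg.Agent.CF.abelian_normal_mem A hA.2 _).2.1
  have hu : ∀ n, Cfsg.kSeqOdd P n = ⊤ := fun n => by
    cases n with
    | zero => rfl
    | succ n =>
      rw [← top_le_iff, ← hgen]
      refine iSup₂_le fun A hA => ?_
      haveI : A.Normal := hA.1
      exact Cfsg.Agent.CF.le_kSeqOdd_succ (Cfsg.Agent.CF.abelian_normal_mem A hA.2 _).2.2
  simp [Cfsg.kInfLower, Cfsg.kInfUpper, hl, hu]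

end Cfsg.Agent.S1981
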