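import Cfsg.Statements.S1985
import Cfsg.Agent.CF.KWeakClosure

set_option autoImplicit false
universe u
open Cfsg

namespace Cfsg.Agent.S1985

/-- Let p be an odd prime and G a finite group. Then the lower K-infinity subgroup controls weak closure of elements in G: the lower K-infinity subgroup of every p-subgroup P of G contains Z(P), and for some (equivalently, every) Sylow p-subgroup S of G, with K the lower K-infinity subgroup of S, every element of S commuting with all of N_G(K) is weakly closed in S with respect to G (every G-conjugate of it lying in S equals it). -/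
theorem result {G : Type u} [Group G] [Finite G] {p : ℕ} [Fact p.Prime] (hp : p ≠ 2) : Cfsg.ControlsWeakClosureOfElementsIn p (Cfsg.inducedFunctor (G := G) Cfsg.kInfLower) ⊤ := by
  obtain ⟨T⟩ : Nonempty (Sylow p G) := inferInstance
  have hT := Cfsg.Agent.CF.isSyl_sylow T
  refine ⟨Cfsg.Agent.CF.center_le_kInfLower_induced, (T : Subgroup G), hT.le, hT.isP, hT.idx,
    fun x hx => ?_⟩
  refine Cfsg.Agent.CF.wc_elements
    (Cfsg.Agent.CF.isConjugacyFunctor_induced (Cfsg.Agent.CF.isCharPFunctor_kInfLower p))
    Cfsg.Agent.CF.center_le_kInfLower_induced ?_ hT hx.1 hx.2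
  intro H P hPH hPp hidx hn
  obtain ⟨g, hgP, hgQ, hq⟩ := Cfsg.Agent.CF.exists_four_local H P hPH hPp hidx hn
  refine ⟨g, hgP, fun h => hgQ ((Subgroup.mem_map_iff_mem H.subtype_injective).mp h),
    fun U V hUV hU => ?_⟩
  haveI : V.Normal := hUV.2.2.1
  rw [show (g : G) = H.subtype g from rfl, ← MonoidHom.map_zpowers,
    ← Cfsg.Agent.CF.map_iterCommutator, Subgroup.map_le_map_iff_of_injective H.subtype_injective]
  refine Cfsg.Agent.CF.iterCommutator_le_of_le (m := 2) ?_ ?_
  · have := (Fact.out : p.Prime).two_le
    omega
  · refine le_trans ?_ (hq.le.trans bot_le)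
    rw [Cfsg.Agent.CF.zed_pCoreOf] at hU
    exact Subgroup.commutator_mono (Subgroup.commutator_mono
      ((Subgroup.map_le_map_iff_of_injective H.subtype_injective).mp hU) le_rfl) le_rfl

end Cfsg.Agent.S1985
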