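import Cfsg.Statements.S1988
import Cfsg.Agent.CF.NPCApps
import Cfsg.Agent.CF.KGoodCritical
import Cfsg.Agent.CF.KWeakClosure

set_option autoImplicit false
universe u
open Cfsg

namespace Cfsg.Agent.S1988

/-- Let p be an odd prime, G a finite group with Sylow p-subgroup S and K the lower K-infinity subgroup of S. If N_G(K) has a normal p-complement, or if N_G(K)/C_G(K) is a p-group (every element of N_G(K) of order prime to p centralizes K), then G has a normal p-complement. -/
theorem result {G : Type u} [Group G] [Finite G] {p : ℕ} [Fact p.Prime] (hp : p ≠ 2) (S : Sylow p G) (h : Cfsg.HasNormalPComplement p ↥(Subgroup.normalizer ((Cfsg.inducedFunctor Cfsg.kInfLower (S : Subgroup G) : Subgroup G) : Set G)) ∨ ∀ g ∈ Subgroup.normalizer ((Cfsg.inducedFunctor Cfsg.kInfLower (S : Subgroup G) : Subgroup G) : Set G), (orderOf g).Coprime p → g ∈ Subgroup.centralizer ((Cfsg.inducedFunctor Cfsg.kInfLower (S : Subgroup G) : Subgroup G) : Set G)) : Cfsg.HasNormalPComplement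 p G := by
  set K₀ := Cfsg.inducedFunctor Cfsg.kInfLower (S : Subgroup G) with hK₀
  have hW : Cfsg.IsCharPFunctor.{u} p Cfsg.kInfLower := Cfsg.Agent.CF.isCharPFunctor_kInfLower p
  have hconj := Cfsg.Agent.CF.isConjugacyFunctor_induced hW (p := p) (X := G)
  have hN : Cfsg.HasNormalPComplement p ↥(Subgroup.normalizer (K₀ : Set G)) := by
    rcases h with h | h
    · exact h
    refine Cfsg.Agent.CF.npc_normalizer S K₀
      (Subgroup.le_normalizer.trans (Cfsg.Agent.CF.normalizer_le_Nz_W hconj S.2)) ?_ h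
    rintro x ⟨hxS, hx⟩
    refine ⟨⟨x, hxS⟩, Cfsg.Agent.CF.centralizer_le_kInfLower S.2
      (Subgroup.mem_centralizer_iff.mpr fun y hy => Subtype.ext ?_), rfl⟩
    exact Subgroup.mem_centralizer_iff.mp hx y ⟨y, hy, rfl⟩
  refine Cfsg.Agent.CF.npc_of_minimal hW (Cfsg.Agent.CF.minimalNPC_of_local (G := G) ?_) G
    (Cfsg.Agent.CF.IsSec.refl G) S hN
  intro X _ _ _ hC T hn
  set Q := Cfsg.pCore p X with hQ
  obtain ⟨C, hCc⟩ := Cfsg.Agent.PGroup.exists_isCriticalSubgroup
    (Cfsg.Agent.Cores.pCore_isPGroup (p := p) (G := X))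
  haveI := hCc.characteristic
  set A := C.map Q.subtype with hA
  haveI : A.Normal := Cfsg.Agent.Cores.normal_map_subtype_of_characteristic C
  have hA3 : ⁅Q, A⁆ ≤ Cfsg.Agent.CF.zed A := by
    rw [Subgroup.commutator_comm, Subgroup.commutator_le]
    rintro _ ⟨a, ha, rfl⟩ t ht
    refine ⟨Subgroup.commutator_le_left A ⊤ (Subgroup.commutator_mem_commutator
      (Subgroup.mem_map_of_mem _ ha) (Subgroup.mem_top t)), Subgroup.mem_centralizer_iff.mpr ?_⟩
    rintro _ ⟨c, hc, rfl⟩
    exact congrArg Subtype.val (Subgroup.mem_centralizer_iff.mp (hCc.commutator_le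
      (Subgroup.commutator_mem_commutator ha (Subgroup.mem_top ⟨t, ht⟩))) c hc)
  obtain ⟨g, hg, -, -, -, hf⟩ := Cfsg.Agent.CF.exists_kgood T A (Subgroup.map_subtype_le C)
    (((Subgroup.commutator_mono (Subgroup.map_subtype_le C) le_rfl).trans hA3).trans inf_le_right)
    hA3 (fun φ hφ hfix => hCc.mulAut_eq_one Cfsg.Agent.Cores.pCore_isPGroup φ hφ fun c hc =>
      hfix c (Subgroup.mem_map_of_mem _ hc)) (Or.inl hn)
  obtain ⟨U, V, hUV, hUA, hq, hne⟩ := hf hC
  haveI : V.Normal := hUV.2.2.1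
  refine ⟨g, hg, U, V, hUV, hUA.trans (Subgroup.map_subtype_le C),
    Cfsg.Agent.CF.iterCommutator_le_of_le (m := 2) ?_ hq, hne⟩
  have := (Fact.out : p.Prime).two_le
  omega

end Cfsg.Agent.S1988
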