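import Cfsg.Statements.S1989
import Cfsg.Agent.S2795
import Cfsg.Agent.CF.KControl
import Cfsg.Agent.CF.QdFusion

set_option autoImplicit false
universe u
open Cfsg

namespace Cfsg.Agent.S1989

/-- Let p be an odd prime and G a finite group. Then Qd(p) (the natural semidirect product of an elementary abelian group of order p² by SL₂(p)) is not involved in G if and only if, in every section K/R of G and for every Sylow p-subgroup T of K/R, the lower K-infinity subgroup of T controls strong fusion in K/R. -/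
theorem result {G : Type u} [Group G] [Finite G] {p : ℕ} [Fact p.Prime] (hp : p ≠ 2) : ¬ Cfsg.Involves ↥(Cfsg.qd p) G ↔ ∀ (K R : Subgroup G) [hR : (R.subgroupOf K).Normal], ∀ T : Sylow p (↥K ⧸ R.subgroupOf K), Cfsg.ControlsStrongFusion p (Cfsg.inducedFunctor (G := (↥K ⧸ R.subgroupOf K)) Cfsg.kInfLower (T : Subgroup (↥K ⧸ R.subgroupOf K))) := by
  have h𝓦 : ∀ W ∈ ({Cfsg.kInfLower} : Set (∀ (Q : Type u) [Group Q], Subgroup Q)),
      Cfsg.IsCharPFunctor.{u} p W := fun W hW =>
    (Set.mem_singleton_iff.mp hW) ▸ CF.kInf_charP (Or.inl rfl)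
  constructor
  · intro hfree K R hR T
    exact CF.controlsFusion_of_fusIn (CF.isConjugacyFunctor_induced (CF.kInf_charP (Or.inl rfl))) T
      (CF.fusIn_kInf (G := G) (Or.inl rfl) (fun K' R' _ => (S2795.result hp).1 hfree K' R') _
        (CF.IsSec.of_section K R) T)
  · rintro h ⟨K, R, hR, ⟨e⟩⟩
    obtain ⟨S, hS⟩ := CF.not_fusIn_qd (p := p) h𝓦 e
    rw [CF.fam_singleton] at hS
    exact hS (CF.fusIn_of_controlsFusion
      (CF.isConjugacyFunctor_induced (CF.kInf_charP (Or.inl rfl))) S (h K R S))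

end Cfsg.Agent.S1989
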