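import Cfsg.Statements.S1990
import Cfsg.Agent.CF.NPCApps

set_option autoImplicit false
universe u
open Cfsg

namespace Cfsg.Agent.S1990

/-- Let p be an odd prime, G a finite group with Sylow p-subgroup S, and W an isomorphism-invariant p-group functor (W assigns to every group Q a subgroup W(Q), nontrivial whenever Q is a nontrivial finite p-group, and every isomorphism from a finite p-group Q onto a group R carries W(Q) onto W(R)). Suppose N_G(W(S)) has a normal p-complement, and W(T) controls strong fusion in every section G* = K/R of G all of whose sections are p-stable in the normalizer form, for every Sylow p-subgroup T of G*. Then G has a normal p-complement. -/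
theorem result {G : Type u} [Group G] [Finite G] {p : ℕ} [Fact p.Prime] (hp : p ≠ 2) (W : ∀ (Q : Type u) [Group Q], Subgroup Q) (hW : Cfsg.IsCharPFunctor.{u} p W) (S : Sylow p G) (hN : Cfsg.HasNormalPComplement p ↥(Subgroup.normalizer ((Cfsg.inducedFunctor (G := G) W (S : Subgroup G) : Subgroup G) : Set G))) (hctl : ∀ (K R : Subgroup G) [hR : (R.subgroupOf K).Normal], (∀ (K' R' : Subgroup (↥K ⧸ R.subgroupOf K)) [hR' : (R'.subgroupOf K').Normal], Cfsg.IsNormalizerPStable p (↥K' ⧸ R'.subgroupOf K')) → ∀ T : Sylow p (↥K ⧸ R.subgroupOf K), Cfsg.ControlsStrongFusion p (Cfsg.inducedFunctor (G := (↥K ⧸ R.subgroupOf K)) W (T : Subgroup (↥K ⧸ R.subgroupOf K)))) : Cfsg.HasNormalPComplement p G := by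
  refine Cfsg.Agent.CF.npc_of_minimal hW (fun X _ _ hX hC hquot T hmax hT => ?_) G
    (Cfsg.Agent.CF.IsSec.refl G) S hN
  obtain ⟨K, R, hR, e, -⟩ := Cfsg.Agent.CF.exists_section_of_isSec hX hC
  have hclass := (Cfsg.Agent.CF.class_of_minimal hquot T hmax).of_injective e.toMonoidHom e.injective
  obtain ⟨T'⟩ : Nonempty (Sylow p (↥K ⧸ R.subgroupOf K)) := inferInstance
  have hc := hctl K R (fun K' R' hR' => Cfsg.Agent.CF.stable_of_class hp
    ((hclass.of_injective K'.subtype K'.subtype_injective).of_surjective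
      (QuotientGroup.mk'_surjective _))) T'
  have hconj := Cfsg.Agent.CF.isConjugacyFunctor_induced hW (p := p) (X := X)
  refine Cfsg.Agent.CF.npc_of_fusIn T
    (Subgroup.le_normalizer.trans (Cfsg.Agent.CF.normalizer_le_Nz_W hconj T.2)) ?_ hT
  have h𝓦 : ∀ V ∈ ({W} : Set (∀ (Q : Type u) [Group Q], Subgroup Q)),
      Cfsg.IsCharPFunctor.{u} p V := fun V hV => (Set.mem_singleton_iff.mp hV) ▸ hW
  rw [← Cfsg.Agent.CF.fam_singleton]
  refine Cfsg.Agent.CF.fusIn_equiv h𝓦 e T' ?_ T
  rw [Cfsg.Agent.CF.fam_singleton]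
  exact Cfsg.Agent.CF.fusIn_of_controlsFusion (Cfsg.Agent.CF.isConjugacyFunctor_induced hW) T' hc

end Cfsg.Agent.S1990
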