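import Cfsg.Statements.S1997
import Cfsg.Agent.CF.CentreFactor

set_option autoImplicit false
universe u
open Cfsg

namespace Cfsg.Agent.S1997

/-- Let p be a prime, G a finite group with Sylow p-subgroup S, and W₁, W₂ two isomorphism-invariant p-group functors (W assigns to every group Q a subgroup W(Q), nontrivial whenever Q is a nontrivial finite p-group, and every isomorphism from a finite p-group Q onto a group R carries W(Q) onto W(R)). Suppose that G* = C_{G*}(Ω₁Z(S*)) N_{G*}(W₁(S*)) = C_{G*}(Ω₁Z(S*)) N_{G*}(W₂(S*)) = N_{G*}(W₁(S*)) N_{G*}(W₂(S*)) whenever G* = K/R is a section of G with C_{G*}(O_p(G*)) ≤ O_p(G*) and S* is a Sylow p-subgroup of G*, where Ω₁Z denotes the subgroup generated by the elements of order dividing p in the centre. Suppose also Ω₁Z(S) ≤ W₁(S) ∩ W₂(S), and let A be the normal closure of Ω₁Z(S) in N_G(W₁(S)). Then A is an elementary abelian subgroup of S, strongly closed in S with respect to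 G, and A controls strong fusion in G. -/
theorem result {G : Type u} [Group G] [Finite G] {p : ℕ} [Fact p.Prime] (S : Sylow p G) (W₁ W₂ : ∀ (Q : Type u) [Group Q], Subgroup Q) (hW₁ : Cfsg.IsCharPFunctor.{u} p W₁) (hW₂ : Cfsg.IsCharPFunctor.{u} p W₂) (hfac : ∀ (K R : Subgroup G) [hR : (R.subgroupOf K).Normal], Subgroup.centralizer ((Cfsg.pCore p (↥K ⧸ R.subgroupOf K) : Subgroup (↥K ⧸ R.subgroupOf K)) : Set (↥K ⧸ R.subgroupOf K)) ≤ Cfsg.pCore p (↥K ⧸ R.subgroupOf K) → ∀ T : Sylow p (↥K ⧸ R.subgroupOf K), (∀ x : (↥K ⧸ R.subgroupOf K), ∃ a ∈ Subgroup.centralizer ((Cfsg.omegaOne p ((T : Subgroup (↥K ⧸ R.subgroupOf K)) ⊓ Subgroup.centralizer (((T : Subgroup (↥K ⧸ R.subgroupOf K)) : Subgroup (↥K ⧸ R.subgroupOf K)) : Set (↥K ⧸ R.subgroupOf K))) : Subgroup (↥K ⧸ R.subgroupOf K)) : Set (↥K ⧸ R.subgroupOf K)), ∃ b ∈ Subgroup.normalizer ((Cfsg.inducedFunctor (G := (↥K ⧸ R.subgroupOf K)) W₁ (T : Subgroup (↥K ⧸ R.subgroupOf K)) : Subgroup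 (↥K ⧸ R.subgroupOf K)) : Set (↥K ⧸ R.subgroupOf K)), x = a * b) ∧ (∀ x : (↥K ⧸ R.subgroupOf K), ∃ a ∈ Subgroup.centralizer ((Cfsg.omegaOne p ((T : Subgroup (↥K ⧸ R.subgroupOf K)) ⊓ Subgroup.centralizer (((T : Subgroup (↥K ⧸ R.subgroupOf K)) : Subgroup (↥K ⧸ R.subgroupOf K)) : Set (↥K ⧸ R.subgroupOf K))) : Subgroup (↥K ⧸ R.subgroupOf K)) : Set (↥K ⧸ R.subgroupOf K)), ∃ b ∈ Subgroup.normalizer ((Cfsg.inducedFunctor (G := (↥K ⧸ R.subgroupOf K)) W₂ (T : Subgroup (↥K ⧸ R.subgroupOf K)) : Subgroup (↥K ⧸ R.subgroupOf K)) : Set (↥K ⧸ R.subgroupOf K)), x = a * b) ∧ (∀ x : (↥K ⧸ R.subgroupOf K), ∃ a ∈ Subgroup.normalizer ((Cfsg.inducedFunctor (G := (↥K ⧸ R.subgroupOf K)) W₁ (T : Subgroup (↥K ⧸ R.subgroupOf K)) : Subgroup (↥K ⧸ R.subgroupOf K)) : Set (↥K ⧸ R.subgroupOf K)), ∃ b ∈ Subgroup.normalizer ((Cfsg.inducedFunctor (G := (↥K ⧸ R.subgroupOf K)) W₂ (T : Subgroup (↥K ⧸ R.subgroupOf K)) : Subgroup (↥K ⧸ R.subgroupOf K)) : Set (↥K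 ⧸ R.subgroupOf K)), x = a * b)) (hZ : Cfsg.omegaOne p ((S : Subgroup G) ⊓ Subgroup.centralizer (((S : Subgroup G) : Subgroup G) : Set G)) ≤ Cfsg.inducedFunctor (G := G) W₁ (S : Subgroup G) ⊓ Cfsg.inducedFunctor (G := G) W₂ (S : Subgroup G)) (N₁ : Subgroup G) (hN₁ : N₁ = Subgroup.normalizer ((Cfsg.inducedFunctor (G := G) W₁ (S : Subgroup G) : Subgroup G) : Set G)) (A : Subgroup G) (hA : A = (Subgroup.normalClosure (((Cfsg.omegaOne p ((S : Subgroup G) ⊓ Subgroup.centralizer (((S : Subgroup G) : Subgroup G) : Set G))).subgroupOf N₁ : Subgroup ↥N₁) : Set ↥N₁)).map N₁.subtype) : A ≤ (S : Subgroup G) ∧ Cfsg.IsElementaryAbelian p A ∧ Cfsg.IsStronglyClosed A (S : Subgroup G) ∧ Cfsg.ControlsStrongFusion p A := by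
  have hS : IsPGroup p ↥(S : Subgroup G) := S.2
  set Z := CF.omZ p (S : Subgroup G) with hZdef
  set N₂ := CF.Nz (Cfsg.inducedFunctor (G := G) W₂ (S : Subgroup G)) with hN₂
  have hSN : ∀ {W : ∀ (Q : Type u) [Group Q], Subgroup Q}, Cfsg.IsCharPFunctor.{u} p W →
      (S : Subgroup G) ≤ CF.Nz (Cfsg.inducedFunctor (G := G) W (S : Subgroup G)) := fun hW =>
    Subgroup.le_normalizer.trans (CF.normalizer_le_Nz_W (CF.isConjugacyFunctor_induced hW) hS)
  -- the factorizations in every constrained section, transported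
  have hfac' : ∀ (W' : ∀ (Q : Type u) [Group Q], Subgroup Q), (W' = W₁ ∨ W' = W₂) →
      ∀ (X : Type u) [Group X] [Finite X], CF.IsSec X G → CF.Constrained p X → ∀ T : Sylow p X,
      ∀ x : X, ∃ a ∈ Subgroup.centralizer (CF.omZ p (T : Subgroup X) : Set X),
        ∃ b ∈ CF.Nz (Cfsg.inducedFunctor W' (T : Subgroup X)), x = a * b := by
    intro W' hW' X _ _ hX hC T x
    have hWp : Cfsg.IsCharPFunctor.{u} p W' := by
      rcases hW' with rfl | rfl
      exacts [hW₁, hW₂]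
    obtain ⟨K, R, hR, e, hC'⟩ := CF.exists_section_of_isSec hX hC
    let T' : Sylow p (↥K ⧸ R.subgroupOf K) := T.comapOfInjective e.toMonoidHom e.injective (by
      rw [MonoidHom.range_eq_top.mpr e.surjective]; exact le_top)
    have hmap : (T' : Subgroup _).map e.toMonoidHom = (T : Subgroup X) :=
      Subgroup.map_comap_eq_self_of_surjective e.surjective _
    obtain ⟨h1, h2, -⟩ := hfac K R hC' T'
    have h : ∃ a ∈ Subgroup.centralizer (CF.omZ p (T' : Subgroup (↥K ⧸ R.subgroupOf K)) : Set (↥K ⧸ R.subgroupOf K)),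
        ∃ b ∈ CF.Nz (Cfsg.inducedFunctor W' (T' : Subgroup (↥K ⧸ R.subgroupOf K))),
          e.symm x = a * b := by
      rcases hW' with rfl | rfl
      exacts [h1 _, h2 _]
    obtain ⟨a, ha, b, hb, hab⟩ := h
    refine ⟨e a, ?_, e b, ?_, by rw [← map_mul, ← hab, e.apply_symm_apply]⟩
    · rw [← hmap, CF.omZ_map e.toMonoidHom (fun z _ hz => e.injective (by simpa using hz)),
        Subgroup.mem_centralizer_iff]
      rintro _ ⟨z, hz, rfl⟩
      show e z * e a = e a * e z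
      rw [← map_mul, ← map_mul, Subgroup.mem_centralizer_iff.mp ha z hz]
    · rw [← hmap, CF.inducedFunctor_map_of_injective hWp e.toMonoidHom e.injective T'.2]
      exact Subgroup.le_normalizer_map e.toMonoidHom ⟨b, hb, rfl⟩
  -- every conjugate of `Z` under one normalizer is one under the intersection
  have key : ∀ (W W' : ∀ (Q : Type u) [Group Q], Subgroup Q), Cfsg.IsCharPFunctor.{u} p W →
      Cfsg.IsCharPFunctor.{u} p W' → (W' = W₁ ∨ W' = W₂) →
      Z ≤ Cfsg.inducedFunctor (G := G) W (S : Subgroup G) →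
      ∀ x ∈ CF.Nz (Cfsg.inducedFunctor (G := G) W (S : Subgroup G)),
        ∃ b ∈ CF.Nz (Cfsg.inducedFunctor (G := G) W (S : Subgroup G)) ⊓
            CF.Nz (Cfsg.inducedFunctor (G := G) W' (S : Subgroup G)),
          ∀ z ∈ Z, x * z * x⁻¹ = b * z * b⁻¹ := by
    intro W W' hW hW' hor hZW x hx
    set N := CF.Nz (Cfsg.inducedFunctor (G := G) W (S : Subgroup G))
    let T : Sylow p N := S.subtype (hSN hW)
    have hmap : (T : Subgroup N).map N.subtype = (S : Subgroup G) :=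
      Subgroup.map_subgroupOf_eq_of_le (hSN hW)
    have hinj : ∀ z ∈ (T : Subgroup N), N.subtype z = 1 → z = 1 := fun z _ hz => Subtype.ext hz
    have eZ : Z = (CF.omZ p (T : Subgroup N)).map N.subtype := by
      rw [← CF.omZ_map N.subtype hinj, hmap]
    have eW := CF.inducedFunctor_map hW N.subtype T.2 hinj
    have eW' := CF.inducedFunctor_map hW' N.subtype T.2 hinj
    rw [hmap] at eW eW'
    obtain ⟨b, hb, c, hc, hbc⟩ := CF.exists_mul_centralizer_omZ (G := G) hW hW' (hfac' W' hor) N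
      ((CF.IsSec.refl G).subgroup N) T
      (by rw [← Subgroup.map_le_map_iff_of_injective N.subtype_injective, ← eZ, ← eW]; exact hZW)
      (by
        rw [← Subgroup.comap_map_eq_self_of_injective N.subtype_injective
          (Cfsg.inducedFunctor W (T : Subgroup N)), ← eW]
        exact Subgroup.normal_in_normalizer) ⟨x, hx⟩
    refine ⟨b, ⟨b.2, ?_⟩, fun z hz => ?_⟩
    · rw [eW']
      exact Subgroup.le_normalizer_map N.subtype ⟨b, hb, rfl⟩
    · have hcz : z * (c : G) = (c : G) * z := by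
        rw [eZ] at hz
        obtain ⟨w, hw, rfl⟩ := hz
        exact congrArg Subtype.val (Subgroup.mem_centralizer_iff.mp hc w hw)
      have hx' : x = (b : G) * (c : G) := congrArg Subtype.val hbc
      rw [hx']
      calc (b : G) * c * z * ((b : G) * c)⁻¹ = b * (c * z) * (c : G)⁻¹ * (b : G)⁻¹ := by group
        _ = b * (z * c) * (c : G)⁻¹ * (b : G)⁻¹ := by rw [hcz]
        _ = b * z * (b : G)⁻¹ := by group
  have hZ₁ : Z ≤ Cfsg.inducedFunctor (G := G) W₁ (S : Subgroup G) := hZ.trans inf_le_left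
  have hZ₂ : Z ≤ Cfsg.inducedFunctor (G := G) W₂ (S : Subgroup G) := hZ.trans inf_le_right
  -- `A` and its description by generators
  set gens : Set G := {y | ∃ n ∈ N₁, ∃ z ∈ Z, n * z * n⁻¹ = y} with hgens
  have hZN : Z ≤ N₁ := (CF.omZ_le p _).trans (hN₁ ▸ hSN hW₁)
  have hAeq : A = Subgroup.closure gens := by
    refine le_antisymm ?_ ((Subgroup.closure_le _).mpr ?_)
    · rw [hA, Subgroup.map_le_iff_le_comap]
      have hnorm : ((Subgroup.closure gens).comap N₁.subtype).Normal := by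
        refine ⟨fun a ha m => ?_⟩
        show (m : G) * (a : G) * (m : G)⁻¹ ∈ Subgroup.closure gens
        have ha' : (a : G) ∈ Subgroup.closure gens := ha
        refine (Subgroup.closure_le (K := (Subgroup.closure gens).comap
          (MulAut.conj (m : G)).toMonoidHom)).mpr ?_ ha'
        rintro _ ⟨n, hn, z, hz, rfl⟩
        exact Subgroup.subset_closure ⟨(m : G) * n, N₁.mul_mem m.2 hn, z, hz, by
          simp only [MulEquiv.coe_toMonoidHom, MulAut.conj_apply]; group⟩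
      exact Subgroup.normalClosure_le_normal fun z hz =>
        Subgroup.subset_closure ⟨1, N₁.one_mem, (z : G), hz, by simp⟩
    · rintro _ ⟨n, hn, z, hz, rfl⟩
      rw [hA]
      exact ⟨⟨n, hn⟩ * ⟨z, hZN hz⟩ * ⟨n, hn⟩⁻¹,
        Subgroup.normalClosure_normal.conj_mem _
          (Subgroup.subset_normalClosure (show (⟨z, hZN hz⟩ : ↥N₁) ∈ _ from hz)) _, rfl⟩
  have hgW : gens ⊆ Cfsg.inducedFunctor (G := G) W₁ (S : Subgroup G) := by
    rintro _ ⟨n, hn, z, hz, rfl⟩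
    rw [hN₁] at hn
    exact (Subgroup.mem_normalizer_iff.mp hn z).mp (hZ₁ hz)
  have hW₁S : Cfsg.inducedFunctor (G := G) W₁ (S : Subgroup G) ≤ (S : Subgroup G) :=
    CF.W_le (CF.isConjugacyFunctor_induced hW₁) hS
  have hAW : A ≤ Cfsg.inducedFunctor (G := G) W₁ (S : Subgroup G) :=
    hAeq ▸ (Subgroup.closure_le _).mpr hgW
  have hAS : A ≤ (S : Subgroup G) := hAW.trans hW₁S
  have hcen : ∀ y ∈ gens, ∀ w ∈ Cfsg.inducedFunctor (G := G) W₁ (S : Subgroup G),
      w * y = y * w := by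
    rintro _ ⟨n, hn, z, hz, rfl⟩ w hw
    rw [hN₁] at hn
    have hw' : n⁻¹ * w * n ∈ Cfsg.inducedFunctor (G := G) W₁ (S : Subgroup G) := by
      simpa using (Subgroup.mem_normalizer_iff.mp (inv_mem hn) w).mp hw
    have h1 := Subgroup.mem_centralizer_iff.mp (CF.omZ_le_inf p _ hz).2 _ (hW₁S hw')
    calc w * (n * z * n⁻¹) = n * ((n⁻¹ * w * n) * z) * n⁻¹ := by group
      _ = n * (z * (n⁻¹ * w * n)) * n⁻¹ := by rw [h1]
      _ = n * z * n⁻¹ * w := by group
  have hcomm : ∀ a ∈ A, ∀ b ∈ A, a * b = b * a := by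
    intro a ha b hb
    rw [hAeq] at hb
    refine Subgroup.mem_centralizer_iff.mp ((Subgroup.closure_le _).mpr (fun y hy => ?_) hb :
      b ∈ Subgroup.centralizer (A : Set G)) a ha
    exact Subgroup.mem_centralizer_iff.mpr fun w hw => hcen y hy w (hAW hw)
  have helem : Cfsg.IsElementaryAbelian p A := by
    refine ⟨⟨⟨fun a b => Subtype.ext (hcomm a a.2 b b.2)⟩⟩, fun a ha => ?_⟩
    have ha' : a ∈ Subgroup.closure gens := hAeq ▸ ha
    refine (Subgroup.closure_induction (p := fun y _ => y ^ p = 1 ∧ y ∈ A) ?_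
      ⟨one_pow _, A.one_mem⟩ ?_ ?_ ha').1
    · rintro y hy
      refine ⟨?_, hAeq ▸ Subgroup.subset_closure hy⟩
      obtain ⟨n, -, z, hz, rfl⟩ := hy
      rw [conj_pow, CF.pow_eq_one_of_mem_omZ z hz, mul_one, mul_inv_cancel]
    · intro x y _ _ hx hy
      exact ⟨by rw [(show Commute x y from hcomm x hx.2 y hy.2).mul_pow, hx.1, hy.1, one_mul],
        A.mul_mem hx.2 hy.2⟩
    · exact fun x _ hx => ⟨by rw [inv_pow, hx.1, inv_one], A.inv_mem hx.2⟩
  -- both normalizers normalize `A`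
  have hN₁A : N₁ ≤ CF.Nz A := by
    rw [CF.Nz, Subgroup.le_normalizer_iff]
    intro m hm a ha
    rw [hAeq] at ha ⊢
    refine (Subgroup.closure_le (K := (Subgroup.closure gens).comap
      (MulAut.conj m).toMonoidHom)).mpr ?_ ha
    rintro _ ⟨n, hn, z, hz, rfl⟩
    exact Subgroup.subset_closure ⟨m * n, N₁.mul_mem hm hn, z, hz, by
      simp only [MulEquiv.coe_toMonoidHom, MulAut.conj_apply]; group⟩
  have hN₂A : N₂ ≤ CF.Nz A := by
    rw [CF.Nz, Subgroup.le_normalizer_iff]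
    intro m hm a ha
    rw [hAeq] at ha ⊢
    refine (Subgroup.closure_le (K := (Subgroup.closure gens).comap
      (MulAut.conj m).toMonoidHom)).mpr ?_ ha
    rintro _ ⟨n, hn, z, hz, rfl⟩
    obtain ⟨b, hb, hnb⟩ := key W₁ W₂ hW₁ hW₂ (Or.inr rfl) hZ₁ n (show n ∈ CF.Nz _ by rw [hN₁] at hn; exact hn)
    obtain ⟨b', hb', hmb⟩ := key W₂ W₁ hW₂ hW₁ (Or.inl rfl) hZ₂ (m * b)
      (mul_mem hm (Subgroup.mem_inf.mp hb).2)
    refine Subgroup.subset_closure ⟨b', hN₁ ▸ (Subgroup.mem_inf.mp hb').2, z, hz, ?_⟩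
    show b' * z * b'⁻¹ = m * (n * z * n⁻¹) * m⁻¹
    rw [hnb z hz, ← hmb z hz]; group
  -- fusion
  have h𝓦 : ∀ W ∈ ({W₁, W₂} : Set (∀ (Q : Type u) [Group Q], Subgroup Q)),
      Cfsg.IsCharPFunctor.{u} p W := by
    rintro W (rfl | rfl)
    exacts [hW₁, hW₂]
  have hfus : CF.FusIn (CF.Fam {W₁, W₂} G) ⊤ (S : Subgroup G) := by
    refine CF.fusIn_of_sections h𝓦 ?_ G (CF.IsSec.refl G) S
    intro X _ _ hX hC T
    obtain ⟨K, R, hR, e, hC'⟩ := CF.exists_section_of_isSec hX hC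
    obtain ⟨T'⟩ : Nonempty (Sylow p (↥K ⧸ R.subgroupOf K)) := inferInstance
    exact CF.fusIn_equiv h𝓦 e T' (CF.fusIn_of_mul (CF.fam_conjFunctor h𝓦) T'
      (Set.mem_image_of_mem _ (Set.mem_insert W₁ _))
      (Set.mem_image_of_mem _ (Set.mem_insert_of_mem W₁ rfl)) (hfac K R hC' T').2.2) T
  have hctl : ∀ (D : Subgroup G) (g : G), D ≤ (S : Subgroup G) → Fusion.cj g D ≤ (S : Subgroup G) →
      ∃ n ∈ CF.Nz A, ∀ d ∈ D, n * d * n⁻¹ = g * d * g⁻¹ := by
    intro D g hD hgD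
    refine (hfus D hD g trivial hgD).of_subgroup ?_
    rintro x ⟨_, ⟨W, hW, rfl⟩, hx⟩
    rcases hW with rfl | rfl
    · exact hN₁A (hN₁ ▸ hx.2)
    · exact hN₂A hx.2
  refine ⟨hAS, helem, ⟨hAS, fun a ha g hga => ?_⟩, S, hAS, fun B hB => ⟨hB, fun g hgB => ?_⟩⟩
  · obtain ⟨n, hn, he⟩ := hctl (Subgroup.zpowers a) g (Subgroup.zpowers_le.mpr (hAS ha))
      (CF.cj_zpowers_le hga)
    rw [← he a (Subgroup.mem_zpowers a)]
    exact (Subgroup.mem_normalizer_iff.mp hn a).mp ha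
  · obtain ⟨n, hn, he⟩ := hctl (Subgroup.closure B) g ((Subgroup.closure_le _).mpr hB)
      (CF.cj_closure_le hgB)
    exact ⟨n, hn, fun b hb => (he b (Subgroup.subset_closure hb)).symm⟩

end Cfsg.Agent.S1997
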