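import Cfsg.Statements.S1998
import Cfsg.Agent.CF.SectionTools

set_option autoImplicit false
universe u
open Cfsg

namespace Cfsg.Agent.S1998

/-- Let p be a prime, G a finite group with Sylow p-subgroup S, and 𝓦 a nonempty set of isomorphism-invariant p-group functors (W assigns to every group Q a subgroup W(Q), nontrivial whenever Q is a nontrivial finite p-group, and every isomorphism from a finite p-group Q onto a group R carries W(Q) onto W(R)). Suppose the induced conjugacy functors control transfer in every section of G other than G itself, but not in G. Let T be the subgroup generated by the S ∩ (N_G(W(S)))', W ∈ 𝓦, and M = N_G(T ∩ O_p(G)). Then: C_G(O_p(G)) ≤ O_p(G); M is a proper subgroup of G containing every proper subgroup of G that contains S (the unique maximal subgroup over S); [O_p(G), M] ≤ O_p(G) ∩ M' ≤ O_p(G) ∩ T; and every element u of S outside O_p(G) satisfies [X, u, …, u] ≰ Y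 with p − 1 entries u, for some chief factor X/Y of G with X ≤ O_p(G). -/
theorem result {G : Type u} [Group G] [Finite G] {p : ℕ} [Fact p.Prime] (S : Sylow p G) (𝓦 : Set (∀ (Q : Type u) [Group Q], Subgroup Q)) (h𝓦 : ∀ W ∈ 𝓦, Cfsg.IsCharPFunctor.{u} p W) (hne : 𝓦.Nonempty) (hsec : ∀ (K R : Subgroup G) [hR : (R.subgroupOf K).Normal], (K = ⊤ → R ≠ ⊥) → Cfsg.FamilyControlsTransferIn p ((fun W => Cfsg.inducedFunctor (G := (↥K ⧸ R.subgroupOf K)) W) '' 𝓦) ⊤) (hG : ¬ Cfsg.FamilyControlsTransferIn p ((fun W => Cfsg.inducedFunctor (G := G) W) '' 𝓦) ⊤) (T M : Subgroup G) (hT : T = (⨆ W ∈ 𝓦, (S : Subgroup G) ⊓ ⁅Subgroup.normalizer ((Cfsg.inducedFunctor (G := G) W (S : Subgroup G) : Subgroup G) : Set G), Subgroup.normalizer ((Cfsg.inducedFunctor (G := G) W (S : Subgroup G) : Subgroup G) : Set G)⁆)) (hM : M = Subgroup.normalizer ((T ⊓ Cfsg.pCore p G : Subgroup G) : Set G)) : Subgroup.centralizer ((Cfsg.pCore p G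 : Subgroup G) : Set G) ≤ Cfsg.pCore p G ∧ (M ≠ ⊤ ∧ ∀ H : Subgroup G, (S : Subgroup G) ≤ H → H ≠ ⊤ → H ≤ M) ∧ (⁅Cfsg.pCore p G, M⁆ ≤ Cfsg.pCore p G ⊓ ⁅M, M⁆ ∧ Cfsg.pCore p G ⊓ ⁅M, M⁆ ≤ Cfsg.pCore p G ⊓ T) ∧ ∀ u : G, u ∈ (S : Subgroup G) → u ∉ Cfsg.pCore p G → ∃ U V : Subgroup G, Cfsg.IsChiefFactor U V ∧ U ≤ Cfsg.pCore p G ∧ ¬ Cfsg.iterCommutator U (Subgroup.zpowers u) (p - 1) ≤ V := by
  have hF := Cfsg.Agent.CF.fam_conjFunctor (X := G) h𝓦
  have hT' : T = Cfsg.Agent.CF.TrT (Cfsg.Agent.CF.Fam 𝓦 G) ⊤ (S : Subgroup G) := by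
    rw [hT]; simp only [Cfsg.Agent.CF.TrT, top_inf_eq, iSup_image]
  have hsub : ∀ H P : Subgroup G, H ≠ ⊤ → Cfsg.Agent.CF.IsSyl p P H →
      Cfsg.Agent.CF.TrIn (Cfsg.Agent.CF.Fam 𝓦 G) H P := fun H P hH hP =>
    Cfsg.Agent.CF.trIn_of_subgroup_top h𝓦 hP fun T₀ =>
      Cfsg.Agent.CF.trIn_of_proper_sections h𝓦 hsec H (MonoidHom.id H) Function.surjective_id
        (fun h => absurd h hH) T₀
  have hquot : ∀ (N : Subgroup G) [N.Normal], N ≠ ⊥ → ∀ S' : Sylow p (G ⧸ N),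
      Cfsg.Agent.CF.TrIn (Cfsg.Agent.CF.Fam 𝓦 (G ⧸ N)) ⊤ (S' : Subgroup (G ⧸ N)) := by
    intro N _ hN S'
    refine Cfsg.Agent.CF.trIn_of_proper_sections h𝓦 hsec ⊤
      ((QuotientGroup.mk' N).comp (⊤ : Subgroup G).subtype)
      ((QuotientGroup.mk'_surjective N).comp fun x => ⟨⟨x, trivial⟩, rfl⟩) (fun _ hker => hN ?_) S'
    rw [Subgroup.eq_bot_iff_forall]
    intro x hx
    have : (⟨x, trivial⟩ : (⊤ : Subgroup G)) ∈
        ((QuotientGroup.mk' N).comp (⊤ : Subgroup G).subtype).ker :=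
      (QuotientGroup.eq_one_iff x).mpr hx
    rw [hker, Subgroup.mem_bot] at this
    exact congrArg Subtype.val this
  have hnot : ¬ Cfsg.Agent.CF.TrIn (Cfsg.Agent.CF.Fam 𝓦 G) ⊤ (S : Subgroup G) := fun h =>
    hG (Cfsg.Agent.CF.familyTransfer_of_trIn (Cfsg.Agent.CF.isSyl_sylow S) h)
  have hC : Subgroup.centralizer ((Cfsg.pCore p G : Subgroup G) : Set G) ≤ Cfsg.pCore p G := by
    by_contra hC
    exact hnot (Cfsg.Agent.CF.trIn_step h𝓦 S hsub hquot hC)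
  subst hM
  rw [hT']
  exact ⟨hC, Cfsg.Agent.CF.minimal_failure h𝓦 hne S hsub hquot hC hnot⟩

end Cfsg.Agent.S1998
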