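import Cfsg.Statements.S2761
import Cfsg.Agent.EvenLocal.Qd

set_option autoImplicit false
open Cfsg

namespace Cfsg.Agent.S2761

/-- The group Qd(2), the natural semidirect product of an elementary abelian group of order 4 by SL₂(2) (realised as the affine subgroup of SL₃(2)), is isomorphic to the symmetric group of degree 4. -/
theorem result : Nonempty (↥(Cfsg.qd 2) ≃* Equiv.Perm (Fin 4)) := by
  let f : ↥(Cfsg.qdOver (ZMod 2)) →* Equiv.Perm (Fin 2 → ZMod 2) :=
    { toFun := fun M =>
        { toFun := fun v => (EvenLocal.Qd.lin M : Matrix (Fin 2) (Fin 2) (ZMod 2)).mulVec v +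
            EvenLocal.Qd.tr M
          invFun := fun v => (EvenLocal.Qd.lin M⁻¹ : Matrix (Fin 2) (Fin 2) (ZMod 2)).mulVec v +
            EvenLocal.Qd.tr M⁻¹
          left_inv := fun v => by
            simp only
            rw [Matrix.mulVec_add, Matrix.mulVec_mulVec, ← Matrix.SpecialLinearGroup.coe_mul,
              ← map_mul, add_assoc, ← EvenLocal.Qd.tr_mul, inv_mul_cancel, map_one,
              EvenLocal.Qd.tr_one, Matrix.SpecialLinearGroup.coe_one, Matrix.one_mulVec, add_zero]
          right_inv := fun v => by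
            simp only
            rw [Matrix.mulVec_add, Matrix.mulVec_mulVec, ← Matrix.SpecialLinearGroup.coe_mul,
              ← map_mul, add_assoc, ← EvenLocal.Qd.tr_mul, mul_inv_cancel, map_one,
              EvenLocal.Qd.tr_one, Matrix.SpecialLinearGroup.coe_one, Matrix.one_mulVec, add_zero] }
      map_one' := by
        ext v
        simp [EvenLocal.Qd.tr_one]
      map_mul' := fun M N => by
        refine Equiv.ext fun v => ?_
        show (EvenLocal.Qd.lin (M * N) : Matrix (Fin 2) (Fin 2) (ZMod 2)).mulVec v +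
            EvenLocal.Qd.tr (M * N) =
          (EvenLocal.Qd.lin M : Matrix (Fin 2) (Fin 2) (ZMod 2)).mulVec
            ((EvenLocal.Qd.lin N : Matrix (Fin 2) (Fin 2) (ZMod 2)).mulVec v +
              EvenLocal.Qd.tr N) + EvenLocal.Qd.tr M
        rw [EvenLocal.Qd.tr_mul, map_mul, Matrix.SpecialLinearGroup.coe_mul, Matrix.mulVec_add,
          Matrix.mulVec_mulVec, add_assoc] }
  have hinj : Function.Injective f := by
    refine (injective_iff_map_eq_one f).2 fun M hM => ?_
    have h : ∀ v, (EvenLocal.Qd.lin M : Matrix (Fin 2) (Fin 2) (ZMod 2)).mulVec v +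
        EvenLocal.Qd.tr M = v := fun v => Equiv.ext_iff.1 hM v
    have h0 : EvenLocal.Qd.tr M = 0 := by simpa using h 0
    refine EvenLocal.Qd.ext_lin_tr ?_ (h0.trans EvenLocal.Qd.tr_one.symm)
    rw [map_one]
    exact EvenLocal.Qd.eq_one_of_forall_mulVec fun v => by simpa [h0] using h v
  have hcard : Nat.card ↥(Cfsg.qdOver (ZMod 2)) = Nat.card (Equiv.Perm (Fin 2 → ZMod 2)) := by
    rw [Nat.card_congr (EvenLocal.Qd.coordEquiv (F := ZMod 2)), Nat.card_prod, Nat.card_perm,
      Nat.card_eq_fintype_card, Nat.card_eq_fintype_card (α := Fin 2 → ZMod 2)]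
    decide +kernel
  have hbij : Function.Bijective f := (Nat.bijective_iff_injective_and_card f).2 ⟨hinj, hcard⟩
  exact ⟨(MulEquiv.ofBijective f hbij).trans (Equiv.permCongrHom
    (Fintype.equivFinOfCardEq (by decide +kernel : Fintype.card (Fin 2 → ZMod 2) = 4)))⟩

end Cfsg.Agent.S2761
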