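import Cfsg.Statements.S1999
import Cfsg.Agent.OffThm.Functors
import Cfsg.Agent.S2761

set_option autoImplicit false
open Cfsg

namespace Cfsg.Agent.S1999

/-- Let G be a finite group. The symmetric group of degree 4 is not involved in G if and only if, in every section K/R of G, the pair of conjugacy functors {Z, J_e} controls strong fusion (for the prime 2): here Z(P) is the centre and J_e(P) the subgroup generated by the elementary abelian subgroups of P of largest order, and control by the pair means that 2-fusion of tuples inside a Sylow 2-subgroup T of the section is generated, staying inside T, by conjugation inside N(Z(T)) and N(J_e(T)). -/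
theorem result {G : Type*} [Group G] [Finite G] : ¬ Cfsg.Involves (Equiv.Perm (Fin 4)) G ↔ ∀ (K R : Subgroup G) [hR : (R.subgroupOf K).Normal], Cfsg.FamilyControlsStrongFusionIn 2 ({fun P : Subgroup (↥K ⧸ R.subgroupOf K) => P ⊓ Subgroup.centralizer ((P : Subgroup (↥K ⧸ R.subgroupOf K)) : Set (↥K ⧸ R.subgroupOf K)), fun P : Subgroup (↥K ⧸ R.subgroupOf K) => Cfsg.thompsonSubgroupOf 2 P} : Set (Subgroup (↥K ⧸ R.subgroupOf K) → Subgroup (↥K ⧸ R.subgroupOf K))) ⊤ := by
  haveI : Fact (Nat.Prime 2) := ⟨Nat.prime_two⟩
  constructor
  · intro h K R hR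
    rw [← OffThm.fam_pair]
    exact OffThm.familyControls_section h K R
  · intro h ⟨K, R, hR, ⟨e⟩⟩
    obtain ⟨q⟩ := S2761.result
    refine OffThm.not_involves_qd_of_control OffThm.pair_charP (fun K R => ?_)
      ⟨K, R, hR, ⟨e.trans q.symm⟩⟩
    intro _
    rw [OffThm.fam_pair]
    exact h K R

end Cfsg.Agent.S1999
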