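import Cfsg.Statements.S2004
import Cfsg.Agent.S2795
import Cfsg.Agent.EvenLocal.Involved

set_option autoImplicit false
open Cfsg

namespace Cfsg.Agent.S2004

/-- Let p be an odd prime and G a finite group such that SL₂(p) is not involved in N_G(P) for any nonidentity p-subgroup P of G. Then every section of G is p-stable in the normalizer form: in each section, whenever an element of the normalizer of a p-subgroup Q acts quadratically on Q, its image in N(Q)/C(Q) lies in O_p(N(Q)/C(Q)). -/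
theorem result {G : Type*} [Group G] [Finite G] {p : ℕ} [Fact p.Prime] (hp : p ≠ 2) (h : ∀ P : Subgroup G, IsPGroup p ↥P → P ≠ ⊥ → ¬ Cfsg.Involves (Matrix.SpecialLinearGroup (Fin 2) (ZMod p)) ↥(Subgroup.normalizer ((P : Subgroup G) : Set G))) : ∀ (K R : Subgroup G) [hR : (R.subgroupOf K).Normal], Cfsg.IsNormalizerPStable p (↥K ⧸ R.subgroupOf K) := by
  refine (S2795.result hp).1 ?_
  rintro ⟨K, R, hR, ⟨e⟩⟩
  let f₀ : ↥K →* ↥(Cfsg.qdOver (ZMod p)) := e.toMonoidHom.comp (QuotientGroup.mk' (R.subgroupOf K))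
  have hf₀ : Function.Surjective f₀ :=
    e.surjective.comp (QuotientGroup.mk'_surjective _)
  let f : ↥K →* Matrix.SpecialLinearGroup (Fin 2) (ZMod p) :=
    (EvenLocal.Qd.lin (F := ZMod p)).comp f₀
  have hf : Function.Surjective f := (EvenLocal.Qd.lin_surjective).comp hf₀
  obtain ⟨T⟩ : Nonempty (Sylow p ↥f.ker) := inferInstance
  set P₀ : Subgroup ↥K := (T : Subgroup ↥f.ker).map f.ker.subtype with hP₀
  set P : Subgroup G := P₀.map K.subtype with hP
  have hPp : IsPGroup p ↥P := (T.2.map _).map _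
  -- a translation gives a nontrivial element of `p`-power order in the kernel
  obtain ⟨x, hx⟩ := hf₀ (EvenLocal.Qd.mkEl 1 ![1, 0])
  have hxker : x ∈ f.ker := by
    show EvenLocal.Qd.lin (f₀ x) = 1
    rw [hx, EvenLocal.Qd.lin_mkEl]
  have hne : P ≠ ⊥ := by
    intro he
    rw [hP, Subgroup.map_eq_bot_iff_of_injective _ K.subtype_injective, hP₀,
      Subgroup.map_eq_bot_iff_of_injective _ f.ker.subtype_injective] at he
    have hcop : ¬ p ∣ Nat.card ↥f.ker := by
      intro hd
      have h1 := T.not_dvd_index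
      rw [he, Subgroup.index_bot] at h1
      exact h1 hd
    have h2 : (f₀ x) ^ Nat.card ↥f.ker = 1 := by
      rw [← map_pow]
      have h3 : (⟨x, hxker⟩ : ↥f.ker) ^ Nat.card ↥f.ker = 1 := pow_card_eq_one'
      have h4 := congrArg (Subgroup.subtype _) h3
      simp only [map_pow, map_one, Subgroup.coe_subtype] at h4
      rw [h4, map_one]
    have h5 : (f₀ x) ^ p = 1 := EvenLocal.Qd.pow_eq_one_of_lin (p := p) hxker
    have h6 : f₀ x = 1 := by
      have hg : Nat.gcd (Nat.card ↥f.ker) p = 1 :=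
        Nat.Coprime.symm (((Fact.out : p.Prime).coprime_iff_not_dvd).2 hcop)
      have h7 := pow_gcd_eq_one.2 ⟨h2, h5⟩
      rwa [hg, pow_one] at h7
    have h8 := congrArg (fun M => EvenLocal.Qd.tr M 0) (hx.symm.trans h6)
    simp [EvenLocal.Qd.tr_mkEl, EvenLocal.Qd.tr_one] at h8
  refine h P hPp hne ?_
  have hN : ∀ k : ↥K, k ∈ Subgroup.normalizer (P₀ : Set ↥K) →
      (k : G) ∈ Subgroup.normalizer (P : Set G) := by
    intro k hk
    rw [Subgroup.mem_normalizer_iff] at hk ⊢
    intro y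
    constructor
    · rintro ⟨z, hz, rfl⟩
      exact ⟨k * z * k⁻¹, (hk z).1 hz, by simp⟩
    · rintro ⟨z, hz, hzy⟩
      refine ⟨k⁻¹ * z * k, (hk _).2 (by simpa [mul_assoc] using hz), ?_⟩
      simp only [Subgroup.coe_subtype, Subgroup.coe_mul, Subgroup.coe_inv] at hzy ⊢
      rw [hzy]; group
  let A : Subgroup ↥(Subgroup.normalizer (P : Set G)) := K.subgroupOf _
  let φ : ↥A →* ↥K :=
    { toFun := fun a => ⟨(a : ↥(Subgroup.normalizer (P : Set G))), a.2⟩
      map_one' := rfl
      map_mul' := fun _ _ => rfl }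
  refine EvenLocal.involves_of_surjective (A := A) (f.comp φ) fun y => ?_
  obtain ⟨k, rfl⟩ := hf y
  have hk : k ∈ Subgroup.normalizer (P₀ : Set ↥K) ⊔ f.ker := by
    rw [hP₀, T.normalizer_sup_eq_top]; trivial
  obtain ⟨n, hn, m, hm, rfl⟩ := Subgroup.mem_sup_of_normal_right.1 hk
  refine ⟨⟨⟨(n : G), hN n hn⟩, n.2⟩, ?_⟩
  rw [map_mul, show f m = 1 from hm, mul_one]
  rfl

end Cfsg.Agent.S2004
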