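import Cfsg.Statements.S2005
import Cfsg.Agent.CF.NPCApps

set_option autoImplicit false
universe u
open Cfsg

namespace Cfsg.Agent.S2005

/-- Thompson's normal p-complement criterion in functor form. Let p be a prime, G a finite group with Sylow p-subgroup S, and W an isomorphism-invariant p-group functor (W assigns to every group Q a subgroup W(Q), nontrivial whenever Q is a nontrivial finite p-group, and every isomorphism from a finite p-group Q onto a group R carries W(Q) onto W(R)). Suppose N_G(W(S)) has a normal p-complement, and that W(S*) is normal in G* whenever G* = K/R is a section of G with C_{G*}(O_p(G*)) ≤ O_p(G*) such that G*/O_p(G*) has a normal p-complement, and S* is a Sylow p-subgroup of G* that is a maximal subgroup of G*. Then G has a normal p-complement. -/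
theorem result {G : Type u} [Group G] [Finite G] {p : ℕ} [Fact p.Prime] (W : ∀ (Q : Type u) [Group Q], Subgroup Q) (hW : Cfsg.IsCharPFunctor.{u} p W) (S : Sylow p G) (hN : Cfsg.HasNormalPComplement p ↥(Subgroup.normalizer ((Cfsg.inducedFunctor (G := G) W (S : Subgroup G) : Subgroup G) : Set G))) (hloc : ∀ (K R : Subgroup G) [hR : (R.subgroupOf K).Normal], Subgroup.centralizer ((Cfsg.pCore p (↥K ⧸ R.subgroupOf K) : Subgroup (↥K ⧸ R.subgroupOf K)) : Set (↥K ⧸ R.subgroupOf K)) ≤ Cfsg.pCore p (↥K ⧸ R.subgroupOf K) → Cfsg.HasNormalPComplement p ((↥K ⧸ R.subgroupOf K) ⧸ Cfsg.pCore p (↥K ⧸ R.subgroupOf K)) → ∀ T : Sylow p (↥K ⧸ R.subgroupOf K), IsCoatom (T : Subgroup (↥K ⧸ R.subgroupOf K)) → (Cfsg.inducedFunctor (G := (↥K ⧸ R.subgroupOf K)) W ((T : Subgroup (↥K ⧸ R.subgroupOf K)))).Normal) : Cfsg.HasNormalPComplement p G := by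
  refine Cfsg.Agent.CF.npc_of_minimal hW (fun X _ _ hX hC hquot T hmax hT => ?_) G
    (Cfsg.Agent.CF.IsSec.refl G) S hN
  obtain ⟨K, R, hR, e, hC'⟩ := Cfsg.Agent.CF.exists_section_of_isSec hX hC
  refine Cfsg.Agent.CF.npc_of_normal_W ?_ hT
  let Y := ↥K ⧸ R.subgroupOf K
  let T' : Sylow p Y := T.comapOfInjective e.toMonoidHom e.injective (by
    rw [MonoidHom.range_eq_top.mpr e.surjective]; exact le_top)
  have hmap : (T' : Subgroup Y).map e.toMonoidHom = (T : Subgroup X) :=
    Subgroup.map_comap_eq_self_of_surjective e.surjective _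
  have hco : IsCoatom (T' : Subgroup Y) := by
    refine (OrderIso.isCoatom_iff (MulEquiv.mapSubgroup e) _).mp ?_
    show IsCoatom ((T' : Subgroup Y).map e.toMonoidHom); rw [hmap]; exact hmax
  have hq' : Cfsg.HasNormalPComplement p (Y ⧸ Cfsg.pCore p Y) :=
    (Cfsg.Agent.Transfer.hasNormalPComplement_congr (QuotientGroup.congr (Cfsg.pCore p Y)
      (Cfsg.pCore p X) e (Cfsg.Agent.Cores.map_pCore_equiv e))).mpr hquot
  have hn := Cfsg.Agent.CF.inducedFunctor_normal_equiv hW e T'.2 (hloc K R hC' hq' T' hco)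
  rwa [hmap] at hn

end Cfsg.Agent.S2005
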