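import Cfsg.Statements.S2086
import Cfsg.Agent.CentralExt.SL2
import Cfsg.Agent.CentralExt.TypeA

set_option autoImplicit false
open Cfsg

namespace Cfsg.Agent.S2086

/-- Schur multipliers of the linear groups: for n ≥ 2 and a field F with q elements (q ≥ 4 when n = 2), apart from the five exceptional pairs (n, q) = (2, 4), (2, 9), (3, 2), (3, 4), (4, 2), the Schur multiplier of PSL_n(F) is cyclic of order gcd(n, q − 1); here the Schur multiplier is described through stem extensions, as in the definitions. -/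
theorem result {F : Type*} [Field F] [Fintype F] {q : ℕ} (hF : Fintype.card F = q) (n : ℕ) (hn : 2 ≤ n) (h2 : n = 2 → 4 ≤ q) (hexc : (n, q) ∉ ({(2, 4), (2, 9), (3, 2), (3, 4), (4, 2)} : Set (ℕ × ℕ))) : Cfsg.HasCyclicSchurMultiplier (Matrix.ProjectiveSpecialLinearGroup (Fin n) F) (Nat.gcd n (q - 1)) := by
  subst hF
  simp only [Set.mem_insert_iff, Set.mem_singleton_iff, Prod.mk.injEq, not_or] at hexc
  obtain ⟨e1, e2, e3, e4, e5⟩ := hexc
  rcases eq_or_ne n 2 with rfl | hn2
  · have hq := h2 rfl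
    have hperf : commutator (Matrix.SpecialLinearGroup (Fin 2) F) = ⊤ := by
      obtain ⟨a, ha, ha2⟩ := Cfsg.Agent.CentralExt.TypeA.exists_pow_ne_one (F := F) (k := 2) fun hd => by
        have := Nat.le_of_dvd (by norm_num) hd
        omega
      exact Matrix.SL2.commutator_eq_top ha ha2
    exact Cfsg.Agent.CentralExt.TypeA.multiplier_PSL_of (by norm_num) hperf
      (Cfsg.Agent.CentralExt.SL2.hasCyclicSchurMultiplier_SL2 (fun h => e1 ⟨rfl, h⟩) (fun h => e2 ⟨rfl, h⟩))
  · exact Cfsg.Agent.CentralExt.TypeA.multiplier_PSL_of (by omega)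
      (Cfsg.Agent.Linear.commutator_SL_eq_top (by rw [Fintype.card_fin]; omega))
      (Cfsg.Agent.CentralExt.TypeA.multiplier_SL
        ⟨by omega, fun h => ⟨fun h' => e3 ⟨h, h'⟩, fun h' => e4 ⟨h, h'⟩⟩, fun h h' => e5 ⟨h, h'⟩⟩)

end Cfsg.Agent.S2086
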