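import Cfsg.Statements.S2087
import Cfsg.Agent.CentralExt.SL2
import Cfsg.Agent.Linear.SmallIsoSeven
import Cfsg.Agent.Linear.Orders

set_option autoImplicit false
open Cfsg

namespace Cfsg.Agent.S2087

/-- Exceptional Schur multiplier: over the field with 2 elements, PSL₃ has Schur multiplier cyclic of order 2 (here the Schur multiplier is described through stem extensions, as in the definitions). -/
theorem result {F : Type*} [Field F] [Fintype F] (hF : Fintype.card F = 2) : Cfsg.HasCyclicSchurMultiplier (Matrix.ProjectiveSpecialLinearGroup (Fin 3) F) 2 := by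
  classical
  let K := ULift.{u_1} (ZMod 7)
  haveI : Fact (Nat.Prime 7) := ⟨by norm_num⟩
  haveI : Fact (Nat.Prime 2) := ⟨Nat.prime_two⟩
  letI : Field K := ULift.field
  letI : Fintype K := Fintype.ofEquiv _ Equiv.ulift.symm
  have hK : Fintype.card K = 7 := by rw [← Nat.card_eq_fintype_card, Nat.card_congr Equiv.ulift, Nat.card_zmod]
  obtain ⟨e⟩ := Cfsg.Agent.Linear.psl_two_seven_iso (F := K) (K := F) hK hF
  let σ : Matrix.SpecialLinearGroup (Fin 2) K →* Matrix.ProjectiveSpecialLinearGroup (Fin 3) F :=
    e.toMonoidHom.comp (QuotientGroup.mk' (Subgroup.center (Matrix.SpecialLinearGroup (Fin 2) K)))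
  have hker : σ.ker = Subgroup.center (Matrix.SpecialLinearGroup (Fin 2) K) := by
    ext x
    simp only [σ, MonoidHom.mem_ker, MonoidHom.comp_apply, MulEquiv.coe_toMonoidHom,
      EmbeddingLike.map_eq_one_iff, QuotientGroup.mk'_apply, QuotientGroup.eq_one_iff]
  have hperf : commutator (Matrix.SpecialLinearGroup (Fin 2) K) = ⊤ := by
    haveI : CharP K 7 := charP_of_card_eq_prime hK
    have hz : ∀ n : ℕ, (n : K) = 0 → 7 ∣ n := fun n => (CharP.cast_eq_zero_iff K 7 n).1
    have ha : (2 : K) ≠ 0 := fun h => by have := hz 2 (by exact_mod_cast h); omega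
    have hb : (2 : K) ^ 2 ≠ 1 := fun h => by
      have := hz 3 (by push_cast; linear_combination h)
      omega
    exact Matrix.SL2.commutator_eq_top ha hb
  have hst : Cfsg.IsStemExtension σ :=
    ⟨e.surjective.comp (QuotientGroup.mk'_surjective _), hker.le, by rw [hperf]; exact le_top⟩
  refine Cfsg.Agent.CentralExt.hasSchurMultiplier_of_universal hst
    (Cfsg.Agent.CentralExt.SL2.hasCyclicSchurMultiplier_SL2 (by omega) (by omega))
    ((MulEquiv.subgroupCongr hker).trans (mulEquivOfPrimeCardEq (p := 2) ?_ ?_))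
  · rw [Cfsg.Agent.Linear.card_center_SL, hK, Fintype.card_fin]; norm_num
  · rw [Nat.card_congr Multiplicative.toAdd, Nat.card_zmod]

end Cfsg.Agent.S2087
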