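import Cfsg.Statements.S2088
import Cfsg.Agent.SchurSmall.L34
import Cfsg.Agent.Leech.Plane21
import Mathlib.FieldTheory.Finite.GaloisField

set_option autoImplicit false
open Cfsg

namespace Cfsg.Agent.S2088

/-- Exceptional Schur multiplier: over the field with 4 elements, PSL₃ has Schur multiplier isomorphic to the product of cyclic groups of orders 3, 4 and 4 (order 48, not cyclic; here the Schur multiplier is described through stem extensions, as in the definitions). -/
theorem result {F : Type*} [Field F] [Fintype F] (hF : Fintype.card F = 4) : Cfsg.HasSchurMultiplier (Matrix.ProjectiveSpecialLinearGroup (Fin 3) F) (Multiplicative (ZMod 3 × ZMod 4 × ZMod 4)) := by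
  obtain ⟨e⟩ : Nonempty (F ≃+* Cfsg.Agent.Plane21.F4) :=
    ⟨FiniteField.ringEquivOfCardEq (hF.trans Cfsg.Agent.Plane21.F4.card_F4.symm)⟩
  exact CentralExt.hasSchurMultiplier_congr
    ((Cfsg.Agent.Plane21.pslCongr e).trans Cfsg.Agent.Plane21.equivChainStab).symm
    Cfsg.Agent.SchurSmall.hasSchurMultiplier_G34

end Cfsg.Agent.S2088
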