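import Cfsg.Statements.S2091
import Cfsg.Agent.PSU62Mult.Upper
import Cfsg.Agent.PSU62Mult.Cover
import Cfsg.Agent.IsoPSU42.Main

set_option autoImplicit false
open Cfsg

namespace Cfsg.Agent.S2091

/-- Exceptional Schur multiplier: PSU₆(2), realised over the field with 4 elements, has Schur multiplier isomorphic to the product of cyclic groups of orders 3, 2 and 2 (order 12, not cyclic; here the Schur multiplier is described through stem extensions, as in the definitions). -/
theorem result {F : Type*} [Field F] [Fintype F] (hF : Fintype.card F = 4) : Cfsg.HasSchurMultiplier (Cfsg.PSU 6 F 2) (Multiplicative (ZMod 3 × ZMod 2 × ZMod 2)) := by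
  have hle : Nat.card (CentralExt.schurMult PSU62Mult.PG) ≤ 12 := PSU62Mult.card_schurMult_PG_le
  obtain ⟨D, _, τ, hτ, ⟨e⟩⟩ := PSU62Mult.exists_stem
  have hcard : Nat.card τ.ker = 12 := by
    rw [Nat.card_congr e.toEquiv, Nat.card_congr Multiplicative.toAdd]
    simp [Nat.card_prod]
  obtain ⟨r⟩ := GFour25.exists_ringEquiv hF
  obtain ⟨f⟩ := IsoPSU42.nonempty_su_equiv 6 2 r
  have hmap : (Subgroup.center (Cfsg.SU 6 GFour25.F4 2)).map f.toMonoidHom =
      Subgroup.center (Cfsg.SU 6 F 2) := by
    ext b
    constructor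
    · rintro ⟨a, ha, rfl⟩
      refine Subgroup.mem_center_iff.2 fun c => ?_
      obtain ⟨c', rfl⟩ := f.surjective c
      show f c' * f a = f a * f c'
      rw [← map_mul, ← map_mul, Subgroup.mem_center_iff.1 ha c']
    · intro hb
      refine ⟨f.symm b, Subgroup.mem_center_iff.2 fun c => f.injective ?_, f.apply_symm_apply b⟩
      rw [map_mul, map_mul, f.apply_symm_apply, Subgroup.mem_center_iff.1 hb (f c)]
  exact CentralExt.hasSchurMultiplier_congr
    (SporB.FischerU.psuEquiv.symm.trans (QuotientGroup.congr _ _ f hmap))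
    (CentralExt.hasSchurMultiplier_of_stem hτ (hle.trans hcard.ge) e)

end Cfsg.Agent.S2091
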