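import Cfsg.Statements.S2094
import Cfsg.Agent.CentralExt.OrthMult.Main

set_option autoImplicit false
open Cfsg

namespace Cfsg.Agent.S2094

/-- Schur multipliers of the odd-dimensional orthogonal groups: for m ≥ 3 and a field F of odd order q with (m, q) ≠ (3, 3), the Schur multiplier of PΩ_(2m+1)(F) (for the form x₀² + Σ xᵢyᵢ) is cyclic of order 2 = gcd(2, q − 1); here the Schur multiplier is described through stem extensions, as in the definitions. -/
theorem result {F : Type*} [Field F] [Fintype F] {q : ℕ} (hF : Fintype.card F = q) (hq : Odd q) (m : ℕ) (hm : 3 ≤ m) (hexc : ¬ (m = 3 ∧ q = 3)) : Cfsg.HasCyclicSchurMultiplier (Cfsg.POmega F (Cfsg.quadFormOdd m F)) 2 := by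
  classical
  have hodd : Odd (Nat.card F) := by rwa [Nat.card_eq_fintype_card, hF]
  have h2 : (2 : F) ≠ 0 := Cfsg.Agent.Classical.two_ne_zero_of_odd hodd
  obtain ⟨k, rfl⟩ : ∃ k, m = k + 3 := ⟨m - 3, by omega⟩
  have hk : Nat.card F = 3 → 1 ≤ k := by
    intro h
    rw [Nat.card_eq_fintype_card, hF] at h
    by_contra hk
    exact hexc ⟨by omega, h⟩
  obtain ⟨h1, h2', h3⟩ := (Cfsg.Agent.Classical.goodCore_sq h2).hypExt_data k
  obtain ⟨φ⟩ := Cfsg.Agent.Classical.nonempty_POmega_equiv (Cfsg.quadFormOdd (k + 3) F)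
    (Cfsg.Agent.Classical.oddQF (k + 3) F) (Cfsg.Agent.Classical.oddQF_apply _)
    ((Cfsg.Agent.Classical.oddEquiv (k + 3)).trans (Cfsg.Agent.Classical.hypSplit (k + 2)))
    (fun v => by rw [LinearEquiv.trans_apply, Cfsg.Agent.Classical.hypSplit_spec,
      Cfsg.Agent.Classical.oddEquiv_spec]) h1 h2' h3
  have hc := Cfsg.Agent.CentralExt.OrthMult.card_center_odd hodd k
  have hbot : Subgroup.center (Cfsg.Agent.Classical.EQ (Cfsg.Agent.Classical.hypAdd
      (Cfsg.Agent.CentralExt.OrthMult.oddForm F (k + 2)))) = ⊥ := Subgroup.card_eq_one.1 hc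
  refine Cfsg.Agent.CentralExt.hasSchurMultiplier_congr ?_
    (Cfsg.Agent.CentralExt.OrthMult.multiplier_EQ_odd hodd k hk)
  exact ((φ.trans (QuotientGroup.quotientMulEquivOfEq hbot)).trans QuotientGroup.quotientBot).symm

end Cfsg.Agent.S2094
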