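import Cfsg.Statements.S2096
import Cfsg.Agent.DType.Multiplier

set_option autoImplicit false
open Cfsg

namespace Cfsg.Agent.S2096

/-- Schur multipliers of the even-dimensional orthogonal groups of plus type and odd rank: for odd l ≥ 5 and a field F with q elements, the Schur multiplier of PΩ⁺_2l(F) (for the form Σ xᵢyᵢ) is cyclic of order gcd(4, q^l − 1); here the Schur multiplier is described through stem extensions, as in the definitions. -/
theorem result {F : Type*} [Field F] [Fintype F] {q : ℕ} (hF : Fintype.card F = q) (l : ℕ) (hl : 5 ≤ l) (hodd : Odd l) : Cfsg.HasCyclicSchurMultiplier (Cfsg.POmega F (Cfsg.quadFormPlus l F)) (Nat.gcd 4 (q ^ l - 1)) := by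
  have hq : Nat.card F = q := by rw [Nat.card_eq_fintype_card, hF]
  have h1 : 1 ≤ q := hq ▸ Nat.card_pos
  obtain ⟨e⟩ := Cfsg.Agent.DType.par_odd (F := F) hodd
  rw [hq, ← Cfsg.Agent.DType.gcd_four_pow (by omega) hodd h1] at e
  exact Cfsg.Agent.CentralExt.hasSchurMultiplier_congr_right e.symm
    (Cfsg.Agent.DType.hasSchurMultiplier_Par (l := l) (by omega) (by omega))

end Cfsg.Agent.S2096
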