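import Cfsg.Statements.S2099
import Cfsg.Agent.CentralExt.MinusMult.Main

set_option autoImplicit false
open Cfsg

namespace Cfsg.Agent.S2099

/-- Schur multipliers of the even-dimensional orthogonal groups of minus type: for l ≥ 4 and a field F with q elements, the Schur multiplier of PΩ⁻_2l(F) (for the form Σ_{i<l−1} xᵢyᵢ + z₁² + a z₁z₂ + b z₂² with the binary part anisotropic) is cyclic of order gcd(4, q^l + 1); here the Schur multiplier is described through stem extensions, as in the definitions. -/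
theorem result {F : Type*} [Field F] [Fintype F] {q : ℕ} (hF : Fintype.card F = q) (l : ℕ) (hl : 4 ≤ l) (a b : F) (hab : ∀ z₁ z₂ : F, z₁ ^ 2 + a * z₁ * z₂ + b * z₂ ^ 2 = 0 → z₁ = 0 ∧ z₂ = 0) : Cfsg.HasCyclicSchurMultiplier (Cfsg.POmega F (Cfsg.quadFormMinus (l - 1) F a b)) (Nat.gcd 4 (q ^ l + 1)) := by
  have hA := Cfsg.Agent.Classical.anisotropic_binQF hab
  obtain ⟨k, rfl⟩ : ∃ k, l = k + 4 := ⟨l - 4, by omega⟩
  obtain ⟨h1, h2, h3⟩ := Cfsg.Agent.CentralExt.MinusMult.data hA k
  obtain ⟨e⟩ := Cfsg.Agent.Classical.nonempty_POmega_equiv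
    (Cfsg.quadFormMinus (k + 3) F a b) (Cfsg.Agent.Classical.minusQF (k + 3) a b)
    (Cfsg.Agent.Classical.minusQF_apply (k + 3) a b)
    ((Cfsg.Agent.Classical.minusEquiv (k + 3)).trans (Cfsg.Agent.Classical.hypSplit (k + 2)))
    (fun v => by
      rw [LinearEquiv.trans_apply, Cfsg.Agent.Classical.hypSplit_spec,
        Cfsg.Agent.Classical.minusEquiv_spec]) h1 h2 h3
  have hq : Nat.card F = q := by rw [Nat.card_eq_fintype_card, hF]
  have h := Cfsg.Agent.CentralExt.hasSchurMultiplier_congr e.symm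
    (Cfsg.Agent.CentralExt.MinusMult.multiplier_minus hA k)
  rw [hq] at h
  exact h

end Cfsg.Agent.S2099
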