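import Cfsg.Statements.S2103
import Cfsg.Agent.Chev.UCE.Main

set_option autoImplicit false
open Cfsg

namespace Cfsg.Agent.S2103

/-- Schur multipliers of the Chevalley groups of type F₄: over a finite field with more than 2 elements the Schur multiplier of F₄(q) is trivial (here the Schur multiplier is described through stem extensions, as in the definitions); q = 2 is exceptional. -/
theorem result {F : Type*} [Field F] [Fintype F] (hF : 3 ≤ Fintype.card F) : Cfsg.HasCyclicSchurMultiplier ↥(Cfsg.Lie.chevF4.group F) 1 := by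
  have hS := Cfsg.Agent.Chev.rules_of_mem (D := Cfsg.Lie.chevF4) F (by simp)
  refine Cfsg.Agent.Chev.UCE.multiplier_group_of_bot hS (Cfsg.Agent.ChevGrp.perfectData_F4 F)
    (Cfsg.Agent.Chev.UCE.splits_of_sys hS fun E _ π hπ hc =>
      Cfsg.Agent.Chev.UCE.exists_sys_F4 _ hc hπ (Or.inl ?_))
    (Cfsg.Agent.ChevGrp.center_eq_bot_of_unimodular hS Cfsg.Agent.ChevGrp.unimodular_F4)
  rw [Nat.card_eq_fintype_card]
  omega

end Cfsg.Agent.S2103
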