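import Cfsg.Statements.S2105
import Cfsg.Agent.CentralExt.LacedMultiplier
import Cfsg.Agent.CentralExt.LacedE6
import Cfsg.Agent.CentralExt.EmbedE6
import Cfsg.Agent.Chev.Rules
import Cfsg.Agent.ChevGrp.PerfectData
-- import your own Cfsg.Agent.* helpers here

set_option autoImplicit false
open Cfsg

namespace Cfsg.Agent.S2105

/-- Schur multipliers of the (adjoint, simple) Chevalley groups of type E₆: over a field with q elements the Schur multiplier is cyclic of order gcd(3, q − 1) (here the Schur multiplier is described through stem extensions, as in the definitions). -/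
theorem result {F : Type*} [Field F] [Fintype F] {q : ℕ} (hF : Fintype.card F = q) : Cfsg.HasCyclicSchurMultiplier ↥(Cfsg.Lie.chevE6.group F) (Nat.gcd 3 (q - 1)) := by
  have hS := Cfsg.Agent.Chev.rules_of_mem (D := Cfsg.Lie.chevE6) F (by simp)
  have hS' := Cfsg.Agent.Chev.rules_of_mem (D := Cfsg.Lie.chevE7) F (by simp)
  obtain ⟨hcyc, hcard⟩ := Cfsg.Agent.CentralExt.Embed.center_cyclic hS hS'
    Cfsg.Agent.CentralExt.Embed.embedOK_E6 Cfsg.Agent.CentralExt.Embed.leftInverse_E6
    Cfsg.Agent.CentralExt.Embed.kerCert_E6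
  refine Cfsg.Agent.CentralExt.Laced.multiplier_group hS Cfsg.Agent.CentralExt.Laced.lacedOK_E6
    (Cfsg.Agent.ChevGrp.perfectData_E6 F) hcyc ?_
  rw [hcard, Nat.card_eq_fintype_card, hF]

end Cfsg.Agent.S2105
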