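import Cfsg.Statements.S2107
import Cfsg.Agent.CentralExt.LacedMultiplier
import Cfsg.Agent.CentralExt.LacedE8
import Cfsg.Agent.Chev.Rules
import Cfsg.Agent.ChevGrp.PerfectData
import Cfsg.Agent.ChevGrp.Unimodular
-- import your own Cfsg.Agent.* helpers here

set_option autoImplicit false
open Cfsg

namespace Cfsg.Agent.S2107

/-- Schur multipliers of the Chevalley groups of type E₈: over every finite field the Schur multiplier of E₈(q) is trivial (here the Schur multiplier is described through stem extensions, as in the definitions). -/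
theorem result {F : Type*} [Field F] [Fintype F] : Cfsg.HasCyclicSchurMultiplier ↥(Cfsg.Lie.chevE8.group F) 1 := by
  have hS := Cfsg.Agent.Chev.rules_of_mem (D := Cfsg.Lie.chevE8) F (by simp)
  have hbot := Cfsg.Agent.ChevGrp.center_eq_bot_of_unimodular hS Cfsg.Agent.ChevGrp.unimodular_E8
  refine Cfsg.Agent.CentralExt.Laced.multiplier_group hS Cfsg.Agent.CentralExt.Laced.lacedOK_E8
    (Cfsg.Agent.ChevGrp.perfectData_E8 F) ?_ ?_
  · rw [hbot]
    exact inferInstance
  · rw [hbot, Subgroup.card_bot]

end Cfsg.Agent.S2107
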