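import Cfsg.Statements.S2108
import Cfsg.Agent.TwE6Mult.PPart
import Cfsg.Agent.CentralExt.TwCells.E6Hom
import Cfsg.Agent.CentralExt.TwCells.E6Cover

set_option autoImplicit false
open Cfsg

namespace Cfsg.Agent.S2108

/-- Schur multipliers of the twisted groups of type ²E₆: for a prime power q ≠ 2, with the group realised over the field with q² elements, the Schur multiplier of ²E₆(q) is cyclic of order gcd(3, q + 1) (here the Schur multiplier is described through stem extensions, as in the definitions); q = 2 is exceptional. -/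
theorem result {K : Type*} [Field K] [Fintype K] {q : ℕ} (hq : IsPrimePow q) (hK : Fintype.card K = q ^ 2) (h2 : q ≠ 2) : Cfsg.HasCyclicSchurMultiplier ↥(Cfsg.Lie.twistedE6 K q) (Nat.gcd 3 (q + 1)) := by
  classical
  haveI : Finite ↥(Cfsg.Lie.twistedE6 K q) := inferInstance
  obtain ⟨p, hp⟩ := CharP.exists K
  obtain ⟨n, hpp, -⟩ := FiniteField.card K p
  haveI : Fact p.Prime := ⟨hpp⟩
  set M := Cfsg.Agent.CentralExt.schurMult ↥(Cfsg.Lie.twistedE6 K q)
  have hdvd : Nat.card M ∣ Nat.gcd 3 (q + 1) := by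
    refine (Nat.factorization_prime_le_iff_dvd Nat.card_pos.ne'
      (Nat.gcd_pos_of_pos_left _ (by norm_num)).ne').1 fun r hr => ?_
    haveI : Fact r.Prime := ⟨hr⟩
    by_cases hrp : r = p
    · subst hrp
      rw [Nat.factorization_eq_zero_of_not_dvd (Cfsg.Agent.TwE6Mult.not_dvd_char hq hK h2 r)]
      exact Nat.zero_le _
    · obtain ⟨W, iW, fW, θ, hθ, ⟨e⟩⟩ := Cfsg.Agent.CentralExt.exists_schurCover ↥(Cfsg.Lie.twistedE6 K q)
      obtain ⟨W', iW', fW', θ', hθ', hk, hcard⟩ := Cfsg.Agent.CentralExt.exists_pgroup_quotient hθ r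
      have h := Cfsg.Agent.CentralExt.TwCells.card_ker_dvd_E6 hq hK (p := p) (r := r) (fun h => hrp h.symm) hθ' hk
      rw [hcard, Nat.card_congr e.toEquiv] at h
      exact (hr.pow_dvd_iff_le_factorization (Nat.gcd_pos_of_pos_left _ (by norm_num)).ne').1 h
  rw [Cfsg.Agent.CentralExt.hasCyclicSchurMultiplier_iff]
  rcases (Nat.dvd_prime Nat.prime_three).1 (Nat.gcd_dvd_left 3 (q + 1)) with h | h
  · rw [h] at hdvd ⊢
    have h1 := Nat.dvd_one.1 hdvd
    haveI := (Nat.card_eq_one_iff_unique.1 h1).1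
    exact ⟨isCyclic_of_subsingleton, h1⟩
  · haveI : Fact (Nat.Prime 3) := ⟨Nat.prime_three⟩
    have h3 : 3 ∣ q + 1 := h ▸ Nat.gcd_dvd_right 3 (q + 1)
    have h1 : Nat.card M = 3 :=
      Nat.dvd_antisymm (h ▸ hdvd) (Cfsg.Agent.CentralExt.TwCells.three_dvd_schurMult_E6 hq hK h3)
    exact ⟨isCyclic_of_prime_card h1, h.symm ▸ h1⟩

end Cfsg.Agent.S2108
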