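import Cfsg.Statements.S2110
import Cfsg.Agent.CentralExt.D4PTwo

set_option autoImplicit false
open Cfsg

namespace Cfsg.Agent.S2110

/-- Schur multipliers of the triality-twisted groups ³D₄: for every prime power q, with the group realised over the field with q³ elements, the Schur multiplier of ³D₄(q) is trivial (here the Schur multiplier is described through stem extensions, as in the definitions). -/
theorem result {K : Type*} [Field K] [Fintype K] {q : ℕ} (hq : IsPrimePow q) (hK : Fintype.card K = q ^ 3) : Cfsg.HasCyclicSchurMultiplier ↥(Cfsg.Lie.twistedD4 K q) 1 := by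
  refine Cfsg.Agent.CentralExt.hasCyclicSchurMultiplier_one_of_not_dvd fun r hr => ?_
  have : Fact r.Prime := ⟨hr⟩
  refine Cfsg.Agent.CentralExt.not_dvd_card_schurMult_of_forall r fun Δ _ _ τ hτ hk => ?_
  obtain ⟨p, f, hp, hf, rfl⟩ := hq
  have hp' : p.Prime := Nat.prime_iff.2 hp
  have : Fact p.Prime := ⟨hp'⟩
  have hq' : IsPrimePow (p ^ f) := ⟨p, f, hp, hf, rfl⟩
  by_cases hne : p = r
  · subst hne
    rcases eq_or_ne (p ^ f) 2 with h2 | h2
    · obtain rfl : p = 2 :=
        (Nat.prime_dvd_prime_iff_eq hp' Nat.prime_two).1 (h2 ▸ dvd_pow_self p hf.ne')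
      exact Cfsg.Agent.CentralExt.D4M.ker_eq_bot_two hq' hK hτ.2.1 hτ.1 h2 hτ.2.2 hk
    · exact Cfsg.Agent.CentralExt.D4M.ker_eq_bot_ge hq' hK hτ.2.1 hτ.1 ⟨f, rfl⟩ hτ.2.2 hk
        (by have := hq'.one_lt; omega)
  · exact Cfsg.Agent.CentralExt.D4M.ker_eq_bot_of_ne hq' hK hne ⟨f, rfl⟩ τ hτ hk

end Cfsg.Agent.S2110
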