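import Cfsg.Statements.S2111
import Cfsg.Agent.CentralExt.Suzuki

set_option autoImplicit false
open Cfsg

namespace Cfsg.Agent.S2111

/-- Schur multipliers of the Suzuki groups: for q = 2^(2m+1) with m ≥ 2 the Schur multiplier of Sz(q) is trivial (here the Schur multiplier is described through stem extensions, as in the definitions); q = 8 is exceptional. -/
theorem result {F : Type*} [Field F] [Fintype F] {m : ℕ} (hm : 2 ≤ m) (hF : Fintype.card F = 2 ^ (2 * m + 1)) : Cfsg.HasCyclicSchurMultiplier ↥(Cfsg.Lie.Sz F (2 ^ (m + 1))) 1 := by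
  haveI : Cfsg.Agent.Suzuki.SuzukiField F m := ⟨by omega, hF⟩
  exact Cfsg.Agent.CentralExt.hasSchurMultiplier_congr (Cfsg.Agent.Suzuki.szEquivLie F m)
    (Cfsg.Agent.CentralExt.Suzuki.hasCyclicSchurMultiplier_sz hm)

end Cfsg.Agent.S2111
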