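import Cfsg.Statements.S2114
import Cfsg.Agent.ReeF4Mult.Two
import Cfsg.Agent.CentralExt.TwCells.F4Torus

set_option autoImplicit false
open Cfsg

namespace Cfsg.Agent.S2114

/-- Schur multipliers of the large Ree groups: for q = 2^(2m+1) with m ≥ 1 the Schur multiplier of ²F₄(q) is trivial (here the Schur multiplier is described through stem extensions, as in the definitions). -/
theorem result {K : Type*} [Field K] [Fintype K] {m : ℕ} (hm : 1 ≤ m) (hK : Fintype.card K = 2 ^ (2 * m + 1)) : Cfsg.HasCyclicSchurMultiplier ↥(Cfsg.Lie.twistedF4 K (2 ^ m)) 1 := by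
  haveI : Finite ↥(Cfsg.Lie.twistedF4 K (2 ^ m)) := inferInstance
  refine Cfsg.Agent.CentralExt.hasCyclicSchurMultiplier_one_of_not_dvd fun r hr => ?_
  haveI : Fact r.Prime := ⟨hr⟩
  by_cases h2 : r = 2
  · subst h2
    exact Cfsg.Agent.ReeF4Mult.not_two_dvd hm hK
  · by_cases hq : r ∣ 2 ^ (2 * m + 1) - 1
    · exact Cfsg.Agent.CentralExt.TwCells.not_dvd_torus hK h2 hq
    · exact Cfsg.Agent.CentralExt.TwCells.not_dvd_cells hK h2 hq

end Cfsg.Agent.S2114
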