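import Cfsg.Statements.S2121
import Cfsg.Agent.KSG.AutSym
import Cfsg.Agent.Chev.FieldFix
import Cfsg.Agent.ChevGrp.Unimodular
-- import your own Cfsg.Agent.* helpers here

set_option autoImplicit false
open Cfsg

namespace Cfsg.Agent.S2121

/-- Outer automorphisms of the Chevalley groups of type G₂: over a field with q = p^f (p prime) ≥ 3 elements, the outer automorphism group of G₂(q) has order f when p ≠ 3 and 2f when p = 3 (field automorphisms, and in characteristic 3 also the exceptional graph automorphism). -/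
theorem result {F : Type*} [Field F] [Fintype F] (p f : ℕ) [Fact p.Prime] [CharP F p] (hF : Fintype.card F = p ^ f) (hq : 3 ≤ p ^ f) : Nat.card (Cfsg.Out ↥(Cfsg.Lie.chevG2.group F)) = (if p = 3 then 2 * f else f) := by
  have hD : Cfsg.Lie.chevG2 ∈ [Cfsg.Lie.chevG2, Cfsg.Lie.chevB2, Cfsg.Lie.chevD4, Cfsg.Lie.chevF4,
      Cfsg.Lie.chevE6, Cfsg.Lie.chevE7, Cfsg.Lie.chevE8] := by simp
  have hS := Cfsg.Agent.Chev.rules_of_mem F hD
  obtain ⟨len, hR⟩ := hS.root
  rw [Cfsg.Agent.KSG.Aut.card_out hS hR (Cfsg.Agent.KSG.Aut.chainEdgeOK_of_mem hD)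
    (Cfsg.Agent.KSG.chainStepOK_of_mem hD) hD, Cfsg.Agent.KSG.Aut.card_ringAut hF,
    Cfsg.Agent.Chev.FieldFix.rootKer_eq_bot Cfsg.Agent.ChevGrp.unimodular_G2, Subgroup.card_bot,
    Cfsg.Agent.KSG.Aut.card_realised_G2, ringChar.eq F p, one_mul]
  split_ifs <;> simp

end Cfsg.Agent.S2121
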