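import Cfsg.Statements.S2122
import Cfsg.Agent.KSG.AutSym
import Cfsg.Agent.Chev.FieldFix
import Cfsg.Agent.ChevGrp.Unimodular
-- import your own Cfsg.Agent.* helpers here

set_option autoImplicit false
open Cfsg

namespace Cfsg.Agent.S2122

/-- Outer automorphisms of the Chevalley groups of type F₄: over a field with q = p^f (p prime) elements, the outer automorphism group of F₄(q) has order gcd(2, p) · f (field automorphisms, and in characteristic 2 also the exceptional graph automorphism). -/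
theorem result {F : Type*} [Field F] [Fintype F] (p f : ℕ) [Fact p.Prime] [CharP F p] (hF : Fintype.card F = p ^ f) : Nat.card (Cfsg.Out ↥(Cfsg.Lie.chevF4.group F)) = Nat.gcd 2 p * f := by
  have hD : Cfsg.Lie.chevF4 ∈ [Cfsg.Lie.chevG2, Cfsg.Lie.chevB2, Cfsg.Lie.chevD4, Cfsg.Lie.chevF4,
      Cfsg.Lie.chevE6, Cfsg.Lie.chevE7, Cfsg.Lie.chevE8] := by simp
  have hS := Cfsg.Agent.Chev.rules_of_mem F hD
  obtain ⟨len, hR⟩ := hS.root
  rw [Cfsg.Agent.KSG.Aut.card_out hS hR (Cfsg.Agent.KSG.Aut.chainEdgeOK_of_mem hD)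
    (Cfsg.Agent.KSG.chainStepOK_of_mem hD) hD, Cfsg.Agent.KSG.Aut.card_ringAut hF,
    Cfsg.Agent.Chev.FieldFix.rootKer_eq_bot Cfsg.Agent.ChevGrp.unimodular_F4, Subgroup.card_bot,
    Cfsg.Agent.KSG.Aut.card_realised_F4, ringChar.eq F p, one_mul]
  congr 1
  split_ifs with h
  · subst h; rfl
  · exact (show Nat.gcd 2 p = 1 from (Nat.coprime_primes Nat.prime_two (Fact.out : p.Prime)).2 (Ne.symm h)).symm

end Cfsg.Agent.S2122
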