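import Cfsg.Statements.S2123
import Cfsg.Agent.KSG.AutSym
import Cfsg.Agent.CentralExt.EmbedE6
-- import your own Cfsg.Agent.* helpers here

set_option autoImplicit false
open Cfsg

namespace Cfsg.Agent.S2123

/-- Outer automorphisms of the (adjoint, simple) Chevalley groups of type E₆: over a field with q = p^f (p prime) elements, the outer automorphism group of E₆(q) has order 2 · gcd(3, q − 1) · f (diagonal, field and graph automorphisms). -/
theorem result {F : Type*} [Field F] [Fintype F] (p f : ℕ) [Fact p.Prime] [CharP F p] (hF : Fintype.card F = p ^ f) : Nat.card (Cfsg.Out ↥(Cfsg.Lie.chevE6.group F)) = 2 * Nat.gcd 3 (p ^ f - 1) * f := by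
  have hD : Cfsg.Lie.chevE6 ∈ [Cfsg.Lie.chevG2, Cfsg.Lie.chevB2, Cfsg.Lie.chevD4, Cfsg.Lie.chevF4,
      Cfsg.Lie.chevE6, Cfsg.Lie.chevE7, Cfsg.Lie.chevE8] := by simp
  have hS := Cfsg.Agent.Chev.rules_of_mem F hD
  obtain ⟨len, hR⟩ := hS.root
  rw [Cfsg.Agent.KSG.Aut.card_out hS hR (Cfsg.Agent.KSG.Aut.chainEdgeOK_of_mem hD)
    (Cfsg.Agent.KSG.chainStepOK_of_mem hD) hD, Cfsg.Agent.KSG.Aut.card_ringAut hF,
    (Cfsg.Agent.CentralExt.Embed.rootKer_cyclic Cfsg.Agent.CentralExt.Embed.kerCert_E6).2,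
    Cfsg.Agent.KSG.Aut.card_realised_E6, Nat.card_eq_fintype_card, hF]
  ring

end Cfsg.Agent.S2123
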