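import Cfsg.Statements.S2141
import Cfsg.Agent.MinSp.Bound

set_option autoImplicit false
open Cfsg

namespace Cfsg.Agent.S2141

open Cfsg.Agent.Linear.Symp

attribute [local instance] pointAction

/-- Minimal index of a proper subgroup of the symplectic groups over fields with at least 3 elements: for m ≥ 2 and a field F with q ≥ 3 elements, (m, q) ≠ (2, 3), every proper subgroup of PSp_2m(F) has index at least (q^(2m) − 1)/(q − 1), and that index is attained. -/
theorem result {F : Type*} [Field F] [Fintype F] {q : ℕ} (hF : Fintype.card F = q) (m : ℕ) (hm : 2 ≤ m) (hq : 3 ≤ q) (hexc : ¬ (m = 2 ∧ q = 3)) : (∀ H : Subgroup (Cfsg.PSp m F), H ≠ ⊤ → (q ^ (2 * m) - 1) / (q - 1) ≤ H.index) ∧ (∃ H : Subgroup (Cfsg.PSp m F), H.index = (q ^ (2 * m) - 1) / (q - 1)) := by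
  subst hF
  have hsurj := QuotientGroup.mk'_surjective
    (Subgroup.center (Matrix.symplecticGroup (Fin m) F))
  constructor
  · intro H hH
    set H0 := H.comap (QuotientGroup.mk' (Subgroup.center (Matrix.symplecticGroup (Fin m) F)))
      with hH0
    have hidx : H0.index = H.index := Subgroup.index_comap_of_surjective H hsurj
    rw [← hidx]
    have hne : H0 ≠ ⊤ := by
      intro e
      refine hH (Subgroup.index_eq_one.1 ?_)
      rw [← hidx, e, Subgroup.index_top]
    let _ : Fintype (Matrix.symplecticGroup (Fin m) F ⧸ H0) := Fintype.ofFinite _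
    rw [Subgroup.index_eq_card, Nat.card_eq_fintype_card]
    obtain ⟨g, -, hg⟩ := SetLike.exists_of_lt hne.lt_top
    exact Cfsg.Agent.MinSp.bound hq hm hexc ⟨g, (QuotientGroup.mk 1), fun e => hg (by
      rw [MulAction.Quotient.smul_mk, smul_eq_mul, mul_one, QuotientGroup.eq, mul_one,
        inv_mem_iff] at e
      exact e)⟩
  · let p : Projectivization F (Fin m ⊕ Fin m → F) :=
      Projectivization.mk F (Pi.single (Sum.inl ⟨0, by omega⟩) 1) (by simp)
    have hpre := isPreprimitive (F := F) (m := m)
    have : MulAction.IsPretransitive (Matrix.symplecticGroup (Fin m) F)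
        (Projectivization F (Fin m ⊕ Fin m → F)) := hpre.toIsPretransitive
    set S := MulAction.stabilizer (Matrix.symplecticGroup (Fin m) F) p with hS
    refine ⟨S.map (QuotientGroup.mk' _), ?_⟩
    have hle : Subgroup.center (Matrix.symplecticGroup (Fin m) F) ≤ S := by
      intro z hz
      have : NeZero m := ⟨by omega⟩
      obtain ⟨a, -, ha⟩ := center_scalar hz
      obtain ⟨hv', e⟩ := smul_mk z (v := Pi.single (Sum.inl ⟨0, by omega⟩) (1 : F)) (by simp)
      rw [hS, MulAction.mem_stabilizer_iff, show p = _ from rfl, e, Projectivization.mk_eq_mk_iff']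
      exact ⟨a, (ha _).symm⟩
    rw [Subgroup.index_map_eq _ hsurj (by rw [QuotientGroup.ker_mk']; exact hle),
      MulAction.index_stabilizer_of_transitive, Projectivization.card'', Nat.card_fun,
      Nat.card_sum, Nat.card_fin, Nat.card_eq_fintype_card (α := F), ← two_mul]

end Cfsg.Agent.S2141
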