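import Cfsg.Statements.S2142
import Cfsg.Agent.MinSp.TwoForm

set_option autoImplicit false
open Cfsg

namespace Cfsg.Agent.S2142

open Cfsg.Agent.Linear.Symp

/-- Minimal index of a proper subgroup of the symplectic groups over the field with 2 elements: for m ≥ 3, every proper subgroup of Sp_2m(2) has index at least 2^(m−1)(2^m − 1), and that index is attained. -/
theorem result {F : Type*} [Field F] [Fintype F] (hF : Fintype.card F = 2) (m : ℕ) (hm : 3 ≤ m) : (∀ H : Subgroup (Cfsg.PSp m F), H ≠ ⊤ → 2 ^ (m - 1) * (2 ^ m - 1) ≤ H.index) ∧ (∃ H : Subgroup (Cfsg.PSp m F), H.index = 2 ^ (m - 1) * (2 ^ m - 1)) := by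
  have hsurj := QuotientGroup.mk'_surjective
    (Subgroup.center (Matrix.symplecticGroup (Fin m) F))
  constructor
  · intro H hH
    set H0 := H.comap (QuotientGroup.mk' (Subgroup.center (Matrix.symplecticGroup (Fin m) F)))
      with hH0
    have hidx : H0.index = H.index := Subgroup.index_comap_of_surjective H hsurj
    rw [← hidx]
    have hne : H0 ≠ ⊤ := by
      intro e
      refine hH (Subgroup.index_eq_one.1 ?_)
      rw [← hidx, e, Subgroup.index_top]
    let _ : Fintype (Matrix.symplecticGroup (Fin m) F ⧸ H0) := Fintype.ofFinite _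
    rw [Subgroup.index_eq_card, Nat.card_eq_fintype_card]
    obtain ⟨g, -, hg⟩ := SetLike.exists_of_lt hne.lt_top
    exact Cfsg.Agent.MinSp.bound_two hF hm ⟨g, (QuotientGroup.mk 1), fun e => hg (by
      rw [MulAction.Quotient.smul_mk, smul_eq_mul, mul_one, QuotientGroup.eq, mul_one,
        inv_mem_iff] at e
      exact e)⟩
  · obtain ⟨S, hS⟩ := Cfsg.Agent.MinSp.exists_index_two (F := F) hF (show 1 ≤ m by omega)
    have : NeZero m := ⟨by omega⟩
    refine ⟨S.map (QuotientGroup.mk' _), ?_⟩
    have hbot : Subgroup.center (Matrix.symplecticGroup (Fin m) F) = ⊥ := by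
      refine Subgroup.eq_bot_of_card_eq _ ?_
      rw [card_center, hF]
      rfl
    rw [Subgroup.index_map_eq _ hsurj (by rw [QuotientGroup.ker_mk', hbot]; exact bot_le), hS]

end Cfsg.Agent.S2142
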