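import Cfsg.Statements.S2143
import Cfsg.Agent.MinIndex.OddResults
-- import your own Cfsg.Agent.* helpers here

set_option autoImplicit false
open Cfsg

namespace Cfsg.Agent.S2143

/-- Minimal index of a proper subgroup of the odd-dimensional orthogonal groups: for m ≥ 3 and a field F with q elements, q odd and q ≥ 5, every proper subgroup of PΩ_(2m+1)(F) (for the form x₀² + Σ xᵢyᵢ) has index at least (q^(2m) − 1)/(q − 1), and that index is attained. -/
theorem result {F : Type*} [Field F] [Fintype F] {q : ℕ} (hF : Fintype.card F = q) (hodd : Odd q) (h5 : 5 ≤ q) (m : ℕ) (hm : 3 ≤ m) : (∀ H : Subgroup (Cfsg.POmega F (Cfsg.quadFormOdd m F)), H ≠ ⊤ → (q ^ (2 * m) - 1) / (q - 1) ≤ H.index) ∧ (∃ H : Subgroup (Cfsg.POmega F (Cfsg.quadFormOdd m F)), H.index = (q ^ (2 * m) - 1) / (q - 1)) := by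
  classical
  have hq : Nat.card F = q := by rw [Nat.card_eq_fintype_card, hF]
  obtain ⟨j, rfl⟩ : ∃ j, m = j + 2 := ⟨m - 2, by omega⟩
  have h2 : (2 : F) ≠ 0 := Cfsg.Agent.Classical.two_ne_zero_of_odd (by rw [hq]; exact hodd)
  have hdvd : q - 1 ∣ q ^ (2 * (j + 2)) - 1 := by
    simpa using Nat.sub_dvd_pow_sub_pow q 1 (2 * (j + 2))
  have hT : (q ^ (2 * (j + 2)) - 1) / (q - 1) * (q - 1) = q ^ (2 * (j + 2)) - 1 :=
    Nat.div_mul_cancel hdvd
  refine ⟨Cfsg.Agent.MinIndex.odd_index_bound h2 (by omega) hq (by omega) (fun _ => h5)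
    fun n hn => ⟨?_, fun h3 => by omega⟩, ?_⟩
  · calc n * (q - 1) < (q ^ (2 * (j + 2)) - 1) / (q - 1) * (q - 1) :=
          Nat.mul_lt_mul_of_pos_right hn (by omega)
      _ = _ := hT
  · obtain ⟨H, hH⟩ := Cfsg.Agent.MinIndex.odd_index_singular h2 (j := j) (by omega) hq
    exact ⟨H, Nat.eq_of_mul_eq_mul_right (by omega : 0 < q - 1) (hH.trans hT.symm)⟩

end Cfsg.Agent.S2143
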