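import Cfsg.Statements.S2144
import Cfsg.Agent.MinIndex.OddResults
-- import your own Cfsg.Agent.* helpers here

set_option autoImplicit false
open Cfsg

namespace Cfsg.Agent.S2144

/-- Minimal index of a proper subgroup of the odd-dimensional orthogonal groups over the field with 3 elements: for m ≥ 3, every proper subgroup of PΩ_(2m+1)(3) (for the form x₀² + Σ xᵢyᵢ) has index at least 3^m(3^m − 1)/2, and that index is attained. -/
theorem result {F : Type*} [Field F] [Fintype F] (hF : Fintype.card F = 3) (m : ℕ) (hm : 3 ≤ m) : (∀ H : Subgroup (Cfsg.POmega F (Cfsg.quadFormOdd m F)), H ≠ ⊤ → 3 ^ m * (3 ^ m - 1) / 2 ≤ H.index) ∧ (∃ H : Subgroup (Cfsg.POmega F (Cfsg.quadFormOdd m F)), H.index = 3 ^ m * (3 ^ m - 1) / 2) := by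
  classical
  have hq : Nat.card F = 3 := by rw [Nat.card_eq_fintype_card, hF]
  obtain ⟨j, rfl⟩ : ∃ j, m = j + 2 := ⟨m - 2, by omega⟩
  have h2 : (2 : F) ≠ 0 := Cfsg.Agent.Classical.two_ne_zero_of_odd (by rw [hq]; decide)
  have hle : 3 ^ (j + 2) * (3 ^ (j + 2) - 1) ≤ 3 ^ (2 * (j + 2)) - 1 := by
    rw [Nat.mul_sub, mul_one, ← pow_add, ← two_mul]
    exact Nat.sub_le_sub_left (Nat.one_le_pow _ _ (by omega)) _
  refine ⟨Cfsg.Agent.MinIndex.odd_index_bound h2 (by omega) hq le_rfl (fun h => absurd rfl h)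
    fun n hn => ⟨by omega, fun _ => by omega⟩, ?_⟩
  obtain ⟨H, hH⟩ := Cfsg.Agent.MinIndex.odd_index_three (j := j) hq (by omega)
  exact ⟨H, by omega⟩

end Cfsg.Agent.S2144
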