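import Cfsg.Statements.S2145
import Cfsg.Agent.MinIndex.EvenResults
-- import your own Cfsg.Agent.* helpers here

set_option autoImplicit false
open Cfsg

namespace Cfsg.Agent.S2145

/-- Minimal index of a proper subgroup of the even-dimensional orthogonal groups of plus type: for m ≥ 4 and a field F with q ≥ 4 elements, every proper subgroup of PΩ⁺_2m(F) (for the form Σ xᵢyᵢ) has index at least (q^m − 1)(q^(m−1) + 1)/(q − 1), and that index is attained (the singular points). -/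
theorem result {F : Type*} [Field F] [Fintype F] {q : ℕ} (hF : Fintype.card F = q) (hq : 4 ≤ q) (m : ℕ) (hm : 4 ≤ m) : (∀ H : Subgroup (Cfsg.POmega F (Cfsg.quadFormPlus m F)), H ≠ ⊤ → (q ^ m - 1) * (q ^ (m - 1) + 1) / (q - 1) ≤ H.index) ∧ (∃ H : Subgroup (Cfsg.POmega F (Cfsg.quadFormPlus m F)), H.index = (q ^ m - 1) * (q ^ (m - 1) + 1) / (q - 1)) := by
  have hq' : Nat.card F = q := by rw [Nat.card_eq_fintype_card, hF]
  obtain ⟨i, rfl⟩ : ∃ i, m = i + 3 := ⟨m - 3, by omega⟩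
  rw [show i + 3 - 1 = i + 2 by omega]
  have hdvd : q - 1 ∣ (q ^ (i + 3) - 1) * (q ^ (i + 2) + 1) := by
    refine Dvd.dvd.mul_right ?_ _
    simpa using Nat.sub_dvd_pow_sub_pow q 1 (i + 3)
  have hT := Nat.div_mul_cancel hdvd
  refine ⟨Cfsg.Agent.MinIndex.plus_index_bound (by omega) hq' (fun _ => hq)
    fun n hn => ⟨?_, fun h2 => by omega⟩, ?_⟩
  · exact lt_of_lt_of_eq (Nat.mul_lt_mul_of_pos_right hn (by omega)) hT
  · obtain ⟨H, hH⟩ := Cfsg.Agent.MinIndex.plus_index_singular (i := i) (by omega) hq'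
    exact ⟨H, Nat.eq_of_mul_eq_mul_right (by omega : 0 < q - 1) (hH.trans hT.symm)⟩

end Cfsg.Agent.S2145
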