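import Cfsg.Statements.S2146
import Cfsg.Agent.MinIndex.EvenResults
-- import your own Cfsg.Agent.* helpers here

set_option autoImplicit false
open Cfsg

namespace Cfsg.Agent.S2146

/-- Minimal index of a proper subgroup of the even-dimensional orthogonal groups of plus type over the field with 2 elements: for m ≥ 4, every proper subgroup of Ω⁺_2m(2) (for the form Σ xᵢyᵢ) has index at least 2^(m−1)(2^m − 1), and that index is attained. -/
theorem result {F : Type*} [Field F] [Fintype F] (hF : Fintype.card F = 2) (m : ℕ) (hm : 4 ≤ m) : (∀ H : Subgroup (Cfsg.POmega F (Cfsg.quadFormPlus m F)), H ≠ ⊤ → 2 ^ (m - 1) * (2 ^ m - 1) ≤ H.index) ∧ (∃ H : Subgroup (Cfsg.POmega F (Cfsg.quadFormPlus m F)), H.index = 2 ^ (m - 1) * (2 ^ m - 1)) := by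
  have hq' : Nat.card F = 2 := by rw [Nat.card_eq_fintype_card, hF]
  obtain ⟨i, rfl⟩ : ∃ i, m = i + 3 := ⟨m - 3, by omega⟩
  rw [show i + 3 - 1 = i + 2 by omega]
  have hle : 2 ^ (i + 2) * (2 ^ (i + 3) - 1) ≤ (2 ^ (i + 3) - 1) * (2 ^ (i + 2) + 1) := by
    rw [mul_comm]
    exact Nat.mul_le_mul_left _ (Nat.le_succ _)
  refine ⟨Cfsg.Agent.MinIndex.plus_index_bound (by omega) hq' (fun h => absurd rfl h)
    fun n hn => ⟨by omega, fun _ => hn⟩, ?_⟩
  exact Cfsg.Agent.MinIndex.plus_index_two hq' (by omega)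

end Cfsg.Agent.S2146
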