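import Cfsg.Statements.S2147
import Cfsg.Agent.MinIndex.EvenResults
-- import your own Cfsg.Agent.* helpers here

set_option autoImplicit false
open Cfsg

namespace Cfsg.Agent.S2147

/-- Minimal index of a proper subgroup of the even-dimensional orthogonal groups of minus type: for m ≥ 4 and a field F with q elements, every proper subgroup of PΩ⁻_2m(F) (for the form Σ_{i<m−1} xᵢyᵢ + z₁² + a z₁z₂ + b z₂² with anisotropic binary part) has index at least (q^m + 1)(q^(m−1) − 1)/(q − 1), and that index is attained. -/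
theorem result {F : Type*} [Field F] [Fintype F] {q : ℕ} (hF : Fintype.card F = q) (m : ℕ) (hm : 4 ≤ m) (a b : F) (hab : ∀ z₁ z₂ : F, z₁ ^ 2 + a * z₁ * z₂ + b * z₂ ^ 2 = 0 → z₁ = 0 ∧ z₂ = 0) : (∀ H : Subgroup (Cfsg.POmega F (Cfsg.quadFormMinus (m - 1) F a b)), H ≠ ⊤ → (q ^ m + 1) * (q ^ (m - 1) - 1) / (q - 1) ≤ H.index) ∧ (∃ H : Subgroup (Cfsg.POmega F (Cfsg.quadFormMinus (m - 1) F a b)), H.index = (q ^ m + 1) * (q ^ (m - 1) - 1) / (q - 1)) := by
  have hq' : Nat.card F = q := by rw [Nat.card_eq_fintype_card, hF]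
  obtain ⟨j, rfl⟩ : ∃ j, m = j + 3 := ⟨m - 3, by omega⟩
  have hA := Cfsg.Agent.Classical.anisotropic_binQF hab
  have hdvd : q - 1 ∣ (q ^ (j + 3) + 1) * (q ^ (j + 3 - 1) - 1) := by
    refine Dvd.dvd.mul_left ?_ _
    simpa using Nat.sub_dvd_pow_sub_pow q 1 (j + 3 - 1)
  have hT := Nat.div_mul_cancel hdvd
  have hq1 : 1 < q := hq' ▸ Finite.one_lt_card
  refine ⟨Cfsg.Agent.MinIndex.minus_index_bound hA (by omega) hq'
    fun n hn => lt_of_lt_of_eq (Nat.mul_lt_mul_of_pos_right hn (by omega)) hT, ?_⟩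
  obtain ⟨H, hH⟩ := Cfsg.Agent.MinIndex.minus_index_singular hA (j := j) (by omega) hq'
  exact ⟨H, Nat.eq_of_mul_eq_mul_right (by omega : 0 < q - 1) (hH.trans hT.symm)⟩

end Cfsg.Agent.S2147
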