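import Cfsg.Statements.S2151
import Cfsg.Agent.MinU.Results
-- import your own Cfsg.Agent.* helpers here

set_option autoImplicit false
open Cfsg

namespace Cfsg.Agent.S2151

/-- Minimal index of a proper subgroup of the unitary groups of odd dimension n ≥ 5: for a field F with q² elements, every proper subgroup of PSU_n(q) has index at least (q^n + 1)(q^(n−1) − 1)/(q² − 1), and that index is attained. -/
theorem result {F : Type*} [Field F] [Fintype F] (q : ℕ) (hF : Fintype.card F = q ^ 2) (hq : 2 ≤ q) (n : ℕ) (hn : 5 ≤ n) (hodd : Odd n) : (∀ H : Subgroup (Cfsg.PSU n F q), H ≠ ⊤ → (q ^ n + 1) * (q ^ (n - 1) - 1) / (q ^ 2 - 1) ≤ H.index) ∧ (∃ H : Subgroup (Cfsg.PSU n F q), H.index = (q ^ n + 1) * (q ^ (n - 1) - 1) / (q ^ 2 - 1)) := by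
  have hq' : Cfsg.Agent.Classical.U.SqField F q := Cfsg.Agent.Classical.U.sqField_of_fintype hF
  have h2 : 4 ≤ q ^ 2 := Nat.pow_le_pow_left hq 2
  have hT : (q ^ n + 1) * (q ^ (n - 1) - 1) / (q ^ 2 - 1) = Cfsg.Agent.MinU.isoN q n := by
    refine Nat.div_eq_of_eq_mul_left (by omega) ?_
    have h := Cfsg.Agent.MinU.isoN_closed hq' (n := n) (by omega)
    rw [hodd.neg_one_pow] at h
    have h1 : 1 ≤ q ^ (n - 1) := Nat.one_le_pow _ _ (by omega)
    zify [h1, (by omega : 1 ≤ q ^ 2)]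
    linear_combination -h
  rw [hT]
  refine ⟨?_, ?_⟩
  · rw [← Cfsg.Agent.MinU.Tn_iso (by omega) (fun h => (Nat.not_even_iff_odd.2 hodd) h.2)]
    exact Cfsg.Agent.MinU.index_bound hq' (by omega)
  · obtain ⟨m, rfl⟩ : ∃ m, n = m + 2 := ⟨n - 2, by omega⟩
    exact Cfsg.Agent.MinU.exists_index_iso hq'

end Cfsg.Agent.S2151
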