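import Cfsg.Statements.S2153
import Cfsg.Agent.MinU.Results
-- import your own Cfsg.Agent.* helpers here

set_option autoImplicit false
open Cfsg

namespace Cfsg.Agent.S2153

/-- Minimal index of a proper subgroup of the unitary groups PSU_n(2) with n divisible by 6, realised over the field with 4 elements: every proper subgroup has index at least 2^(n−1)(2^n − 1)/3, and that index is attained. -/
theorem result {F : Type*} [Field F] [Fintype F] (hF : Fintype.card F = 4) (n : ℕ) (hn : 6 ∣ n) (hpos : 6 ≤ n) : (∀ H : Subgroup (Cfsg.PSU n F 2), H ≠ ⊤ → 2 ^ (n - 1) * (2 ^ n - 1) / 3 ≤ H.index) ∧ (∃ H : Subgroup (Cfsg.PSU n F 2), H.index = 2 ^ (n - 1) * (2 ^ n - 1) / 3) := by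
  have hq' : Cfsg.Agent.Classical.U.SqField F 2 :=
    Cfsg.Agent.Classical.U.sqField_of_fintype (by rw [hF]; norm_num)
  have he : Even n := even_iff_two_dvd.2 (dvd_trans (by norm_num) hn)
  have hT : 2 ^ (n - 1) * (2 ^ n - 1) / 3 = Cfsg.Agent.MinU.Tn 2 n := by
    rw [Cfsg.Agent.MinU.Tn, if_neg (by omega), if_pos ⟨rfl, he⟩]
  rw [hT]
  exact ⟨Cfsg.Agent.MinU.index_bound hq' (by omega),
    Cfsg.Agent.MinU.exists_index_noniso hq' rfl (by omega) (by omega) he⟩

end Cfsg.Agent.S2153
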