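import Cfsg.Statements.S2156
import Cfsg.Agent.KSG.AutDecompose
-- import your own Cfsg.Agent.* helpers here

set_option autoImplicit false
open Cfsg

namespace Cfsg.Agent.S2156

/-- Over a finite field, every automorphism of the Chevalley group of type G₂, B₂, D₄, F₄, E₆, E₇ or E₈ is the composite of a field automorphism, a graph automorphism, a diagonal automorphism and an inner automorphism: `θ y = x · d(g(f y)) · x⁻¹` for some group element `x`, diagonal `d`, graph `g` and field `f` (each possibly the identity; diagonal here includes conjugation by elements of the diagonal subgroup H). -/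
theorem result {F : Type*} [Field F] [Finite F] (D : Cfsg.Lie.ChevalleyDatum) (hD : D ∈ [Cfsg.Lie.chevG2, Cfsg.Lie.chevB2, Cfsg.Lie.chevD4, Cfsg.Lie.chevF4, Cfsg.Lie.chevE6, Cfsg.Lie.chevE7, Cfsg.Lie.chevE8]) (θ : ↥(D.group F) ≃* ↥(D.group F)) :
    ∃ (x : ↥(D.group F)) (d g f : ↥(D.group F) ≃* ↥(D.group F)),
      D.IsDiagonalAut d ∧ D.IsGraphAut g ∧ D.IsFieldAut f ∧ ∀ y : ↥(D.group F), θ y = x * d (g (f y)) * x⁻¹ := by
  have hS := Cfsg.Agent.Chev.rules_of_mem F hD
  obtain ⟨len, hR⟩ := hS.root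
  obtain ⟨a, π, d, g, σ₀, hd, hπ, hg, e⟩ := Cfsg.Agent.KSG.Aut.exists_conj_dgf hS hD θ
  refine ⟨a, d, g, Cfsg.Agent.KSG.Aut.fieldAut D σ₀, hd,
    Cfsg.Agent.KSG.Aut.isGraphAut_of_graphOn hR hS hπ hg,
    Cfsg.Agent.KSG.Aut.fieldAut_isField hS σ₀, fun y => ?_⟩
  rw [e]
  rfl

end Cfsg.Agent.S2156
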