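import Cfsg.Statements.S2159
import Cfsg.Agent.KSG.AutD4
-- import your own Cfsg.Agent.* helpers here

set_option autoImplicit false
open Cfsg

namespace Cfsg.Agent.S2159

/-- Structure of the outer automorphism group of the Chevalley group `G` of type G₂, B₂, D₄, F₄, E₆, E₇ or E₈ over a finite field. Let `D̄` be the image in `Out(G)` of the subgroup generated by the diagonal automorphisms and `F̄` the image of the subgroup generated by the field automorphisms. Then `D̄` is a normal abelian subgroup of `Out(G)`, `F̄` is cyclic, `D̄F̄` is a normal subgroup, and the quotient of `Out(G)` by `D̄F̄` is trivial, of order 2, or non-abelian of order 6 (so isomorphic to the symmetric group on three letters): its index is 1 or 2, or it is 6 with the commutator subgroup of `Out(G)` not inside `D̄F̄`. -/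
theorem result {F : Type*} [Field F] [Finite F] (D : Cfsg.Lie.ChevalleyDatum) (hD : D ∈ [Cfsg.Lie.chevG2, Cfsg.Lie.chevB2, Cfsg.Lie.chevD4, Cfsg.Lie.chevF4, Cfsg.Lie.chevE6, Cfsg.Lie.chevE7, Cfsg.Lie.chevE8])
    (Dbar Fbar : Subgroup (Cfsg.Out ↥(D.group F)))
    (hDbar : Dbar = (Subgroup.closure {φ : MulAut ↥(D.group F) | D.IsDiagonalAut φ}).map (QuotientGroup.mk' (Cfsg.Inn ↥(D.group F))))
    (hFbar : Fbar = (Subgroup.closure {φ : MulAut ↥(D.group F) | D.IsFieldAut φ}).map (QuotientGroup.mk' (Cfsg.Inn ↥(D.group F)))) :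
    Dbar.Normal ∧ IsMulCommutative ↥Dbar ∧ IsCyclic ↥Fbar ∧ (Dbar ⊔ Fbar).Normal ∧
      ((Dbar ⊔ Fbar).index = 1 ∨ (Dbar ⊔ Fbar).index = 2 ∨
        ((Dbar ⊔ Fbar).index = 6 ∧ ¬ commutator (Cfsg.Out ↥(D.group F)) ≤ Dbar ⊔ Fbar)) := by
  subst hDbar hFbar
  have hS := Cfsg.Agent.Chev.rules_of_mem F hD
  obtain ⟨len, hR⟩ := hS.root
  have hE := Cfsg.Agent.KSG.Aut.chainEdgeOK_of_mem hD
  have hC := Cfsg.Agent.KSG.chainStepOK_of_mem hD
  rw [Cfsg.Agent.KSG.Aut.closure_diag hS hR hE hC, Cfsg.Agent.KSG.Aut.closure_field hS hR,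
    MonoidHom.map_range, MonoidHom.map_range]
  refine ⟨Cfsg.Agent.KSG.Aut.dOut_normal hS hR hE hC hD, inferInstance, ?_,
    Cfsg.Agent.KSG.Aut.dfOut_normal hS hR hE hC hD, ?_⟩
  · have := Cfsg.Agent.KSG.Aut.isCyclic_ringAut F
    exact isCyclic_of_surjective _ (MonoidHom.rangeRestrict_surjective
      (Cfsg.Agent.KSG.Aut.fOut hS hR))
  · change (_ ⊔ _ : Subgroup _).index = 1 ∨ _
    erw [Cfsg.Agent.KSG.Aut.index_dfOut hS hR hE hC hD]
    by_cases h4 : D = Cfsg.Lie.chevD4
    · subst h4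
      exact Or.inr (Or.inr ⟨Cfsg.Agent.KSG.Aut.card_realised_D4 hS,
        Cfsg.Agent.KSG.Aut.not_commutator_le_D4 hS hR hE hC hD⟩)
    · obtain ⟨l1, l2, -, l4, l5, l6, l7⟩ := Cfsg.Agent.KSG.Aut.symLists_length
      have hb : (Cfsg.Agent.KSG.Aut.symLists D D.rank).length ≤ 2 := by
        simp only [List.mem_cons, List.not_mem_nil, or_false] at hD
        rcases hD with rfl | rfl | rfl | rfl | rfl | rfl | rfl
        exacts [l1.le, l2.le, absurd rfl h4, l4.le, l5.le, l6.le.trans one_le_two, l7.le.trans one_le_two]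
      have hle := (Cfsg.Agent.KSG.Aut.ncard_le_symLists (Cfsg.Agent.KSG.Aut.realised hS)
        fun _ h => h.1).trans hb
      have : Nonempty ↥(Cfsg.Agent.KSG.Aut.realised hS) :=
        ⟨⟨1, Cfsg.Agent.KSG.Aut.one_mem_realised hS⟩⟩
      have hpos : 0 < Nat.card ↥(Cfsg.Agent.KSG.Aut.realised hS) := Nat.card_pos
      rcases Nat.lt_or_eq_of_le hle with h | h
      · exact Or.inl (by omega)
      · exact Or.inr (Or.inl h)

end Cfsg.Agent.S2159
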