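import Cfsg.Statements.S2160
import Cfsg.Agent.KSG.GraphRoots
import Cfsg.Agent.Chev.Rules
-- import your own Cfsg.Agent.* helpers here

set_option autoImplicit false
open Cfsg

namespace Cfsg.Agent.S2160

/-- In a Chevalley group of type G₂, B₂, D₄, F₄, E₆, E₇ or E₈ over a finite field, every field automorphism commutes with every graph automorphism. -/
theorem result {F : Type*} [Field F] [Finite F] (D : Cfsg.Lie.ChevalleyDatum) (hD : D ∈ [Cfsg.Lie.chevG2, Cfsg.Lie.chevB2, Cfsg.Lie.chevD4, Cfsg.Lie.chevF4, Cfsg.Lie.chevE6, Cfsg.Lie.chevE7, Cfsg.Lie.chevE8]) (f g : ↥(D.group F) ≃* ↥(D.group F))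
    (hf : D.IsFieldAut f) (hg : D.IsGraphAut g) (y : ↥(D.group F)) : f (g y) = g (f y) := by
  have hS := Cfsg.Agent.Chev.rules_of_mem F hD
  obtain ⟨len, hR⟩ := hS.root
  obtain ⟨σ, hσ⟩ := hf
  obtain ⟨π, -, hπ⟩ := hg
  have ext' : ∀ a b : ↥(D.group F),
      ((a : GL D.Idx F) : Matrix D.Idx D.Idx F) = ((b : GL D.Idx F) : Matrix D.Idx D.Idx F) → a = b :=
    fun a b h => Subtype.ext (Units.ext h)
  refine Cfsg.Agent.KSG.root_closure_induction hS hR (P := fun y => f (g y) = g (f y)) ?_ ?_ ?_ ?_ ?_ y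
  · simp
  · intro a b ha hb
    simp only [map_mul, ha, hb]
  · intro a ha
    simp only [map_inv, ha]
  · intro i t
    have hr := hR.simple_lt i i.2
    refine ext' _ _ ?_
    rw [hσ _ _ _ (hR.simple_lt (π i) (π i).2) ((hπ _ i t).1 (Cfsg.Agent.KSG.rootEl_val hS hr t)),
      (hπ _ i (σ t)).1 (hσ _ _ t hr (Cfsg.Agent.KSG.rootEl_val hS hr t)), map_pow]
  · intro i t
    have hr := hR.neg_lt _ (hR.simple_lt i i.2)
    refine ext' _ _ ?_
    rw [hσ _ _ _ (hR.neg_lt _ (hR.simple_lt (π i) (π i).2))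
        ((hπ _ i t).2 (Cfsg.Agent.KSG.rootEl_val hS hr t)),
      (hπ _ i (σ t)).2 (hσ _ _ t hr (Cfsg.Agent.KSG.rootEl_val hS hr t)), map_pow]

end Cfsg.Agent.S2160
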