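import Cfsg.Statements.S2298
import Cfsg.Agent.GL2Char.Values

set_option autoImplicit false
open Cfsg

namespace Cfsg.Agent.S2298

/-- Over a finite field F with q elements, every irreducible complex character of GL₂ has degree 1, q − 1, q or q + 1; and when q ≥ 3 (so that these four numbers are distinct) there are exactly q − 1 irreducible characters of degree 1, exactly q − 1 of degree q, exactly (q − 1)(q − 2)/2 of degree q + 1 and exactly q(q − 1)/2 of degree q − 1. -/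
theorem result {F : Type*} [Field F] [Fintype F] :
    (∀ χ : Matrix.GeneralLinearGroup (Fin 2) F → ℂ, Cfsg.IsIrrCharacter (Matrix.GeneralLinearGroup (Fin 2) F) χ →
      χ 1 = 1 ∨ χ 1 = (Fintype.card F : ℂ) - 1 ∨ χ 1 = (Fintype.card F : ℂ) ∨ χ 1 = (Fintype.card F : ℂ) + 1) ∧
    (3 ≤ Fintype.card F →
      Nat.card {χ : Cfsg.IrrCharacter (Matrix.GeneralLinearGroup (Fin 2) F) // (χ : Matrix.GeneralLinearGroup (Fin 2) F → ℂ) 1 = 1} = Fintype.card F - 1 ∧
      Nat.card {χ : Cfsg.IrrCharacter (Matrix.GeneralLinearGroup (Fin 2) F) // (χ : Matrix.GeneralLinearGroup (Fin 2) F → ℂ) 1 = (Fintype.card F : ℂ)} = Fintype.card F - 1 ∧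
      Nat.card {χ : Cfsg.IrrCharacter (Matrix.GeneralLinearGroup (Fin 2) F) // (χ : Matrix.GeneralLinearGroup (Fin 2) F → ℂ) 1 = (Fintype.card F : ℂ) + 1} = (Fintype.card F - 1) * (Fintype.card F - 2) / 2 ∧
      Nat.card {χ : Cfsg.IrrCharacter (Matrix.GeneralLinearGroup (Fin 2) F) // (χ : Matrix.GeneralLinearGroup (Fin 2) F → ℂ) 1 = (Fintype.card F : ℂ) - 1} = Fintype.card F * (Fintype.card F - 1) / 2) := by
  classical
  letI := Fintype.ofFinite (IrrCharacter (Matrix.GeneralLinearGroup (Fin 2) F))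
  have hdeg : ∀ χ : IrrCharacter (Matrix.GeneralLinearGroup (Fin 2) F),
      (χ : Matrix.GeneralLinearGroup (Fin 2) F → ℂ) 1 =
        ((charDegree (χ : Matrix.GeneralLinearGroup (Fin 2) F → ℂ) : ℕ) : ℂ) := fun χ =>
    (Char.irr_charDegree_spec χ.2).2
  have hq : 2 ≤ Fintype.card F := Fintype.one_lt_card
  have hcast : (Fintype.card F : ℂ) + 1 = ((Fintype.card F + 1 : ℕ) : ℂ) := by push_cast; rfl
  have hcast' : (Fintype.card F : ℂ) - 1 = ((Fintype.card F - 1 : ℕ) : ℂ) := by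
    rw [Nat.cast_sub (by omega), Nat.cast_one]
  refine ⟨fun χ hχ => ?_, fun h3 => ?_⟩
  · obtain ⟨χ', rfl⟩ : ∃ χ' : IrrCharacter (Matrix.GeneralLinearGroup (Fin 2) F),
        (χ' : Matrix.GeneralLinearGroup (Fin 2) F → ℂ) = χ := ⟨⟨χ, hχ⟩, rfl⟩
    rw [hdeg χ', hcast, hcast']
    rcases GL2Char.kinds χ' with ⟨-, e⟩ | ⟨-, e⟩ | ⟨-, e⟩ | ⟨-, e⟩ <;> rw [e] <;> simp
  · rw [hcast, hcast']
    simp only [← Nat.cast_one (R := ℂ), hdeg, Nat.cast_inj]
    obtain ⟨L, S, P, R, hL, hS, hP, hR, kL, kS, kP, kR, hall⟩ := GL2Char.classification (F := F)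
    have dL : ∀ χ ∈ L, charDegree (χ : Matrix.GeneralLinearGroup (Fin 2) F → ℂ) = 1 := fun χ h => by
      obtain ⟨α, rfl⟩ := kL χ h
      rw [GL2Char.degree_eq, (GL2Char.m_linI α).1, (GL2Char.m_linI α).2]; omega
    have dS : ∀ χ ∈ S, charDegree (χ : Matrix.GeneralLinearGroup (Fin 2) F → ℂ) = Fintype.card F := fun χ h => by
      obtain ⟨α, rfl⟩ := kS χ h
      rw [GL2Char.degree_eq, (GL2Char.m_stI α).1, (GL2Char.m_stI α).2]; omega
    have dP : ∀ χ ∈ P, charDegree (χ : Matrix.GeneralLinearGroup (Fin 2) F → ℂ) = Fintype.card F + 1 := fun χ h => by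
      obtain ⟨p, hp, rfl⟩ := kP χ h
      rw [GL2Char.degree_eq, (GL2Char.m_psI hp).1, (GL2Char.m_psI hp).2]; omega
    have dR : ∀ χ ∈ R, charDegree (χ : Matrix.GeneralLinearGroup (Fin 2) F → ℂ) = Fintype.card F - 1 := fun χ h => by
      rw [GL2Char.degree_eq, (kR χ h).1, (kR χ h).2]; omega
    have key : ∀ (n : ℕ) (A : Finset (IrrCharacter (Matrix.GeneralLinearGroup (Fin 2) F))) (k : ℕ), A.card = k →
        (∀ χ ∈ A, charDegree (χ : Matrix.GeneralLinearGroup (Fin 2) F → ℂ) = n) →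
        (∀ χ, χ ∉ A → charDegree (χ : Matrix.GeneralLinearGroup (Fin 2) F → ℂ) ≠ n) →
        Nat.card {χ : IrrCharacter (Matrix.GeneralLinearGroup (Fin 2) F) //
          charDegree (χ : Matrix.GeneralLinearGroup (Fin 2) F → ℂ) = n} = k := by
      intro n A k hk h h'
      rw [Nat.card_congr (Equiv.subtypeEquivRight fun χ =>
        show _ ↔ χ ∈ A from ⟨fun e => by_contra fun hn => h' χ hn e, h χ⟩),
        Nat.card_eq_finsetCard, hk]
    refine ⟨key _ L _ hL dL fun χ hn => ?_, key _ S _ hS dS fun χ hn => ?_,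
      key _ P _ (by omega) dP fun χ hn => ?_, key _ R _ (by omega) dR fun χ hn => ?_⟩
    all_goals
      rcases hall χ with h | h | h | h
      · first | exact absurd h hn | (rw [dL χ h]; omega)
      · first | exact absurd h hn | (rw [dS χ h]; omega)
      · first | exact absurd h hn | (rw [dP χ h]; omega)
      · first | exact absurd h hn | (rw [dR χ h]; omega)


end Cfsg.Agent.S2298
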