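import Cfsg.Statements.S2299
import Cfsg.Agent.SL2Char.OddDegrees

set_option autoImplicit false
open Cfsg

namespace Cfsg.Agent.S2299

/-- Over a finite field F with q elements, q odd, every irreducible complex character of SL₂ has degree 1, q, q + 1, q − 1, (q + 1)/2 or (q − 1)/2; and when q ≥ 5 (so that these six numbers are distinct) there are exactly one irreducible character of degree 1, one of degree q, (q − 3)/2 of degree q + 1, (q − 1)/2 of degree q − 1, two of degree (q + 1)/2 and two of degree (q − 1)/2. -/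
theorem result {F : Type*} [Field F] [Fintype F] (hodd : Odd (Fintype.card F)) :
    (∀ χ : Matrix.SpecialLinearGroup (Fin 2) F → ℂ, Cfsg.IsIrrCharacter (Matrix.SpecialLinearGroup (Fin 2) F) χ →
      χ 1 = 1 ∨ χ 1 = (Fintype.card F : ℂ) ∨ χ 1 = (Fintype.card F : ℂ) + 1 ∨ χ 1 = (Fintype.card F : ℂ) - 1 ∨
        χ 1 = (((Fintype.card F + 1) / 2 : ℕ) : ℂ) ∨ χ 1 = (((Fintype.card F - 1) / 2 : ℕ) : ℂ)) ∧
    (5 ≤ Fintype.card F →
      Nat.card {χ : Cfsg.IrrCharacter (Matrix.SpecialLinearGroup (Fin 2) F) // (χ : Matrix.SpecialLinearGroup (Fin 2) F → ℂ) 1 = 1} = 1 ∧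
      Nat.card {χ : Cfsg.IrrCharacter (Matrix.SpecialLinearGroup (Fin 2) F) // (χ : Matrix.SpecialLinearGroup (Fin 2) F → ℂ) 1 = (Fintype.card F : ℂ)} = 1 ∧
      Nat.card {χ : Cfsg.IrrCharacter (Matrix.SpecialLinearGroup (Fin 2) F) // (χ : Matrix.SpecialLinearGroup (Fin 2) F → ℂ) 1 = (Fintype.card F : ℂ) + 1} = (Fintype.card F - 3) / 2 ∧
      Nat.card {χ : Cfsg.IrrCharacter (Matrix.SpecialLinearGroup (Fin 2) F) // (χ : Matrix.SpecialLinearGroup (Fin 2) F → ℂ) 1 = (Fintype.card F : ℂ) - 1} = (Fintype.card F - 1) / 2 ∧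
      Nat.card {χ : Cfsg.IrrCharacter (Matrix.SpecialLinearGroup (Fin 2) F) // (χ : Matrix.SpecialLinearGroup (Fin 2) F → ℂ) 1 = (((Fintype.card F + 1) / 2 : ℕ) : ℂ)} = 2 ∧
      Nat.card {χ : Cfsg.IrrCharacter (Matrix.SpecialLinearGroup (Fin 2) F) // (χ : Matrix.SpecialLinearGroup (Fin 2) F → ℂ) 1 = (((Fintype.card F - 1) / 2 : ℕ) : ℂ)} = 2) := by
  classical
  obtain ⟨ν, hν⟩ : ∃ ν : F, ¬ IsSquare ν := FiniteField.exists_nonsquare fun e => by
    have := FiniteField.even_card_of_char_two e
    exact (Nat.not_even_iff_odd.2 hodd) (Nat.even_iff.2 this)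
  obtain ⟨H, D, W, hH, hD, hW, kH, kD, kW, hall⟩ := SL2Char.odd_classification hν
  have hP := SL2Char.card_psSet_odd hν
  have d1 := SL2Char.charDegree_chiOne_odd hν
  have dS := SL2Char.charDegree_chiSt_odd hν
  have dP := fun χ (h : χ ∈ SL2Char.psSet F) => SL2Char.charDegree_psSet_odd hν h
  have hq1 : 1 ≤ Fintype.card F := Fintype.card_pos
  have hdeg : ∀ χ : IrrCharacter (Matrix.SpecialLinearGroup (Fin 2) F),
      (χ : Matrix.SpecialLinearGroup (Fin 2) F → ℂ) 1 =
        ((charDegree (χ : Matrix.SpecialLinearGroup (Fin 2) F → ℂ) : ℕ) : ℂ) := fun χ =>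
    (Char.irr_charDegree_spec χ.2).2
  have hcast : (Fintype.card F : ℂ) + 1 = ((Fintype.card F + 1 : ℕ) : ℂ) := by push_cast; rfl
  have hcast' : (Fintype.card F : ℂ) - 1 = ((Fintype.card F - 1 : ℕ) : ℂ) := by
    rw [Nat.cast_sub hq1, Nat.cast_one]
  refine ⟨fun χ hχ => ?_, fun h5 => ?_⟩
  · obtain ⟨χ', rfl⟩ : ∃ χ' : IrrCharacter (Matrix.SpecialLinearGroup (Fin 2) F),
        (χ' : Matrix.SpecialLinearGroup (Fin 2) F → ℂ) = χ := ⟨⟨χ, hχ⟩, rfl⟩
    rw [hdeg χ', hcast, hcast']
    rcases hall χ' with e | e | e | e | e | e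
    · left; rw [e, d1, Nat.cast_one]
    · right; left; rw [e, dS]
    · right; right; left; rw [dP χ' e]
    · right; right; right; right; left
      exact congrArg Nat.cast (by have := (kH χ' e).2.2.2; omega)
    · right; right; right; right; right
      exact congrArg Nat.cast (by have := (kD χ' e).2.2.2; omega)
    · right; right; right; left; rw [(kW χ' e).2.2.2]
  · rw [hcast, hcast']
    simp only [← Nat.cast_one (R := ℂ), hdeg, Nat.cast_inj]
    have key : ∀ (n : ℕ) (A : Finset (IrrCharacter (Matrix.SpecialLinearGroup (Fin 2) F))) (k : ℕ),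
        A.card = k →
        (∀ χ : IrrCharacter (Matrix.SpecialLinearGroup (Fin 2) F),
          charDegree (χ : Matrix.SpecialLinearGroup (Fin 2) F → ℂ) = n ↔ χ ∈ A) →
        Nat.card {χ : IrrCharacter (Matrix.SpecialLinearGroup (Fin 2) F) //
          charDegree (χ : Matrix.SpecialLinearGroup (Fin 2) F → ℂ) = n} = k := by
      intro n A k hk h
      rw [Nat.card_congr (Equiv.subtypeEquivRight h), Nat.card_eq_finsetCard, hk]
    have hd : ∀ χ : IrrCharacter (Matrix.SpecialLinearGroup (Fin 2) F),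
        (χ = SL2Char.chiOne F → charDegree (χ : Matrix.SpecialLinearGroup (Fin 2) F → ℂ) = 1) ∧
        (χ = SL2Char.chiSt F →
          charDegree (χ : Matrix.SpecialLinearGroup (Fin 2) F → ℂ) = Fintype.card F) :=
      fun χ => ⟨fun e => e ▸ d1, fun e => e ▸ dS⟩
    have hoddq : Fintype.card F % 2 = 1 := Nat.odd_iff.1 hodd
    refine ⟨key _ {SL2Char.chiOne F} _ (Finset.card_singleton _) fun χ => ?_,
      key _ {SL2Char.chiSt F} _ (Finset.card_singleton _) fun χ => ?_,
      key _ (SL2Char.psSet F) _ (by omega) fun χ => ?_,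
      key _ W _ (by omega) fun χ => ?_,
      key _ H _ hH fun χ => ?_,
      key _ D _ hD fun χ => ?_⟩
    · rw [Finset.mem_singleton]
      refine ⟨fun h => ?_, (hd χ).1⟩
      rcases hall χ with e | e | e | e | e | e
      · exact e
      · rw [(hd χ).2 e] at h; omega
      · rw [dP χ e] at h; omega
      · have := (kH χ e).2.2.2; omega
      · have := (kD χ e).2.2.2; omega
      · have := (kW χ e).2.2.2; omega
    · rw [Finset.mem_singleton]
      refine ⟨fun h => ?_, (hd χ).2⟩
      rcases hall χ with e | e | e | e | e | e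
      · rw [(hd χ).1 e] at h; omega
      · exact e
      · rw [dP χ e] at h; omega
      · have := (kH χ e).2.2.2; omega
      · have := (kD χ e).2.2.2; omega
      · have := (kW χ e).2.2.2; omega
    · refine ⟨fun h => ?_, dP χ⟩
      rcases hall χ with e | e | e | e | e | e
      · rw [(hd χ).1 e] at h; omega
      · rw [(hd χ).2 e] at h; omega
      · exact e
      · have := (kH χ e).2.2.2; omega
      · have := (kD χ e).2.2.2; omega
      · have := (kW χ e).2.2.2; omega
    · refine ⟨fun h => ?_, fun e => (kW χ e).2.2.2⟩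
      rcases hall χ with e | e | e | e | e | e
      · rw [(hd χ).1 e] at h; omega
      · rw [(hd χ).2 e] at h; omega
      · rw [dP χ e] at h; omega
      · have := (kH χ e).2.2.2; omega
      · have := (kD χ e).2.2.2; omega
      · exact e
    · refine ⟨fun h => ?_, fun e => by have := (kH χ e).2.2.2; omega⟩
      rcases hall χ with e | e | e | e | e | e
      · rw [(hd χ).1 e] at h; omega
      · rw [(hd χ).2 e] at h; omega
      · rw [dP χ e] at h; omega
      · exact e
      · have := (kD χ e).2.2.2; omega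
      · have := (kW χ e).2.2.2; omega
    · refine ⟨fun h => ?_, fun e => by have := (kD χ e).2.2.2; omega⟩
      rcases hall χ with e | e | e | e | e | e
      · rw [(hd χ).1 e] at h; omega
      · rw [(hd χ).2 e] at h; omega
      · rw [dP χ e] at h; omega
      · have := (kH χ e).2.2.2; omega
      · exact e
      · have := (kW χ e).2.2.2; omega

end Cfsg.Agent.S2299
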