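import Cfsg.Statements.S2300
import Cfsg.Agent.SL2Char.Even

set_option autoImplicit false
open Cfsg

namespace Cfsg.Agent.S2300

/-- Over a finite field F with q elements, q even, every irreducible complex character of SL₂ has degree 1, q − 1, q or q + 1; and when q ≥ 4 (so that these four numbers are distinct) there are exactly one irreducible character of degree 1, one of degree q, (q − 2)/2 of degree q + 1 and q/2 of degree q − 1. -/
theorem result {F : Type*} [Field F] [Fintype F] [CharP F 2] :
    (∀ χ : Matrix.SpecialLinearGroup (Fin 2) F → ℂ, Cfsg.IsIrrCharacter (Matrix.SpecialLinearGroup (Fin 2) F) χ →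
      χ 1 = 1 ∨ χ 1 = (Fintype.card F : ℂ) - 1 ∨ χ 1 = (Fintype.card F : ℂ) ∨ χ 1 = (Fintype.card F : ℂ) + 1) ∧
    (4 ≤ Fintype.card F →
      Nat.card {χ : Cfsg.IrrCharacter (Matrix.SpecialLinearGroup (Fin 2) F) // (χ : Matrix.SpecialLinearGroup (Fin 2) F → ℂ) 1 = 1} = 1 ∧
      Nat.card {χ : Cfsg.IrrCharacter (Matrix.SpecialLinearGroup (Fin 2) F) // (χ : Matrix.SpecialLinearGroup (Fin 2) F → ℂ) 1 = (Fintype.card F : ℂ)} = 1 ∧
      Nat.card {χ : Cfsg.IrrCharacter (Matrix.SpecialLinearGroup (Fin 2) F) // (χ : Matrix.SpecialLinearGroup (Fin 2) F → ℂ) 1 = (Fintype.card F : ℂ) + 1} = (Fintype.card F - 2) / 2 ∧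
      Nat.card {χ : Cfsg.IrrCharacter (Matrix.SpecialLinearGroup (Fin 2) F) // (χ : Matrix.SpecialLinearGroup (Fin 2) F → ℂ) 1 = (Fintype.card F : ℂ) - 1} = Fintype.card F / 2) := by
  classical
  have hq1 : 1 ≤ Fintype.card F := Fintype.card_pos
  obtain ⟨hP, hR, -⟩ := SL2Char.even_data (F := F)
  have hdeg : ∀ χ : IrrCharacter (Matrix.SpecialLinearGroup (Fin 2) F),
      (χ : Matrix.SpecialLinearGroup (Fin 2) F → ℂ) 1 =
        ((charDegree (χ : Matrix.SpecialLinearGroup (Fin 2) F → ℂ) : ℕ) : ℂ) := fun χ =>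
    (Char.irr_charDegree_spec χ.2).2
  have hcast : (Fintype.card F : ℂ) + 1 = ((Fintype.card F + 1 : ℕ) : ℂ) := by push_cast; rfl
  have hcast' : (Fintype.card F : ℂ) - 1 = ((Fintype.card F - 1 : ℕ) : ℂ) := by
    rw [Nat.cast_sub hq1, Nat.cast_one]
  refine ⟨fun χ hχ => ?_, fun h4 => ?_⟩
  · obtain ⟨χ', rfl⟩ : ∃ χ' : IrrCharacter (Matrix.SpecialLinearGroup (Fin 2) F),
        (χ' : Matrix.SpecialLinearGroup (Fin 2) F → ℂ) = χ := ⟨⟨χ, hχ⟩, rfl⟩
    rw [hdeg χ', hcast, hcast']
    rcases SL2Char.cases_irr χ' with e | e | e | e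
    · left; rw [e, SL2Char.charDegree_chiOne_even, Nat.cast_one]
    · right; right; left; rw [e, SL2Char.charDegree_chiSt_even]
    · right; right; right; rw [SL2Char.charDegree_psSet_even e]
    · right; left; rw [SL2Char.charDegree_rest_even e]
  · rw [hcast, hcast']
    simp only [← Nat.cast_one (R := ℂ), hdeg, Nat.cast_inj]
    have hfilt : ∀ (n : ℕ) (A : Finset (IrrCharacter (Matrix.SpecialLinearGroup (Fin 2) F))),
        (∀ χ : IrrCharacter (Matrix.SpecialLinearGroup (Fin 2) F), charDegree (χ : Matrix.SpecialLinearGroup (Fin 2) F → ℂ) = n ↔ χ ∈ A) →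
        Nat.card {χ : IrrCharacter (Matrix.SpecialLinearGroup (Fin 2) F) //
          charDegree (χ : Matrix.SpecialLinearGroup (Fin 2) F → ℂ) = n} = A.card := by
      intro n A h
      rw [Nat.card_congr (Equiv.subtypeEquivRight h), Nat.card_eq_finsetCard]
    have hclass : ∀ (χ : IrrCharacter (Matrix.SpecialLinearGroup (Fin 2) F)),
        (χ = SL2Char.chiOne F → charDegree (χ : Matrix.SpecialLinearGroup (Fin 2) F → ℂ) = 1) ∧
        (χ = SL2Char.chiSt F →
          charDegree (χ : Matrix.SpecialLinearGroup (Fin 2) F → ℂ) = Fintype.card F) :=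
      fun χ => ⟨fun e => e ▸ SL2Char.charDegree_chiOne_even,
        fun e => e ▸ SL2Char.charDegree_chiSt_even⟩
    refine ⟨?_, ?_, ?_, ?_⟩
    · refine (hfilt 1 {SL2Char.chiOne F} fun χ => ⟨fun h => ?_, fun h => ?_⟩).trans
        (Finset.card_singleton _)
      · rw [Finset.mem_singleton]
        rcases SL2Char.cases_irr χ with e | e | e | e
        · exact e
        · rw [(hclass χ).2 e] at h; omega
        · rw [SL2Char.charDegree_psSet_even e] at h; omega
        · rw [SL2Char.charDegree_rest_even e] at h; omega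
      · exact (hclass χ).1 (Finset.mem_singleton.1 h)
    · refine (hfilt _ {SL2Char.chiSt F} fun χ => ⟨fun h => ?_, fun h => ?_⟩).trans
        (Finset.card_singleton _)
      · rw [Finset.mem_singleton]
        rcases SL2Char.cases_irr χ with e | e | e | e
        · rw [(hclass χ).1 e] at h; omega
        · exact e
        · rw [SL2Char.charDegree_psSet_even e] at h; omega
        · rw [SL2Char.charDegree_rest_even e] at h; omega
      · exact (hclass χ).2 (Finset.mem_singleton.1 h)
    · rw [hfilt _ (SL2Char.psSet F) fun χ => ⟨fun h => ?_, SL2Char.charDegree_psSet_even⟩]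
      · omega
      · rcases SL2Char.cases_irr χ with e | e | e | e
        · rw [(hclass χ).1 e] at h; omega
        · rw [(hclass χ).2 e] at h; omega
        · exact e
        · rw [SL2Char.charDegree_rest_even e] at h; omega
    · rw [hfilt _ (SL2Char.rest F) fun χ => ⟨fun h => ?_, SL2Char.charDegree_rest_even⟩]
      · omega
      · rcases SL2Char.cases_irr χ with e | e | e | e
        · rw [(hclass χ).1 e] at h; omega
        · rw [(hclass χ).2 e] at h; omega
        · rw [SL2Char.charDegree_psSet_even e] at h; omega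
        · exact e

end Cfsg.Agent.S2300
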