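import Cfsg.Statements.S2301
import Cfsg.Agent.Linear.Classes
open Cfsg.Agent.Linear.Classes Matrix

set_option autoImplicit false
open Cfsg

namespace Cfsg.Agent.S2301

/-- Over a finite field with q elements of odd characteristic p, the elements of order p of SL₂ (the non-identity unipotent elements) fall into exactly two conjugacy classes, each of size (q² − 1)/2; two upper unitriangular matrices with non-zero off-diagonal entries b and b′ are conjugate exactly when bb′ is a square. -/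
theorem result {F : Type*} [Field F] [Fintype F] (p : ℕ) [Fact p.Prime] [CharP F p] (hp : p ≠ 2) :
    Nat.card {C : ConjClasses (Matrix.SpecialLinearGroup (Fin 2) F) // ∃ g : Matrix.SpecialLinearGroup (Fin 2) F, orderOf g = p ∧ ConjClasses.mk g = C} = 2 ∧
    (∀ g : Matrix.SpecialLinearGroup (Fin 2) F, orderOf g = p → Nat.card (ConjClasses.mk g).carrier = (Fintype.card F ^ 2 - 1) / 2) ∧
    ∀ g h : Matrix.SpecialLinearGroup (Fin 2) F, (g : Matrix (Fin 2) (Fin 2) F) 0 0 = 1 → (g : Matrix (Fin 2) (Fin 2) F) 1 1 = 1 → (g : Matrix (Fin 2) (Fin 2) F) 1 0 = 0 → (g : Matrix (Fin 2) (Fin 2) F) 0 1 ≠ 0 →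
      (h : Matrix (Fin 2) (Fin 2) F) 0 0 = 1 → (h : Matrix (Fin 2) (Fin 2) F) 1 1 = 1 → (h : Matrix (Fin 2) (Fin 2) F) 1 0 = 0 → (h : Matrix (Fin 2) (Fin 2) F) 0 1 ≠ 0 →
      (IsConj g h ↔ IsSquare ((g : Matrix (Fin 2) (Fin 2) F) 0 1 * (h : Matrix (Fin 2) (Fin 2) F) 0 1)) := by
  classical
  have h2 : (2 : F) ≠ 0 := Ring.two_ne_zero (by rw [ringChar.eq F p]; exact hp)
  have key : ∀ g : Matrix.SpecialLinearGroup (Fin 2) F, orderOf g = p ↔
      Nonscalar (g : Matrix (Fin 2) (Fin 2) F) ∧ (g : Matrix (Fin 2) (Fin 2) F).trace = 2 := by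
    intro g
    constructor
    · intro hg
      have hgp : g ^ p = 1 := by rw [← hg]; exact pow_orderOf_eq_one g
      obtain ⟨a, -, c⟩ := trace_of_pow_char p (A := (g : Matrix (Fin 2) (Fin 2) F))
        (by rw [← Matrix.SpecialLinearGroup.coe_pow, hgp, Matrix.SpecialLinearGroup.coe_one])
        (fun e => by
          rw [show g = 1 from Subtype.ext e, orderOf_one] at hg
          exact (Fact.out : p.Prime).ne_one hg.symm)
      exact ⟨c, a⟩
    · rintro ⟨hn, ht⟩
      refine orderOf_eq_prime ?_ (fun e => hn 1 (by rw [e, one_smul, Matrix.SpecialLinearGroup.coe_one]))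
      apply Subtype.ext
      show ((g ^ p : Matrix.SpecialLinearGroup (Fin 2) F) : Matrix (Fin 2) (Fin 2) F) = 1
      rw [Matrix.SpecialLinearGroup.coe_pow]
      have hN : ((g : Matrix (Fin 2) (Fin 2) F) - 1) ^ 2 = 0 := by
        rw [pow_two, sub_mul, mul_sub, cayley_hamilton, ht, two_smul]
        simp only [mul_one, one_mul]
        abel
      have hNp : ((g : Matrix (Fin 2) (Fin 2) F) - 1) ^ p = 0 :=
        pow_eq_zero_of_le (Fact.out : p.Prime).two_le hN
      rw [sub_pow_char_of_commute p (Commute.one_right _), one_pow, sub_eq_zero] at hNp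
      exact hNp
  obtain ⟨ν, hν⟩ : ∃ ν : F, ¬ IsSquare ν :=
    FiniteField.exists_nonsquare (by rw [ringChar.eq F p]; exact hp)
  have hν0 : ν ≠ 0 := by rintro rfl; exact hν ⟨0, by simp⟩
  let u : F → Matrix.SpecialLinearGroup (Fin 2) F := fun b => ⟨!![1, b; 0, 1], by simp⟩
  have hun : ∀ b, b ≠ 0 → Nonscalar (u b : Matrix (Fin 2) (Fin 2) F) := fun b hb c hc => hb (by
    simpa [u] using congrFun (congrFun hc 0) 1)
  have hut : ∀ b, (u b : Matrix (Fin 2) (Fin 2) F).trace = 2 := fun b => by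
    simp [u, Matrix.trace_fin_two]; norm_num
  have hsq : ∀ x : F × F, normForm (2 : F) 1 x = (x.1 + x.2) ^ 2 := fun x => by
    simp only [normForm]; ring
  have crit : ∀ (g h : Matrix.SpecialLinearGroup (Fin 2) F) (P : Matrix (Fin 2) (Fin 2) F),
      Nonscalar (g : Matrix (Fin 2) (Fin 2) F) → (g : Matrix (Fin 2) (Fin 2) F).trace = 2 → P.det ≠ 0 →
      (g : Matrix (Fin 2) (Fin 2) F) * P = P * (h : Matrix (Fin 2) (Fin 2) F) →
      (IsConj g h ↔ IsSquare P.det) := by
    intro g h P hg ht hP hPe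
    rw [isConj_SL_iff hg hP hPe, ht]
    constructor
    · rintro ⟨x, hx⟩
      rw [hsq] at hx
      exact ⟨(x.1 + x.2)⁻¹, by rw [← mul_inv, ← pow_two]; exact eq_inv_of_mul_eq_one_right hx⟩
    · rintro ⟨a, ha⟩
      have ha0 : a ≠ 0 := by rintro rfl; exact hP (by simp [ha])
      exact ⟨(a⁻¹, 0), by rw [hsq, ha]; field_simp; ring⟩
  have hconj : ∀ b c, b ≠ 0 → c ≠ 0 → (IsConj (u b) (u c) ↔ IsSquare (b * c)) := by
    intro b c hb hc
    have := crit (u b) (u c) !![b, 0; 0, c] (hun b hb) (hut b) (by simp [hb, hc]) (by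
      ext i j; fin_cases i <;> fin_cases j <;> simp [u, Matrix.mul_apply, Fin.sum_univ_two])
    simpa using this
  have hcase : ∀ g : Matrix.SpecialLinearGroup (Fin 2) F, orderOf g = p →
      IsConj g (u 1) ∨ IsConj g (u ν) := by
    intro g hg
    obtain ⟨hn, ht⟩ := (key g).1 hg
    obtain ⟨P, hP, hPe⟩ := exists_intertwiner hn (hun 1 one_ne_zero) (by rw [ht, hut])
      (by rw [g.det_coe, (u 1).det_coe])
    by_cases hs : IsSquare P.det
    · exact Or.inl ((crit g (u 1) P hn ht hP hPe).2 hs)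
    · refine Or.inr ((crit g (u ν) (P * !![1, 0; 0, ν]) hn ht ?_ ?_).2 ?_)
      · rw [Matrix.det_mul]; exact mul_ne_zero hP (by simpa using hν0)
      · rw [← Matrix.mul_assoc, hPe, Matrix.mul_assoc, Matrix.mul_assoc]
        congr 1
        ext i j; fin_cases i <;> fin_cases j <;> simp [u, Matrix.mul_apply, Fin.sum_univ_two]
      · rw [Matrix.det_mul]
        exact isSquare_mul_of_nonsquare h2 hs (by simpa using hν)
  refine ⟨?_, ?_, ?_⟩
  · rw [Nat.card_eq_two_iff]
    refine ⟨⟨ConjClasses.mk (u 1), u 1, (key _).2 ⟨hun 1 one_ne_zero, hut 1⟩, rfl⟩,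
      ⟨ConjClasses.mk (u ν), u ν, (key _).2 ⟨hun ν hν0, hut ν⟩, rfl⟩, ?_, ?_⟩
    · intro e
      have := (hconj 1 ν one_ne_zero hν0).1 (ConjClasses.mk_eq_mk_iff_isConj.1 (congrArg Subtype.val e))
      exact hν (by simpa using this)
    · refine Set.eq_univ_iff_forall.2 ?_
      rintro ⟨C, g, hg, rfl⟩
      rcases hcase g hg with h | h
      · exact Or.inl (Subtype.ext (ConjClasses.mk_eq_mk_iff_isConj.2 h))
      · exact Or.inr (Subtype.ext (ConjClasses.mk_eq_mk_iff_isConj.2 h))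
  · intro g hg
    obtain ⟨hn, ht⟩ := (key g).1 hg
    have hr : (1 : F) ^ 2 - (g : Matrix (Fin 2) (Fin 2) F).trace * 1 + 1 = 0 := by rw [ht]; ring
    have hc := card_centralizer_SL_one_root hn hr (by rw [ht, mul_one])
    rw [card_sq_one_odd h2] at hc
    have hmul := card_carrier_mul g
    rw [hc, Cfsg.Agent.Linear.card_SL_two] at hmul
    have e : Nat.card (ConjClasses.mk g).carrier * 2 = (Fintype.card F - 1) * (Fintype.card F + 1) := by
      refine Nat.eq_of_mul_eq_mul_right (Fintype.card_pos (α := F)) ?_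
      rw [mul_assoc, hmul]; ring
    rw [show Fintype.card F ^ 2 - 1 = (Fintype.card F - 1) * (Fintype.card F + 1) by
      rw [mul_comm, ← Nat.sq_sub_sq, one_pow], ← e, Nat.mul_div_cancel _ two_pos]
  · intro g h g00 g11 g10 g01 h00 h11 h10 h01
    have eg : g = u ((g : Matrix (Fin 2) (Fin 2) F) 0 1) := Cfsg.Agent.Linear.slTwo_ext (by simp [u, g00]) (by simp [u]) (by simp [u, g10]) (by simp [u, g11])
    have eh : h = u ((h : Matrix (Fin 2) (Fin 2) F) 0 1) := Cfsg.Agent.Linear.slTwo_ext (by simp [u, h00]) (by simp [u]) (by simp [u, h10]) (by simp [u, h11])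
    have hk := hconj _ _ g01 h01
    rwa [← eg, ← eh] at hk

end Cfsg.Agent.S2301
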