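import Cfsg.Statements.S2302
import Cfsg.Agent.Linear.Classes
open Cfsg.Agent.Linear.Classes Matrix

set_option autoImplicit false
open Cfsg

namespace Cfsg.Agent.S2302

/-- Over a finite field with q elements of characteristic 2, the involutions of SL₂ (the non-identity unipotent elements) form a single conjugacy class, of size q² − 1. -/
theorem result {F : Type*} [Field F] [Fintype F] [CharP F 2] (g h : Matrix.SpecialLinearGroup (Fin 2) F) (hg : orderOf g = 2) (hh : orderOf h = 2) :
    IsConj g h ∧ Nat.card (ConjClasses.mk g).carrier = Fintype.card F ^ 2 - 1 := by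
  classical
  have h2 : (2 : F) = 0 := CharTwo.two_eq_zero
  have key : ∀ g : Matrix.SpecialLinearGroup (Fin 2) F, orderOf g = 2 →
      Nonscalar (g : Matrix (Fin 2) (Fin 2) F) ∧ (g : Matrix (Fin 2) (Fin 2) F).trace = 0 := by
    intro g hg
    haveI : Fact (Nat.Prime 2) := ⟨Nat.prime_two⟩
    obtain ⟨a, b, c⟩ := trace_of_pow_char 2 (A := (g : Matrix (Fin 2) (Fin 2) F))
      (by rw [← Matrix.SpecialLinearGroup.coe_pow, show g ^ 2 = 1 from (orderOf_eq_iff (by norm_num)).1 hg |>.1, Matrix.SpecialLinearGroup.coe_one])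
      (fun e => by
        have : g = 1 := Subtype.ext e
        rw [this, orderOf_one] at hg
        omega)
    exact ⟨c, a.trans h2⟩
  obtain ⟨hgn, hgt⟩ := key g hg
  obtain ⟨hhn, hht⟩ := key h hh
  refine ⟨isConj_SL_of_trace hgn hhn (hgt.trans hht.symm) (Or.inl h2), ?_⟩
  have hroot : (1 : F) ^ 2 - (g : Matrix (Fin 2) (Fin 2) F).trace * 1 + 1 = 0 := by
    rw [hgt]; linear_combination h2
  have hc := card_centralizer_SL_one_root hgn hroot (by rw [hgt, h2, zero_mul])
  rw [card_sq_one_even h2, one_mul] at hc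
  have hmul := card_carrier_mul g
  rw [hc, Cfsg.Agent.Linear.card_SL_two, mul_comm (Fintype.card F) _] at hmul
  refine Nat.eq_of_mul_eq_mul_right (Fintype.card_pos (α := F)) (hmul.trans ?_)
  rw [mul_right_comm]
  congr 1
  rw [mul_comm, ← Nat.sq_sub_sq, one_pow]

end Cfsg.Agent.S2302
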