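import Cfsg.Statements.S2303
import Cfsg.Agent.Linear.Classes
open Cfsg.Agent.Linear.Classes Matrix

set_option autoImplicit false
open Cfsg

namespace Cfsg.Agent.S2303

/-- Over a finite field with q elements: a diagonal element of GL₂ with two distinct diagonal entries has centralizer of order (q − 1)² (so q(q + 1) conjugates), and an element of GL₂ with no eigenvector in F² has centralizer of order q² − 1 (so q(q − 1) conjugates). -/
theorem result {F : Type*} [Field F] [Fintype F] (g : Matrix.GeneralLinearGroup (Fin 2) F) :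
    ((g : Matrix (Fin 2) (Fin 2) F) 0 1 = 0 → (g : Matrix (Fin 2) (Fin 2) F) 1 0 = 0 → (g : Matrix (Fin 2) (Fin 2) F) 0 0 ≠ (g : Matrix (Fin 2) (Fin 2) F) 1 1 →
      Nat.card (Subgroup.centralizer ({g} : Set (Matrix.GeneralLinearGroup (Fin 2) F))) = (Fintype.card F - 1) ^ 2) ∧
    ((∀ (c : F) (v : Fin 2 → F), v ≠ 0 → (g : Matrix (Fin 2) (Fin 2) F).mulVec v ≠ c • v) →
      Nat.card (Subgroup.centralizer ({g} : Set (Matrix.GeneralLinearGroup (Fin 2) F))) = Fintype.card F ^ 2 - 1) := by
  refine ⟨fun h01 h10 hne => ?_, fun hirr => ?_⟩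
  · have hg : Nonscalar (g : Matrix (Fin 2) (Fin 2) F) := fun c hc => hne (by simp [hc])
    refine card_centralizer_GL_two_roots hg (r := (g : Matrix (Fin 2) (Fin 2) F) 0 0) ?_ ?_
    · rw [Matrix.trace_fin_two, Matrix.det_fin_two, h01, h10]; ring
    · rw [Matrix.trace_fin_two]; intro e; exact hne (by linear_combination -e)
  · have hg : Nonscalar (g : Matrix (Fin 2) (Fin 2) F) := fun c hc =>
      hirr c ![1, 0] (fun e => one_ne_zero (congrFun e 0)) (by rw [hc, Matrix.smul_mulVec, Matrix.one_mulVec])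
    refine card_centralizer_GL_no_root hg fun r hr => ?_
    have hdet : ((g : Matrix (Fin 2) (Fin 2) F) - r • (1 : Matrix (Fin 2) (Fin 2) F)).det = 0 := by
      rw [Matrix.det_fin_two] at hr ⊢
      rw [Matrix.trace_fin_two] at hr
      simp only [Matrix.sub_apply, Matrix.smul_apply, Matrix.one_apply_eq, smul_eq_mul,
        Matrix.one_apply_ne (show (0 : Fin 2) ≠ 1 by decide),
        Matrix.one_apply_ne (show (1 : Fin 2) ≠ 0 by decide)]
      linear_combination hr
    obtain ⟨v, hv, hv0⟩ := Matrix.exists_mulVec_eq_zero_iff.2 hdet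
    refine hirr r v hv ?_
    rw [Matrix.sub_mulVec, Matrix.smul_mulVec, Matrix.one_mulVec, sub_eq_zero] at hv0
    exact hv0

end Cfsg.Agent.S2303
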