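import Cfsg.Statements.S2307
import Cfsg.Agent.SL2Val.Halves

set_option autoImplicit false
open Cfsg

namespace Cfsg.Agent.S2307

/-- Over a finite field F with q elements, q odd, let α be the multiplicative character of F of order 2. The character of SL₂ induced from the linear character b ↦ α(b₁₁) of the upper triangular subgroup is the sum of two distinct irreducible characters, each of degree (q + 1)/2, which are conjugate under GL₂: some fixed element of GL₂ conjugates the one into the other. -/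
theorem result {F : Type*} [Field F] [Fintype F] [DecidableEq F] (hodd : Odd (Fintype.card F)) (α : MulChar F ℂ)
    (hα : α ^ 2 = 1) (hα1 : α ≠ 1) :
    ∃ χ₁ χ₂ : Matrix.SpecialLinearGroup (Fin 2) F → ℂ, Cfsg.IsIrrCharacter (Matrix.SpecialLinearGroup (Fin 2) F) χ₁ ∧ Cfsg.IsIrrCharacter (Matrix.SpecialLinearGroup (Fin 2) F) χ₂ ∧ χ₁ ≠ χ₂ ∧
      Cfsg.indFun ((Cfsg.upperTriangularGL 2 F).comap Matrix.SpecialLinearGroup.toGL) (fun b => α (((b : Matrix.SpecialLinearGroup (Fin 2) F) : Matrix (Fin 2) (Fin 2) F) 0 0)) = χ₁ + χ₂ ∧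
      χ₁ 1 = (((Fintype.card F + 1) / 2 : ℕ) : ℂ) ∧ χ₂ 1 = (((Fintype.card F + 1) / 2 : ℕ) : ℂ) ∧
      ∃ x : Matrix.GeneralLinearGroup (Fin 2) F, ∀ g h : Matrix.SpecialLinearGroup (Fin 2) F,
        Matrix.SpecialLinearGroup.toGL h = x * Matrix.SpecialLinearGroup.toGL g * x⁻¹ → χ₂ h = χ₁ g := by
  classical
  obtain ⟨ν, hν⟩ : ∃ ν : F, ¬ IsSquare ν := FiniteField.exists_nonsquare fun e => by
    have := FiniteField.even_card_of_char_two e
    exact (Nat.not_even_iff_odd.2 hodd) (Nat.even_iff.2 this)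
  have hν0 : ν ≠ 0 := SL2Char.ne_zero_of_nonsquare hν
  obtain ⟨θ, θ', hne, hdec, htw, h1, h1'⟩ := SL2Val.exists_split (ν := Units.mk0 ν hν0) hν
    (show α = α⁻¹ by rwa [← mul_eq_one_iff_eq_inv, ← sq]) hα1
  refine ⟨θ', θ, θ'.2, θ.2, fun e => hne (Subtype.ext e).symm, ?_, h1', h1,
    Linear.triGL (Units.mk0 ν hν0) 1 0, fun g h hgh => ?_⟩
  · show indFun Spec.Principal.borel (Spec.Principal.lift α) = _
    rw [← SL2Char.ps_eq, hdec, add_comm]
  · rw [← SL2Val.toGL_dil] at hgh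
    obtain rfl := Matrix.SpecialLinearGroup.toGL_injective hgh
    rw [← htw]
    rfl


end Cfsg.Agent.S2307
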