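import Cfsg.Statements.S2308
import Cfsg.Agent.Linear.Classes
open Cfsg.Agent.Linear.Classes Matrix

set_option autoImplicit false
open Cfsg

namespace Cfsg.Agent.S2308

/-- Values of the permutation character of GL₂ over a finite field F with q elements on the cosets of its upper triangular subgroup (equivalently, the number of lines of F² that an element maps to themselves): q + 1 at a scalar matrix, 2 at a diagonal matrix with two different diagonal entries, 0 at an element with no eigenvector in F², and 1 at an upper triangular matrix with equal diagonal entries and non-zero upper right entry. -/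
theorem result {F : Type*} [Field F] [Fintype F] (g : Matrix.GeneralLinearGroup (Fin 2) F) :
    ((∃ a : F, (g : Matrix (Fin 2) (Fin 2) F) = a • (1 : Matrix (Fin 2) (Fin 2) F)) → Cfsg.fixedPointCharacter (Cfsg.upperTriangularGL 2 F) g = Fintype.card F + 1) ∧
    ((g : Matrix (Fin 2) (Fin 2) F) 0 1 = 0 → (g : Matrix (Fin 2) (Fin 2) F) 1 0 = 0 → (g : Matrix (Fin 2) (Fin 2) F) 0 0 ≠ (g : Matrix (Fin 2) (Fin 2) F) 1 1 →
      Cfsg.fixedPointCharacter (Cfsg.upperTriangularGL 2 F) g = 2) ∧
    ((∀ (c : F) (v : Fin 2 → F), v ≠ 0 → (g : Matrix (Fin 2) (Fin 2) F).mulVec v ≠ c • v) → Cfsg.fixedPointCharacter (Cfsg.upperTriangularGL 2 F) g = 0) ∧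
    ((g : Matrix (Fin 2) (Fin 2) F) 1 0 = 0 → (g : Matrix (Fin 2) (Fin 2) F) 0 0 = (g : Matrix (Fin 2) (Fin 2) F) 1 1 → (g : Matrix (Fin 2) (Fin 2) F) 0 1 ≠ 0 →
      Cfsg.fixedPointCharacter (Cfsg.upperTriangularGL 2 F) g = 1) := by
  classical
  set H := Cfsg.upperTriangularGL 2 F
  have hmem : ∀ x : Matrix.GeneralLinearGroup (Fin 2) F, x ∈ H ↔ (x : Matrix (Fin 2) (Fin 2) F) 1 0 = 0 := by
    intro x
    constructor
    · intro h; exact h (i := 1) (j := 0) (by decide)
    · intro h i j hij
      fin_cases i <;> fin_cases j <;> first | exact h | exact absurd hij (by decide)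
  let low : F → Matrix.GeneralLinearGroup (Fin 2) F := fun a =>
    { val := !![1, 0; a, 1]
      inv := !![1, 0; -a, 1]
      val_inv := by ext i j; fin_cases i <;> fin_cases j <;> simp
      inv_val := by ext i j; fin_cases i <;> fin_cases j <;> simp }
  let w : Matrix.GeneralLinearGroup (Fin 2) F :=
    { val := !![0, 1; 1, 0]
      inv := !![0, 1; 1, 0]
      val_inv := by ext i j; fin_cases i <;> fin_cases j <;> simp
      inv_val := by ext i j; fin_cases i <;> fin_cases j <;> simp }
  have hlv : ∀ a, (low a : Matrix (Fin 2) (Fin 2) F) = !![1, 0; a, 1] := fun _ => rfl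
  have hli : ∀ a, ((low a)⁻¹ : Matrix.GeneralLinearGroup (Fin 2) F).val = !![1, 0; -a, 1] := fun _ => rfl
  have hwv : (w : Matrix (Fin 2) (Fin 2) F) = !![0, 1; 1, 0] := rfl
  have hwi : (w⁻¹ : Matrix.GeneralLinearGroup (Fin 2) F).val = !![0, 1; 1, 0] := rfl
  let rep : Option F → Matrix.GeneralLinearGroup (Fin 2) F := fun o => o.elim w low
  let f : Option F → Matrix.GeneralLinearGroup (Fin 2) F ⧸ H := fun o => QuotientGroup.mk (rep o)
  have hbij : Function.Bijective f := by
    constructor
    · intro o o2 h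
      have h1 := (hmem _).1 (QuotientGroup.eq.1 h)
      rcases o with _ | a <;> rcases o2 with _ | b <;>
        simp [rep, Units.val_mul, hlv, hli, hwv, hwi, Matrix.mul_apply, Fin.sum_univ_two] at h1
      · rfl
      · rw [show a = b by linear_combination -h1]
    · intro c
      obtain ⟨x, rfl⟩ := QuotientGroup.mk_surjective c
      by_cases hx : (x : Matrix (Fin 2) (Fin 2) F) 0 0 = 0
      · refine ⟨none, QuotientGroup.eq.2 ((hmem _).2 ?_)⟩
        simp [rep, Units.val_mul, hwi, Matrix.mul_apply, Fin.sum_univ_two, hx]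
      · refine ⟨some ((x : Matrix (Fin 2) (Fin 2) F) 1 0 / (x : Matrix (Fin 2) (Fin 2) F) 0 0),
          QuotientGroup.eq.2 ((hmem _).2 ?_)⟩
        simp [rep, Units.val_mul, hli, Matrix.mul_apply, Fin.sum_univ_two, hx]
  have hfix : ∀ o, f o ∈ MulAction.fixedBy (Matrix.GeneralLinearGroup (Fin 2) F ⧸ H) g ↔
      o.elim ((g : Matrix (Fin 2) (Fin 2) F) 0 1 = 0) (fun a =>
        (g : Matrix (Fin 2) (Fin 2) F) 1 0 + a * ((g : Matrix (Fin 2) (Fin 2) F) 1 1 - (g : Matrix (Fin 2) (Fin 2) F) 0 0)
          - a * a * (g : Matrix (Fin 2) (Fin 2) F) 0 1 = 0) := by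
    intro o
    have : f o ∈ MulAction.fixedBy (Matrix.GeneralLinearGroup (Fin 2) F ⧸ H) g ↔
        (rep o)⁻¹ * (g * rep o) ∈ H := by
      rw [MulAction.mem_fixedBy]
      show QuotientGroup.mk (g * rep o) = QuotientGroup.mk (rep o) ↔ _
      rw [eq_comm]
      exact QuotientGroup.eq
    rw [this, hmem]
    rcases o with _ | a <;> simp [rep, Units.val_mul, hlv, hli, hwv, hwi, Matrix.mul_apply, Fin.sum_univ_two]
    constructor <;> intro h <;> linear_combination h
  have hcard : Cfsg.fixedPointCharacter H g = ((Nat.card {o : Option F // o.elim ((g : Matrix (Fin 2) (Fin 2) F) 0 1 = 0) (fun a =>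
        (g : Matrix (Fin 2) (Fin 2) F) 1 0 + a * ((g : Matrix (Fin 2) (Fin 2) F) 1 1 - (g : Matrix (Fin 2) (Fin 2) F) 0 0)
          - a * a * (g : Matrix (Fin 2) (Fin 2) F) 0 1 = 0)} : ℕ) : ℂ) := by
    unfold Cfsg.fixedPointCharacter
    congr 1
    exact Nat.card_congr ((Equiv.ofBijective f hbij).subtypeEquiv (fun o => (hfix o).symm)).symm
  rw [hcard]
  refine ⟨fun ⟨c, hc⟩ => ?_, fun h01 h10 hne => ?_, fun hirr => ?_, fun h10 heq h01 => ?_⟩
  · rw [Nat.card_congr (Equiv.subtypeUnivEquiv fun o => by rcases o with _ | a <;> simp [hc]),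
      Finite.card_option, Nat.card_eq_fintype_card]
    push_cast; ring
  · norm_cast
    rw [Nat.card_eq_fintype_card, Fintype.card_subtype,
      show (Finset.univ.filter _ : Finset (Option F)) = {none, some 0} by
        ext o; rcases o with _ | a <;> simp [h01, h10, sub_eq_zero, hne.symm]]
    rfl
  · norm_cast
    rw [Nat.card_eq_zero]
    refine Or.inl ⟨fun ⟨o, ho⟩ => ?_⟩
    rcases o with _ | a
    · simp at ho
      exact hirr ((g : Matrix (Fin 2) (Fin 2) F) 1 1) ![0, 1] (fun e => one_ne_zero (congrFun e 1))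
        (by ext i; fin_cases i <;> simp [Matrix.mulVec, dotProduct, Fin.sum_univ_two, ho])
    · simp at ho
      refine hirr ((g : Matrix (Fin 2) (Fin 2) F) 0 0 + a * (g : Matrix (Fin 2) (Fin 2) F) 0 1) ![1, a]
        (fun e => one_ne_zero (congrFun e 0)) ?_
      ext i; fin_cases i <;> simp [Matrix.mulVec, dotProduct, Fin.sum_univ_two]
      · ring
      · linear_combination ho
  · norm_cast
    rw [Nat.card_eq_fintype_card, Fintype.card_subtype,
      show (Finset.univ.filter _ : Finset (Option F)) = {some 0} by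
        ext o; rcases o with _ | a <;> simp [h01, h10, heq]]
    rfl

end Cfsg.Agent.S2308
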