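import Cfsg.Statements.S2309
import Cfsg.Agent.GL2Char.Values

set_option autoImplicit false
open Cfsg

namespace Cfsg.Agent.S2309

/-- Over a finite field F with q elements: every irreducible complex character of GL₂ of degree q − 1 vanishes at every diagonal matrix with two distinct entries, and every irreducible complex character of degree q + 1 vanishes at every element with no eigenvector in F². -/
theorem result {F : Type*} [Field F] [Fintype F] (χ : Matrix.GeneralLinearGroup (Fin 2) F → ℂ) (hχ : Cfsg.IsIrrCharacter (Matrix.GeneralLinearGroup (Fin 2) F) χ) (g : Matrix.GeneralLinearGroup (Fin 2) F) :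
    (χ 1 = (Fintype.card F : ℂ) - 1 → (g : Matrix (Fin 2) (Fin 2) F) 0 1 = 0 → (g : Matrix (Fin 2) (Fin 2) F) 1 0 = 0 → (g : Matrix (Fin 2) (Fin 2) F) 0 0 ≠ (g : Matrix (Fin 2) (Fin 2) F) 1 1 → χ g = 0) ∧
    (χ 1 = (Fintype.card F : ℂ) + 1 → (∀ (c : F) (v : Fin 2 → F), v ≠ 0 → (g : Matrix (Fin 2) (Fin 2) F).mulVec v ≠ c • v) → χ g = 0) := by
  classical
  obtain ⟨χ', rfl⟩ : ∃ χ' : IrrCharacter (Matrix.GeneralLinearGroup (Fin 2) F),
      (χ' : Matrix.GeneralLinearGroup (Fin 2) F → ℂ) = χ := ⟨⟨χ, hχ⟩, rfl⟩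
  refine ⟨fun hd h01 h10 hne => ?_, fun hd h => ?_⟩
  · have hq : 3 ≤ Fintype.card F := by
      by_contra hlt
      have h2 : Fintype.card F = 2 := by have := Fintype.one_lt_card (α := F); omega
      obtain ⟨ha, hb⟩ := Linear.glTwo_diag_ne_zero h10
      have e1 := FiniteField.pow_card_sub_one_eq_one _ ha
      have e2 := FiniteField.pow_card_sub_one_eq_one _ hb
      rw [h2, pow_one] at e1 e2
      exact hne (e1.trans e2.symm)
    exact GL2Char.diag_eq_zero (GL2Char.mult_of_degree_sub hq hd).1 h01 h10 hne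
  · obtain ⟨p, hp, rfl⟩ := GL2Char.exists_psI_of_degree hd
    rw [GL2Char.psI_val hp, GL2Char.ps_elliptic _ _ h]


end Cfsg.Agent.S2309
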