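import Cfsg.Statements.S2310
import Cfsg.Agent.GL2Char.Values

set_option autoImplicit false
open Cfsg

namespace Cfsg.Agent.S2310

/-- Over a finite field F with q ≥ 3 elements, let u be the upper unitriangular matrix of GL₂ with off-diagonal entry 1. An irreducible complex character χ of GL₂ takes at u the value 1 if χ has degree 1 or q + 1, the value −1 if χ has degree q − 1, and the value 0 if χ has degree q. -/
theorem result {F : Type*} [Field F] [Fintype F] (hq : 3 ≤ Fintype.card F) (χ : Matrix.GeneralLinearGroup (Fin 2) F → ℂ) (hχ : Cfsg.IsIrrCharacter (Matrix.GeneralLinearGroup (Fin 2) F) χ)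
    (u : Matrix.GeneralLinearGroup (Fin 2) F) (hu : (u : Matrix (Fin 2) (Fin 2) F) = !![1, 1; 0, 1]) :
    (χ 1 = 1 → χ u = 1) ∧ (χ 1 = (Fintype.card F : ℂ) + 1 → χ u = 1) ∧
    (χ 1 = (Fintype.card F : ℂ) - 1 → χ u = -1) ∧ (χ 1 = (Fintype.card F : ℂ) → χ u = 0) := by
  classical
  obtain ⟨χ', rfl⟩ : ∃ χ' : IrrCharacter (Matrix.GeneralLinearGroup (Fin 2) F),
      (χ' : Matrix.GeneralLinearGroup (Fin 2) F → ℂ) = χ := ⟨⟨χ, hχ⟩, rfl⟩
  obtain rfl : u = GL2Char.u 1 := Units.ext hu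
  have hu' := GL2Char.u_eq χ'
  have hq1 : 1 ≤ Fintype.card F := Fintype.card_pos
  refine ⟨fun h => ?_, fun h => ?_, fun h => ?_, fun h => ?_⟩
  · rcases GL2Char.kinds χ' with ⟨⟨α, rfl⟩, -⟩ | ⟨-, e⟩ | ⟨-, e⟩ | ⟨-, e⟩
    · rw [hu', (GL2Char.m_linI α).1, (GL2Char.m_linI α).2]; simp
    all_goals
      rw [Char.charDegree_of_eq (d := 1) (by rw [h, Nat.cast_one])] at e
      omega
  · obtain ⟨p, hp, rfl⟩ := GL2Char.exists_psI_of_degree h
    rw [hu', (GL2Char.m_psI hp).1, (GL2Char.m_psI hp).2]; norm_num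
  · obtain ⟨h0, h1⟩ := GL2Char.mult_of_degree_sub hq h
    rw [hu', h0, h1]; simp
  · obtain ⟨α, rfl⟩ := GL2Char.exists_stI_of_degree h
    rw [hu', (GL2Char.m_stI α).1, (GL2Char.m_stI α).2]; simp


end Cfsg.Agent.S2310
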