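import Cfsg.Statements.S2318
import Cfsg.Agent.ChevBlocks.Main
import Cfsg.Agent.ChevBlocks.Certs
import Cfsg.Agent.Chev.Rules
import Cfsg.Agent.ChevBlocks.St

set_option autoImplicit false
open Cfsg

namespace Cfsg.Agent.S2318

/-- In a Chevalley group of type G₂, B₂, D₄, F₄, E₆, E₇ or E₈ over a finite field of characteristic p (for types G₂ and B₂ the field is assumed to have at least 3 elements, so that the group is perfect), the Steinberg character is the only irreducible complex character whose degree is divisible by the full power of p dividing the group order (the only irreducible character of p-defect zero). -/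
theorem result {F : Type*} [Field F] [Fintype F] (p : ℕ) [Fact p.Prime] [CharP F p] (D : Cfsg.Lie.ChevalleyDatum) (hD : D ∈ [Cfsg.Lie.chevG2, Cfsg.Lie.chevB2, Cfsg.Lie.chevD4, Cfsg.Lie.chevF4, Cfsg.Lie.chevE6, Cfsg.Lie.chevE7, Cfsg.Lie.chevE8]) (hq : (D = Cfsg.Lie.chevG2 ∨ D = Cfsg.Lie.chevB2) → 3 ≤ Fintype.card F)
    (χ : ↥(D.group F) → ℂ) (hχ : Cfsg.IsIrrCharacter ↥(D.group F) χ)
    (hdeg : ∃ d : ℕ, χ 1 = (d : ℂ) ∧ p ^ (Nat.card ↥(D.group F)).factorization p ∣ d) :
    χ = D.steinbergCharacter F := by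
  have hS := Agent.Chev.rules_of_mem F hD
  obtain ⟨len, hR⟩ := hS.root
  obtain ⟨d, hd, hdvd⟩ := hdeg
  have hst : Cfsg.IsIrrCharacter ↥(D.group F) (D.steinbergCharacter F) := ChevBlocks.steinberg_irr hS hR
  haveI := Fintype.ofFinite ↥(D.group F)
  have hcd : Cfsg.charDegree χ = d := by
    have h2 := (Cfsg.Agent.Char.irr_charDegree_spec hχ).2
    rw [hd, Nat.cast_inj] at h2
    exact h2.symm
  exact congrArg Subtype.val (ChevBlocks.defectZero_unique hS hR p (χ := ⟨χ, hχ⟩) (χ' := ⟨_, hst⟩)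
    (hcd ▸ hdvd) (ChevBlocks.defectZero_of_degree hS p hst (ChevBlocks.steinberg_one hS hR)))

end Cfsg.Agent.S2318
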