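import Cfsg.Statements.S2321
import Cfsg.Agent.SL2Val.Identify

set_option autoImplicit false
open Cfsg

namespace Cfsg.Agent.S2321

/-- Over a finite field F with q elements, an irreducible complex character of SL₂ of degree q (the Steinberg character) takes the value 1 at every diagonal matrix whose diagonal entry a has a² ≠ 1, the value −1 at every element with no eigenvector in F², and the value 0 at every upper triangular matrix with equal diagonal entries and non-zero upper right entry. -/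
theorem result {F : Type*} [Field F] [Fintype F] (χ : Matrix.SpecialLinearGroup (Fin 2) F → ℂ) (hχ : Cfsg.IsIrrCharacter (Matrix.SpecialLinearGroup (Fin 2) F) χ) (hdeg : χ 1 = (Fintype.card F : ℂ)) (g : Matrix.SpecialLinearGroup (Fin 2) F) :
    ((g : Matrix (Fin 2) (Fin 2) F) 0 1 = 0 → (g : Matrix (Fin 2) (Fin 2) F) 1 0 = 0 → (g : Matrix (Fin 2) (Fin 2) F) 0 0 ^ 2 ≠ 1 → χ g = 1) ∧
    ((∀ (c : F) (v : Fin 2 → F), v ≠ 0 → (g : Matrix (Fin 2) (Fin 2) F).mulVec v ≠ c • v) → χ g = -1) ∧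
    ((g : Matrix (Fin 2) (Fin 2) F) 1 0 = 0 → (g : Matrix (Fin 2) (Fin 2) F) 0 0 = (g : Matrix (Fin 2) (Fin 2) F) 1 1 → (g : Matrix (Fin 2) (Fin 2) F) 0 1 ≠ 0 → χ g = 0) := by
  classical
  obtain ⟨χ', rfl⟩ : ∃ χ' : IrrCharacter (Matrix.SpecialLinearGroup (Fin 2) F),
      (χ' : Matrix.SpecialLinearGroup (Fin 2) F → ℂ) = χ := ⟨⟨χ, hχ⟩, rfl⟩
  obtain rfl := SL2Val.eq_chiSt_of_degree hdeg
  simp only [SL2Char.chiSt, SL2Char.st, Pi.sub_apply]
  refine ⟨fun h01 h10 ha => ?_, fun h => ?_, fun h10 heq h01 => ?_⟩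
  · rw [SL2Val.ps_one_diag h01 h10 ha]; norm_num
  · rw [SL2Val.ps_elliptic _ h, zero_sub]
  · have hd := Linear.slTwo_det g
    rw [h10, mul_zero, sub_zero] at hd
    rw [SL2Char.ps_apply_scalar_upper _ (e := (g : Matrix (Fin 2) (Fin 2) F) 0 0)
      (x := (g : Matrix (Fin 2) (Fin 2) F) 0 1), if_neg h01,
      MulChar.one_apply (left_ne_zero_of_mul_eq_one hd).isUnit]
    · norm_num
    · ext i j
      fin_cases i <;> fin_cases j <;> simp [h10, heq]


end Cfsg.Agent.S2321
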