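import Cfsg.Statements.S2322
import Cfsg.Agent.SL2Val.Halves
import Cfsg.Agent.SL2Val.Three

set_option autoImplicit false
open Cfsg

namespace Cfsg.Agent.S2322

/-- Over a finite field F with q elements, q odd: every irreducible complex character of SL₂ of degree q − 1 or (q − 1)/2 vanishes at every diagonal matrix whose diagonal entry a has a² ≠ 1, and every irreducible complex character of degree q + 1 or (q + 1)/2 vanishes at every element with no eigenvector in F². -/
theorem result {F : Type*} [Field F] [Fintype F] (hodd : Odd (Fintype.card F)) (χ : Matrix.SpecialLinearGroup (Fin 2) F → ℂ) (hχ : Cfsg.IsIrrCharacter (Matrix.SpecialLinearGroup (Fin 2) F) χ) (g : Matrix.SpecialLinearGroup (Fin 2) F) :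
    ((χ 1 = (Fintype.card F : ℂ) - 1 ∨ χ 1 = (((Fintype.card F - 1) / 2 : ℕ) : ℂ)) →
      (g : Matrix (Fin 2) (Fin 2) F) 0 1 = 0 → (g : Matrix (Fin 2) (Fin 2) F) 1 0 = 0 → (g : Matrix (Fin 2) (Fin 2) F) 0 0 ^ 2 ≠ 1 → χ g = 0) ∧
    ((χ 1 = (Fintype.card F : ℂ) + 1 ∨ χ 1 = (((Fintype.card F + 1) / 2 : ℕ) : ℂ)) →
      (∀ (c : F) (v : Fin 2 → F), v ≠ 0 → (g : Matrix (Fin 2) (Fin 2) F).mulVec v ≠ c • v) → χ g = 0) := by
  classical
  obtain ⟨χ', rfl⟩ : ∃ χ' : IrrCharacter (Matrix.SpecialLinearGroup (Fin 2) F),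
      (χ' : Matrix.SpecialLinearGroup (Fin 2) F → ℂ) = χ := ⟨⟨χ, hχ⟩, rfl⟩
  obtain ⟨ν, hν⟩ : ∃ ν : F, ¬ IsSquare ν := FiniteField.exists_nonsquare fun e => by
    have := FiniteField.even_card_of_char_two e
    exact (Nat.not_even_iff_odd.2 hodd) (Nat.even_iff.2 this)
  have hq3 : 3 ≤ Fintype.card F := by
    have := Nat.odd_iff.1 hodd
    have := Fintype.one_lt_card (α := F)
    omega
  refine ⟨fun hd h01 h10 ha => ?_, fun hd h => ?_⟩
  · have hd' := Linear.slTwo_det g
    rw [h01, zero_mul, sub_zero] at hd'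
    have hu := left_ne_zero_of_mul_eq_one hd'
    have h5 : 5 ≤ Fintype.card F := by
      by_contra hlt
      have h3 : Fintype.card F = 3 := by have := Nat.odd_iff.1 hodd; omega
      have := FiniteField.pow_card_sub_one_eq_one _ hu
      rw [h3] at this
      exact ha this
    have h0 := SL2Val.mult_zero_of_degree h5 (hd.imp id fun e => ⟨hodd, e⟩)
    have hsum : ∑ x : Multiplicative F, (χ' : Matrix.SpecialLinearGroup (Fin 2) F → ℂ)
        (CentralExt.SL2.upperHom x) = 0 := by
      have hc := SL2Char.mult_spec χ' 0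
      rw [h0, Nat.cast_zero, SL2Char.coef] at hc
      simp only [zero_mul, neg_zero, AddChar.map_zero_eq_one, mul_one, mul_eq_zero, inv_eq_zero,
        Nat.cast_eq_zero, Fintype.card_ne_zero, false_or] at hc
      rw [← hc]
      exact Fintype.sum_equiv Multiplicative.toAdd _ _ fun x => rfl
    have hs := GL2Char.sum_shift_eq_zero (Char.isCharacter_of_irr χ'.2) _ hsum g
    rw [Finset.sum_congr rfl (g := fun _ => (χ' : Matrix.SpecialLinearGroup (Fin 2) F → ℂ) g) fun x _ => ?_,
      Finset.sum_const, nsmul_eq_mul, mul_eq_zero] at hs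
    · exact hs.resolve_left (by simp)
    · refine Char.isClassFunction_eq_of_isConj (Char.irr_isClassFunction χ'.2) ?_
      set a := (g : Matrix (Fin 2) (Fin 2) F) 0 0
      set d := (g : Matrix (Fin 2) (Fin 2) F) 1 1
      have hne : d - a ≠ 0 := fun e => ha (by rw [sub_eq_zero] at e; rw [sq]; nth_rw 2 [← e]; exact hd')
      refine (isConj_iff.2 ⟨CentralExt.SL2.upper (a * x.toAdd / (d - a)), ?_⟩).symm
      rw [mul_inv_eq_iff_eq_mul]
      show CentralExt.SL2.upper (a * x.toAdd / (d - a)) * g =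
        g * CentralExt.SL2.upper x.toAdd * CentralExt.SL2.upper (a * x.toAdd / (d - a))
      have key : a * x.toAdd / (d - a) * d = a * x.toAdd + a * (a * x.toAdd / (d - a)) := by
        field_simp
        ring
      simp only [a, d] at key
      apply Subtype.ext
      simp only [Matrix.SpecialLinearGroup.coe_mul]
      ext i j
      fin_cases i <;> fin_cases j <;>
        simp [CentralExt.SL2.upper, h01, h10, Matrix.mul_apply, Fin.sum_univ_two, a, d]
      linear_combination key
  · rcases hd with hd | hd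
    · obtain ⟨α, hα, rfl⟩ := SL2Char.mem_psSet.1 (SL2Val.mem_psSet_of_degree hd)
      rw [SL2Char.psI_val hα, SL2Val.ps_elliptic α h]
    by_cases h3 : Fintype.card F = 3
    · exact SL2Val.three_elliptic h3 hd h
    have h5 : 5 ≤ Fintype.card F := by have := Nat.odd_iff.1 hodd; omega
    obtain ⟨ε, he1, he2, -⟩ := SL2Char.exists_quadratic hν
    obtain ⟨θ, θ', hne, hdec, htw, h1, h1'⟩ := SL2Val.exists_split
      (ν := Units.mk0 ν (SL2Char.ne_zero_of_nonsquare hν)) hν he2 he1
    have he : (θ' : Matrix.SpecialLinearGroup (Fin 2) F → ℂ) g =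
        (θ : Matrix.SpecialLinearGroup (Fin 2) F → ℂ) g := by
      rw [← htw]
      exact (Char.isClassFunction_eq_of_isConj (Char.irr_isClassFunction θ.2)
        (SL2Val.dil_isConj (Units.mk0 ν (SL2Char.ne_zero_of_nonsquare hν)) h)).symm
    have hz := SL2Val.ps_elliptic ε h
    rw [hdec, Pi.add_apply, he, ← two_mul, mul_eq_zero] at hz
    have hz' := hz.resolve_left two_ne_zero
    rcases SL2Val.eq_or_eq_of_half_degree hodd h5 (Or.inl rfl) hne h1 h1' hd with rfl | rfl
    · exact hz'
    · rw [he]; exact hz'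


end Cfsg.Agent.S2322
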