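import Cfsg.Statements.S2323
import Cfsg.Agent.SL2Val.Identify

set_option autoImplicit false
open Cfsg

namespace Cfsg.Agent.S2323

/-- Over a finite field F with q ≥ 4 elements, let u be the upper unitriangular matrix of SL₂ with off-diagonal entry 1. An irreducible complex character of SL₂ takes at u the value 1 if its degree is q + 1 and the value −1 if its degree is q − 1. -/
theorem result {F : Type*} [Field F] [Fintype F] (hq : 4 ≤ Fintype.card F) (χ : Matrix.SpecialLinearGroup (Fin 2) F → ℂ) (hχ : Cfsg.IsIrrCharacter (Matrix.SpecialLinearGroup (Fin 2) F) χ)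
    (u : Matrix.SpecialLinearGroup (Fin 2) F) (hu : (u : Matrix (Fin 2) (Fin 2) F) = !![1, 1; 0, 1]) :
    (χ 1 = (Fintype.card F : ℂ) + 1 → χ u = 1) ∧ (χ 1 = (Fintype.card F : ℂ) - 1 → χ u = -1) := by
  classical
  obtain ⟨χ', rfl⟩ : ∃ χ' : IrrCharacter (Matrix.SpecialLinearGroup (Fin 2) F),
      (χ' : Matrix.SpecialLinearGroup (Fin 2) F → ℂ) = χ := ⟨⟨χ, hχ⟩, rfl⟩
  obtain rfl : u = CentralExt.SL2.upper 1 := Subtype.ext hu
  refine ⟨fun h => ?_, fun h => ?_⟩
  · obtain ⟨α, hα, rfl⟩ := SL2Char.mem_psSet.1 (SL2Val.mem_psSet_of_degree h)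
    rw [SL2Char.psI_val hα, SL2Char.ps_upper α one_ne_zero]
  · obtain ⟨h0, h1⟩ := SL2Val.mult_of_degree_sub hq h
    rw [SL2Val.apply_upper_eq, ← Finset.add_sum_erase _ _ (Finset.mem_univ (0 : F)), h0,
      Finset.sum_congr rfl (g := fun c => SL2Char.psi F (c * 1)) fun c hc => by
        rw [h1 c (Finset.ne_of_mem_erase hc), Nat.cast_one, one_mul],
      SL2Val.sum_psi_erase one_ne_zero]
    simp


end Cfsg.Agent.S2323
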