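import Cfsg.Statements.S2324
import Cfsg.Agent.SL2Val.Halves

set_option autoImplicit false
open Cfsg

namespace Cfsg.Agent.S2324

/-- Over a finite field F with q elements, q odd and q ≥ 5, let u be the upper unitriangular matrix of SL₂ with off-diagonal entry 1 and let δ = (−1)^((q−1)/2). Every irreducible complex character χ of SL₂ of degree (q + 1)/2 satisfies (2χ(u) − 1)² = δq, and every irreducible complex character χ of degree (q − 1)/2 satisfies (2χ(u) + 1)² = δq; that is, χ(u) = (1 ± √(δq))/2 in the first case and χ(u) = (−1 ± √(δq))/2 in the second. Moreover two different irreducible characters of degree (q + 1)/2 take the two different values (their values at u add up to 1), and likewise for degree (q − 1)/2 (values adding up to −1). -/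
theorem result {F : Type*} [Field F] [Fintype F] (hodd : Odd (Fintype.card F)) (hq : 5 ≤ Fintype.card F)
    (u : Matrix.SpecialLinearGroup (Fin 2) F) (hu : (u : Matrix (Fin 2) (Fin 2) F) = !![1, 1; 0, 1]) :
    (∀ χ : Matrix.SpecialLinearGroup (Fin 2) F → ℂ, Cfsg.IsIrrCharacter (Matrix.SpecialLinearGroup (Fin 2) F) χ → χ 1 = (((Fintype.card F + 1) / 2 : ℕ) : ℂ) → (2 * χ u - 1) ^ 2 = (-1 : ℂ) ^ ((Fintype.card F - 1) / 2) * (Fintype.card F : ℂ)) ∧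
    (∀ χ : Matrix.SpecialLinearGroup (Fin 2) F → ℂ, Cfsg.IsIrrCharacter (Matrix.SpecialLinearGroup (Fin 2) F) χ → χ 1 = (((Fintype.card F - 1) / 2 : ℕ) : ℂ) → (2 * χ u + 1) ^ 2 = (-1 : ℂ) ^ ((Fintype.card F - 1) / 2) * (Fintype.card F : ℂ)) ∧
    (∀ χ₁ χ₂ : Matrix.SpecialLinearGroup (Fin 2) F → ℂ, Cfsg.IsIrrCharacter (Matrix.SpecialLinearGroup (Fin 2) F) χ₁ → Cfsg.IsIrrCharacter (Matrix.SpecialLinearGroup (Fin 2) F) χ₂ → χ₁ ≠ χ₂ →
      χ₁ 1 = (((Fintype.card F + 1) / 2 : ℕ) : ℂ) → χ₂ 1 = (((Fintype.card F + 1) / 2 : ℕ) : ℂ) → χ₁ u + χ₂ u = 1) ∧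
    (∀ χ₁ χ₂ : Matrix.SpecialLinearGroup (Fin 2) F → ℂ, Cfsg.IsIrrCharacter (Matrix.SpecialLinearGroup (Fin 2) F) χ₁ → Cfsg.IsIrrCharacter (Matrix.SpecialLinearGroup (Fin 2) F) χ₂ → χ₁ ≠ χ₂ →
      χ₁ 1 = (((Fintype.card F - 1) / 2 : ℕ) : ℂ) → χ₂ 1 = (((Fintype.card F - 1) / 2 : ℕ) : ℂ) → χ₁ u + χ₂ u = -1) := by
  classical
  obtain ⟨ν, hν⟩ : ∃ ν : F, ¬ IsSquare ν := FiniteField.exists_nonsquare fun e => by
    have := FiniteField.even_card_of_char_two e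
    exact (Nat.not_even_iff_odd.2 hodd) (Nat.even_iff.2 this)
  have hν0 : ν ≠ 0 := SL2Char.ne_zero_of_nonsquare hν
  obtain rfl : u = CentralExt.SL2.upper 1 := Subtype.ext hu
  have hF : ringChar F ≠ 2 := fun e => hν (FiniteField.isSquare_of_char_two e ν)
  set ε : MulChar F ℂ := (quadraticChar F).ringHomComp (Int.castRingHom ℂ) with hε
  have hgauss : gaussSum ε (SL2Char.psi F) ^ 2 =
      (-1 : ℂ) ^ ((Fintype.card F - 1) / 2) * (Fintype.card F : ℂ) := by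
    have hq := Nat.odd_iff.1 hodd
    have hne1 : ε ≠ 1 :=
      (MulChar.ringHomComp_ne_one_iff (f := Int.castRingHom ℂ) Int.cast_injective).2
        (quadraticChar_ne_one hF)
    have hprim : (SL2Char.psi F).IsPrimitive := AddChar.FiniteField.primitiveChar_to_Complex_isPrimitive F
    rw [gaussSum_sq hne1 ((quadraticChar_isQuadratic F).comp _) hprim,
      hε, MulChar.ringHomComp_apply, quadraticChar_neg_one hF, ZMod.χ₄_eq_neg_one_pow hq,
      show Fintype.card F / 2 = (Fintype.card F - 1) / 2 by omega]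
    simp
  have hsq : ∀ (χ : IrrCharacter (Matrix.SpecialLinearGroup (Fin 2) F)),
      SL2Char.mult χ 1 + SL2Char.mult χ ν = 1 →
      (2 * (χ : Matrix.SpecialLinearGroup (Fin 2) F → ℂ) (CentralExt.SL2.upper 1) -
        (2 * (SL2Char.mult χ 0 : ℂ) - 1)) ^ 2 =
      (-1 : ℂ) ^ ((Fintype.card F - 1) / 2) * (Fintype.card F : ℂ) := by
    intro χ h
    rw [SL2Val.two_mul_apply_upper hν h, add_sub_cancel_left, mul_pow, hgauss]
    rcases Nat.eq_zero_or_pos (SL2Char.mult χ 1) with h1 | h1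
    · rw [h1, show SL2Char.mult χ ν = 1 by omega]; simp
    · rw [show SL2Char.mult χ 1 = 1 by omega, show SL2Char.mult χ ν = 0 by omega]; simp
  have hpair : ∀ (d : ℕ), (d = (Fintype.card F + 1) / 2 ∨ d = (Fintype.card F - 1) / 2) →
      ∀ χ₁ χ₂ : IrrCharacter (Matrix.SpecialLinearGroup (Fin 2) F), χ₁ ≠ χ₂ →
      (χ₁ : Matrix.SpecialLinearGroup (Fin 2) F → ℂ) 1 = (d : ℂ) →
      (χ₂ : Matrix.SpecialLinearGroup (Fin 2) F → ℂ) 1 = (d : ℂ) →
      2 * (χ₁ : Matrix.SpecialLinearGroup (Fin 2) F → ℂ) (CentralExt.SL2.upper 1) +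
        2 * (χ₂ : Matrix.SpecialLinearGroup (Fin 2) F → ℂ) (CentralExt.SL2.upper 1) =
      (2 * (SL2Char.mult χ₁ 0 : ℂ) - 1) + (2 * (SL2Char.mult χ₂ 0 : ℂ) - 1) := by
    intro d hd χ₁ χ₂ hne h1 h2
    set v := Units.mk0 ν hν0
    have hm1 : SL2Char.mult (SL2Val.twist v χ₁) 1 = SL2Char.mult χ₁ ν := by
      rw [SL2Val.mult_twist, mul_one]; rfl
    have hmν : SL2Char.mult (SL2Val.twist v χ₁) ν = SL2Char.mult χ₁ 1 := by
      rw [SL2Val.mult_twist, show (v : F) * ν = (v : F) ^ 2 * 1 by simp [v, sq],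
        SL2Char.mult_sq_mul]
    obtain ⟨hs, -, -⟩ := SL2Val.half_mult hν hq hd h1
    have htw : SL2Val.twist v χ₁ ≠ χ₁ := fun e => by rw [e] at hm1; omega
    rcases SL2Val.eq_or_eq_of_half_degree hodd hq hd hne h1 h2
      (show (SL2Val.twist v χ₁ : Matrix.SpecialLinearGroup (Fin 2) F → ℂ) 1 = (d : ℂ) by
        rw [SL2Val.twist_one]; exact h1) with e | e
    · exact absurd e htw
    rw [e] at hm1 hmν
    rw [SL2Val.two_mul_apply_upper hν hs, SL2Val.two_mul_apply_upper hν (by omega), hm1, hmν]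
    ring
  refine ⟨fun χ hχ h => ?_, fun χ hχ h => ?_, fun χ₁ χ₂ hχ₁ hχ₂ hne h1 h2 => ?_,
    fun χ₁ χ₂ hχ₁ hχ₂ hne h1 h2 => ?_⟩
  · obtain ⟨hs, h0, -⟩ := SL2Val.half_mult (χ := ⟨χ, hχ⟩) hν hq (Or.inl rfl) h
    rw [← hsq ⟨χ, hχ⟩ hs, h0 rfl]
    norm_num
  · obtain ⟨hs, -, h0⟩ := SL2Val.half_mult (χ := ⟨χ, hχ⟩) hν hq (Or.inr rfl) h
    rw [← hsq ⟨χ, hχ⟩ hs, h0 rfl]
    norm_num
  · have e := hpair _ (Or.inl rfl) ⟨χ₁, hχ₁⟩ ⟨χ₂, hχ₂⟩ (fun e => hne (congrArg Subtype.val e)) h1 h2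
    rw [(SL2Val.half_mult (χ := ⟨χ₁, hχ₁⟩) hν hq (Or.inl rfl) h1).2.1 rfl,
      (SL2Val.half_mult (χ := ⟨χ₂, hχ₂⟩) hν hq (Or.inl rfl) h2).2.1 rfl] at e
    push_cast at e
    linear_combination e / 2
  · have e := hpair _ (Or.inr rfl) ⟨χ₁, hχ₁⟩ ⟨χ₂, hχ₂⟩ (fun e => hne (congrArg Subtype.val e)) h1 h2
    rw [(SL2Val.half_mult (χ := ⟨χ₁, hχ₁⟩) hν hq (Or.inr rfl) h1).2.2 rfl,
      (SL2Val.half_mult (χ := ⟨χ₂, hχ₂⟩) hν hq (Or.inr rfl) h2).2.2 rfl] at e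
    push_cast at e
    linear_combination e / 2


end Cfsg.Agent.S2324
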