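import Cfsg.Statements.S2329
import Cfsg.Agent.Linear.Classes
open Cfsg.Agent.Linear.Classes Matrix

set_option autoImplicit false
open Cfsg

namespace Cfsg.Agent.S2329

/-- Over a finite field of characteristic p, any two elements of order p of GL₂ are conjugate: there is a single conjugacy class of non-identity unipotent elements. -/
theorem result {F : Type*} [Field F] [Fintype F] (p : ℕ) [Fact p.Prime] [CharP F p] (g h : Matrix.GeneralLinearGroup (Fin 2) F)
    (hg : orderOf g = p) (hh : orderOf h = p) : IsConj g h := by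
  have key : ∀ g : Matrix.GeneralLinearGroup (Fin 2) F, orderOf g = p →
      (g : Matrix (Fin 2) (Fin 2) F).trace = 2 ∧ (g : Matrix (Fin 2) (Fin 2) F).det = 1 ∧
        Nonscalar (g : Matrix (Fin 2) (Fin 2) F) := by
    intro g hg
    refine trace_of_pow_char p ?_ ?_
    · rw [← Units.val_pow_eq_pow_val, show g ^ p = 1 by rw [← hg]; exact pow_orderOf_eq_one g, Units.val_one]
    · intro e
      rw [show g = 1 from Units.ext e, orderOf_one] at hg
      exact (Fact.out : p.Prime).ne_one hg.symm
  obtain ⟨a, b, c⟩ := key g hg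
  obtain ⟨a2, b2, c2⟩ := key h hh
  exact (isConj_GL_iff c c2).2 ⟨a.trans a2.symm, b.trans b2.symm⟩

end Cfsg.Agent.S2329
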