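import Cfsg.Statements.S2330
import Cfsg.Agent.Linear.Classes
open Cfsg.Agent.Linear.Classes Matrix

set_option autoImplicit false
open Cfsg

namespace Cfsg.Agent.S2330

/-- Over a finite field with q elements, the general linear group GL₂ has exactly q² − 1 conjugacy classes. -/
theorem result {F : Type*} [Field F] [Fintype F] :
    Nat.card (ConjClasses (Matrix.GeneralLinearGroup (Fin 2) F)) = Fintype.card F ^ 2 - 1 := by
  classical
  let f : Fˣ ⊕ (F × Fˣ) → ConjClasses (GL (Fin 2) F) := Sum.elim
    (fun c => ConjClasses.mk (Matrix.GeneralLinearGroup.scalar (Fin 2) c))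
    (fun x => ConjClasses.mk (Matrix.GeneralLinearGroup.mkOfDetNeZero (companion x.1 x.2)
      (by rw [det_companion]; exact x.2.ne_zero)))
  have hscal : ∀ (c : Fˣ) (g : GL (Fin 2) F),
      IsConj (Matrix.GeneralLinearGroup.scalar (Fin 2) c) g →
        g = Matrix.GeneralLinearGroup.scalar (Fin 2) c := by
    intro c g h
    obtain ⟨x, hx⟩ := isConj_iff.1 h
    rw [← hx, mul_inv_eq_iff_eq_mul]
    apply Units.ext
    simp only [Units.val_mul, Matrix.GeneralLinearGroup.coe_scalar]
    exact ((Matrix.scalar_commute (c : F) (fun r => mul_comm _ r) _)).eq.symm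
  have hnot : ∀ (c : Fˣ), ¬ Nonscalar ((Matrix.GeneralLinearGroup.scalar (Fin 2) c : GL (Fin 2) F) :
      Matrix (Fin 2) (Fin 2) F) := fun c h => h c (by
    rw [Matrix.GeneralLinearGroup.coe_scalar, Matrix.smul_one_eq_diagonal, Matrix.scalar_apply])
  have hbij : Function.Bijective f := by
    constructor
    · rintro (c | ⟨t, d⟩) (c₂ | ⟨t₂, d₂⟩) h <;>
        simp only [f, Sum.elim_inl, Sum.elim_inr, ConjClasses.mk_eq_mk_iff_isConj] at h
      · have := congrArg (fun g : GL (Fin 2) F => (g : Matrix (Fin 2) (Fin 2) F) 0 0) (hscal _ _ h)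
        simp at this
        exact congrArg _ (Units.ext this.symm)
      · exfalso
        exact hnot c (by rw [← hscal _ _ h]; exact companion_nonscalar _ _)
      · exfalso
        exact hnot c₂ (by rw [← hscal _ _ h.symm]; exact companion_nonscalar _ _)
      · obtain ⟨h1, h2⟩ := (isConj_GL_iff (by exact companion_nonscalar t (d : F))
          (by exact companion_nonscalar t₂ (d₂ : F))).1 h
        simp only [Matrix.GeneralLinearGroup.val_mkOfDetNeZero, trace_companion, det_companion] at h1 h2
        rw [h1, Units.ext h2]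
    · intro C
      obtain ⟨g, rfl⟩ := ConjClasses.exists_rep C
      by_cases hg : Nonscalar (g : Matrix (Fin 2) (Fin 2) F)
      · refine ⟨Sum.inr ((g : Matrix (Fin 2) (Fin 2) F).trace,
          Units.mk0 _ (Matrix.GeneralLinearGroup.det_ne_zero g)), ?_⟩
        simp only [f, Sum.elim_inr, ConjClasses.mk_eq_mk_iff_isConj]
        refine (isConj_GL_iff (by exact companion_nonscalar _ _) hg).2 ?_
        simp [trace_companion, det_companion]
      · simp only [Nonscalar, not_forall, not_not] at hg
        obtain ⟨c, hc⟩ := hg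
        have hc0 : c ≠ 0 := by
          rintro rfl
          exact Matrix.GeneralLinearGroup.det_ne_zero g (by rw [hc]; simp)
        refine ⟨Sum.inl (Units.mk0 c hc0), congrArg _ (Units.ext ?_)⟩
        rw [hc, Matrix.GeneralLinearGroup.coe_scalar, Matrix.smul_one_eq_diagonal, Matrix.scalar_apply]
        rfl
  rw [← Nat.card_eq_of_bijective f hbij, Nat.card_sum, Nat.card_prod, Nat.card_units,
    Nat.card_eq_fintype_card]
  obtain ⟨k, hk⟩ : ∃ k, Fintype.card F = k + 1 := ⟨Fintype.card F - 1, by
    have := Fintype.card_pos (α := F); omega⟩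
  rw [hk, pow_two, Nat.add_sub_cancel]
  symm
  apply Nat.sub_eq_of_eq_add
  ring

end Cfsg.Agent.S2330
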