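import Cfsg.Statements.S2367
import Mathlib

set_option autoImplicit false
open Cfsg

namespace Cfsg.Agent.S2367

theorem factorization_prod {p : ℕ} : ∀ (L : List (ℕ × ℕ)), (∀ x ∈ L, x.1.Prime) →
    ((L.map fun x : ℕ × ℕ => x.1 ^ x.2).prod).factorization p =
      (L.map fun x : ℕ × ℕ => if x.1 = p then x.2 else 0).sum
  | [], _ => by simp
  | x :: L, h => by
    have hx := h x List.mem_cons_self
    have hne : ((L.map fun x => x.1 ^ x.2).prod) ≠ 0 := by
      refine List.prod_ne_zero ?_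
      intro h0
      obtain ⟨y, hy, e⟩ := List.mem_map.1 h0
      exact pow_ne_zero _ (h y (List.mem_cons_of_mem _ hy)).ne_zero e
    rw [List.map_cons, List.prod_cons, List.map_cons, List.sum_cons,
      Nat.factorization_mul (pow_ne_zero _ hx.ne_zero) hne, Finsupp.add_apply, Nat.factorization_pow,
      Finsupp.smul_apply, hx.factorization, Finsupp.single_apply,
      factorization_prod L fun y hy => h y (List.mem_cons_of_mem _ hy)]
    simp

theorem check {N p : ℕ} (L : List (ℕ × ℕ)) (hN : N = (L.map fun x => x.1 ^ x.2).prod)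
    (hL : ∀ x ∈ L, x.1.Prime) (hp : p.Prime) (hodd : p ≠ 2) (h3 : N.factorization p = 3)
    (hd : (L.map Prod.fst).Nodup ∧
      ∀ x ∈ L, x.1 ≠ 2 → x.2 = 3 → x.1 ^ 3 < 2 ^ (L.map fun x => if x.1 = 2 then x.2 else 0).sum) :
    p ^ 3 < 2 ^ N.factorization 2 := by
  rw [hN, factorization_prod L hL] at h3
  rw [hN, factorization_prod L hL]
  obtain ⟨x, hxL, hx⟩ : ∃ x ∈ L, x.1 = p := by
    by_contra hne
    push Not at hne
    rw [List.sum_eq_zero] at h3
    · omega
    · intro y hy
      obtain ⟨x, hx, rfl⟩ := List.mem_map.1 hy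
      simp [hne x hx]
  subst hx
  refine hd.2 x hxL hodd ?_
  rw [← h3]
  clear h3 hL hN hodd hp
  obtain ⟨hnd, -⟩ := hd
  induction L with
  | nil => simp at hxL
  | cons y L ih =>
    rw [List.map_cons, List.nodup_cons] at hnd
    rw [List.map_cons, List.sum_cons]
    rcases List.mem_cons.1 hxL with rfl | h
    · rw [if_pos rfl, List.sum_eq_zero, add_zero]
      intro z hz
      obtain ⟨w, hw, rfl⟩ := List.mem_map.1 hz
      rw [if_neg]
      intro e
      exact hnd.1 (e ▸ List.mem_map_of_mem hw)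
    · rw [if_neg, zero_add, ← ih h hnd.2]
      intro e
      exact hnd.1 (e ▸ List.mem_map_of_mem h)

theorem pow_three_le {p : ℕ} (hp : 5 ≤ p) : p ^ 3 ≤ 2 ^ (2 * p - 2) := by
  induction p, hp using Nat.le_induction with
  | base => norm_num
  | succ k hk ih =>
    have e : 2 * (k + 1) - 2 = (2 * k - 2) + 2 := by omega
    rw [e, pow_add]
    have h1 : (k + 1) ^ 3 ≤ 4 * k ^ 3 := by
      have h25 : 25 ≤ k * k := Nat.mul_le_mul hk hk
      nlinarith [Nat.mul_le_mul_right k h25]
    omega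

theorem alternating {n p : ℕ} (hn : 5 ≤ n) (hp : p.Prime) (hodd : p ≠ 2)
    (h3 : (n.factorial / 2).factorization p = 3) :
    p ^ 3 < 2 ^ (n.factorial / 2).factorization 2 := by
  have h2 : 2 ∣ n.factorial := Nat.dvd_factorial two_pos (by omega)
  rw [Nat.factorization_div h2, Finsupp.tsub_apply, Nat.prime_two.factorization,
    Finsupp.single_apply] at h3 ⊢
  rw [if_neg hodd.symm, Nat.sub_zero] at h3
  rw [if_pos rfl]
  have hp3 : 3 ≤ p := by have := hp.two_le; omega
  have hn3 : 3 * p ≤ n := by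
    by_contra hlt
    have hle : n.factorial.factorization p ≤ ((3 * p - 1).factorial).factorization p :=
      (Nat.factorization_le_iff_dvd n.factorial_ne_zero (Nat.factorial_ne_zero _)).2
        (Nat.factorial_dvd_factorial (by omega)) p
    have hlog : Nat.log p (3 * p - 1) < 2 :=
      Nat.log_lt_of_lt_pow (by omega) (by
        have : 3 * p ≤ p ^ 2 := by nlinarith
        omega)
    rw [Nat.factorization_factorial hp hlog] at hle
    have e : (3 * p - 1) / p = 2 := Nat.div_eq_of_lt_le (by omega) (by omega)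
    simp [Finset.sum_Ico_eq_sum_range, e] at hle
    omega
  have hb : (3 * p) / 2 + (3 * p) / 4 ≤ n.factorial.factorization 2 := by
    rw [Nat.factorization_factorial Nat.prime_two (show Nat.log 2 n < n + 3 from
      lt_of_le_of_lt (Nat.log_le_self 2 n) (by omega))]
    refine le_trans ?_ (Finset.sum_le_sum_of_subset (s := {1, 2}) ?_)
    · rw [Finset.sum_pair (by norm_num)]
      have h1 : 3 * p / 2 ≤ n / 2 := Nat.div_le_div_right hn3
      have h4 : 3 * p / 4 ≤ n / 4 := Nat.div_le_div_right hn3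
      simp only [pow_one, show 2 ^ 2 = 4 by norm_num]
      omega
    · intro x hx
      simp only [Finset.mem_insert, Finset.mem_singleton] at hx
      rw [Finset.mem_Ico]
      omega
  rcases Nat.lt_or_ge p 5 with h | h
  · have : p = 3 := by
      by_contra
      have : p = 4 := by omega
      subst this
      norm_num at hp
    subst this
    calc 3 ^ 3 < 2 ^ 5 := by norm_num
      _ ≤ _ := Nat.pow_le_pow_right two_pos (by omega)
  · calc p ^ 3 < 2 * p ^ 3 := by
          have : 0 < p ^ 3 := pow_pos (by omega) 3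
          omega
      _ ≤ 2 * 2 ^ (2 * p - 2) := Nat.mul_le_mul_left _ (pow_three_le h)
      _ = 2 ^ (2 * p - 1) := by rw [← pow_succ']; congr 1; omega
      _ ≤ _ := Nat.pow_le_pow_right two_pos (by omega)

/-- Let G be an alternating group of degree at least 5 or a simple group with the order of one of the 26 sporadic groups, and let p be an odd prime such that p³ is the exact power of p dividing the order of G. Then p³ is less than the 2-part of the order of G. -/
theorem result {G : Type*} [Group G] [Finite G] (hG : Cfsg.IsAlternating G ∨ Cfsg.IsSporadic G)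
    (p : ℕ) (hp : p.Prime) (hodd : p ≠ 2) (h3 : (Nat.card G).factorization p = 3) :
    p ^ 3 < 2 ^ (Nat.card G).factorization 2 := by
  rcases hG with ⟨n, hn, ⟨e⟩⟩ | hS
  · have : Nontrivial (Fin n) := Fin.nontrivial_iff_two_le.2 (by omega)
    have hc : Nat.card G = n.factorial / 2 := by
      rw [Nat.card_congr e.toEquiv, nat_card_alternatingGroup, Nat.card_fin]
    rw [hc] at h3 ⊢
    exact alternating hn hp hodd h3
  rcases hS with ⟨-, hc⟩ | ⟨-, hc⟩ | ⟨-, hc⟩ | ⟨-, hc⟩ | ⟨-, hc⟩ | ⟨-, hc⟩ | ⟨-, hc⟩ | ⟨-, hc⟩ | ⟨-, hc⟩ | ⟨-, hc⟩ | ⟨-, hc⟩ | ⟨-, hc⟩ | ⟨-, hc⟩ | ⟨-, hc⟩ | ⟨-, hc⟩ | ⟨-, hc⟩ | ⟨-, hc⟩ | ⟨-, hc⟩ | ⟨-, hc⟩ | ⟨-, hc⟩ | ⟨-, hc⟩ | ⟨-, hc⟩ | ⟨-, hc⟩ | ⟨-, hc⟩ | ⟨-, hc⟩ | ⟨-, hc⟩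
  · exact check [(2, 4), (3, 2), (5, 1), (11, 1)] (by rw [hc]; norm_num) (by norm_num) hp hodd h3 (by norm_num)
  · exact check [(2, 6), (3, 3), (5, 1), (11, 1)] (by rw [hc]; norm_num) (by norm_num) hp hodd h3 (by norm_num)
  · exact check [(2, 7), (3, 2), (5, 1), (7, 1), (11, 1)] (by rw [hc]; norm_num) (by norm_num) hp hodd h3 (by norm_num)
  · exact check [(2, 7), (3, 2), (5, 1), (7, 1), (11, 1), (23, 1)] (by rw [hc]; norm_num) (by norm_num) hp hodd h3 (by norm_num)
  · exact check [(2, 10), (3, 3), (5, 1), (7, 1), (11, 1), (23, 1)] (by rw [hc]; norm_num) (by norm_num) hp hodd h3 (by norm_num)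
  · exact check [(2, 3), (3, 1), (5, 1), (7, 1), (11, 1), (19, 1)] (by rw [hc]; norm_num) (by norm_num) hp hodd h3 (by norm_num)
  · exact check [(2, 7), (3, 3), (5, 2), (7, 1)] (by rw [hc]; norm_num) (by norm_num) hp hodd h3 (by norm_num)
  · exact check [(2, 7), (3, 5), (5, 1), (17, 1), (19, 1)] (by rw [hc]; norm_num) (by norm_num) hp hodd h3 (by norm_num)
  · exact check [(2, 21), (3, 3), (5, 1), (7, 1), (11, 3), (23, 1), (29, 1), (31, 1), (37, 1), (43, 1)] (by rw [hc]; norm_num) (by norm_num) hp hodd h3 (by norm_num)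
  · exact check [(2, 21), (3, 9), (5, 4), (7, 2), (11, 1), (13, 1), (23, 1)] (by rw [hc]; norm_num) (by norm_num) hp hodd h3 (by norm_num)
  · exact check [(2, 18), (3, 6), (5, 3), (7, 1), (11, 1), (23, 1)] (by rw [hc]; norm_num) (by norm_num) hp hodd h3 (by norm_num)
  · exact check [(2, 10), (3, 7), (5, 3), (7, 1), (11, 1), (23, 1)] (by rw [hc]; norm_num) (by norm_num) hp hodd h3 (by norm_num)
  · exact check [(2, 17), (3, 9), (5, 2), (7, 1), (11, 1), (13, 1)] (by rw [hc]; norm_num) (by norm_num) hp hodd h3 (by norm_num)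
  · exact check [(2, 18), (3, 13), (5, 2), (7, 1), (11, 1), (13, 1), (17, 1), (23, 1)] (by rw [hc]; norm_num) (by norm_num) hp hodd h3 (by norm_num)
  · exact check [(2, 21), (3, 16), (5, 2), (7, 3), (11, 1), (13, 1), (17, 1), (23, 1), (29, 1)] (by rw [hc]; norm_num) (by norm_num) hp hodd h3 (by norm_num)
  · exact check [(2, 9), (3, 2), (5, 3), (7, 1), (11, 1)] (by rw [hc]; norm_num) (by norm_num) hp hodd h3 (by norm_num)
  · exact check [(2, 7), (3, 6), (5, 3), (7, 1), (11, 1)] (by rw [hc]; norm_num) (by norm_num) hp hodd h3 (by norm_num)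
  · exact check [(2, 10), (3, 3), (5, 2), (7, 3), (17, 1)] (by rw [hc]; norm_num) (by norm_num) hp hodd h3 (by norm_num)
  · exact check [(2, 14), (3, 3), (5, 3), (7, 1), (13, 1), (29, 1)] (by rw [hc]; norm_num) (by norm_num) hp hodd h3 (by norm_num)
  · exact check [(2, 13), (3, 7), (5, 2), (7, 1), (11, 1), (13, 1)] (by rw [hc]; norm_num) (by norm_num) hp hodd h3 (by norm_num)
  · exact check [(2, 9), (3, 4), (5, 1), (7, 3), (11, 1), (19, 1), (31, 1)] (by rw [hc]; norm_num) (by norm_num) hp hodd h3 (by norm_num)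
  · exact check [(2, 14), (3, 6), (5, 6), (7, 1), (11, 1), (19, 1)] (by rw [hc]; norm_num) (by norm_num) hp hodd h3 (by norm_num)
  · exact check [(2, 8), (3, 7), (5, 6), (7, 1), (11, 1), (31, 1), (37, 1), (67, 1)] (by rw [hc]; norm_num) (by norm_num) hp hodd h3 (by norm_num)
  · exact check [(2, 15), (3, 10), (5, 3), (7, 2), (13, 1), (19, 1), (31, 1)] (by rw [hc]; norm_num) (by norm_num) hp hodd h3 (by norm_num)
  · exact check [(2, 41), (3, 13), (5, 6), (7, 2), (11, 1), (13, 1), (17, 1), (19, 1), (23, 1), (31, 1), (47, 1)] (by rw [hc]; norm_num) (by norm_num) hp hodd h3 (by norm_num)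
  · exact check [(2, 46), (3, 20), (5, 9), (7, 6), (11, 2), (13, 3), (17, 1), (19, 1), (23, 1), (29, 1), (31, 1), (41, 1), (47, 1), (59, 1), (71, 1)] (by rw [hc]; norm_num) (by norm_num) hp hodd h3 (by norm_num)

end Cfsg.Agent.S2367
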