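import Cfsg.Statements.S2368
import Mathlib

-- import your own Cfsg.Agent.* helpers here

set_option autoImplicit false
open Cfsg

namespace Cfsg.Agent.S2368

/-- Let F be a finite field of characteristic p and m ≥ 1. Every element of GL(m, F) of p-power order has order less than p·m, and GL(m, F) has an element of p-power order at least m; so the largest order of a p-element of GL(m, F) is the least power of p that is at least m. -/
theorem result {F : Type*} [Field F] [Fintype F] (p : ℕ) [Fact p.Prime] [CharP F p] (m : ℕ) (hm : 1 ≤ m) :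
    (∀ g : Matrix.GeneralLinearGroup (Fin m) F, (∃ j : ℕ, orderOf g = p ^ j) → orderOf g < p * m) ∧
      ∃ g : Matrix.GeneralLinearGroup (Fin m) F, (∃ j : ℕ, orderOf g = p ^ j) ∧ m ≤ orderOf g := by
  classical
  have hp : p.Prime := Fact.out
  have hm0 : 0 < m := hm
  constructor
  · rintro g ⟨j, hj⟩
    set N : Matrix (Fin m) (Fin m) F := (g : Matrix (Fin m) (Fin m) F) - 1 with hN
    have hnil : IsNilpotent N := by
      refine ⟨p ^ j, ?_⟩
      have : CharP (Matrix (Fin m) (Fin m) F) p := by
        haveI : Nonempty (Fin m) := ⟨⟨0, hm0⟩⟩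
        infer_instance
      rw [hN, sub_pow_char_pow_of_commute p j (Commute.one_right _), one_pow,
        ← Units.val_pow_eq_pow_val, ← hj, pow_orderOf_eq_one, Units.val_one, sub_self]
    have hNm : N ^ m = 0 := by
      have h1 : IsNilpotent (Matrix.toLinAlgEquiv' N) := hnil.map _
      have h3 := LinearMap.aeval_self_charpoly (Matrix.toLinAlgEquiv' N)
      rw [h1.charpoly_eq_X_pow_finrank, map_pow, Polynomial.aeval_X, Module.finrank_fin_fun,
        ← map_pow, ← map_zero (Matrix.toLinAlgEquiv' (R := F) (n := Fin m))] at h3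
      exact Matrix.toLinAlgEquiv'.injective h3
    set k := Nat.clog p m with hk
    have hmk : m ≤ p ^ k := Nat.le_pow_clog hp.one_lt m
    have hpow : g ^ p ^ k = 1 := by
      haveI : Nonempty (Fin m) := ⟨⟨0, hm0⟩⟩
      apply Units.ext
      rw [Units.val_pow_eq_pow_val, Units.val_one, show (g : Matrix (Fin m) (Fin m) F) = N + 1 by
        rw [hN, sub_add_cancel], add_pow_char_pow_of_commute p k (Commute.one_right _), one_pow,
        pow_eq_zero_of_le hmk hNm, zero_add]
    refine lt_of_le_of_lt (orderOf_le_of_pow_eq_one (pow_pos hp.pos _) hpow) ?_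
    rcases Nat.eq_zero_or_pos k with hk0 | hk0
    · rw [hk0, pow_zero]
      calc 1 < p := hp.one_lt
        _ = p * 1 := (mul_one p).symm
        _ ≤ p * m := Nat.mul_le_mul le_rfl hm0
    · have h2 : 1 < m := by
        by_contra h
        rw [hk, Nat.clog_of_right_le_one (by omega)] at hk0
        omega
      have h3 := Nat.pow_pred_clog_lt_self hp.one_lt h2
      rw [← hk] at h3
      calc p ^ k = p * p ^ k.pred := by rw [← pow_succ', Nat.pred_eq_sub_one, Nat.sub_add_cancel hk0]
        _ < p * m := Nat.mul_lt_mul_of_pos_left h3 hp.pos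
  · haveI : Nonempty (Fin m) := ⟨⟨0, hm0⟩⟩
    let N : Matrix (Fin m) (Fin m) F := Matrix.of fun i j => if (j : ℕ) = i + 1 then 1 else 0
    have hpowN : ∀ (l : ℕ) (i j : Fin m), (N ^ l) i j = if (j : ℕ) = i + l then 1 else 0 := by
      intro l
      induction l with
      | zero => intro i j; simp [Matrix.one_apply, Fin.ext_iff, eq_comm]
      | succ l ih =>
        intro i j
        rw [pow_succ', Matrix.mul_apply]
        by_cases hi : (i : ℕ) + 1 < m
        · rw [Finset.sum_eq_single (⟨i + 1, hi⟩ : Fin m)]
          · simp [N, ih, show (i : ℕ) + 1 + l = i + (l + 1) by ring]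
          · intro b _ hb
            simp only [N, Matrix.of_apply]
            rw [if_neg (fun h => hb (Fin.ext h)), zero_mul]
          · simp
        · rw [Finset.sum_eq_zero, if_neg]
          · have := j.2
            omega
          · intro b _
            have := b.2
            simp only [N, Matrix.of_apply]
            rw [if_neg (by omega), zero_mul]
    have hNm : N ^ m = 0 := by
      ext i j
      rw [hpowN, if_neg (by have := j.2; omega)]
      rfl
    obtain ⟨g, hg⟩ := (IsNilpotent.isUnit_one_add ⟨m, hNm⟩ : IsUnit (1 + N))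
    have hgp : ∀ k, ((g ^ p ^ k : Matrix.GeneralLinearGroup (Fin m) F) : Matrix (Fin m) (Fin m) F) =
        1 + N ^ p ^ k := by
      intro k
      rw [Units.val_pow_eq_pow_val, hg, add_pow_char_pow_of_commute p k (Commute.one_left _),
        one_pow]
    have hfin : g ^ p ^ Nat.clog p m = 1 := by
      apply Units.ext
      rw [hgp, Units.val_one, pow_eq_zero_of_le (Nat.le_pow_clog hp.one_lt m) hNm, add_zero]
    obtain ⟨j, -, hj⟩ := (Nat.dvd_prime_pow hp).1 (orderOf_dvd_of_pow_eq_one hfin)
    refine ⟨g, ⟨j, hj⟩, ?_⟩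
    by_contra hlt
    have h1 : g ^ p ^ j = 1 := by rw [← hj, pow_orderOf_eq_one]
    have h2 := congrArg (fun x : Matrix.GeneralLinearGroup (Fin m) F => (x : Matrix (Fin m) (Fin m) F)) h1
    simp only [hgp, Units.val_one, add_eq_left] at h2
    have h3 := congrFun (congrFun h2 ⟨0, hm0⟩) ⟨orderOf g, by omega⟩
    rw [hpowN] at h3
    simp [hj] at h3

end Cfsg.Agent.S2368
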