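import Cfsg.Statements.S2370
import Cfsg.Agent.ReeExp.Unipotent

set_option autoImplicit false
open Cfsg

namespace Cfsg.Agent.S2370

/-- Let q = 2^(2m+1) with m ≥ 1. Every element of 2-power order of the large Ree group ²F₄(q) has order at most 32. -/
theorem result {K : Type*} [Field K] [Fintype K] (m : ℕ) (hm : 1 ≤ m) (hK : Fintype.card K = 2 ^ (2 * m + 1))
    (x : ↥(Cfsg.Lie.twistedF4 K (2 ^ m))) (hx : ∃ j : ℕ, orderOf x = 2 ^ j) : orderOf x ≤ 32 := by
  obtain ⟨j, hj⟩ := hx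
  haveI : Fact (Nat.Prime 2) := ⟨Nat.prime_two⟩
  haveI : CharP K 2 := by
    obtain ⟨p, hp⟩ := CharP.exists K
    haveI := hp
    obtain ⟨n, hpp, hn⟩ := FiniteField.card K p
    have h2 : p ∣ 2 ^ (2 * m + 1) := hK ▸ hn ▸ dvd_pow_self p n.pos.ne'
    have := (Nat.prime_dvd_prime_iff_eq hpp Nat.prime_two).1 (hpp.dvd_of_dvd_pow h2)
    subst this
    exact hp
  have hS : Agent.ChevGrp.Rules Lie.chevF4 K := Agent.Chev.rules_of_mem K (by simp)
  have hg := Agent.ReeExp.genSubgroup_le hS x.2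
  have h : (x : GL Lie.chevF4.Idx K) ^ 2 ^ j = 1 := by
    rw [← hj, ← Subgroup.orderOf_coe]
    exact pow_orderOf_eq_one _
  refine Nat.le_of_dvd (by norm_num) (orderOf_dvd_of_pow_eq_one (Subtype.ext ?_))
  simpa using Agent.ReeExp.pow32_eq_one hg h

end Cfsg.Agent.S2370
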