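import Cfsg.Statements.S2372
import Cfsg.Agent.CycTori.Main
import Cfsg.Agent.CycTori.Data
import Cfsg.Agent.LieTori.SylowInst

set_option autoImplicit false
open Cfsg

namespace Cfsg.Agent.S2372

/-- The group F₄(q) contains a cyclic subgroup of order q⁴ + 1 which is its own centralizer. -/
theorem result {F : Type*} [Field F] [Fintype F] (q : ℕ) (hF : Fintype.card F = q) :
    ∃ H : Subgroup ↥(Cfsg.Lie.chevF4.group F), IsCyclic ↥H ∧ Nat.card ↥H = q ^ 4 + 1 ∧
      Subgroup.centralizer (H : Set ↥(Cfsg.Lie.chevF4.group F)) = H := by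
  classical
  have hq1 : 1 < q := hF ▸ Fintype.one_lt_card
  set N := q ^ 4 + 1 with hN
  have hNv : (Polynomial.cyclotomic 8 ℤ).eval (q : ℤ) = (N : ℤ) := by
    rw [CycTori.eval_cyclotomic_eight, hN]; push_cast; rfl
  have h4 : ¬ 4 ∣ N := by
    rw [← ZMod.natCast_eq_zero_iff, hN]
    push_cast
    generalize (q : ZMod 4) = a
    revert a
    decide
  obtain ⟨r, hr, hrN, hr2⟩ : ∃ r, r.Prime ∧ r ∣ N ∧ r ≠ 2 := by
    by_contra hc
    push Not at hc
    have h16 : 16 ≤ q ^ 4 := le_trans (by norm_num) (Nat.pow_le_pow_left hq1 4)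
    obtain ⟨k, hk⟩ : ∃ k, N = 2 ^ k := by
      refine ⟨N.primeFactorsList.length, ?_⟩
      conv_lhs => rw [← Nat.prod_primeFactorsList (by omega : N ≠ 0)]
      exact List.prod_eq_pow_card _ _ fun p hp =>
        hc p (Nat.prime_of_mem_primeFactorsList hp) (Nat.dvd_of_mem_primeFactorsList hp)
    have : 2 ≤ k := by
      by_contra hlt
      interval_cases k <;> omega
    exact h4 (hk ▸ pow_dvd_pow 2 this)
  haveI := Fact.mk hr
  have hr8 : ¬ r ∣ 8 := fun h => hr2 ((Nat.prime_dvd_prime_iff_eq hr Nat.prime_two).1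
    (hr.dvd_of_dvd_pow (show r ∣ 2 ^ 3 from h)))
  have h9 : 8 ∣ r - 1 := by
    haveI : NeZero ((8 : ℕ) : ZMod r) := ⟨fun h0 => hr8 ((ZMod.natCast_eq_zero_iff 8 r).1 h0)⟩
    have h2 := congrArg (Int.castRingHom (ZMod r)) hNv
    rw [← Polynomial.eval₂_hom, ← Polynomial.eval_map, Polynomial.map_cyclotomic, map_natCast, map_natCast,
      (ZMod.natCast_eq_zero_iff N r).2 hrN] at h2
    have h3 : IsPrimitiveRoot (q : ZMod r) 8 := Polynomial.isRoot_cyclotomic_iff.1 h2
    rw [h3.eq_orderOf]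
    exact ZMod.orderOf_dvd_card_sub_one fun h0 => by
      have := h3.pow_eq_one; rw [h0, zero_pow (by norm_num)] at this; exact zero_ne_one this
  have hr9 : 6 < r := by
    have := hr.two_le
    omega
  refine CycTori.exists_cyclic (by simp) CycTori.topF4 ChevGrp.unimodular_F4 LieTori.detF4' rfl LieTori.weylF4
    (h := 8) (by simp) (by norm_num) (by decide +kernel) hF (LieTori.orderF4 F) (fun K _ _ => LieTori.orderF4 K)
    hNv (by omega) (fun s hs hs8 _ hs2 => ?_) r hrN hr9 hr8 ?_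
  · rw [(Nat.prime_dvd_prime_iff_eq hs Nat.prime_two).1 (hs.dvd_of_dvd_pow (show s ∣ 2 ^ 3 from hs8))] at hs2
    exact h4 hs2
  · rw [show [2, 6, 8, 12].prod = 2 ^ 7 * 3 ^ 2 by norm_num, hr.dvd_mul]
    rintro (h | h) <;> have := Nat.le_of_dvd (by norm_num) (hr.dvd_of_dvd_pow h) <;> omega

end Cfsg.Agent.S2372
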