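import Cfsg.Statements.S2375
import Cfsg.Agent.CycTori.Main
import Cfsg.Agent.CycTori.Data
import Cfsg.Agent.LieTori.SylowInst

set_option autoImplicit false
open Cfsg

namespace Cfsg.Agent.S2375

/-- The group E₈(q) contains a cyclic subgroup of order q⁸ + q⁷ − q⁵ − q⁴ − q³ + q + 1 which is its own centralizer. -/
theorem result {F : Type*} [Field F] [Fintype F] (q : ℕ) (hF : Fintype.card F = q) :
    ∃ H : Subgroup ↥(Cfsg.Lie.chevE8.group F), IsCyclic ↥H ∧ Nat.card ↥H = q ^ 8 + q ^ 7 - q ^ 5 - q ^ 4 - q ^ 3 + q + 1 ∧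
      Subgroup.centralizer (H : Set ↥(Cfsg.Lie.chevE8.group F)) = H := by
  classical
  have hq1 : 1 < q := hF ▸ Fintype.one_lt_card
  set N := q ^ 8 + q ^ 7 - q ^ 5 - q ^ 4 - q ^ 3 + q + 1 with hN
  have h76 : 2 * q ^ 5 ≤ q ^ 7 := by
    rw [show q ^ 7 = q ^ 2 * q ^ 5 by ring]
    exact Nat.mul_le_mul_right _ (by nlinarith)
  have h84 : q ^ 4 + q ^ 3 ≤ q ^ 8 := by
    have h1 : q ^ 3 ≤ q ^ 4 := Nat.pow_le_pow_right (by omega) (by norm_num)
    have h2 : 2 * q ^ 4 ≤ q ^ 8 := by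
      rw [show q ^ 8 = q ^ 4 * q ^ 4 by ring]
      exact Nat.mul_le_mul_right _ (le_trans (by norm_num) (Nat.pow_le_pow_left hq1 4))
    omega
  have hNint : (N : ℤ) = (q : ℤ) ^ 8 + q ^ 7 - q ^ 5 - q ^ 4 - q ^ 3 + q + 1 := by
    rw [hN, Nat.cast_add, Nat.cast_add, Nat.cast_sub (by omega), Nat.cast_sub (by omega),
      Nat.cast_sub (by omega)]
    push_cast
    ring
  have hNv : (Polynomial.cyclotomic 30 ℤ).eval (q : ℤ) = (N : ℤ) := by
    rw [CycTori.eval_cyclotomic_thirty, hNint]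
  have hno : ∀ s : ℕ, s.Prime → s ∣ 30 → ¬ s ∣ N := by
    intro s hs hd hsN
    have h0 : ((N : ℤ) : ZMod s) = 0 := by rw [Int.cast_natCast, ZMod.natCast_eq_zero_iff]; exact hsN
    rw [hNint] at h0
    push_cast at h0
    have h30 : s ∣ 2 * (3 * 5) := hd
    rcases hs.dvd_mul.1 h30 with h | h
    · obtain rfl := (Nat.prime_dvd_prime_iff_eq hs Nat.prime_two).1 h
      revert h0
      generalize (q : ZMod 2) = a
      revert a
      decide
    rcases hs.dvd_mul.1 h with h | h
    · obtain rfl := (Nat.prime_dvd_prime_iff_eq hs Nat.prime_three).1 h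
      revert h0
      generalize (q : ZMod 3) = a
      revert a
      decide
    · obtain rfl := (Nat.prime_dvd_prime_iff_eq hs Nat.prime_five).1 h
      revert h0
      generalize (q : ZMod 5) = a
      revert a
      decide
  have hN1 : 1 < N := by omega
  obtain ⟨r, hr, hrN⟩ := Nat.exists_prime_and_dvd (by omega : N ≠ 1)
  haveI := Fact.mk hr
  have hr30 : ¬ r ∣ 30 := fun h => hno r hr h hrN
  have h31 : 30 ∣ r - 1 := by
    haveI : NeZero ((30 : ℕ) : ZMod r) := ⟨fun h0 => hr30 ((ZMod.natCast_eq_zero_iff 30 r).1 h0)⟩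
    have h2 := congrArg (Int.castRingHom (ZMod r)) hNv
    rw [← Polynomial.eval₂_hom, ← Polynomial.eval_map, Polynomial.map_cyclotomic, map_natCast, map_natCast,
      (ZMod.natCast_eq_zero_iff N r).2 hrN] at h2
    have h3 : IsPrimitiveRoot (q : ZMod r) 30 := Polynomial.isRoot_cyclotomic_iff.1 h2
    rw [h3.eq_orderOf]
    exact ZMod.orderOf_dvd_card_sub_one fun h0 => by
      have := h3.pow_eq_one; rw [h0, zero_pow (by norm_num)] at this; exact zero_ne_one this
  have hr31 : 30 < r := by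
    have := hr.two_le
    omega
  refine CycTori.exists_cyclic (by simp) CycTori.topE8 ChevGrp.unimodular_E8 LieTori.detE8' rfl LieTori.weylE8
    (h := 30) (by simp) (by norm_num) (by decide +kernel) hF (LieTori.orderE8 F) (fun K _ _ => LieTori.orderE8 K)
    hNv (by omega) (fun s hs hs30 hsN => absurd hsN (hno s hs hs30)) r hrN (by omega) hr30 ?_
  rw [hr.prime.dvd_prod_iff]
  rintro ⟨e, he, hd⟩
  have he30 : 0 < e ∧ e ≤ 30 := by
    simp only [List.mem_cons, List.not_mem_nil, or_false] at he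
    omega
  have := Nat.le_of_dvd he30.1 hd
  omega

end Cfsg.Agent.S2375
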