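import Cfsg.Agent.LieTori.SylowInst
import Cfsg.Statements.S2378

set_option autoImplicit false
open Cfsg

namespace Cfsg.Agent.S2378

/-- Sylow subgroups for primes away from the characteristic and the Weyl group. Let `G` be the Chevalley group of type G₂, B₂, D₄, F₄, E₆, E₇ or E₈ over a field with `q` elements, with the degrees of its Weyl group listed beside the type (their product is the order of the Weyl group), and let `r` be a prime dividing the order of `G`, not dividing `q` and not dividing the order of the Weyl group. Let `d` be the multiplicative order of `q` modulo `r`, `a` the number of degrees divisible by `d`, and `m` the `r`-part of the value at `q` of the `d`-th cyclotomic polynomial. Then every Sylow `r`-subgroup of `G` is homocyclic: a direct product of `a` cyclic groups of order `m` (in particular abelian). -/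
theorem result {F : Type*} [Field F] [Fintype F] {q : ℕ} (hq : Fintype.card F = q)
    (c : Cfsg.Lie.ChevalleyDatum × List ℕ)
    (hc : c ∈ [(Cfsg.Lie.chevG2, [2, 6]), (Cfsg.Lie.chevB2, [2, 4]), (Cfsg.Lie.chevD4, [2, 4, 4, 6]), (Cfsg.Lie.chevF4, [2, 6, 8, 12]),
      (Cfsg.Lie.chevE6, [2, 5, 6, 8, 9, 12]), (Cfsg.Lie.chevE7, [2, 6, 8, 10, 12, 14, 18]), (Cfsg.Lie.chevE8, [2, 8, 12, 14, 18, 20, 24, 30])])
    (r : ℕ) [Fact r.Prime] (hrq : ¬ r ∣ q) (hrW : ¬ r ∣ c.2.prod) (hrG : r ∣ Nat.card ↥(c.1.group F)) (P : Sylow r ↥(c.1.group F)) :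
    Nonempty (↥(P : Subgroup ↥(c.1.group F)) ≃*
      (Fin (c.2.filter (fun e => orderOf (q : ZMod r) ∣ e)).length →
        Multiplicative (ZMod (r ^ padicValNat r ((Polynomial.cyclotomic (orderOf (q : ZMod r)) ℤ).eval (q : ℤ)).natAbs)))) := by
  have hm : ∀ D ∈ [c.1], D ∈ [Cfsg.Lie.chevG2, Cfsg.Lie.chevB2, Cfsg.Lie.chevD4, Cfsg.Lie.chevF4,
      Cfsg.Lie.chevE6, Cfsg.Lie.chevE7, Cfsg.Lie.chevE8] := by
    intro D hD
    rw [List.mem_singleton.1 hD]
    exact List.mem_map_of_mem (f := Prod.fst) hc
  have hD := hm c.1 (List.mem_singleton_self _)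
  simp only [List.mem_cons, List.not_mem_nil, or_false] at hc
  rcases hc with rfl | rfl | rfl | rfl | rfl | rfl | rfl
  · exact LieTori.sylow_homocyclic hD rfl (by norm_num) LieTori.detG2' (by norm_num) LieTori.rankBoundG2 hq
      (LieTori.orderG2 F) (fun K _ _ => LieTori.orderG2 K) r hrq hrW hrG P
  · exact LieTori.sylow_homocyclic hD rfl (by norm_num) LieTori.detB2' (by norm_num) LieTori.rankBoundB2 hq
      (LieTori.orderB2 F) (fun K _ _ => LieTori.orderB2 K) r hrq hrW hrG P
  · exact LieTori.sylow_homocyclic hD rfl (by norm_num) LieTori.detD4' (by norm_num) LieTori.rankBoundD4 hq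
      (LieTori.orderD4 F) (fun K _ _ => LieTori.orderD4 K) r hrq hrW hrG P
  · exact LieTori.sylow_homocyclic hD rfl (by norm_num) LieTori.detF4' (by norm_num) LieTori.rankBoundF4 hq
      (LieTori.orderF4 F) (fun K _ _ => LieTori.orderF4 K) r hrq hrW hrG P
  · exact LieTori.sylow_homocyclic hD rfl (by norm_num) LieTori.detE6' (by norm_num) LieTori.rankBoundE6 hq
      (LieTori.orderE6 F) (fun K _ _ => LieTori.orderE6 K) r hrq hrW hrG P
  · exact LieTori.sylow_homocyclic hD rfl (by norm_num) LieTori.detE7' (by norm_num) LieTori.rankBoundE7 hq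
      (LieTori.orderE7 F) (fun K _ _ => LieTori.orderE7 K) r hrq hrW hrG P
  · exact LieTori.sylow_homocyclic hD rfl (by norm_num) LieTori.detE8' (by norm_num) LieTori.rankBoundE8 hq
      (LieTori.orderE8 F) (fun K _ _ => LieTori.orderE8 K) r hrq hrW hrG P

end Cfsg.Agent.S2378
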