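import Cfsg.Statements.S2382
import Cfsg.Agent.ChevGrp.WeightCount
import Cfsg.Agent.ChevGrp.RootKer
import Cfsg.Agent.Chev.Rules

set_option autoImplicit false
open Cfsg

namespace Cfsg.Agent.S2382

open Cfsg.Lie Cfsg.Agent.ChevGrp

theorem rootKer_trivial {F : Type*} [Field F] [Fintype F] {D : ChevalleyDatum}
    (hD : D ∈ [chevG2, chevF4, chevE8]) : Nat.card (rootKer D F) = 1 := by
  simp only [List.mem_cons, List.not_mem_nil, or_false] at hD
  rcases hD with rfl | rfl | rfl
  · rw [card_rootKer_of_cert (r := 0) (fun i => [].getD i.1 0)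
      (matOfList [[], []])
      (matOfList [])
      (matOfList [[2, 3], [1, 2]])
      (matOfList [[], []])
      (matOfList [])
      (by decide +kernel) (by decide +kernel) (by decide +kernel) (by decide +kernel)]
    simp [Fin.prod_univ_succ]
  · rw [card_rootKer_of_cert (r := 0) (fun i => [].getD i.1 0)
      (matOfList [[], [], [], []])
      (matOfList [])
      (matOfList [[2, 3, 4, 2], [3, 6, 8, 4], [2, 4, 6, 3], [1, 2, 3, 2]])
      (matOfList [[], [], [], []])
      (matOfList [])
      (by decide +kernel) (by decide +kernel) (by decide +kernel) (by decide +kernel)]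
    simp [Fin.prod_univ_succ]
  · rw [card_rootKer_of_cert (r := 0) (fun i => [].getD i.1 0)
      (matOfList [[], [], [], [], [], [], [], []])
      (matOfList [])
      (matOfList [[4, 5, 7, 10, 8, 6, 4, 2], [5, 8, 10, 15, 12, 9, 6, 3], [7, 10, 14, 20, 16, 12, 8, 4], [10, 15, 20, 30, 24, 18, 12, 6], [8, 12, 16, 24, 20, 15, 10, 5], [6, 9, 12, 18, 15, 12, 8, 4], [4, 6, 8, 12, 10, 8, 6, 3], [2, 3, 4, 6, 5, 4, 3, 2]])
      (matOfList [[], [], [], [], [], [], [], []])
      (matOfList [])
      (by decide +kernel) (by decide +kernel) (by decide +kernel) (by decide +kernel)]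
    simp [Fin.prod_univ_succ]

/-- Steinberg's count of semisimple classes for the three types whose simply connected and adjoint groups coincide: in the Chevalley group of type G₂, F₄ or E₈ over a field with `q` elements of characteristic `p`, the conjugacy classes of elements of order prime to `p` number exactly `q^l`, `l = 2, 4, 8` the rank. -/
theorem result {F : Type*} [Field F] [Fintype F] {q : ℕ} (hq : Fintype.card F = q) (p : ℕ) [Fact p.Prime] [CharP F p]
    (D : Cfsg.Lie.ChevalleyDatum) (hD : D ∈ [Cfsg.Lie.chevG2, Cfsg.Lie.chevF4, Cfsg.Lie.chevE8]) :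
    Nat.card {c : ConjClasses ↥(D.group F) // ∃ g : ↥(D.group F), ConjClasses.mk g = c ∧ (orderOf g).Coprime p} = q ^ D.rank := by
  have hS : Rules D F := Chev.rules_of_mem F (by
    simp only [List.mem_cons, List.not_mem_nil, or_false] at hD ⊢
    tauto)
  have h := card_semisimple_classes hS p (rootKer_trivial (F := F) hD)
  rw [hq] at h
  rw [← h]
  refine Nat.card_congr (Equiv.subtypeEquivRight fun c => exists_congr fun g => and_congr_right fun _ => ?_)
  rw [Nat.coprime_comm, (Fact.out : p.Prime).coprime_iff_not_dvd]

end Cfsg.Agent.S2382
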