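import Cfsg.Statements.S2383
import Cfsg.Agent.ChevGrp.WeightCount
import Cfsg.Agent.ChevGrp.RootKer
import Cfsg.Agent.Chev.Rules

set_option autoImplicit false
open Cfsg

namespace Cfsg.Agent.S2383

open Cfsg.Lie Cfsg.Agent.ChevGrp

theorem rootKer_trivial {F : Type*} [Field F] [Fintype F] [CharP F 2] {D : ChevalleyDatum}
    (hD : D ∈ [chevB2, chevD4, chevE7]) : Nat.card (rootKer D F) = 1 := by
  have hg : Odd (Fintype.card F - 1) := by
    obtain ⟨n, -, hn⟩ := FiniteField.card F 2
    rw [hn]
    have h0 : 0 < 2 ^ (n : ℕ) := by positivity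
    obtain ⟨k, hk⟩ : 2 ∣ 2 ^ (n : ℕ) := dvd_pow_self 2 n.pos.ne'
    exact ⟨k - 1, by omega⟩
  simp only [List.mem_cons, List.not_mem_nil, or_false] at hD
  rcases hD with rfl | rfl | rfl
  · rw [card_rootKer_of_cert (r := 1) (fun i => [2].getD i.1 0)
      (matOfList [[1], [0]])
      (matOfList [[1, 2]])
      (matOfList [[0, -1], [0, 0]])
      (matOfList [[2], [1]])
      (matOfList [[0, 1]])
      (by decide +kernel) (by decide +kernel) (by decide +kernel) (by decide +kernel)]
    simp [Fin.prod_univ_succ, hg]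
  · rw [card_rootKer_of_cert (r := 2) (fun i => [2, 2].getD i.1 0)
      (matOfList [[0, 0], [0, 0], [-1, 0], [1, 1]])
      (matOfList [[-3, -2, -1, 0], [2, 2, 1, 1]])
      (matOfList [[0, 0, 0, 0], [-1, 0, 0, 0], [-2, -1, 0, 0], [0, 0, 0, 0]])
      (matOfList [[0, 1], [0, 2], [-1, 1], [1, 2]])
      (matOfList [[-2, 0, 0, 1], [1, 0, 0, 0]])
      (by decide +kernel) (by decide +kernel) (by decide +kernel) (by decide +kernel)]
    simp [Fin.prod_univ_succ, hg]
  · rw [card_rootKer_of_cert (r := 1) (fun i => [2].getD i.1 0)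
      (matOfList [[0], [0], [0], [0], [0], [0], [-1]])
      (matOfList [[-4, -1, -4, -4, -3, -2, -1]])
      (matOfList [[-2, 1, -1, 0, 0, 0, 0], [-4, 2, -2, 0, 0, 0, 0], [-5, 2, -2, 0, 0, 0, 0], [-8, 3, -4, 0, 0, 0, 0], [-7, 2, -4, -1, 0, 0, 0], [-6, 1, -4, -2, -1, 0, 0], [-5, 0, -4, -3, -2, -1, 0]])
      (matOfList [[-2], [-3], [-4], [-6], [-5], [-4], [-3]])
      (matOfList [[-2, 1, 0, 0, 0, 0, 0]])
      (by decide +kernel) (by decide +kernel) (by decide +kernel) (by decide +kernel)]
    simp [Fin.prod_univ_succ, hg]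

/-- Steinberg's count of semisimple classes in characteristic 2 for the types B₂, D₄, E₇, where the finite simply connected group has trivial centre and so coincides with the Chevalley group: for the Chevalley group of type B₂, D₄ or E₇ over a field with `q` elements of characteristic 2, the conjugacy classes of elements of odd order number exactly `q^l`, `l` the rank. -/
theorem result {F : Type*} [Field F] [Fintype F] {q : ℕ} (hq : Fintype.card F = q) [CharP F 2]
    (D : Cfsg.Lie.ChevalleyDatum) (hD : D ∈ [Cfsg.Lie.chevB2, Cfsg.Lie.chevD4, Cfsg.Lie.chevE7]) :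
    Nat.card {c : ConjClasses ↥(D.group F) // ∃ g : ↥(D.group F), ConjClasses.mk g = c ∧ Odd (orderOf g)} = q ^ D.rank := by
  haveI : Fact (Nat.Prime 2) := ⟨Nat.prime_two⟩
  have hS : Rules D F := Chev.rules_of_mem F (by
    simp only [List.mem_cons, List.not_mem_nil, or_false] at hD ⊢
    tauto)
  have h := card_semisimple_classes hS 2 (rootKer_trivial (F := F) hD)
  rw [hq] at h
  rw [← h]
  refine Nat.card_congr (Equiv.subtypeEquivRight fun c => exists_congr fun g => and_congr_right fun _ => ?_)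
  rw [Nat.odd_iff, Nat.two_dvd_ne_zero]

end Cfsg.Agent.S2383
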