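import Cfsg.Statements.S2400
import Cfsg.Agent.Chev.UCE.Main

set_option autoImplicit false
open Cfsg

namespace Cfsg.Agent.S2400

/-- Over a finite field `K`, the group presented by Steinberg's relators (R1)–(R3) (the universal Chevalley group) of type E₆ or E₇, or of type B₂ or D₄ with `K` of more than two elements, has trivial Schur multiplier: every finite stem extension of it is an isomorphism (Schur multiplier described through stem extensions as in the definitions). Types G₂, F₄ and E₈ are not covered here. -/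
theorem result {K : Type*} [Field K] [Fintype K] (e : Cfsg.Lie.ChevalleyDatum × ℕ)
    (he : e ∈ [(Cfsg.Lie.chevE6, 0), (Cfsg.Lie.chevE7, 0), (Cfsg.Lie.chevB2, 2), (Cfsg.Lie.chevD4, 2)]) (hK : Fintype.card K ≠ e.2) :
    Cfsg.HasCyclicSchurMultiplier (e.1.SteinbergGroup K) 1 := by
  obtain ⟨D, m⟩ := e
  simp only [List.mem_cons, Prod.mk.injEq, List.not_mem_nil, or_false] at he
  have h1 : 1 < Fintype.card K := Fintype.one_lt_card
  rcases he with ⟨rfl, rfl⟩ | ⟨rfl, rfl⟩ | ⟨rfl, rfl⟩ | ⟨rfl, rfl⟩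
  · exact Cfsg.Agent.CentralExt.Laced.multiplier_steinbergGroup
      (Cfsg.Agent.Chev.rules_of_mem K (by simp)) Cfsg.Agent.CentralExt.Laced.lacedOK_E6
  · exact Cfsg.Agent.CentralExt.Laced.multiplier_steinbergGroup
      (Cfsg.Agent.Chev.rules_of_mem K (by simp)) Cfsg.Agent.CentralExt.Laced.lacedOK_E7
  · have hS := Cfsg.Agent.Chev.rules_of_mem (D := Cfsg.Lie.chevB2) K (by simp)
    refine Cfsg.Agent.Chev.UCE.multiplier_steinbergGroup hS
      (Cfsg.Agent.Chev.UCE.splits_of_sys hS fun E _ π hπ hc =>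
        Cfsg.Agent.Chev.UCE.exists_sys_B2 _ hc hπ (Or.inl ?_))
    rw [Nat.card_eq_fintype_card]
    simp only at hK
    omega
  · have hS := Cfsg.Agent.Chev.rules_of_mem (D := Cfsg.Lie.chevD4) K (by simp)
    refine Cfsg.Agent.Chev.UCE.multiplier_steinbergGroup hS
      (Cfsg.Agent.Chev.UCE.splits_of_sys hS fun E _ π hπ hc =>
        Cfsg.Agent.Chev.UCE.exists_sys_D4 _ hc hπ (Or.inl ?_))
    rw [Nat.card_eq_fintype_card]
    simp only at hK
    omega

end Cfsg.Agent.S2400
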