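import Cfsg.Statements.S2404
import Cfsg.Agent.ChevGrp.WeightCount
import Cfsg.Agent.ChevGrp.RootKer
import Cfsg.Agent.Chev.Rules

set_option autoImplicit false
open Cfsg

namespace Cfsg.Agent.S2404

/-- Steinberg's count of semisimple classes for type E₆ when the finite simply connected group has trivial centre: over a field with `q` elements of characteristic `p` with `q ≢ 1 (mod 3)`, the simply connected group E₆(q) coincides with the Chevalley group, and the conjugacy classes of elements of order prime to `p` in the Chevalley group of type E₆ number exactly `q^6`. -/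
theorem result {F : Type*} [Field F] [Fintype F] {q : ℕ} (hq : Fintype.card F = q) (hq3 : q % 3 ≠ 1) (p : ℕ) [Fact p.Prime] [CharP F p] :
    Nat.card {c : ConjClasses ↥(Cfsg.Lie.chevE6.group F) // ∃ g : ↥(Cfsg.Lie.chevE6.group F), ConjClasses.mk g = c ∧ (orderOf g).Coprime p} = q ^ 6 := by
  have hS : Cfsg.Agent.ChevGrp.Rules Cfsg.Lie.chevE6 F := Cfsg.Agent.Chev.rules_of_mem F (by simp)
  have hcard : Nat.card F = q := by rw [Nat.card_eq_fintype_card, hq]
  have hq1 : 1 < q := hq ▸ Fintype.one_lt_card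
  have hd : Nat.card (Cfsg.Agent.ChevGrp.rootKer Cfsg.Lie.chevE6 F) = 1 := by
    have hg : Nat.gcd (q - 1) 3 = 1 := by
      refine Nat.Coprime.symm ((Nat.Prime.coprime_iff_not_dvd Nat.prime_three).2 ?_)
      omega
    rw [Cfsg.Agent.ChevGrp.card_rootKer_of_cert (r := 1) (fun i => [3].getD i.1 0)
      (Cfsg.Agent.ChevGrp.matOfList [[0], [0], [0], [0], [0], [-1]])
      (Cfsg.Agent.ChevGrp.matOfList [[-5, 0, -4, -3, -2, -1]])
      (Cfsg.Agent.ChevGrp.matOfList [[-2, 1, -1, 0, 0, 0], [-4, 2, -2, 0, 0, 0], [-5, 2, -2, 0, 0, 0], [-8, 3, -4, 0, 0, 0], [-7, 2, -4, -1, 0, 0], [-6, 1, -4, -2, -1, 0]])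
      (Cfsg.Agent.ChevGrp.matOfList [[-2], [-3], [-4], [-6], [-5], [-4]])
      (Cfsg.Agent.ChevGrp.matOfList [[-2, 1, 0, 0, 0, 0]])
      (by decide +kernel) (by decide +kernel) (by decide +kernel) (by decide +kernel), hcard]
    simpa [Fin.prod_univ_succ] using hg
  have h := Cfsg.Agent.ChevGrp.card_semisimple_classes hS p hd
  rw [hq] at h
  rw [show (6 : ℕ) = Cfsg.Lie.chevE6.rank by decide +kernel, ← h]
  refine Nat.card_congr (Equiv.subtypeEquivRight fun c => exists_congr fun g => and_congr_right fun _ => ?_)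
  rw [Nat.coprime_comm, (Fact.out : p.Prime).coprime_iff_not_dvd]

end Cfsg.Agent.S2404
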