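import Cfsg.Statements.S2405
import Cfsg.Agent.Spec.TwoGen.ChevTables

set_option autoImplicit false
open Cfsg

namespace Cfsg.Agent.S2405

open Cfsg.Agent.Spec.TwoGen in
/-- Each Chevalley group of type G₂, B₂, D₄, F₄, E₆, E₇ or E₈ over a finite field is generated by two of its elements (types B₂ and G₂ over the field with two elements, where the group is not simple, excepted). -/
theorem result {F : Type*} [Field F] [Finite F] (D : Cfsg.Lie.ChevalleyDatum) (hD : D ∈ [Cfsg.Lie.chevG2, Cfsg.Lie.chevB2, Cfsg.Lie.chevD4, Cfsg.Lie.chevF4, Cfsg.Lie.chevE6, Cfsg.Lie.chevE7, Cfsg.Lie.chevE8])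
    (hF : D ∈ [Cfsg.Lie.chevB2, Cfsg.Lie.chevG2] → ∃ x : F, x ≠ 0 ∧ x ≠ 1) :
    ∃ a b : ↥(D.group F), Subgroup.closure ({a, b} : Set ↥(D.group F)) = ⊤ := by
  classical
  haveI : Fintype F := Fintype.ofFinite F
  have hS := Agent.Chev.rules_of_mem F hD
  have hq2 : 2 ≤ Fintype.card F := Fintype.one_lt_card
  have hB : D ∈ [Cfsg.Lie.chevB2, Cfsg.Lie.chevG2] → 3 ≤ Fintype.card F := fun h => by
    obtain ⟨x, hx0, hx1⟩ := hF h
    calc 3 = ({0, 1, x} : Finset F).card :=
          (Finset.card_eq_three.2 ⟨0, 1, x, zero_ne_one, Ne.symm hx0, Ne.symm hx1, rfl⟩).symm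
      _ ≤ _ := Finset.card_le_univ _
  have hchar : ∀ p : ℕ, p.Prime → Fintype.card F = p → CharP F p := fun p hp h => by
    haveI := Fact.mk hp
    exact charP_of_card_eq_prime h
  simp only [List.mem_cons, List.not_mem_nil, or_false] at hD
  rcases hD with rfl | rfl | rfl | rfl | rfl | rfl | rfl
  · exact exists_pair_big (hB (by simp)) _ (by simp) hS _ _ _ _ _ _ _ bigG2
  · have h3 := hB (by simp)
    by_cases h4 : 4 ≤ Fintype.card F
    · exact exists_pair_big h3 _ (fun _ => h4) hS _ _ _ _ _ _ _ bigB2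
    · have h : Fintype.card F = 3 := by omega
      haveI := hchar 3 Nat.prime_three h
      haveI := Fact.mk Nat.prime_three
      exact exists_pair_small h hS _ _ _ _ smallB2
  · by_cases h3 : 3 ≤ Fintype.card F
    · exact exists_pair_big h3 _ (by simp) hS _ _ _ _ _ _ _ bigD4
    · have h : Fintype.card F = 2 := by omega
      haveI := hchar 2 Nat.prime_two h
      haveI := Fact.mk Nat.prime_two
      exact exists_pair_small h hS _ _ _ _ smallD4
  · by_cases h3 : 3 ≤ Fintype.card F
    · exact exists_pair_big h3 _ (by simp) hS _ _ _ _ _ _ _ bigF4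
    · have h : Fintype.card F = 2 := by omega
      haveI := hchar 2 Nat.prime_two h
      haveI := Fact.mk Nat.prime_two
      exact exists_pair_small h hS _ _ _ _ smallF4
  · by_cases h3 : 3 ≤ Fintype.card F
    · exact exists_pair_big h3 _ (by simp) hS _ _ _ _ _ _ _ bigE6
    · have h : Fintype.card F = 2 := by omega
      haveI := hchar 2 Nat.prime_two h
      haveI := Fact.mk Nat.prime_two
      exact exists_pair_small h hS _ _ _ _ smallE6
  · by_cases h3 : 3 ≤ Fintype.card F
    · exact exists_pair_big h3 _ (by simp) hS _ _ _ _ _ _ _ bigE7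
    · have h : Fintype.card F = 2 := by omega
      haveI := hchar 2 Nat.prime_two h
      haveI := Fact.mk Nat.prime_two
      exact exists_pair_small h hS _ _ _ _ smallE7
  · by_cases h3 : 3 ≤ Fintype.card F
    · exact exists_pair_big h3 _ (by simp) hS _ _ _ _ _ _ _ bigE8
    · have h : Fintype.card F = 2 := by omega
      haveI := hchar 2 Nat.prime_two h
      haveI := Fact.mk Nat.prime_two
      exact exists_pair_small h hS _ _ _ _ smallE8

end Cfsg.Agent.S2405
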