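import Cfsg.Statements.S2410
import Cfsg.Agent.Suzuki.Structure
-- import your own Cfsg.Agent.* helpers here

set_option autoImplicit false
open Cfsg

namespace Cfsg.Agent.S2410

open Cfsg.Agent.Suzuki

theorem main {F : Type*} [Field F] [Fintype F] {m : ℕ} [hS : SuzukiField F m] :
    ∃ a b : ↥(Cfsg.Sz F m), Subgroup.closure ({a, b} : Set ↥(Cfsg.Sz F m)) = ⊤ := by
  obtain ⟨g, hg⟩ := IsCyclic.exists_monoid_generator (α := Fˣ)
  set d : Cfsg.Sz F m := gD g with hd
  set u : Cfsg.Sz F m := gT 1 0 * gW F m with hu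
  refine ⟨d, u, ?_⟩
  set M := Subgroup.closure ({d, u} : Set ↥(Cfsg.Sz F m))
  have hdM : d ∈ M := Subgroup.subset_closure (by simp)
  have huM : u ∈ M := Subgroup.subset_closure (by simp)
  have hD : ∀ l : Fˣ, (gD l : Cfsg.Sz F m) ∈ M := by
    intro l
    obtain ⟨k, hk⟩ := Submonoid.mem_powers_iff _ _ |>.1 (hg l)
    have : (gD l : Cfsg.Sz F m) = d ^ k := by rw [← hk]; exact map_pow (gDHom F m) g k
    rw [this]
    exact pow_mem hdM k
  have hconj : ∀ (l : Fˣ) (a b : F), (gT a b : Cfsg.Sz F m) ∈ M →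
      (gT ((l : F) ^ 2 * a) (th F m l ^ 2 * (l : F) ^ 2 * b) : Cfsg.Sz F m) ∈ M := by
    intro l a b h
    have e : gD l * gT a b * (gD l)⁻¹ = (gT ((l : F) ^ 2 * a) (th F m l ^ 2 * (l : F) ^ 2 * b) : Cfsg.Sz F m) := by
      rw [gD_conj_gT, mul_inv_cancel_right]
    rw [← e]
    exact mul_mem (mul_mem (hD l) h) (inv_mem (hD l))
  let A : AddSubgroup F :=
    { carrier := {a | ∃ b, (gT a b : Cfsg.Sz F m) ∈ M}
      zero_mem' := ⟨0, by rw [gT_zero]; exact one_mem M⟩
      add_mem' := by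
        rintro a c ⟨b, hb⟩ ⟨e, he⟩
        have := mul_mem hb he
        rw [gT_mul] at this
        exact ⟨_, this⟩
      neg_mem' := by
        rintro a ⟨b, hb⟩
        have := inv_mem hb
        rw [gT_inv] at this
        refine ⟨b + th F m a * a, ?_⟩
        rwa [CharTwo.neg_eq] }
  -- a unipotent element outside the centre
  set a0 : F := 1 + ((g⁻¹ : Fˣ) : F) ^ 2 with ha0
  obtain ⟨b0, hb0⟩ : ∃ b, (gT a0 b : Cfsg.Sz F m) ∈ M := by
    have hx : u * d * u⁻¹ * d ∈ M := mul_mem (mul_mem (mul_mem huM hdM) (inv_mem huM)) hdM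
    have e : u * d * u⁻¹ * d = gT 1 0 * (gD g⁻¹ * (gT 1 0)⁻¹ * (gD g⁻¹)⁻¹) := by
      have hw : gW F m * gD g * (gW F m)⁻¹ = gD g⁻¹ := by
        rw [gW_mul_gD, mul_inv_cancel_right]
      rw [hu, hd, gD_inv, inv_inv]
      calc gT 1 0 * gW F m * gD g * (gT 1 0 * gW F m)⁻¹ * gD g
          = gT 1 0 * (gW F m * gD g * (gW F m)⁻¹) * (gT 1 0)⁻¹ * gD g := by group
        _ = _ := by rw [hw]; group
    rw [e, gT_inv, gD_conj_gT, mul_inv_cancel_right, gT_mul, mul_one, ← ha0] at hx
    exact ⟨_, hx⟩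
  have hg1 : g ≠ 1 := by
    intro h
    obtain ⟨x, hx0, hx1⟩ := exists_ne_zero_ne_one (F := F) (m := m)
    obtain ⟨k, hk⟩ := Submonoid.mem_powers_iff _ _ |>.1 (hg (Units.mk0 x hx0))
    rw [h, one_pow] at hk
    exact hx1 (by simpa using (congrArg Units.val hk).symm)
  have ha0ne : a0 ≠ 0 := by
    intro h
    apply hg1
    have h2 : ((g⁻¹ : Fˣ) : F) ^ 2 = 1 := by
      have := eq_neg_of_add_eq_zero_right (ha0 ▸ h)
      rwa [CharTwo.neg_eq] at this
    simpa using (Units.ext (sq_eq_one (m := m) h2) : g⁻¹ = 1)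
  have hA : ∀ a, a ∈ A := by
    intro a
    by_cases ha : a = 0
    · rw [ha]; exact zero_mem A
    obtain ⟨k, hk⟩ := sq_surjective (m := m) (a / a0)
    simp only at hk
    have hk0 : k ≠ 0 := fun h => div_ne_zero ha ha0ne (by rw [← hk, h]; simp)
    have := hconj (Units.mk0 k hk0) a0 b0 hb0
    rw [Units.val_mk0, hk, div_mul_cancel₀ _ ha0ne] at this
    exact ⟨_, this⟩
  have hZ : ∀ b : F, (gT 0 b : Cfsg.Sz F m) ∈ M := by
    obtain ⟨x, hx0, hx1⟩ := exists_ne_zero_ne_one (F := F) (m := m)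
    set c : F := th F m 1 * x + th F m x * 1 with hc
    have hc0 : c ≠ 0 := by
      intro h
      have h1 : th F m x = x := by
        have := eq_neg_of_add_eq_zero_right (hc ▸ h)
        simpa [CharTwo.neg_eq] using this
      exact hx1 ((th_eq_self h1).resolve_left hx0)
    obtain ⟨b1, hb1⟩ := hA 1
    obtain ⟨b2, hb2⟩ := hA x
    have hcM : (gT 0 c : Cfsg.Sz F m) ∈ M := by
      rw [hc, ← gT_commutator 1 b1 x b2, commutatorElement_def]
      exact mul_mem (mul_mem (mul_mem hb1 hb2) (inv_mem hb1)) (inv_mem hb2)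
    intro b
    by_cases hb : b = 0
    · rw [hb, gT_zero]; exact one_mem M
    obtain ⟨r, hr⟩ := sq_surjective (m := m) (b / c)
    simp only at hr
    have hr0 : r ≠ 0 := fun h => div_ne_zero hb hc0 (by rw [← hr, h]; simp)
    obtain ⟨k, hk0, hk⟩ : ∃ k : F, k ≠ 0 ∧ th F m k * k = r := by
      let f : Fˣ →* Fˣ :=
        { toFun := fun k => Units.mk0 (th F m k * k) (mul_ne_zero (by simp) k.ne_zero)
          map_one' := by ext; simp
          map_mul' := fun a b => by ext; simp [mul_mul_mul_comm] }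
      have hinj : Function.Injective f := (injective_iff_map_eq_one f).2 fun k h =>
        Units.ext (th_mul_self_eq_one (by simpa [f] using congrArg Units.val h))
      obtain ⟨k, hk⟩ := (Finite.injective_iff_surjective.1 hinj) (Units.mk0 r hr0)
      exact ⟨k, k.ne_zero, by simpa [f] using congrArg Units.val hk⟩
    have := hconj (Units.mk0 k hk0) 0 c hcM
    rw [Units.val_mk0, mul_zero, ← mul_pow, hk, hr, div_mul_cancel₀ _ hc0] at this
    exact this
  have hT : ∀ a b : F, (gT a b : Cfsg.Sz F m) ∈ M := by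
    intro a b
    obtain ⟨b', hb'⟩ := hA a
    have := mul_mem hb' (hZ (b + b'))
    rw [gT_mul] at this
    convert this using 2
    · rw [add_zero]
    · simp only [map_zero, mul_zero, add_zero]
      rw [← add_assoc, add_comm b' b, add_assoc, CharTwo.add_self_eq_zero, add_zero]
  have hW : gW F m ∈ M := by
    have e : gW F m = (gT 1 0)⁻¹ * u := by rw [hu, inv_mul_cancel_left]
    rw [e]
    exact mul_mem (inv_mem (hT 1 0)) huM
  exact eq_top_iff.2 fun x _ => sz_induction (P := fun x => x ∈ M) hT hD hW (fun _ _ => mul_mem) x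

/-- The Suzuki group over the field with `2^(2m+1)` elements, `m ≥ 1` (realised as the stabiliser in `SL₄` of the Suzuki–Tits ovoid), is generated by two of its elements. -/
theorem result {F : Type*} [Field F] [Fintype F] {m : ℕ} (hm : 1 ≤ m) (hF : Fintype.card F = 2 ^ (2 * m + 1)) :
    ∃ a b : ↥(Cfsg.Sz F m), Subgroup.closure ({a, b} : Set ↥(Cfsg.Sz F m)) = ⊤ := by
  haveI : Agent.Suzuki.SuzukiField F m := ⟨hm, hF⟩
  exact main
end Cfsg.Agent.S2410
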