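import Cfsg.Statements.S2413
import Cfsg.Agent.Spec.TwoGen.OrthPairs
import Cfsg.Agent.Spec.TwoGen.Symp
import Cfsg.Agent.Classical.ExcFive

set_option autoImplicit false
open Cfsg

namespace Cfsg.Agent.S2413

/-- The simple orthogonal group `PΩ_{2m+1}(q)` (commutator subgroup of the orthogonal group of `x₀² + Σ x_i y_i` modulo its centre) with `m ≥ 2` and `q` odd is generated by two of its elements. -/
theorem result {F : Type*} [Field F] [Fintype F] (hodd : Odd (Fintype.card F)) (m : ℕ) (hm : 2 ≤ m) :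
    ∃ a b : Cfsg.POmega F (Cfsg.quadFormOdd m F), Subgroup.closure ({a, b} : Set (Cfsg.POmega F (Cfsg.quadFormOdd m F))) = ⊤ := by
  classical
  rcases eq_or_lt_of_le hm with rfl | h3
  · obtain ⟨a, b, hab⟩ : ∃ a b : Agent.Spec.TwoGen.Symp.Sp 2 F, Subgroup.closure {a, b} = ⊤ := by
      refine Agent.Spec.TwoGen.Symp.exists_pair_big (k := 0) ?_
      have : 2 ≤ Fintype.card F := Fintype.one_lt_card
      obtain ⟨j, hj⟩ := hodd
      omega
    obtain ⟨φ⟩ := Agent.Classical.Exc.nonempty_POmega_five hodd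
    let π := φ.symm.toMonoidHom.comp (QuotientGroup.mk' (Subgroup.center (Matrix.symplecticGroup (Fin 2) F)))
    refine ⟨π a, π b, ?_⟩
    rw [← Set.image_pair π a b, ← MonoidHom.map_closure, hab]
    exact Subgroup.map_top_of_surjective π (φ.symm.surjective.comp (QuotientGroup.mk'_surjective _))
  · obtain ⟨k, rfl⟩ : ∃ k, m = k + 3 := ⟨m - 3, by omega⟩
    exact Agent.Spec.TwoGen.Orth.exists_pair_odd (by rwa [Nat.card_eq_fintype_card]) k

end Cfsg.Agent.S2413
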