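import Cfsg.Statements.S2416
import Cfsg.Agent.Spec.ChevShort
-- import your own Cfsg.Agent.* helpers here

set_option autoImplicit false
open scoped MatrixGroups
open Cfsg

namespace Cfsg.Agent.S2416

theorem three_ne {K : Type*} [Field K] (h : ringChar K ≠ 3) : (3 : K) ≠ 0 := by
  intro e
  rcases (Nat.dvd_prime Nat.prime_three).1 (ringChar.dvd (R := K) (x := 3) (by exact_mod_cast e)) with h' | h'
  · exact CharP.ringChar_ne_one h'
  · exact h h'

theorem checkG2 : ∀ i < Cfsg.Lie.chevG2.rank, Cfsg.Lie.chevG2.isLong (Cfsg.Lie.chevG2.simple i) = false →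
    Agent.Spec.ChevShort.reachAll Cfsg.Lie.chevG2 [3, -3] 4 [Cfsg.Lie.chevG2.simple i] = true := by decide +kernel

theorem checkB2 : ∀ i < Cfsg.Lie.chevB2.rank, Cfsg.Lie.chevB2.isLong (Cfsg.Lie.chevB2.simple i) = false →
    Agent.Spec.ChevShort.reachAll Cfsg.Lie.chevB2 [2, -2] 3 [Cfsg.Lie.chevB2.simple i] = true := by decide +kernel

theorem checkD4 : ∀ i < Cfsg.Lie.chevD4.rank, Cfsg.Lie.chevD4.isLong (Cfsg.Lie.chevD4.simple i) = false →
    Agent.Spec.ChevShort.reachAll Cfsg.Lie.chevD4 [] 0 [Cfsg.Lie.chevD4.simple i] = true := by decide +kernel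

theorem checkF4 : ∀ i < Cfsg.Lie.chevF4.rank, Cfsg.Lie.chevF4.isLong (Cfsg.Lie.chevF4.simple i) = false →
    Agent.Spec.ChevShort.reachAll Cfsg.Lie.chevF4 [2, -2] 5 [Cfsg.Lie.chevF4.simple i] = true := by decide +kernel

theorem checkE6 : ∀ i < Cfsg.Lie.chevE6.rank, Cfsg.Lie.chevE6.isLong (Cfsg.Lie.chevE6.simple i) = false →
    Agent.Spec.ChevShort.reachAll Cfsg.Lie.chevE6 [] 0 [Cfsg.Lie.chevE6.simple i] = true := by decide +kernel

theorem checkE7 : ∀ i < Cfsg.Lie.chevE7.rank, Cfsg.Lie.chevE7.isLong (Cfsg.Lie.chevE7.simple i) = false →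
    Agent.Spec.ChevShort.reachAll Cfsg.Lie.chevE7 [] 0 [Cfsg.Lie.chevE7.simple i] = true := by decide +kernel

theorem checkE8 : ∀ i < Cfsg.Lie.chevE8.rank, Cfsg.Lie.chevE8.isLong (Cfsg.Lie.chevE8.simple i) = false →
    Agent.Spec.ChevShort.reachAll Cfsg.Lie.chevE8 [] 0 [Cfsg.Lie.chevE8.simple i] = true := by decide +kernel


/-- A Chevalley group of type G₂, B₂, D₄, F₄, E₆, E₇ or E₈ over a finite field lies in (indeed equals) the subgroup generated by its monomial subgroup `N` and a single fundamental root subgroup `X_p`, where `p` is a short fundamental root if there are two root lengths (any fundamental root otherwise), provided the characteristic is not 2 for types B₂, F₄ and not 3 for type G₂ (and the field has more than two elements for B₂, G₂). -/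
theorem result {K : Type*} [Field K] [Finite K] (D : Cfsg.Lie.ChevalleyDatum) (hD : D ∈ [Cfsg.Lie.chevG2, Cfsg.Lie.chevB2, Cfsg.Lie.chevD4, Cfsg.Lie.chevF4, Cfsg.Lie.chevE6, Cfsg.Lie.chevE7, Cfsg.Lie.chevE8])
    (hK : D ∈ [Cfsg.Lie.chevB2, Cfsg.Lie.chevG2] → ∃ x : K, x ≠ 0 ∧ x ≠ 1)
    (h2 : D ∈ [Cfsg.Lie.chevB2, Cfsg.Lie.chevF4] → ringChar K ≠ 2) (h3 : D = Cfsg.Lie.chevG2 → ringChar K ≠ 3)
    (i : ℕ) (hi : i < D.rank) (hshort : D.isLong (D.simple i) = false) :
    D.group K ≤ D.monomialSubgroup K ⊔ D.rootSubgroup K (D.simple i) := by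
  have hS := Agent.Chev.rules_of_mem K hD
  obtain ⟨len, hR⟩ := hS.root
  have hstart : ∀ r ∈ [D.simple i], r < D.nroots ∧ D.rootSubgroup K r ≤ D.monomialSubgroup K ⊔ D.rootSubgroup K (D.simple i) := by
    intro r hr
    rw [List.mem_singleton.1 hr]
    exact ⟨hR.simple_lt i hi, le_sup_right⟩
  have hD' := hD
  simp only [List.mem_cons, List.not_mem_nil, or_false] at hD'
  rcases hD' with rfl | rfl | rfl | rfl | rfl | rfl | rfl
  · exact Agent.Spec.ChevShort.le_of_reachAll hD _ le_sup_left [3, -3] (by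
      have h30 : (3 : K) ≠ 0 := three_ne (h3 rfl)
      simp [h30]) 4 _ hstart
      (checkG2 i hi hshort)
  · exact Agent.Spec.ChevShort.le_of_reachAll hD _ le_sup_left [2, -2] (by
      have h20 : (2 : K) ≠ 0 := Ring.two_ne_zero (h2 (by simp))
      simp [h20]) 3 _ hstart
      (checkB2 i hi hshort)
  · exact Agent.Spec.ChevShort.le_of_reachAll hD _ le_sup_left ([] : List ℤ) (by simp) 0 _ hstart
      (checkD4 i hi hshort)
  · exact Agent.Spec.ChevShort.le_of_reachAll hD _ le_sup_left [2, -2] (by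
      have h20 : (2 : K) ≠ 0 := Ring.two_ne_zero (h2 (by simp))
      simp [h20]) 5 _ hstart
      (checkF4 i hi hshort)
  · exact Agent.Spec.ChevShort.le_of_reachAll hD _ le_sup_left ([] : List ℤ) (by simp) 0 _ hstart
      (checkE6 i hi hshort)
  · exact Agent.Spec.ChevShort.le_of_reachAll hD _ le_sup_left ([] : List ℤ) (by simp) 0 _ hstart
      (checkE7 i hi hshort)
  · exact Agent.Spec.ChevShort.le_of_reachAll hD _ le_sup_left ([] : List ℤ) (by simp) 0 _ hstart
      (checkE8 i hi hshort)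
end Cfsg.Agent.S2416
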