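import Cfsg.Statements.S2417
import Cfsg.Agent.Spec.ChevShort
-- import your own Cfsg.Agent.* helpers here

set_option autoImplicit false
open scoped MatrixGroups
open Cfsg

namespace Cfsg.Agent.S2417

theorem close_pair {K : Type*} [Field K] (D : Cfsg.Lie.ChevalleyDatum)
    (hD : D ∈ [Cfsg.Lie.chevG2, Cfsg.Lie.chevB2, Cfsg.Lie.chevD4, Cfsg.Lie.chevF4, Cfsg.Lie.chevE6, Cfsg.Lie.chevE7, Cfsg.Lie.chevE8])
    (i j : ℕ) (hi : i < D.rank) (hj : j < D.rank)
    (hchk : Agent.Spec.ChevShort.reachAll D [] 0 [D.simple i, D.simple j] = true) :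
    D.group K ≤ D.monomialSubgroup K ⊔ D.rootSubgroup K (D.simple i) ⊔ D.rootSubgroup K (D.simple j) := by
  obtain ⟨len, hR⟩ := (Agent.Chev.rules_of_mem K hD).root
  refine Agent.Spec.ChevShort.le_of_reachAll hD _ (le_sup_left.trans le_sup_left) [] (by simp) 0 _ (fun r hr => ?_) hchk
  rcases List.mem_cons.1 hr with rfl | hr
  · exact ⟨hR.simple_lt i hi, le_sup_right.trans le_sup_left⟩
  · rw [List.mem_singleton.1 hr]
    exact ⟨hR.simple_lt j hj, le_sup_right⟩

theorem checkB2 : ∀ i < Cfsg.Lie.chevB2.rank, ∀ j < Cfsg.Lie.chevB2.rank,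
    Cfsg.Lie.chevB2.isLong (Cfsg.Lie.chevB2.simple i) = false →
    Cfsg.Lie.chevB2.isLong (Cfsg.Lie.chevB2.simple j) = true →
    Agent.Spec.ChevShort.reachAll Cfsg.Lie.chevB2 [] 0 [Cfsg.Lie.chevB2.simple i, Cfsg.Lie.chevB2.simple j] = true := by decide +kernel

theorem checkF4 : ∀ i < Cfsg.Lie.chevF4.rank, ∀ j < Cfsg.Lie.chevF4.rank,
    Cfsg.Lie.chevF4.isLong (Cfsg.Lie.chevF4.simple i) = false →
    Cfsg.Lie.chevF4.isLong (Cfsg.Lie.chevF4.simple j) = true →
    Agent.Spec.ChevShort.reachAll Cfsg.Lie.chevF4 [] 0 [Cfsg.Lie.chevF4.simple i, Cfsg.Lie.chevF4.simple j] = true := by decide +kernel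

theorem checkG2 : ∀ i < Cfsg.Lie.chevG2.rank, ∀ j < Cfsg.Lie.chevG2.rank,
    Cfsg.Lie.chevG2.isLong (Cfsg.Lie.chevG2.simple i) = false →
    Cfsg.Lie.chevG2.isLong (Cfsg.Lie.chevG2.simple j) = true →
    Agent.Spec.ChevShort.reachAll Cfsg.Lie.chevG2 [] 0 [Cfsg.Lie.chevG2.simple i, Cfsg.Lie.chevG2.simple j] = true := by decide +kernel


/-- In the characteristics with an exceptional graph symmetry — type B₂ or F₄ in characteristic 2 (field of more than two elements for B₂) and type G₂ in characteristic 3 — the Chevalley group lies in the subgroup generated by its monomial subgroup `N` and the two fundamental root subgroups `X_a`, `X_b` of a short root `a` and a long root `b` joined in the Dynkin diagram. -/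
theorem result {K : Type*} [Field K] [Finite K] (e : Cfsg.Lie.ChevalleyDatum × ℕ)
    (he : e ∈ [(Cfsg.Lie.chevB2, 2), (Cfsg.Lie.chevF4, 2), (Cfsg.Lie.chevG2, 3)]) [CharP K e.2]
    (hK : e.1 = Cfsg.Lie.chevB2 → ∃ x : K, x ≠ 0 ∧ x ≠ 1)
    (i j : ℕ) (hi : i < e.1.rank) (hj : j < e.1.rank) (hshort : e.1.isLong (e.1.simple i) = false)
    (hlong : e.1.isLong (e.1.simple j) = true) (hbond : e.1.bonds i j ≠ 0) :
    e.1.group K ≤ e.1.monomialSubgroup K ⊔ e.1.rootSubgroup K (e.1.simple i) ⊔ e.1.rootSubgroup K (e.1.simple j) := by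
  simp only [List.mem_cons, List.not_mem_nil, or_false] at he
  rcases he with rfl | rfl | rfl
  · exact close_pair _ (by simp) i j hi hj (checkB2 i hi j hj hshort hlong)
  · exact close_pair _ (by simp) i j hi hj (checkF4 i hi j hj hshort hlong)
  · exact close_pair _ (by simp) i j hi hj (checkG2 i hi j hj hshort hlong)
end Cfsg.Agent.S2417
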