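import Cfsg.Statements.S2418
import Cfsg.Agent.Coxeter.Checks
import Cfsg.Agent.Spec.CoxCenter
-- import your own Cfsg.Agent.* helpers here

set_option autoImplicit false
open Cfsg

namespace Cfsg.Agent.S2418

open Cfsg.Agent.CoxTower Cfsg.Agent.CoxTower.Tables Cfsg.Agent.Spec.CoxCenter

/-- For the Coxeter groups of types B₂, G₂, D₄, F₄, E₇, E₈ the centre has order 2 (the element acting as −1 on the root system) and is generated by a power of the Coxeter element `s₁ s₂ ⋯ s_l`; the Coxeter group of type E₆ has trivial centre. -/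
theorem result (c : (Σ n : ℕ, CoxeterMatrix (Fin n)) × ℕ)
    (hc : c ∈ [(⟨2, CoxeterMatrix.B 2⟩, 2), (⟨2, CoxeterMatrix.G₂⟩, 2), (⟨4, Cfsg.Lie.coxeterD4⟩, 2), (⟨4, CoxeterMatrix.F₄⟩, 2),
      (⟨6, CoxeterMatrix.E₆⟩, 1), (⟨7, CoxeterMatrix.E₇⟩, 2), (⟨8, CoxeterMatrix.E₈⟩, 2)]) :
    Nat.card (Subgroup.center c.1.2.Group) = c.2 ∧
      Subgroup.center c.1.2.Group ≤ Subgroup.zpowers ((List.finRange c.1.1).map c.1.2.simple).prod := by
  simp only [List.mem_cons, List.not_mem_nil, or_false] at hc
  rcases hc with rfl | rfl | rfl | rfl | rfl | rfl | rfl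
  · exact center_of_check _ (listM_self _) checkB2 rfl matrixB2 2 4 (by decide +kernel)
  · exact center_of_check _ (listM_self _) checkG2 rfl matrixG2 2 6 (by decide +kernel)
  · exact center_of_check _ (listM_self _) checkD4 rfl matrixD4 2 6 (by decide +kernel)
  · exact center_of_check _ (listM_self _) checkF4 rfl matrixF4 2 12 (by decide +kernel)
  · exact center_of_check _ (listM_self _) checkE6 rfl matrixE6 1 12 (by decide +kernel)
  · exact center_of_check _ (listM_self _) checkE7 rfl matrixE7 2 18 (by decide +kernel)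
  · exact center_of_check _ (listM_self _) checkE8 rfl matrixE8 2 30 (by decide +kernel)
end Cfsg.Agent.S2418
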