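import Cfsg.Statements.S2425
import Cfsg.Agent.Spec.Steinberg.Values

set_option autoImplicit false
open scoped MatrixGroups
open Cfsg

namespace Cfsg.Agent.S2425

/-- Values of the Steinberg character of `GL_n(q)` (the partition-indexed character for `ν = (1,…,1)`, of degree `q^(n(n−1)/2)`) at elements of order prime to the characteristic: if the characteristic polynomial of such an element is `∏ f^(m_f)` over distinct monic irreducible `f`, the value is `∏_f (−1)^((deg f − 1) m_f) q^(deg f · m_f (m_f − 1)/2)`. (At elements of order divisible by the characteristic the value is 0; that is not part of this statement.) -/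
theorem result {F : Type*} [Field F] [Fintype F] [DecidableEq F] {q : ℕ} (hq : Fintype.card F = q) (p : ℕ) [Fact p.Prime] [CharP F p]
    {n : ℕ} (x : GL (Fin n) F) (hx : (orderOf x).Coprime p) :
    Cfsg.unipotentCharacterGL n F (fun _ => 1) x =
      ∏ f ∈ (UniqueFactorizationMonoid.normalizedFactors (x : Matrix (Fin n) (Fin n) F).charpoly).toFinset,
        (-1 : ℂ) ^ ((f.natDegree - 1) * (UniqueFactorizationMonoid.normalizedFactors (x : Matrix (Fin n) (Fin n) F).charpoly).count f) *
          (q : ℂ) ^ (f.natDegree * (UniqueFactorizationMonoid.normalizedFactors (x : Matrix (Fin n) (Fin n) F).charpoly).count f *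
            ((UniqueFactorizationMonoid.normalizedFactors (x : Matrix (Fin n) (Fin n) F).charpoly).count f - 1) / 2) := by
  classical
  rw [Cfsg.Agent.Spec.Steinberg.steinberg_value p x hx, Cfsg.Agent.Spec.Steinberg.muVal, hq]
  set g := (x : Matrix (Fin n) (Fin n) F).charpoly
  have hg : g.Monic := Matrix.charpoly_monic _
  have hn : n = ∑ f ∈ (UniqueFactorizationMonoid.normalizedFactors g).toFinset,
      f.natDegree * (UniqueFactorizationMonoid.normalizedFactors g).count f := by
    have h1 := UniqueFactorizationMonoid.prod_normalizedFactors hg.ne_zero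
    have h2 := Polynomial.natDegree_eq_of_degree_eq (Polynomial.degree_eq_degree_of_associated h1)
    rw [Matrix.charpoly_natDegree_eq_dim, Fintype.card_fin,
      Polynomial.natDegree_multiset_prod _ (UniqueFactorizationMonoid.zero_notMem_normalizedFactors g),
      Finset.sum_multiset_map_count] at h2
    exact h2.symm.trans (Finset.sum_congr rfl fun f _ => by rw [smul_eq_mul, mul_comm])
  conv_lhs => arg 1; arg 1; arg 2; rw [hn]
  rw [← Finset.prod_pow_eq_pow_sum, ← Finset.prod_mul_distrib, Int.cast_prod]
  refine Finset.prod_congr rfl fun f hf => ?_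
  have hf' : Irreducible f := UniqueFactorizationMonoid.irreducible_of_normalized_factor f (Multiset.mem_toFinset.1 hf)
  unfold Cfsg.Agent.Spec.Steinberg.mult
  set m := (UniqueFactorizationMonoid.normalizedFactors g).count f
  have hd : 1 ≤ f.natDegree := hf'.natDegree_pos
  rw [← mul_assoc, ← pow_add, Int.cast_mul, Int.cast_pow, Int.cast_neg, Int.cast_one, Int.cast_pow, Int.cast_natCast]
  have e1 : f.natDegree * m * (m - 1) / 2 = f.natDegree * m.choose 2 := by
    rw [Nat.choose_two_right, mul_assoc, Nat.mul_div_assoc _ (even_iff_two_dvd.1 (Nat.even_mul_pred_self m))]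
  rw [e1]
  congr 1
  obtain ⟨d, hd'⟩ : ∃ d, f.natDegree = d + 1 := ⟨f.natDegree - 1, by omega⟩
  rw [hd', Nat.add_sub_cancel, show (d + 1) * m + m = d * m + 2 * m by ring, pow_add, pow_mul (-1 : ℂ) 2 m,
    neg_one_sq, one_pow, mul_one]

end Cfsg.Agent.S2425
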