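import Cfsg.Statements.S2426
import Cfsg.Agent.Spec.RankOneSymbol
-- import your own Cfsg.Agent.* helpers here

set_option autoImplicit false
open Cfsg

namespace Cfsg.Agent.S2426

section
variable (K : Type*) [Field K]

/-- The relators. -/
abbrev rels : Set (FreeGroup (Bool × K)) :=
  {g : FreeGroup (Bool × K) | ∃ (b : Bool) (t u : K), g = FreeGroup.of (b, t) * FreeGroup.of (b, u) * (FreeGroup.of (b, t + u))⁻¹} ∪
    {g | ∃ (b : Bool) (t u : K), t ≠ 0 ∧
      g = (FreeGroup.of (b, t) * FreeGroup.of (!b, -t⁻¹) * FreeGroup.of (b, t)) * FreeGroup.of (b, u) *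
            (FreeGroup.of (b, t) * FreeGroup.of (!b, -t⁻¹) * FreeGroup.of (b, t))⁻¹ * (FreeGroup.of (!b, -(t⁻¹ ^ 2 * u)))⁻¹}

variable {K}

/-- The images of the generators. -/
def gens : Bool × K → Matrix.SpecialLinearGroup (Fin 2) K
  | (true, t) => ⟨!![1, t; 0, 1], by simp [Matrix.det_fin_two]⟩
  | (false, t) => ⟨!![1, 0; t, 1], by simp [Matrix.det_fin_two]⟩

theorem gens_true (t : K) : ((gens (true, t)) : Matrix (Fin 2) (Fin 2) K) = !![1, t; 0, 1] := rfl

theorem gens_false (t : K) : ((gens (false, t)) : Matrix (Fin 2) (Fin 2) K) = !![1, 0; t, 1] := rfl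

theorem gens_rels : ∀ g ∈ rels K, FreeGroup.lift (gens (K := K)) g = 1 := by
  rintro g (⟨b, t, u, rfl⟩ | ⟨b, t, u, ht, rfl⟩) <;>
    simp only [map_mul, map_inv, FreeGroup.lift_apply_of, mul_inv_eq_one] <;>
    (try rw [mul_inv_eq_iff_eq_mul]) <;>
    cases b <;> apply Subtype.ext <;>
    (ext i j; fin_cases i <;> fin_cases j) <;>
    simp [gens_true, gens_false, Chev.RankOne.sl_mul_val, Matrix.mul_apply, Fin.sum_univ_two] <;> (try field_simp) <;> (try ring) <;> (try simp)

theorem main [Finite K] :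
    ∃ e : PresentedGroup (rels K) ≃* Matrix.SpecialLinearGroup (Fin 2) K,
      (∀ t : K, ((e (PresentedGroup.of (true, t)) : Matrix (Fin 2) (Fin 2) K)) = !![1, t; 0, 1]) ∧
      (∀ t : K, ((e (PresentedGroup.of (false, t)) : Matrix (Fin 2) (Fin 2) K)) = !![1, 0; t, 1]) := by
  let x : K → PresentedGroup (rels K) := fun t => PresentedGroup.of (true, t)
  let y : K → PresentedGroup (rels K) := fun t => PresentedGroup.of (false, t)
  have hadd : ∀ (b : Bool) (t u : K), (PresentedGroup.of (b, t) : PresentedGroup (rels K)) * PresentedGroup.of (b, u) =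
      PresentedGroup.of (b, t + u) := fun b t u => by
    have h := PresentedGroup.one_of_mem (rels := rels K) (Or.inl ⟨b, t, u, rfl⟩)
    rwa [map_mul, map_inv, map_mul, mul_inv_eq_one] at h
  have R : Spec.RankOneSymbol.RelsAB K x y :=
    { x_add := hadd true
      y_add := hadd false
      w_x := fun a ha u => by
        have h := PresentedGroup.one_of_mem (rels := rels K) (Or.inr ⟨true, a, u, ha, rfl⟩)
        simp only [map_mul, map_inv, mul_inv_eq_one, Bool.not_true] at h
        exact h.trans (by show PresentedGroup.of _ = PresentedGroup.of _; congr 2; field_simp)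
      gen := by
        rw [← PresentedGroup.closure_range_of (rels K)]
        congr 1
        ext g
        constructor
        · rintro (⟨t, rfl⟩ | ⟨t, rfl⟩) <;> exact ⟨_, rfl⟩
        · rintro ⟨⟨b, t⟩, rfl⟩
          cases b
          exacts [Or.inr ⟨t, rfl⟩, Or.inl ⟨t, rfl⟩] }
  have R1 := Spec.RankOneSymbol.rankOne R
  let f : PresentedGroup (rels K) →* Matrix.SpecialLinearGroup (Fin 2) K := PresentedGroup.toGroup gens_rels
  have hf : ∀ p, f (PresentedGroup.of p) = gens p := fun p => PresentedGroup.toGroup.of _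
  have h1 : R1.hom.comp f = MonoidHom.id _ := PresentedGroup.ext fun ⟨b, t⟩ => by
    rw [MonoidHom.comp_apply, hf]
    cases b
    exacts [R1.hom_lower rfl, R1.hom_upper rfl]
  have hu : ∀ t, Chev.RankOne.upper t ∈ f.range := fun t => ⟨x t, Subtype.ext (by rw [hf]; rfl)⟩
  have hw : (Chev.RankOne.weyl : Matrix.SpecialLinearGroup (Fin 2) K) ∈ f.range := by
    refine ⟨x 1 * y (-1) * x 1, Subtype.ext ?_⟩
    simp only [map_mul, x, y, hf]
    ext i j
    fin_cases i <;> fin_cases j <;> simp [gens_true, gens_false, Chev.RankOne.weyl, Chev.RankOne.sl_mul_val, Matrix.mul_apply, Fin.sum_univ_two]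
  have hsurj : Function.Surjective f := fun g =>
    Chev.RankOne.mem_of_upper_weyl (S := f.range.toSubmonoid) hu hw g
  have hinj : Function.Injective f := fun a b h => by
    have := congrArg R1.hom h
    rwa [← MonoidHom.comp_apply, ← MonoidHom.comp_apply, h1] at this
  refine ⟨MulEquiv.ofBijective f ⟨hinj, hsurj⟩, fun t => ?_, fun t => ?_⟩ <;>
    (show ((f (PresentedGroup.of (_, t))) : Matrix (Fin 2) (Fin 2) K) = _; rw [hf]; rfl)

end

/-- The rank-one Steinberg presentation of `SL₂` over a finite field `K`: generators `x(t)`, `y(t)` (`t ∈ K`; the two opposite root subgroups) subject to additivity `x(t)x(u) = x(t+u)`, `y(t)y(u) = y(t+u)` and, with `w(t) = x(t) y(−t⁻¹) x(t)` and `w'(t) = y(t) x(−t⁻¹) y(t)` for `t ≠ 0`, the relations `w(t) x(u) w(t)⁻¹ = y(−t⁻² u)` and `w'(t) y(u) w'(t)⁻¹ = x(−t⁻² u)`, present `SL₂(K)`, with `x(t) ↦ (1 t; 0 1)` and `y(t) ↦ (1 0; t 1)`. -/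
theorem result {K : Type*} [Field K] [Finite K] :
    ∃ e : PresentedGroup
        ({g : FreeGroup (Bool × K) | ∃ (b : Bool) (t u : K), g = FreeGroup.of (b, t) * FreeGroup.of (b, u) * (FreeGroup.of (b, t + u))⁻¹} ∪
          {g | ∃ (b : Bool) (t u : K), t ≠ 0 ∧
            g = (FreeGroup.of (b, t) * FreeGroup.of (!b, -t⁻¹) * FreeGroup.of (b, t)) * FreeGroup.of (b, u) *
                  (FreeGroup.of (b, t) * FreeGroup.of (!b, -t⁻¹) * FreeGroup.of (b, t))⁻¹ * (FreeGroup.of (!b, -(t⁻¹ ^ 2 * u)))⁻¹})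
        ≃* Matrix.SpecialLinearGroup (Fin 2) K,
      (∀ t : K, ((e (PresentedGroup.of (true, t)) : Matrix (Fin 2) (Fin 2) K)) = !![1, t; 0, 1]) ∧
      (∀ t : K, ((e (PresentedGroup.of (false, t)) : Matrix (Fin 2) (Fin 2) K)) = !![1, 0; t, 1]) := by
  classical
  exact main
end Cfsg.Agent.S2426
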