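import Cfsg.Statements.S2427
import Cfsg.Agent.Linear.Orders
-- import your own Cfsg.Agent.* helpers here

set_option autoImplicit false
open Cfsg

namespace Cfsg.Agent.S2427

abbrev G := Matrix.SpecialLinearGroup (Fin 2) (ZMod 3)

def genA : G := ⟨!![0, -1; 1, 0], by decide⟩
def genB : G := ⟨!![1, 1; 1, -1], by decide⟩
def transX : G := ⟨!![1, 1; 0, 1], by decide⟩
def transY : G := ⟨!![1, 0; 1, 1], by decide⟩

/-- The embedding of the quaternion group. -/
def fq : QuaternionGroup 2 → G
  | .a i => genA ^ i.val
  | .xa i => genB * genA ^ i.val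

set_option maxRecDepth 100000

theorem fq_mul : ∀ p q : QuaternionGroup 2, fq (p * q) = fq p * fq q := by decide +kernel

def qHom : QuaternionGroup 2 →* G := MonoidHom.mk' fq fq_mul

theorem fq_inj : ∀ p : QuaternionGroup 2, fq p = 1 → p = 1 := by decide +kernel

theorem fq_comm : ∀ p : QuaternionGroup 2, ∃ a b : G, a * b * a⁻¹ * b⁻¹ = fq p := by decide +kernel

theorem fq_conj : ∀ (g : G) (p : QuaternionGroup 2), ∃ q, fq q = g * fq p * g⁻¹ := by decide +kernel

theorem fq_orbit : ∀ p q : QuaternionGroup 2, fq p ≠ 1 → fq p ≠ -1 →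
    fq q = 1 ∨ fq q = fq p * fq p ∨ ∃ g : G, fq q = g * fq p * g⁻¹ := by decide +kernel

theorem three_mem : ∀ g : G, g ^ 3 = 1 → g ≠ 1 →
    ∃ a b : G, (a * g * a⁻¹ = transX ∨ a * g⁻¹ * a⁻¹ = transX) ∧ (b * g * b⁻¹ = transY ∨ b * g⁻¹ * b⁻¹ = transY) := by
  decide +kernel

theorem main : Nat.card G = 24 ∧ Nat.card (Subgroup.center G) = 2 ∧ Nat.card (commutator G) = 8 ∧
    Nonempty (commutator G ≃* QuaternionGroup 2) ∧
    (∀ P : Sylow 3 G, Subgroup.IsComplement' (commutator G) (P : Subgroup G)) ∧
    ∀ N : Subgroup G, N.Normal → N = ⊥ ∨ N = ⊤ ∨ N = Subgroup.center G ∨ N = commutator G := by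
  haveI : Fact (Nat.Prime 3) := ⟨Nat.prime_three⟩
  have hG : Nat.card G = 24 := by
    rw [Nat.card_eq_fintype_card]; decide +kernel
  have hZ : Nat.card (Subgroup.center G) = 2 := by
    rw [Cfsg.Agent.Linear.card_center_SL]
    simp
  have hinj : Function.Injective qHom := (injective_iff_map_eq_one qHom).2 fq_inj
  have hQcard : Nat.card qHom.range = 8 := by
    rw [← Nat.card_congr (MonoidHom.ofInjective hinj).toEquiv, Nat.card_eq_fintype_card, QuaternionGroup.card]
  have hN : qHom.range.Normal := ⟨fun x ⟨p, hp⟩ g => by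
    obtain ⟨q, hq⟩ := fq_conj g p
    exact ⟨q, by rw [← hp]; exact hq⟩⟩
  have hidx : qHom.range.index = 3 := by
    have := qHom.range.card_mul_index
    rw [hQcard, hG] at this
    omega
  have hc : commutator G = qHom.range := by
    apply le_antisymm
    · haveI : IsCyclic (G ⧸ qHom.range) := isCyclic_of_prime_card (p := 3) ((Subgroup.index_eq_card qHom.range).symm.trans hidx)
      exact Subgroup.Normal.quotient_commutative_iff_commutator_le.1 inferInstance
    · rintro x ⟨p, rfl⟩
      obtain ⟨a, b, hab⟩ := fq_comm p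
      show fq p ∈ commutator G
      rw [← hab]
      exact Subgroup.commutator_mem_commutator (Subgroup.mem_top a) (Subgroup.mem_top b)
  rw [hc]
  refine ⟨hG, hZ, hQcard, ⟨(MonoidHom.ofInjective hinj).symm⟩, fun P => ?_, fun N hNn => ?_⟩
  · have hP : Nat.card (P : Subgroup G) = 3 := by
      rw [P.card_eq_multiplicity, hG, show (24 : ℕ).factorization 3 = 1 from ?_]
      · rfl
      · rw [show (24 : ℕ) = 3 ^ 1 * 8 by norm_num, Nat.factorization_mul (by norm_num) (by norm_num)]
        simp [Nat.prime_three.factorization, Nat.factorization_eq_zero_of_not_dvd]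
    exact Subgroup.isComplement'_of_coprime (by rw [hQcard, hP, hG]) (by rw [hQcard, hP]; decide)
  · by_cases h3 : 3 ∣ Nat.card N
    · right; left
      obtain ⟨⟨g, hgN⟩, hg⟩ := exists_prime_orderOf_dvd_card' 3 h3
      have hg' : orderOf g = 3 := (Subgroup.orderOf_mk g hgN).symm.trans hg
      obtain ⟨a, b, ha, hb⟩ := three_mem g (by have := pow_orderOf_eq_one g; rwa [hg'] at this) (fun h => by simp [h] at hg')
      have hx : transX ∈ N := by
        rcases ha with h | h <;> rw [← h] <;> exact hNn.conj_mem _ (by first | exact hgN | exact inv_mem hgN) _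
      have hy : transY ∈ N := by
        rcases hb with h | h <;> rw [← h] <;> exact hNn.conj_mem _ (by first | exact hgN | exact inv_mem hgN) _
      have hA : fq (.a 1) ∈ N := by
        rw [show fq (.a 1) = (transX * transY⁻¹ * transX)⁻¹ by decide +kernel]
        exact inv_mem (mul_mem (mul_mem hx (inv_mem hy)) hx)
      have hQN : qHom.range ≤ N := by
        rintro x ⟨q, rfl⟩
        rcases fq_orbit (.a 1) q (by decide +kernel) (by decide +kernel) with h | h | ⟨u, h⟩
        · show fq q ∈ N; rw [h]; exact one_mem N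
        · show fq q ∈ N; rw [h]; exact mul_mem hA hA
        · show fq q ∈ N; rw [h]; exact hNn.conj_mem _ hA _
      apply Subgroup.eq_top_of_card_eq
      apply Nat.dvd_antisymm (Subgroup.card_subgroup_dvd_card N)
      rw [hG]
      have h8 := Subgroup.card_dvd_of_le hQN
      rw [hQcard] at h8
      exact (Nat.Coprime.mul_dvd_of_dvd_of_dvd (by norm_num : Nat.Coprime 3 8) h3 h8)
    · have hle : N ≤ qHom.range := by
        intro x hx
        rw [← QuotientGroup.eq_one_iff, ← orderOf_eq_one_iff]
        refine Nat.eq_one_of_dvd_coprimes ((Nat.prime_three.coprime_iff_not_dvd).2 h3) ?_ ?_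
        · have := orderOf_dvd_natCard (x : G ⧸ qHom.range)
          rwa [← Subgroup.index_eq_card, hidx] at this
        · exact (orderOf_map_dvd (QuotientGroup.mk' qHom.range) x).trans (by
            rw [← Subgroup.orderOf_mk x hx]; exact orderOf_dvd_natCard _)
      by_cases hz : ∀ x ∈ N, x = 1 ∨ x = -1
      · have hZc : (-1 : G) ∈ Subgroup.center G := Subgroup.mem_center_iff.2 (fun g => by simp)
        have hNZ : N ≤ Subgroup.center G := fun x hx => by
          rcases hz x hx with rfl | rfl
          · exact one_mem _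
          · exact hZc
        have hd := Subgroup.card_dvd_of_le hNZ
        rw [hZ] at hd
        rcases (Nat.dvd_prime Nat.prime_two).1 hd with h | h
        · left; exact Subgroup.card_eq_one.1 h
        · right; right; left
          exact Subgroup.eq_of_le_of_card_ge hNZ (by omega)
      · right; right; right
        push Not at hz
        obtain ⟨x, hx, h1, h2⟩ := hz
        obtain ⟨p, rfl⟩ := hle hx
        refine le_antisymm hle ?_
        rintro y ⟨q, rfl⟩
        rcases fq_orbit p q h1 h2 with h | h | ⟨u, h⟩
        · show fq q ∈ N; rw [h]; exact one_mem N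
        · show fq q ∈ N; rw [h]; exact mul_mem hx hx
        · show fq q ∈ N; rw [h]; exact hNn.conj_mem _ hx _

/-- The group SL₂ over the field with 3 elements has order 24 and centre of order 2; its commutator subgroup has order 8, is isomorphic to the quaternion group of order 8 and is complemented by every Sylow 3-subgroup (so the group is a semidirect product of a quaternion group of order 8 by a cyclic group of order 3); and its only normal subgroups besides the trivial subgroup and the whole group are the centre and the commutator subgroup. -/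
theorem result :
    Nat.card (Matrix.SpecialLinearGroup (Fin 2) (ZMod 3)) = 24 ∧
    Nat.card (Subgroup.center (Matrix.SpecialLinearGroup (Fin 2) (ZMod 3))) = 2 ∧
    Nat.card (commutator (Matrix.SpecialLinearGroup (Fin 2) (ZMod 3))) = 8 ∧
    Nonempty (commutator (Matrix.SpecialLinearGroup (Fin 2) (ZMod 3)) ≃* QuaternionGroup 2) ∧
    (∀ P : Sylow 3 (Matrix.SpecialLinearGroup (Fin 2) (ZMod 3)),
      Subgroup.IsComplement' (commutator (Matrix.SpecialLinearGroup (Fin 2) (ZMod 3)))
        (P : Subgroup (Matrix.SpecialLinearGroup (Fin 2) (ZMod 3)))) ∧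
    ∀ N : Subgroup (Matrix.SpecialLinearGroup (Fin 2) (ZMod 3)), N.Normal →
      N = ⊥ ∨ N = ⊤ ∨ N = Subgroup.center (Matrix.SpecialLinearGroup (Fin 2) (ZMod 3)) ∨
        N = commutator (Matrix.SpecialLinearGroup (Fin 2) (ZMod 3)) := by
  classical
  exact main
end Cfsg.Agent.S2427
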