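import Cfsg.Statements.S2428
import Cfsg.Agent.Spec.TorusTwo
-- import your own Cfsg.Agent.* helpers here

set_option autoImplicit false
open Cfsg

namespace Cfsg.Agent.S2428

/-- Let F be a finite field with q elements, q odd, and let d be a diagonal element of SL₂ over F whose diagonal entry a has a² ≠ 1 (such d exist exactly when q > 3). Then the centraliser of d is precisely the diagonal subgroup T; the normaliser of T has order 2(q − 1) and exactly (q + 5)/2 conjugacy classes; and every element of that normaliser outside T has square equal to −1. -/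
theorem result {F : Type*} [Field F] [Fintype F] (hodd : Odd (Fintype.card F))
    (d : Matrix.SpecialLinearGroup (Fin 2) F) (hd01 : (d : Matrix (Fin 2) (Fin 2) F) 0 1 = 0) (hd10 : (d : Matrix (Fin 2) (Fin 2) F) 1 0 = 0) (hda : (d : Matrix (Fin 2) (Fin 2) F) 0 0 ^ 2 ≠ 1) :
    (∀ g : Matrix.SpecialLinearGroup (Fin 2) F, g ∈ Subgroup.centralizer ({d} : Set (Matrix.SpecialLinearGroup (Fin 2) F)) ↔ ((g : Matrix (Fin 2) (Fin 2) F) 0 1 = 0 ∧ (g : Matrix (Fin 2) (Fin 2) F) 1 0 = 0)) ∧
    Nat.card (Subgroup.normalizer ((Subgroup.centralizer ({d} : Set (Matrix.SpecialLinearGroup (Fin 2) F))) : Set (Matrix.SpecialLinearGroup (Fin 2) F))) = 2 * (Fintype.card F - 1) ∧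
    Nat.card (ConjClasses (Subgroup.normalizer ((Subgroup.centralizer ({d} : Set (Matrix.SpecialLinearGroup (Fin 2) F))) : Set (Matrix.SpecialLinearGroup (Fin 2) F)))) = (Fintype.card F + 5) / 2 ∧
    ∀ g : Matrix.SpecialLinearGroup (Fin 2) F, g ∈ Subgroup.normalizer ((Subgroup.centralizer ({d} : Set (Matrix.SpecialLinearGroup (Fin 2) F))) : Set (Matrix.SpecialLinearGroup (Fin 2) F)) →
      g ∉ Subgroup.centralizer ({d} : Set (Matrix.SpecialLinearGroup (Fin 2) F)) → ((g * g) : Matrix (Fin 2) (Fin 2) F) = -1 := by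
  classical
  have h2 : (2 : F) ≠ 0 := Linear.two_ne_zero_of_odd_card hodd
  set a := (d : Matrix (Fin 2) (Fin 2) F) 0 0 with ha_def
  have hdet : a * (d : Matrix (Fin 2) (Fin 2) F) 1 1 = 1 := by
    have := d.2
    rw [Matrix.det_fin_two, hd01, zero_mul, sub_zero] at this
    exact this
  have hne : a ≠ (d : Matrix (Fin 2) (Fin 2) F) 1 1 := fun h => hda (by rw [← h] at hdet; linear_combination hdet)
  have htr : (d : Matrix (Fin 2) (Fin 2) F).trace ^ 2 ≠ 4 := by
    rw [Matrix.trace_fin_two]
    intro h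
    apply hne
    have : (a - (d : Matrix (Fin 2) (Fin 2) F) 1 1) ^ 2 = 0 := by linear_combination h - 4 * hdet
    exact sub_eq_zero.1 (pow_eq_zero_iff two_ne_zero |>.1 this)
  have hroot : a ^ 2 - (d : Matrix (Fin 2) (Fin 2) F).trace * a + 1 = 0 := by
    rw [Matrix.trace_fin_two]; linear_combination -hdet
  have hcard : Nat.card (Subgroup.centralizer ({d} : Set (Matrix.SpecialLinearGroup (Fin 2) F))) =
      Fintype.card F - 1 := by
    rcases Spec.Two.card_torus d htr with ⟨-, h⟩ | ⟨h, -⟩
    · exact h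
    · exact absurd hroot (h a)
  obtain ⟨hN, hk, hsq⟩ := Spec.Two.natCard_normalizer_torus h2 d htr
  refine ⟨fun g => ?_, by rw [hN, hcard], ?_, fun g hg hgC => (hsq g hg hgC).1⟩
  · rw [Subgroup.mem_centralizer_singleton_iff]
    constructor
    · intro h
      have h01 := congrArg (fun y : Matrix.SpecialLinearGroup (Fin 2) F => (y : Matrix (Fin 2) (Fin 2) F) 0 1) h
      have h10 := congrArg (fun y : Matrix.SpecialLinearGroup (Fin 2) F => (y : Matrix (Fin 2) (Fin 2) F) 1 0) h
      simp only [Matrix.SpecialLinearGroup.coe_mul, Matrix.mul_apply, Fin.sum_univ_two, hd01, hd10,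
        mul_zero, zero_mul, zero_add, add_zero] at h01 h10
      constructor
      · exact (mul_eq_zero.1 (show ((d : Matrix (Fin 2) (Fin 2) F) 1 1 - a) *
          (g : Matrix (Fin 2) (Fin 2) F) 0 1 = 0 by linear_combination h01)).resolve_left
          (sub_ne_zero.2 hne.symm)
      · exact (mul_eq_zero.1 (show (a - (d : Matrix (Fin 2) (Fin 2) F) 1 1) *
          (g : Matrix (Fin 2) (Fin 2) F) 1 0 = 0 by linear_combination h10)).resolve_left
          (sub_ne_zero.2 hne)
    · rintro ⟨h01, h10⟩
      apply Subtype.ext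
      show (g : Matrix (Fin 2) (Fin 2) F) * (d : Matrix (Fin 2) (Fin 2) F) =
        (d : Matrix (Fin 2) (Fin 2) F) * (g : Matrix (Fin 2) (Fin 2) F)
      ext i j
      fin_cases i <;> fin_cases j <;> simp [Matrix.mul_apply, Fin.sum_univ_two, hd01, hd10, h01, h10, mul_comm]
  · rw [hcard] at hk
    have := Fintype.one_lt_card (α := F)
    omega

end Cfsg.Agent.S2428
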