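import Cfsg.Statements.S2429
import Cfsg.Agent.Spec.TorusTwo
import Cfsg.Agent.Spec.PSLTwoClass
-- import your own Cfsg.Agent.* helpers here

set_option autoImplicit false
open Cfsg

namespace Cfsg.Agent.S2429

/-- Let F be a finite field with q elements, q odd. Then SL₂ over F contains a cyclic subgroup T′ of order q + 1 (a non-split torus) with the following properties: T′ is its own centraliser, and indeed the centraliser of each element of T′ other than 1 and −1 is exactly T′; every element of SL₂ having no eigenvector in F² is conjugate to an element of T′; the normaliser of T′ has order 2(q + 1) and exactly (q + 7)/2 conjugacy classes; and every element of that normaliser outside T′ has square −1. -/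
theorem result {F : Type*} [Field F] [Fintype F] (hodd : Odd (Fintype.card F)) :
    ∃ T' : Subgroup (Matrix.SpecialLinearGroup (Fin 2) F), IsCyclic T' ∧ Nat.card T' = Fintype.card F + 1 ∧
      Subgroup.centralizer ((T' : Set (Matrix.SpecialLinearGroup (Fin 2) F))) = T' ∧
      (∀ g : Matrix.SpecialLinearGroup (Fin 2) F, g ∈ T' → (g : Matrix (Fin 2) (Fin 2) F) ≠ 1 → (g : Matrix (Fin 2) (Fin 2) F) ≠ -1 → Subgroup.centralizer ({g} : Set (Matrix.SpecialLinearGroup (Fin 2) F)) = T') ∧
      (∀ g : Matrix.SpecialLinearGroup (Fin 2) F, (∀ (c : F) (v : Fin 2 → F), v ≠ 0 → (g : Matrix (Fin 2) (Fin 2) F).mulVec v ≠ c • v) → ∃ h : Matrix.SpecialLinearGroup (Fin 2) F, h * g * h⁻¹ ∈ T') ∧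
      Nat.card (Subgroup.normalizer (T' : Set (Matrix.SpecialLinearGroup (Fin 2) F))) = 2 * (Fintype.card F + 1) ∧
      Nat.card (ConjClasses (Subgroup.normalizer (T' : Set (Matrix.SpecialLinearGroup (Fin 2) F)))) = (Fintype.card F + 7) / 2 ∧
      ∀ g : Matrix.SpecialLinearGroup (Fin 2) F, g ∈ Subgroup.normalizer (T' : Set (Matrix.SpecialLinearGroup (Fin 2) F)) → g ∉ T' → ((g * g) : Matrix (Fin 2) (Fin 2) F) = -1 := by
  classical
  have h2 : (2 : F) ≠ 0 := Linear.two_ne_zero_of_odd_card hodd
  obtain ⟨α, hαt⟩ : ∃ α : Matrix.SpecialLinearGroup (Fin 2) F,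
      ∀ r : F, r ^ 2 - (α : Matrix (Fin 2) (Fin 2) F).trace * r + 1 ≠ 0 := by
    obtain ⟨a, -, ha, -, -⟩ := Linear.exists_nonsplit_torus (F := F)
    refine ⟨a, fun r hr => ?_⟩
    have hq := Fintype.one_lt_card (α := F)
    have hdvd : orderOf a ∣ Nat.card (Subgroup.centralizer ({a} : Set (Matrix.SpecialLinearGroup (Fin 2) F))) :=
      Subgroup.orderOf_dvd_natCard _ (Subgroup.mem_centralizer_singleton_iff.2 rfl)
    have hns : Spec.Two.NS (a : Matrix (Fin 2) (Fin 2) F) := by
      intro z hz
      have h1 := a.2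
      rw [hz, Matrix.det_smul, Fintype.card_fin, Matrix.det_one, mul_one] at h1
      have : a ^ 2 = 1 := by
        apply Subtype.ext
        show ((a ^ 2 : Matrix.SpecialLinearGroup (Fin 2) F) : Matrix (Fin 2) (Fin 2) F) = 1
        rw [Matrix.SpecialLinearGroup.coe_pow, hz, smul_pow, h1, one_smul, one_pow]
      have := Nat.le_of_dvd two_pos (orderOf_dvd_of_pow_eq_one this)
      omega
    rw [ha, Spec.Two.card_centralizer_eq a hns] at hdvd
    by_cases h4 : (a : Matrix (Fin 2) (Fin 2) F).trace ^ 2 = 4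
    · rw [Spec.Two.card_qf_parabolic h4, Spec.Two.card_sq_one, if_neg h2] at hdvd
      have hco : Nat.Coprime (Fintype.card F + 1) (Fintype.card F) := by simp
      have := Nat.le_of_dvd two_pos (hco.dvd_of_dvd_mul_right hdvd)
      omega
    · rw [Spec.Two.card_qf_split hr h4] at hdvd
      obtain ⟨j, hj⟩ := hodd
      have := Nat.le_of_dvd (by omega) hdvd
      omega
  have h4 : (α : Matrix (Fin 2) (Fin 2) F).trace ^ 2 ≠ 4 := by
    intro h
    apply hαt ((α : Matrix (Fin 2) (Fin 2) F).trace / 2)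
    field_simp
    linear_combination -h
  have hns := Spec.Two.ns_of_trace_sq α.2 h4
  set C := Subgroup.centralizer ({α} : Set (Matrix.SpecialLinearGroup (Fin 2) F)) with hC
  have hcard : Nat.card C = Fintype.card F + 1 := by
    rcases Spec.Two.card_torus α h4 with ⟨⟨r, hr⟩, -⟩ | ⟨-, h⟩
    · exact absurd hr (hαt r)
    · exact h
  have hαC : α ∈ C := Subgroup.mem_centralizer_singleton_iff.2 rfl
  have hcent : ∀ g ∈ C, (g : Matrix (Fin 2) (Fin 2) F) ≠ 1 → (g : Matrix (Fin 2) (Fin 2) F) ≠ -1 →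
      Subgroup.centralizer ({g} : Set (Matrix.SpecialLinearGroup (Fin 2) F)) = C := by
    intro g hg h1 hm1
    have hg' := Subgroup.mem_centralizer_singleton_iff.1 hg
    rcases Spec.Two.ns_dichotomy h2 α g h4 hg' with h | h
    · rcases h with h | h
      · exact absurd h h1
      · exact absurd h hm1
    · exact Spec.Two.centralizer_eq_of_commute α g hns (Spec.Two.ns_of_trace_sq g.2 h) hg'
  obtain ⟨hN, hk, hsq⟩ := Spec.Two.natCard_normalizer_torus h2 α h4
  refine ⟨C, Spec.Two.isCyclic_centralizer α h4, hcard, ?_, hcent, ?_, by rw [hN, hcard], ?_,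
    fun g hg hgC => (hsq g hg hgC).1⟩
  · apply le_antisymm
    · intro x hx
      rw [hC, Subgroup.mem_centralizer_singleton_iff]
      exact (Subgroup.mem_centralizer_iff.1 hx α hαC).symm
    · intro x hx
      rw [Subgroup.mem_centralizer_iff]
      intro y hy
      haveI := Spec.Two.isCyclic_centralizer α h4
      exact congrArg Subtype.val (IsMulCommutative.is_comm.comm (⟨y, hy⟩ : C) ⟨x, hx⟩)
  · intro g hg
    have hroot : ∀ r : F, r ^ 2 - (g : Matrix (Fin 2) (Fin 2) F).trace * r + 1 ≠ 0 := fun r hr => by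
      obtain ⟨v, hv, hgv⟩ := Spec.Two.exists_eigen_of_root g hr
      exact hg r v hv hgv
    have hg4 : (g : Matrix (Fin 2) (Fin 2) F).trace ^ 2 ≠ 4 := by
      intro h
      apply hroot ((g : Matrix (Fin 2) (Fin 2) F).trace / 2)
      field_simp
      linear_combination -h
    set t := (α : Matrix (Fin 2) (Fin 2) F).trace
    set s := (g : Matrix (Fin 2) (Fin 2) F).trace
    -- an element of the torus with the trace of `g`
    obtain ⟨y, hy⟩ : ∃ y : F, (t ^ 2 - 4) * y ^ 2 = s ^ 2 - 4 := by
      have hnsq : ∀ u : F, (∀ r : F, r ^ 2 - u * r + 1 ≠ 0) → quadraticChar F (u ^ 2 - 4) = -1 := by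
        intro u hu
        rw [quadraticChar_neg_one_iff_not_isSquare]
        rintro ⟨w, hw⟩
        apply hu ((u + w) / 2)
        field_simp
        linear_combination -hw
      have h0 : quadraticChar F ((s ^ 2 - 4) / (t ^ 2 - 4)) = 1 := by
        have hm : quadraticChar F ((s ^ 2 - 4) / (t ^ 2 - 4) * (t ^ 2 - 4)) = -1 := by
          rw [div_mul_cancel₀ _ (sub_ne_zero.2 h4)]; exact hnsq s hroot
        rw [map_mul, hnsq t hαt, mul_neg, mul_one, neg_inj] at hm
        exact hm
      obtain ⟨y, hy⟩ := (quadraticChar_one_iff_isSquare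
        (div_ne_zero (sub_ne_zero.2 hg4) (sub_ne_zero.2 h4))).1 h0
      refine ⟨y, ?_⟩
      rw [pow_two y, ← hy, mul_div_cancel₀ _ (sub_ne_zero.2 h4)]
    obtain ⟨P, hP, hα, -⟩ := Spec.Two.exists_coord α hns
    change (α : Matrix (Fin 2) (Fin 2) F) = P * Spec.Two.comp t * P⁻¹ at hα
    have hu : IsUnit P.det := Ne.isUnit hP
    set v : F × F := ((s - t * y) / 2, y)
    have hv : Spec.Two.qf t v = 1 := by
      simp only [Spec.Two.qf, v]
      field_simp
      linear_combination -hy
    let x : Matrix.SpecialLinearGroup (Fin 2) F := Spec.Two.mk (P * Spec.Two.lin t v * P⁻¹)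
      (by rw [Matrix.det_conj ((Matrix.isUnit_iff_isUnit_det P).2 hu), Spec.Two.lin_det, hv])
    have hxC : x ∈ C := by
      rw [hC, Subgroup.mem_centralizer_singleton_iff]
      apply Subtype.ext
      show P * Spec.Two.lin t v * P⁻¹ * (α : Matrix (Fin 2) (Fin 2) F) =
        (α : Matrix (Fin 2) (Fin 2) F) * (P * Spec.Two.lin t v * P⁻¹)
      rw [hα]
      simp only [Matrix.mul_assoc]
      rw [← Matrix.mul_assoc P⁻¹ P, Matrix.nonsing_inv_mul P hu, ← Matrix.mul_assoc P⁻¹ P,
        Matrix.nonsing_inv_mul P hu, Matrix.one_mul, Matrix.one_mul,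
        ← Matrix.mul_assoc (Spec.Two.lin t v), Spec.Two.lin_comm, Matrix.mul_assoc]
    have hxt : s = (x : Matrix (Fin 2) (Fin 2) F).trace := by
      show s = (P * Spec.Two.lin t v * P⁻¹).trace
      rw [Matrix.trace_mul_cycle, Matrix.nonsing_inv_mul P hu, Matrix.one_mul, Matrix.trace_fin_two]
      simp [Spec.Two.lin, v]
      field_simp
      ring
    obtain ⟨h, hh⟩ := Spec.Two.exists_conj g x hxt hg4
    exact ⟨h, hh ▸ hxC⟩
  · have hk' : 2 * Nat.card (ConjClasses (Subgroup.normalizer (C : Set (Matrix.SpecialLinearGroup (Fin 2) F)))) =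
        Fintype.card F + 1 + 6 := by rw [← hcard]; exact hk
    have := Fintype.one_lt_card (α := F)
    omega

end Cfsg.Agent.S2429
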