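import Cfsg.Statements.S2430
import Cfsg.Agent.Spec.TorusTwo
-- import your own Cfsg.Agent.* helpers here

set_option autoImplicit false
open Cfsg

namespace Cfsg.Agent.S2430

theorem normalizer_le_normalizer_centralizer {H : Type*} [Group H] (K : Subgroup H) :
    Subgroup.normalizer (K : Set H) ≤ Subgroup.normalizer (Subgroup.centralizer (K : Set H) : Set H) := by
  intro x hx
  have hx' := Subgroup.mem_normalizer_iff.1 hx
  rw [Subgroup.mem_normalizer_iff]
  intro y
  simp only [Subgroup.mem_centralizer_iff]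
  constructor
  · intro hy z hz
    have hz' : x⁻¹ * z * x ∈ K := (hx' _).2 (by
      rw [show x * (x⁻¹ * z * x) * x⁻¹ = z by group]; exact hz)
    calc z * (x * y * x⁻¹) = x * ((x⁻¹ * z * x) * y) * x⁻¹ := by group
      _ = x * y * x⁻¹ * z := by rw [hy _ hz']; group
  · intro hy z hz
    have hz' : x * z * x⁻¹ ∈ K := (hx' z).1 hz
    calc z * y = x⁻¹ * ((x * z * x⁻¹) * (x * y * x⁻¹)) * x := by group
      _ = y * z := by rw [hy _ hz']; group

/-- Let F be a finite field with q elements, q odd, ℓ an odd prime, and P a Sylow ℓ-subgroup of SL₂ over F. If ℓ divides q − 1, the centraliser of P is cyclic of order q − 1 (a split torus) and the normaliser of P has order 2(q − 1); if ℓ divides q + 1, the centraliser of P is cyclic of order q + 1 (a non-split torus) and the normaliser of P has order 2(q + 1). -/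
theorem result {F : Type*} [Field F] [Fintype F] (hodd : Odd (Fintype.card F)) (ℓ : ℕ) [Fact ℓ.Prime] (hℓ : ℓ ≠ 2)
    (P : Sylow ℓ (Matrix.SpecialLinearGroup (Fin 2) F)) :
    (ℓ ∣ Fintype.card F - 1 →
      Nat.card (Subgroup.centralizer ((P : Subgroup (Matrix.SpecialLinearGroup (Fin 2) F)) : Set (Matrix.SpecialLinearGroup (Fin 2) F))) = Fintype.card F - 1 ∧
      IsCyclic (Subgroup.centralizer ((P : Subgroup (Matrix.SpecialLinearGroup (Fin 2) F)) : Set (Matrix.SpecialLinearGroup (Fin 2) F))) ∧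
      Nat.card (Subgroup.normalizer ((P : Subgroup (Matrix.SpecialLinearGroup (Fin 2) F)) : Set (Matrix.SpecialLinearGroup (Fin 2) F))) = 2 * (Fintype.card F - 1)) ∧
    (ℓ ∣ Fintype.card F + 1 →
      Nat.card (Subgroup.centralizer ((P : Subgroup (Matrix.SpecialLinearGroup (Fin 2) F)) : Set (Matrix.SpecialLinearGroup (Fin 2) F))) = Fintype.card F + 1 ∧
      IsCyclic (Subgroup.centralizer ((P : Subgroup (Matrix.SpecialLinearGroup (Fin 2) F)) : Set (Matrix.SpecialLinearGroup (Fin 2) F))) ∧
      Nat.card (Subgroup.normalizer ((P : Subgroup (Matrix.SpecialLinearGroup (Fin 2) F)) : Set (Matrix.SpecialLinearGroup (Fin 2) F))) = 2 * (Fintype.card F + 1)) := by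
  classical
  have h2 : (2 : F) ≠ 0 := Linear.two_ne_zero_of_odd_card hodd
  have hl := (Fact.out : ℓ.Prime)
  have hq := Fintype.one_lt_card (α := F)
  set G := Matrix.SpecialLinearGroup (Fin 2) F
  suffices key : ℓ ∣ Fintype.card F - 1 ∨ ℓ ∣ Fintype.card F + 1 →
      ∃ n, (ℓ ∣ Fintype.card F - 1 → n = Fintype.card F - 1) ∧ (ℓ ∣ Fintype.card F + 1 → n = Fintype.card F + 1) ∧
        Nat.card (Subgroup.centralizer ((P : Subgroup G) : Set G)) = n ∧
        IsCyclic (Subgroup.centralizer ((P : Subgroup G) : Set G)) ∧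
        Nat.card (Subgroup.normalizer ((P : Subgroup G) : Set G)) = 2 * n by
    constructor
    · intro h
      obtain ⟨n, hn, -, h1, h3, h4⟩ := key (Or.inl h)
      exact ⟨(hn h) ▸ h1, h3, (hn h) ▸ h4⟩
    · intro h
      obtain ⟨n, -, hn, h1, h3, h4⟩ := key (Or.inr h)
      exact ⟨(hn h) ▸ h1, h3, (hn h) ▸ h4⟩
  intro hdvd
  have hnot : ¬ (ℓ ∣ Fintype.card F - 1 ∧ ℓ ∣ Fintype.card F + 1) := by
    rintro ⟨h1, h3⟩
    have := Nat.le_of_dvd (by omega) (Nat.dvd_sub h3 h1)
    rw [show Fintype.card F + 1 - (Fintype.card F - 1) = 2 by omega] at this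
    have := hl.two_le
    omega
  have hlq : ¬ ℓ ∣ Fintype.card F := by
    intro h
    rcases hdvd with h' | h'
    · have := Nat.le_of_dvd (by omega) (Nat.dvd_sub h h')
      rw [show Fintype.card F - (Fintype.card F - 1) = 1 by omega] at this
      have := hl.two_le
      omega
    · exact hl.not_dvd_one ((Nat.dvd_add_right h).1 h')
  have hcardG : ℓ ∣ Nat.card G := by
    rw [Linear.card_SL_two]
    rcases hdvd with h' | h'
    · exact (h'.mul_left _).mul_right _
    · exact h'.mul_left _
  haveI : Nontrivial (P : Subgroup G) := by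
    rw [← Finite.one_lt_card_iff_nontrivial, Sylow.card_eq_multiplicity]
    exact Nat.one_lt_pow (Nat.pos_iff_ne_zero.1 (hl.factorization_pos_of_dvd Nat.card_pos.ne' hcardG)) hl.one_lt
  haveI hcyc : IsCyclic (P : Subgroup G) := Linear.isCyclic_sylow_SL_two ℓ hℓ hlq P
  -- an element of order `ℓ` in `P`
  obtain ⟨g₀, hg₀⟩ := exists_prime_orderOf_dvd_card' (G := (P : Subgroup G)) ℓ (by
    obtain ⟨k, hk⟩ := P.2.exists_card_eq
    have := Finite.one_lt_card (α := (P : Subgroup G))
    rw [hk]
    refine dvd_pow_self ℓ fun h0 => ?_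
    rw [h0, pow_zero] at hk
    omega)
  set g : G := (g₀ : G)
  have hg : orderOf g = ℓ := by rw [Subgroup.orderOf_coe]; exact hg₀
  have hgns : Spec.Two.NS (g : Matrix (Fin 2) (Fin 2) F) := by
    intro z hz
    have h1 := g.2
    rw [hz, Matrix.det_smul, Fintype.card_fin, Matrix.det_one, mul_one] at h1
    have : g ^ 2 = 1 := by
      apply Subtype.ext
      show ((g ^ 2 : G) : Matrix (Fin 2) (Fin 2) F) = 1
      rw [Matrix.SpecialLinearGroup.coe_pow, hz, smul_pow, h1, one_smul, one_pow]
    have := Nat.le_of_dvd two_pos (orderOf_dvd_of_pow_eq_one this)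
    have := hl.two_le
    omega
  have hgdvd : ℓ ∣ Nat.card (Subgroup.centralizer ({g} : Set G)) :=
    hg ▸ Subgroup.orderOf_dvd_natCard _ (Subgroup.mem_centralizer_singleton_iff.2 rfl)
  have ht : (g : Matrix (Fin 2) (Fin 2) F).trace ^ 2 ≠ 4 := by
    intro h
    rw [Spec.Two.card_centralizer_eq g hgns, Spec.Two.card_qf_parabolic h] at hgdvd
    rcases (Nat.Prime.dvd_mul hl).1 hgdvd with h' | h'
    · have hle : Nat.card {s : F // s ^ 2 = 1} ≤ 2 := by
        rw [Nat.card_congr (Equiv.subtypeEquivRight (fun s => show s ^ 2 = 1 ↔ s ∈ ({1, -1} : Finset F) by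
          simp [sq_eq_one_iff])), Nat.card_eq_finsetCard]
        exact Finset.card_le_two
      have hpos : 0 < Nat.card {s : F // s ^ 2 = 1} := by
        haveI : Nonempty {s : F // s ^ 2 = 1} := ⟨⟨1, one_pow 2⟩⟩
        exact Nat.card_pos
      have := Nat.le_of_dvd hpos h'
      have := hl.two_le
      omega
    · exact hlq h'
  set C := Subgroup.centralizer ({g} : Set G) with hC
  haveI hCc : IsCyclic C := Spec.Two.isCyclic_centralizer g ht
  obtain ⟨n, hn1, hn2, hCn⟩ : ∃ n, (ℓ ∣ Fintype.card F - 1 → n = Fintype.card F - 1) ∧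
      (ℓ ∣ Fintype.card F + 1 → n = Fintype.card F + 1) ∧ Nat.card C = n := by
    refine ⟨_, fun h => ?_, fun h => ?_, rfl⟩
    · rcases Spec.Two.card_torus g ht with ⟨-, e⟩ | ⟨-, e⟩
      · exact e
      · exact absurd ⟨h, e ▸ hgdvd⟩ hnot
    · rcases Spec.Two.card_torus g ht with ⟨-, e⟩ | ⟨-, e⟩
      · exact absurd ⟨e ▸ hgdvd, h⟩ hnot
      · exact e
  have hgP : g ∈ (P : Subgroup G) := g₀.2
  have hPC : (P : Subgroup G) ≤ C := fun x hx =>
    Subgroup.mem_centralizer_singleton_iff.2
      (congrArg Subtype.val (IsMulCommutative.is_comm.comm (⟨x, hx⟩ : (P : Subgroup G)) ⟨g, hgP⟩))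
  have hCP : Subgroup.centralizer ((P : Subgroup G) : Set G) = C := by
    apply le_antisymm
    · intro x hx
      exact Subgroup.mem_centralizer_singleton_iff.2 (Subgroup.mem_centralizer_iff.1 hx g hgP).symm
    · intro x hx
      rw [Subgroup.mem_centralizer_iff]
      intro y hy
      exact congrArg Subtype.val (IsMulCommutative.is_comm.comm (⟨y, hPC hy⟩ : C) ⟨x, hx⟩)
  obtain ⟨hN, -, hinv⟩ := Spec.Two.natCard_normalizer_torus h2 g ht
  have hNP : Subgroup.normalizer ((P : Subgroup G) : Set G) = Subgroup.normalizer (C : Set G) := by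
    ext x
    constructor
    · intro hx
      rw [← hCP]
      have hx' := Subgroup.mem_normalizer_iff.1 hx
      exact normalizer_le_normalizer_centralizer _ hx
    · intro hx
      rw [Subgroup.mem_normalizer_iff]
      intro y
      have hfix : ∀ c ∈ C, x * c * x⁻¹ = c ∨ x * c * x⁻¹ = c⁻¹ := by
        intro c hc
        by_cases hxC : x ∈ C
        · left
          rw [show x * c = c * x from
            congrArg Subtype.val (IsMulCommutative.is_comm.comm (⟨x, hxC⟩ : C) ⟨c, hc⟩), mul_inv_cancel_right]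
        · exact Or.inr ((hinv x hx hxC).2 c hc)
      constructor
      · intro hy
        rcases hfix y (hPC hy) with e | e <;> rw [e]
        · exact hy
        · exact inv_mem hy
      · intro hy
        have hyC : y ∈ C := (Subgroup.mem_normalizer_iff.1 hx y).2 (hPC hy)
        rcases hfix y hyC with e | e <;> rw [e] at hy
        · exact hy
        · exact inv_mem_iff.1 hy
  exact ⟨n, hn1, hn2, by rw [hCP, hCn], by rw [hCP]; exact hCc, by rw [hNP, hN, hCn]⟩

end Cfsg.Agent.S2430
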