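import Cfsg.Statements.S2434
import Cfsg.Agent.SL2Val.CuspidalIrr
import Cfsg.Agent.SL2Val.Three

set_option autoImplicit false
open Cfsg

namespace Cfsg.Agent.S2434

/-- Let F be a finite field with q elements, q odd, and C a cyclic subgroup of order q + 1 of SL₂ over F (a non-split torus; it contains the centre). For every homomorphism θ from C to the non-zero complex numbers with θ² ≠ 1 there is an irreducible complex character χ of degree q − 1 such that χ(c) = −θ(c) − θ(c)⁻¹ for every non-central c in C, χ(zg) = θ(z)χ(g) for central z in C, χ vanishes at diagonal elements with entry a, a² ≠ 1, and χ takes the value −1 at every upper unitriangular element other than 1. Conversely every irreducible character of degree q − 1 has, for some such θ, the values −θ(c) − θ(c)⁻¹ at the non-central elements c of C (for q ≥ 5 these are exactly the cuspidal characters of degree q − 1). -/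
theorem result {F : Type*} [Field F] [Fintype F] (hodd : Odd (Fintype.card F))
    (C : Subgroup (Matrix.SpecialLinearGroup (Fin 2) F)) (hC : IsCyclic C) (hcard : Nat.card C = Fintype.card F + 1) :
    (∀ θ : C →* ℂˣ, (∃ c : C, θ c ^ 2 ≠ 1) →
      ∃ χ : Matrix.SpecialLinearGroup (Fin 2) F → ℂ, Cfsg.IsIrrCharacter (Matrix.SpecialLinearGroup (Fin 2) F) χ ∧ χ 1 = (Fintype.card F : ℂ) - 1 ∧
        (∀ c : C, (c : Matrix.SpecialLinearGroup (Fin 2) F) ∉ Subgroup.center (Matrix.SpecialLinearGroup (Fin 2) F) → χ c = -((θ c).val + (θ c)⁻¹.val)) ∧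
        (∀ c : C, (c : Matrix.SpecialLinearGroup (Fin 2) F) ∈ Subgroup.center (Matrix.SpecialLinearGroup (Fin 2) F) → ∀ g : Matrix.SpecialLinearGroup (Fin 2) F, χ ((c : Matrix.SpecialLinearGroup (Fin 2) F) * g) = (θ c).val * χ g) ∧
        (∀ g : Matrix.SpecialLinearGroup (Fin 2) F, (g : Matrix (Fin 2) (Fin 2) F) 0 1 = 0 → (g : Matrix (Fin 2) (Fin 2) F) 1 0 = 0 → (g : Matrix (Fin 2) (Fin 2) F) 0 0 ^ 2 ≠ 1 → χ g = 0) ∧
        (∀ g : Matrix.SpecialLinearGroup (Fin 2) F, (g : Matrix (Fin 2) (Fin 2) F) 1 0 = 0 → (g : Matrix (Fin 2) (Fin 2) F) 0 0 = 1 → (g : Matrix (Fin 2) (Fin 2) F) 1 1 = 1 → (g : Matrix (Fin 2) (Fin 2) F) 0 1 ≠ 0 → χ g = -1)) ∧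
    (∀ χ : Matrix.SpecialLinearGroup (Fin 2) F → ℂ, Cfsg.IsIrrCharacter (Matrix.SpecialLinearGroup (Fin 2) F) χ → χ 1 = (Fintype.card F : ℂ) - 1 →
      ∃ θ : C →* ℂˣ, (∃ c : C, θ c ^ 2 ≠ 1) ∧
        ∀ c : C, (c : Matrix.SpecialLinearGroup (Fin 2) F) ∉ Subgroup.center (Matrix.SpecialLinearGroup (Fin 2) F) → χ c = -((θ c).val + (θ c)⁻¹.val)) := by
  classical
  have h2 : (2 : F) ≠ 0 := Linear.two_ne_zero_of_odd_card hodd
  refine ⟨fun θ hθ => ?_, fun χ hχ hdeg => ?_⟩
  · obtain ⟨α, hα⟩ := SL2Val.exists_sign_char hC hcard h2 θ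
    have hirr := SL2Val.chi_irr hC hcard h2 hα hθ
    refine ⟨SL2Val.chi C α θ, hirr, SL2Val.chi_one hC hcard h2 hα,
      fun c hc => SL2Val.chi_torus hC hcard h2 α θ c hc, fun c hc g => ?_, fun g h01 h10 ha => ?_,
      fun g h10 h00 h11 h01 => ?_⟩
    · obtain ⟨ω, -, hω, hall⟩ := Char.irr_mul_center hirr hc
      rw [hall g]
      congr 1
      have hq : ((Fintype.card F : ℂ) - 1) ≠ 0 :=
        sub_ne_zero.2 (by exact_mod_cast (Fintype.one_lt_card (α := F)).ne')
      rw [SL2Val.chi_one hC hcard h2 hα] at hω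
      refine mul_right_cancel₀ hq (hω.symm.trans ?_)
      rcases SL2Val.center_cases hc with e | e
      · rw [e, SL2Val.chi_one hC hcard h2 hα, show c = 1 from Subtype.ext e]
        simp
      · rw [e, SL2Val.chi_borel hC hcard h2 hα (by simp [SL2Char.negId]), hα c e]
        simp [SL2Char.negId]
        ring
    · rw [SL2Val.chi_borel hC hcard h2 hα h10, if_neg ha]
    · rw [SL2Val.chi_borel hC hcard h2 hα h10, h00, if_pos (one_pow 2), if_neg h01, map_one, mul_one]
  · obtain ⟨c₀, hgen, hc₀⟩ := SL2Val.exists_gen hC hcard h2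
    have ho : orderOf c₀ = Fintype.card F + 1 :=
      hcard ▸ orderOf_eq_card_of_forall_mem_zpowers hgen
    have hq3 : 3 ≤ Fintype.card F := by
      have := Nat.odd_iff.1 hodd
      have := Fintype.one_lt_card (α := F)
      omega
    obtain ⟨ζ, hζ⟩ : ∃ ζ : ℂˣ, IsPrimitiveRoot ζ (Fintype.card F + 1) := by
      have h := Complex.isPrimitiveRoot_exp (Fintype.card F + 1) (by omega)
      exact ⟨(h.isUnit (by omega)).unit, h.isUnit_unit (by omega)⟩
    have hdvd : ∀ k : ℕ, orderOf (ζ ^ k) ∣ orderOf c₀ := fun k => by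
      rw [ho]; exact orderOf_dvd_of_pow_eq_one (by rw [← pow_mul, mul_comm, pow_mul, hζ.pow_eq_one,
        one_pow])
    let Θ : ℕ → (C →* ℂˣ) := fun k => monoidHomOfForallMemZpowers hgen (hdvd k)
    have hΘ : ∀ k, Θ k c₀ = ζ ^ k := fun k =>
      monoidHomOfForallMemZpowers_apply_gen hgen (hdvd k)
    have hsq : ∀ k, 1 ≤ k → 2 * k < Fintype.card F + 1 → ∃ c : C, Θ k c ^ 2 ≠ 1 := by
      refine fun k hk hk' => ⟨c₀, fun e => ?_⟩
      rw [hΘ, ← pow_mul] at e
      have := Nat.le_of_dvd (by omega) (hζ.dvd_of_pow_eq_one _ e)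
      omega
    obtain ⟨χ', rfl⟩ : ∃ χ' : IrrCharacter (Matrix.SpecialLinearGroup (Fin 2) F),
        (χ' : Matrix.SpecialLinearGroup (Fin 2) F → ℂ) = χ := ⟨⟨χ, hχ⟩, rfl⟩
    rcases Nat.lt_or_ge (Fintype.card F) 5 with h5 | h5
    · have h3 : Fintype.card F = 3 := by have := Nat.odd_iff.1 hodd; omega
      refine ⟨Θ 1, hsq 1 le_rfl (by omega), fun c hc => ?_⟩
      obtain ⟨-, -, ht, -, -, he⟩ := SL2Val.torus_facts hC hcard h2 c.2 hc
      rw [SL2Val.three_elliptic h3 (by rw [hdeg, h3]; norm_num) he]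
      have h4 : orderOf c = 4 := by
        have h4' : orderOf c ∣ 2 ^ 2 := by
          have h := orderOf_dvd_natCard c
          rw [hcard, h3] at h
          exact h
        obtain ⟨j, hj, hj'⟩ := (Nat.dvd_prime_pow Nat.prime_two).1 h4'
        rcases (show j = 2 ∨ j ≤ 1 by omega) with rfl | hj1
        · exact hj'
        · exfalso
          have hcc : (c : Matrix.SpecialLinearGroup (Fin 2) F) * c = 1 := by
            have h : c ^ 2 = 1 := orderOf_dvd_iff_pow_eq_one.1
              (hj' ▸ pow_dvd_pow 2 hj1)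
            rw [← Subgroup.coe_mul, ← pow_two, h, Subgroup.coe_one]
          rcases (Spec.Two.mul_self_eq_one_iff h2 _).1 hcc with h | h
          · exact ht (by rw [h, Matrix.trace_one]; norm_num)
          · exact ht (by rw [h, Matrix.trace_neg, Matrix.trace_one]; norm_num)
      have hneg : ((Θ 1 c).val) ^ 2 = -1 := by
        have hinj : Function.Injective (Θ 1) := by
          rw [injective_iff_map_eq_one]
          intro x hx
          obtain ⟨j, rfl⟩ := hgen x
          simp only [map_zpow, hΘ, pow_one] at hx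
          have hd := (hζ.zpow_eq_one_iff_dvd j).1 hx
          apply orderOf_dvd_iff_zpow_eq_one.1
          rw [ho]
          exact hd
        have ho' : orderOf (Θ 1 c).val = 4 := by
          rw [orderOf_units, orderOf_injective _ hinj, h4]
        have h := IsPrimitiveRoot.orderOf (Θ 1 c).val
        rw [ho'] at h
        exact (h.pow (by norm_num) (show 4 = 2 * 2 by rfl)).eq_neg_one_of_two_right
      have hm : (Θ 1 c).val * (Θ 1 c)⁻¹.val = 1 := Units.mul_inv _
      linear_combination (Θ 1 c)⁻¹.val * hneg - (Θ 1 c).val * hm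
    · obtain ⟨ν, hν⟩ := FiniteField.exists_nonsquare (F := F)
        (fun e => by have := FiniteField.even_card_of_char_two e; have := Nat.odd_iff.1 hodd; omega)
      obtain ⟨H, D, W, -, -, hW, kH, kD, kW, hall⟩ := SL2Char.odd_classification hν
      have hmem : ∀ φ : IrrCharacter (Matrix.SpecialLinearGroup (Fin 2) F),
          (φ : Matrix.SpecialLinearGroup (Fin 2) F → ℂ) 1 = (Fintype.card F : ℂ) - 1 → φ ∈ W := by
        intro φ hφ
        have hd := SL2Val.deg_eq (n := Fintype.card F - 1) (χ := φ)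
          (by rw [hφ, Nat.cast_sub (by omega), Nat.cast_one])
        rcases hall φ with e | e | e | e | e | e
        · rw [e, SL2Char.charDegree_chiOne_odd hν] at hd; omega
        · rw [e, SL2Char.charDegree_chiSt_odd hν] at hd; omega
        · rw [SL2Char.charDegree_psSet_odd hν e] at hd; omega
        · have := (kH φ e).2.2.2; omega
        · have := (kD φ e).2.2.2; omega
        · exact e
      choose α hα using fun k => SL2Val.exists_sign_char hC hcard h2 (Θ k)
      have hlt : ∀ k ∈ Finset.Icc 1 W.card, 1 ≤ k ∧ 2 * k < Fintype.card F + 1 := fun k hk => by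
        rw [Finset.mem_Icc] at hk; omega
      let Φ : ℕ → IrrCharacter (Matrix.SpecialLinearGroup (Fin 2) F) := fun k =>
        if h : 1 ≤ k ∧ 2 * k < Fintype.card F + 1 then
          ⟨_, SL2Val.chi_irr hC hcard h2 (hα k) (hsq k h.1 h.2)⟩ else χ'
      have hΦ : ∀ k ∈ Finset.Icc 1 W.card,
          (Φ k : Matrix.SpecialLinearGroup (Fin 2) F → ℂ) = SL2Val.chi C (α k) (Θ k) := fun k hk => by
        simp only [Φ, dif_pos (hlt k hk)]
      have hinj : Set.InjOn Φ (Finset.Icc 1 W.card : Finset ℕ) := by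
        intro i hi j hj e
        have hv := congrArg (fun φ : IrrCharacter (Matrix.SpecialLinearGroup (Fin 2) F) =>
          (φ : Matrix.SpecialLinearGroup (Fin 2) F → ℂ) c₀) e
        simp only [hΦ i hi, hΦ j hj, SL2Val.chi_torus hC hcard h2 _ _ c₀ hc₀, hΘ, neg_inj] at hv
        set a : ℂ := ((ζ ^ i : ℂˣ) : ℂ)
        set b : ℂ := ((ζ ^ j : ℂˣ) : ℂ)
        have hz : (a - b) * (a * b - 1) = 0 := by
          have ha : a * ((ζ ^ i)⁻¹ : ℂˣ) = 1 := Units.mul_inv _
          have hb : b * ((ζ ^ j)⁻¹ : ℂˣ) = 1 := Units.mul_inv _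
          linear_combination (a * b) * hv - b * ha + a * hb
        obtain ⟨hi1, hi2⟩ := hlt i hi
        obtain ⟨hj1, hj2⟩ := hlt j hj
        rcases mul_eq_zero.1 hz with h | h
        · exact hζ.pow_inj (by omega) (by omega) (Units.ext (sub_eq_zero.1 h))
        · exfalso
          have h' : ζ ^ (i + j) = 1 := Units.ext (by
            rw [pow_add, Units.val_mul, Units.val_one]; exact sub_eq_zero.1 h)
          have := Nat.le_of_dvd (by omega) (hζ.dvd_of_pow_eq_one _ h')
          omega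
      obtain ⟨k, hk, hkχ⟩ := Finset.surjOn_of_injOn_of_card_le (t := W) Φ
        (fun k hk => hmem _ (by rw [hΦ k hk, SL2Val.chi_one hC hcard h2 (hα k)]))
        hinj (by simp) (hmem χ' hdeg)
      refine ⟨Θ k, hsq k (hlt k hk).1 (hlt k hk).2, fun c hc => ?_⟩
      rw [← hkχ, hΦ k hk, SL2Val.chi_torus hC hcard h2 _ _ c hc]

end Cfsg.Agent.S2434
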