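import Cfsg.Statements.S2435
import Cfsg.Agent.SL2Val.CuspidalHalf

set_option autoImplicit false
open Cfsg

namespace Cfsg.Agent.S2435

/-- Let F be a finite field with q elements, q odd and q ≥ 5, and χ an irreducible complex character of SL₂ over F. If χ has degree (q + 1)/2, then at a diagonal element with entry a, a² ≠ 1, χ takes the value 1 when a is a square in F and −1 otherwise. If χ has degree (q − 1)/2, then at an element g with no eigenvector in F² (so g has order dividing q + 1), χ takes the value −1 when g raised to the power (q + 1)/2 is the identity and the value 1 otherwise. -/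
theorem result {F : Type*} [Field F] [Fintype F] (hodd : Odd (Fintype.card F)) (hq : 5 ≤ Fintype.card F)
    (χ : Matrix.SpecialLinearGroup (Fin 2) F → ℂ) (hχ : Cfsg.IsIrrCharacter (Matrix.SpecialLinearGroup (Fin 2) F) χ) (g : Matrix.SpecialLinearGroup (Fin 2) F) :
    (χ 1 = (((Fintype.card F + 1) / 2 : ℕ) : ℂ) → (g : Matrix (Fin 2) (Fin 2) F) 0 1 = 0 → (g : Matrix (Fin 2) (Fin 2) F) 1 0 = 0 → (g : Matrix (Fin 2) (Fin 2) F) 0 0 ^ 2 ≠ 1 →
      (IsSquare ((g : Matrix (Fin 2) (Fin 2) F) 0 0) → χ g = 1) ∧ (¬ IsSquare ((g : Matrix (Fin 2) (Fin 2) F) 0 0) → χ g = -1)) ∧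
    (χ 1 = (((Fintype.card F - 1) / 2 : ℕ) : ℂ) → (∀ (c : F) (v : Fin 2 → F), v ≠ 0 → (g : Matrix (Fin 2) (Fin 2) F).mulVec v ≠ c • v) →
      (((g ^ ((Fintype.card F + 1) / 2)) : Matrix (Fin 2) (Fin 2) F) = 1 → χ g = -1) ∧ (((g ^ ((Fintype.card F + 1) / 2)) : Matrix (Fin 2) (Fin 2) F) ≠ 1 → χ g = 1)) := by
  classical
  have h2 : (2 : F) ≠ 0 := Linear.two_ne_zero_of_odd_card hodd
  obtain ⟨χ', rfl⟩ : ∃ χ' : IrrCharacter (Matrix.SpecialLinearGroup (Fin 2) F),
      (χ' : Matrix.SpecialLinearGroup (Fin 2) F → ℂ) = χ := ⟨⟨χ, hχ⟩, rfl⟩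
  refine ⟨fun hd h01 h10 ha => ?_, fun hd hell => ?_⟩
  · have hne : ringChar F ≠ 2 := fun e => by
      have := FiniteField.even_card_of_char_two e; have := Nat.odd_iff.1 hodd; omega
    obtain ⟨ν, hν⟩ := FiniteField.exists_nonsquare hne
    have hν0 := SL2Char.ne_zero_of_nonsquare hν
    set ε : MulChar F ℂ := (quadraticChar F).ringHomComp (Int.castRingHom ℂ) with hε
    have hε1 : ε ≠ 1 :=
      (MulChar.ringHomComp_ne_one_iff Int.cast_injective).2 (quadraticChar_ne_one hne)
    have hε2 : ε = ε⁻¹ := (((quadraticChar_isQuadratic F).comp (Int.castRingHom ℂ)).inv).symm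
    obtain ⟨u, v, huv, hdec, htw, hu1, hv1⟩ :=
      SL2Val.exists_split (ν := Units.mk0 ν hν0) (by simpa using hν) hε2 hε1
    have hfix : SL2Val.dil (Units.mk0 ν hν0) g = g :=
      Linear.slTwo_ext (by rw [SL2Val.coe_dil]; simp) (by rw [SL2Val.coe_dil]; simp [h01])
        (by rw [SL2Val.coe_dil]; simp [h10]) (by rw [SL2Val.coe_dil]; simp)
    have hvu : (v : Matrix.SpecialLinearGroup (Fin 2) F → ℂ) g =
        (u : Matrix.SpecialLinearGroup (Fin 2) F → ℂ) g := by
      rw [← htw]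
      show (u : Matrix.SpecialLinearGroup (Fin 2) F → ℂ) (SL2Val.dil (Units.mk0 ν hν0) g) = _
      rw [hfix]
    have hdet := Linear.slTwo_det g
    rw [h01, zero_mul, sub_zero] at hdet
    set a := (g : Matrix (Fin 2) (Fin 2) F) 0 0 with hadef
    have ha0 : a ≠ 0 := left_ne_zero_of_mul_eq_one hdet
    have hqq : ε a * ε a = 1 := by
      rw [hε, MulChar.ringHomComp_apply, ← map_mul, ← map_mul, ← sq, quadraticChar_sq_one' ha0]
      simp
    have hd11 : ε ((g : Matrix (Fin 2) (Fin 2) F) 1 1) = ε a := by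
      have h : ε a * ε ((g : Matrix (Fin 2) (Fin 2) F) 1 1) = 1 := by rw [← map_mul, hdet, map_one]
      linear_combination ε a * h - ε ((g : Matrix (Fin 2) (Fin 2) F) 1 1) * hqq
    have hval : (χ' : Matrix.SpecialLinearGroup (Fin 2) F → ℂ) g = ε a := by
      have h := congrFun hdec g
      rw [SL2Val.ps_borel_split ε h10 ha, Pi.add_apply, hvu, hd11] at h
      have hug : (u : Matrix.SpecialLinearGroup (Fin 2) F → ℂ) g = ε a := by
        linear_combination (-1 / 2 : ℂ) * h
      rcases SL2Val.eq_or_eq_of_half_degree hodd hq (Or.inl rfl) huv hu1 hv1 hd with rfl | rfl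
      · exact hug
      · exact hvu.trans hug
    rw [hval, hε, MulChar.ringHomComp_apply]
    refine ⟨fun hs => ?_, fun hs => ?_⟩
    · rw [(quadraticChar_one_iff_isSquare ha0).2 hs]; simp
    · rw [quadraticChar_neg_one_iff_not_isSquare.2 hs]; simp
  · obtain ⟨h10, -, hr⟩ := GL2Char.elliptic_entries hell
    rw [g.det_coe] at hr
    have hns : Linear.Classes.Nonscalar (g : Matrix (Fin 2) (Fin 2) F) := fun c e => h10 (by
      rw [e]; simp)
    have ht : (g : Matrix (Fin 2) (Fin 2) F).trace ^ 2 ≠ 4 := by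
      have h := (Linear.Classes.discr_of_no_root hr).resolve_left h2
      rwa [mul_one] at h
    set C := Subgroup.centralizer ({g} : Set (Matrix.SpecialLinearGroup (Fin 2) F)) with hCdef
    have hC : IsCyclic C := Spec.Two.isCyclic_centralizer g ht
    have hcard : Nat.card C = Fintype.card F + 1 := Linear.Classes.card_centralizer_SL_no_root hns hr
    obtain ⟨c₀, hgen, hc₀⟩ := SL2Val.exists_gen hC hcard h2
    have ho : orderOf c₀ = Fintype.card F + 1 :=
      hcard ▸ orderOf_eq_card_of_forall_mem_zpowers hgen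
    obtain ⟨m, hm⟩ : ∃ m, Fintype.card F = 2 * m + 1 := hodd
    have hdvd : orderOf (-1 : ℂˣ) ∣ orderOf c₀ :=
      (orderOf_dvd_of_pow_eq_one (n := 2) neg_one_sq).trans ⟨m + 1, by omega⟩
    set η : C →* ℂˣ := monoidHomOfForallMemZpowers hgen hdvd with hη
    have hη₀ : η c₀ = -1 := monoidHomOfForallMemZpowers_apply_gen hgen hdvd
    have hη2 : η * η = 1 := MonoidHom.ext fun x => by
      obtain ⟨j, rfl⟩ := hgen x
      simp [hη₀, ← mul_zpow]
    obtain ⟨c, hc⟩ : ∃ c : C, (c : Matrix.SpecialLinearGroup (Fin 2) F) = g :=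
      ⟨⟨g, Subgroup.mem_centralizer_singleton_iff.2 rfl⟩, rfl⟩
    have hnc : (c : Matrix.SpecialLinearGroup (Fin 2) F) ∉ Subgroup.center _ := by
      rw [hc, Linear.Classes.mem_center_iff_scalar, not_not]; exact hns
    have hv := SL2Val.half_torus hC hcard ⟨m, hm⟩ hq hη2 hc₀ (by rw [hη₀]; simp) hd c hnc
    rw [hc] at hv
    have hiff : ((g ^ ((Fintype.card F + 1) / 2) : Matrix.SpecialLinearGroup (Fin 2) F) :
        Matrix (Fin 2) (Fin 2) F) = 1 ↔ (η c : ℂ) = 1 := by
      rw [Spec.Two.coe_eq_one_iff, ← hc, ← Subgroup.coe_pow, OneMemClass.coe_eq_one,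
        show (Fintype.card F + 1) / 2 = m + 1 by omega]
      obtain ⟨j, rfl⟩ := hgen c
      have e1 : ((c₀ ^ j) ^ (m + 1) = 1) ↔ (2 : ℤ) ∣ j := by
        rw [← zpow_natCast, ← zpow_mul, ← orderOf_dvd_iff_zpow_eq_one, ho, hm]
        push_cast
        rw [show ((2 : ℤ) * m + 1 + 1) = (m + 1) * 2 by ring, show j * ((m : ℤ) + 1) = (m + 1) * j by
          ring]
        exact mul_dvd_mul_iff_left (by positivity)
      rw [e1]
      simp only [map_zpow, hη₀, Units.val_zpow_eq_zpow_val, Units.val_neg, Units.val_one]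
      rcases Int.even_or_odd j with hj | hj
      · rw [hj.neg_one_zpow]; simpa using even_iff_two_dvd.1 hj
      · rw [hj.neg_one_zpow]
        constructor
        · intro h
          exact absurd (even_iff_two_dvd.2 h) (Int.not_even_iff_odd.2 hj)
        · intro h; norm_num at h
    have hpm : (η c : ℂ) = 1 ∨ (η c : ℂ) = -1 := by
      have h : (η c : ℂ) * (η c : ℂ) = 1 := by
        rw [← Units.val_mul, ← MonoidHom.mul_apply, hη2]; simp
      exact mul_self_eq_one_iff.1 h
    rw [← Matrix.SpecialLinearGroup.coe_pow, hv]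
    refine ⟨fun h => ?_, fun h => ?_⟩
    · rw [hiff.1 h]
    · rw [hpm.resolve_left (fun e => h (hiff.2 e))]; simp

end Cfsg.Agent.S2435
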