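import Cfsg.Statements.S2437
import Cfsg.Agent.Linear.GLTwo
-- import your own Cfsg.Agent.* helpers here

set_option autoImplicit false
open Cfsg

namespace Cfsg.Agent.S2437

/-- Over a finite field F with q elements, q odd, the upper triangular subgroup of SL₂ (a Borel subgroup, of order q(q − 1)) has exactly q + 3 conjugacy classes. -/
theorem result {F : Type*} [Field F] [Fintype F] (hodd : Odd (Fintype.card F)) :
    Nat.card (ConjClasses ((Cfsg.upperTriangularGL 2 F).comap Matrix.SpecialLinearGroup.toGL)) = Fintype.card F + 3 := by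
  classical
  have h2 : (2 : F) ≠ 0 := Linear.two_ne_zero_of_odd_card hodd
  set B := (Cfsg.upperTriangularGL 2 F).comap
    (Matrix.SpecialLinearGroup.toGL (n := Fin 2) (R := F)) with hB
  have hmem : ∀ g : Matrix.SpecialLinearGroup (Fin 2) F, g ∈ B ↔ (g : Matrix (Fin 2) (Fin 2) F) 1 0 = 0 := by
    intro g
    constructor
    · intro h; exact h (by decide : (0 : Fin 2) < 1)
    · intro h i j hij
      fin_cases i <;> fin_cases j <;> simp at hij
      exact h
  let E : B ≃ Fˣ × F :=
    { toFun := fun g => (Units.mk0 (((g : Matrix.SpecialLinearGroup (Fin 2) F) : Matrix (Fin 2) (Fin 2) F) 0 0)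
        (fun h => by
          have := g.1.2
          rw [Matrix.det_fin_two, h, (hmem g.1).1 g.2, zero_mul, mul_zero, sub_zero] at this
          exact zero_ne_one this), ((g : Matrix.SpecialLinearGroup (Fin 2) F) : Matrix (Fin 2) (Fin 2) F) 0 1)
      invFun := fun x => ⟨⟨!![(x.1 : F), x.2; 0, ((x.1⁻¹ : Fˣ) : F)], by
          rw [Matrix.det_fin_two_of, mul_zero, sub_zero, Units.mul_inv]⟩, (hmem _).2 (by simp)⟩
      left_inv := fun g => by
        apply Subtype.ext
        apply Subtype.ext
        have hd := g.1.2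
        have h10 := (hmem g.1).1 g.2
        rw [Matrix.det_fin_two, h10, mul_zero, sub_zero] at hd
        ext i j
        fin_cases i <;> fin_cases j <;> simp [h10]
        exact inv_eq_of_mul_eq_one_right hd
      right_inv := fun x => Prod.ext (Units.ext (by simp)) (by simp) }
  have hcardB : Nat.card B = (Fintype.card F - 1) * Fintype.card F := by
    rw [Nat.card_congr E, Nat.card_prod, Nat.card_units, Nat.card_eq_fintype_card]
  set q := Fintype.card F with hq
  have hcomm : ∀ x y : Fˣ × F, Commute (E.symm x) (E.symm y) ↔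
      y.2 * ((x.1 : F) ^ 2 - 1) * (y.1 : F) = x.2 * ((y.1 : F) ^ 2 - 1) * (x.1 : F) := by
    intro x y
    rw [commute_iff_eq, Subtype.ext_iff]
    refine Subtype.ext_iff.trans ?_
    show !![(x.1 : F), x.2; 0, ((x.1⁻¹ : Fˣ) : F)] * !![(y.1 : F), y.2; 0, ((y.1⁻¹ : Fˣ) : F)] =
      !![(y.1 : F), y.2; 0, ((y.1⁻¹ : Fˣ) : F)] * !![(x.1 : F), x.2; 0, ((x.1⁻¹ : Fˣ) : F)] ↔ _
    have hx := x.1.ne_zero
    have hy := y.1.ne_zero
    constructor
    · intro h
      have h01 := congrFun (congrFun h 0) 1
      simp [Matrix.mul_apply, Fin.sum_univ_two] at h01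
      field_simp at h01
      linear_combination h01
    · intro h
      ext i j
      fin_cases i <;> fin_cases j <;> simp [Matrix.mul_apply, Fin.sum_univ_two, mul_comm]
      field_simp
      linear_combination h
  -- the two units of square one
  have hsq : ((Finset.univ : Finset Fˣ).filter fun c : Fˣ => (c : F) ^ 2 = 1) = {1, -1} := by
    ext c
    simp only [Finset.mem_filter, Finset.mem_univ, true_and, Finset.mem_insert, Finset.mem_singleton,
      sq_eq_one_iff, Units.ext_iff, Units.val_one, Units.val_neg]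
  have hpm : (1 : Fˣ) ≠ -1 := fun h => h2 (by
    have := congrArg Units.val h
    rw [Units.val_one, Units.val_neg, Units.val_one] at this
    linear_combination this)
  have hone : 1 < q := Fintype.one_lt_card
  have hA : ∀ x : Fˣ × F, Nat.card {y : Fˣ × F // y.2 * ((x.1 : F) ^ 2 - 1) * (y.1 : F) =
      x.2 * ((y.1 : F) ^ 2 - 1) * (x.1 : F)} =
      if (x.1 : F) ^ 2 = 1 then (if x.2 = 0 then (q - 1) * q else 2 * q) else q - 1 := by
    intro x
    have hx := x.1.ne_zero
    split_ifs with h hb
    · rw [← hcardB, Nat.card_congr E]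
      exact Nat.card_congr (Equiv.subtypeUnivEquiv fun y => by simp [h, hb])
    · rw [Nat.card_congr
        { toFun := fun y : {y : Fˣ × F // y.2 * ((x.1 : F) ^ 2 - 1) * (y.1 : F) =
              x.2 * ((y.1 : F) ^ 2 - 1) * (x.1 : F)} =>
            ((⟨y.1.1, by
              have hy := y.2
              simp [h, hx, hb, sub_eq_zero] at hy
              rcases hy with e | e <;> simp [e]⟩ : {c : Fˣ // (c : F) ^ 2 = 1}), y.1.2)
          invFun := fun z => ⟨(z.1.1, z.2), by simp [h, z.1.2]⟩
          left_inv := fun y => rfl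
          right_inv := fun z => rfl }, Nat.card_prod, Nat.card_eq_fintype_card (α := F),
        Nat.card_eq_fintype_card, Fintype.card_subtype, hsq, Finset.card_pair hpm]
    · have hne : (x.1 : F) ^ 2 - 1 ≠ 0 := sub_ne_zero.2 h
      rw [Nat.card_congr
        { toFun := fun y : {y : Fˣ × F // y.2 * ((x.1 : F) ^ 2 - 1) * (y.1 : F) =
              x.2 * ((y.1 : F) ^ 2 - 1) * (x.1 : F)} => y.1.1
          invFun := fun c => ⟨(c, x.2 * ((c : F) ^ 2 - 1) * (x.1 : F) / (((x.1 : F) ^ 2 - 1) * (c : F))), by
            have := c.ne_zero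
            field_simp⟩
          left_inv := fun y => by
            refine Subtype.ext (Prod.ext rfl ?_)
            have := y.1.1.ne_zero
            show x.2 * ((y.1.1 : F) ^ 2 - 1) * (x.1 : F) / (((x.1 : F) ^ 2 - 1) * (y.1.1 : F)) = y.1.2
            rw [← y.2]
            field_simp
          right_inv := fun c => rfl }, Nat.card_units, Nat.card_eq_fintype_card]
  have hinner : ∀ a : Fˣ, (∑ b : F, if (a : F) ^ 2 = 1 then (if b = 0 then (q - 1) * q else 2 * q) else q - 1) =
      if (a : F) ^ 2 = 1 then (q - 1) * q + (q - 1) * (2 * q) else q * (q - 1) := by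
    intro a
    split_ifs with h
    · rw [← Finset.add_sum_erase _ _ (Finset.mem_univ (0 : F)), if_pos rfl]
      congr 1
      rw [Finset.sum_congr rfl (fun b hb => if_neg (Finset.ne_of_mem_erase hb)), Finset.sum_const,
        Finset.card_erase_of_mem (Finset.mem_univ _), Finset.card_univ, smul_eq_mul]
    · rw [Finset.sum_const, Finset.card_univ, smul_eq_mul]
  have hpair : Nat.card {p : B × B // Commute p.1 p.2} = (q + 3) * ((q - 1) * q) := by
    rw [Nat.card_congr ((E.prodCongr E).subtypeEquiv (q := fun p => p.2.2 * ((p.1.1 : F) ^ 2 - 1) * (p.2.1 : F) =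
        p.1.2 * ((p.2.1 : F) ^ 2 - 1) * (p.1.1 : F)) (fun p => by
          rw [← hcomm]; simp)),
      Nat.card_congr (Equiv.subtypeProdEquivSigmaSubtype fun x y : Fˣ × F =>
        y.2 * ((x.1 : F) ^ 2 - 1) * (y.1 : F) = x.2 * ((y.1 : F) ^ 2 - 1) * (x.1 : F)),
      Nat.card_sigma, Finset.sum_congr rfl (fun x _ => hA x), Fintype.sum_prod_type,
      Finset.sum_congr rfl (fun a _ => hinner a), Finset.sum_ite, hsq, Finset.sum_const, Finset.sum_const,
      Finset.card_pair hpm, Finset.filter_not, hsq, Finset.card_sdiff_of_subset (Finset.subset_univ _),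
      Finset.card_univ, Fintype.card_units, Finset.card_pair hpm, smul_eq_mul, smul_eq_mul, ← hq]
    obtain ⟨j, hj⟩ := hodd
    obtain ⟨i, rfl⟩ : ∃ i, j = i + 1 := ⟨j - 1, by omega⟩
    rw [hj, show 2 * (i + 1) + 1 - 1 = 2 * i + 2 by omega, show 2 * i + 2 - 2 = 2 * i by omega]
    ring
  rw [card_comm_eq_card_conjClasses_mul_card, hcardB] at hpair
  exact Nat.eq_of_mul_eq_mul_right (Nat.mul_pos (by omega) (by omega)) hpair

end Cfsg.Agent.S2437
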