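import Cfsg.Statements.S2436
import Cfsg.Agent.SL2Val.McKay

set_option autoImplicit false
open Cfsg

namespace Cfsg.Agent.S2436

/-- Let F be a finite field with q elements, q odd, ℓ any prime and S a Sylow ℓ-subgroup of SL₂ over F with normaliser N. Then SL₂ and N have the same number of irreducible complex characters of degree not divisible by ℓ (the McKay equality holds for SL₂ over F at every prime). -/
theorem result {F : Type*} [Field F] [Fintype F] (hodd : Odd (Fintype.card F)) (ℓ : ℕ) [Fact ℓ.Prime] (S : Sylow ℓ (Matrix.SpecialLinearGroup (Fin 2) F)) :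
    Nat.card {χ : Cfsg.IrrCharacter (Matrix.SpecialLinearGroup (Fin 2) F) // ¬ ℓ ∣ Cfsg.charDegree (χ : Matrix.SpecialLinearGroup (Fin 2) F → ℂ)} =
      Nat.card {ψ : Cfsg.IrrCharacter (Subgroup.normalizer ((S : Subgroup (Matrix.SpecialLinearGroup (Fin 2) F)) : Set (Matrix.SpecialLinearGroup (Fin 2) F))) //
        ¬ ℓ ∣ Cfsg.charDegree (ψ : Subgroup.normalizer ((S : Subgroup (Matrix.SpecialLinearGroup (Fin 2) F)) : Set (Matrix.SpecialLinearGroup (Fin 2) F)) → ℂ)} := by
  classical
  have hl := (Fact.out : ℓ.Prime)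
  have hq1 : 1 < Fintype.card F := Fintype.one_lt_card
  have hqodd := Nat.odd_iff.1 hodd
  rcases eq_or_ne ℓ 2 with rfl | hℓ2
  · rw [SL2Val.two_normalizer hodd S, SL2Val.count_degrees hodd (fun d => ¬ 2 ∣ d)]
    have e1 : (¬ 2 ∣ 1) := by omega
    have e2 : ¬ 2 ∣ Fintype.card F := by omega
    have e3 : 2 ∣ Fintype.card F + 1 := by omega
    have e4 : 2 ∣ Fintype.card F - 1 := by omega
    simp only [e1, e2, e3, e4, not_true_eq_false, not_false_eq_true, if_true, if_false, add_zero]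
    by_cases h : 2 ∣ (Fintype.card F + 1) / 2
    · rw [if_neg (not_not.2 h), if_pos (show ¬ 2 ∣ (Fintype.card F - 1) / 2 by omega)]
    · rw [if_pos h, if_neg (not_not.2 (show 2 ∣ (Fintype.card F - 1) / 2 by omega))]
  have h2dvd : ∀ {d : ℕ}, ℓ ∣ 2 * d ↔ ℓ ∣ d := fun {d} => by
    refine ⟨fun h => (hl.dvd_mul.1 h).resolve_left fun h' => hℓ2 ?_, fun h => h.mul_left 2⟩
    exact (Nat.prime_dvd_prime_iff_eq hl Nat.prime_two).1 h'
  have hp1 : ℓ ∣ (Fintype.card F + 1) / 2 ↔ ℓ ∣ Fintype.card F + 1 := by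
    rw [← h2dvd, show 2 * ((Fintype.card F + 1) / 2) = Fintype.card F + 1 by omega]
  have hm1 : ℓ ∣ (Fintype.card F - 1) / 2 ↔ ℓ ∣ Fintype.card F - 1 := by
    rw [← h2dvd, show 2 * ((Fintype.card F - 1) / 2) = Fintype.card F - 1 by omega]
  have h1 : ¬ ℓ ∣ 1 := hl.not_dvd_one
  rw [SL2Val.count_degrees hodd (fun d => ¬ ℓ ∣ d)]
  simp only [hp1, hm1, h1, not_false_eq_true, if_true]
  have hexcl : ∀ {a b : ℕ}, ℓ ∣ a → ℓ ∣ b → a - b ≤ 2 → b < a → False := by
    intro a b ha hb hab hba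
    have := Nat.le_of_dvd (by omega) (Nat.dvd_sub ha hb)
    have := hl.two_le
    omega
  by_cases hq : ℓ ∣ Fintype.card F
  · have hp : ¬ ℓ ∣ Fintype.card F + 1 := fun h => hexcl h hq (by omega) (by omega)
    have hm : ¬ ℓ ∣ Fintype.card F - 1 := fun h => hexcl hq h (by omega) (by omega)
    rw [SL2Val.borel_normalizer hodd hq S]
    simp only [hq, hp, hm, not_true_eq_false, not_false_eq_true, if_true, if_false]
    omega
  rw [if_pos hq]
  by_cases hp : ℓ ∣ Fintype.card F + 1
  · have hn := SL2Val.torus_normalizer hodd hℓ2 (Or.inr ⟨rfl, hp⟩) S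
    have hm : ¬ ℓ ∣ Fintype.card F - 1 := fun h => hexcl hp h (by omega) (by omega)
    simp only [hp, hm, not_true_eq_false, not_false_eq_true, if_true, if_false]
    omega
  by_cases hm : ℓ ∣ Fintype.card F - 1
  · have hn := SL2Val.torus_normalizer hodd hℓ2 (Or.inl ⟨rfl, hm⟩) S
    simp only [hp, hm, not_true_eq_false, not_false_eq_true, if_true, if_false]
    omega
  -- `ℓ` does not divide the order
  have hG : ¬ ℓ ∣ Nat.card (Matrix.SpecialLinearGroup (Fin 2) F) := by
    rw [Linear.card_SL_two]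
    intro h
    rcases hl.dvd_mul.1 h with h | h
    · rcases hl.dvd_mul.1 h with h | h
      exacts [hq h, hm h]
    · exact hp h
  set N := Subgroup.normalizer ((S : Subgroup (Matrix.SpecialLinearGroup (Fin 2) F)) : Set (Matrix.SpecialLinearGroup (Fin 2) F)) with hN
  have hbot : (S : Subgroup (Matrix.SpecialLinearGroup (Fin 2) F)) = ⊥ := by
    rw [← Subgroup.card_eq_one, Sylow.card_eq_multiplicity,
      Nat.factorization_eq_zero_of_not_dvd hG, pow_zero]
  have htop : N = ⊤ := by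
    rw [hN, hbot]
    exact Subgroup.normalizer_eq_top _
  rw [SL2Val.count_all, ← Char.card_irr_eq_card_conjClasses,
    BlockNilp.card_irr_congr ((MulEquiv.subgroupCongr htop).trans Subgroup.topEquiv)]
  · have hall : ∀ χ : IrrCharacter (Matrix.SpecialLinearGroup (Fin 2) F),
        ¬ ℓ ∣ charDegree (χ : Matrix.SpecialLinearGroup (Fin 2) F → ℂ) :=
      fun χ h => hG (h.trans (BlkChar.irr_charDegree_dvd_card χ))
    have h := SL2Val.count_degrees hodd (fun d => ¬ ℓ ∣ d)
    simp only [hp1, hm1, h1, hq, not_false_eq_true, if_true] at h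
    rw [← h]
    exact Nat.card_congr (Equiv.subtypeUnivEquiv hall)
  · exact fun ψ h => hG ((h.trans (BlkChar.irr_charDegree_dvd_card ψ)).trans
      (Subgroup.card_subgroup_dvd_card N))

end Cfsg.Agent.S2436
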