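import Cfsg.Statements.S2438
import Cfsg.Agent.SL2Char.OddDegrees

set_option autoImplicit false
open Cfsg

namespace Cfsg.Agent.S2438

/-- Let F be a finite field with q elements, q odd, q ≥ 5, U the upper unitriangular subgroup of SL₂ over F, and χ an irreducible complex character. The sum of the values of χ over U equals 2q, q, 0, q, 0 according as the degree of χ is q + 1, q, q − 1, (q + 1)/2, (q − 1)/2; so among these five degrees the sum vanishes exactly for the degrees q − 1 and (q − 1)/2, i.e. the irreducible characters of those two degrees are the ones whose restriction to U does not contain the trivial character (the cuspidal characters), while those of degree q + 1, q and (q + 1)/2 are not cuspidal. -/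
theorem result {F : Type*} [Field F] [Fintype F] [DecidableEq F] (hodd : Odd (Fintype.card F)) (hq : 5 ≤ Fintype.card F)
    (χ : Matrix.SpecialLinearGroup (Fin 2) F → ℂ) (hχ : Cfsg.IsIrrCharacter (Matrix.SpecialLinearGroup (Fin 2) F) χ) :
    (χ 1 = (Fintype.card F : ℂ) + 1 →
      (∑ g : Matrix.SpecialLinearGroup (Fin 2) F, if (g : Matrix (Fin 2) (Fin 2) F) 1 0 = 0 ∧ (g : Matrix (Fin 2) (Fin 2) F) 0 0 = 1 ∧ (g : Matrix (Fin 2) (Fin 2) F) 1 1 = 1 then χ g else 0) = 2 * (Fintype.card F : ℂ)) ∧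
    (χ 1 = (Fintype.card F : ℂ) →
      (∑ g : Matrix.SpecialLinearGroup (Fin 2) F, if (g : Matrix (Fin 2) (Fin 2) F) 1 0 = 0 ∧ (g : Matrix (Fin 2) (Fin 2) F) 0 0 = 1 ∧ (g : Matrix (Fin 2) (Fin 2) F) 1 1 = 1 then χ g else 0) = (Fintype.card F : ℂ)) ∧
    (χ 1 = (Fintype.card F : ℂ) - 1 →
      (∑ g : Matrix.SpecialLinearGroup (Fin 2) F, if (g : Matrix (Fin 2) (Fin 2) F) 1 0 = 0 ∧ (g : Matrix (Fin 2) (Fin 2) F) 0 0 = 1 ∧ (g : Matrix (Fin 2) (Fin 2) F) 1 1 = 1 then χ g else 0) = 0) ∧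
    (χ 1 = (((Fintype.card F + 1) / 2 : ℕ) : ℂ) →
      (∑ g : Matrix.SpecialLinearGroup (Fin 2) F, if (g : Matrix (Fin 2) (Fin 2) F) 1 0 = 0 ∧ (g : Matrix (Fin 2) (Fin 2) F) 0 0 = 1 ∧ (g : Matrix (Fin 2) (Fin 2) F) 1 1 = 1 then χ g else 0) = (Fintype.card F : ℂ)) ∧
    (χ 1 = (((Fintype.card F - 1) / 2 : ℕ) : ℂ) →
      (∑ g : Matrix.SpecialLinearGroup (Fin 2) F, if (g : Matrix (Fin 2) (Fin 2) F) 1 0 = 0 ∧ (g : Matrix (Fin 2) (Fin 2) F) 0 0 = 1 ∧ (g : Matrix (Fin 2) (Fin 2) F) 1 1 = 1 then χ g else 0) = 0) := by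
  classical
  obtain ⟨ν, hν⟩ : ∃ ν : F, ¬ IsSquare ν := FiniteField.exists_nonsquare fun e => by
    have := FiniteField.even_card_of_char_two e
    exact (Nat.not_even_iff_odd.2 hodd) (Nat.even_iff.2 this)
  obtain ⟨χ', rfl⟩ : ∃ χ' : IrrCharacter (Matrix.SpecialLinearGroup (Fin 2) F),
      (χ' : Matrix.SpecialLinearGroup (Fin 2) F → ℂ) = χ := ⟨⟨χ, hχ⟩, rfl⟩
  have hsum : (∑ g : Matrix.SpecialLinearGroup (Fin 2) F,
      if (g : Matrix (Fin 2) (Fin 2) F) 1 0 = 0 ∧ (g : Matrix (Fin 2) (Fin 2) F) 0 0 = 1 ∧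
          (g : Matrix (Fin 2) (Fin 2) F) 1 1 = 1
        then (χ' : Matrix.SpecialLinearGroup (Fin 2) F → ℂ) g else 0) =
      (Fintype.card F : ℂ) * (SL2Char.mult χ' 0 : ℂ) := by
    rw [← SL2Char.mult_spec, SL2Char.coef, mul_inv_cancel_left₀ (by simp)]
    simp only [zero_mul, neg_zero, AddChar.map_zero_eq_one, mul_one]
    refine (Fintype.sum_of_injective (CentralExt.SL2.upper (F := F)) ?_ _ _ ?_ ?_).symm
    · intro x y h
      exact Multiplicative.ofAdd.injective (CentralExt.SL2.upperHom_injective h)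
    · intro g hg
      rw [if_neg]
      rintro ⟨h10, h00, h11⟩
      refine hg ⟨(g : Matrix (Fin 2) (Fin 2) F) 0 1, ?_⟩
      apply Subtype.ext
      ext i j
      fin_cases i <;> fin_cases j <;> simp [CentralExt.SL2.upper, h10, h00, h11]
    · intro x
      rw [if_pos]
      simp [CentralExt.SL2.upper]
  obtain ⟨H, D, W, -, -, -, kH, kD, kW, hall⟩ := SL2Char.odd_classification hν
  have key : ∀ (n k : ℕ), (χ' : Matrix.SpecialLinearGroup (Fin 2) F → ℂ) 1 = (n : ℂ) →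
      ((n = Fintype.card F + 1 ∧ k = 2) ∨ (n = Fintype.card F ∧ k = 1) ∨
        (n = Fintype.card F - 1 ∧ k = 0) ∨ (n = (Fintype.card F + 1) / 2 ∧ k = 1) ∨
        (n = (Fintype.card F - 1) / 2 ∧ k = 0)) → SL2Char.mult χ' 0 = k := by
    intro n k hn hcases
    have hd := Char.charDegree_of_eq hn
    have hoddq := Nat.odd_iff.1 hodd
    rcases hall χ' with e | e | e | e | e | e
    · rw [e, SL2Char.charDegree_chiOne_odd hν] at hd; omega
    · rw [e, SL2Char.charDegree_chiSt_odd hν] at hd; rw [e, SL2Char.mult_chiSt]; omega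
    · rw [SL2Char.charDegree_psSet_odd hν e] at hd; rw [SL2Char.mult_psSet e, if_pos rfl]; omega
    · obtain ⟨-, h0, -, h⟩ := kH χ' e; omega
    · obtain ⟨-, h0, -, h⟩ := kD χ' e; omega
    · obtain ⟨-, h0, -, h⟩ := kW χ' e; omega
  have hq1 : 1 ≤ Fintype.card F := Fintype.card_pos
  rw [hsum]
  refine ⟨fun h => ?_, fun h => ?_, fun h => ?_, fun h => ?_, fun h => ?_⟩
  · rw [key (Fintype.card F + 1) 2 (by rw [h]; push_cast; rfl) (by omega)]; push_cast; ring
  · rw [key (Fintype.card F) 1 h (by omega)]; push_cast; ring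
  · rw [key (Fintype.card F - 1) 0 (by rw [h, Nat.cast_sub hq1, Nat.cast_one]) (by omega)]; simp
  · rw [key _ 1 h (by omega)]; push_cast; ring
  · rw [key _ 0 h (by omega)]; simp

end Cfsg.Agent.S2438
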