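import Cfsg.Statements.S2439
import Cfsg.Agent.SL2Char.Twist
import Cfsg.Agent.Block.Degrees
import Cfsg.Agent.Block.DefectZero
import Cfsg.Agent.Block.DefectGroup

set_option autoImplicit false
set_option linter.unusedSectionVars false
open Cfsg

namespace Cfsg.Agent.S2439

open Cfsg.Agent Cfsg.Agent.SL2Char
open Cfsg.Agent.CentralExt.SL2 (upper upperHom)
open scoped MatrixGroups

variable {F : Type*} [Field F] [Fintype F] {p : ℕ} [Fact p.Prime] [CharP F p]

local notation "G" => SL(2, F)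
local notation "q" => Fintype.card F

theorem negId_eq : negId F = (-1 : G) := by
  apply Subtype.ext
  ext i j
  fin_cases i <;> fin_cases j <;> simp [negId]

theorem negId_ne (hp : p ≠ 2) : negId F ≠ (1 : G) := by
  intro h
  have h1 := congrFun (congrFun (congrArg Subtype.val h) 0) 0
  simp [negId] at h1
  have h2 : ((2 : ℕ) : F) = 0 := by push_cast; linear_combination -h1
  have h3 := (CharP.cast_eq_zero_iff F p 2).1 h2
  exact hp ((Nat.prime_dvd_prime_iff_eq Fact.out Nat.prime_two).1 h3)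

theorem exists_nonsq (hp : p ≠ 2) : ∃ ν : F, ¬ IsSquare ν :=
  FiniteField.exists_nonsquare (by rwa [ringChar.eq F p])

theorem card_eq : Nat.card G = q * ((q - 1) * (q + 1)) := by
  rw [CentralExt.SL2.card_SL2]; ring

theorem p_dvd_q : p ∣ q := by
  obtain ⟨n, hp, hn⟩ := FiniteField.card F p
  rw [hn]
  exact dvd_pow_self p n.ne_zero

theorem not_dvd_pm (hp : p ≠ 2) : ¬ p ∣ (q - 1) * (q + 1) := by
  intro h
  have hpr : p.Prime := Fact.out
  have hq := p_dvd_q (F := F) (p := p)
  have h2 : 2 ≤ q := Fintype.one_lt_card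
  rcases hpr.dvd_mul.1 h with h1 | h1
  · have := Nat.dvd_sub hq h1
    rw [show q - (q - 1) = 1 by omega] at this
    exact hpr.not_dvd_one this
  · have := Nat.dvd_sub h1 hq
    rw [show q + 1 - q = 1 by omega] at this
    exact hpr.not_dvd_one this

/-- The degrees other than `q` are prime to the characteristic. -/
theorem deg_cases (hp : p ≠ 2) (χ : IrrCharacter G) :
    χ = chiSt F ∨ (¬ p ∣ charDegree (χ : G → ℂ) ∧ charDegree (χ : G → ℂ) ≠ q) := by
  obtain ⟨ν, hν⟩ := exists_nonsq (F := F) hp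
  obtain ⟨H, D, W, -, -, -, hH, hD, hW, hall⟩ := odd_classification hν
  have hpr : p.Prime := Fact.out
  have hq := p_dvd_q (F := F) (p := p)
  have h2 : 2 ≤ q := Fintype.one_lt_card
  have key : ∀ d : ℕ, (d = 1 ∨ d = q + 1 ∨ 2 * d = q + 1 ∨ 2 * d = q - 1 ∨ d = q - 1) →
      ¬ p ∣ d ∧ d ≠ q := by
    intro d hd
    refine ⟨fun h => ?_, by omega⟩
    have hpm := not_dvd_pm (F := F) hp
    rcases hd with e | e | e | e | e
    · exact hpr.not_dvd_one (e ▸ h)
    · exact hpm ((e ▸ h).mul_left _)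
    · exact hpm ((e ▸ h.mul_left 2).mul_left _)
    · exact hpm ((e ▸ h.mul_left 2).mul_right _)
    · exact hpm ((e ▸ h).mul_right _)
  rcases hall χ with e | e | e | e | e | e
  · exact Or.inr (key _ (by rw [e, charDegree_chiOne_odd hν]; simp))
  · exact Or.inl e
  · exact Or.inr (key _ (by rw [charDegree_psSet_odd hν e]; simp))
  · exact Or.inr (key _ (Or.inr (Or.inr (Or.inl (hH χ e).2.2.2))))
  · exact Or.inr (key _ (Or.inr (Or.inr (Or.inr (Or.inl (hD χ e).2.2.2)))))
  · exact Or.inr (key _ (Or.inr (Or.inr (Or.inr (Or.inr (hW χ e).2.2.2)))))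

theorem val_one_eq_card_iff (hp : p ≠ 2) (χ : IrrCharacter G) :
    (χ : G → ℂ) 1 = (q : ℂ) ↔ χ = chiSt F := by
  haveI := Fintype.ofFinite G
  have h1 := (Block.irr_one_eq_charDegree χ.2).1
  rw [h1, Nat.cast_inj]
  obtain ⟨ν, hν⟩ := exists_nonsq (F := F) hp
  refine ⟨fun h => (deg_cases hp χ).resolve_right fun h' => h'.2 h, fun h => ?_⟩
  rw [h, charDegree_chiSt_odd hν]

theorem val_negId (χ : IrrCharacter G) :
    (χ : G → ℂ) (negId F) = (sign χ : ℂ) * (χ : G → ℂ) 1 := by
  simpa using sign_spec χ 1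

theorem val_negOne_pos (χ : IrrCharacter G) :
    (χ : G → ℂ) (-1) = (χ : G → ℂ) 1 ↔ sign χ = 1 := by
  rw [← negId_eq, val_negId]
  refine ⟨fun h => ?_, fun h => by rw [h]; simp⟩
  exact_mod_cast (mul_eq_right₀ (Char.irr_one_ne_zero χ.2)).1 h

theorem val_negOne_neg (χ : IrrCharacter G) :
    (χ : G → ℂ) (-1) = -(χ : G → ℂ) 1 ↔ sign χ = -1 := by
  rw [← negId_eq, val_negId]
  refine ⟨fun h => ?_, fun h => by rw [h]; simp⟩
  rw [show -(χ : G → ℂ) 1 = (-1 : ℂ) * (χ : G → ℂ) 1 by ring] at h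
  exact_mod_cast mul_right_cancel₀ (Char.irr_one_ne_zero χ.2) h

theorem exists_sign_neg (hp : p ≠ 2) : ∃ χ : IrrCharacter G, sign χ = -1 := by
  obtain ⟨χ, hχ⟩ := Char.exists_irr_ne_degree (negId_ne (F := F) hp)
  refine ⟨χ, (sign_cases χ).resolve_left fun h => hχ ?_⟩
  rw [val_negId, h]; simp

/-- An element with centraliser of index prime to `p` is conjugate into `± U`. -/
theorem class_cases (hp : p ≠ 2) (g : G) :
    p ∣ (Subgroup.centralizer ({g} : Set G)).index ∨
      ∃ (c : G) (x : F), c * g * c⁻¹ = upper x ∨ c * g * c⁻¹ = negId F * upper x := by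
  classical
  refine or_iff_not_imp_left.2 fun hi => ?_
  have hU : IsPGroup p (upperHom (F := F)).range := by
    obtain ⟨n, -, hn⟩ := FiniteField.card F p
    exact IsPGroup.of_card (n := n) (by rw [CentralExt.SL2.card_range_upperHom, hn])
  let S : Sylow p G := hU.toSylow (by
    rw [CentralExt.SL2.index_range_upperHom]; exact not_dvd_pm hp)
  obtain ⟨P, hP⟩ : ∃ P : Sylow p G, (P : Subgroup G) ≤ Subgroup.centralizer ({g} : Set G) := by
    obtain ⟨D, hD⟩ := Block.exists_isClassDefectGroup (p := p) g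
    obtain ⟨P, hP⟩ := hD.isPGroup.exists_le_sylow
    have hc : Nat.card D = Nat.card P := by
      rw [hD.card_eq, P.card_eq_multiplicity]
      congr 1
      conv_rhs => rw [← Subgroup.card_mul_index (Subgroup.centralizer ({g} : Set G))]
      rw [Nat.factorization_mul Nat.card_pos.ne' Subgroup.index_ne_zero_of_finite, Finsupp.add_apply,
        Nat.factorization_eq_zero_of_not_dvd hi, add_zero]
    exact ⟨P, (Subgroup.eq_of_le_of_card_ge hP hc.ge) ▸ hD.le_centralizer⟩
  obtain ⟨c, hc⟩ := MulAction.exists_smul_eq G P S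
  refine ⟨c, ?_⟩
  have h1 : upper (1 : F) ∈ (c • P : Sylow p G).toSubgroup := by
    rw [hc]; exact ⟨Multiplicative.ofAdd 1, rfl⟩
  rw [Sylow.coe_subgroup_smul, Subgroup.mem_pointwise_smul_iff_inv_smul_mem] at h1
  have h2 := Block.mem_centralizer_singleton.1 (hP h1)
  rw [MulAut.smul_def, ← map_inv, MulAut.conj_apply, inv_inv] at h2
  have h3 : c * g * c⁻¹ * upper 1 = upper 1 * (c * g * c⁻¹) := by
    calc c * g * c⁻¹ * upper 1 = c * (g * (c⁻¹ * upper 1 * c)) * c⁻¹ := by group
      _ = c * (c⁻¹ * upper 1 * c * g) * c⁻¹ := by rw [h2]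
      _ = upper 1 * (c * g * c⁻¹) := by group
  generalize c * g * c⁻¹ = h at h3
  have he : ∀ i j, (h * upper 1).1 i j = (upper 1 * h).1 i j := fun i j => by rw [h3]
  have e00 := he 0 0
  have e01 := he 0 1
  rw [Matrix.SpecialLinearGroup.coe_mul, Matrix.SpecialLinearGroup.coe_mul] at e00 e01
  simp [upper, Matrix.mul_apply, Fin.sum_univ_two] at e00 e01
  have hdet := h.2
  rw [Matrix.det_fin_two] at hdet
  rw [e00] at hdet
  have e11 : h.1 1 1 = h.1 0 0 := by linear_combination -e01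
  rw [e11, mul_zero, sub_zero] at hdet
  rcases sq_eq_one_iff.1 (show h.1 0 0 ^ 2 = 1 by rw [sq]; exact hdet) with ha | ha
  · refine ⟨h.1 0 1, Or.inl ?_⟩
    apply Subtype.ext
    ext i j
    fin_cases i <;> fin_cases j <;> simp [upper, ha, e00, e11]
  · refine ⟨-h.1 0 1, Or.inr ?_⟩
    apply Subtype.ext
    rw [Matrix.SpecialLinearGroup.coe_mul]
    ext i j
    fin_cases i <;> fin_cases j <;>
      simp [upper, negId, Matrix.mul_apply, Fin.sum_univ_two, ha, e00, e11]

theorem orderOf_upper (x : F) : ∃ k, orderOf (upper x : G) = p ^ k := by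
  have h : (upper x : G) ^ p = 1 := by
    have e : upper x = upperHom (Multiplicative.ofAdd x) := rfl
    rw [e, ← map_pow, ← ofAdd_nsmul, nsmul_eq_mul, CharP.cast_eq_zero, zero_mul, ofAdd_zero,
      map_one]
  obtain ⟨k, -, hk⟩ := (Nat.dvd_prime_pow (Fact.out : p.Prime)).1
    (show orderOf (upper x : G) ∣ p ^ 1 by rw [pow_one]; exact orderOf_dvd_of_pow_eq_one h)
  exact ⟨k, hk⟩

variable {M : Ideal AlgInt}

theorem upper_congr (hM : IsPModular p M) (χ : IrrCharacter G) (x : F) :
    MemLocalIdeal M ((χ : G → ℂ) (upper x) - (χ : G → ℂ) 1) := by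
  haveI := Block.isPrime_of_isPModular hM
  haveI := Fintype.ofFinite G
  obtain ⟨k, hk⟩ := orderOf_upper (p := p) x
  have h := Block.redC_char_mul_eq hM (Char.isCharacter_of_irr χ.2)
    (x := upper x) (y := 1) (Commute.one_right _) hk
    (by rw [orderOf_one]; exact (Fact.out : p.Prime).not_dvd_one)
  rw [mul_one] at h
  exact (Block.redC_eq_iff (Block.char_memLocalRing χ.2 _) (Block.char_memLocalRing χ.2 _)).1 h

/-- Two characters of degree prime to `p` with the same sign are in the same block. -/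
theorem sameBlock_of_sign (hp : p ≠ 2) (hM : IsPModular p M) {χ ψ : IrrCharacter G}
    (hχ : ¬ p ∣ charDegree (χ : G → ℂ)) (hψ : ¬ p ∣ charDegree (ψ : G → ℂ))
    (hs : sign χ = sign ψ) : SameBlock M (χ : G → ℂ) (ψ : G → ℂ) := by
  haveI := Block.isPrime_of_isPModular hM
  haveI := Fintype.ofFinite G
  have hinv : ∀ θ : IrrCharacter G, ¬ p ∣ charDegree (θ : G → ℂ) →
      MemLocalRing M ((θ : G → ℂ) 1)⁻¹ := fun θ hθ => by
    rw [(Block.irr_one_eq_charDegree θ.2).1]; exact Block.memLocalRing_natCast_inv hM hθ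
  intro g
  rcases class_cases hp g with hi | ⟨c, x, hx⟩
  · have : ∀ θ : IrrCharacter G, ¬ p ∣ charDegree (θ : G → ℂ) →
        MemLocalIdeal M (centralChar (θ : G → ℂ) g) := fun θ hθ => by
      rw [centralChar, div_eq_mul_inv]
      exact Block.memLocalIdeal_mul_right (Block.memLocalIdeal_mul_right
        ((Block.memLocalIdeal_natCast_iff hM _).2 hi) (Block.char_memLocalRing θ.2 _)) (hinv θ hθ)
    exact Block.memLocalIdeal_sub (this χ hχ) (this ψ hψ)
  · have key : ∀ θ : IrrCharacter G, ¬ p ∣ charDegree (θ : G → ℂ) → ∀ s : ℂ,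
        MemLocalRing M s →
        (θ : G → ℂ) (c * g * c⁻¹) = s * (θ : G → ℂ) (upper x) →
        MemLocalIdeal M (centralChar (θ : G → ℂ) g -
          ((Subgroup.centralizer ({g} : Set G)).index : ℂ) * s) := fun θ hθ s hs' hv => by
      rw [Char.irr_isClassFunction θ.2 g c] at hv
      have h1 := Block.memLocalIdeal_mul_left
        ((Block.localRing M).mul_mem (Block.memLocalRing_natCast (M := M)
          (Subgroup.centralizer ({g} : Set G)).index) hs')
        (Block.memLocalIdeal_mul_right (upper_congr hM θ x) (hinv θ hθ))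
      convert h1 using 1
      rw [centralChar, hv]
      field_simp [Char.irr_one_ne_zero θ.2]
    rcases hx with hx | hx
    · have a := key χ hχ 1 (Block.localRing M).one_mem (by rw [hx, one_mul])
      have b := key ψ hψ 1 (Block.localRing M).one_mem (by rw [hx, one_mul])
      simpa using Block.memLocalIdeal_sub a b
    · have a := key χ hχ (sign χ) (intCast_mem (Block.localRing M) _) (by rw [hx, sign_spec])
      have b := key ψ hψ (sign χ) (intCast_mem (Block.localRing M) _) (by rw [hx, sign_spec, hs])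
      simpa using Block.memLocalIdeal_sub a b

theorem sign_eq_of_sameBlock (hp : p ≠ 2) (hM : IsPModular p M) {χ ψ : IrrCharacter G}
    (h : SameBlock M (χ : G → ℂ) (ψ : G → ℂ)) : sign χ = sign ψ := by
  haveI := Block.isPrime_of_isPModular hM
  have hc : Subgroup.centralizer ({negId F} : Set G) = ⊤ := by
    rw [eq_top_iff]
    intro y _
    exact Block.mem_centralizer_singleton.2 (Subgroup.mem_center_iff.1 negId_center y).symm
  have hv : ∀ θ : IrrCharacter G, centralChar (θ : G → ℂ) (negId F) = (sign θ : ℂ) := fun θ => by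
    rw [centralChar, hc, Subgroup.index_top, val_negId]
    field_simp [Char.irr_one_ne_zero θ.2]
    simp
  have hd := h (negId F)
  rw [hv, hv, ← Int.cast_sub, Block.memLocalIdeal_intCast_iff hM] at hd
  have hpr : p.Prime := Fact.out
  have h3 : 3 ≤ p := by have := hpr.two_le; omega
  rcases sign_cases χ with a | a <;> rcases sign_cases ψ with b | b <;>
    rw [a, b] at hd ⊢
  · have h2 : (p : ℤ) ∣ 2 := by simpa using hd
    have := Int.le_of_dvd (by norm_num) h2
    omega
  · have h2 : (p : ℤ) ∣ 2 := by simpa using hd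
    have := Int.le_of_dvd (by norm_num) h2
    omega

theorem blockOf_st (hp : p ≠ 2) (hM : IsPModular p M) :
    blockOf M ((chiSt F : IrrCharacter G) : G → ℂ) = {chiSt F} := by
  haveI := Block.isPrime_of_isPModular hM
  haveI := Fintype.ofFinite G
  obtain ⟨ν, hν⟩ := exists_nonsq (F := F) hp
  rw [← Block.defect_zero_iff_blockOf_eq_singleton hM, charDegree_chiSt_odd hν, card_eq,
    Nat.mul_div_cancel_left _ Fintype.card_pos]
  exact not_dvd_pm hp

theorem blockOf_eq (hp : p ≠ 2) (hM : IsPModular p M) {χ : IrrCharacter G} (hχ : χ ≠ chiSt F) :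
    blockOf M (χ : G → ℂ) = {ψ : IrrCharacter G | sign ψ = sign χ ∧ ψ ≠ chiSt F} := by
  haveI := Block.isPrime_of_isPModular hM
  haveI := Fintype.ofFinite G
  ext ψ
  rw [Set.mem_setOf_eq]
  constructor
  · intro h
    refine ⟨(sign_eq_of_sameBlock hp hM (Block.mem_blockOf_iff.1 h)).symm, fun e => hχ ?_⟩
    have h1 : χ ∈ blockOf M ((chiSt F : IrrCharacter G) : G → ℂ) := by
      rw [← e, Block.pBlock_eq_of_mem (Block.isPBlock_blockOf ψ) (Block.isPBlock_blockOf χ)
        (Block.mem_blockOf_self ψ) h]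
      exact Block.mem_blockOf_self χ
    rwa [blockOf_st hp hM] at h1
  · rintro ⟨hs, hne⟩
    exact Block.mem_blockOf_iff.2 (sameBlock_of_sign hp hM ((deg_cases hp χ).resolve_left hχ).1
      ((deg_cases hp ψ).resolve_left hne).1 hs.symm)

theorem sylow_defect (hp : p ≠ 2) (hM : IsPModular p M) {χ : IrrCharacter G} (hχ : χ ≠ chiSt F)
    {B : Set (IrrCharacter G)} (hB : IsPBlock M B) (hm : χ ∈ B) (P : Sylow p G) :
    IsDefectGroup p M B (P : Subgroup G) := by
  haveI := Block.isPrime_of_isPModular hM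
  haveI := Fintype.ofFinite G
  obtain ⟨D, hD⟩ := Block.exists_isDefectGroup (p := p) hB
  have hd : blockDefect p B = (Nat.card G).factorization p := by
    have h0 : sInf ((fun ψ : IrrCharacter G => (charDegree (ψ : G → ℂ)).factorization p) '' B) = 0 :=
      Nat.eq_zero_of_le_zero (le_trans (Nat.sInf_le (Set.mem_image_of_mem _ hm))
        (Nat.factorization_eq_zero_of_not_dvd ((deg_cases hp χ).resolve_left hχ).1).le)
    rw [blockDefect, h0, Nat.sub_zero]
  obtain ⟨Q, hQ⟩ := (Block.isDefectGroup_isPGroup hD).exists_le_sylow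
  have hc := Block.card_isDefectGroup hM hB hD
  rw [hd, ← Q.card_eq_multiplicity] at hc
  have hDQ : D = Q := Subgroup.eq_of_le_of_card_ge hQ hc.ge
  obtain ⟨c, hc'⟩ := MulAction.exists_smul_eq G Q P
  have h1 := Block.isDefectGroup_conj hD c
  rw [hDQ] at h1
  rw [← hc']
  exact h1

/-- Let F be a finite field with q elements of odd characteristic p, and M a maximal ideal of the algebraic integers containing p. Then SL₂ over F has exactly three p-blocks relative to M: the irreducible character of degree q (the Steinberg character) alone; the other irreducible characters taking the same value at −1 as at 1 (the principal block); and the irreducible characters χ with χ(−1) = −χ(1). Every Sylow p-subgroup is a defect group of each of the last two blocks. -/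
theorem result {F : Type*} [Field F] [Fintype F] (p : ℕ) [Fact p.Prime] [CharP F p] (hp : p ≠ 2)
    (M : Ideal Cfsg.AlgInt) (hM : Cfsg.IsPModular p M) :
    (∀ B : Set (Cfsg.IrrCharacter (Matrix.SpecialLinearGroup (Fin 2) F)), Cfsg.IsPBlock M B ↔
      (B = {χ : Cfsg.IrrCharacter (Matrix.SpecialLinearGroup (Fin 2) F) | (χ : Matrix.SpecialLinearGroup (Fin 2) F → ℂ) 1 = (Fintype.card F : ℂ)} ∨
       B = {χ : Cfsg.IrrCharacter (Matrix.SpecialLinearGroup (Fin 2) F) | (χ : Matrix.SpecialLinearGroup (Fin 2) F → ℂ) (-1) = (χ : Matrix.SpecialLinearGroup (Fin 2) F → ℂ) 1 ∧ (χ : Matrix.SpecialLinearGroup (Fin 2) F → ℂ) 1 ≠ (Fintype.card F : ℂ)} ∨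
       B = {χ : Cfsg.IrrCharacter (Matrix.SpecialLinearGroup (Fin 2) F) | (χ : Matrix.SpecialLinearGroup (Fin 2) F → ℂ) (-1) = -(χ : Matrix.SpecialLinearGroup (Fin 2) F → ℂ) 1})) ∧
    Nat.card {B : Set (Cfsg.IrrCharacter (Matrix.SpecialLinearGroup (Fin 2) F)) // Cfsg.IsPBlock M B} = 3 ∧
    ∀ P : Sylow p (Matrix.SpecialLinearGroup (Fin 2) F),
      Cfsg.IsDefectGroup p M {χ : Cfsg.IrrCharacter (Matrix.SpecialLinearGroup (Fin 2) F) | (χ : Matrix.SpecialLinearGroup (Fin 2) F → ℂ) (-1) = (χ : Matrix.SpecialLinearGroup (Fin 2) F → ℂ) 1 ∧ (χ : Matrix.SpecialLinearGroup (Fin 2) F → ℂ) 1 ≠ (Fintype.card F : ℂ)} (P : Subgroup (Matrix.SpecialLinearGroup (Fin 2) F)) ∧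
      Cfsg.IsDefectGroup p M {χ : Cfsg.IrrCharacter (Matrix.SpecialLinearGroup (Fin 2) F) | (χ : Matrix.SpecialLinearGroup (Fin 2) F → ℂ) (-1) = -(χ : Matrix.SpecialLinearGroup (Fin 2) F → ℂ) 1} (P : Subgroup (Matrix.SpecialLinearGroup (Fin 2) F)) := by
  classical
  haveI := Block.isPrime_of_isPModular hM
  obtain ⟨ν, hν⟩ := exists_nonsq (F := F) hp
  obtain ⟨η, hη⟩ := exists_sign_neg (F := F) (p := p) hp
  have hone : chiOne F ≠ chiSt F := chiOne_ne_chiSt
  have hηst : η ≠ chiSt F := fun e => by rw [e, sign_chiSt] at hη; norm_num at hη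
  have eA : {χ : IrrCharacter SL(2, F) | (χ : SL(2, F) → ℂ) 1 = (Fintype.card F : ℂ)} = {chiSt F} := by
    ext χ; exact val_one_eq_card_iff hp χ
  have eB : {χ : IrrCharacter SL(2, F) | (χ : SL(2, F) → ℂ) (-1) = (χ : SL(2, F) → ℂ) 1 ∧ (χ : SL(2, F) → ℂ) 1 ≠ (Fintype.card F : ℂ)} =
      blockOf M ((chiOne F : IrrCharacter SL(2, F)) : SL(2, F) → ℂ) := by
    rw [blockOf_eq hp hM hone, sign_chiOne]
    ext χ; simp [val_negOne_pos, val_one_eq_card_iff hp]
  have eC : {χ : IrrCharacter SL(2, F) | (χ : SL(2, F) → ℂ) (-1) = -(χ : SL(2, F) → ℂ) 1} =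
      blockOf M (η : SL(2, F) → ℂ) := by
    rw [blockOf_eq hp hM hηst, hη]
    ext χ
    simp only [Set.mem_setOf_eq, val_negOne_neg]
    exact ⟨fun h => ⟨h, fun e => by rw [e, sign_chiSt] at h; norm_num at h⟩, And.left⟩
  rw [eA, eB, eC]
  have hst := blockOf_st (F := F) hp hM
  have hiff : ∀ B : Set (IrrCharacter SL(2, F)), IsPBlock M B ↔
      (B = {chiSt F} ∨ B = blockOf M ((chiOne F : IrrCharacter SL(2, F)) : SL(2, F) → ℂ) ∨
        B = blockOf M (η : SL(2, F) → ℂ)) := by
    intro B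
    constructor
    · rintro ⟨χ, rfl⟩
      by_cases hχ : χ = chiSt F
      · exact Or.inl (by rw [hχ, hst])
      · rcases sign_cases χ with h | h
        · refine Or.inr (Or.inl ?_)
          rw [blockOf_eq hp hM hχ, blockOf_eq hp hM hone, h, sign_chiOne]
        · refine Or.inr (Or.inr ?_)
          rw [blockOf_eq hp hM hχ, blockOf_eq hp hM hηst, h, hη]
    · rintro (rfl | rfl | rfl)
      · exact ⟨chiSt F, hst.symm⟩
      · exact ⟨_, rfl⟩
      · exact ⟨_, rfl⟩
  refine ⟨hiff, ?_, fun P => ⟨?_, ?_⟩⟩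
  · have hset : {B : Set (IrrCharacter SL(2, F)) | IsPBlock M B} =
        {{chiSt F}, blockOf M ((chiOne F : IrrCharacter SL(2, F)) : SL(2, F) → ℂ), blockOf M (η : SL(2, F) → ℂ)} := by
      ext B; simp [hiff]
    have h1 : ({chiSt F} : Set (IrrCharacter SL(2, F))) ≠
        blockOf M ((chiOne F : IrrCharacter SL(2, F)) : SL(2, F) → ℂ) := fun e =>
      hone (Set.mem_singleton_iff.1 (e ▸ Block.mem_blockOf_self (chiOne F)))
    have h2 : ({chiSt F} : Set (IrrCharacter SL(2, F))) ≠ blockOf M (η : SL(2, F) → ℂ) := fun e =>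
      hηst (Set.mem_singleton_iff.1 (e ▸ Block.mem_blockOf_self η))
    have h3 : blockOf M ((chiOne F : IrrCharacter SL(2, F)) : SL(2, F) → ℂ) ≠ blockOf M (η : SL(2, F) → ℂ) :=
      fun e => by
        have := Block.mem_blockOf_self (M := M) η
        rw [← e, blockOf_eq hp hM hone] at this
        have := this.1
        rw [hη, sign_chiOne] at this
        norm_num at this
    rw [← Set.coe_setOf, Nat.card_coe_set_eq, hset]
    exact Set.ncard_eq_three.2 ⟨_, _, _, h1, h2, h3, rfl⟩
  · exact sylow_defect hp hM hone ⟨_, rfl⟩ (Block.mem_blockOf_self _) P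
  · exact sylow_defect hp hM hηst ⟨_, rfl⟩ (Block.mem_blockOf_self _) P

end Cfsg.Agent.S2439
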