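import Cfsg.Statements.S2441
import Cfsg.Agent.ChevBlocks.Main
import Cfsg.Agent.ChevBlocks.Certs
import Cfsg.Agent.Chev.Rules
import Cfsg.Agent.ChevBlocks.St

set_option autoImplicit false
open Cfsg

namespace Cfsg.Agent.S2441

/-- For a prime p, the Chevalley groups of types G₂, F₄ and E₈ over the field with p elements (types for which the simply connected and adjoint groups coincide, so the group has trivial centre) each have exactly two p-blocks relative to any maximal ideal of the algebraic integers containing p (only the count is asserted; it arises as the defect-zero block of the Steinberg character plus a single block of maximal defect). -/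
theorem result (p : ℕ) [Fact p.Prime] (M : Ideal Cfsg.AlgInt) (hM : Cfsg.IsPModular p M) :
    Nat.card {B : Set (Cfsg.IrrCharacter (Cfsg.Lie.chevG2.group (ZMod p))) // Cfsg.IsPBlock M B} = 2 ∧
    Nat.card {B : Set (Cfsg.IrrCharacter (Cfsg.Lie.chevF4.group (ZMod p))) // Cfsg.IsPBlock M B} = 2 ∧
    Nat.card {B : Set (Cfsg.IrrCharacter (Cfsg.Lie.chevE8.group (ZMod p))) // Cfsg.IsPBlock M B} = 2 := by
  have key : ∀ D ∈ [Cfsg.Lie.chevG2, Cfsg.Lie.chevB2, Cfsg.Lie.chevD4, Cfsg.Lie.chevF4, Cfsg.Lie.chevE6,
      Cfsg.Lie.chevE7, Cfsg.Lie.chevE8], ChevBlocks.Cert D →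
      Nat.card {B : Set (Cfsg.IrrCharacter (D.group (ZMod p))) // Cfsg.IsPBlock M B} = 2 := by
    intro D hD hC
    have hS := Agent.Chev.rules_of_mem (ZMod p) hD
    obtain ⟨len, hR⟩ := hS.root
    have hst : Cfsg.IsIrrCharacter ↥(D.group (ZMod p)) (D.steinbergCharacter (ZMod p)) := ChevBlocks.steinberg_irr hS hR
    exact ChevBlocks.card_blocks hS hR hC p ⟨_, hst⟩
      (ChevBlocks.defectZero_of_degree hS p hst (ChevBlocks.steinberg_one hS hR)) hM
  exact ⟨key _ (by simp) ChevBlocks.cert_G2, key _ (by simp) ChevBlocks.cert_F4,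
    key _ (by simp) ChevBlocks.cert_E8⟩

end Cfsg.Agent.S2441
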