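import Cfsg.Statements.S2442
import Cfsg.Agent.Cuspidal.Family

set_option autoImplicit false
open scoped MatrixGroups
open Cfsg

namespace Cfsg.Agent.S2442

open Cfsg.Agent.Cuspidal

/-- A cyclic group of units maps injectively to the complex numbers. -/
theorem exists_theta (K : Type*) [Field K] [Finite K] :
    ∃ θ : K →* ℂ, Function.Injective θ := by
  classical
  letI := Fintype.ofFinite K
  haveI : NeZero (Nat.card Kˣ) := ⟨Nat.card_pos.ne'⟩
  haveI : IsCyclic Kˣ := inferInstance
  let e : Kˣ ≃* rootsOfUnity (Nat.card Kˣ) ℂ :=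
    mulEquivOfCyclicCardEq (Complex.card_rootsOfUnity _).symm
  let θ : K →* ℂ :=
    { toFun := fun x => if h : x = 0 then 0 else (((e (Units.mk0 x h) : ℂˣ)) : ℂ)
      map_one' := by
        rw [dif_neg one_ne_zero, show Units.mk0 (1 : K) one_ne_zero = 1 from Units.ext rfl,
          map_one]
        rfl
      map_mul' := fun x y => by
        rcases eq_or_ne x 0 with rfl | hx
        · rw [dif_pos (zero_mul y), dif_pos rfl, zero_mul]
        rcases eq_or_ne y 0 with rfl | hy
        · rw [dif_pos (mul_zero x), dif_pos rfl, mul_zero]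
        rw [dif_neg (mul_ne_zero hx hy), dif_neg hx, dif_neg hy, ← Units.val_mul,
          ← Subgroup.coe_mul, ← map_mul]
        congr 3
        exact Units.ext rfl }
  refine ⟨θ, fun x y h => ?_⟩
  have h' : (if hx : x = 0 then (0 : ℂ) else (((e (Units.mk0 x hx) : ℂˣ)) : ℂ)) =
      (if hy : y = 0 then (0 : ℂ) else (((e (Units.mk0 y hy) : ℂˣ)) : ℂ)) := h
  rcases eq_or_ne x 0 with rfl | hx
  · rcases eq_or_ne y 0 with rfl | hy
    · rfl
    · rw [dif_pos rfl, dif_neg hy] at h'
      exact absurd h'.symm (Units.ne_zero _)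
  · rcases eq_or_ne y 0 with rfl | hy
    · rw [dif_neg hx, dif_pos rfl] at h'
      exact absurd h' (Units.ne_zero _)
    · rw [dif_neg hx, dif_neg hy] at h'
      exact congrArg Units.val (e.injective (Subtype.ext (Units.ext h')))

open Classical in
/-- Let F be a finite field with q elements and n ≥ 2. Call a complex character χ of GL_n over F cuspidal when, for every 0 < m < n, the sum of χ over the subgroup of matrices that agree with the identity outside the upper right m × (n − m) block vanishes (the restriction of χ to the unipotent radical of each maximal standard parabolic subgroup contains no principal constituent). Then GL_n has at least φ(qⁿ − 1)/n distinct cuspidal irreducible characters of degree (q − 1)(q² − 1)⋯(q^(n−1) − 1), φ being Euler's function (in particular at least one). -/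
theorem result {F : Type*} [Field F] [Fintype F] [DecidableEq F] (n : ℕ) (hn : 2 ≤ n) :
    Nat.totient (Fintype.card F ^ n - 1) / n ≤
      Nat.card {χ : Cfsg.IrrCharacter (GL (Fin n) F) //
        (χ : GL (Fin n) F → ℂ) 1 = ∏ i ∈ Finset.Ico 1 n, ((Fintype.card F : ℂ) ^ i - 1) ∧
        ∀ m : ℕ, 0 < m → m < n →
          (∑ g : GL (Fin n) F,
            if (∀ i j : Fin n, ¬ (i.val < m ∧ m ≤ j.val) → (g : Matrix (Fin n) (Fin n) F) i j = (1 : Matrix (Fin n) (Fin n) F) i j)
            then (χ : GL (Fin n) F → ℂ) g else 0) = 0} := by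
  classical
  set q := Fintype.card F with hq
  have hqc : Nat.card F = q := Nat.card_eq_fintype_card
  have hq1 : 1 < q := Fintype.one_lt_card
  set M := q ^ n - 1 with hM
  have hn0 : n ≠ 0 := by omega
  have hMpos : 0 < M := by have := Nat.one_lt_pow hn0 hq1; omega
  haveI : NeZero M := ⟨hMpos.ne'⟩
  set P := ∏ i ∈ Finset.range n, (q ^ (i + 1) - 1) with hP
  have hPpos : 0 < P := Finset.prod_pos fun i _ => by
    have := Nat.one_lt_pow (show i + 1 ≠ 0 by omega) hq1; omega
  obtain ⟨p, hp⟩ := CharP.exists F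
  haveI : Fact p.Prime := ⟨CharP.char_is_prime F p⟩
  set D := n * Nat.totient P with hD
  haveI : NeZero D := ⟨(Nat.mul_pos (by omega) (Nat.totient_pos.2 hPpos)).ne'⟩
  let K := FiniteField.Extension F p D
  letI : Fintype K := Fintype.ofFinite K
  have hKcard : Nat.card K = q ^ D := by rw [FiniteField.natCard_extension, hqc]
  have hnK : n ∣ Module.finrank F K := by
    rw [FiniteField.finrank_extension]; exact dvd_mul_right n _
  obtain ⟨e, hpr, he⟩ := FiniteField.card F p
  have hKp : Nat.card K = p ^ ((e : ℕ) * D) := by rw [hKcard, hq, he, ← pow_mul]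
  have hcop : Nat.Coprime q P := Nat.Coprime.prod_right fun i _ => by
    refine Nat.coprime_of_dvd fun r hr h1 h2 => hr.one_lt.ne' ?_
    have h3 : r ∣ q ^ (i + 1) := h1.trans (dvd_pow_self q (by omega))
    have h4 := Nat.dvd_sub h3 h2
    rw [Nat.sub_sub_self (Nat.one_le_pow _ _ (by omega))] at h4
    exact Nat.dvd_one.1 h4
  set L := Nat.card K - 1 with hL
  have hML : M ∣ L := by
    rw [hL, hKcard, hM, hD, pow_mul]
    exact (Nat.sub_one_dvd_pow_sub_one _ _)
  have hPL : ∏ i ∈ Finset.range n, (Nat.card F ^ (i + 1) - 1) ∣ Nat.card K - 1 := by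
    rw [hqc, hKcard, ← hP]
    refine (Nat.modEq_iff_dvd' (Nat.one_le_pow _ _ (by omega))).1 ?_
    rw [hD, mul_comm n, pow_mul]
    simpa using ((Nat.ModEq.pow_totient hcop).pow n).symm
  have hLpos : 0 < L := by have := Finite.one_lt_card (α := K); omega
  haveI : NeZero L := ⟨hLpos.ne'⟩
  -- a primitive root
  obtain ⟨u, hu⟩ := IsCyclic.exists_generator (α := Kˣ)
  have hu' : IsPrimitiveRoot (u : K) L := by
    rw [IsPrimitiveRoot.iff_orderOf, orderOf_units, orderOf_eq_card_of_forall_mem_zpowers hu,
      Nat.card_units]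
  obtain ⟨c, hc⟩ := hML
  set ξ : K := (u : K) ^ c with hξdef
  have hξ : IsPrimitiveRoot ξ (Nat.card F ^ n - 1) := by
    rw [hqc, ← hM]; exact hu'.pow hLpos (by rw [hc, mul_comm])
  have hML : M ∣ L := Dvd.intro c hc.symm
  obtain ⟨θ, hθ⟩ := exists_theta K
  have hθj : ∀ j : (ZMod L)ˣ, Function.Injective ((powMonoidHom (j : ZMod L).val).comp θ) := by
    intro j x y hxy
    have hco : Nat.Coprime (j : ZMod L).val L := ZMod.val_coe_unit_coprime j
    have h1 : x ^ (j : ZMod L).val = y ^ (j : ZMod L).val := hθ (by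
      rw [map_pow, map_pow]; exact hxy)
    have hj0 : (j : ZMod L).val ≠ 0 := by
      intro h0
      rw [h0, Nat.coprime_zero_left] at hco
      have h3 := Nat.le_of_dvd hLpos hML
      have : q ^ 2 ≤ q ^ n := Nat.pow_le_pow_right (by omega) hn
      have : 2 * 2 ≤ q ^ 2 := by rw [pow_two]; exact Nat.mul_le_mul hq1 hq1
      omega
    rcases eq_or_ne y 0 with rfl | hy
    · rw [zero_pow hj0, pow_eq_zero_iff hj0] at h1
      exact h1
    have hx : x ≠ 0 := by
      rintro rfl
      rw [zero_pow hj0] at h1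
      exact hy ((pow_eq_zero_iff hj0).1 h1.symm)
    have h2 : (x / y) ^ (j : ZMod L).val = 1 := by
      rw [div_pow, h1, div_self (pow_ne_zero _ hy)]
    have h3 : (x / y) ^ L = 1 := by
      rw [hL, Nat.card_eq_fintype_card]
      exact FiniteField.pow_card_sub_one_eq_one _ (div_ne_zero hx hy)
    have h4 := pow_gcd_eq_one.2 ⟨h2, h3⟩
    rw [hco.gcd_eq_one, pow_one, div_eq_one_iff_eq hy] at h4
    exact h4
  -- the group and the candidates
  set φ : GL (Fin n) F ≃* Aut F (Fin n → F) :=
    Units.mapEquiv (Matrix.toLinAlgEquiv' (R := F) (n := Fin n)).toMulEquiv with hφ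
  letI : Fintype (Aut F (Fin n → F)) := Fintype.ofEquiv _ φ.toEquiv
  have hV : Module.finrank F (Fin n → F) = n := Module.finrank_fin_fun F
  let χ : (ZMod L)ˣ → GL (Fin n) F → ℂ := fun j g => (-1 : ℂ) ^ (n - 1) *
    ev (liftW ((powMonoidHom (j : ZMod L).val).comp θ)) ((φ g : Aut F (Fin n → F)) : Module.End F (Fin n → F))
  have hdeg : ∀ j, χ j 1 = ∏ i ∈ Finset.Ico 1 n, ((q : ℂ) ^ i - 1) := by
    intro j
    simp only [χ, map_one φ]
    rw [ev_one _ hn0 hV, Finset.prod_Ico_eq_prod_range,
      show ((-1 : ℂ)) ^ (n - 1) = ∏ _i ∈ Finset.range (n - 1), (-1 : ℂ) by simp,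
      ← Finset.prod_mul_distrib]
    refine Finset.prod_congr rfl fun i _ => ?_
    rw [hqc, add_comm 1 i]
    ring
  have hirr : ∀ j, IsIrrCharacter (GL (Fin n) F) (χ j) := by
    intro j
    set θ' := (powMonoidHom (j : ZMod L).val).comp θ with hθ'
    obtain ⟨a, b, ha, hb, hab⟩ := ev_isGeneralized θ' (hθj j) Fact.out hKp hPL n (Fin n → F) hV le_rfl
    have hgen : IsGeneralizedCharacter (GL (Fin n) F)
        (fun g => ev (liftW θ') ((φ g : Aut F (Fin n → F)) : Module.End F (Fin n → F))) :=
      ⟨fun g => a (φ g), fun g => b (φ g), CharInd.isCharacter_comp φ.toMonoidHom ha,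
        CharInd.isCharacter_comp φ.toMonoidHom hb, funext fun g => congrFun hab (φ g)⟩
    have hnorm := classInner_ev θ' (hθj j) hn hV hnK hξ
    refine CharInd.genChar_norm_one_pos ?_ ?_ ?_
    · rcases Nat.even_or_odd (n - 1) with h | h
      · have e1 : χ j = fun g => ev (liftW θ') ((φ g : Aut F (Fin n → F)) : Module.End F (Fin n → F)) :=
          funext fun g => by simp only [χ, h.neg_one_pow, one_mul, hθ']
        rw [e1]; exact hgen
      · have e1 : χ j = -fun g => ev (liftW θ') ((φ g : Aut F (Fin n → F)) : Module.End F (Fin n → F)) :=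
          funext fun g => by simp only [χ, h.neg_one_pow, Pi.neg_apply, neg_one_mul, hθ']
        rw [e1]; exact CharInd.genChar_neg hgen
    · rw [← hnorm, classInner, classInner, Nat.card_congr φ.toEquiv]
      congr 1
      refine Eq.trans (Finset.sum_congr rfl fun g _ => ?_) (φ.toEquiv.sum_comp
        fun g : Aut F (Fin n → F) => ev (liftW θ') (g : Module.End F (Fin n → F)) *
          (starRingEnd ℂ) (ev (liftW θ') (g : Module.End F (Fin n → F))))
      simp only [χ, map_mul, map_pow, map_neg, map_one]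
      rw [mul_mul_mul_comm, ← mul_pow, neg_one_mul, neg_neg, one_pow, one_mul]
      rfl
    · rw [hdeg, show (∏ i ∈ Finset.Ico 1 n, ((q : ℂ) ^ i - 1)) =
          ((∏ i ∈ Finset.Ico 1 n, (q ^ i - 1) : ℕ) : ℂ) by
        rw [Nat.cast_prod]
        exact Finset.prod_congr rfl fun i _ => by
          rw [Nat.cast_sub (Nat.one_le_pow _ _ (by omega)), Nat.cast_pow, Nat.cast_one],
        Complex.natCast_re, Nat.cast_pos]
      refine Finset.prod_pos fun i hi => ?_
      have := Nat.one_lt_pow (show i ≠ 0 by have := (Finset.mem_Ico.1 hi).1; omega) hq1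
      omega
  have hcusp : ∀ j, ∀ m : ℕ, 0 < m → m < n →
      (∑ g : GL (Fin n) F,
        if (∀ a b : Fin n, ¬ (a.val < m ∧ m ≤ b.val) → (g : Matrix (Fin n) (Fin n) F) a b =
          (1 : Matrix (Fin n) (Fin n) F) a b)
        then χ j g else 0) = 0 := by
    intro j m hm0 hmn
    let W : Submodule F (Fin n → F) :=
      { carrier := {x | ∀ b : Fin n, m ≤ b.val → x b = 0}
        add_mem' := fun hx hy b hb => by rw [Pi.add_apply, hx b hb, hy b hb, add_zero]
        zero_mem' := fun b _ => rfl
        smul_mem' := fun c x hx b hb => by rw [Pi.smul_apply, hx b hb, smul_zero] }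
    have hWmem : ∀ x, x ∈ W ↔ ∀ b : Fin n, m ≤ b.val → x b = 0 := fun x => Iff.rfl
    have hWb : W ≠ ⊥ := by
      intro h
      have h0 : Pi.single (⟨0, by omega⟩ : Fin n) (1 : F) ∈ W := (hWmem _).2 fun b hb => by
        refine Pi.single_eq_of_ne (fun hb0 => ?_) _; subst hb0; simp at hb; omega
      rw [h, Submodule.mem_bot] at h0
      simpa using congrFun h0 ⟨0, by omega⟩
    have hWt : W ≠ ⊤ := by
      intro h
      have h0 : Pi.single (⟨m, hmn⟩ : Fin n) (1 : F) ∈ W := h ▸ Submodule.mem_top
      simpa using (hWmem _).1 h0 ⟨m, hmn⟩ le_rfl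
    let C : Aut F (Fin n → F) → Prop := fun g =>
      (∀ x, (g : Module.End F (Fin n → F)) x - x ∈ W) ∧ ∀ x ∈ W, (g : Module.End F (Fin n → F)) x = x
    have hiff : ∀ g : GL (Fin n) F, (∀ a b : Fin n, ¬ (a.val < m ∧ m ≤ b.val) →
        (g : Matrix (Fin n) (Fin n) F) a b = (1 : Matrix (Fin n) (Fin n) F) a b) ↔ C (φ g) := by
      intro g
      have happ : ∀ x : Fin n → F, ((φ g : Aut F (Fin n → F)) : Module.End F (Fin n → F)) x =
          (g : Matrix (Fin n) (Fin n) F).mulVec x := fun x => rfl
      have hsub : ∀ x : Fin n → F, ∀ a, ((g : Matrix (Fin n) (Fin n) F).mulVec x - x) a =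
          ∑ b, ((g : Matrix (Fin n) (Fin n) F) a b - (1 : Matrix (Fin n) (Fin n) F) a b) * x b := by
        intro x a
        simp [Matrix.mulVec, dotProduct, sub_mul, Finset.sum_sub_distrib, Matrix.one_apply]
      constructor
      · intro h
        refine ⟨fun x => (hWmem _).2 fun a ha => ?_, fun x hx => ?_⟩
        · rw [happ, hsub]
          exact Finset.sum_eq_zero fun b _ => by rw [h a b (by omega), sub_self, zero_mul]
        · rw [happ, ← sub_eq_zero]
          funext a
          rw [hsub]
          refine Finset.sum_eq_zero fun b _ => ?_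
          by_cases hb : m ≤ b.val
          · rw [(hWmem x).1 hx b hb, mul_zero]
          · rw [h a b (by omega), sub_self, zero_mul]
      · rintro ⟨h1, h2⟩ a b hab
        have hs : ((g : Matrix (Fin n) (Fin n) F).mulVec (Pi.single b (1 : F)) -
            (Pi.single b (1 : F) : Fin n → F)) a =
            (g : Matrix (Fin n) (Fin n) F) a b - (1 : Matrix (Fin n) (Fin n) F) a b := by
          rw [hsub, Finset.sum_eq_single b (fun c _ hc => by rw [Pi.single_eq_of_ne hc, mul_zero])
            (fun h => absurd (Finset.mem_univ _) h), Pi.single_eq_same, mul_one]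
        rw [← sub_eq_zero, ← hs]
        by_cases hb : m ≤ b.val
        · exact (hWmem _).1 (happ _ ▸ h1 (Pi.single b 1)) a (by omega)
        · have hmem : Pi.single b (1 : F) ∈ W := (hWmem _).2 fun c hc => by
            rw [Pi.single_apply, if_neg]; intro hcb; rw [hcb] at hc; exact hb hc
          rw [← happ, h2 _ hmem, sub_self]
          rfl
    have hsum := sum_ev_mul_eq_zero (w := liftW ((powMonoidHom (j : ZMod L).val).comp θ))
      (liftW_mul _) hWb hWt (fun g : Aut F (Fin n → F) => if C g then (1 : ℂ) else 0)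
      (fun g hg => if_neg fun hC => hg fun x hx => by
        rw [Submodule.mem_comap, hC.2 x hx]; exact hx)
      (fun g g' u hinv hg' => by
        have : C g' ↔ C g := by
          simp only [C, hg', twist_apply]
          refine and_congr (forall_congr' fun x => ?_) (forall₂_congr fun x hx => ?_)
          · rw [add_sub_right_comm]
            exact W.add_mem_iff_left (u (W.mkQ x)).2
          · rw [Submodule.mkQ_apply, (Submodule.Quotient.mk_eq_zero W).2 hx, map_zero,
              ZeroMemClass.coe_zero, add_zero]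
        simp only [this])
    calc _ = (-1 : ℂ) ^ (n - 1) * ∑ g : Aut F (Fin n → F),
          ev (liftW ((powMonoidHom (j : ZMod L).val).comp θ)) (g : Module.End F (Fin n → F)) *
            (if C g then (1 : ℂ) else 0) := by
          rw [Finset.mul_sum, ← φ.toEquiv.sum_comp]
          refine Finset.sum_congr rfl fun g _ => ?_
          by_cases h : C (φ g)
          · rw [if_pos ((hiff g).2 h)]
            simp [χ, if_pos h]
          · rw [if_neg (fun h' => h ((hiff g).1 h'))]
            simp [χ, if_neg h]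
      _ = 0 := by rw [hsum, mul_zero]
  -- counting
  haveI : Finite (IrrCharacter (GL (Fin n) F)) := CharInd.finite_irrCharacter
  let T := {χ : Cfsg.IrrCharacter (GL (Fin n) F) //
    (χ : GL (Fin n) F → ℂ) 1 = ∏ i ∈ Finset.Ico 1 n, ((Fintype.card F : ℂ) ^ i - 1) ∧
    ∀ m : ℕ, 0 < m → m < n →
      (∑ g : GL (Fin n) F,
        if (∀ i j : Fin n, ¬ (i.val < m ∧ m ≤ j.val) → (g : Matrix (Fin n) (Fin n) F) i j =
          (1 : Matrix (Fin n) (Fin n) F) i j)
        then (χ : GL (Fin n) F → ℂ) g else 0) = 0}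
  haveI : Finite T := Subtype.finite
  letI : Fintype T := Fintype.ofFinite T
  let f : (ZMod L)ˣ → T := fun j => ⟨⟨χ j, hirr j⟩, hdeg j, hcusp j⟩
  obtain ⟨r, hr⟩ := (ZMod.unitsMap_surjective hML).hasRightInverse
  have hval : ∀ a : (ZMod M)ˣ, (((r a : ZMod L).val : ℕ) : ZMod M) = (a : ZMod M) := by
    intro a
    rw [ZMod.natCast_val]
    exact congrArg Units.val (hr a)
  have hfib : ∀ t ∈ (Finset.univ : Finset T),
      ((Finset.univ : Finset (ZMod M)ˣ).filter fun a => f (r a) = t).card ≤ n := by
    intro t _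
    rcases Finset.eq_empty_or_nonempty
      ((Finset.univ : Finset (ZMod M)ˣ).filter fun a => f (r a) = t) with h | ⟨b, hb⟩
    · rw [h]; simp
    refine le_trans (le_of_eq (Finset.card_image_of_injective _ Units.val_injective).symm) ?_
    refine le_trans (Finset.card_le_card (t := (Finset.range n).image fun i =>
      (b : ZMod M) * (q : ZMod M) ^ i) ?_) ((Finset.card_image_le).trans (Finset.card_range n).le)
    intro x hx
    obtain ⟨a, ha, rfl⟩ := Finset.mem_image.1 hx
    have heq : f (r a) = f (r b) := (Finset.mem_filter.1 ha).2.trans (Finset.mem_filter.1 hb).2.symm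
    have hev : ∀ g : Aut F (Fin n → F),
        ev (liftW ((powMonoidHom (r a : ZMod L).val).comp θ)) (g : Module.End F (Fin n → F)) =
        ev (liftW ((powMonoidHom (r b : ZMod L).val).comp θ)) (g : Module.End F (Fin n → F)) := by
      intro g
      have h := congrFun (congrArg (fun t : T => (t.1.1 : GL (Fin n) F → ℂ)) heq) (φ.symm g)
      simp only [f, χ, MulEquiv.apply_symm_apply] at h
      exact mul_left_cancel₀ (pow_ne_zero _ (neg_ne_zero.2 one_ne_zero)) h
    obtain ⟨i, hi, hmod⟩ := exists_frob_of_ev_eq θ hθ hn0 hV hξ hev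
    refine Finset.mem_image.2 ⟨i, Finset.mem_range.2 hi, ?_⟩
    rw [hqc, ← hM] at hmod
    have h2 := (ZMod.natCast_eq_natCast_iff' _ _ _).2 hmod
    rw [Nat.cast_mul, Nat.cast_pow, hval, hval] at h2
    exact h2
  have hle := Finset.card_le_mul_card_image_of_maps_to
    (f := fun a : (ZMod M)ˣ => f (r a)) (s := Finset.univ) (t := (Finset.univ : Finset T))
    (fun a _ => Finset.mem_univ _) n hfib
  rw [Finset.card_univ, Finset.card_univ, ZMod.card_units_eq_totient, ← Nat.card_eq_fintype_card]
    at hle
  exact Nat.div_le_of_le_mul hle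

end Cfsg.Agent.S2442
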