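import Cfsg.Statements.S2531


set_option autoImplicit false
open Cfsg

namespace Cfsg.Agent.S2531

/-- Let `F` be a finite field and `n ≥ 3`. No set of permutations of the points of the projective space of `Fⁿ`, each induced by an invertible semilinear transformation of `Fⁿ` (so a subset of the full projective semilinear group), is sharply 2-transitive on the points: it is impossible that for all pairs of distinct points `(a, b)` and `(c, d)` exactly one member of the set sends `a` to `c` and `b` to `d`. -/
theorem result {F : Type*} [Field F] [Finite F]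
    (n : ℕ) (hn : 3 ≤ n) (S : Set (Equiv.Perm (Projectivization F (Fin n → F))))
    (hS : ∀ s ∈ S, ∃ (σ : F ≃+* F) (f : (Fin n → F) →ₛₗ[(σ : F →+* F)] (Fin n → F)) (hf : Function.Injective f),
      ∀ x, s x = Projectivization.map f hf x) :
    ¬ (∀ a b c d : Projectivization F (Fin n → F), a ≠ b → c ≠ d →
        ∃! s, s ∈ S ∧ s a = c ∧ s b = d) := by
  intro h2t
  classical
  haveI := Fintype.ofFinite F
  set q := Fintype.card F with hq
  have hq1 : 1 < q := Fintype.one_lt_card
  haveI : Finite (Projectivization F (Fin n → F)) := Quotient.finite _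
  let pts : Submodule F (Fin n → F) → Set (Projectivization F (Fin n → F)) := fun X => {x | x.submodule ≤ X}
  have hmem : ∀ (X : Submodule F (Fin n → F)) (v : (Fin n → F)) (hv : v ≠ 0),
      Projectivization.mk F v hv ∈ pts X ↔ v ∈ X := by
    intro X v hv
    simp [pts, Projectivization.submodule_mk]
  -- the number of points of a nonzero subspace is `1` modulo `q`
  have hpts : ∀ X : Submodule F (Fin n → F), X ≠ ⊥ → (q : ℤ) ∣ ((pts X).ncard : ℤ) - 1 := by
    intro X hX
    have e : Nat.card (Projectivization F X) = (pts X).ncard := by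
      rw [← Nat.card_coe_set_eq]
      refine Nat.card_eq_of_bijective
        (fun y => ⟨Projectivization.map X.subtype X.injective_subtype y, ?_⟩) ⟨?_, ?_⟩
      · induction y using Projectivization.ind with
        | h v hv => rw [Projectivization.map_mk, hmem]; exact v.2
      · intro y z h
        exact Projectivization.map_injective X.subtype X.injective_subtype (congrArg Subtype.val h)
      · rintro ⟨x, hx⟩
        induction x using Projectivization.ind with
        | h v hv =>
          rw [hmem] at hx
          exact ⟨Projectivization.mk F (⟨v, hx⟩ : X) (fun h => hv (congrArg Subtype.val h)),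
            Subtype.ext (Projectivization.map_mk X.subtype X.injective_subtype _ _)⟩
    rw [← e, Projectivization.card_of_finrank F X rfl, Nat.card_eq_fintype_card]
    obtain ⟨d, hd⟩ : ∃ d, Module.finrank F X = d + 1 :=
      ⟨_, (Nat.succ_pred_eq_of_pos (Submodule.one_le_finrank_iff.mpr hX)).symm⟩
    rw [hd, Finset.sum_range_succ']
    push_cast
    simp only [pow_zero, add_sub_cancel_right, pow_succ]
    exact Finset.dvd_sum fun i _ => dvd_mul_left _ _
  let e : Fin n → (Fin n → F) := fun i => Pi.single i 1
  have he : ∀ i, e i ≠ 0 := fun i h => by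
    simpa [e] using congrFun h i
  let a : Projectivization F (Fin n → F) := Projectivization.mk F (e ⟨0, by omega⟩) (he _)
  let W : Submodule F (Fin n → F) := LinearMap.ker (LinearMap.proj ⟨0, by omega⟩)
  let U : Submodule F (Fin n → F) := Submodule.span F {e ⟨1, by omega⟩, e ⟨2, by omega⟩}
  have haW : a ∉ pts W := by
    rw [hmem]
    simp [W, e]
  have hUW : U ≤ W := by
    rw [Submodule.span_le]
    rintro v (rfl | rfl) <;> simp [W, e]
  have haU : a ∉ pts U := fun h => haW (le_trans h hUW)
  have hU2 : Module.finrank F U = 2 := by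
    have hli : LinearIndependent F ![e ⟨1, by omega⟩, e ⟨2, by omega⟩] := by
      rw [LinearIndependent.pair_iff]
      intro s t hst
      exact ⟨by simpa [e, Pi.single_apply, Fin.ext_iff] using congrFun hst ⟨1, by omega⟩,
        by simpa [e, Pi.single_apply, Fin.ext_iff] using congrFun hst ⟨2, by omega⟩⟩
    have := finrank_span_eq_card hli
    rwa [Matrix.range_cons, Matrix.range_cons, Matrix.range_empty, Set.union_empty,
      Set.singleton_union, Fintype.card_fin] at this
  have hW1 : Module.finrank F W + 1 = n := by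
    have := LinearMap.finrank_range_add_finrank_ker (LinearMap.proj (R := F) (φ := fun _ : Fin n => F) ⟨0, by omega⟩)
    rw [LinearMap.range_eq_top.mpr (fun c => ⟨fun _ => c, rfl⟩), finrank_top, Module.finrank_self,
      Module.finrank_fin_fun] at this
    change 1 + Module.finrank F W = n at this
    omega
  haveI : Fintype (Projectivization F (Fin n → F)) := Fintype.ofFinite _
  -- the elements mapping `a` to `a`
  let Sc := {s // s ∈ S ∧ s a = a}
  haveI : Fintype Sc := Fintype.ofFinite _
  have hSc : (Fintype.card Sc : ℤ) = Fintype.card (Projectivization F (Fin n → F)) - 1 := by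
    let b : Projectivization F (Fin n → F) := Projectivization.mk F (e ⟨1, by omega⟩) (he _)
    have hab : a ≠ b := fun h => haU (by rw [h, hmem]; exact Submodule.subset_span (Or.inl rfl))
    have hbij : Fintype.card Sc = Fintype.card {x : Projectivization F (Fin n → F) // x ≠ a} := by
      refine Fintype.card_of_bijective
        (f := fun s => ⟨s.1 b, fun h => hab (s.1.injective (s.2.2.trans h.symm))⟩) ⟨?_, ?_⟩
      · rintro ⟨s, hs⟩ ⟨t, ht⟩ h
        have h' : s b = t b := congrArg Subtype.val h
        obtain ⟨r, -, hr⟩ := h2t a b a (s b) hab (fun hh => hab (s.injective (hs.2.trans hh)))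
        exact Subtype.ext ((hr s ⟨hs.1, hs.2, rfl⟩).trans (hr t ⟨ht.1, ht.2, h'.symm⟩).symm)
      · rintro ⟨x, hx⟩
        obtain ⟨r, ⟨hrS, hra, hrb⟩, -⟩ := h2t a b a x hab (Ne.symm hx)
        exact ⟨⟨r, hrS, hra⟩, Subtype.ext hrb⟩
    rw [hbij, Fintype.card_subtype_compl, Fintype.card_subtype_eq,
      Nat.cast_sub (Fintype.card_pos_iff.mpr ⟨a⟩)]
    rfl
  have hScq : (q : ℤ) ∣ Fintype.card Sc := by
    have := hpts ⊤ (by
      intro h
      have := congrArg (fun X : Submodule F (Fin n → F) => e ⟨0, by omega⟩ ∈ X) h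
      simp [he] at this)
    have htop : pts ⊤ = Set.univ := Set.eq_univ_of_forall fun x => (le_top : x.submodule ≤ ⊤)
    rw [htop, Set.ncard_univ, Nat.card_eq_fintype_card] at this
    rwa [hSc]
  -- double counting
  have hcount : ∑ s : Sc, ((Finset.univ.filter fun b => b ∈ pts U ∧ s.1 b ∈ pts W).card) =
      (pts U).ncard * (pts W).ncard := by
    rw [Set.ncard_eq_toFinset_card', Set.ncard_eq_toFinset_card', ← Finset.card_product, ← Finset.card_sigma]
    refine Finset.card_bij (fun z _ => (z.2, z.1.1 z.2)) ?_ ?_ ?_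
    · intro z hz
      simp only [Finset.mem_sigma, Finset.mem_filter] at hz
      simp [hz.2.2.1, hz.2.2.2]
    · rintro ⟨⟨s, hs⟩, b⟩ hz ⟨⟨t, ht⟩, b'⟩ hz' h
      simp only [Finset.mem_sigma, Finset.mem_filter] at hz
      obtain ⟨rfl, h⟩ := Prod.ext_iff.mp h
      have hb : a ≠ b := fun hh => haU (hh ▸ hz.2.2.1)
      obtain ⟨r, -, hr⟩ := h2t a b a (s b) hb (fun hh => hb (s.injective (hs.2.trans hh)))
      obtain rfl : s = t := (hr s ⟨hs.1, hs.2, rfl⟩).trans (hr t ⟨ht.1, ht.2, h.symm⟩).symm
      rfl
    · rintro ⟨b, d⟩ hbd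
      simp only [Finset.mem_product, Set.mem_toFinset] at hbd
      obtain ⟨r, ⟨hrS, hra, hrb⟩, -⟩ := h2t a b a d (fun hh => haU (hh ▸ hbd.1)) (fun hh => haW (hh ▸ hbd.2))
      exact ⟨⟨⟨r, hrS, hra⟩, b⟩, by simp [hbd.1, hrb, hbd.2], by simp [hrb]⟩
  have hterm : ∀ s : Sc, (q : ℤ) ∣
      ((Finset.univ.filter fun b => b ∈ pts U ∧ s.1 b ∈ pts W).card : ℤ) - 1 := by
    intro s
    obtain ⟨σ, f, hf, hfs⟩ := hS s.1 s.2.1
    let H : Submodule F (Fin n → F) := W.comap f
    have hset : ((Finset.univ.filter fun b => b ∈ pts U ∧ s.1 b ∈ pts W).card) = (pts (U ⊓ H)).ncard := by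
      rw [← Set.ncard_coe_finset]
      congr 1
      ext x
      induction x using Projectivization.ind with
      | h v hv =>
        simp only [Finset.coe_filter, Finset.mem_univ, true_and, Set.mem_setOf_eq]
        rw [hfs, Projectivization.map_mk, hmem, hmem, hmem]
        rfl
    rw [hset]
    apply hpts
    -- a two-dimensional space meets the preimage of a hyperplane
    intro hbot
    have hfin : ∀ u ∈ U, f u ∈ W → u = 0 := fun u hu hw => by
      have : u ∈ U ⊓ H := ⟨hu, hw⟩
      rwa [hbot, Submodule.mem_bot] at this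
    let g : U → F := fun u => f u.1 ⟨0, by omega⟩
    have hinj : Function.Injective g := by
      intro u v huv
      have : f (u.1 - v.1) ∈ W := by
        simp only [W, LinearMap.mem_ker, LinearMap.proj_apply, map_sub, Pi.sub_apply]
        exact sub_eq_zero.mpr huv
      exact Subtype.ext (sub_eq_zero.mp (hfin _ (U.sub_mem u.2 v.2) this))
    have := Fintype.card_le_of_injective g hinj
    rw [Module.card_eq_pow_finrank (K := F) (V := U), hU2, ← hq] at this
    nlinarith
  have hsum : (q : ℤ) ∣ ((pts U).ncard : ℤ) * (pts W).ncard := by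
    have h1 : (q : ℤ) ∣ (∑ s : Sc, (((Finset.univ.filter fun b => b ∈ pts U ∧ s.1 b ∈ pts W).card : ℤ) - 1)) :=
      Finset.dvd_sum fun s _ => hterm s
    rw [Finset.sum_sub_distrib, ← Nat.cast_sum, hcount, Finset.sum_const, Finset.card_univ, nsmul_one] at h1
    have := dvd_add h1 hScq
    push_cast at this
    simpa using this
  have hU0 : U ≠ ⊥ := fun h => by rw [h, finrank_bot] at hU2; omega
  have hW0 : W ≠ ⊥ := fun h => by rw [h, finrank_bot] at hW1; omega
  obtain ⟨x, hx⟩ := hpts U hU0
  obtain ⟨y, hy⟩ := hpts W hW0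
  obtain ⟨z, hz⟩ := hsum
  have : (q : ℤ) ∣ 1 := ⟨z - x * (pts W).ncard - y, by linear_combination hz - ((pts W).ncard : ℤ) * hx - hy⟩
  have := Int.le_of_dvd one_pos this
  omega

end Cfsg.Agent.S2531
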