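import Cfsg.Statements.S2532


set_option autoImplicit false
open Cfsg

namespace Cfsg.Agent.S2532

/-- There is a function `f` of two natural-number arguments such that, whenever `m ≥ f(n, r)`, every subgroup of order `n` of the alternating group of degree `m` centralizes some subgroup of that alternating group isomorphic to the alternating group of degree `r`. -/
theorem result :
    ∃ f : ℕ → ℕ → ℕ, ∀ (m r : ℕ) (H : Subgroup ↥(alternatingGroup (Fin m))), f (Nat.card H) r ≤ m →
      ∃ K : Subgroup ↥(alternatingGroup (Fin m)), Nonempty (↥K ≃* ↥(alternatingGroup (Fin r))) ∧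
        K ≤ Subgroup.centralizer (H : Set ↥(alternatingGroup (Fin m))) := by
  refine ⟨fun h r => h * 2 ^ h * r, ?_⟩
  intro m r H hm
  classical
  set h := Nat.card ↥H with hh
  have hh0 : 0 < h := Nat.card_pos
  haveI : Fintype ↥H := Fintype.ofFinite _
  -- `H` acts on `Fin m`
  let act : ↥H →* Equiv.Perm (Fin m) := (alternatingGroup (Fin m)).subtype.comp H.subtype
  letI : MulAction ↥H (Fin m) := MulAction.compHom _ act
  let O := Quotient (MulAction.orbitRel ↥H (Fin m))
  let rep : O → Fin m := Quotient.out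
  let stab : O → Set ↥H := fun o => (MulAction.stabilizer ↥H (rep o) : Set ↥H)
  -- many orbits
  have hO : m ≤ Fintype.card O * h := by
    have hf : Function.Surjective (fun z : O × ↥H => z.2 • rep z.1) := by
      intro x
      have : Quotient.out (Quotient.mk (MulAction.orbitRel ↥H (Fin m)) x) ∈ MulAction.orbit ↥H x :=
        MulAction.orbitRel_apply.mp (Quotient.mk_out (s := MulAction.orbitRel ↥H (Fin m)) x)
      obtain ⟨g, hg⟩ := this
      exact ⟨(⟦x⟧, g⁻¹), inv_smul_eq_iff.mpr hg.symm⟩
    have := Fintype.card_le_of_surjective _ hf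
    rwa [Fintype.card_prod, Fintype.card_fin, ← Nat.card_eq_fintype_card (α := ↥H)] at this
  -- `r` orbits with the same point stabiliser
  obtain ⟨K, x, hxinj, hxK⟩ : ∃ (K : Subgroup ↥H) (x : Fin r → O),
      Function.Injective x ∧ ∀ i, MulAction.stabilizer ↥H (rep (x i)) = K := by
    rcases Nat.eq_zero_or_pos r with rfl | hr
    · exact ⟨⊥, Fin.elim0, fun i => i.elim0, fun i => i.elim0⟩
    have : ∃ T ∈ (Finset.univ : Finset (Set ↥H)), r ≤ (Finset.univ.filter fun o => stab o = T).card := by
      apply Finset.exists_le_card_fiber_of_mul_le_card_of_maps_to (fun a _ => Finset.mem_univ _)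
        Finset.univ_nonempty
      rw [Finset.card_univ, Fintype.card_set, ← Nat.card_eq_fintype_card (α := ↥H), ← hh, Finset.card_univ]
      apply Nat.le_of_mul_le_mul_right _ hh0
      calc 2 ^ h * r * h = h * 2 ^ h * r := by ring
        _ ≤ m := hm
        _ ≤ _ := hO
    obtain ⟨T, -, hT⟩ := this
    obtain ⟨s, hs, hsc⟩ := Finset.exists_subset_card_eq hT
    let x : Fin r → O := fun i => (s.equivFin.symm (Fin.cast hsc.symm i)).1
    refine ⟨MulAction.stabilizer ↥H (rep (x ⟨0, hr⟩)), x, ?_, ?_⟩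
    · intro i j hij
      simpa using s.equivFin.symm.injective (Subtype.ext hij)
    · intro i
      have hT' : ∀ i, stab (x i) = T := fun i =>
        (Finset.mem_filter.mp (hs (s.equivFin.symm (Fin.cast hsc.symm i)).2)).2
      exact SetLike.ext' ((hT' i).trans (hT' _).symm)
  -- `Fin r × H/K` sits inside `Fin m` equivariantly
  let ι : Fin r × (↥H ⧸ K) → Fin m := fun z =>
    Quotient.liftOn' z.2 (fun g : ↥H => g • rep (x z.1)) (fun a b hab => by
      rw [QuotientGroup.leftRel_apply, ← hxK z.1, MulAction.mem_stabilizer_iff, mul_smul,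
        inv_smul_eq_iff] at hab
      exact hab.symm)
  have hι : Function.Injective ι := by
    rintro ⟨i, c⟩ ⟨j, d⟩ hcd
    induction c using QuotientGroup.induction_on with
    | H a =>
      induction d using QuotientGroup.induction_on with
      | H b =>
        change a • rep (x i) = b • rep (x j) at hcd
        have hij : i = j := by
          apply hxinj
          have h1 : (⟦rep (x i)⟧ : O) = ⟦rep (x j)⟧ :=
            Quotient.sound (MulAction.orbitRel_apply.mpr
              ⟨a⁻¹ * b, show (a⁻¹ * b) • rep (x j) = rep (x i) by rw [mul_smul, ← hcd, inv_smul_smul]⟩)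
          simpa [rep] using h1
        subst hij
        refine Prod.ext rfl (QuotientGroup.eq.mpr ?_)
        rw [← hxK i, MulAction.mem_stabilizer_iff, mul_smul, ← hcd, inv_smul_smul]
  let emb : Fin r × (↥H ⧸ K) ↪ Fin m := ⟨ι, hι⟩
  let lift : Equiv.Perm (Fin r) →* Equiv.Perm (Fin r × (↥H ⧸ K)) :=
    { toFun := fun π => Equiv.prodCongr π (Equiv.refl _)
      map_one' := by ext <;> rfl
      map_mul' := fun π ρ => by ext <;> rfl }
  let φ₀ : Equiv.Perm (Fin r) →* Equiv.Perm (Fin m) := (Equiv.Perm.viaEmbeddingHom emb).comp lift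
  have heven : ∀ π ∈ alternatingGroup (Fin r), φ₀ π ∈ alternatingGroup (Fin m) := by
    suffices alternatingGroup (Fin r) ≤ (Equiv.Perm.sign.comp φ₀).ker from fun π hπ => this hπ
    rw [← Equiv.Perm.closure_three_cycles_eq_alternating, Subgroup.closure_le]
    intro c hc
    have h3 : (Equiv.Perm.sign.comp φ₀) c ^ 3 = 1 := by
      rw [← map_pow, ← Equiv.Perm.IsThreeCycle.orderOf hc, pow_orderOf_eq_one, map_one]
    rcases Int.units_eq_one_or ((Equiv.Perm.sign.comp φ₀) c) with h1 | h1
    · exact h1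
    · rw [h1] at h3; exact absurd h3 (by decide)
  let φ : ↥(alternatingGroup (Fin r)) →* ↥(alternatingGroup (Fin m)) :=
    (φ₀.comp (alternatingGroup (Fin r)).subtype).codRestrict _ (fun π => heven _ π.2)
  have hφ : Function.Injective φ := by
    intro π ρ hpr
    rcases subsingleton_or_nontrivial (Fin r) with hs | hs
    · exact Subtype.ext (Subsingleton.elim _ _)
    have h1 : φ₀ π.1 = φ₀ ρ.1 := congrArg Subtype.val hpr
    have h2 := Equiv.Perm.viaEmbeddingHom_injective emb h1
    apply Subtype.ext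
    ext i
    have h3 := congrArg (fun e : Equiv.Perm (Fin r × (↥H ⧸ K)) => ((e (i, QuotientGroup.mk 1)).1 : ℕ)) h2
    exact h3
  refine ⟨φ.range, ⟨(MonoidHom.ofInjective hφ).symm⟩, ?_⟩
  rintro _ ⟨π, rfl⟩
  rw [Subgroup.mem_centralizer_iff]
  intro g hg
  apply Subtype.ext
  change act ⟨g, hg⟩ * φ₀ π.1 = φ₀ π.1 * act ⟨g, hg⟩
  refine Equiv.ext fun p => ?_
  change (⟨g, hg⟩ : ↥H) • (φ₀ π.1 p) = φ₀ π.1 ((⟨g, hg⟩ : ↥H) • p)
  by_cases hp : p ∈ Set.range emb
  · obtain ⟨⟨i, c⟩, rfl⟩ := hp
    induction c using QuotientGroup.induction_on with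
    | H a =>
      have e1 : (⟨g, hg⟩ : ↥H) • emb (i, QuotientGroup.mk a) = emb (i, QuotientGroup.mk (⟨g, hg⟩ * a)) :=
        (mul_smul _ _ _).symm
      rw [e1]
      change (⟨g, hg⟩ : ↥H) • Equiv.Perm.viaEmbedding (lift π.1) emb _ =
        Equiv.Perm.viaEmbedding (lift π.1) emb _
      rw [Equiv.Perm.viaEmbedding_apply, Equiv.Perm.viaEmbedding_apply]
      exact (mul_smul _ _ _).symm
  · have hp' : (⟨g, hg⟩ : ↥H) • p ∉ Set.range emb := by
      rintro ⟨⟨i, c⟩, hc⟩
      induction c using QuotientGroup.induction_on with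
      | H a =>
        apply hp
        refine ⟨(i, QuotientGroup.mk ((⟨g, hg⟩ : ↥H)⁻¹ * a)), ?_⟩
        change ((⟨g, hg⟩ : ↥H)⁻¹ * a) • rep (x i) = p
        rw [mul_smul, inv_smul_eq_iff]
        exact hc
    change (⟨g, hg⟩ : ↥H) • Equiv.Perm.viaEmbedding (lift π.1) emb _ =
      Equiv.Perm.viaEmbedding (lift π.1) emb _
    rw [Equiv.Perm.viaEmbedding_apply_of_notMem _ _ _ hp,
      Equiv.Perm.viaEmbedding_apply_of_notMem _ _ _ hp']

end Cfsg.Agent.S2532
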