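import Cfsg.Statements.S2533
import Cfsg.Agent.Spectrum.Linear

set_option autoImplicit false
open Cfsg

namespace Cfsg.Agent.S2533

/-- The inversion action of `±1`. -/
noncomputable def invAction (p : ℕ) : ℤˣ →* MulAut (Multiplicative (Fin 3 → ZMod p)) :=
  (MulAutMultiplicative (Fin 3 → ZMod p)).symm.toMonoidHom.comp
    (DistribMulAction.toAddAut ℤˣ (Fin 3 → ZMod p))

open Spectrum Matrix in
/-- A matrix commuting with the shift and its transpose is scalar. -/
theorem eq_scalar_of_commute_shift {F : Type*} [Field F] [Fintype F] {k : ℕ} [NeZero k]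
    (a : Matrix (Fin k) (Fin k) F) (h1 : a * shiftMatrix k F = shiftMatrix k F * a)
    (h2 : a * (shiftMatrix k F)ᵀ = (shiftMatrix k F)ᵀ * a) : a = a 0 0 • 1 := by
  have hcol : ∀ l : Fin k, l ≠ 0 → a l 0 = 0 := by
    intro l hl
    have hl' : (l : ℕ) ≠ 0 := fun h => hl (Fin.ext h)
    let l' : Fin k := ⟨(l : ℕ) - 1, by omega⟩
    have := congrFun (congrFun h2 l') 0
    rw [mul_apply, mul_apply, Finset.sum_eq_zero, Finset.sum_eq_single l] at this
    · have hl'' : (l : ℕ) - 1 + 1 = (l : ℕ) := by omega
      simpa [shiftMatrix, l', hl''] using this.symm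
    · intro b _ hb
      have : (b : ℕ) ≠ (l : ℕ) := fun h => hb (Fin.ext h)
      simp [shiftMatrix, l', show ¬ (b : ℕ) = (l : ℕ) - 1 + 1 by omega]
    · simp
    · intro b _
      simp [shiftMatrix]
  ext i j
  have hc : Commute a (shiftMatrix k F ^ (j : ℕ)) := Commute.pow_right h1 _
  have := congrFun (congrFun hc i) 0
  rw [mul_apply, mul_apply, Finset.sum_eq_single j, Finset.sum_eq_single 0] at this
  · rw [shiftMatrix_pow, shiftMatrix_pow] at this
    simp [Fin.val_zero] at this
    rw [this]
    by_cases hij : i = j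
    · subst hij; simp
    · simp [hij, Fin.val_ne_of_ne hij]
  · intro b _ hb
    rw [hcol b hb, mul_zero]
  · simp
  · intro b _ hb
    rw [shiftMatrix_pow, if_neg (by simpa using Fin.val_ne_of_ne hb), mul_zero]
  · simp


/-- For every odd prime `p` there is a finite group `H` of order `2p³` which, for infinitely many `n`, embeds in the projective special linear group `PSL(n, p)` as a subgroup with trivial centralizer. -/
theorem result
    (p : ℕ) [Fact p.Prime] (hp : p ≠ 2) :
    ∃ (H : Type) (_ : Group H) (_ : Finite H), Nat.card H = 2 * p ^ 3 ∧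
      ∀ N : ℕ, ∃ n, N ≤ n ∧ ∃ φ : H →* Matrix.ProjectiveSpecialLinearGroup (Fin n) (ZMod p),
        Function.Injective φ ∧ Subgroup.centralizer (φ.range : Set (Matrix.ProjectiveSpecialLinearGroup (Fin n) (ZMod p))) = ⊥ := by
  classical
  have hpp : p.Prime := Fact.out
  have h2p : (2 : ZMod p) ≠ 0 := by
    intro h
    have : p ∣ 2 := (ZMod.natCast_eq_zero_iff 2 p).mp (by exact_mod_cast h)
    exact hp ((Nat.prime_dvd_prime_iff_eq hpp Nat.prime_two).mp this)
  refine ⟨Multiplicative (Fin 3 → ZMod p) ⋊[invAction p] ℤˣ, inferInstance,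
    Finite.of_equiv _ SemidirectProduct.equivProd.symm, ?_, ?_⟩
  · rw [SemidirectProduct.card]
    simp [Nat.card_eq_fintype_card, mul_comm]
  intro N
  let k := 2 * (N + 2)
  haveI : NeZero k := ⟨by omega⟩
  let J := Spectrum.shiftMatrix k (ZMod p)
  let M : (Fin 3 → ZMod p) → Matrix (Fin k) (Fin k) (ZMod p) := fun v => v 0 • 1 + v 1 • J + v 2 • J.transpose
  let fn : Multiplicative (Fin 3 → ZMod p) →* Matrix (Fin k ⊕ Fin k) (Fin k ⊕ Fin k) (ZMod p) :=
    { toFun := fun v => Matrix.fromBlocks 1 0 (M v.toAdd) 1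
      map_one' := by simp [M]
      map_mul' := fun v w => by
        simp only [Matrix.fromBlocks_multiply, M, toAdd_mul, Pi.add_apply]
        congr 1 <;> simp [add_smul]
        abel }
  let fg : ℤˣ →* Matrix (Fin k ⊕ Fin k) (Fin k ⊕ Fin k) (ZMod p) :=
    { toFun := fun e => Matrix.fromBlocks 1 0 0 (((e : ℤ) : ZMod p) • 1)
      map_one' := by simp
      map_mul' := fun e e' => by simp [Matrix.fromBlocks_multiply, smul_smul, mul_comm] }
  let R : Matrix (Fin k ⊕ Fin k) (Fin k ⊕ Fin k) (ZMod p) ≃* Matrix (Fin (k + k)) (Fin (k + k)) (ZMod p) :=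
    (Matrix.reindexAlgEquiv (ZMod p) (ZMod p) finSumFinEquiv).toMulEquiv
  have hR : ∀ X, (R X).det = X.det := fun X => Matrix.det_reindex_self _ _
  let fnS : Multiplicative (Fin 3 → ZMod p) →* Matrix.SpecialLinearGroup (Fin (k + k)) (ZMod p) :=
    { toFun := fun v => ⟨R (fn v), by rw [hR]; simp [fn]⟩
      map_one' := Subtype.ext (show R (fn 1) = 1 by simp)
      map_mul' := fun v w => Subtype.ext (show R (fn (v * w)) = R (fn v) * R (fn w) by simp) }
  let fgS : ℤˣ →* Matrix.SpecialLinearGroup (Fin (k + k)) (ZMod p) :=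
    { toFun := fun e => ⟨R (fg e), by
        rw [hR]
        rcases Int.units_eq_one_or e with h | h <;> subst h <;> simp [fg, k, Matrix.det_neg, pow_mul]⟩
      map_one' := Subtype.ext (show R (fg 1) = 1 by simp)
      map_mul' := fun v w => Subtype.ext (show R (fg (v * w)) = R (fg v) * R (fg w) by simp) }
  have hcompat : ∀ (e : ℤˣ) (v : Multiplicative (Fin 3 → ZMod p)), fgS e * fnS v = fnS (invAction p e v) * fgS e := by
    intro e v
    apply Subtype.ext
    show R (fg e) * R (fn v) = R (fn (invAction p e v)) * R (fg e)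
    rw [← map_mul, ← map_mul]
    congr 1
    have hM : M ((invAction p e v).toAdd) = ((e : ℤ) : ZMod p) • M v.toAdd := by
      have h : (invAction p e v).toAdd = (e : ℤ) • v.toAdd := rfl
      simp [M, h, smul_smul]
    simp [fg, fn, Matrix.fromBlocks_multiply, hM]
  let φ₀ : Multiplicative (Fin 3 → ZMod p) ⋊[invAction p] ℤˣ →* Matrix.SpecialLinearGroup (Fin (k + k)) (ZMod p) :=
    SemidirectProduct.lift fnS fgS (fun e => MonoidHom.ext fun v => by
      show fnS (invAction p e v) = fgS e * fnS v * (fgS e)⁻¹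
      rw [hcompat, mul_inv_cancel_right])
  let π : Matrix.SpecialLinearGroup (Fin (k + k)) (ZMod p) →* Matrix.ProjectiveSpecialLinearGroup (Fin (k + k)) (ZMod p) :=
    QuotientGroup.mk' _
  refine ⟨k + k, by omega, π.comp φ₀, ?_, ?_⟩
  · -- injectivity: no scalars in the image
    rw [injective_iff_map_eq_one]
    rintro ⟨v, e⟩ hve
    have : φ₀ ⟨v, e⟩ ∈ Subgroup.center _ := (QuotientGroup.eq_one_iff _).mp hve
    obtain ⟨r, -, hr⟩ := Matrix.SpecialLinearGroup.mem_center_iff.mp this
    have hval : (φ₀ ⟨v, e⟩).1 = R (fn v * fg e) := by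
      show R (fn v) * R (fg e) = _
      rw [map_mul]
    rw [hval] at hr
    have h2 : fn v * fg e = Matrix.scalar (Fin k ⊕ Fin k) r := by
      apply R.injective
      rw [← hr]
      ext i j
      simp [R, Matrix.scalar_apply, Matrix.diagonal_apply]
    simp only [fn, fg, MonoidHom.coe_mk, OneHom.coe_mk, Matrix.fromBlocks_multiply] at h2
    have h11 : r = 1 := by
      have := congrFun (congrFun h2 (Sum.inl 0)) (Sum.inl 0)
      simpa using this.symm
    subst h11
    simp only [map_one, ← Matrix.fromBlocks_one, Matrix.fromBlocks_inj, mul_one, one_mul, mul_zero, add_zero, zero_add] at h2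
    obtain ⟨-, -, hMv, he⟩ := h2
    have he1 : e = 1 := by
      rcases Int.units_eq_one_or e with h | h
      · exact h
      · subst h
        exfalso
        have := congrFun (congrFun he 0) 0
        simp at this
        apply h2p
        linear_combination -this
    subst he1
    have hv : v.toAdd = 0 := by
      have e0 := congrFun (congrFun hMv 0) 0
      have e1 := congrFun (congrFun hMv ⟨1, by omega⟩) 0
      have e2 := congrFun (congrFun hMv 0) ⟨1, by omega⟩
      simp only [M, Matrix.add_apply, Matrix.smul_apply, Matrix.transpose_apply, J, Spectrum.shiftMatrix,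
        Matrix.of_apply, Matrix.one_apply, Fin.val_zero, Fin.ext_iff, Matrix.zero_apply] at e0 e1 e2
      norm_num at e0 e1 e2
      funext i
      fin_cases i <;> simpa
    exact SemidirectProduct.ext (by simpa using hv) rfl
  · rw [Subgroup.eq_bot_iff_forall]
    intro x hx
    obtain ⟨g, rfl⟩ := QuotientGroup.mk'_surjective _ x
    rw [Subgroup.mem_centralizer_iff] at hx
    -- `g` commutes with the image up to scalars
    have key : ∀ h, ∃ r : ZMod p, g.1 * (φ₀ h).1 = r • ((φ₀ h).1 * g.1) := by
      intro h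
      have h1 := hx _ ⟨h, rfl⟩
      have h1' : (φ₀ h * g)⁻¹ * (g * φ₀ h) ∈ Subgroup.center _ := QuotientGroup.eq.mp h1
      obtain ⟨r, -, hr⟩ := Matrix.SpecialLinearGroup.mem_center_iff.mp h1'
      refine ⟨r, ?_⟩
      have h2 : g * φ₀ h = φ₀ h * g * ((φ₀ h * g)⁻¹ * (g * φ₀ h)) := by group
      have h3 := congrArg Subtype.val h2
      simp only [Matrix.SpecialLinearGroup.coe_mul] at h3 hr
      rw [h3, ← hr, Matrix.scalar_apply, ← Matrix.smul_eq_mul_diagonal]
    obtain ⟨G, hG⟩ := R.surjective g.1
    have keyM : ∀ h (X : Matrix (Fin k ⊕ Fin k) (Fin k ⊕ Fin k) (ZMod p)), (φ₀ h).1 = R X →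
        ∃ r : ZMod p, G * X = r • (X * G) := by
      intro h X hX
      obtain ⟨r, hr⟩ := key h
      refine ⟨r, R.injective ?_⟩
      rw [hX, ← hG, ← map_mul, ← map_mul] at hr
      rw [hr]
      ext i j; simp [R]
    have hdetG : G.det = 1 := by rw [← hR, hG, g.2]
    have hGunit : IsUnit G := (Matrix.isUnit_iff_isUnit_det G).mpr (by simp [hdetG])
    have hfn : ∀ v : (Fin 3 → ZMod p), G * fn (Multiplicative.ofAdd v) = fn (Multiplicative.ofAdd v) * G := by
      intro v
      obtain ⟨r, hr⟩ := keyM (SemidirectProduct.inl (Multiplicative.ofAdd v)) (fn (Multiplicative.ofAdd v))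
        (by rw [SemidirectProduct.lift_inl]; rfl)
      set X := fn (Multiplicative.ofAdd v)
      have hpow : ∀ m : ℕ, G * X ^ m = r ^ m • (X ^ m * G) := by
        intro m
        induction m with
        | zero => simp
        | succ m ih =>
          rw [pow_succ, ← mul_assoc, ih, Matrix.smul_mul, mul_assoc, hr, Matrix.mul_smul, smul_smul, pow_succ, mul_assoc]
      have hXp : X ^ p = 1 := by
        rw [← map_pow, show Multiplicative.ofAdd v ^ p = 1 from ?_, map_one]
        rw [← ofAdd_nsmul]
        exact congrArg _ (funext fun i => by simp)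
      have h1 := hpow p
      rw [hXp, ZMod.pow_card, mul_one, one_mul] at h1
      have hr1 : r = 1 := by
        by_contra hr1
        have h2 : (r - 1) • G = 0 := by rw [sub_smul, one_smul, ← h1, sub_self]
        rw [smul_eq_zero] at h2
        rcases h2 with h2 | h2
        · exact hr1 (sub_eq_zero.mp h2)
        · rw [h2, Matrix.det_zero] at hdetG
          exact zero_ne_one hdetG
      rw [hr, hr1, one_smul]
    obtain ⟨a, b, c, d, rfl⟩ : ∃ a b c d, G = Matrix.fromBlocks a b c d :=
      ⟨_, _, _, _, (Matrix.fromBlocks_toBlocks G).symm⟩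
    have hblk : ∀ v : (Fin 3 → ZMod p), b * M v = 0 ∧ d * M v = M v * a := by
      intro v
      have h := hfn v
      simp only [fn, MonoidHom.coe_mk, OneHom.coe_mk, toAdd_ofAdd, Matrix.fromBlocks_multiply,
        Matrix.fromBlocks_inj, mul_one, one_mul, mul_zero, zero_mul, add_zero, zero_add] at h
      refine ⟨by simpa using h.1, ?_⟩
      have := h.2.2.1
      rw [add_comm (M v * a) c] at this
      exact add_left_cancel this
    have hM0 : M (Pi.single 0 1) = 1 := by simp [M]
    have hb : b = 0 := by simpa [hM0] using (hblk (Pi.single 0 1)).1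
    have hda : d = a := by simpa [hM0] using (hblk (Pi.single 0 1)).2
    subst hb hda
    have hJ : d * J = J * d := by simpa [M] using (hblk (Pi.single 1 1)).2
    have hJT : d * J.transpose = J.transpose * d := by simpa [M] using (hblk (Pi.single 2 1)).2
    have hd := eq_scalar_of_commute_shift d hJ hJT
    obtain ⟨r, hr⟩ := keyM (SemidirectProduct.inr (-1)) (fg (-1))
      (by rw [SemidirectProduct.lift_inr]; rfl)
    simp only [fg, MonoidHom.coe_mk, OneHom.coe_mk, Matrix.fromBlocks_multiply, Matrix.fromBlocks_smul,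
      Matrix.fromBlocks_inj, Units.val_neg, Units.val_one, Int.cast_neg, Int.cast_one, mul_one, one_mul,
      mul_zero, zero_mul, add_zero, zero_add, neg_smul, one_smul, mul_neg, neg_mul] at hr
    have hr1 : r = 1 := by
      have h1 := hr.1
      by_contra hr1
      have h2 : (r - 1) • d = 0 := by rw [sub_smul, one_smul, ← h1, sub_self]
      rw [smul_eq_zero] at h2
      rcases h2 with h2 | h2
      · exact hr1 (sub_eq_zero.mp h2)
      · subst h2
        rw [Matrix.det_fromBlocks_zero₁₂, Matrix.det_zero, zero_mul] at hdetG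
        exact zero_ne_one hdetG
    subst hr1
    have hc : c = 0 := by
      have h1 := hr.2.2.1
      simp at h1
      ext i j
      have h3 := congrFun (congrFun h1 i) j
      simp at h3
      have : (2 : ZMod p) * c i j = 0 := by linear_combination h3
      simpa [h2p] using this
    subst hc
    show QuotientGroup.mk g = (1 : Matrix.ProjectiveSpecialLinearGroup (Fin (k + k)) (ZMod p))
    rw [QuotientGroup.eq_one_iff, Subgroup.mem_center_iff]
    intro y
    apply Subtype.ext
    show y.1 * g.1 = g.1 * y.1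
    rw [← hG, hd]
    have : R (Matrix.fromBlocks (d 0 0 • 1) 0 0 (d 0 0 • 1)) = d 0 0 • 1 := by
      have h1 : (Matrix.fromBlocks (d 0 0 • 1) 0 0 (d 0 0 • 1) : Matrix (Fin k ⊕ Fin k) (Fin k ⊕ Fin k) (ZMod p)) = d 0 0 • 1 := by
        rw [← Matrix.fromBlocks_one, Matrix.fromBlocks_smul, smul_zero]
      rw [h1]
      ext i j; simp [R, Matrix.one_apply]
    rw [this]
    simp

end Cfsg.Agent.S2533
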