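import Cfsg.Statements.S2534
import Cfsg.Agent.PermHall.Consequences

set_option autoImplicit false
open Cfsg

namespace Cfsg.Agent.S2534

/-- For `n ≥ 5` and a set of primes `π`, the alternating group of degree `n` satisfies the full Sylow analogue for `π` (its maximal `π`-subgroups are pairwise conjugate; for a finite group this says Hall `π`-subgroups exist, are all conjugate, and contain every `π`-subgroup up to conjugacy) if and only if either at most one prime of `π` divides its order or every prime dividing its order lies in `π`. -/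
theorem result (n : ℕ) (hn : 5 ≤ n) (π : Set ℕ) :
    Cfsg.IsDPiGroup π ↥(alternatingGroup (Fin n)) ↔
      ((∀ r s : ℕ, r.Prime → s.Prime → r ∈ π → s ∈ π → r ∣ Nat.card ↥(alternatingGroup (Fin n)) → s ∣ Nat.card ↥(alternatingGroup (Fin n)) → r = s) ∨
        ∀ r : ℕ, r.Prime → r ∣ Nat.card ↥(alternatingGroup (Fin n)) → r ∈ π) := by
  constructor
  · intro h
    haveI : Nontrivial (Fin n) := Fin.nontrivial_iff_two_le.2 (by omega)
    have hnot : ¬ Agent.PermHall.Nontriv π n := fun hN => Agent.PermHall.not_dPi_alt hn hN h
    rcases Agent.PermHall.trivial_of_not_nontriv hnot with h' | h'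
    · exact Or.inl fun r s hr hs hrπ hsπ hrd hsd => h' r s hr hs hrπ hsπ
        (Agent.PermHall.prime_le_of_dvd hr hrd) (Agent.PermHall.prime_le_of_dvd hs hsd)
    · exact Or.inr fun r hr hd => h' r hr (Agent.PermHall.prime_le_of_dvd hr hd)
  · exact fun h => Agent.PermHall.dPi_of_trivial h


end Cfsg.Agent.S2534
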