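import Cfsg.Statements.S2537
import Cfsg.Agent.S0799
import Cfsg.Agent.S0802
import Cfsg.Agent.S0803
import Cfsg.Agent.Lib.Hall
import Cfsg.Agent.MaxSub.Dickson.SmallOrder
import Cfsg.Agent.PSLTwo25.DicksonBound

set_option autoImplicit false
open Cfsg
open scoped MatrixGroups

namespace Cfsg.Agent.S2537

open Matrix MulAction Cfsg.Agent.MaxSub.Dickson

/-- The largest divisor of the order with primes in `{2, 3}` is the order of a Hall subgroup. -/
theorem card_hall {G : Type*} [Group G] [Finite G] {H : Subgroup G}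
    (hH : Cfsg.IsPiHall ({2, 3} : Set ℕ) H) :
    Nat.card H = 2 ^ (Nat.card G).factorization 2 * 3 ^ (Nat.card G).factorization 3 := by
  have hfac : ∀ r : ℕ, r.Prime → r ∈ ({2, 3} : Set ℕ) →
      (Nat.card G).factorization r = (Nat.card H).factorization r := by
    intro r hr hrπ
    rw [← H.card_mul_index, Nat.factorization_mul Nat.card_pos.ne' H.index_ne_zero_of_finite,
      Finsupp.add_apply, Nat.factorization_eq_zero_of_not_dvd (hH.2 r hr hrπ), add_zero]
  refine Nat.eq_of_factorization_eq Nat.card_pos.ne' (by positivity) fun r => ?_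
  rw [Nat.factorization_mul (by positivity) (by positivity), Finsupp.add_apply,
    Nat.prime_two.factorization_pow, Nat.prime_three.factorization_pow]
  by_cases h2 : r = 2
  · subst h2; simp [hfac 2 Nat.prime_two (by simp)]
  by_cases h3 : r = 3
  · subst h3; simp [hfac 3 Nat.prime_three (by simp)]
  rw [Finsupp.single_eq_of_ne h2, Finsupp.single_eq_of_ne h3, add_zero]
  by_cases hr : r.Prime
  · refine Nat.factorization_eq_zero_of_not_dvd fun hd => ?_
    rcases hH.1 r hr hd with h | h
    · exact h2 h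
    · exact h3 h
  · exact Nat.factorization_eq_zero_of_not_prime _ hr

/-- A subgroup of that order is a Hall subgroup. -/
theorem isPiHall_of_card {G : Type*} [Group G] [Finite G] {H : Subgroup G}
    (hc : Nat.card H = 2 ^ (Nat.card G).factorization 2 * 3 ^ (Nat.card G).factorization 3) :
    Cfsg.IsPiHall ({2, 3} : Set ℕ) H := by
  refine ⟨fun r hr hd => ?_, fun r hr hrπ hd => ?_⟩
  · rw [hc] at hd
    rcases hr.dvd_mul.1 hd with h | h
    · exact Or.inl ((Nat.prime_dvd_prime_iff_eq hr Nat.prime_two).1 (hr.dvd_of_dvd_pow h))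
    · exact Or.inr ((Nat.prime_dvd_prime_iff_eq hr Nat.prime_three).1 (hr.dvd_of_dvd_pow h))
  · have h1 : r ^ ((Nat.card G).factorization r + 1) ∣ Nat.card G := by
      rw [pow_succ]
      nth_rw 2 [← H.card_mul_index]
      refine mul_dvd_mul ?_ hd
      rw [hc]
      rcases hrπ with h | h
      · rw [h]; exact dvd_mul_right _ _
      · rw [Set.mem_singleton_iff] at h; rw [h]; exact dvd_mul_left _ _
    have := (hr.pow_dvd_iff_le_factorization Nat.card_pos.ne').1 h1
    omega

variable {F : Type*} [Field F] [Fintype F] [DecidableEq F]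

/-- The kinds of subgroups of order prime to the characteristic. -/
theorem p_dvd_card_of_subfield {p : ℕ} [Fact p.Prime] [CharP F p] (hp : 5 ≤ p)
    {H : Subgroup PGL(2, F)} {F₀ : Subfield F} {h : PGL(2, F)}
    (he : H.map (MulAut.conj h⁻¹).toMonoidHom = (subPGL F₀).range ∨
      H.map (MulAut.conj h⁻¹).toMonoidHom = (subPSL F₀).range) : p ∣ Nat.card H := by
  have hpp : p.Prime := Fact.out
  obtain ⟨r, -, hr⟩ := card_subfield_pow F₀
  obtain ⟨e, -, hq⟩ := FiniteField.card F p
  have h0 : p ∣ Nat.card F₀ := hpp.dvd_of_dvd_pow (n := r) (by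
    rw [← hr, hq]; exact dvd_pow_self p e.ne_zero)
  rw [Nat.card_congr (H.equivMapOfInjective (MulAut.conj h⁻¹).toMonoidHom (MulAut.conj h⁻¹).injective).toEquiv]
  rcases he with he | he <;> rw [he]
  · rw [card_subPGL_range]
    exact dvd_mul_of_dvd_left (dvd_mul_of_dvd_left h0 _) _
  · have h1 : p ∣ Nat.gcd 2 (Nat.card F₀ - 1) * Nat.card (subPSL F₀).range := by
      rw [card_subPSL_range]
      exact dvd_mul_of_dvd_left (dvd_mul_of_dvd_left h0 _) _
    refine (hpp.dvd_mul.1 h1).resolve_left fun hg => ?_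
    have := Nat.le_of_dvd (by norm_num) (hg.trans (Nat.gcd_dvd_left _ _))
    omega

/-- `PSL(2, F)` has a Hall `{2, 3}`-subgroup exactly in the stated cases. -/
theorem main {p : ℕ} [Fact p.Prime] [CharP F p] (hp : 5 ≤ p) (q : ℕ) (hq : Fintype.card F = q) :
    (∃ H : Subgroup (Matrix.ProjectiveSpecialLinearGroup (Fin 2) F), Cfsg.IsPiHall ({2, 3} : Set ℕ) H) ↔
      (3 ∣ q - 1 ∧ q % 4 = 1) ∨ (3 ∣ q + 1 ∧ q % 4 = 3) ∨
        2 ^ (q ^ 2 - 1).factorization 2 * 3 ^ (q ^ 2 - 1).factorization 3 = 24 ∨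
        2 ^ (q ^ 2 - 1).factorization 2 * 3 ^ (q ^ 2 - 1).factorization 3 = 48 := by
  classical
  have hpp : p.Prime := Fact.out
  obtain ⟨e, -, hqe⟩ := FiniteField.card F p
  rw [hq] at hqe
  have hr : ∀ r : ℕ, r.Prime → r < p → ¬ r ∣ q := fun r hrp hlt hd => by
    rw [hqe] at hd
    exact absurd ((Nat.prime_dvd_prime_iff_eq hrp hpp).1 (hrp.dvd_of_dvd_pow hd)) hlt.ne
  have h2q : ¬ 2 ∣ q := hr 2 Nat.prime_two (by omega)
  have h3q : ¬ 3 ∣ q := hr 3 Nat.prime_three (by omega)
  have hq5 : 5 ≤ q := hqe ▸ hp.trans (Nat.le_self_pow e.ne_zero p)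
  set n := Nat.card (Matrix.ProjectiveSpecialLinearGroup (Fin 2) F) with hndef
  have hn : 2 * n = q * (q - 1) * (q + 1) := by
    have h := Linear.card_PSL_two_mul (F := F)
    rw [hq, Nat.gcd_eq_left (show 2 ∣ q - 1 by omega)] at h
    exact h
  have hsq : q ^ 2 - 1 = (q - 1) * (q + 1) := by
    obtain ⟨m, rfl⟩ := Nat.exists_eq_add_of_le (show 1 ≤ q by omega)
    rw [Nat.add_sub_cancel_left]
    have : (1 + m) ^ 2 = m * (1 + m + 1) + 1 := by ring
    omega
  have hn' : 2 * n = q * (q ^ 2 - 1) := by rw [hsq, hn, mul_assoc]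
  have h0 : q ^ 2 - 1 ≠ 0 := by rw [hsq]; exact mul_ne_zero (by omega) (by omega)
  have hnpos : n ≠ 0 := Nat.card_pos.ne'
  have hfac2 : (q ^ 2 - 1).factorization 2 = n.factorization 2 + 1 := by
    have := congrArg (fun x : ℕ => x.factorization 2) hn'
    simp only [Nat.factorization_mul (show q ≠ 0 by omega) h0,
      Nat.factorization_mul (show (2 : ℕ) ≠ 0 by omega) hnpos, Finsupp.add_apply,
      Nat.Prime.factorization_self Nat.prime_two, Nat.factorization_eq_zero_of_not_dvd h2q] at this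
    omega
  have hfac3 : (q ^ 2 - 1).factorization 3 = n.factorization 3 := by
    have := congrArg (fun x : ℕ => x.factorization 3) hn'
    simp only [Nat.factorization_mul (show q ≠ 0 by omega) h0,
      Nat.factorization_mul (show (2 : ℕ) ≠ 0 by omega) hnpos, Finsupp.add_apply,
      Nat.factorization_eq_zero_of_not_dvd h3q,
      Nat.factorization_eq_zero_of_not_dvd (show ¬ 3 ∣ 2 by norm_num)] at this
    omega
  have hpart : 2 ^ (q ^ 2 - 1).factorization 2 * 3 ^ (q ^ 2 - 1).factorization 3 =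
      2 * (2 ^ n.factorization 2 * 3 ^ n.factorization 3) := by rw [hfac2, hfac3]; ring
  have h12 : 4 * 3 ∣ n := by
    refine (Nat.dvd_of_mul_dvd_mul_left (show 0 < 2 by norm_num) ?_)
    rw [hn]
    have ha : 2 * 4 ∣ (q - 1) * (q + 1) := by
      obtain ⟨m, hm⟩ : ∃ m, q = 2 * m + 1 := ⟨q / 2, by omega⟩
      subst hm
      rw [Nat.add_sub_cancel, show 2 * m * (2 * m + 1 + 1) = 4 * (m * (m + 1)) by ring]
      obtain ⟨t, ht⟩ := Nat.even_mul_succ_self m
      exact ⟨t, by rw [ht]; ring⟩
    have hb : 3 ∣ (q - 1) * (q + 1) := by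
      rcases (show q % 3 = 1 ∨ q % 3 = 2 by omega) with h | h
      · exact dvd_mul_of_dvd_left (by omega) _
      · exact dvd_mul_of_dvd_right (by omega) _
    rw [mul_assoc, ← mul_assoc 2 4 3]
    exact dvd_mul_of_dvd_right (Nat.Coprime.mul_dvd_of_dvd_of_dvd (by norm_num) ha hb) _
  let π := Matrix.ProjectiveSpecialLinearGroup.toPGL (n := Fin 2) (R := F)
  have hπ : Function.Injective π := Matrix.ProjectiveSpecialLinearGroup.toPGL_injective
  have hodd : Odd (Fintype.card F) := by rw [hq, Nat.odd_iff]; omega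
  constructor
  · rintro ⟨H, hH⟩
    have hc := card_hall hH
    have h12H : 12 ∣ Nat.card H := by
      rw [hc]
      refine mul_dvd_mul (a := 4) (b := 2 ^ n.factorization 2) (c := 3) ?_ ?_
      · exact Nat.pow_dvd_pow 2 ((Nat.prime_two.pow_dvd_iff_le_factorization (k := 2) hnpos).1
          ((dvd_mul_right 4 3).trans h12))
      · exact dvd_pow_self 3 (Nat.Prime.factorization_pos_of_dvd Nat.prime_three hnpos
          ((dvd_mul_left 3 4).trans h12)).ne'
    let H' := H.map π
    have hcard : Nat.card H' = Nat.card H :=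
      (Nat.card_congr (H.equivMapOfInjective π hπ).toEquiv).symm
    have hL : H' ≤ lsub F := (Subgroup.map_le_range _ _).trans range_toPGL_eq.le
    have hpH : ¬ p ∣ Nat.card H := fun hd => by
      rcases hH.1 p hpp hd with h | h
      · omega
      · rw [Set.mem_singleton_iff] at h; omega
    have fin : ∀ m k : ℕ, (m = q - 1 ∨ m = q + 1) → 2 * k = m → 6 ∣ k →
        (3 ∣ q - 1 ∧ q % 4 = 1) ∨ (3 ∣ q + 1 ∧ q % 4 = 3) := by
      intro m k hm hk hd
      rcases hm with rfl | rfl
      · left; omega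
      · right; omega
    have hk : ∀ {a b : OnePoint (AlgebraicClosure F)} {m : ℕ}, IsPair F a b m →
        2 * Nat.card (tor (F := F) a b ⊓ lsub F : Subgroup PGL(2, F)) = m ∧
          (m = q - 1 ∨ m = q + 1) := by
      intro a b m hm
      have h1 := S0799.card_tor_inf hm
      rw [hq, Nat.gcd_eq_left (show 2 ∣ q - 1 by omega)] at h1
      exact ⟨h1, hq ▸ S0799.pair_cases hm⟩
    rcases classifyF (K := AlgebraicClosure F) (p := p) H' with
      ⟨a, b, m, -, -, hm, hle, -⟩ | ⟨a, b, m, k, hm, hle, hk2, -, -, hck, ⟨iso⟩⟩ |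
      ⟨x, -, hd⟩ | ⟨-, hc', -⟩ | ⟨-, hc', -⟩ | ⟨-, hc', -⟩ | ⟨F₀, g, -, he⟩ | ⟨F₀, g, -, -, he⟩
    · obtain ⟨h1, h2⟩ := hk hm
      have h3 := Subgroup.card_dvd_of_le (le_inf hle hL)
      rw [hcard] at h3
      exact (fin m _ h2 h1 ((show 6 ∣ 12 by norm_num).trans (h12H.trans h3))).imp_right Or.inl
    · obtain ⟨h1, h2⟩ := hk hm
      have h3 := (S0799.dihedral_part hle hk2 hck iso).trans
        (Subgroup.card_dvd_of_le (le_inf inf_le_right (inf_le_left.trans hL)))
      rw [hcard] at hck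
      refine (fin m _ h2 h1 (Nat.dvd_trans ?_ h3)).imp_right Or.inl
      rw [hck] at h12H
      exact Nat.dvd_of_mul_dvd_mul_left (by norm_num) (show 2 * 6 ∣ 2 * k from h12H)
    · exact absurd (hcard ▸ hd) hpH
    · right; right; left
      rw [hpart, ← hc, ← hcard, hc']
    · right; right; right
      rw [hpart, ← hc, ← hcard, hc']
    · have h5 : 5 ∣ Nat.card H := by rw [← hcard, hc']; norm_num
      rcases hH.1 5 (by norm_num) h5 with h | h
      · omega
      · rw [Set.mem_singleton_iff] at h; omega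
    · exact absurd (hcard ▸ p_dvd_card_of_subfield hp (Or.inl he)) hpH
    · exact absurd (hcard ▸ p_dvd_card_of_subfield hp (Or.inr he)) hpH
  · intro h
    have hdih : ∀ m : ℕ, (m = q - 1 ∨ m = q + 1) → 3 ∣ m → 4 ∣ m →
        ∃ H : Subgroup (Matrix.ProjectiveSpecialLinearGroup (Fin 2) F),
          Cfsg.IsPiHall ({2, 3} : Set ℕ) H := by
      intro m hm h3m h4m
      haveI : Fact (Nat.Prime 3) := ⟨Nat.prime_three⟩
      obtain ⟨x, hx⟩ := exists_prime_orderOf_dvd_card'
        (G := Matrix.ProjectiveSpecialLinearGroup (Fin 2) F) 3 ((dvd_mul_left 3 4).trans h12)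
      have hc3 : Nat.card ((Subgroup.zpowers x).map π) = 3 := by
        rw [← Nat.card_congr ((Subgroup.zpowers x).equivMapOfInjective π hπ).toEquiv,
          Nat.card_zpowers, hx]
      obtain ⟨a, b, m', hm', h3'⟩ : ∃ (a b : OnePoint (AlgebraicClosure F)) (m' : ℕ),
          IsPair F a b m' ∧ 3 ∣ m' := by
        rcases classifyF (K := AlgebraicClosure F) (p := p) ((Subgroup.zpowers x).map π) with
          ⟨a, b, m', -, -, hm', -, hd⟩ | ⟨a, b, m', k, -, -, -, -, -, hck, -⟩ |
          ⟨x', -, hd⟩ | ⟨-, hc', -⟩ | ⟨-, hc', -⟩ | ⟨-, hc', -⟩ | ⟨F₀, g, -, he⟩ | ⟨F₀, g, -, -, he⟩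
        · exact ⟨a, b, m', hm', hc3 ▸ hd⟩
        · omega
        · exact absurd (Nat.le_of_dvd (by norm_num) (hc3 ▸ hd)) (by omega)
        · omega
        · omega
        · omega
        · exact absurd (Nat.le_of_dvd (by norm_num) (hc3 ▸ p_dvd_card_of_subfield hp (Or.inl he)))
            (by omega)
        · exact absurd (Nat.le_of_dvd (by norm_num) (hc3 ▸ p_dvd_card_of_subfield hp (Or.inr he)))
            (by omega)
      obtain rfl : m' = m := by
        rcases S0799.pair_cases hm' with h' | h' <;> rw [hq] at h' <;> rcases hm with h'' | h'' <;> omega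
      obtain ⟨k, hk, -, hck, ⟨iso⟩⟩ := hm'.stab_lsub hodd
      set D := (pairStab (F := F) a b ⊓ lsub F).comap π
      have hmap : D.map π = pairStab (F := F) a b ⊓ lsub F :=
        Subgroup.map_comap_eq_self (inf_le_right.trans range_toPGL_eq.ge)
      let eD : D ≃* (pairStab (F := F) a b ⊓ lsub F : Subgroup PGL(2, F)) :=
        (D.equivMapOfInjective π hπ).trans (MulEquiv.subgroupCongr hmap)
      have hcD : Nat.card D = m' := by rw [Nat.card_congr eD.toEquiv, hck, hk]
      haveI := PSLTwo25.DicksonPSL.solvable_dihedral k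
      haveI : Group.IsSolvable D :=
        Group.isSolvable_of_surjective (f := (eD.trans iso).symm.toMonoidHom) (eD.trans iso).symm.surjective
      obtain ⟨K, hKD, hK1, hK2⟩ := Hall.exists_isPiHallOf ({2, 3} : Set ℕ) D
      refine ⟨K, hK1, fun r hrp hrπ hd => ?_⟩
      have hidx : 2 * D.index * m' = q * (q - 1) * (q + 1) := by
        rw [← hn, hndef, ← D.card_mul_index, hcD]; ring
      rw [← Subgroup.relIndex_mul_index hKD] at hd
      rcases hrp.dvd_mul.1 hd with hd | hd
      · exact hK2 r hrp hrπ hd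
      · rcases hm with h' | h'
        · have h2 : 2 * D.index = q * (q + 1) := by
            apply Nat.eq_of_mul_eq_mul_right (show 0 < m' by omega)
            rw [hidx, h']; ring
          rcases hrπ with h'' | h''
          · obtain ⟨c, hc⟩ : 4 ∣ q * (q + 1) := h2 ▸ (mul_dvd_mul_left 2 (h'' ▸ hd : 2 ∣ D.index))
            have hodd' : Nat.Coprime 4 q := by
              rw [show 4 = 2 ^ 2 from rfl]
              exact Nat.Coprime.pow_left 2 (Nat.prime_two.coprime_iff_not_dvd.2 h2q)
            have := hodd'.dvd_of_dvd_mul_left ⟨c, hc⟩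
            omega
          · rw [Set.mem_singleton_iff] at h''
            have h3 : 3 ∣ q * (q + 1) := h2 ▸ dvd_mul_of_dvd_right (h'' ▸ hd) 2
            rcases Nat.prime_three.dvd_mul.1 h3 with h4 | h4
            · exact h3q h4
            · omega
        · have h2 : 2 * D.index = q * (q - 1) := by
            apply Nat.eq_of_mul_eq_mul_right (show 0 < m' by omega)
            rw [hidx, h']
          rcases hrπ with h'' | h''
          · obtain ⟨c, hc⟩ : 4 ∣ q * (q - 1) := h2 ▸ (mul_dvd_mul_left 2 (h'' ▸ hd : 2 ∣ D.index))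
            have hodd' : Nat.Coprime 4 q := by
              rw [show 4 = 2 ^ 2 from rfl]
              exact Nat.Coprime.pow_left 2 (Nat.prime_two.coprime_iff_not_dvd.2 h2q)
            have := hodd'.dvd_of_dvd_mul_left ⟨c, hc⟩
            omega
          · rw [Set.mem_singleton_iff] at h''
            have h3 : 3 ∣ q * (q - 1) := h2 ▸ dvd_mul_of_dvd_right (h'' ▸ hd) 2
            rcases Nat.prime_three.dvd_mul.1 h3 with h4 | h4
            · exact h3q h4
            · omega
    rcases h with ⟨h3, h4⟩ | ⟨h3, h4⟩ | h | h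
    · exact hdih (q - 1) (Or.inl rfl) h3 (by omega)
    · exact hdih (q + 1) (Or.inr rfl) h3 (by omega)
    · obtain ⟨H, ⟨e'⟩⟩ := (S0802.result p e (hq.trans hqe)).2 (fun hh => by omega)
      refine ⟨H, isPiHall_of_card ?_⟩
      rw [hpart] at h
      rw [Nat.card_congr e'.toEquiv, nat_card_alternatingGroup, Nat.card_fin,
        show Nat.factorial 4 / 2 = 12 from rfl, ← hndef]
      omega
    · have h16 : q ^ 2 % 16 = 1 := by
        have h' : 2 ^ (q ^ 2 - 1).factorization 2 * 3 ^ (q ^ 2 - 1).factorization 3 = 16 * 3 := h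
        have h16' : 16 ∣ q ^ 2 - 1 := by
          have hd : 16 ∣ 2 ^ (q ^ 2 - 1).factorization 2 :=
            (Nat.Coprime.dvd_of_dvd_mul_right (Nat.Coprime.pow_right _ (by norm_num))
              (h' ▸ dvd_mul_right 16 3))
          exact hd.trans (Nat.ordProj_dvd _ 2)
        omega
      obtain ⟨H, ⟨e'⟩⟩ := (S0803.result hq).2 h16
      refine ⟨H, isPiHall_of_card ?_⟩
      rw [hpart] at h
      rw [Nat.card_congr e'.toEquiv, Nat.card_perm, Nat.card_fin,
        show Nat.factorial 4 = 24 from rfl, ← hndef]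
      omega

/-- Let `F` be a finite field with `q` elements of characteristic `p ≥ 5`, and `ε = 1` if `q ≡ 1 (mod 4)`, `ε = -1` otherwise. Then `PSL(2, F)` has a Hall `{2, 3}`-subgroup if and only if `3` divides `q − ε`, or the `{2,3}`-part of `q² − 1` is 24, or the `{2,3}`-part of `q² − 1` is 48 (the `{2,3}`-part of `m` being the largest divisor of `m` with no prime factor other than 2 and 3). -/
theorem result {F : Type*} [Field F] [Fintype F] {p : ℕ} [Fact p.Prime] [CharP F p]
    (hp : 5 ≤ p) (q : ℕ) (hq : Fintype.card F = q) :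
    (∃ H : Subgroup (Matrix.ProjectiveSpecialLinearGroup (Fin 2) F), Cfsg.IsPiHall ({2, 3} : Set ℕ) H) ↔
      (3 ∣ q - 1 ∧ q % 4 = 1) ∨ (3 ∣ q + 1 ∧ q % 4 = 3) ∨
        2 ^ (q ^ 2 - 1).factorization 2 * 3 ^ (q ^ 2 - 1).factorization 3 = 24 ∨
        2 ^ (q ^ 2 - 1).factorization 2 * 3 ^ (q ^ 2 - 1).factorization 3 = 48 := by
  classical
  exact main hp q hq

end Cfsg.Agent.S2537
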