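import Cfsg.Statements.S2540
import Cfsg.Agent.Linear.Transvection

set_option autoImplicit false
open Cfsg

namespace Cfsg.Agent.S2540

/-- Let F be a finite field and n ≥ 1, excluding the case n = 2 with #F ≤ 3. A subgroup of GL_n(F) that is normalized by every element of SL_n(F) either consists of scalar matrices or contains SL_n(F). -/
theorem result {F : Type*} [Field F] [Fintype F] (n : ℕ) (hn : 1 ≤ n) (hex : ¬ (n = 2 ∧ Fintype.card F ≤ 3)) (G : Subgroup (Matrix.GeneralLinearGroup (Fin n) F)) (hG : ∀ s : Matrix.SpecialLinearGroup (Fin n) F, ∀ g ∈ G, (Matrix.SpecialLinearGroup.toGL s) * g * (Matrix.SpecialLinearGroup.toGL s)⁻¹ ∈ G) : (∀ g ∈ G, ∃ c : F, (g : Matrix (Fin n) (Fin n) F) = c • (1 : Matrix (Fin n) (Fin n) F)) ∨ (Matrix.SpecialLinearGroup.toGL : Matrix.SpecialLinearGroup (Fin n) F →* _).range ≤ G := by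
  classical
  rcases Nat.lt_or_ge n 2 with h1 | h2
  · right
    have : n = 1 := by omega
    subst this
    rintro _ ⟨s, rfl⟩
    have hs : s = 1 := Subsingleton.elim _ _
    rw [hs, map_one]
    exact one_mem _
  · haveI : Nontrivial (Fin n) := Fin.nontrivial_iff_two_le.2 h2
    have hq : n = 2 → 4 ≤ Nat.card F := by
      intro h; rw [Nat.card_eq_fintype_card]; by_contra hc; exact hex ⟨h, by omega⟩
    have hperf : commutator (Matrix.SpecialLinearGroup (Fin n) F) = ⊤ := by
      rcases h2.eq_or_lt with h | h
      · subst h
        obtain ⟨a, ha, hasq⟩ : ∃ a : F, a ≠ 0 ∧ a ^ 2 ≠ 1 := by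
          by_contra hh
          push Not at hh
          have h4 := hq rfl
          rw [Nat.card_eq_fintype_card] at h4
          have hsub : (Finset.univ : Finset F) ⊆ {0, 1, -1} := by
            intro x _
            simp only [Finset.mem_insert, Finset.mem_singleton]
            by_cases hx : x = 0
            · exact Or.inl hx
            · exact Or.inr (sq_eq_one_iff.1 (hh x hx))
          have := (Finset.card_le_card hsub).trans Finset.card_le_three
          rw [Finset.card_univ] at this
          omega
        exact Matrix.SL2.commutator_eq_top ha hasq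
      · exact Cfsg.Agent.Linear.commutator_SL_eq_top (by rw [Fintype.card_fin]; omega)
    haveI := Cfsg.Agent.Linear.isSimpleGroup_PSL_fin (F := F) n h2 hq
    let ι : Matrix.SpecialLinearGroup (Fin n) F →* Matrix.GeneralLinearGroup (Fin n) F :=
      Matrix.SpecialLinearGroup.toGL
    let N : Subgroup (Matrix.SpecialLinearGroup (Fin n) F) := G.comap ι
    haveI hN : N.Normal := ⟨fun a ha s => by
      show ι (s * a * s⁻¹) ∈ G
      rw [map_mul, map_mul, map_inv]
      exact hG s _ ha⟩
    let π := QuotientGroup.mk' (Subgroup.center (Matrix.SpecialLinearGroup (Fin n) F))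
    have hπ : Function.Surjective π := QuotientGroup.mk'_surjective _
    haveI : (N.map π).Normal := Subgroup.Normal.map hN π hπ
    rcases (this : (N.map π).Normal).eq_bot_or_eq_top with h | h
    · left
      intro g hg
      have hNc : N ≤ Subgroup.center (Matrix.SpecialLinearGroup (Fin n) F) := by
        intro a ha
        have : π a ∈ N.map π := Subgroup.mem_map_of_mem _ ha
        rw [h, Subgroup.mem_bot] at this
        exact (QuotientGroup.eq_one_iff a).1 this
      -- the commutator with `g`, as a map into the centre
      have key : ∀ s, ∃ z ∈ Subgroup.center (Matrix.SpecialLinearGroup (Fin n) F),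
          ι z = g * ι s * g⁻¹ * (ι s)⁻¹ := by
        intro s
        have hdet : ((g * ι s * g⁻¹ * (ι s)⁻¹ : Matrix.GeneralLinearGroup (Fin n) F) :
            Matrix (Fin n) (Fin n) F).det = 1 := by
          have := congrArg Units.val (map_mul (Matrix.GeneralLinearGroup.det (n := Fin n) (R := F))
            (g * ι s * g⁻¹) (ι s)⁻¹)
          have h3 : Matrix.GeneralLinearGroup.det (g * ι s * g⁻¹ * (ι s)⁻¹) = 1 := by
            simp only [map_mul, map_inv]
            rw [mul_comm (Matrix.GeneralLinearGroup.det g), mul_inv_cancel_right, mul_inv_cancel]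
          exact congrArg Units.val h3
        refine ⟨⟨_, hdet⟩, hNc ?_, Units.ext rfl⟩
        show ι ⟨_, hdet⟩ ∈ G
        have : ι ⟨_, hdet⟩ = g * ι s * g⁻¹ * (ι s)⁻¹ := Units.ext rfl
        rw [this, mul_assoc, mul_assoc, ← mul_assoc (ι s)]
        exact mul_mem hg (hG s _ (inv_mem hg))
      choose z hz hzι using key
      have hinj : Function.Injective ι := Matrix.SpecialLinearGroup.toGL_injective
      let φ : Matrix.SpecialLinearGroup (Fin n) F →*
          Subgroup.center (Matrix.SpecialLinearGroup (Fin n) F) :=
        MonoidHom.mk' (fun s => ⟨z s, hz s⟩) (by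
          intro s t
          apply Subtype.ext
          apply hinj
          show ι (z (s * t)) = ι (z s * z t)
          have hc : ι (z t) * ι s = ι s * ι (z t) := by
            rw [← map_mul, ← map_mul, Subgroup.mem_center_iff.1 (hz t) s]
          rw [map_mul ι (z s) (z t), hzι s, hzι (s * t), map_mul]
          set A := g * ι s * g⁻¹ * (ι s)⁻¹ with hA
          set B := g * ι t * g⁻¹ * (ι t)⁻¹ with hB
          have hc' : B * ι s = ι s * B := by rw [hB, ← hzι t]; exact hc
          calc g * (ι s * ι t) * g⁻¹ * (ι s * ι t)⁻¹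
              = A * (ι s * B * (ι s)⁻¹) := by rw [hA, hB]; group
            _ = A * B := by rw [← hc', mul_inv_cancel_right]
            _ = A * ι (z t) := by rw [hzι t])
      have hφ : φ = 1 := by
        apply MonoidHom.ext
        intro s
        have hle : commutator (Matrix.SpecialLinearGroup (Fin n) F) ≤ φ.ker := by
          rw [commutator_def, Subgroup.commutator_le]
          intro a _ b _
          rw [MonoidHom.mem_ker, map_commutatorElement, commutatorElement_eq_one_iff_mul_comm]
          exact Subtype.ext (Subgroup.mem_center_iff.1 (φ b).2 (φ a).1)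
        rw [hperf] at hle
        exact hle (Subgroup.mem_top s)
      have hcomm : ∀ s, g * ι s = ι s * g := by
        intro s
        have h3 : ((φ s : _) : Matrix.SpecialLinearGroup (Fin n) F) = 1 := by rw [hφ]; rfl
        have h4 := hzι s
        rw [show z s = 1 from h3, map_one] at h4
        calc g * ι s = (g * ι s * g⁻¹ * (ι s)⁻¹) * (ι s * g) := by group
          _ = ι s * g := by rw [← h4, one_mul]
      obtain ⟨c, hc⟩ := Matrix.mem_range_scalar_of_commute_transvectionStruct
        (M := (g : Matrix (Fin n) (Fin n) F)) (fun t => (congrArg Units.val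
          (hcomm ⟨t.toMatrix, by simp⟩)).symm)
      exact ⟨c, by rw [← hc]; simp [Matrix.smul_one_eq_diagonal]⟩
    · right
      have htop : N = ⊤ := by
        rw [eq_top_iff, ← hperf]
        have hq : ∀ x : Matrix.SpecialLinearGroup (Fin n) F, ∃ a ∈ N,
            ∃ z ∈ Subgroup.center (Matrix.SpecialLinearGroup (Fin n) F), x = a * z := by
          intro x
          obtain ⟨a, ha, hax⟩ := Subgroup.mem_map.1 (h ▸ Subgroup.mem_top (π x))
          exact ⟨a, ha, a⁻¹ * x, (QuotientGroup.eq).1 hax, by group⟩
        refine Subgroup.Normal.quotient_commutative_iff_commutator_le.1 ⟨⟨fun u v => ?_⟩⟩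
        obtain ⟨x, rfl⟩ := QuotientGroup.mk_surjective u
        obtain ⟨y, rfl⟩ := QuotientGroup.mk_surjective v
        obtain ⟨a, ha, z, hz, rfl⟩ := hq x
        obtain ⟨b, hb, w, hw, rfl⟩ := hq y
        simp only [QuotientGroup.mk_mul, (QuotientGroup.eq_one_iff a).2 ha,
          (QuotientGroup.eq_one_iff b).2 hb, one_mul]
        rw [← QuotientGroup.mk_mul, ← QuotientGroup.mk_mul, Subgroup.mem_center_iff.1 hw z]
      rintro _ ⟨s, rfl⟩
      have : s ∈ N := htop ▸ Subgroup.mem_top s
      exact this

end Cfsg.Agent.S2540
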