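import Cfsg.Statements.S2541


set_option autoImplicit false
open Cfsg

namespace Cfsg.Agent.S2541

/-- Let F be a field with 9 elements. The symmetric group S_6 is not isomorphic to PGL_2(F) (although both have index-2 subgroups isomorphic to A_6). -/
theorem result {F : Type*} [Field F] [Fintype F] (hF : Fintype.card F = 9) : ¬ Nonempty (Equiv.Perm (Fin 6) ≃* Matrix.ProjGenLinGroup (Fin 2) F) := by
  classical
  rintro ⟨e⟩
  -- `S₆` has no element whose order is divisible by 8
  have h6 : ∀ σ : Equiv.Perm (Fin 6), orderOf σ ∣ 60 := by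
    intro σ
    rw [← Equiv.Perm.lcm_cycleType]
    apply Multiset.lcm_dvd.mpr
    intro k hk
    have h1 : k ≤ σ.cycleType.sum := Multiset.le_sum_of_mem hk
    have h2 : σ.cycleType.sum ≤ 6 := by
      rw [Equiv.Perm.sum_cycleType]
      simpa using σ.support.card_le_univ
    have h3 := Equiv.Perm.two_le_of_mem_cycleType hk
    have : k ≤ 6 := le_trans h1 h2
    interval_cases k <;> decide
  obtain ⟨w, hw⟩ := IsCyclic.exists_ofOrder_eq_natCard (α := Fˣ)
  rw [Nat.card_units, Nat.card_eq_fintype_card, hF] at hw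
  let D : GL (Fin 2) F := Matrix.GeneralLinearGroup.mkOfDetNeZero (Matrix.diagonal ![(w : F), 1]) (by simp)
  have h60 : orderOf (QuotientGroup.mk D : GL (Fin 2) F ⧸ Subgroup.center (GL (Fin 2) F)) ∣ 60 :=
    (e.symm.orderOf_eq (show Matrix.ProjGenLinGroup (Fin 2) F from QuotientGroup.mk D)).symm.dvd.trans (h6 _)
  rw [orderOf_dvd_iff_pow_eq_one, ← QuotientGroup.mk_pow, QuotientGroup.eq_one_iff] at h60
  rw [Matrix.GeneralLinearGroup.center_eq_range_scalar, MonoidHom.mem_range] at h60
  obtain ⟨c, hc⟩ := h60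
  have hc' : Matrix.diagonal (fun _ : Fin 2 => (c : F)) = (Matrix.diagonal ![(w : F), 1]) ^ 60 := by
    have := congrArg Units.val hc
    simpa [D, Matrix.GeneralLinearGroup.scalar, Matrix.scalar_apply] using this
  rw [Matrix.diagonal_pow] at hc'
  have h0 := congrFun (Matrix.diagonal_injective hc') 0
  have h1 := congrFun (Matrix.diagonal_injective hc') 1
  simp at h0 h1
  have hdvd : orderOf w ∣ 60 := by
    rw [orderOf_dvd_iff_pow_eq_one]
    apply Units.ext
    rw [Units.val_pow_eq_pow_val, ← h0, h1, Units.val_one]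
  rw [hw] at hdvd
  norm_num at hdvd

end Cfsg.Agent.S2541
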