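import Cfsg.Statements.S2542
import Cfsg.Agent.SmallPSL.Eleven

set_option autoImplicit false
open Cfsg

namespace Cfsg.Agent.S2542

/-- Let F be a field with 11 elements. PSL_2(F) has a subgroup H of index 11 isomorphic to the alternating group A_5, and the action of PSL_2(F) on the cosets of H is 2-transitive (of degree 11). -/
theorem result {F : Type*} [Field F] [Fintype F] (hF : Fintype.card F = 11) : ∃ H : Subgroup (Matrix.ProjectiveSpecialLinearGroup (Fin 2) F), H.index = 11 ∧ Nonempty (H ≃* alternatingGroup (Fin 5)) ∧ MulAction.IsMultiplyPretransitive (Matrix.ProjectiveSpecialLinearGroup (Fin 2) F) ((Matrix.ProjectiveSpecialLinearGroup (Fin 2) F) ⧸ H) 2 := by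
  haveI := Cfsg.Agent.SmallPSL.fact_eleven
  obtain ⟨e⟩ : Nonempty (ZMod 11 ≃+* F) := ⟨FiniteField.ringEquivOfCardEq (by rw [ZMod.card, hF])⟩
  obtain ⟨f⟩ := Cfsg.Agent.SmallPSL.psl_congr e
  obtain ⟨e0⟩ := Cfsg.Agent.SmallPSL.Eleven.iso_K0
  let φ := f.toMonoidHom
  refine ⟨(Cfsg.Agent.SmallPSL.Eleven.K0).map φ, ?_, ?_, ?_⟩
  · exact (Subgroup.index_map_equiv _ f).trans (Cfsg.Agent.SmallPSL.Eleven.index_A5 ⟨e0⟩)
  · exact ⟨((Subgroup.equivMapOfInjective _ φ f.injective).symm).trans e0⟩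
  · haveI h2 := Cfsg.Agent.SmallPSL.Eleven.two_trans
    rw [MulAction.is_two_pretransitive_iff] at h2 ⊢
    intro a b c d hab hcd
    obtain ⟨a, rfl⟩ := QuotientGroup.mk_surjective a
    obtain ⟨b, rfl⟩ := QuotientGroup.mk_surjective b
    obtain ⟨c, rfl⟩ := QuotientGroup.mk_surjective c
    obtain ⟨d, rfl⟩ := QuotientGroup.mk_surjective d
    obtain ⟨a, rfl⟩ := f.surjective a
    obtain ⟨b, rfl⟩ := f.surjective b
    obtain ⟨c, rfl⟩ := f.surjective c
    obtain ⟨d, rfl⟩ := f.surjective d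
    have key : ∀ x y, (QuotientGroup.mk (f x) : _ ⧸ Cfsg.Agent.SmallPSL.Eleven.K0.map φ) = QuotientGroup.mk (f y) ↔
        (QuotientGroup.mk x : _ ⧸ Cfsg.Agent.SmallPSL.Eleven.K0) = QuotientGroup.mk y := by
      intro x y
      rw [QuotientGroup.eq, QuotientGroup.eq, ← map_inv, ← map_mul]
      exact Subgroup.mem_map_iff_mem f.injective
    obtain ⟨g, hg, hg'⟩ := h2 (fun h => hab ((key a b).2 h)) (fun h => hcd ((key c d).2 h))
    refine ⟨f g, ?_, ?_⟩
    · rw [MulAction.Quotient.smul_mk, smul_eq_mul] at hg ⊢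
      rw [← map_mul]
      exact (key _ _).2 hg
    · rw [MulAction.Quotient.smul_mk, smul_eq_mul] at hg' ⊢
      rw [← map_mul]
      exact (key _ _).2 hg'

end Cfsg.Agent.S2542
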