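import Cfsg.Statements.S2543
import Cfsg.Agent.SmallPSL.Eleven

set_option autoImplicit false
open scoped Pointwise
open Cfsg

namespace Cfsg.Agent.S2543

/-- Let F be a field with 11 elements. PSL_2(F) has exactly 22 subgroups isomorphic to the alternating group A_5, and they form two conjugacy classes: there are two such subgroups that are not conjugate, and every such subgroup is conjugate to one of these two. -/
theorem result {F : Type*} [Field F] [Fintype F] (hF : Fintype.card F = 11) : Nat.card {H : Subgroup (Matrix.ProjectiveSpecialLinearGroup (Fin 2) F) // Nonempty (H ≃* alternatingGroup (Fin 5))} = 22 ∧ ∃ H K : Subgroup (Matrix.ProjectiveSpecialLinearGroup (Fin 2) F), Nonempty (H ≃* alternatingGroup (Fin 5)) ∧ Nonempty (K ≃* alternatingGroup (Fin 5)) ∧ (∀ g : Matrix.ProjectiveSpecialLinearGroup (Fin 2) F, MulAut.conj g • H ≠ K) ∧ ∀ L : Subgroup (Matrix.ProjectiveSpecialLinearGroup (Fin 2) F), Nonempty (L ≃* alternatingGroup (Fin 5)) → ∃ g : Matrix.ProjectiveSpecialLinearGroup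 (Fin 2) F, MulAut.conj g • L = H ∨ MulAut.conj g • L = K := by
  haveI := Cfsg.Agent.SmallPSL.fact_eleven
  obtain ⟨e⟩ : Nonempty (ZMod 11 ≃+* F) := ⟨FiniteField.ringEquivOfCardEq (by rw [ZMod.card, hF])⟩
  obtain ⟨f⟩ := Cfsg.Agent.SmallPSL.psl_congr e
  let φ := f.toMonoidHom
  have hiso : ∀ L : Subgroup Cfsg.Agent.SmallPSL.Eleven.P, Nonempty (L ≃* alternatingGroup (Fin 5)) ↔
      Nonempty ((L.map φ : Subgroup _) ≃* alternatingGroup (Fin 5)) := fun L =>
    ⟨fun ⟨i⟩ => ⟨(Subgroup.equivMapOfInjective L φ f.injective).symm.trans i⟩,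
      fun ⟨i⟩ => ⟨(Subgroup.equivMapOfInjective L φ f.injective).trans i⟩⟩
  have hconj : ∀ (g : Cfsg.Agent.SmallPSL.Eleven.P) (L : Subgroup Cfsg.Agent.SmallPSL.Eleven.P), MulAut.conj (f g) • (L.map φ) = (MulAut.conj g • L).map φ := by
    intro g L
    ext x
    obtain ⟨y, rfl⟩ := f.surjective x
    rw [Subgroup.mem_pointwise_smul_iff_inv_smul_mem, show f y = φ y from rfl,
      show (MulAut.conj (f g))⁻¹ • φ y = φ ((MulAut.conj g)⁻¹ • y) by simp [φ, ← map_inv],
      Subgroup.mem_map_iff_mem f.injective, Subgroup.mem_map_iff_mem f.injective,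
      Subgroup.mem_pointwise_smul_iff_inv_smul_mem]
  constructor
  · rw [← Cfsg.Agent.SmallPSL.Eleven.card_A5_subgroups]
    exact (Nat.card_congr ((f.mapSubgroup.toEquiv).subtypeEquiv fun L => hiso L)).symm
  · refine ⟨Cfsg.Agent.SmallPSL.Eleven.K0.map φ, Cfsg.Agent.SmallPSL.Eleven.K1.map φ,
      (hiso _).1 Cfsg.Agent.SmallPSL.Eleven.iso_K0, (hiso _).1 Cfsg.Agent.SmallPSL.Eleven.iso_K1, ?_, ?_⟩
    · intro g h
      obtain ⟨g, rfl⟩ := f.surjective g
      rw [hconj] at h
      exact Cfsg.Agent.SmallPSL.Eleven.not_conj g (Subgroup.map_injective f.injective h)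
    · intro L hL
      obtain ⟨L, rfl⟩ := f.mapSubgroup.surjective L
      obtain ⟨g, hg⟩ := Cfsg.Agent.SmallPSL.Eleven.exists_conj ((hiso L).2 hL)
      refine ⟨f g, ?_⟩
      rcases hg with hg | hg
      · exact Or.inl ((hconj g L).trans (by rw [hg]))
      · exact Or.inr ((hconj g L).trans (by rw [hg]))

end Cfsg.Agent.S2543
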