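import Cfsg.Statements.S2547
import Cfsg.Agent.ChamberSt.Orth
import Cfsg.Agent.Forms.OmegaApps
import Cfsg.Agent.Classical.OrthForms

set_option autoImplicit false
open Cfsg

namespace Cfsg.Agent.S2547

open QuadraticMap Cfsg.Agent Cfsg.Agent.Classical Cfsg.Agent.ChamberSt in
theorem steinberg_odd {F : Type*} [Field F] [Fintype F] (p : ℕ) [Fact p.Prime] [CharP F p]
    (hodd : Odd (Fintype.card F)) (m : ℕ) :
    ∃ χ : Cfsg.POmega F (Cfsg.quadFormOdd m F) → ℂ,
      Cfsg.IsIrrCharacter (Cfsg.POmega F (Cfsg.quadFormOdd m F)) χ ∧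
      ∀ P : Sylow p (Cfsg.POmega F (Cfsg.quadFormOdd m F)), χ 1 = Nat.card P ∧
        ∀ x : Cfsg.POmega F (Cfsg.quadFormOdd m F), x ∈ P → x ≠ 1 → χ x = 0 := by
  classical
  have h2 : (2 : F) ≠ 0 := Forms.two_ne_zero_of_odd_card hodd
  have hpol : ∀ u v, polar (oddQF m F) u v = 2 * (u (.inl ()) * v (.inl ())) +
      ∑ i, (u (.inr (.inl i)) * v (.inr (.inr i)) + v (.inr (.inl i)) * u (.inr (.inr i))) := by
    intro u v
    simp only [polar, oddQF_apply, Cfsg.quadFormOdd, Pi.add_apply, add_mul, mul_add,
      Finset.sum_add_distrib]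
    ring
  have hs := fun j v => Forms.polar_oddQF_single (F := F) m j v
  have hB : BNondeg (oddQF m F) := by
    intro x hx
    funext i
    rcases i with ⟨⟩ | j | j
    · have h := hx (Pi.single (.inl ()) 1)
      rw [hpol] at h
      simp at h
      exact h.resolve_left h2
    · have h := hx (Pi.single (.inr (.inr j)) 1)
      rwa [polar_comm, (hs j x).2] at h
    · have h := hx (Pi.single (.inr (.inl j)) 1)
      rwa [polar_comm, (hs j x).1] at h
  let f : OrthFrame (oddQF m F) m :=
    { e := fun i => Pi.single (.inr (.inl i)) 1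
      y := fun i => Pi.single (.inr (.inr i)) 1
      q_e := fun i => by simp [oddQF_apply, Cfsg.quadFormOdd]
      q_y := fun i => by simp [oddQF_apply, Cfsg.quadFormOdd]
      B_ee := fun i j => by simp [(hs i _).1]
      B_yy := fun i j => by simp [(hs i _).2]
      B_ey := fun i j => by simp [(hs i _).1, Pi.single_apply]
      aniso := fun a h1 h2 h0 => by
        have e1 : ∀ i, a (.inr (.inr i)) = 0 := fun i => (hs i a).1.symm.trans (h1 i)
        have e2 : ∀ i, a (.inr (.inl i)) = 0 := fun i => (hs i a).2.symm.trans (h2 i)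
        simp [oddQF_apply, Cfsg.quadFormOdd, e1, e2] at h0
        funext i
        rcases i with ⟨⟩ | j | j <;> simp [h0, e1, e2] }
  have hd := finrank_eq hB f
  rw [Module.finrank_pi] at hd
  simp only [Fintype.card_sum, Fintype.card_unique, Fintype.card_fin] at hd
  exact orth_steinberg (funext (oddQF_apply m)) hB f
    (OrthGen.notExceptional_of_two_ne_zero h2) (by omega) (fun h => absurd h h2) p

/-- Let F be a finite field of characteristic p and consider the group PΩ_{2m+1}(F) of the quadratic form x₀² + Σ x_i y_i, where m ≥ 1 and #F is odd. This group has an irreducible complex character χ whose degree equals the order of a Sylow p-subgroup (namely q^(m²) when #F = q) and whose restriction to any Sylow p-subgroup P is the regular character of P: χ vanishes on the non-identity elements of P. (This is the Steinberg character.) -/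
theorem result {F : Type*} [Field F] [Fintype F] (p : ℕ) [Fact p.Prime] [CharP F p] (hodd : Odd (Fintype.card F)) (m : ℕ) (hm : 1 ≤ m) : ∃ χ : Cfsg.POmega F (Cfsg.quadFormOdd m F) → ℂ, Cfsg.IsIrrCharacter (Cfsg.POmega F (Cfsg.quadFormOdd m F)) χ ∧ ∀ P : Sylow p (Cfsg.POmega F (Cfsg.quadFormOdd m F)), χ 1 = Nat.card P ∧ ∀ x : Cfsg.POmega F (Cfsg.quadFormOdd m F), x ∈ P → x ≠ 1 → χ x = 0 := by
  exact steinberg_odd p hodd m

end Cfsg.Agent.S2547
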