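import Cfsg.Statements.S2548
import Cfsg.Agent.ChamberSt.Orth
import Cfsg.Agent.ChamberSt.PlusFourTwo
import Cfsg.Agent.Forms.OmegaApps
import Cfsg.Agent.Forms.OmegaPlus

set_option autoImplicit false
open Cfsg

namespace Cfsg.Agent.S2548

open QuadraticMap Cfsg.Agent Cfsg.Agent.Classical Cfsg.Agent.ChamberSt in
theorem steinberg_plus {F : Type*} [Field F] [Fintype F] (p : ℕ) [Fact p.Prime] [CharP F p] (m : ℕ)
    (hex : Fintype.card F ≠ 2 ∨ m ≠ 2) :
    ∃ χ : Cfsg.POmega F (Cfsg.quadFormPlus m F) → ℂ,
      Cfsg.IsIrrCharacter (Cfsg.POmega F (Cfsg.quadFormPlus m F)) χ ∧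
      ∀ P : Sylow p (Cfsg.POmega F (Cfsg.quadFormPlus m F)), χ 1 = Nat.card P ∧
        ∀ x : Cfsg.POmega F (Cfsg.quadFormPlus m F), x ∈ P → x ≠ 1 → χ x = 0 := by
  classical
  have hs := fun j v => Forms.polar_plusQF_single (F := F) m j v
  let f : OrthFrame (plusQF m F) m :=
    { e := fun i => Pi.single (.inl i) 1
      y := fun i => Pi.single (.inr i) 1
      q_e := fun i => by simp [plusQF_apply, Cfsg.quadFormPlus]
      q_y := fun i => by simp [plusQF_apply, Cfsg.quadFormPlus]
      B_ee := fun i j => by simp [(hs i _).1]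
      B_yy := fun i j => by simp [(hs i _).2]
      B_ey := fun i j => by simp [(hs i _).1, Pi.single_apply]
      aniso := fun a h1 h2 _ => by
        funext i
        rcases i with j | j
        · exact (hs j a).2.symm.trans (h2 j)
        · exact (hs j a).1.symm.trans (h1 j) }
  have hd := finrank_eq Forms.bNondeg_plusQF f
  rw [Module.finrank_pi] at hd
  simp only [Fintype.card_sum, Fintype.card_fin] at hd
  exact orth_steinberg (funext (plusQF_apply m)) Forms.bNondeg_plusQF f
    (Forms.notExceptional_plusQF hex) (by omega) (fun _ => by omega) p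

/-- Let F be a finite field of characteristic p and consider the group PΩ⁺_{2m}(F) of the hyperbolic quadratic form Σ x_i y_i with m ≥ 1, where Ω denotes the commutator subgroup of the full isometry group. This group has an irreducible complex character χ whose degree equals the order of a Sylow p-subgroup (equal to q^(m(m−1)) when #F = q, except in the degenerate case m = 2, q = 2, where this commutator subgroup has order 18 and its Sylow 2-subgroups have order 2) and whose restriction to any Sylow p-subgroup P is the regular character of P: χ vanishes on the non-identity elements of P. (This is the Steinberg character.) -/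
theorem result {F : Type*} [Field F] [Fintype F] (p : ℕ) [Fact p.Prime] [CharP F p] (m : ℕ) (hm : 1 ≤ m) : ∃ χ : Cfsg.POmega F (Cfsg.quadFormPlus m F) → ℂ, Cfsg.IsIrrCharacter (Cfsg.POmega F (Cfsg.quadFormPlus m F)) χ ∧ ∀ P : Sylow p (Cfsg.POmega F (Cfsg.quadFormPlus m F)), χ 1 = Nat.card P ∧ ∀ x : Cfsg.POmega F (Cfsg.quadFormPlus m F), x ∈ P → x ≠ 1 → χ x = 0 := by
  by_cases hex : Fintype.card F ≠ 2 ∨ m ≠ 2
  · exact steinberg_plus p m hex
  push Not at hex
  obtain ⟨hF, rfl⟩ := hex
  obtain ⟨⟨k, hk⟩, hp, hpk⟩ := FiniteField.card F p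
  obtain rfl : p = 2 := (Nat.prime_dvd_prime_iff_eq hp Nat.prime_two).1 (hF ▸ hpk ▸ dvd_pow_self p hk.ne')
  exact Cfsg.Agent.ChamberSt.PlusFourTwo.steinberg_plus_four_two hF

end Cfsg.Agent.S2548
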