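import Cfsg.Statements.S2549
import Cfsg.Agent.ChamberSt.Orth
import Cfsg.Agent.Forms.OmegaApps
import Cfsg.Agent.Classical.OrthForms
import Cfsg.Agent.S0300
import Cfsg.Agent.S2544
import Cfsg.Agent.Char.Kernel

set_option autoImplicit false
open Cfsg

namespace Cfsg.Agent.S2549

open QuadraticMap Cfsg.Agent Cfsg.Agent.Classical Cfsg.Agent.ChamberSt in
theorem steinberg_minus {F : Type*} [Field F] [Fintype F] (p : ℕ) [Fact p.Prime] [CharP F p] (m : ℕ)
    (a b : F) (hab : ∀ z₁ z₂ : F, z₁ ^ 2 + a * z₁ * z₂ + b * z₂ ^ 2 = 0 → z₁ = 0 ∧ z₂ = 0)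
    (hex : Fintype.card F ≠ 2 ∨ m ≠ 1) :
    ∃ χ : Cfsg.POmega F (Cfsg.quadFormMinus m F a b) → ℂ,
      Cfsg.IsIrrCharacter (Cfsg.POmega F (Cfsg.quadFormMinus m F a b)) χ ∧
      ∀ P : Sylow p (Cfsg.POmega F (Cfsg.quadFormMinus m F a b)), χ 1 = Nat.card P ∧
        ∀ x : Cfsg.POmega F (Cfsg.quadFormMinus m F a b), x ∈ P → x ≠ 1 → χ x = 0 := by
  classical
  have hB : BNondeg (minusQF m a b) := by
    refine bNondeg_congr (minusEquiv m) (minusEquiv_spec m a b) (bNondeg_hypExt _ fun z hz => ?_)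
    by_cases h2 : (2 : F) = 0
    · have hdet := binDisc_ne_zero (anisotropic_binQF hab)
      have ha : a ≠ 0 := fun h => hdet (by linear_combination a * h - 2 * b * h2)
      have h0 := hz ![1, 0]
      have h1 := hz ![0, 1]
      simp [polar_binQF, h2, ha] at h0 h1
      ext i; fin_cases i <;> assumption
    · have h := hz z
      rw [QuadraticMap.polar_self, two_smul, ← two_mul] at h
      exact anisotropic_binQF hab z ((mul_eq_zero.1 h).resolve_left h2)
  have hs := fun j v => Forms.polar_minusQF_single (F := F) m a b j v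
  let f : OrthFrame (minusQF m a b) m :=
    { e := fun i => Pi.single (.inl (.inl i)) 1
      y := fun i => Pi.single (.inl (.inr i)) 1
      q_e := fun i => by simp [minusQF_apply, Cfsg.quadFormMinus]
      q_y := fun i => by simp [minusQF_apply, Cfsg.quadFormMinus]
      B_ee := fun i j => by simp [(hs i _).1]
      B_yy := fun i j => by simp [(hs i _).2]
      B_ey := fun i j => by simp [(hs i _).1, Pi.single_apply]
      aniso := fun v h1 h2 h0 => by
        have e1 : ∀ i, v (.inl (.inr i)) = 0 := fun i => (hs i v).1.symm.trans (h1 i)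
        have e2 : ∀ i, v (.inl (.inl i)) = 0 := fun i => (hs i v).2.symm.trans (h2 i)
        simp [minusQF_apply, Cfsg.quadFormMinus, e1, e2] at h0
        obtain ⟨g1, g2⟩ := hab _ _ h0
        funext i
        rcases i with (j | j) | j
        · exact e2 j
        · exact e1 j
        · fin_cases j <;> assumption }
  have hd := finrank_eq hB f
  rw [Module.finrank_pi] at hd
  simp only [Fintype.card_sum, Fintype.card_fin] at hd
  refine orth_steinberg (funext (minusQF_apply m a b)) hB f (Forms.notExceptional_of ?_)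
    (by omega) (fun _ => by omega) p
  rw [Module.finrank_pi]
  simp only [Fintype.card_sum, Fintype.card_fin]
  exact hex.imp_right fun h => by omega

open Cfsg.Agent in
theorem steinberg_of_mulEquiv {G H : Type*} [Group G] [Group H] [Finite H] (e : G ≃* H) (p : ℕ)
    (h : ∃ χ : H → ℂ, Cfsg.IsIrrCharacter H χ ∧
      ∀ P : Sylow p H, χ 1 = Nat.card P ∧ ∀ x : H, x ∈ P → x ≠ 1 → χ x = 0) :
    ∃ χ : G → ℂ, Cfsg.IsIrrCharacter G χ ∧
      ∀ P : Sylow p G, χ 1 = Nat.card P ∧ ∀ x : G, x ∈ P → x ≠ 1 → χ x = 0 := by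
  obtain ⟨χ, hχ, hP⟩ := h
  refine ⟨χ ∘ e, Char.isIrrCharacter_comp_mulEquiv hχ e, fun P => ?_⟩
  let P' := P.comapOfInjective e.symm.toMonoidHom e.symm.injective
    (fun x _ => ⟨e x, e.symm_apply_apply x⟩)
  have hmem : ∀ x, x ∈ P → e x ∈ P' := fun x hx => by
    show e.symm (e x) ∈ P
    rwa [e.symm_apply_apply]
  refine ⟨?_, fun x hx hx1 => (hP P').2 (e x) (hmem x hx) (fun h => hx1 (e.injective (h.trans (map_one e).symm)))⟩
  show χ (e 1) = _
  rw [map_one, (hP P').1]
  congr 1
  exact Nat.card_congr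
    { toFun := fun z => ⟨e.symm z.1, z.2⟩
      invFun := fun z => ⟨e z.1, hmem z.1 z.2⟩
      left_inv := fun z => Subtype.ext (e.apply_symm_apply _)
      right_inv := fun z => Subtype.ext (e.symm_apply_apply _) }

/-- Let F be a finite field of characteristic p and consider the group PΩ⁻_{2m+2}(F) of the quadratic form Σ_{i<m} x_i y_i + (z₁² + a z₁ z₂ + b z₂²) with anisotropic binary part, m ≥ 0. This group has an irreducible complex character χ whose degree equals the order of a Sylow p-subgroup (namely q^(m(m+1)) when #F = q) and whose restriction to any Sylow p-subgroup P is the regular character of P: χ vanishes on the non-identity elements of P. (This is the Steinberg character.) -/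
theorem result {F : Type*} [Field F] [Fintype F] (p : ℕ) [Fact p.Prime] [CharP F p] (m : ℕ) (a b : F) (hab : ∀ z₁ z₂ : F, z₁ ^ 2 + a * z₁ * z₂ + b * z₂ ^ 2 = 0 → z₁ = 0 ∧ z₂ = 0) : ∃ χ : Cfsg.POmega F (Cfsg.quadFormMinus m F a b) → ℂ, Cfsg.IsIrrCharacter (Cfsg.POmega F (Cfsg.quadFormMinus m F a b)) χ ∧ ∀ P : Sylow p (Cfsg.POmega F (Cfsg.quadFormMinus m F a b)), χ 1 = Nat.card P ∧ ∀ x : Cfsg.POmega F (Cfsg.quadFormMinus m F a b), x ∈ P → x ≠ 1 → χ x = 0 := by
  by_cases hex : Fintype.card F ≠ 2 ∨ m ≠ 1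
  · exact steinberg_minus p m a b hab hex
  push Not at hex
  obtain ⟨hF, rfl⟩ := hex
  obtain ⟨⟨k, hk⟩, hp, hpk⟩ := FiniteField.card F p
  obtain rfl : p = 2 := (Nat.prime_dvd_prime_iff_eq hp Nat.prime_two).1 (hF ▸ hpk ▸ dvd_pow_self p hk.ne')
  letI : Fintype (GaloisField 2 2) := Fintype.ofFinite _
  have hK : Fintype.card (GaloisField 2 2) = 2 ^ 2 := by
    rw [← Nat.card_eq_fintype_card]; exact GaloisField.card 2 2 two_ne_zero
  obtain ⟨e⟩ := Cfsg.Agent.S0300.result hF hK a b hab
  exact steinberg_of_mulEquiv e 2 (Cfsg.Agent.S2544.result 2 2 le_rfl)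

end Cfsg.Agent.S2549
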