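import Cfsg.Statements.S2551
import Cfsg.Agent.SmallPSL.AltSevenFifteen
import Cfsg.Agent.Linear.SmallIsoEight

set_option autoImplicit false
open Cfsg

namespace Cfsg.Agent.S2551

/-- Let F be the field with 2 elements. GL_4(F) (≅ A_8) has a subgroup isomorphic to the alternating group A_7, and every such subgroup acts 2-transitively on the 15 non-zero vectors of F⁴: any ordered pair of distinct non-zero vectors is carried to any other by some element of the subgroup. -/
theorem result {F : Type*} [Field F] [Fintype F] (hF : Fintype.card F = 2) : (∃ H : Subgroup (Matrix.GeneralLinearGroup (Fin 4) F), Nonempty (H ≃* alternatingGroup (Fin 7))) ∧ ∀ H : Subgroup (Matrix.GeneralLinearGroup (Fin 4) F), Nonempty (H ≃* alternatingGroup (Fin 7)) → ∀ v w v' w' : Fin 4 → F, v ≠ 0 → w ≠ 0 → v ≠ w → v' ≠ 0 → w' ≠ 0 → v' ≠ w' → ∃ g ∈ H, (g : Matrix (Fin 4) (Fin 4) F).mulVec v = v' ∧ (g : Matrix (Fin 4) (Fin 4) F).mulVec w = w' := by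
  classical
  obtain ⟨e8⟩ := Agent.Linear.psl_four_two_iso hF
  have hone : ∀ a : F, a ≠ 0 → a = 1 := by
    intro a ha
    have h : Fintype.card Fˣ = 1 := by rw [Fintype.card_units, hF]
    haveI := (Fintype.card_eq_one_iff_nonempty_unique.1 h).some
    exact congrArg Units.val (Subsingleton.elim (Units.mk0 a ha) 1)
  refine ⟨?_, ?_⟩
  · have hc : Subgroup.center (Matrix.SpecialLinearGroup (Fin 4) F) = ⊥ := by
      refine eq_bot_iff.2 fun g hg => ?_
      obtain ⟨r, hr1, hr2⟩ := Matrix.SpecialLinearGroup.mem_center_iff.1 hg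
      have h1 : r = 1 := hone r fun h => by simp [h] at hr1
      rw [Subgroup.mem_bot]
      exact Subtype.ext (by rw [← hr2, h1]; simp)
    let eSL : alternatingGroup (Fin 8) ≃* Matrix.SpecialLinearGroup (Fin 4) F :=
      e8.symm.trans ((QuotientGroup.quotientMulEquivOfEq hc).trans QuotientGroup.quotientBot)
    let j : alternatingGroup (Fin 7) →* alternatingGroup (Fin 8) :=
      ((Equiv.Perm.extendDomainHom (finSuccAboveEquiv (Fin.last 7))).comp
        (alternatingGroup (Fin 7)).subtype).codRestrict _ fun σ => by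
          rw [Equiv.Perm.mem_alternatingGroup]
          show Equiv.Perm.sign ((σ : Equiv.Perm (Fin 7)).extendDomain _) = 1
          rw [Equiv.Perm.sign_extendDomain]
          exact σ.2
    have hj : Function.Injective j := fun a b h =>
      Subtype.ext (Equiv.Perm.extendDomainHom_injective _ (congrArg Subtype.val h))
    let φ : alternatingGroup (Fin 7) →* Matrix.GeneralLinearGroup (Fin 4) F :=
      Matrix.SpecialLinearGroup.toGL.comp (eSL.toMonoidHom.comp j)
    refine ⟨φ.range, ⟨(MonoidHom.ofInjective (f := φ) ?_).symm⟩⟩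
    intro a b h
    refine hj (eSL.injective (Subtype.ext ?_))
    exact congrArg Units.val h
  · rintro H ⟨e⟩ v w v' w' hv hw hvw hv' hw' hvw'
    haveI : IsSimpleGroup (alternatingGroup (Fin 7)) := alternatingGroup.isSimpleGroup (by simp)
    haveI : Nontrivial H := e.toEquiv.nontrivial
    haveI : IsSimpleGroup H := IsSimpleGroup.isSimpleGroup_of_surjective e.symm.toMonoidHom e.symm.surjective
    letI : DistribMulAction H (Fin 4 → F) :=
      { smul := fun g x => ((g : Matrix.GeneralLinearGroup (Fin 4) F) : Matrix (Fin 4) (Fin 4) F).mulVec x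
        one_smul := fun x => Matrix.one_mulVec x
        mul_smul := fun g h x => (Matrix.mulVec_mulVec x _ _).symm
        smul_zero := fun g => Matrix.mulVec_zero _
        smul_add := fun g x y => Matrix.mulVec_add _ x y }
    haveI : FaithfulSMul H (Fin 4 → F) := ⟨fun {g h} hgh => Subtype.ext (Units.ext
      (Matrix.toLin'.injective (LinearMap.ext fun x => hgh x)))⟩
    have hG : Nat.card H = 2520 := by
      have h := Agent.Linear.card_alternating_fin (N := 7) (by norm_num)
      rw [show Nat.factorial 7 = 5040 by decide] at h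
      rw [Nat.card_congr e.toEquiv]
      omega
    have hV : Nat.card (Fin 4 → F) = 16 := by
      rw [Nat.card_eq_fintype_card, Fintype.card_fun, hF]
      simp
    obtain ⟨g, h1, h2⟩ := Agent.SmallPSL.AltSevenFifteen.pair_transitive hG hV hv hw hvw hv' hw' hvw'
    exact ⟨g, g.2, h1, h2⟩


end Cfsg.Agent.S2551
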