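import Cfsg.Statements.S2552


set_option autoImplicit false
open Cfsg

namespace Cfsg.Agent.S2552

/-- Let F be a finite field and n ≥ 1. For every k, the special linear group SL_n(F) acts transitively on the set of k-dimensional subspaces of F^n: any two subspaces of the same dimension are carried onto each other by some matrix of determinant 1. -/
theorem result {F : Type*} [Field F] [Fintype F] (n : ℕ) (hn : 1 ≤ n) (U₁ U₂ : Submodule F (Fin n → F)) (h : Module.finrank F U₁ = Module.finrank F U₂) : ∃ g : Matrix.SpecialLinearGroup (Fin n) F, U₁.map ((Matrix.SpecialLinearGroup.toLin' g : (Fin n → F) ≃ₗ[F] (Fin n → F)) : (Fin n → F) →ₗ[F] (Fin n → F)) = U₂ := by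
  classical
  obtain ⟨C₁, hC₁⟩ := Submodule.exists_isCompl U₁
  obtain ⟨C₂, hC₂⟩ := Submodule.exists_isCompl U₂
  have hC : Module.finrank F C₁ = Module.finrank F C₂ := by
    have := Submodule.finrank_add_eq_of_isCompl hC₁
    have := Submodule.finrank_add_eq_of_isCompl hC₂
    omega
  let P : (Fin n → F) ≃ₗ[F] (Fin n → F) :=
    (Submodule.prodEquivOfIsCompl U₁ C₁ hC₁).symm ≪≫ₗ
      ((LinearEquiv.ofFinrankEq U₁ U₂ h).prodCongr (LinearEquiv.ofFinrankEq C₁ C₂ hC)) ≪≫ₗ
      Submodule.prodEquivOfIsCompl U₂ C₂ hC₂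
  have hP : ∀ x ∈ U₁, P x ∈ U₂ := by
    intro x hx
    have : (Submodule.prodEquivOfIsCompl U₁ C₁ hC₁).symm x = (⟨x, hx⟩, 0) :=
      Submodule.prodEquivOfIsCompl_symm_apply_left _ _ hC₁ ⟨x, hx⟩
    simp [P, this, Submodule.coe_prodEquivOfIsCompl']
  by_cases hbot : U₁ = ⊥
  · subst hbot
    rw [finrank_bot] at h
    refine ⟨1, ?_⟩
    rw [Submodule.map_bot, Submodule.finrank_eq_zero.mp h.symm]
  obtain ⟨v, hv, hv0⟩ := Submodule.exists_mem_ne_zero_of_ne_bot hbot
  obtain ⟨i, hi⟩ : ∃ i, v i ≠ 0 := by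
    by_contra h'
    push Not at h'
    exact hv0 (funext h')
  set A := LinearMap.toMatrix' P.toLinearMap with hA
  have hdetA : A.det ≠ 0 := by
    rw [hA, LinearMap.det_toMatrix']
    exact P.isUnit_det'.ne_zero
  let D : Matrix (Fin n) (Fin n) F := 1 + Matrix.vecMulVec v (Pi.single i ((A.det⁻¹ - 1) / v i))
  have hD : D.det = A.det⁻¹ := by
    have e : Matrix.vecMulVec v (Pi.single i ((A.det⁻¹ - 1) / v i)) =
        Matrix.replicateCol Unit v * Matrix.replicateRow Unit (Pi.single i ((A.det⁻¹ - 1) / v i)) := by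
      ext a b; simp [Matrix.vecMulVec, Matrix.mul_apply]
    simp only [D, e, Matrix.det_one_add_replicateCol_mul_replicateRow, single_dotProduct]
    rw [div_mul_cancel₀ _ hi]
    ring
  have hDU : ∀ x ∈ U₁, D.mulVec x ∈ U₁ := by
    intro x hx
    rw [Matrix.add_mulVec, Matrix.one_mulVec, Matrix.vecMulVec_mulVec]
    refine U₁.add_mem hx ?_
    rw [op_smul_eq_smul]
    exact U₁.smul_mem _ hv
  refine ⟨⟨A * D, by rw [Matrix.det_mul, hD, mul_inv_cancel₀ hdetA]⟩, ?_⟩
  refine Submodule.eq_of_le_of_finrank_eq ?_ ?_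
  · rintro _ ⟨x, hx, rfl⟩
    show (A * D).mulVec x ∈ U₂
    rw [← Matrix.mulVec_mulVec, hA, LinearMap.toMatrix'_mulVec]
    exact hP _ (hDU x hx)
  · rw [LinearEquiv.finrank_map_eq, h]

end Cfsg.Agent.S2552
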