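import Cfsg.Statements.S2561
import Cfsg.Agent.Forms.TwistF2
-- import your own Cfsg.Agent.* helpers here

set_option autoImplicit false
open Cfsg

namespace Cfsg.Agent.S2561

/-- Fix the non-singular alternating form on the 2m-dimensional space over the field of two elements obtained by polarizing the plus-type form Σ xᵢyᵢ (m ≥ 1). The functions q on the space with q(u + v) = q(u) + q(v) + f(u, v) (the quadratic forms polarizing to f) number 2^(2m); each is equivalent under an invertible linear map either to the plus-type form or to the minus-type form Σ xᵢyᵢ + (z₁² + z₁z₂ + z₂²); and those of plus type number 2^(2m−1) + 2^(m−1), those of minus type 2^(2m−1) − 2^(m−1). -/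
theorem result (m : ℕ) (hm : 1 ≤ m) :
    Nat.card {q : (Fin m ⊕ Fin m → ZMod 2) → ZMod 2 // (∀ u v : (Fin m ⊕ Fin m → ZMod 2), q (u + v) = q u + q v + (Cfsg.quadFormPlus m (ZMod 2) (u + v) - Cfsg.quadFormPlus m (ZMod 2) u - Cfsg.quadFormPlus m (ZMod 2) v))} = 2 ^ (2 * m) ∧
    (∀ q : (Fin m ⊕ Fin m → ZMod 2) → ZMod 2, (∀ u v : (Fin m ⊕ Fin m → ZMod 2), q (u + v) = q u + q v + (Cfsg.quadFormPlus m (ZMod 2) (u + v) - Cfsg.quadFormPlus m (ZMod 2) u - Cfsg.quadFormPlus m (ZMod 2) v)) →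
      (∃ g : (Fin m ⊕ Fin m → ZMod 2) ≃ₗ[ZMod 2] (Fin m ⊕ Fin m → ZMod 2), ∀ v, q v = Cfsg.quadFormPlus m (ZMod 2) (g v)) ∨
      (∃ g : (Fin m ⊕ Fin m → ZMod 2) ≃ₗ[ZMod 2] ((Fin (m - 1) ⊕ Fin (m - 1)) ⊕ Fin 2 → ZMod 2), ∀ v, q v = Cfsg.quadFormMinus (m - 1) (ZMod 2) 1 1 (g v))) ∧
    Nat.card {q : (Fin m ⊕ Fin m → ZMod 2) → ZMod 2 // (∀ u v : (Fin m ⊕ Fin m → ZMod 2), q (u + v) = q u + q v + (Cfsg.quadFormPlus m (ZMod 2) (u + v) - Cfsg.quadFormPlus m (ZMod 2) u - Cfsg.quadFormPlus m (ZMod 2) v)) ∧ ∃ g : (Fin m ⊕ Fin m → ZMod 2) ≃ₗ[ZMod 2] (Fin m ⊕ Fin m → ZMod 2), ∀ v, q v = Cfsg.quadFormPlus m (ZMod 2) (g v)} = 2 ^ (2 * m - 1) + 2 ^ (m - 1) ∧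
    Nat.card {q : (Fin m ⊕ Fin m → ZMod 2) → ZMod 2 // (∀ u v : (Fin m ⊕ Fin m → ZMod 2), q (u + v) = q u + q v + (Cfsg.quadFormPlus m (ZMod 2) (u + v) - Cfsg.quadFormPlus m (ZMod 2) u - Cfsg.quadFormPlus m (ZMod 2) v)) ∧ ∃ g : (Fin m ⊕ Fin m → ZMod 2) ≃ₗ[ZMod 2] ((Fin (m - 1) ⊕ Fin (m - 1)) ⊕ Fin 2 → ZMod 2), ∀ v, q v = Cfsg.quadFormMinus (m - 1) (ZMod 2) 1 1 (g v)} = 2 ^ (2 * m - 1) - 2 ^ (m - 1) := by
  classical
  have hmk : ∀ w u v : Fin m ⊕ Fin m → ZMod 2, Cfsg.quadFormPlus m (ZMod 2) (u + v) + Forms.f2Pol m (u + v) w = (Cfsg.quadFormPlus m (ZMod 2) u + Forms.f2Pol m u w) + (Cfsg.quadFormPlus m (ZMod 2) v + Forms.f2Pol m v w) + Forms.f2Pol m u v := fun w u v => by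
    have hadd : Forms.f2Pol m (u + v) w = Forms.f2Pol m u w + Forms.f2Pol m v w := by
      rw [Forms.f2Pol_eq_polar, Forms.f2Pol_eq_polar, Forms.f2Pol_eq_polar, QuadraticMap.polar_add_left]
    rw [hadd]
    simp only [Forms.f2Pol]
    ring
  let E : (Fin m ⊕ Fin m → ZMod 2) ≃ {q : (Fin m ⊕ Fin m → ZMod 2) → ZMod 2 // ∀ u v, q (u + v) = q u + q v + Forms.f2Pol m u v} :=
    Equiv.ofBijective (fun w => ⟨fun v => Cfsg.quadFormPlus m (ZMod 2) v + Forms.f2Pol m v w, hmk w⟩) ⟨fun a b hab => (Forms.existsUnique_twist (hmk a)).unique (fun _ => rfl) (fun v => congrFun (congrArg Subtype.val hab) v), fun q => by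
      obtain ⟨w, hw, -⟩ := Forms.existsUnique_twist q.2
      exact ⟨w, Subtype.ext (funext fun v => (hw v).symm)⟩⟩
  have hexcl : ∀ (q : (Fin m ⊕ Fin m → ZMod 2) → ZMod 2), (∃ g : (Fin m ⊕ Fin m → ZMod 2) ≃ₗ[ZMod 2] (Fin m ⊕ Fin m → ZMod 2), ∀ v, q v = Cfsg.quadFormPlus m (ZMod 2) (g v)) → (∃ g : (Fin m ⊕ Fin m → ZMod 2) ≃ₗ[ZMod 2] ((Fin (m - 1) ⊕ Fin (m - 1)) ⊕ Fin 2 → ZMod 2), ∀ v, q v = Cfsg.quadFormMinus (m - 1) (ZMod 2) 1 1 (g v)) → False := by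
    rintro q ⟨g, hg⟩ ⟨g', hg'⟩
    obtain ⟨k, rfl⟩ : ∃ k, m = k + 1 := ⟨m - 1, by omega⟩
    exact Forms.not_quadFormPlus_equiv_minus (F := ZMod 2) (a := 1) (b := 1) (fun z₁ z₂ => by revert z₁ z₂; decide) k (g.symm.trans g') (fun v => (hg' (g.symm v)).symm.trans ((hg (g.symm v)).trans (by rw [g.apply_symm_apply])))
  have hplus : ∀ w, (∃ g : (Fin m ⊕ Fin m → ZMod 2) ≃ₗ[ZMod 2] (Fin m ⊕ Fin m → ZMod 2), ∀ v, (E w).1 v = Cfsg.quadFormPlus m (ZMod 2) (g v)) ↔ Cfsg.quadFormPlus m (ZMod 2) w = 0 := by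
    intro w
    rcases Forms.twist_cases hm w with ⟨h, h'⟩ | ⟨h, h'⟩
    · exact iff_of_true h' h
    · exact iff_of_false (fun hh => hexcl _ hh h') h
  have hminus : ∀ w, (∃ g : (Fin m ⊕ Fin m → ZMod 2) ≃ₗ[ZMod 2] ((Fin (m - 1) ⊕ Fin (m - 1)) ⊕ Fin 2 → ZMod 2), ∀ v, (E w).1 v = Cfsg.quadFormMinus (m - 1) (ZMod 2) 1 1 (g v)) ↔ ¬ Cfsg.quadFormPlus m (ZMod 2) w = 0 := by
    intro w
    rcases Forms.twist_cases hm w with ⟨h, h'⟩ | ⟨h, h'⟩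
    · exact iff_of_false (fun hh => hexcl _ h' hh) (not_not.2 h)
    · exact iff_of_true h' h
  have hall : Nat.card (Fin m ⊕ Fin m → ZMod 2) = 2 ^ (2 * m) := by simp [two_mul]
  refine ⟨(Nat.card_congr E).symm.trans hall, fun q hq => ?_, ?_, ?_⟩
  · obtain ⟨w, hw⟩ := E.surjective ⟨q, hq⟩
    obtain rfl : (E w).1 = q := congrArg Subtype.val hw
    rcases Forms.twist_cases hm w with ⟨-, h⟩ | ⟨-, h⟩
    · exact Or.inl h
    · exact Or.inr h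
  · rw [← Forms.card_zeros_plus_f2 hm]
    exact (Nat.card_congr ((E.subtypeEquiv (fun w => (hplus w).symm)).trans (Equiv.subtypeSubtypeEquivSubtypeInter _ _))).symm
  · have h2 : Nat.card {v : Fin m ⊕ Fin m → ZMod 2 // Cfsg.quadFormPlus m (ZMod 2) v = 0} + Nat.card {v : Fin m ⊕ Fin m → ZMod 2 // ¬ Cfsg.quadFormPlus m (ZMod 2) v = 0} = 2 ^ (2 * m) := by
      rw [← Nat.card_sum, Nat.card_congr (Equiv.sumCompl _), hall]
    rw [Forms.card_zeros_plus_f2 hm, show 2 * m = 2 * m - 1 + 1 by omega, pow_succ] at h2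
    rw [← Nat.card_congr ((E.subtypeEquiv (fun w => (hminus w).symm)).trans (Equiv.subtypeSubtypeEquivSubtypeInter _ _))]
    have : 2 ^ (2 * m - 1 + 1 - 1) = 2 ^ (2 * m - 1) := by rw [Nat.add_sub_cancel]
    omega

end Cfsg.Agent.S2561
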