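import Cfsg.Statements.S2562
import Cfsg.Agent.Forms.TwistF2
-- import your own Cfsg.Agent.* helpers here

set_option autoImplicit false
open Cfsg

namespace Cfsg.Agent.S2562

/-- Witt indices over the field of two elements, m ≥ 1: for the plus-type form Σ xᵢyᵢ in dimension 2m some m-dimensional subspace is totally singular and no totally singular subspace has larger dimension; for the minus-type form Σ xᵢyᵢ + (z₁² + z₁z₂ + z₂²) in dimension 2m the maximal dimension of a totally singular subspace is m − 1. -/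
theorem result (m : ℕ) (hm : 1 ≤ m) :
    (∃ U : Submodule (ZMod 2) (Fin m ⊕ Fin m → ZMod 2), (∀ u ∈ U, Cfsg.quadFormPlus m (ZMod 2) u = 0) ∧ Module.finrank (ZMod 2) ↥U = m) ∧
    (∀ U : Submodule (ZMod 2) (Fin m ⊕ Fin m → ZMod 2), (∀ u ∈ U, Cfsg.quadFormPlus m (ZMod 2) u = 0) → Module.finrank (ZMod 2) ↥U ≤ m) ∧
    (∃ U : Submodule (ZMod 2) ((Fin (m - 1) ⊕ Fin (m - 1)) ⊕ Fin 2 → ZMod 2), (∀ u ∈ U, Cfsg.quadFormMinus (m - 1) (ZMod 2) 1 1 u = 0) ∧ Module.finrank (ZMod 2) ↥U = m - 1) ∧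
    (∀ U : Submodule (ZMod 2) ((Fin (m - 1) ⊕ Fin (m - 1)) ⊕ Fin 2 → ZMod 2), (∀ u ∈ U, Cfsg.quadFormMinus (m - 1) (ZMod 2) 1 1 u = 0) → Module.finrank (ZMod 2) ↥U ≤ m - 1) := by
  obtain ⟨k, rfl⟩ : ∃ k, m = k + 1 := ⟨m - 1, by omega⟩
  simp only [Nat.add_sub_cancel]
  have hA : Forms.BinaryAniso (1 : ZMod 2) 1 := fun z₁ z₂ => by revert z₁ z₂; decide
  refine ⟨?_, fun U hU => ?_, ?_, fun U hU => Forms.finrank_le_of_vanishes_quadFormMinus hA U hU⟩
  · let ι : (Fin (k + 1) → ZMod 2) →ₗ[ZMod 2] (Fin (k + 1) ⊕ Fin (k + 1) → ZMod 2) :=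
      { toFun := fun x => Sum.elim x 0
        map_add' := fun x y => by ext (i | i) <;> simp
        map_smul' := fun c x => by ext (i | i) <;> simp }
    refine ⟨LinearMap.range ι, ?_, ?_⟩
    · rintro _ ⟨x, rfl⟩
      simp [ι, Cfsg.quadFormPlus]
    · rw [LinearMap.finrank_range_of_inj (fun x y h => funext fun i => congrFun h (Sum.inl i)), Module.finrank_fin_fun]
  · have hnd : (QuadraticMap.polarBilin (Classical.plusQF (k + 1) (ZMod 2))).Nondegenerate := by
      refine ⟨fun u hu => Forms.f2Pol_nondeg fun v => ?_, fun u hu => Forms.f2Pol_nondeg fun v => ?_⟩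
      · rw [Forms.f2Pol_eq_polar]; exact hu v
      · rw [Forms.f2Pol_eq_polar, QuadraticMap.polar_comm]; exact hu v
    have h := Forms.two_mul_finrank_le_of_totallySingular hnd (W := U) (fun x hx => by rw [Classical.plusQF_apply, hU x hx])
    rw [Module.finrank_pi] at h
    simp at h
    omega
  · let ι : (Fin k → ZMod 2) →ₗ[ZMod 2] ((Fin k ⊕ Fin k) ⊕ Fin 2 → ZMod 2) :=
      { toFun := fun x => Sum.elim (Sum.elim x 0) 0
        map_add' := fun x y => by ext ((i | i) | i) <;> simp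
        map_smul' := fun c x => by ext ((i | i) | i) <;> simp }
    refine ⟨LinearMap.range ι, ?_, ?_⟩
    · rintro _ ⟨x, rfl⟩
      simp [ι, Cfsg.quadFormMinus]
    · rw [LinearMap.finrank_range_of_inj (fun x y h => funext fun i => congrFun h (Sum.inl (Sum.inl i))), Module.finrank_fin_fun, Nat.add_sub_cancel]

end Cfsg.Agent.S2562
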