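import Cfsg.Statements.S2563
import Cfsg.Agent.HeartPerm25.SymplecticFamily

set_option autoImplicit false
open Cfsg

namespace Cfsg.Agent.S2563

/-- For k ≥ 1 the symmetric group of degree 4k + 4 embeds in a full orthogonal group in dimension 4k + 2 over the field of two elements: in the isometry group of the plus-type form Σ xᵢyᵢ when k is odd, and in that of the minus-type form Σ xᵢyᵢ + (z₁² + z₁z₂ + z₂²) when k is even (through its action on even partitions of a (4k+4)-set, with the form 'half the size of a part, modulo 2'). -/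
theorem result (k : ℕ) (hk : 1 ≤ k) :
    (Odd k → ∃ φ : Equiv.Perm (Fin (4 * k + 4)) →* ↥(Cfsg.isometryGroup (ZMod 2) (Cfsg.quadFormPlus (2 * k + 1) (ZMod 2))), Function.Injective φ) ∧
    (Even k → ∃ φ : Equiv.Perm (Fin (4 * k + 4)) →* ↥(Cfsg.isometryGroup (ZMod 2) (Cfsg.quadFormMinus (2 * k) (ZMod 2) 1 1)), Function.Injective φ) := by
  have e : 2 * (2 * k + 1) + 2 = 4 * k + 4 := by ring
  constructor
  · intro ho
    obtain ⟨φ, hφ⟩ := Agent.HeartPerm25.Family.exists_hom_plus hk ho
    exact ⟨φ.comp ((finCongr e).symm.permCongrHom).toMonoidHom, hφ.comp (MulEquiv.injective _)⟩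
  · intro he
    obtain ⟨φ, hφ⟩ := Agent.HeartPerm25.Family.exists_hom_minus hk he
    exact ⟨φ.comp ((finCongr e).symm.permCongrHom).toMonoidHom, hφ.comp (MulEquiv.injective _)⟩


end Cfsg.Agent.S2563
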