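import Cfsg.Statements.S2564
import Cfsg.Agent.Forms.TwistF2
-- import your own Cfsg.Agent.* helpers here

set_option autoImplicit false
open Cfsg

namespace Cfsg.Agent.S2564

/-- On the 2m-dimensional space over the field of two elements (m ≥ 1) let f be the alternating form obtained by polarizing the plus-type form Σ xᵢyᵢ, and let q be any quadratic form polarizing to f. For a vector w, the function q + f(·, w) again polarizes to f, and it is equivalent to q under an invertible linear map (that is, has the same type) if and only if q(w) = 0. -/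
theorem result (m : ℕ) (hm : 1 ≤ m) (q : (Fin m ⊕ Fin m → ZMod 2) → ZMod 2) (hq : (∀ u v : (Fin m ⊕ Fin m → ZMod 2), q (u + v) = q u + q v + (Cfsg.quadFormPlus m (ZMod 2) (u + v) - Cfsg.quadFormPlus m (ZMod 2) u - Cfsg.quadFormPlus m (ZMod 2) v))) (w : (Fin m ⊕ Fin m → ZMod 2)) :
    (∀ u v : (Fin m ⊕ Fin m → ZMod 2), (q (u + v) + (Cfsg.quadFormPlus m (ZMod 2) (u + v + w) - Cfsg.quadFormPlus m (ZMod 2) (u + v) - Cfsg.quadFormPlus m (ZMod 2) w)) =
        (q u + (Cfsg.quadFormPlus m (ZMod 2) (u + w) - Cfsg.quadFormPlus m (ZMod 2) u - Cfsg.quadFormPlus m (ZMod 2) w)) + (q v + (Cfsg.quadFormPlus m (ZMod 2) (v + w) - Cfsg.quadFormPlus m (ZMod 2) v - Cfsg.quadFormPlus m (ZMod 2) w)) +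
        (Cfsg.quadFormPlus m (ZMod 2) (u + v) - Cfsg.quadFormPlus m (ZMod 2) u - Cfsg.quadFormPlus m (ZMod 2) v)) ∧
    ((∃ g : (Fin m ⊕ Fin m → ZMod 2) ≃ₗ[ZMod 2] (Fin m ⊕ Fin m → ZMod 2), ∀ v, q v + (Cfsg.quadFormPlus m (ZMod 2) (v + w) - Cfsg.quadFormPlus m (ZMod 2) v - Cfsg.quadFormPlus m (ZMod 2) w) = q (g v)) ↔ q w = 0) := by
  classical
  have hadd : ∀ u v : Fin m ⊕ Fin m → ZMod 2, Forms.f2Pol m (u + v) w = Forms.f2Pol m u w + Forms.f2Pol m v w := fun u v => by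
    rw [Forms.f2Pol_eq_polar, Forms.f2Pol_eq_polar, Forms.f2Pol_eq_polar, QuadraticMap.polar_add_left]
  refine ⟨fun u v => by linear_combination hq u v + hadd u v, ⟨?_, Forms.exists_equiv_twist hq⟩⟩
  rintro ⟨g, hg⟩
  by_contra hw
  refine Forms.not_equiv_twist hq hw ?_ g hg
  obtain ⟨u, hu, -⟩ := Forms.existsUnique_twist hq
  rcases Forms.twist_cases hm u with ⟨-, e, he⟩ | ⟨-, e, he⟩
  · rw [Nat.card_congr (e.toEquiv.subtypeEquiv (fun v => by rw [hu, he]; rfl) : {v // q v = 0} ≃ {v // Cfsg.quadFormPlus m (ZMod 2) v = 0})]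
    exact Forms.card_zeros_plus_f2_ne hm
  · intro hc
    obtain ⟨w0, hw0, g0, hg0⟩ : ∃ w0, Cfsg.quadFormPlus m (ZMod 2) w0 ≠ 0 ∧ ∃ g0 : (Fin m ⊕ Fin m → ZMod 2) ≃ₗ[ZMod 2] (Fin m ⊕ Fin m → ZMod 2), ∀ v, Cfsg.quadFormPlus m (ZMod 2) v + Forms.f2Pol m v w0 = q (g0 v) := by
      obtain ⟨w0, hw0⟩ : ∃ w0, Cfsg.quadFormPlus m (ZMod 2) w0 ≠ 0 := by
        refine ⟨Pi.single (Sum.inl ⟨0, hm⟩) 1 + Pi.single (Sum.inr ⟨0, hm⟩) 1, ?_⟩
        simp [Cfsg.quadFormPlus, Pi.single_apply]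
      rcases Forms.twist_cases hm w0 with ⟨h0, -⟩ | ⟨h0, e0, he0⟩
      · exact absurd h0 hw0
      · exact ⟨w0, h0, e0.trans e.symm, fun v => by rw [hu, he]; simp [he0]⟩
    have hplus : ∀ a b : Fin m ⊕ Fin m → ZMod 2, Cfsg.quadFormPlus m (ZMod 2) (a + b) = Cfsg.quadFormPlus m (ZMod 2) a + Cfsg.quadFormPlus m (ZMod 2) b + Forms.f2Pol m a b := fun a b => by
      simp only [Forms.f2Pol]; ring
    have h1 := Nat.card_congr (g0.toEquiv.subtypeEquiv (fun v => by rw [hg0]; rfl) : {v // Cfsg.quadFormPlus m (ZMod 2) v + Forms.f2Pol m v w0 = 0} ≃ {v // q v = 0})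
    have h01 : ∀ x : ZMod 2, x ≠ 0 → x = 1 := by decide
    have e2 : {v // Cfsg.quadFormPlus m (ZMod 2) v + Forms.f2Pol m v w0 = 0} ≃ {v // ¬ Cfsg.quadFormPlus m (ZMod 2) v = 0} :=
      (Equiv.addRight w0).subtypeEquiv fun v => by
        rw [Equiv.coe_addRight, hplus, h01 _ hw0]
        generalize Cfsg.quadFormPlus m (ZMod 2) v = a, Forms.f2Pol m v w0 = b
        revert a b; decide
    rw [← h1, Nat.card_congr e2] at hc
    have h3 := Forms.card_zeros_plus_f2_ne hm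
    have h2 : Nat.card {v : Fin m ⊕ Fin m → ZMod 2 // Cfsg.quadFormPlus m (ZMod 2) v = 0} + Nat.card {v : Fin m ⊕ Fin m → ZMod 2 // ¬ Cfsg.quadFormPlus m (ZMod 2) v = 0} = 2 ^ (2 * m) := by
      rw [← Nat.card_sum, Nat.card_congr (Equiv.sumCompl _)]
      simp [two_mul]
    omega

end Cfsg.Agent.S2564
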