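import Cfsg.Statements.S2565
import Cfsg.Agent.HeartPerm25.Models
import Cfsg.Agent.Classical.OrthForms

set_option autoImplicit false
open Cfsg

namespace Cfsg.Agent.S2565

/-- The commutator subgroup of the full orthogonal group of the plus-type form Σ xᵢyᵢ in dimension 6 over the field of two elements (the group Ω⁺₆(2), of index 2) is isomorphic to the alternating group of degree 8. -/
theorem result :
    (Cfsg.Omega (ZMod 2) (Cfsg.quadFormPlus 3 (ZMod 2))).index = 2 ∧
    Nonempty (↥(Cfsg.Omega (ZMod 2) (Cfsg.quadFormPlus 3 (ZMod 2))) ≃* alternatingGroup (Fin 8)) := by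
  classical
  obtain ⟨f, hf⟩ := Cfsg.Agent.HeartPerm25.exists_hom_eight
  have hcard : Nat.card ↥(Cfsg.isometryGroup (ZMod 2) (Cfsg.quadFormPlus 3 (ZMod 2))) = 40320 := by
    rw [Cfsg.Agent.Classical.card_isometryGroup_congr _ (Cfsg.Agent.Classical.plusQF 3 (ZMod 2)) (Cfsg.Agent.Classical.plusQF_apply 3)
      (Cfsg.Agent.Classical.plusEquiv 3) (Cfsg.Agent.Classical.plusEquiv_spec 3), Cfsg.Agent.Classical.card_OQ_plus 2, Nat.card_zmod]
    rfl
  haveI : Finite ↥(Cfsg.isometryGroup (ZMod 2) (Cfsg.quadFormPlus 3 (ZMod 2))) :=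
    Nat.finite_of_card_ne_zero (by rw [hcard]; norm_num)
  have hb : Function.Bijective f := hf.bijective_of_nat_card_le (by
    rw [hcard, Nat.card_perm, Nat.card_fin]; rfl)
  let e := MulEquiv.ofBijective f hb
  have h5 : 5 ≤ Nat.card (Fin 8) := by simp
  have hmap : (alternatingGroup (Fin 8)).map e.toMonoidHom =
      Cfsg.Omega (ZMod 2) (Cfsg.quadFormPlus 3 (ZMod 2)) := by
    rw [← alternatingGroup.commutator_perm_eq h5]
    show (commutator _).map e.toMonoidHom = commutator _
    rw [commutator_def, commutator_def, Subgroup.map_commutator, Subgroup.map_top_of_surjective e.toMonoidHom e.surjective]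
  rw [← hmap]
  refine ⟨?_, ⟨(Subgroup.equivMapOfInjective _ e.toMonoidHom e.injective).symm⟩⟩
  exact (Subgroup.index_map_equiv _ e).trans alternatingGroup.index_eq_two

end Cfsg.Agent.S2565
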