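import Cfsg.Statements.S2566
import Cfsg.Agent.Linear.SmallIso

set_option autoImplicit false
open Cfsg

namespace Cfsg.Agent.S2566

open Matrix

abbrev I4 := Fin 2 ⊕ Fin 2
abbrev V4 := I4 → ZMod 2
local notation "Q4" => Cfsg.quadFormPlus 2 (ZMod 2)

/-- left multiplication on `2 × 2` matrices `(a b; c d)`, coordinates `a, b | d, c`. -/
def Lm (g : Matrix (Fin 2) (Fin 2) (ZMod 2)) : Matrix I4 I4 (ZMod 2) :=
  Matrix.fromBlocks !![g 0 0, 0; 0, g 0 0] !![0, g 0 1; g 0 1, 0] !![0, g 1 0; g 1 0, 0] !![g 1 1, 0; 0, g 1 1]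

/-- right multiplication by the transpose. -/
def Rm (g : Matrix (Fin 2) (Fin 2) (ZMod 2)) : Matrix I4 I4 (ZMod 2) :=
  Matrix.fromBlocks !![g 0 0, g 0 1; g 1 0, g 1 1] 0 0 !![g 1 1, g 1 0; g 0 1, g 0 0]

def Tm : Matrix I4 I4 (ZMod 2) :=
  Matrix.fromBlocks !![1, 0; 0, 0] !![0, 0; 0, 1] !![0, 0; 0, 1] !![1, 0; 0, 0]

theorem Lm_one : Lm 1 = 1 := by decide +kernel

theorem Lm_mul (g h : Matrix (Fin 2) (Fin 2) (ZMod 2)) : Lm (g * h) = Lm g * Lm h := by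
  ext i j
  rcases i with i | i <;> rcases j with j | j <;> fin_cases i <;> fin_cases j <;>
    simp [Lm, Matrix.mul_apply, Fin.sum_univ_two]

theorem Lm_inj : Function.Injective Lm := by
  intro g h e
  ext i j
  fin_cases i <;> fin_cases j
  · exact congrFun (congrFun e (.inl 0)) (.inl 0)
  · exact congrFun (congrFun e (.inl 0)) (.inr 1)
  · exact congrFun (congrFun e (.inr 0)) (.inl 1)
  · exact congrFun (congrFun e (.inr 0)) (.inr 0)

theorem LR_comm (g h : Matrix (Fin 2) (Fin 2) (ZMod 2)) : Lm g * Rm h = Rm h * Lm g := by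
  ext i j
  rcases i with i | i <;> rcases j with j | j <;> fin_cases i <;> fin_cases j <;>
    simp [Lm, Rm, Matrix.mul_apply, Fin.sum_univ_two] <;> ring

theorem LR_eq (g h : Matrix (Fin 2) (Fin 2) (ZMod 2)) (hd : g.det = 1) (e : Lm g = Rm h) : g = 1 := by
  have e01 : g 0 1 = 0 := congrFun (congrFun e (.inl 0)) (.inr 1)
  have e10 : g 1 0 = 0 := congrFun (congrFun e (.inr 0)) (.inl 1)
  rw [Matrix.det_fin_two, e01, e10, mul_zero, sub_zero] at hd
  have : ∀ a b : ZMod 2, a * b = 1 → a = 1 ∧ b = 1 := by decide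
  obtain ⟨h0, h1⟩ := this _ _ hd
  ext i j
  fin_cases i <;> fin_cases j <;> simp [e01, e10, h0, h1]

theorem q_eq (v : V4) : Q4 v = v (.inl 0) * v (.inr 0) + v (.inl 1) * v (.inr 1) := by
  simp [Cfsg.quadFormPlus, Fin.sum_univ_two]

theorem q_Lm (g : Matrix.SpecialLinearGroup (Fin 2) (ZMod 2)) (u : V4) : Q4 (Lm g.1 *ᵥ u) = Q4 u := by
  have hd := g.2
  rw [Matrix.det_fin_two] at hd
  have h2 : ∀ x : ZMod 2, x + x = 0 ∧ -x = x := by decide
  simp only [q_eq, Lm, Matrix.mulVec, dotProduct, Fintype.sum_sum_type, Fin.sum_univ_two]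
  simp
  generalize g.1 0 0 = a, g.1 0 1 = b, g.1 1 0 = c, g.1 1 1 = d at hd ⊢
  revert a b c d
  generalize u (.inl 0) = p, u (.inl 1) = q, u (.inr 0) = r, u (.inr 1) = s
  revert p q r s
  decide +kernel

theorem q_Tm (u : V4) : Q4 (Tm *ᵥ u) = Q4 u := by
  simp [q_eq, Tm, Matrix.mulVec, dotProduct, Fintype.sum_sum_type, Fin.sum_univ_two, mul_comm]

def tIso : ↥(Cfsg.isometryGroup (ZMod 2) Q4) :=
  ⟨⟨Tm, Tm, by decide +kernel, by decide +kernel⟩, fun u _ => q_Tm u⟩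

theorem tm_conj (g : Matrix (Fin 2) (Fin 2) (ZMod 2)) : Tm * Lm g * Tm = Rm g := by
  ext i j
  rcases i with i | i <;> rcases j with j | j <;> fin_cases i <;> fin_cases j <;>
    simp [Lm, Rm, Tm, Matrix.mul_apply, Fin.sum_univ_two]

abbrev Q' (v : V4) : ZMod 2 := v (.inl 0) * v (.inr 0) + v (.inl 1) * v (.inr 1)
abbrev B' (v w : V4) : ZMod 2 := v (.inl 0) * w (.inr 0) + v (.inr 0) * w (.inl 0) + v (.inl 1) * w (.inr 1) + v (.inr 1) * w (.inl 1)

/-- the possible images of the standard hyperbolic basis -/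
abbrev Frames : Type :=
  (e : {e : V4 // Q' e = 0}) × (f : {f : V4 // Q' f = 0 ∧ B' e.1 f = 1}) ×
    (e' : {v : V4 // Q' v = 0 ∧ B' e.1 v = 0 ∧ B' f.1 v = 0}) ×
      {w : V4 // Q' w = 0 ∧ B' e.1 w = 0 ∧ B' f.1 w = 0 ∧ B' e'.1 w = 1}

theorem card_frames : Fintype.card Frames = 72 := by decide +kernel

def colMat (x : Frames) : Matrix I4 I4 (ZMod 2) :=
  fun i j => Sum.elim ![x.1.1 i, x.2.2.1.1 i] ![x.2.1.1 i, x.2.2.2.1 i] j

theorem q_colMat (x : Frames) (u : V4) : Q4 (colMat x *ᵥ u) = Q4 u := by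
  obtain ⟨⟨e, he⟩, ⟨f, hf, hef⟩, ⟨e', he', hee', hfe'⟩, ⟨w, hw, hew, hfw, hew'⟩⟩ := x
  simp only [Q', B'] at *
  simp only [q_eq, colMat, Matrix.mulVec, dotProduct, Fintype.sum_sum_type, Fin.sum_univ_two]
  simp
  linear_combination (u (.inl 0)) ^ 2 * he + (u (.inl 1)) ^ 2 * he' + (u (.inr 0)) ^ 2 * hf +
    (u (.inr 1)) ^ 2 * hw + u (.inl 0) * u (.inr 0) * hef + u (.inl 0) * u (.inl 1) * hee' +
    u (.inl 0) * u (.inr 1) * hew + u (.inr 0) * u (.inl 1) * hfe' + u (.inr 0) * u (.inr 1) * hfw +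
    u (.inl 1) * u (.inr 1) * hew'

theorem det_colMat (x : Frames) : IsUnit (colMat x).det := by
  obtain ⟨⟨e, he⟩, ⟨f, hf, hef⟩, ⟨e', he', hee', hfe'⟩, ⟨w, hw, hew, hfw, hew'⟩⟩ := x
  rw [← Matrix.isUnit_iff_isUnit_det, ← Matrix.mulVec_injective_iff_isUnit]
  intro u v huv
  have key : ∀ u : V4, colMat ⟨⟨e, he⟩, ⟨f, hf, hef⟩, ⟨e', he', hee', hfe'⟩, ⟨w, hw, hew, hfw, hew'⟩⟩ *ᵥ u = 0 → u = 0 := by
    intro u hu
    set M := colMat ⟨⟨e, he⟩, ⟨f, hf, hef⟩, ⟨e', he', hee', hfe'⟩, ⟨w, hw, hew, hfw, hew'⟩⟩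
    -- `B(M u, M v) = B(u, v)`, by polarisation
    have hB : ∀ v, B' u v = 0 := by
      intro v
      have h1 := q_colMat ⟨⟨e, he⟩, ⟨f, hf, hef⟩, ⟨e', he', hee', hfe'⟩, ⟨w, hw, hew, hfw, hew'⟩⟩ (u + v)
      have h2 := q_colMat ⟨⟨e, he⟩, ⟨f, hf, hef⟩, ⟨e', he', hee', hfe'⟩, ⟨w, hw, hew, hfw, hew'⟩⟩ u
      have h3 := q_colMat ⟨⟨e, he⟩, ⟨f, hf, hef⟩, ⟨e', he', hee', hfe'⟩, ⟨w, hw, hew, hfw, hew'⟩⟩ v
      rw [Matrix.mulVec_add, hu, zero_add, h3] at h1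
      rw [hu] at h2
      simp only [q_eq, Pi.add_apply, Pi.zero_apply] at h1 h2
      simp only [B']
      linear_combination -h1 + h2
    funext i
    rcases i with i | i <;> fin_cases i
    · simpa [B'] using hB (Pi.single (.inr 0) 1)
    · simpa [B'] using hB (Pi.single (.inr 1) 1)
    · simpa [B'] using hB (Pi.single (.inl 0) 1)
    · simpa [B'] using hB (Pi.single (.inl 1) 1)
  have : u - v = 0 := key _ (by rw [Matrix.mulVec_sub, huv, sub_self])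
  exact sub_eq_zero.1 this

theorem colMat_inj : Function.Injective colMat := by
  rintro ⟨⟨e, he⟩, ⟨f, hf⟩, ⟨e', he'⟩, ⟨w, hw⟩⟩ ⟨⟨e2, he2⟩, ⟨f2, hf2⟩, ⟨e2', he2'⟩, ⟨w2, hw2⟩⟩ h
  have hc : ∀ i j, colMat _ i j = colMat _ i j := fun i j => congrFun (congrFun h i) j
  obtain rfl : e = e2 := funext fun i => hc i (.inl 0)
  obtain rfl : f = f2 := funext fun i => hc i (.inr 0)
  obtain rfl : e' = e2' := funext fun i => hc i (.inl 1)
  obtain rfl : w = w2 := funext fun i => hc i (.inr 1)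
  rfl

theorem polar' {M : Matrix I4 I4 (ZMod 2)} (h : ∀ u, Q4 (M *ᵥ u) = Q4 u) (u v : V4) :
    B' (M *ᵥ u) (M *ᵥ v) = B' u v := by
  have h1 := h (u + v)
  rw [Matrix.mulVec_add] at h1
  have h2 := h u
  have h3 := h v
  simp only [q_eq, Pi.add_apply] at h1 h2 h3
  simp only [B']
  linear_combination h1 - h2 - h3

theorem card_iso : Nat.card ↥(Cfsg.isometryGroup (ZMod 2) Q4) = 72 := by
  rw [← card_frames, ← Nat.card_eq_fintype_card]
  have hQ : ∀ (g : ↥(Cfsg.isometryGroup (ZMod 2) Q4)) (u : V4), Q4 ((g.1 : Matrix I4 I4 (ZMod 2)) *ᵥ u) = Q4 u :=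
    fun g u => g.2 u u
  let col : ↥(Cfsg.isometryGroup (ZMod 2) Q4) → I4 → V4 := fun g j => (g.1 : Matrix I4 I4 (ZMod 2)) *ᵥ Pi.single j 1
  have hq : ∀ g j, Q' (col g j) = 0 := by
    intro g j
    rw [Q', ← q_eq, hQ, q_eq]
    rcases j with j | j <;> fin_cases j <;> simp
  have hb : ∀ g i j, B' (col g i) (col g j) = B' (Pi.single i 1) (Pi.single j 1) :=
    fun g i j => polar' (hQ g) _ _
  let toF : ↥(Cfsg.isometryGroup (ZMod 2) Q4) → Frames := fun g =>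
    ⟨⟨col g (.inl 0), hq g _⟩, ⟨col g (.inr 0), hq g _, by rw [hb]; simp [B']⟩,
      ⟨col g (.inl 1), hq g _, by rw [hb]; simp [B'], by rw [hb]; simp [B']⟩,
      ⟨col g (.inr 1), hq g _, by rw [hb]; simp [B'], by rw [hb]; simp [B'], by rw [hb]; simp [B']⟩⟩
  have hcm : ∀ g, colMat (toF g) = (g.1 : Matrix I4 I4 (ZMod 2)) := by
    intro g
    ext i j
    rcases j with j | j <;> fin_cases j <;> simp [colMat, toF, col, Matrix.mulVec_single_one]
  refine Nat.card_eq_of_bijective toF ⟨fun g h e => Subtype.ext (Units.ext (by rw [← hcm, e, hcm])), ?_⟩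
  intro x
  let g : GL I4 (ZMod 2) := Matrix.GeneralLinearGroup.mkOfDetNeZero (colMat x) (det_colMat x).ne_zero
  refine ⟨⟨g, fun u _ => q_colMat x u⟩, colMat_inj ?_⟩
  rw [hcm]
  rfl

/-- The full orthogonal group of the plus-type form x₁y₁ + x₂y₂ in dimension 4 over the field of two elements has order 72 and is isomorphic to the wreath product of the symmetric group of degree 3 by a group of order 2: it has a normal subgroup isomorphic to the direct product of two symmetric groups of degree 3, of index 2, whose two direct factors are interchanged by conjugation by some element. -/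
theorem result :
    Nat.card ↥(Cfsg.isometryGroup (ZMod 2) (Cfsg.quadFormPlus 2 (ZMod 2))) = 72 ∧
    ∃ (A B : Subgroup ↥(Cfsg.isometryGroup (ZMod 2) (Cfsg.quadFormPlus 2 (ZMod 2)))),
      Nonempty (↥A ≃* Equiv.Perm (Fin 3)) ∧ Nonempty (↥B ≃* Equiv.Perm (Fin 3)) ∧ A ⊓ B = ⊥ ∧ (∀ a ∈ A, ∀ b ∈ B, a * b = b * a) ∧
      (A ⊔ B).index = 2 ∧ ∃ g : ↥(Cfsg.isometryGroup (ZMod 2) (Cfsg.quadFormPlus 2 (ZMod 2))), A.map (MulAut.conj g).toMonoidHom = B := by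
  classical
  obtain ⟨eS⟩ := Cfsg.Agent.Linear.sl_two_two_iso (F := ZMod 2) (ZMod.card 2)
  let Ls : Matrix.SpecialLinearGroup (Fin 2) (ZMod 2) →* ↥(Cfsg.isometryGroup (ZMod 2) (Cfsg.quadFormPlus 2 (ZMod 2))) :=
    { toFun := fun g => ⟨⟨Lm g.1, Lm (g⁻¹).1, by rw [← Lm_mul, ← Matrix.SpecialLinearGroup.coe_mul, mul_inv_cancel]; exact Lm_one,
        by rw [← Lm_mul, ← Matrix.SpecialLinearGroup.coe_mul, inv_mul_cancel]; exact Lm_one⟩,
        fun u _ => q_Lm g u⟩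
      map_one' := Subtype.ext (Units.ext Lm_one)
      map_mul' := fun g h => Subtype.ext (Units.ext (Lm_mul g.1 h.1)) }
  let Rs : Matrix.SpecialLinearGroup (Fin 2) (ZMod 2) →* ↥(Cfsg.isometryGroup (ZMod 2) (Cfsg.quadFormPlus 2 (ZMod 2))) :=
    (MulAut.conj tIso).toMonoidHom.comp Ls
  have hR : ∀ g, ((Rs g).1 : Matrix I4 I4 (ZMod 2)) = Rm g.1 := fun g => tm_conj g.1
  have hcomm : ∀ g h, Commute (Ls g) (Rs h) := by
    intro g h
    refine Subtype.ext (Units.ext ?_)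
    show ((Ls g).1 : Matrix I4 I4 (ZMod 2)) * (Rs h).1 = (Rs h).1 * ((Ls g).1 : Matrix I4 I4 (ZMod 2))
    rw [hR]
    exact LR_comm g.1 h.1
  have hLinj : Function.Injective Ls := by
    intro g h hgh
    have := congrArg (fun x : ↥(Cfsg.isometryGroup (ZMod 2) (Cfsg.quadFormPlus 2 (ZMod 2))) => (x.1 : Matrix I4 I4 (ZMod 2))) hgh
    exact Subtype.ext (Lm_inj this)
  have hRinj : Function.Injective Rs := (MulAut.conj tIso).injective.comp hLinj
  have hdisj : Ls.range ⊓ Rs.range = ⊥ := by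
    rw [eq_bot_iff]
    rintro x ⟨⟨g, rfl⟩, ⟨h, hx⟩⟩
    have := congrArg (fun x : ↥(Cfsg.isometryGroup (ZMod 2) (Cfsg.quadFormPlus 2 (ZMod 2))) => (x.1 : Matrix I4 I4 (ZMod 2))) hx
    simp only [hR] at this
    have hg : g.1 = 1 := LR_eq g.1 h.1 g.2 this.symm
    rw [show g = 1 from Subtype.ext hg, map_one]
    exact Subgroup.mem_bot.2 rfl
  let φ := Ls.noncommCoprod Rs hcomm
  have hφ : Function.Injective φ := by
    rw [injective_iff_map_eq_one]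
    rintro ⟨g, h⟩ hgh
    have h1 : Ls g = (Rs h)⁻¹ := eq_inv_of_mul_eq_one_left hgh
    have h2 : Ls g ∈ Ls.range ⊓ Rs.range := ⟨⟨g, rfl⟩, h1 ▸ Rs.range.inv_mem ⟨h, rfl⟩⟩
    rw [hdisj, Subgroup.mem_bot] at h2
    have hg : g = 1 := hLinj (h2.trans (map_one Ls).symm)
    have hh : Rs h = 1 := by rw [← inv_eq_one, ← h1, h2]
    exact Prod.ext hg (hRinj (hh.trans (map_one Rs).symm))
  have hcard : Nat.card ↥(Cfsg.isometryGroup (ZMod 2) (Cfsg.quadFormPlus 2 (ZMod 2))) = 72 := card_iso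
  refine ⟨hcard, Ls.range, Rs.range, ⟨(MonoidHom.ofInjective hLinj).symm.trans eS⟩,
    ⟨(MonoidHom.ofInjective hRinj).symm.trans eS⟩, hdisj, ?_, ?_, tIso, ?_⟩
  · rintro _ ⟨g, rfl⟩ _ ⟨h, rfl⟩
    exact hcomm g h
  · have h36 : Nat.card ↥(Ls.range ⊔ Rs.range) = 36 := by
      rw [← MonoidHom.noncommCoprod_range (comm := hcomm), ← Nat.card_congr (MonoidHom.ofInjective hφ).toEquiv,
        Nat.card_prod, Nat.card_congr eS.toEquiv, Nat.card_perm, Nat.card_fin]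
      rfl
    have := (Ls.range ⊔ Rs.range).index_mul_card
    rw [h36, hcard] at this
    omega
  · rw [MonoidHom.map_range]

end Cfsg.Agent.S2566
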