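import Cfsg.Statements.S2567
import Cfsg.Agent.Linear.Orders

set_option autoImplicit false
open Cfsg

namespace Cfsg.Agent.S2567

/-- Lifting elements of prime order from PGL to GL: let F be a finite field with q elements, r a prime not dividing q − 1, and x an element of order r in GL_n(F) modulo its centre (the scalar matrices). Then x has exactly one preimage in GL_n(F) of order r. -/
theorem result {F : Type*} [Field F] [Fintype F] {q n r : ℕ} (hF : Fintype.card F = q) (hr : r.Prime) (hdiv : ¬ r ∣ q - 1) (x : GL (Fin n) F ⧸ Subgroup.center (GL (Fin n) F)) (hx : orderOf x = r) : ∃! g : GL (Fin n) F, (QuotientGroup.mk g : GL (Fin n) F ⧸ Subgroup.center (GL (Fin n) F)) = x ∧ orderOf g = r := by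
  classical
  rcases Nat.eq_zero_or_pos n with rfl | hn
  · haveI : Subsingleton (GL (Fin 0) F) := ⟨fun a b => Units.ext (Subsingleton.elim _ _)⟩
    haveI : Subsingleton (GL (Fin 0) F ⧸ Subgroup.center (GL (Fin 0) F)) := QuotientGroup.mk_surjective.subsingleton
    rw [orderOf_eq_one_iff.mpr (Subsingleton.elim x 1)] at hx
    exact absurd hx hr.one_lt.ne
  haveI : Nonempty (Fin n) := ⟨⟨0, hn⟩⟩
  have hZ : Nat.card (Subgroup.center (GL (Fin n) F)) = q - 1 := by
    rw [Linear.card_center_GL, Nat.card_units, Nat.card_eq_fintype_card, hF]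
  have hcop : (Nat.card (Subgroup.center (GL (Fin n) F))).Coprime r := by
    rw [hZ, Nat.coprime_comm]
    exact (hr.coprime_iff_not_dvd).mpr hdiv
  obtain ⟨g₀, rfl⟩ := QuotientGroup.mk_surjective x
  have hg₀ : g₀ ^ r ∈ (Subgroup.center (GL (Fin n) F)) := by
    rw [← QuotientGroup.eq_one_iff, QuotientGroup.mk_pow, ← hx]
    exact pow_orderOf_eq_one _
  obtain ⟨z, hz⟩ := (powCoprime hcop).surjective ⟨(g₀ ^ r)⁻¹, (Subgroup.center (GL (Fin n) F)).inv_mem hg₀⟩
  have hz' : (z : GL (Fin n) F) ^ r = (g₀ ^ r)⁻¹ := congrArg Subtype.val hz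
  have hcomm : Commute g₀ (z : GL (Fin n) F) := Subgroup.mem_center_iff.mp z.2 g₀
  have hmk : (QuotientGroup.mk (g₀ * z) : GL (Fin n) F ⧸ (Subgroup.center (GL (Fin n) F))) = QuotientGroup.mk g₀ := by
    rw [QuotientGroup.eq, mul_inv_rev, mul_assoc, inv_mul_cancel, mul_one]
    exact (Subgroup.center (GL (Fin n) F)).inv_mem z.2
  have hord : orderOf (g₀ * (z : GL (Fin n) F)) = r := by
    haveI := Fact.mk hr
    refine orderOf_eq_prime (by rw [hcomm.mul_pow, hz', mul_inv_cancel]) fun h1 => ?_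
    rw [h1, QuotientGroup.mk_one] at hmk
    rw [← hmk, orderOf_one] at hx
    exact hr.one_lt.ne hx
  refine ⟨g₀ * z, ⟨hmk, hord⟩, ?_⟩
  rintro g ⟨hg, hgr⟩
  rw [← hmk, eq_comm, QuotientGroup.eq] at hg
  set w : GL (Fin n) F := (g₀ * z)⁻¹ * g with hw
  have hgw : g = g₀ * z * w := by rw [hw, mul_inv_cancel_left]
  have hc : Commute (g₀ * (z : GL (Fin n) F)) w := Subgroup.mem_center_iff.mp hg _
  have h2 : (⟨w, hg⟩ : (Subgroup.center (GL (Fin n) F))) ^ r = 1 := by
    apply Subtype.ext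
    have h3 : (g₀ * (z : GL (Fin n) F)) ^ r * w ^ r = 1 := by
      rw [← hc.mul_pow, ← hgw, ← hgr, pow_orderOf_eq_one]
    rw [← hord, pow_orderOf_eq_one, one_mul, hord] at h3
    simpa using h3
  have h4 : (⟨w, hg⟩ : (Subgroup.center (GL (Fin n) F))) = 1 := (powCoprime hcop).injective (by simpa using h2)
  rw [hgw, show w = 1 from congrArg Subtype.val h4, mul_one]

end Cfsg.Agent.S2567
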