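import Cfsg.Statements.S2569


set_option autoImplicit false
open Cfsg

namespace Cfsg.Agent.S2569

/-- In GL_n over a finite field of characteristic p, the conjugacy class of a semisimple element (an element of order prime to p) under the special linear group is its whole GL-conjugacy class: for every such x and every invertible g there is h of determinant one with h x h⁻¹ = g x g⁻¹. -/
theorem result {F : Type*} [Field F] [Fintype F] {p : ℕ} [Fact p.Prime] [CharP F p] {n : ℕ} (x g : GL (Fin n) F) (hx : (orderOf x).Coprime p) : ∃ h : GL (Fin n) F, (h : Matrix (Fin n) (Fin n) F).det = 1 ∧ h * x * h⁻¹ = g * x * g⁻¹ := by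
  classical
  -- enough: the centraliser of `x` has surjective determinant
  suffices key : ∀ c : Fˣ, ∃ k : GL (Fin n) F, k * x = x * k ∧ Matrix.GeneralLinearGroup.det k = c ∨ n = 0 by
    rcases Nat.eq_zero_or_pos n with rfl | hn
    · exact ⟨1, by simp, Units.ext (Subsingleton.elim _ _)⟩
    obtain ⟨k, hk | h0⟩ := key (Matrix.GeneralLinearGroup.det g)⁻¹
    · refine ⟨g * k, ?_, ?_⟩
      · have : Matrix.GeneralLinearGroup.det (g * k) = 1 := by rw [map_mul, hk.2, mul_inv_cancel]
        exact congrArg Units.val this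
      · rw [mul_assoc g k x, hk.1]; group
    · omega
  intro c
  rcases Nat.eq_zero_or_pos n with rfl | hn
  · exact ⟨1, Or.inr rfl⟩
  set y : Module.End F (Fin n → F) := Matrix.toLinAlgEquiv' (x : Matrix (Fin n) (Fin n) F) with hy
  haveI : Finite (GL (Fin n) F) := inferInstance
  have hN : ((orderOf x : ℕ) : F) ≠ 0 := by
    intro h
    rw [CharP.cast_eq_zero_iff F p] at h
    have := Nat.dvd_gcd h (dvd_refl p)
    rw [hx.gcd_eq_one, Nat.dvd_one] at this
    exact (Fact.out : p.Prime).one_lt.ne' this
  have hss : y.IsSemisimple := by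
    refine Module.End.isSemisimple_of_squarefree_aeval_eq_zero
      (p := (Polynomial.X ^ orderOf x - Polynomial.C (1 : F))) ?_ ?_
    · exact (Polynomial.separable_X_pow_sub_C (1 : F) hN one_ne_zero).squarefree
    · rw [map_sub, map_pow, Polynomial.aeval_X, Polynomial.aeval_C, map_one, sub_eq_zero, hy, ← map_pow,
        ← Units.val_pow_eq_pow_val, pow_orderOf_eq_one, Units.val_one, map_one]
  -- a minimal non-zero invariant subspace
  obtain ⟨W, ⟨hW0, hWy⟩, hmin⟩ := WellFounded.has_min (wellFounded_lt (α := Submodule F (Fin n → F)))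
    {W | W ≠ ⊥ ∧ ∀ w ∈ W, y w ∈ W} ⟨⊤, by
      intro h
      have hn' : (Pi.single (⟨0, hn⟩ : Fin n) (1 : F)) ∈ (⊥ : Submodule F (Fin n → F)) := h ▸ Submodule.mem_top
      simp at hn', fun _ _ => Submodule.mem_top⟩
  obtain ⟨W', hW'y, hcompl⟩ := Module.End.isSemisimple_iff.mp hss W
    ((Module.End.mem_invtSubmodule _).mpr fun w hw => hWy w hw)
  set z : Module.End F W := y.restrict hWy
  obtain ⟨w, hw, hw0⟩ := Submodule.exists_mem_ne_zero_of_ne_bot hW0
  set w' : W := ⟨w, hw⟩
  have hw'0 : w' ≠ 0 := fun h => hw0 (congrArg Subtype.val h)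
  -- minimality in terms of `z`
  have hirr : ∀ X : Submodule F W, (∀ a ∈ X, z a ∈ X) → X ≠ ⊥ → X = ⊤ := by
    intro X hX hX0
    by_contra htop
    refine hmin (X.map W.subtype) ⟨?_, ?_⟩ ?_
    · exact fun h => hX0 (Submodule.map_injective_of_injective W.injective_subtype (h.trans (Submodule.map_bot _).symm))
    · rintro _ ⟨a, ha, rfl⟩
      exact ⟨z a, hX a ha, rfl⟩
    · refine lt_of_le_of_ne (Submodule.map_subtype_le W X) fun h => htop ?_
      apply Submodule.map_injective_of_injective W.injective_subtype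
      rw [h, Submodule.map_subtype_top]
  set f := minpoly F z with hf
  have hzint : IsIntegral F z := Algebra.IsIntegral.isIntegral z
  haveI : Nontrivial W := ⟨⟨w', 0, hw'0⟩⟩
  have hfirr : Irreducible f := by
    refine ⟨minpoly.not_isUnit F z, fun {a b} hab => ?_⟩
    by_contra hne
    push Not at hne
    have hb : IsUnit b → False := hne.2
    have h1 : Polynomial.aeval z a * Polynomial.aeval z b = 0 := by rw [← map_mul, ← hab]; exact minpoly.aeval F z
    have hkinv : ∀ q : Polynomial F, ∀ u ∈ LinearMap.ker (Polynomial.aeval z q), z u ∈ LinearMap.ker (Polynomial.aeval z q) := by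
      intro q u hu
      rw [LinearMap.mem_ker] at hu ⊢
      have : Polynomial.aeval z q * z = z * Polynomial.aeval z q := by
        conv_lhs => arg 2; rw [← Polynomial.aeval_X (R := F) z]
        rw [← map_mul, mul_comm, map_mul, Polynomial.aeval_X]
      rw [← Module.End.mul_apply, this, Module.End.mul_apply, hu, map_zero]
    have ha0 : a ≠ 0 := fun h => (minpoly.ne_zero hzint) (by rw [← hf, hab, h, zero_mul])
    have hb0 : b ≠ 0 := fun h => (minpoly.ne_zero hzint) (by rw [← hf, hab, h, mul_zero])
    have hlt : ∀ q r : Polynomial F, q ≠ 0 → r ≠ 0 → f = q * r → ¬ IsUnit r → Polynomial.aeval z q ≠ 0 := by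
      intro q r hq hr he hru h0
      have hd := Polynomial.natDegree_le_of_dvd (minpoly.dvd F z h0) hq
      rw [← hf, he, Polynomial.natDegree_mul hq hr] at hd
      exact hru (Polynomial.isUnit_iff_degree_eq_zero.mpr (by
        rw [Polynomial.degree_eq_natDegree hr]
        exact_mod_cast (by omega : r.natDegree = 0)))
    have hbne : Polynomial.aeval z b ≠ 0 := hlt b a hb0 ha0 (by rw [hab, mul_comm]) hne.1
    have hane : Polynomial.aeval z a ≠ 0 := hlt a b ha0 hb0 hab hne.2
    by_cases hk : LinearMap.ker (Polynomial.aeval z a) = ⊥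
    · apply hbne
      refine LinearMap.ext fun u => ?_
      have := LinearMap.congr_fun h1 u
      rw [Module.End.mul_apply, LinearMap.zero_apply] at this
      exact LinearMap.ker_eq_bot.mp hk (this.trans (map_zero _).symm)
    · exact hane (LinearMap.ker_eq_top.mp (hirr _ (hkinv a) hk))
  haveI := Fact.mk hfirr
  -- `W` is a line over the field `F[X]/(f)`
  let ev : AdjoinRoot f →ₐ[F] Module.End F W :=
    Ideal.Quotient.liftₐ (Ideal.span {f}) (Polynomial.aeval z) (fun a ha => by
      obtain ⟨c, rfl⟩ := Ideal.mem_span_singleton'.mp ha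
      rw [map_mul, show Polynomial.aeval z f = 0 from minpoly.aeval F z, mul_zero])
  let e₀ : AdjoinRoot f →ₗ[F] W := (LinearMap.applyₗ (R := F) w').comp ev.toLinearMap
  have hroot : ∀ a, e₀ (AdjoinRoot.root f * a) = z (e₀ a) := by
    intro a
    have hr : ev (AdjoinRoot.root f) = z := (Ideal.Quotient.lift_mk _ _ _).trans (Polynomial.aeval_X z)
    simp [e₀, map_mul, hr]
  have hsurj : LinearMap.range e₀ = ⊤ := by
    refine hirr _ ?_ ?_
    · rintro _ ⟨a, rfl⟩
      exact ⟨_, hroot a⟩
    · intro h
      have : e₀ 1 ∈ LinearMap.range e₀ := ⟨1, rfl⟩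
      rw [h, Submodule.mem_bot] at this
      exact hw'0 (by simpa [e₀] using this)
  have hinj : Function.Injective e₀ := by
    rw [injective_iff_map_eq_zero]
    intro a ha
    by_contra ha0
    apply hw'0
    have := congrArg (ev a⁻¹) ha
    simp only [e₀, LinearMap.comp_apply, AlgHom.toLinearMap_apply, LinearMap.applyₗ_apply_apply, map_zero] at this
    rwa [← Module.End.mul_apply, ← map_mul, inv_mul_cancel₀ ha0, map_one] at this
  let e := LinearEquiv.ofBijective e₀ ⟨hinj, LinearMap.range_eq_top.mp hsurj⟩
  haveI : FiniteDimensional F (AdjoinRoot f) := Module.Finite.equiv e.symm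
  haveI : Finite (AdjoinRoot f) := Module.finite_of_finite F
  obtain ⟨a, ha⟩ := FiniteField.norm_surjective F (AdjoinRoot f) (c : F)
  -- the required automorphism
  let k : Module.End F (Fin n → F) :=
    (Submodule.prodEquivOfIsCompl W W' hcompl).toLinearMap ∘ₗ
      ((ev a).prodMap LinearMap.id) ∘ₗ (Submodule.prodEquivOfIsCompl W W' hcompl).symm.toLinearMap
  have hdet : LinearMap.det k = (c : F) := by
    have h1 : LinearMap.det k = LinearMap.det ((ev a).prodMap (LinearMap.id : W' →ₗ[F] W')) :=
      LinearMap.det_conj _ _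
    have h2 : LinearMap.det (ev a) = Algebra.norm F a := by
      have h3 : ev a = e.toLinearMap ∘ₗ (Algebra.lmul F (AdjoinRoot f) a) ∘ₗ e.symm.toLinearMap := by
        refine LinearMap.ext fun u => ?_
        obtain ⟨b, rfl⟩ := e.surjective u
        simp only [LinearMap.comp_apply, LinearEquiv.coe_coe, LinearEquiv.symm_apply_apply]
        change ev a (ev b w') = ev (a * b) w'
        rw [map_mul, Module.End.mul_apply]
      rw [h3, LinearMap.det_conj]
      rfl
    rw [h1, LinearMap.det_prodMap, LinearMap.det_id, mul_one, h2, ha]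
  have hcomm : k * y = y * k := by
    refine LinearMap.ext fun u => ?_
    obtain ⟨⟨a', b'⟩, rfl⟩ := (Submodule.prodEquivOfIsCompl W W' hcompl).surjective u
    have hy' : y (Submodule.prodEquivOfIsCompl W W' hcompl (a', b')) =
        Submodule.prodEquivOfIsCompl W W' hcompl (z a', ⟨y b', (Module.End.mem_invtSubmodule _).mp hW'y b'.2⟩) := by
      simp [z, LinearMap.restrict_apply]
    have hez : ev a (z a') = z (ev a a') := by
      have hz : z = ev (AdjoinRoot.root f) := ((Ideal.Quotient.lift_mk _ _ _).trans (Polynomial.aeval_X z)).symm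
      rw [hz, ← Module.End.mul_apply, ← map_mul, mul_comm, map_mul, Module.End.mul_apply]
    rw [Module.End.mul_apply, Module.End.mul_apply, hy']
    simp only [k, LinearMap.comp_apply, LinearEquiv.coe_coe, LinearEquiv.symm_apply_apply, LinearMap.prodMap_apply,
      LinearMap.id_apply, hez]
    simp [z, LinearMap.restrict_apply]
  have hKdet : (Matrix.toLinAlgEquiv'.symm k).det = (c : F) := by
    rw [← hdet]; exact LinearMap.det_toMatrix' k
  refine ⟨Matrix.GeneralLinearGroup.mkOfDetNeZero _ (by rw [hKdet]; exact c.ne_zero), Or.inl ⟨?_, Units.ext hKdet⟩⟩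
  apply Units.ext
  show Matrix.toLinAlgEquiv'.symm k * (x : Matrix (Fin n) (Fin n) F) = (x : Matrix (Fin n) (Fin n) F) * Matrix.toLinAlgEquiv'.symm k
  apply Matrix.toLinAlgEquiv'.injective
  rw [map_mul, map_mul, AlgEquiv.apply_symm_apply]
  exact hcomm

end Cfsg.Agent.S2569
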