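import Cfsg.Statements.S2571
import Cfsg.Agent.ClassicalElem.RegularNilpotent

set_option autoImplicit false
open Cfsg

namespace Cfsg.Agent.S2571

/-- Centraliser of a regular unipotent element in GL_n(q): if u is an invertible n × n matrix over the field with q elements, n ≥ 1, with (u − 1)^n = 0 and rank(u − 1) = n − 1 (a single unipotent Jordan block), then its centraliser in GL_n(q) has order (q − 1) q^(n−1). -/
theorem result {F : Type*} [Field F] [Fintype F] {q n : ℕ} (hF : Fintype.card F = q) (hn : 1 ≤ n) (u : GL (Fin n) F) (hnil : ((u : Matrix (Fin n) (Fin n) F) - 1) ^ n = 0) (hreg : ((u : Matrix (Fin n) (Fin n) F) - 1).rank = n - 1) : Nat.card ↥(Subgroup.centralizer ({u} : Set (GL (Fin n) F))) = (q - 1) * q ^ (n - 1) := by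
  classical
  have h := ClassicalElem.isRegularNilpotent_of_matrix ((u : Matrix (Fin n) (Fin n) F) - 1) n (Fintype.card_fin n) hn hnil hreg
  rw [← hF, ← Nat.card_eq_fintype_card, ← h.card_units_centralizer]
  refine Nat.card_congr (Equiv.subtypeEquiv Matrix.GeneralLinearGroup.toLin.toEquiv fun g => ?_)
  have e1 : ((Matrix.GeneralLinearGroup.toLin g : LinearMap.GeneralLinearGroup F (Fin n → F)) : (Fin n → F) →ₗ[F] (Fin n → F))
      = Matrix.toLinAlgEquiv' (g : Matrix (Fin n) (Fin n) F) := rfl
  have hleft : Commute (Matrix.toLinAlgEquiv' (g : Matrix (Fin n) (Fin n) F))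
      (Matrix.toLinAlgEquiv' ((u : Matrix (Fin n) (Fin n) F) - 1)) ↔
      Commute (g : Matrix (Fin n) (Fin n) F) ((u : Matrix (Fin n) (Fin n) F) - 1) :=
    ⟨fun hc => by simpa using hc.map Matrix.toLinAlgEquiv'.symm, fun hc => hc.map Matrix.toLinAlgEquiv'⟩
  show g ∈ Subgroup.centralizer ({u} : Set (GL (Fin n) F)) ↔
    Commute ((Matrix.GeneralLinearGroup.toLin g : LinearMap.GeneralLinearGroup F (Fin n → F)) : (Fin n → F) →ₗ[F] (Fin n → F))
      (Matrix.toLinAlgEquiv' ((u : Matrix (Fin n) (Fin n) F) - 1))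
  rw [e1, hleft, Subgroup.mem_centralizer_singleton_iff]
  constructor
  · intro hc
    refine Commute.sub_right ?_ (Commute.one_right _)
    exact congrArg Units.val hc
  · intro hc
    have := hc.add_right (Commute.one_right (g : Matrix (Fin n) (Fin n) F))
    rw [sub_add_cancel] at this
    exact Units.ext this

end Cfsg.Agent.S2571
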