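import Cfsg.Statements.S2572
import Cfsg.Agent.Forms.TransvectionCount
-- import your own Cfsg.Agent.* helpers here

set_option autoImplicit false
open Cfsg

namespace Cfsg.Agent.S2572

/-- Centraliser of a transvection in GL_n(q), n ≥ 2: if t − 1 has rank one and square zero, the centraliser of t in GL_n(q) has order q^(2n−3) (q − 1) |GL_(n−2)(q)| (a group of order q^(2n−3) extended by GL_1(q) × GL_(n−2)(q)). -/
theorem result {F : Type*} [Field F] [Fintype F] {q n : ℕ} (hF : Fintype.card F = q) (hn : 2 ≤ n) (t : GL (Fin n) F) (ht : Cfsg.IsTransvection (t : Matrix (Fin n) (Fin n) F)) : Nat.card ↥(Subgroup.centralizer ({t} : Set (GL (Fin n) F))) = q ^ (2 * n - 3) * (q - 1) * ∏ i : Fin (n - 2), (q ^ (n - 2) - q ^ (i : ℕ)) := by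
  obtain ⟨m, rfl⟩ : ∃ m, n = m + 2 := ⟨n - 2, by omega⟩
  subst hF
  have h := Forms.card_centralizer_transvection_mul t ht
  have hq : 1 < Fintype.card F := Fintype.one_lt_card
  set Q := Fintype.card F
  rw [Matrix.card_GL_field, Fin.prod_univ_succ, Fin.prod_univ_succ] at h
  simp only [Fin.val_zero, pow_zero, Fin.val_succ, zero_add, pow_one] at h
  have e : ∀ i : Fin m, Q ^ (m + 2) - Q ^ ((i : ℕ) + 1 + 1) = Q ^ 2 * (Q ^ m - Q ^ (i : ℕ)) := fun i => by
    rw [Nat.mul_sub, ← pow_add, ← pow_add, add_comm 2 m, add_comm 2 (i : ℕ)]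
  have e1 : Q ^ (m + 2) - Q = Q * (Q ^ (m + 1) - 1) := by
    rw [Nat.mul_sub, mul_one, ← pow_succ']
  rw [Finset.prod_congr rfl (fun i _ => e i), Finset.prod_mul_distrib, Finset.prod_const, Finset.card_univ,
    Fintype.card_fin, e1] at h
  have hpos : 0 < (Q ^ (m + 2) - 1) * (Q ^ (m + 1) - 1) :=
    Nat.mul_pos (Nat.sub_pos_of_lt (Nat.one_lt_pow (by omega) hq)) (Nat.sub_pos_of_lt (Nat.one_lt_pow (by omega) hq))
  apply Nat.eq_of_mul_eq_mul_right hpos
  rw [h, show m + 2 - 2 = m by omega, show 2 * (m + 2) - 3 = 2 * m + 1 by omega, pow_succ Q (2 * m), ← pow_mul]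
  ring

end Cfsg.Agent.S2572
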