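import Cfsg.Statements.S2574
import Cfsg.Agent.ClassicalElem.RegularNilpotent

set_option autoImplicit false
open Cfsg

namespace Cfsg.Agent.S2574

/-- A regular unipotent element of the symplectic group has totally isotropic small invariant subspaces: over a finite field, if u ∈ Sp_2m(F) satisfies (u − 1)^(2m) = 0 and rank(u − 1) = 2m − 1, and W is a u-invariant subspace with 2 dim W ≤ 2m, then the alternating form vanishes identically on W. -/
theorem result {F : Type*} [Field F] [Finite F] {m : ℕ} (u : Matrix.symplecticGroup (Fin m) F) (hnil : ((u : Matrix (Fin m ⊕ Fin m) (Fin m ⊕ Fin m) F) - 1) ^ (2 * m) = 0) (hreg : ((u : Matrix (Fin m ⊕ Fin m) (Fin m ⊕ Fin m) F) - 1).rank = 2 * m - 1) (W : Submodule F (Fin m ⊕ Fin m → F)) (hW : ∀ v ∈ W, (u : Matrix (Fin m ⊕ Fin m) (Fin m ⊕ Fin m) F).mulVec v ∈ W) (hdim : 2 * Module.finrank F W ≤ 2 * m) : ∀ v ∈ W, ∀ w ∈ W, Cfsg.sympForm m F v w = 0 := by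
  classical
  rcases Nat.eq_zero_or_pos m with rfl | hm
  · intro v _ w _
    simp [Cfsg.sympForm, dotProduct]
  set a : Matrix (Fin m ⊕ Fin m) (Fin m ⊕ Fin m) F := (u : Matrix (Fin m ⊕ Fin m) (Fin m ⊕ Fin m) F) with ha
  have h := ClassicalElem.isRegularNilpotent_of_matrix (a - 1) (2 * m) (by simp; omega) (by omega) hnil hreg
  have hW' : ∀ w ∈ W, Matrix.toLin' (a - 1) w ∈ W := by
    intro w hw
    rw [Matrix.toLin'_apply, Matrix.sub_mulVec, Matrix.one_mulVec]
    exact W.sub_mem (hW w hw) hw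
  have hker := h.invariant_eq_ker hW'
  set d := Module.finrank F W with hd
  intro v hv w hw
  have hv0 : ((a - 1) ^ d).mulVec v = 0 := by
    rw [hker, LinearMap.mem_ker, ← Matrix.toLin'_pow] at hv
    exact hv
  obtain ⟨y, rfl⟩ : ∃ y, ((a - 1) ^ (2 * m - d)).mulVec y = w := by
    rw [hker, ← h.range_eq_ker_pow (by omega : d ≤ 2 * m), ← Matrix.toLin'_pow] at hw
    exact hw
  -- move powers of `a - 1` across the form
  set J := Matrix.J (Fin m) F
  have hJ : J * J = -1 := Matrix.J_squared _ _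
  have hmem : a.transpose * J * a = J := SymplecticGroup.mem_iff'.mp u.2
  have hbJ : a.transpose * J = J * ((u⁻¹ : Matrix.symplecticGroup (Fin m) F) : Matrix (Fin m ⊕ Fin m) (Fin m ⊕ Fin m) F) := by
    have h1 : a * ((u⁻¹ : Matrix.symplecticGroup (Fin m) F) : Matrix (Fin m ⊕ Fin m) (Fin m ⊕ Fin m) F) = 1 :=
      congrArg Subtype.val (mul_inv_cancel u)
    calc a.transpose * J = a.transpose * J * (a * ((u⁻¹ : Matrix.symplecticGroup (Fin m) F) : Matrix (Fin m ⊕ Fin m) (Fin m ⊕ Fin m) F)) := by rw [h1, mul_one]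
      _ = _ := by rw [← mul_assoc, hmem]
  set b : Matrix (Fin m ⊕ Fin m) (Fin m ⊕ Fin m) F := ((u⁻¹ : Matrix.symplecticGroup (Fin m) F) : Matrix (Fin m ⊕ Fin m) (Fin m ⊕ Fin m) F) with hb
  have hba : b * a = 1 := congrArg Subtype.val (inv_mul_cancel u)
  have hab : a * b = 1 := congrArg Subtype.val (mul_inv_cancel u)
  have hstep : J * (a - 1) = ((b - 1).transpose) * J := by
    have h2 : b.transpose * J = J * a := by
      have h3 := congrArg (fun X => b.transpose * X * a) hbJ
      simp only [← mul_assoc] at h3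
      rw [← Matrix.transpose_mul, hab, Matrix.transpose_one, one_mul] at h3
      rw [h3, mul_assoc, hba, mul_one]
    rw [Matrix.transpose_sub, Matrix.transpose_one, mul_sub, mul_one, sub_mul, one_mul, h2]
  have hpow : ∀ k, J * (a - 1) ^ k = ((b - 1) ^ k).transpose * J := by
    intro k
    induction k with
    | zero => simp
    | succ k ih =>
      rw [pow_succ, ← mul_assoc, ih, mul_assoc, hstep, ← mul_assoc, ← Matrix.transpose_mul, pow_succ']
  have hbk : (b - 1) ^ (2 * m - d) = (-b) ^ (2 * m - d) * (a - 1) ^ (2 * m - d) := by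
    rw [← Commute.mul_pow (Commute.sub_right (show Commute (-b) a from (show Commute b a from hba.trans hab.symm).neg_left) (Commute.one_right _))]
    congr 1
    rw [mul_sub, mul_one, neg_mul, hba]
    abel
  have hzero : ((b - 1) ^ (2 * m - d)).mulVec v = 0 := by
    rw [hbk, show 2 * m - d = (2 * m - d - d) + d by omega, pow_add (a - 1), ← mul_assoc, ← Matrix.mulVec_mulVec, hv0,
      Matrix.mulVec_zero]
  rw [Cfsg.sympForm, Matrix.mulVec_mulVec, hpow, ← Matrix.mulVec_mulVec, Matrix.dotProduct_mulVec,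
    Matrix.vecMul_transpose, hzero, zero_dotProduct]

end Cfsg.Agent.S2574
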