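import Cfsg.Statements.S2575


set_option autoImplicit false
open Cfsg

namespace Cfsg.Agent.S2575

/-- `-1` is an `n`-th power in a finite field of odd order iff the 2-part of `n` is smaller than that of `q - 1`. -/
theorem exists_pow_eq_neg_one_iff {F : Type*} [Field F] [Fintype F] (hodd : Odd (Fintype.card F)) {n : ℕ} (hn : 1 ≤ n) :
    (∃ c : F, c ^ n = -1) ↔ padicValNat 2 n < padicValNat 2 (Fintype.card F - 1) := by
  classical
  have hne : (-1 : F) ≠ 1 := Ring.neg_one_ne_one_of_char_ne_two (fun h => by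
    have := FiniteField.even_card_of_char_two h
    rw [← Nat.card_eq_fintype_card, Nat.card_eq_fintype_card] at this
    rw [Nat.odd_iff] at hodd
    omega)
  set q := Fintype.card F
  have hq1 : q - 1 ≠ 0 := by have := Fintype.one_lt_card (α := F); omega
  constructor
  · rintro ⟨c, hc⟩
    have hc0 : c ≠ 0 := by
      rintro rfl
      rw [zero_pow (by omega)] at hc
      exact neg_ne_zero.mpr one_ne_zero hc.symm
    have h2n : orderOf c ∣ 2 * n := orderOf_dvd_of_pow_eq_one (by rw [mul_comm, pow_mul, hc, neg_one_sq])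
    have hnn : ¬ orderOf c ∣ n := fun h => hne (hc ▸ orderOf_dvd_iff_pow_eq_one.mp h)
    have hq : orderOf c ∣ q - 1 := orderOf_dvd_of_pow_eq_one (FiniteField.pow_card_sub_one_eq_one c hc0)
    have hd0 : orderOf c ≠ 0 := fun h => hq1 (Nat.eq_zero_of_zero_dvd (h ▸ hq))
    by_contra hle
    rw [not_lt] at hle
    apply hnn
    rw [← Nat.factorization_le_iff_dvd hd0 (by omega)]
    intro l
    rcases eq_or_ne l 2 with rfl | hl
    · have := (Nat.factorization_le_iff_dvd hd0 hq1).mpr hq 2
      rw [Nat.factorization_def _ Nat.prime_two, Nat.factorization_def _ Nat.prime_two] at *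
      omega
    · have := (Nat.factorization_le_iff_dvd hd0 (by omega)).mpr h2n l
      rw [Nat.factorization_mul (by norm_num) (by omega), Finsupp.add_apply, Nat.Prime.factorization Nat.prime_two,
        Finsupp.single_eq_of_ne hl] at this
      omega
  · intro hlt
    obtain ⟨w, hw⟩ := IsCyclic.exists_ofOrder_eq_natCard (α := Fˣ)
    rw [Nat.card_units, Nat.card_eq_fintype_card] at hw
    set s := padicValNat 2 n
    obtain ⟨m, hm⟩ : 2 ^ s ∣ n := pow_padicValNat_dvd
    have hmodd : Odd m := by
      by_contra h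
      obtain ⟨m', rfl⟩ := (Nat.not_odd_iff_even.mp h).two_dvd
      have : 2 ^ (s + 1) ∣ n := ⟨m', by rw [hm, pow_succ]; ring⟩
      exact pow_succ_padicValNat_not_dvd (p := 2) (by omega : n ≠ 0) this
    obtain ⟨d, hd⟩ : 2 ^ (s + 1) ∣ q - 1 := (pow_dvd_pow 2 hlt).trans pow_padicValNat_dvd
    refine ⟨((w ^ d : Fˣ) : F), ?_⟩
    have h1 : ((w ^ d : Fˣ) : F) ^ 2 ^ s = -1 := by
      have hsq : (((w ^ d : Fˣ) : F) ^ 2 ^ s) ^ 2 = 1 := by
        rw [← pow_mul, ← pow_succ, ← Units.val_pow_eq_pow_val, ← pow_mul, mul_comm, ← hd, ← hw, pow_orderOf_eq_one, Units.val_one]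
      rcases sq_eq_one_iff.mp hsq with h | h
      · exfalso
        have hpos : 0 < d := Nat.pos_of_ne_zero (by rintro rfl; simp at hd; omega)
        rw [← Units.val_pow_eq_pow_val, Units.val_eq_one, ← pow_mul, ← orderOf_dvd_iff_pow_eq_one, hw, hd, pow_succ] at h
        have := Nat.le_of_dvd (by positivity) h
        nlinarith [Nat.one_le_two_pow (n := s)]
      · exact h
    rw [hm, pow_mul, h1, hmodd.neg_one_pow]


/-- Which diagonal involutions of PGL_n(q) lie in PSL_n(q), q odd: for the diagonal matrix t with i entries −1 and n − i entries 1, some non-zero scalar multiple of t has determinant one if and only if i is even or the 2-part of q − 1 exceeds the 2-part of n (that is, −1 is an n-th power in the field exactly in the latter case). -/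
theorem result {F : Type*} [Field F] [Fintype F] {q : ℕ} (hF : Fintype.card F = q) (hq : Odd q) {n : ℕ} (hn : 1 ≤ n) (i : ℕ) (hi : i ≤ n) : (∃ c : F, c ≠ 0 ∧ (c • Matrix.diagonal (fun j : Fin n => if (j : ℕ) < i then (-1 : F) else 1)).det = 1) ↔ (Even i ∨ padicValNat 2 n < padicValNat 2 (q - 1)) := by
  classical
  subst hF
  have hdet : ∀ c : F, (c • Matrix.diagonal (fun j : Fin n => if (j : ℕ) < i then (-1 : F) else 1)).det = c ^ n * (-1) ^ i := by
    intro c
    rw [Matrix.det_smul, Matrix.det_diagonal, Fintype.card_fin, Finset.prod_ite, Finset.prod_const_one, mul_one, Finset.prod_const]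
    congr 2
    rw [Fin.card_filter_val_lt, min_eq_right hi]
  simp only [hdet]
  rcases Nat.even_or_odd i with he | ho
  · simp only [he.neg_one_pow, mul_one, he, true_or, iff_true]
    exact ⟨1, one_ne_zero, one_pow n⟩
  · have hne : ¬ Even i := Nat.not_even_iff_odd.mpr ho
    simp only [ho.neg_one_pow, hne, false_or, mul_neg, mul_one, neg_eq_iff_eq_neg]
    rw [← exists_pow_eq_neg_one_iff hq hn]
    constructor
    · rintro ⟨c, -, hc⟩; exact ⟨c, hc⟩
    · rintro ⟨c, hc⟩
      refine ⟨c, ?_, hc⟩
      rintro rfl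
      rw [zero_pow (by omega)] at hc
      exact neg_ne_zero.mpr one_ne_zero hc.symm

end Cfsg.Agent.S2575
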