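import Cfsg.Statements.S2576


set_option autoImplicit false
open Cfsg

namespace Cfsg.Agent.S2576

/-- Which involutions of PGL_2m(q) coming from a scalar of the quadratic extension field lie in PSL_2m(q), q odd: let μ generate the Sylow 2-subgroup of the multiplicative group of the field with q elements (μ has order the 2-part of q − 1) and let t be the block-diagonal matrix with m diagonal blocks [[0, 1], [μ, 0]] (so t² is the scalar μ and t is an involution modulo scalars). Then some non-zero scalar multiple of t has determinant one if and only if q ≡ 3 (mod 4) or the 2-part of q − 1 is less than the 2-part of 2m. -/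
theorem result {F : Type*} [Field F] [Fintype F] {q : ℕ} (hF : Fintype.card F = q) (hq : Odd q) {m : ℕ} (hm : 1 ≤ m) (μ : F) (hμ : orderOf μ = 2 ^ padicValNat 2 (q - 1)) : (∃ c : F, c ≠ 0 ∧ (c • Matrix.blockDiagonal (fun _ : Fin m => !![(0 : F), 1; μ, 0])).det = 1) ↔ (q % 4 = 3 ∨ padicValNat 2 (q - 1) < padicValNat 2 (2 * m)) := by
  classical
  subst hF
  set q := Fintype.card F with hqdef
  have hdet : ∀ c : F, (c • Matrix.blockDiagonal (fun _ : Fin m => !![(0 : F), 1; μ, 0])).det = c ^ (2 * m) * (-μ) ^ m := by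
    intro c
    rw [Matrix.det_smul, Matrix.det_blockDiagonal]
    simp [Matrix.det_fin_two, mul_comm]
  simp only [hdet]
  set e := padicValNat 2 (q - 1) with he
  have hq3 : 3 ≤ q := by
    have := Fintype.one_lt_card (α := F)
    rcases hq with ⟨k, hk⟩
    omega
  have hq1 : q - 1 ≠ 0 := by omega
  haveI : Fact (Nat.Prime 2) := ⟨Nat.prime_two⟩
  have hne : (-1 : F) ≠ 1 := Ring.neg_one_ne_one_of_char_ne_two (fun h => by
    have := FiniteField.even_card_of_char_two h
    rw [Nat.odd_iff] at hq
    omega)
  have heq : q % 4 = 3 ↔ e = 1 := by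
    have h1 : 1 ≤ e := one_le_padicValNat_of_dvd hq1 (by rcases hq with ⟨k, hk⟩; exact ⟨k, by omega⟩)
    constructor
    · intro h
      by_contra h2
      have h4 : 2 ^ 2 ∣ q - 1 := (pow_dvd_pow 2 (by omega : 2 ≤ e)).trans pow_padicValNat_dvd
      omega
    · intro h
      have := pow_succ_padicValNat_not_dvd (p := 2) hq1
      rw [← he, h] at this
      rcases hq with ⟨k, hk⟩
      omega
  have hneg : -μ = μ ^ 1 * (-1) := by rw [pow_one, mul_neg_one]
  by_cases h1 : e = 1
  · have hμ1 : μ = -1 := by
      rw [h1] at hμ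
      have : μ ^ 2 = 1 := by
        have := pow_orderOf_eq_one μ
        rwa [hμ, pow_one] at this
      rcases sq_eq_one_iff.mp this with h | h
      · subst h; simp at hμ
      · exact h
    simp only [heq.mpr h1, true_or, iff_true]
    exact ⟨1, one_ne_zero, by simp [hμ1]⟩
  · have he2 : 2 ≤ e := by
      have := one_le_padicValNat_of_dvd hq1 (show 2 ∣ q - 1 by rcases hq with ⟨k, hk⟩; exact ⟨k, by omega⟩)
      omega
    simp only [fun h => h1 (heq.mp h), false_or, padicValNat.mul (by norm_num : (2 : ℕ) ≠ 0) (by omega : m ≠ 0),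
      padicValNat.self (by norm_num : 1 < 2)]
    set s := padicValNat 2 m with hs
    -- `-μ` has order `2 ^ e` as well
    have hμe : μ ^ 2 ^ (e - 1) = -1 := by
      have h2 : (μ ^ 2 ^ (e - 1)) ^ 2 = 1 := by
        have := pow_orderOf_eq_one μ
        rwa [hμ, show e = e - 1 + 1 by omega, pow_succ, pow_mul] at this
      rcases sq_eq_one_iff.mp h2 with h | h
      · exfalso
        have := Nat.le_of_dvd (by positivity) (hμ ▸ orderOf_dvd_of_pow_eq_one h)
        have := Nat.pow_lt_pow_right (show 1 < 2 by norm_num) (show e - 1 < e by omega)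
        omega
      · exact h
    have hnμe : (-μ) ^ 2 ^ (e - 1) = -1 := by
      rw [neg_pow, hμe, (Nat.even_pow.mpr ⟨even_two, by omega⟩).neg_one_pow, one_mul]
    constructor
    · rintro ⟨c, hc0, hc⟩
      by_contra hle
      have hse : s < e := by omega
      obtain ⟨m', hm'⟩ : 2 ^ s ∣ m := pow_padicValNat_dvd
      have hmodd : Odd m' := by
        by_contra h
        obtain ⟨m'', rfl⟩ := (Nat.not_odd_iff_even.mp h).two_dvd
        have : 2 ^ (s + 1) ∣ m := ⟨m'', by rw [hm', pow_succ]; ring⟩
        exact pow_succ_padicValNat_not_dvd (p := 2) (by omega : m ≠ 0) this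
      obtain ⟨o, ho⟩ : 2 ^ e ∣ q - 1 := pow_padicValNat_dvd
      have hoodd : Odd o := by
        by_contra h
        obtain ⟨o', rfl⟩ := (Nat.not_odd_iff_even.mp h).two_dvd
        have : 2 ^ (e + 1) ∣ q - 1 := ⟨o', by rw [ho, pow_succ]; ring⟩
        exact pow_succ_padicValNat_not_dvd (p := 2) hq1 this
      have h3 := congrArg (· ^ (2 ^ (e - 1 - s) * o)) hc
      simp only [mul_pow, ← pow_mul, one_pow] at h3
      have e1 : 2 * m * (2 ^ (e - 1 - s) * o) = (q - 1) * m' := by
        rw [ho, hm', show e = 1 + s + (e - 1 - s) by omega, pow_add, pow_add, pow_one]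
        rw [show 1 + s + (e - 1 - s) - 1 - s = e - 1 - s by omega]
        ring
      have e2 : m * (2 ^ (e - 1 - s) * o) = 2 ^ (e - 1) * (m' * o) := by
        rw [hm', show e - 1 = s + (e - 1 - s) by omega, pow_add, show s + (e - 1 - s) - s = e - 1 - s by omega]
        ring
      rw [e1, e2, pow_mul c, FiniteField.pow_card_sub_one_eq_one c hc0, one_pow, one_mul, pow_mul, hnμe,
        (hmodd.mul hoodd).neg_one_pow] at h3
      exact hne h3
    · intro hlt
      refine ⟨1, one_ne_zero, ?_⟩
      obtain ⟨m', hm'⟩ : 2 ^ e ∣ m := (pow_dvd_pow 2 (by omega : e ≤ s)).trans pow_padicValNat_dvd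
      have : (-μ) ^ 2 ^ e = 1 := by
        rw [show e = e - 1 + 1 by omega, pow_succ, pow_mul, hnμe, neg_one_sq]
      rw [one_pow, one_mul, hm', pow_mul, this, one_pow]

end Cfsg.Agent.S2576
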