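import Cfsg.Statements.S2578
import Cfsg.Agent.ClassicalElem.RegularNilpotent
import Cfsg.Agent.Spectrum.Linear

set_option autoImplicit false
open Cfsg

namespace Cfsg.Agent.S2578

/-- Regular unipotent classes of SL_n(q): for n ≥ 2 over the field with q elements, the matrices u of determinant one with (u − 1)^n = 0 and rank(u − 1) = n − 1 form a single GL_n(q)-class which splits into exactly gcd(n, q − 1) conjugacy classes of SL_n(q). -/
theorem result {F : Type*} [Field F] [Fintype F] {q : ℕ} (hF : Fintype.card F = q) {n : ℕ} (hn : 2 ≤ n) : Nat.card {C : ConjClasses (Matrix.SpecialLinearGroup (Fin n) F) // ∃ u : Matrix.SpecialLinearGroup (Fin n) F, ConjClasses.mk u = C ∧ ((u : Matrix (Fin n) (Fin n) F) - 1) ^ n = 0 ∧ ((u : Matrix (Fin n) (Fin n) F) - 1).rank = n - 1} = Nat.gcd n (q - 1) := by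
  classical
  let P : Matrix.SpecialLinearGroup (Fin n) F → Prop := fun u =>
    ((u : Matrix (Fin n) (Fin n) F) - 1) ^ n = 0 ∧ ((u : Matrix (Fin n) (Fin n) F) - 1).rank = n - 1
  let S := (powMonoidHom n : Fˣ →* Fˣ).range
  -- the base element
  have hN0 : (Spectrum.shiftMatrix n F) ^ n = 0 := (Spectrum.shiftMatrix_pow_eq_zero_iff n n).mpr le_rfl
  have hu0det : (1 + Spectrum.shiftMatrix n F).det = 1 := by
    rw [Matrix.det_of_lowerTriangular]
    · simp [Spectrum.shiftMatrix]
    · intro i j hij
      have h1 : i < j := hij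
      simp [Spectrum.shiftMatrix, Matrix.one_apply_ne (ne_of_lt h1), show ¬ (i : ℕ) = (j : ℕ) + 1 by omega]
  let u0 : Matrix.SpecialLinearGroup (Fin n) F := ⟨1 + Spectrum.shiftMatrix n F, hu0det⟩
  have hrank0 : (Spectrum.shiftMatrix n F).rank = n - 1 := by
    apply le_antisymm
    · by_contra hlt
      rw [not_le] at hlt
      have := Matrix.rank_le_card_width (Spectrum.shiftMatrix n F)
      rw [Fintype.card_fin] at this
      have hr : (Spectrum.shiftMatrix n F).rank = n := by omega
      have hu := Matrix.mulVec_injective_iff_isUnit (A := Spectrum.shiftMatrix n F)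
      have hsurj : LinearMap.range (Matrix.mulVecLin (Spectrum.shiftMatrix n F)) = ⊤ := by
        apply Submodule.eq_top_of_finrank_eq
        rw [Module.finrank_fin_fun]
        exact hr
      have := Matrix.mulVec_surjective_iff_isUnit.mp (LinearMap.range_eq_top.mp hsurj)
      have h2 := this.pow n
      rw [hN0, isUnit_zero_iff] at h2
      haveI : Nonempty (Fin n) := ⟨⟨0, by omega⟩⟩
      exact zero_ne_one h2
    · -- the kernel is spanned by the last basis vector
      have hker : LinearMap.ker (Matrix.mulVecLin (Spectrum.shiftMatrix n F)) ≤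
          Submodule.span F {Pi.single (⟨n - 1, by omega⟩ : Fin n) 1} := by
        intro x hx
        rw [Submodule.mem_span_singleton]
        refine ⟨x ⟨n - 1, by omega⟩, funext fun i => ?_⟩
        by_cases hi : (i : ℕ) = n - 1
        · have hi' : i = ⟨n - 1, by omega⟩ := Fin.ext hi
          simp [hi']
        · have := congrFun (LinearMap.mem_ker.mp hx) ⟨i + 1, by omega⟩
          simp only [Matrix.mulVecLin_apply, Matrix.mulVec, dotProduct, Pi.zero_apply] at this
          rw [Finset.sum_eq_single i] at this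
          · simp [Spectrum.shiftMatrix] at this
            simp [this, Pi.single_apply, Fin.ext_iff, hi]
          · intro b _ hb
            simp [Spectrum.shiftMatrix, Ne.symm (Fin.val_ne_of_ne hb)]
          · simp
      have h1 := Submodule.finrank_mono hker
      rw [finrank_span_singleton (by simp)] at h1
      have := LinearMap.finrank_range_add_finrank_ker (Matrix.mulVecLin (Spectrum.shiftMatrix n F))
      rw [Module.finrank_fin_fun] at this
      unfold Matrix.rank
      omega
  have hPu0 : P u0 := by simp [P, u0, hN0, hrank0]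
  have hreg0 := ClassicalElem.isRegularNilpotent_of_matrix (Spectrum.shiftMatrix n F) n (Fintype.card_fin n) (by omega) hN0 hrank0
  -- conjugators
  have hconj : ∀ u, P u → ∃ g : GL (Fin n) F, (g : Matrix (Fin n) (Fin n) F) * u0 = u * g := by
    intro u hu
    obtain ⟨g, hg⟩ := ClassicalElem.isConj_of_regular (Fintype.card_fin n) (by omega) hN0 hrank0 hu.1 hu.2
    refine ⟨g, ?_⟩
    show (g : Matrix (Fin n) (Fin n) F) * (1 + Spectrum.shiftMatrix n F) = _
    rw [mul_add, mul_one, hg, sub_mul, one_mul]
    abel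
  -- centraliser determinants are `n`-th powers
  have hcent : ∀ g : GL (Fin n) F, (g : Matrix (Fin n) (Fin n) F) * u0 = u0 * g →
      Matrix.GeneralLinearGroup.det g ∈ S := by
    intro g hg
    have hc : Commute (g : Matrix (Fin n) (Fin n) F) (Spectrum.shiftMatrix n F) := by
      change (g : Matrix (Fin n) (Fin n) F) * (1 + Spectrum.shiftMatrix n F) = (1 + Spectrum.shiftMatrix n F) * g at hg
      rw [mul_add, add_mul, mul_one, one_mul] at hg
      exact add_left_cancel hg
    obtain ⟨c, hdet⟩ := hreg0.det_commuting (hc.map Matrix.toLinAlgEquiv')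
    rw [show LinearMap.det (Matrix.toLinAlgEquiv' (g : Matrix (Fin n) (Fin n) F)) = (g : Matrix (Fin n) (Fin n) F).det
      from LinearMap.det_toLin' _] at hdet
    have hc0 : c ≠ 0 := by
      rintro rfl
      rw [zero_pow (by omega)] at hdet
      exact (Matrix.GeneralLinearGroup.det g).ne_zero hdet
    exact ⟨Units.mk0 c hc0, Units.ext hdet.symm⟩
  choose g hg using hconj
  let f : {C : ConjClasses (Matrix.SpecialLinearGroup (Fin n) F) // ∃ u : Matrix.SpecialLinearGroup (Fin n) F, ConjClasses.mk u = C ∧ P u} → Fˣ ⧸ S :=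
    fun C => QuotientGroup.mk (Matrix.GeneralLinearGroup.det (g C.2.choose C.2.choose_spec.2))
  have hf : ∀ C u (hu : P u), ConjClasses.mk u = C.1 → f C = QuotientGroup.mk (Matrix.GeneralLinearGroup.det (g u hu)) := by
    intro C u hu hC
    obtain ⟨h1, h2⟩ := C.2.choose_spec
    obtain ⟨x, hx⟩ := isConj_iff.mp (ConjClasses.mk_eq_mk_iff_isConj.mp (hC.trans h1.symm))
    set v := C.2.choose
    set X : GL (Fin n) F := Matrix.SpecialLinearGroup.toGL x
    have hcomm : ((( g v h2)⁻¹ * (X * g u hu) : GL (Fin n) F) : Matrix (Fin n) (Fin n) F) * u0 =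
        u0 * (((g v h2)⁻¹ * (X * g u hu) : GL (Fin n) F) : Matrix (Fin n) (Fin n) F) := by
      have e1 : (X : Matrix (Fin n) (Fin n) F) * u = v * X := by
        have := congrArg Subtype.val (show x * u = v * x by rw [← hx]; group)
        simpa [X] using this
      have e2 : (((g v h2)⁻¹ : GL (Fin n) F) : Matrix (Fin n) (Fin n) F) * v = u0 * (((g v h2)⁻¹ : GL (Fin n) F) : Matrix (Fin n) (Fin n) F) := by
        have h3 := congrArg (fun Y => (((g v h2)⁻¹ : GL (Fin n) F) : Matrix (Fin n) (Fin n) F) * Y * (((g v h2)⁻¹ : GL (Fin n) F) : Matrix (Fin n) (Fin n) F)) (hg v h2)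
        simp only [mul_assoc, Units.mul_inv, mul_one] at h3
        simpa [← mul_assoc] using h3.symm
      simp only [Units.val_mul, mul_assoc]
      rw [hg u hu, ← mul_assoc (X : Matrix (Fin n) (Fin n) F), e1, ← mul_assoc, ← mul_assoc, e2]
      simp [mul_assoc]
    have := hcent _ hcomm
    rw [map_mul, map_inv, map_mul, show Matrix.GeneralLinearGroup.det X = 1 from Units.ext x.2, one_mul] at this
    exact QuotientGroup.eq.mpr this
  have hbij : Function.Bijective f := by
    constructor
    · rintro ⟨C, u, rfl, hu⟩ ⟨D, v, rfl, hv⟩ hfe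
      apply Subtype.ext
      rw [hf _ u hu rfl, hf _ v hv rfl, QuotientGroup.eq] at hfe
      obtain ⟨c, hc⟩ := hfe
      -- correct the conjugator by a scalar
      let cs : GL (Fin n) F := Units.map (algebraMap F (Matrix (Fin n) (Fin n) F)).toMonoidHom c
      let h : GL (Fin n) F := g v hv * (cs⁻¹ * (g u hu)⁻¹)
      have hcs : Matrix.GeneralLinearGroup.det cs = c ^ n := by
        apply Units.ext
        simp [cs, Matrix.algebraMap_eq_diagonal]
      have hdet : (h : Matrix (Fin n) (Fin n) F).det = 1 := by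
        have h4 : Matrix.GeneralLinearGroup.det h = 1 := by
          rw [map_mul, map_mul, map_inv, map_inv, hcs]
          have hc' : c ^ n = (Matrix.GeneralLinearGroup.det (g u hu))⁻¹ * Matrix.GeneralLinearGroup.det (g v hv) := hc
          rw [hc', mul_comm]
          simp [mul_assoc, mul_comm, mul_left_comm]
        exact congrArg Units.val h4
      apply ConjClasses.mk_eq_mk_iff_isConj.mpr
      rw [isConj_iff]
      refine ⟨⟨(h : Matrix (Fin n) (Fin n) F), hdet⟩, ?_⟩
      apply mul_inv_eq_iff_eq_mul.mpr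
      apply Subtype.ext
      show (h : Matrix (Fin n) (Fin n) F) * u = v * (h : Matrix (Fin n) (Fin n) F)
      have e2 : (((g u hu)⁻¹ : GL (Fin n) F) : Matrix (Fin n) (Fin n) F) * u = u0 * (((g u hu)⁻¹ : GL (Fin n) F) : Matrix (Fin n) (Fin n) F) := by
        have h3 := congrArg (fun Y => (((g u hu)⁻¹ : GL (Fin n) F) : Matrix (Fin n) (Fin n) F) * Y * (((g u hu)⁻¹ : GL (Fin n) F) : Matrix (Fin n) (Fin n) F)) (hg u hu)
        simp only [mul_assoc, Units.mul_inv, mul_one] at h3
        simpa [← mul_assoc] using h3.symm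
      have e3 : Commute ((cs⁻¹ : GL (Fin n) F) : Matrix (Fin n) (Fin n) F) (u0 : Matrix (Fin n) (Fin n) F) := by
        simp only [cs, ← map_inv, Units.coe_map, RingHom.toMonoidHom_eq_coe, MonoidHom.coe_coe]
        exact Algebra.commutes _ _
      simp only [h, Units.val_mul, mul_assoc]
      rw [e2, ← mul_assoc ((cs⁻¹ : GL (Fin n) F) : Matrix (Fin n) (Fin n) F), e3.eq, ← mul_assoc, ← mul_assoc, ← mul_assoc, hg v hv]
      simp only [mul_assoc]
    · intro q
      obtain ⟨c, rfl⟩ := QuotientGroup.mk_surjective q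
      let D : GL (Fin n) F := Matrix.GeneralLinearGroup.mkOfDetNeZero
        (Matrix.diagonal (Function.update 1 ⟨0, by omega⟩ (c : F))) (by
          rw [Matrix.det_diagonal, Finset.prod_update_of_mem (Finset.mem_univ _)]
          simp)
      have hD : Matrix.GeneralLinearGroup.det D = c := by
        apply Units.ext
        show (Matrix.diagonal (Function.update 1 (⟨0, by omega⟩ : Fin n) (c : F))).det = _
        rw [Matrix.det_diagonal, Finset.prod_update_of_mem (Finset.mem_univ _)]
        simp
      let U : Matrix (Fin n) (Fin n) F := (D : Matrix (Fin n) (Fin n) F) * (1 + Spectrum.shiftMatrix n F) * ((D⁻¹ : GL (Fin n) F) : Matrix (Fin n) (Fin n) F)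
      have hU1 : U.det = 1 := by
        simp only [U]
        rw [Matrix.det_mul, Matrix.det_mul, hu0det, mul_one, ← Matrix.det_mul, Units.mul_inv, Matrix.det_one]
      have hUN : U - 1 = (D : Matrix (Fin n) (Fin n) F) * Spectrum.shiftMatrix n F * ((D⁻¹ : GL (Fin n) F) : Matrix (Fin n) (Fin n) F) := by
        simp [U, mul_add, add_mul]
      have hP : P ⟨U, hU1⟩ := by
        refine ⟨?_, ?_⟩
        · show (U - 1) ^ n = 0
          rw [hUN, Units.conj_pow, hN0, mul_zero, zero_mul]
        · show (U - 1).rank = n - 1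
          rw [hUN, Matrix.rank_mul_eq_left_of_isUnit_det, Matrix.rank_mul_eq_right_of_isUnit_det, hrank0]
          · exact (Matrix.isUnit_iff_isUnit_det _).mp D.isUnit
          · exact (Matrix.isUnit_iff_isUnit_det _).mp (D⁻¹).isUnit
      refine ⟨⟨ConjClasses.mk ⟨U, hU1⟩, _, rfl, hP⟩, ?_⟩
      rw [hf _ _ hP rfl, QuotientGroup.eq]
      have hgD := hg _ hP
      have hcomm : ((D⁻¹ * g _ hP : GL (Fin n) F) : Matrix (Fin n) (Fin n) F) * u0 =
          u0 * ((D⁻¹ * g _ hP : GL (Fin n) F) : Matrix (Fin n) (Fin n) F) := by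
        rw [Units.val_mul, mul_assoc, hgD]
        simp [U, u0, ← mul_assoc]
      have := hcent _ hcomm
      rw [map_mul, map_inv, hD] at this
      have h5 := S.inv_mem this
      rwa [mul_inv_rev, inv_inv] at h5
  refine (Nat.card_eq_of_bijective f hbij).trans ?_
  rw [← Subgroup.index_eq_card, IsCyclic.index_powMonoidHom_range, Nat.card_units, Nat.card_eq_fintype_card, hF, Nat.gcd_comm]

end Cfsg.Agent.S2578
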