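import Cfsg.Statements.S2579


set_option autoImplicit false
open Cfsg

namespace Cfsg.Agent.S2579

open Matrix in
/-- A transvection is conjugate by a determinant one matrix to the elementary one. -/
theorem exists_conj_elementary {F : Type*} [Field F] {n : ℕ} (hn : 3 ≤ n) (t : Matrix (Fin n) (Fin n) F)
    (ht : Cfsg.IsTransvection t) :
    ∃ M : Matrix.SpecialLinearGroup (Fin n) F,
      t * M.1 = M.1 * (1 + Matrix.single (⟨0, by omega⟩ : Fin n) ⟨1, by omega⟩ 1) := by
  classical
  obtain ⟨k, rfl⟩ : ∃ k, n = k + 3 := ⟨n - 3, by omega⟩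
  obtain ⟨N, hN⟩ : ∃ N, N = Matrix.mulVecLin (t - 1) := ⟨_, rfl⟩
  have hr : Module.finrank F (LinearMap.range N) = 1 := by rw [hN]; exact ht.1
  have hNN : ∀ x, N (N x) = 0 := fun x => by
    rw [hN, Matrix.mulVecLin_apply, Matrix.mulVecLin_apply, Matrix.mulVec_mulVec, ht.2, Matrix.zero_mulVec]
  obtain ⟨y, hy⟩ : ∃ y, N y ≠ 0 := by
    by_contra h
    push Not at h
    rw [show N = 0 from LinearMap.ext h, LinearMap.range_zero, finrank_bot] at hr
    exact zero_ne_one hr
  set v := N y with hv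
  have hker : Module.finrank F (LinearMap.ker N) = k + 2 := by
    have := LinearMap.finrank_range_add_finrank_ker N
    rw [hr, Module.finrank_fin_fun] at this
    omega
  -- a complement of `v` inside the kernel
  have hvker : v ∈ LinearMap.ker N := LinearMap.mem_ker.mpr (hNN y)
  obtain ⟨C₀, hC₀⟩ := Submodule.exists_isCompl (Submodule.span F ({v} : Set (Fin (k + 3) → F)))
  have hCdim : Module.finrank F (C₀ ⊓ LinearMap.ker N : Submodule F (Fin (k + 3) → F)) = k + 1 := by
    have h1 := Submodule.finrank_add_eq_of_isCompl hC₀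
    rw [finrank_span_singleton hy, Module.finrank_fin_fun] at h1
    have h2 := Submodule.finrank_sup_add_finrank_inf_eq C₀ (LinearMap.ker N)
    have htop : C₀ ⊔ LinearMap.ker N = ⊤ := by
      refine eq_top_iff.mpr ?_
      rw [← hC₀.sup_eq_top, sup_comm]
      exact sup_le_sup_left ((Submodule.span_singleton_le_iff_mem _ _).mpr hvker) _
    rw [htop, finrank_top, Module.finrank_fin_fun, hker] at h2
    omega
  obtain ⟨C, hCdef⟩ : ∃ C : Submodule F (Fin (k + 3) → F), C = C₀ ⊓ LinearMap.ker N := ⟨_, rfl⟩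
  rw [← hCdef] at hCdim
  obtain ⟨bC⟩ : Nonempty (Module.Basis (Fin (k + 1)) F C) := ⟨Module.finBasisOfFinrankEq F C hCdim⟩
  obtain ⟨c, hcdef⟩ : ∃ c : Fin (k + 1) → (Fin (k + 3) → F), c = fun i => (bC i : Fin (k + 3) → F) := ⟨_, rfl⟩
  have hcmem : ∀ i, c i ∈ C₀ ⊓ LinearMap.ker N := fun i => by
    rw [← hCdef, hcdef]; exact (bC i).2
  have hcC : ∀ i, c i ∈ C₀ := fun i => (hcmem i).1
  have hc : ∀ i, N (c i) = 0 := fun i => LinearMap.mem_ker.mp (hcmem i).2
  have hcli : LinearIndependent F c := by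
    rw [hcdef]; exact bC.linearIndependent.map' C.subtype (Submodule.ker_subtype C)
  have hspan : Submodule.span F (Set.range c) ≤ LinearMap.ker N := by
    rw [Submodule.span_le]; rintro _ ⟨i, rfl⟩; exact hc i
  have hyc : y ∉ Submodule.span F (Set.range c) := fun h => hy (LinearMap.mem_ker.mp (hspan h))
  have hyli : LinearIndependent F (Fin.cons y c : Fin (k + 2) → (Fin (k + 3) → F)) :=
    linearIndependent_finCons.mpr ⟨hcli, hyc⟩
  have hvy : v ∉ Submodule.span F (Set.range (Fin.cons y c : Fin (k + 2) → (Fin (k + 3) → F))) := by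
    rw [Fin.range_cons, Submodule.mem_span_insert]
    rintro ⟨a, z, hz, hvz⟩
    have h0 : N v = 0 := hNN y
    rw [hvz, map_add, map_smul, ← hv, LinearMap.mem_ker.mp (hspan hz), add_zero, smul_eq_zero] at h0
    rcases h0 with h0 | h0
    · rw [h0, zero_smul, zero_add] at hvz
      -- `v` would lie in the complement
      have hmem : v ∈ C₀ := by
        rw [hvz]
        exact (Submodule.span_le.mpr (by rintro _ ⟨i, rfl⟩; exact hcC i)) hz
      exact hy (Submodule.disjoint_def.mp hC₀.disjoint _ (Submodule.mem_span_singleton_self v) hmem)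
    · exact hy h0
  let f : Fin (k + 3) → (Fin (k + 3) → F) := Fin.cons v (Fin.cons y c)
  have hf : LinearIndependent F f := linearIndependent_finCons.mpr ⟨hyli, hvy⟩
  set M₀ : Matrix (Fin (k + 3)) (Fin (k + 3)) F := (Matrix.of f).transpose with hM₀
  have hM₀det : M₀.det ≠ 0 := by
    rw [Matrix.det_transpose]
    exact ((Matrix.isUnit_iff_isUnit_det _).mp (Matrix.linearIndependent_rows_iff_isUnit.mp hf)).ne_zero
  let E : Matrix (Fin (k + 3)) (Fin (k + 3)) F := 1 + Matrix.single (⟨0, by omega⟩ : Fin (k + 3)) ⟨1, by omega⟩ 1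
  have hcols : (t - 1) * M₀ = M₀ * Matrix.single (⟨0, by omega⟩ : Fin (k + 3)) ⟨1, by omega⟩ 1 := by
    ext i j
    have hl : ((t - 1) * M₀) i j = N (f j) i := by
      simp [hN, hM₀, Matrix.mul_apply, Matrix.mulVec, dotProduct, sub_mul, Finset.sum_sub_distrib, Matrix.one_apply]
    rw [hl]
    by_cases hj : j = ⟨1, by omega⟩
    · subst hj
      rw [Matrix.mul_single_apply_same, mul_one]
      rfl
    · rw [Matrix.mul_single_apply_of_ne _ _ _ _ _ hj]
      revert hj
      refine Fin.cases ?_ (fun j => ?_) j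
      · intro _; exact congrFun (hNN y) i
      · refine Fin.cases ?_ (fun j => ?_) j
        · intro hj; exact absurd rfl hj
        · intro _; exact congrFun (hc j) i
  set a : Fin (k + 3) → F := Function.update 1 ⟨2, by omega⟩ M₀.det⁻¹ with ha
  have hdet : (M₀ * Matrix.diagonal a).det = 1 := by
    rw [Matrix.det_mul, Matrix.det_diagonal, ha, Finset.prod_update_of_mem (Finset.mem_univ _)]
    simp [mul_inv_cancel₀ hM₀det]
  refine ⟨⟨M₀ * Matrix.diagonal a, hdet⟩, ?_⟩
  have hdiag : Matrix.diagonal a * E = E * Matrix.diagonal a := by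
    have h1 : ∀ i j : Fin (k + 3), E i j ≠ 0 → a i = a j := by
      intro i j hij
      by_cases h : i = j
      · rw [h]
      · simp [E, Matrix.one_apply, h, Matrix.single_apply] at hij
        obtain ⟨hi, hj⟩ := hij
        subst hi hj
        simp [a, Function.update, Fin.ext_iff]
    ext i j
    rw [Matrix.diagonal_mul, Matrix.mul_diagonal]
    by_cases h : E i j = 0
    · simp [h]
    · rw [h1 i j h, mul_comm]
  show t * (M₀ * Matrix.diagonal a) = M₀ * Matrix.diagonal a * E
  rw [mul_assoc, hdiag, ← mul_assoc, ← mul_assoc]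
  congr 1
  have : (t - 1) * M₀ + M₀ = M₀ * E := by rw [hcols]; simp [E, mul_add, add_comm]
  rw [← this, sub_mul, one_mul, sub_add_cancel]


/-- In SL_n(F) with n ≥ 3, over a finite field F, any two transvections (matrices t with t − 1 of rank one and square zero) are conjugate by an element of SL_n(F). -/
theorem result {F : Type*} [Field F] [Finite F] {n : ℕ} (hn : 3 ≤ n) (s t : Matrix.SpecialLinearGroup (Fin n) F) (hs : Cfsg.IsTransvection (s : Matrix (Fin n) (Fin n) F)) (ht : Cfsg.IsTransvection (t : Matrix (Fin n) (Fin n) F)) : IsConj s t := by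
  obtain ⟨M, hM⟩ := exists_conj_elementary hn _ hs
  obtain ⟨M', hM'⟩ := exists_conj_elementary hn _ ht
  let E : Matrix.SpecialLinearGroup (Fin n) F := M⁻¹ * s * M
  have hE : E = M'⁻¹ * t * M' := by
    have e1 : ∀ (u Q : Matrix.SpecialLinearGroup (Fin n) F) (X : Matrix (Fin n) (Fin n) F),
        u.1 * Q.1 = Q.1 * X → (Q⁻¹ * u * Q).1 = X := by
      intro u Q X h
      show (Q⁻¹).1 * u.1 * Q.1 = X
      rw [mul_assoc, h, ← mul_assoc]
      have : (Q⁻¹).1 * Q.1 = 1 := congrArg Subtype.val (inv_mul_cancel Q)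
      rw [this, one_mul]
    exact Subtype.ext ((e1 s M _ hM).trans (e1 t M' _ hM').symm)
  exact isConj_iff.mpr ⟨M' * M⁻¹, by
    calc M' * M⁻¹ * s * (M' * M⁻¹)⁻¹ = M' * E * M'⁻¹ := by simp [E, mul_assoc]
      _ = t := by rw [hE]; group⟩

end Cfsg.Agent.S2579
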