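import Cfsg.Statements.S2582
import Cfsg.Agent.ClassConj.FormTypes
-- import your own Cfsg.Agent.* helpers here

set_option autoImplicit false
open Cfsg

namespace Cfsg.Agent.S2582

/-- Which unipotent Jordan types occur in the finite symplectic group: over a finite field, a unipotent matrix with Jordan block sizes d_1, …, d_t (sum 2m, all at least 1) is similar to an element of Sp_2m(F) if and only if every odd block size occurs an even number of times. -/
theorem result {F : Type*} [Field F] [Fintype F] {m t : ℕ} (d : Fin t → ℕ) (hd : ∀ k, 1 ≤ d k) (hsum : ∑ k, d k = 2 * m) : (∃ e : ((k : Fin t) × Fin (d k)) ≃ (Fin m ⊕ Fin m), ∃ A : Matrix.symplecticGroup (Fin m) F, IsConj (Matrix.reindex e e (Cfsg.jordanTypeMatrix d F)) (A : Matrix (Fin m ⊕ Fin m) (Fin m ⊕ Fin m) F)) ↔ ∀ j : ℕ, Odd j → Even (Finset.univ.filter (fun k : Fin t => d k = j)).card := by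
  have hcnt := ClassConj.FormTypes.count_map_univ d
  constructor
  · rintro ⟨e, A, hA⟩ j ⟨r, rfl⟩
    have ht := ClassConj.FormTypes.hasType_of_isConj hA
      (ClassConj.FormTypes.hasType_reindex e (ClassConj.FormTypes.hasType_jordanType (F := F) d))
    have hiso : ∀ u v, Forms.sympBil m F (Matrix.toLin' (A : Matrix (Fin m ⊕ Fin m) (Fin m ⊕ Fin m) F) u)
        (Matrix.toLin' (A : Matrix (Fin m ⊕ Fin m) (Fin m ⊕ Fin m) F) v) = Forms.sympBil m F u v := fun u v => by
      rw [Forms.sympBil_apply, Forms.sympBil_apply, Matrix.toLin'_apply, Matrix.toLin'_apply]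
      exact Forms.mem_symplecticGroup_iff_sympForm.1 A.2 u v
    rw [← hcnt, ClassConj.FormTypes.hasType_count ht]
    exact ClassConj.FormTypes.even_layerDim_sub_alt Forms.sympBil_isAlt Forms.sympBil_nondegenerate hiso
      (even_two_mul r)
  · intro h
    obtain ⟨n, B, f, hA, hB, hf, ht⟩ := ClassConj.FormTypes.formType_alt (F := F)
      (μ := Finset.univ.val.map d) (by simpa using hd) (fun j hj => by rw [hcnt]; exact h j hj)
    have hn : Module.finrank F (Fin n → F) = 2 * m := by
      rw [ClassConj.FormTypes.hasType_finrank ht, ClassConj.FormTypes.sum_map_univ, hsum]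
    obtain ⟨E, hE⟩ := SympSub.exists_iso_sympBil hA hB hn
    let g : Module.End F (Fin m ⊕ Fin m → F) := E.toLinearMap ∘ₗ f ∘ₗ E.symm.toLinearMap
    have hg : LinearMap.toMatrix' g ∈ Matrix.symplecticGroup (Fin m) F := by
      rw [Forms.mem_symplecticGroup_iff_sympForm]
      intro u v
      rw [LinearMap.toMatrix'_mulVec, LinearMap.toMatrix'_mulVec, ← Forms.sympBil_apply,
        ← Forms.sympBil_apply]
      simp [g, hE, hf]
      rw [← hE, E.apply_symm_apply, E.apply_symm_apply]
    let e : ((k : Fin t) × Fin (d k)) ≃ Fin m ⊕ Fin m :=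
      Fintype.equivOfCardEq (by simp [hsum, two_mul])
    refine ⟨e, ⟨_, hg⟩, ClassConj.FormTypes.isConj_of_hasType
      (ClassConj.FormTypes.hasType_reindex e (ClassConj.FormTypes.hasType_jordanType d)) ?_⟩
    rw [Matrix.toLin'_toMatrix']
    exact ClassConj.FormTypes.hasType_conj E (fun v => by simp [g]) ht

end Cfsg.Agent.S2582
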