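import Cfsg.Statements.S2583
import Cfsg.Agent.ClassConj.FormTypes
-- import your own Cfsg.Agent.* helpers here

set_option autoImplicit false
open Cfsg

namespace Cfsg.Agent.S2583

/-- Which unipotent Jordan types occur in a finite orthogonal group in odd characteristic: over a finite field of odd order, a unipotent matrix with Jordan block sizes d_1, …, d_t (sum n, all at least 1) is similar to an isometry of some quadratic form on F^n with non-degenerate polar form if and only if every even block size occurs an even number of times. -/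
theorem result {F : Type*} [Field F] [Fintype F] (h2 : (2 : F) ≠ 0) {n t : ℕ} (d : Fin t → ℕ) (hd : ∀ k, 1 ≤ d k) (hsum : ∑ k, d k = n) : (∃ Q : QuadraticForm F (Fin n → F), (QuadraticMap.polarBilin Q).Nondegenerate ∧ ∃ e : ((k : Fin t) × Fin (d k)) ≃ Fin n, ∃ A : ↥(Cfsg.isometryGroup F ⇑Q), IsConj (Matrix.reindex e e (Cfsg.jordanTypeMatrix d F)) ((A : Matrix.GeneralLinearGroup (Fin n) F) : Matrix (Fin n) (Fin n) F)) ↔ ∀ j : ℕ, Even j → 0 < j → Even (Finset.univ.filter (fun k : Fin t => d k = j)).card := by
  have hcnt := ClassConj.FormTypes.count_map_univ d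
  constructor
  · rintro ⟨Q, hQ, e, A, hA⟩ j ⟨r, rfl⟩ hj0
    have ht := ClassConj.FormTypes.hasType_of_isConj hA
      (ClassConj.FormTypes.hasType_reindex e (ClassConj.FormTypes.hasType_jordanType (F := F) d))
    have hAQ : ∀ u, Q (((A : GL (Fin n) F) : Matrix (Fin n) (Fin n) F).mulVec u) = Q u := fun u => A.2 u u
    obtain ⟨s, rfl⟩ : ∃ s, r = s + 1 := ⟨r - 1, by omega⟩
    rw [← hcnt, show s + 1 + (s + 1) = 2 * s + 1 + 1 by omega, ClassConj.FormTypes.hasType_count ht]
    refine Elusive25.even_layerDim_sub h2 (B := QuadraticMap.polarBilin Q) ⟨fun u v => ?_⟩ hQ (fun u v => ?_)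
      ⟨s, rfl⟩
    · exact QuadraticMap.polar_comm (⇑Q) u v
    · simp [QuadraticMap.polar, ← Matrix.mulVec_add, hAQ]
  · intro h
    obtain ⟨m, B, f, hG, hB, hf, ht⟩ := ClassConj.FormTypes.formType_symm h2
      (μ := Finset.univ.val.map d) (by simpa using hd) (fun j hj hj0 => by rw [hcnt]; exact h j hj hj0)
    obtain rfl : m = n := by
      have := ClassConj.FormTypes.hasType_finrank ht
      rwa [Module.finrank_fin_fun, ClassConj.FormTypes.sum_map_univ, hsum] at this
    have hS : LinearMap.BilinForm.IsSymm B := hG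
    have hp : ∀ u v, QuadraticMap.polarBilin (LinearMap.BilinMap.toQuadraticMap B) u v = 2 * B u v := fun u v => by
      rw [QuadraticMap.polarBilin_apply_apply, LinearMap.BilinMap.polar_toQuadraticMap, hS.eq v u, two_mul]
    obtain ⟨g, hg⟩ : IsUnit (LinearMap.toMatrix' f) := by
      have h1 : IsUnit f := by
        have := ht.1.isUnit_one_add
        rwa [add_sub_cancel] at this
      exact h1.map (LinearMap.toMatrixAlgEquiv' : _ ≃ₐ[F] Matrix (Fin m) (Fin m) F)
    have hgQ : g ∈ Cfsg.isometryGroup F ⇑(LinearMap.BilinMap.toQuadraticMap B) := fun u v => by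
      show LinearMap.BilinMap.toQuadraticMap B ((g : Matrix (Fin m) (Fin m) F).mulVec u) = _
      rw [hg, LinearMap.toMatrix'_mulVec]
      simp [hf]
    let e : ((k : Fin t) × Fin (d k)) ≃ Fin m := Fintype.equivOfCardEq (by simp [hsum])
    refine ⟨LinearMap.BilinMap.toQuadraticMap B, ⟨fun u hu => hB.1 u fun v => ?_, fun u hu => hB.2 u fun v => ?_⟩,
      e, ⟨g, hgQ⟩, ClassConj.FormTypes.isConj_of_hasType
        (ClassConj.FormTypes.hasType_reindex e (ClassConj.FormTypes.hasType_jordanType d)) ?_⟩
    · have := hu v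
      rw [hp] at this
      exact (mul_eq_zero.1 this).resolve_left h2
    · have := hu v
      rw [hp] at this
      exact (mul_eq_zero.1 this).resolve_left h2
    · show ClassConj.FormTypes.HasType (Matrix.toLin' (g : Matrix (Fin m) (Fin m) F)) _
      rw [hg, Matrix.toLin'_toMatrix']
      exact ht

end Cfsg.Agent.S2583
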