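import Cfsg.Statements.S2585


set_option autoImplicit false
open Cfsg

namespace Cfsg.Agent.S2585

/-- Over a finite field of characteristic two every element of the symplectic group is orthogonal for a suitable quadratic form: for each A in Sp_2m(F) there is a quadratic form Q on F^(2m) whose polar form is the alternating form defining Sp_2m(F) (so Q is non-degenerate) and which A preserves. Equivalently, for m ≥ 1, Sp_2m(F) is the union of the conjugates of its two orthogonal subgroups O⁺_2m(F) and O⁻_2m(F). -/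
theorem result {F : Type*} [Field F] [Fintype F] [CharP F 2] {m : ℕ} (A : Matrix.symplecticGroup (Fin m) F) : ∃ Q : QuadraticForm F (Fin m ⊕ Fin m → F), (∀ u v : Fin m ⊕ Fin m → F, QuadraticMap.polar ⇑Q u v = Cfsg.sympForm m F u v) ∧ ∀ v : Fin m ⊕ Fin m → F, Q ((A : Matrix (Fin m ⊕ Fin m) (Fin m ⊕ Fin m) F).mulVec v) = Q v := by
  classical
  let M₀ : Matrix (Fin m ⊕ Fin m) (Fin m ⊕ Fin m) F := Matrix.fromBlocks 0 0 1 0
  let Q₀ : QuadraticForm F ((Fin m ⊕ Fin m) → F) := LinearMap.BilinMap.toQuadraticMap (Matrix.toLinearMap₂' F M₀)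
  set a : Matrix (Fin m ⊕ Fin m) (Fin m ⊕ Fin m) F := (A : Matrix (Fin m ⊕ Fin m) (Fin m ⊕ Fin m) F) with ha
  have hpolar : ∀ u v, QuadraticMap.polar ⇑Q₀ u v = Cfsg.sympForm m F u v := by
    intro u v
    simp only [Q₀, LinearMap.BilinMap.polar_toQuadraticMap,
      Matrix.toLinearMap₂'_apply', M₀, Cfsg.sympForm, Matrix.J]
    simp [Matrix.fromBlocks_mulVec, Matrix.neg_mulVec, dotProduct, Fintype.sum_sum_type, CharTwo.neg_eq, mul_comm, add_comm]
  have hpres : ∀ u v, Cfsg.sympForm m F (a.mulVec u) (a.mulVec v) = Cfsg.sympForm m F u v := by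
    intro u v
    have := SymplecticGroup.mem_iff'.mp A.2
    simp only [Cfsg.sympForm, Matrix.mulVec_mulVec]
    rw [← Matrix.vecMul_transpose, ← Matrix.dotProduct_mulVec, Matrix.mulVec_mulVec, ← mul_assoc, this]
  let L : ((Fin m ⊕ Fin m) → F) →ₗ[F] ((Fin m ⊕ Fin m) → F) := Matrix.toLin' a
  let D : ((Fin m ⊕ Fin m) → F) → F := fun v => Q₀ (L v) + Q₀ v
  have hadd : ∀ u v, D (u + v) = D u + D v := by
    intro u v
    simp only [D, map_add, QuadraticMap.map_add ⇑Q₀, hpolar]
    rw [show Cfsg.sympForm m F (L u) (L v) = Cfsg.sympForm m F u v from hpres u v]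
    linear_combination CharTwo.add_self_eq_zero (Cfsg.sympForm m F u v)
  have hsmul : ∀ (c : F) v, D (c • v) = c * c * D v := by
    intro c v
    simp [D, map_smul, QuadraticMap.map_smul, mul_add]
  have hsq : ∀ x : F, ∃ y : F, y * y = x := fun x => by
    obtain ⟨y, hy⟩ := FiniteField.isSquare_of_char_two (by rw [ringChar.eq_iff]; infer_instance) x
    exact ⟨y, hy.symm⟩
  choose s hs using hsq
  have hinj : ∀ x y : F, x * x = y * y → x = y := fun x y h => by
    have : (x + y) * (x + y) = 0 := by
      linear_combination h + (x * y + y * y) * CharTwo.two_eq_zero (R := F)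
    exact CharTwo.add_eq_zero.mp (mul_self_eq_zero.mp this)
  let d : ((Fin m ⊕ Fin m) → F) →ₗ[F] F :=
    { toFun := fun v => s (D v)
      map_add' := fun u v => hinj _ _ (by
        rw [hs, hadd]
        linear_combination -hs (D u) - hs (D v) - (s (D u) * s (D v)) * CharTwo.two_eq_zero (R := F))
      map_smul' := fun c v => hinj _ _ (by
        rw [hs, hsmul]
        simp only [RingHom.id_apply, smul_eq_mul]
        linear_combination -(c * c) * hs (D v)) }
  have hker : LinearMap.ker (L - LinearMap.id) ≤ LinearMap.ker d := by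
    intro v hv
    rw [LinearMap.mem_ker, LinearMap.sub_apply, LinearMap.id_apply, sub_eq_zero] at hv
    refine hinj (d v) 0 ?_
    change s (D v) * s (D v) = 0 * 0
    rw [hs]
    simp only [D, hv, mul_zero, CharTwo.add_self_eq_zero]
  let g := ((LinearMap.ker (L - LinearMap.id)).liftQ d hker).comp
    (L - LinearMap.id).quotKerEquivRange.symm.toLinearMap
  obtain ⟨l, hl⟩ := LinearMap.exists_extend g
  have hld : ∀ v, l (L v - v) = d v := by
    intro v
    have h1 : l (((L - LinearMap.id).rangeRestrict v : LinearMap.range (L - LinearMap.id)) : (Fin m ⊕ Fin m) → F) =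
        g ((L - LinearMap.id).rangeRestrict v) := LinearMap.congr_fun hl ((L - LinearMap.id).rangeRestrict v)
    refine h1.trans ?_
    have h2 : (L - LinearMap.id).quotKerEquivRange.symm ((L - LinearMap.id).rangeRestrict v) =
        Submodule.Quotient.mk v := by
      rw [LinearEquiv.symm_apply_eq]
      exact Subtype.ext ((L - LinearMap.id).quotKerEquivRange_apply_mk v).symm
    simp [g, h2]
  refine ⟨Q₀ + QuadraticMap.linMulLin l l, ?_, ?_⟩
  · intro u v
    rw [← hpolar]
    simp only [QuadraticMap.polar, QuadraticMap.add_apply, QuadraticMap.linMulLin_apply, map_add]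
    linear_combination (l u * l v) * CharTwo.two_eq_zero (R := F)
  · intro v
    simp only [QuadraticMap.add_apply, QuadraticMap.linMulLin_apply]
    have h1 : d v * d v = Q₀ (L v) + Q₀ v := hs _
    rw [← hld, map_sub] at h1
    change Q₀ (L v) + l (L v) * l (L v) = _
    linear_combination h1 + (l (L v) * l v - l v * l v + Q₀ (L v)) * CharTwo.two_eq_zero (R := F)

end Cfsg.Agent.S2585
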