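import Cfsg.Statements.S2584
import Cfsg.Agent.S2585
import Cfsg.Agent.ClassConj.FormTypes
-- import your own Cfsg.Agent.* helpers here

set_option autoImplicit false
open Cfsg

namespace Cfsg.Agent.S2584

/-- Which unipotent Jordan types occur in a finite orthogonal group in characteristic two: over a finite field of characteristic 2 and in even dimension 2m, a unipotent matrix with Jordan block sizes d_1, …, d_t (sum 2m, all at least 1) is similar to an isometry of some quadratic form on F^(2m) with non-degenerate polar form if and only if every odd block size occurs an even number of times (the same condition as for the symplectic group, which contains these orthogonal groups). -/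
theorem result {F : Type*} [Field F] [Fintype F] [CharP F 2] {m t : ℕ} (d : Fin t → ℕ) (hd : ∀ k, 1 ≤ d k) (hsum : ∑ k, d k = 2 * m) : (∃ Q : QuadraticForm F (Fin (2 * m) → F), (QuadraticMap.polarBilin Q).Nondegenerate ∧ ∃ e : ((k : Fin t) × Fin (d k)) ≃ Fin (2 * m), ∃ A : ↥(Cfsg.isometryGroup F ⇑Q), IsConj (Matrix.reindex e e (Cfsg.jordanTypeMatrix d F)) ((A : Matrix.GeneralLinearGroup (Fin (2 * m)) F) : Matrix (Fin (2 * m)) (Fin (2 * m)) F)) ↔ ∀ j : ℕ, Odd j → Even (Finset.univ.filter (fun k : Fin t => d k = j)).card := by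
  have hcnt := ClassConj.FormTypes.count_map_univ d
  constructor
  · rintro ⟨Q, hQ, e, A, hA⟩ j ⟨r, rfl⟩
    have ht := ClassConj.FormTypes.hasType_of_isConj hA
      (ClassConj.FormTypes.hasType_reindex e (ClassConj.FormTypes.hasType_jordanType (F := F) d))
    have hAQ : ∀ u, Q (((A : GL (Fin (2 * m)) F) : Matrix (Fin (2 * m)) (Fin (2 * m)) F).mulVec u) = Q u :=
      fun u => A.2 u u
    rw [← hcnt, ClassConj.FormTypes.hasType_count ht]
    refine ClassConj.FormTypes.even_layerDim_sub_alt (B := QuadraticMap.polarBilin Q) (fun u => ?_) hQ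
      (fun u v => ?_) (even_two_mul r)
    · simp [CharTwo.two_eq_zero]
    · simp [QuadraticMap.polar, ← Matrix.mulVec_add, hAQ]
  · intro h
    obtain ⟨n, B, f, hA, hB, hf, ht⟩ := ClassConj.FormTypes.formType_alt (F := F)
      (μ := Finset.univ.val.map d) (by simpa using hd) (fun j hj => by rw [hcnt]; exact h j hj)
    have hn : Module.finrank F (Fin n → F) = 2 * m := by
      rw [ClassConj.FormTypes.hasType_finrank ht, ClassConj.FormTypes.sum_map_univ, hsum]
    obtain ⟨E, hE⟩ := SympSub.exists_iso_sympBil hA hB hn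
    let g : Module.End F (Fin m ⊕ Fin m → F) := E.toLinearMap ∘ₗ f ∘ₗ E.symm.toLinearMap
    have hg : LinearMap.toMatrix' g ∈ Matrix.symplecticGroup (Fin m) F := by
      rw [Forms.mem_symplecticGroup_iff_sympForm]
      intro u v
      rw [LinearMap.toMatrix'_mulVec, LinearMap.toMatrix'_mulVec, ← Forms.sympBil_apply,
        ← Forms.sympBil_apply]
      simp [g, hE, hf]
      rw [← hE, E.apply_symm_apply, E.apply_symm_apply]
    obtain ⟨Q, hQp, hQ⟩ := S2585.result ⟨_, hg⟩
    let σ : Fin m ⊕ Fin m ≃ Fin (2 * m) := finSumFinEquiv.trans (finCongr (two_mul m).symm)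
    let R : (Fin (2 * m) → F) ≃ₗ[F] (Fin m ⊕ Fin m → F) := LinearEquiv.funCongrLeft F F σ
    let Q' : QuadraticForm F (Fin (2 * m) → F) := Q.comp R.toLinearMap
    have hp : ∀ u v, QuadraticMap.polarBilin Q' u v = Forms.sympBil m F (R u) (R v) := fun u v => by
      rw [Forms.sympBil_apply, ← hQp]
      simp [Q', QuadraticMap.polar]
    have hM := ClassConj.FormTypes.hasType_reindex σ
      (show ClassConj.FormTypes.HasType (Matrix.toLin' (LinearMap.toMatrix' g)) (Finset.univ.val.map d) by
        rw [Matrix.toLin'_toMatrix']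
        exact ClassConj.FormTypes.hasType_conj E (fun v => by simp [g]) ht)
    obtain ⟨a, ha⟩ : IsUnit (Matrix.reindex σ σ (LinearMap.toMatrix' g)) := by
      have h1 : IsUnit (Matrix.toLin' (Matrix.reindex σ σ (LinearMap.toMatrix' g))) := by
        have := hM.1.isUnit_one_add
        rwa [add_sub_cancel] at this
      exact (isUnit_map_iff Matrix.toLinAlgEquiv' _).1 h1
    have haQ : a ∈ Cfsg.isometryGroup F ⇑Q' := fun u v => by
      show Q (R ((a : Matrix (Fin (2 * m)) (Fin (2 * m)) F).mulVec u)) = Q (R u)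
      rw [← hQ (R u), ha]
      refine congrArg Q (funext fun i => ?_)
      show ((LinearMap.toMatrix' g).submatrix σ.symm σ.symm).mulVec u (σ i) = _
      rw [Matrix.submatrix_mulVec_equiv, Function.comp_apply, σ.symm_apply_apply]
      rfl
    let e : ((k : Fin t) × Fin (d k)) ≃ Fin (2 * m) := Fintype.equivOfCardEq (by simp [hsum])
    refine ⟨Q', ⟨fun u hu => ?_, fun u hu => ?_⟩, e, ⟨a, haQ⟩, ClassConj.FormTypes.isConj_of_hasType
        (ClassConj.FormTypes.hasType_reindex e (ClassConj.FormTypes.hasType_jordanType d)) ?_⟩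
    · refine R.map_eq_zero_iff.1 (Forms.sympBil_nondegenerate.1 _ fun w => ?_)
      obtain ⟨v, rfl⟩ := R.surjective w
      rw [← hp]; exact hu v
    · refine R.map_eq_zero_iff.1 (Forms.sympBil_nondegenerate.2 _ fun w => ?_)
      obtain ⟨v, rfl⟩ := R.surjective w
      rw [← hp]; exact hu v
    · show ClassConj.FormTypes.HasType (Matrix.toLin' (a : Matrix (Fin (2 * m)) (Fin (2 * m)) F)) _
      rw [ha]
      exact hM

end Cfsg.Agent.S2584
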