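import Cfsg.Statements.S2588
import Cfsg.Agent.UClass.Twist

set_option autoImplicit false
open Cfsg

namespace Cfsg.Agent.S2588

/-- An invertible matrix A over the field with q² elements is conjugate in GL_n(q²) to an element of the general unitary group GU_n(q) (isometries of the Hermitian form Σ u_i v_i^q) if and only if A is similar to the inverse transpose of its entrywise q-th power (A ~ A^(−qT), the image of A under the map sending a matrix to the inverse transpose of its entrywise q-th power — inverse transpose composed with the field automorphism — whose fixed points form GU_n(q)). -/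
theorem result {K : Type*} [Field K] [Fintype K] {q n : ℕ} (hK : Fintype.card K = q ^ 2) (A : GL (Fin n) K) : (∃ B : ↥(Cfsg.GU n K q), IsConj A (B : GL (Fin n) K)) ↔ IsConj (A : Matrix (Fin n) (Fin n) K) (((A : Matrix (Fin n) (Fin n) K).map (fun x : K => x ^ q)).transpose)⁻¹ := by
  classical
  have hF := Agent.Classical.U.sqField_of_fintype hK
  have hst : ((Agent.UClass.cstarU hF A)⁻¹ : GL (Fin n) K).val =
      (((A : Matrix (Fin n) (Fin n) K).map (fun x : K => x ^ q)).transpose)⁻¹ := by
    rw [Matrix.coe_units_inv]; rfl
  constructor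
  · rintro ⟨B, hB⟩
    obtain ⟨g, hg⟩ := isConj_iff.1 hB
    have hBu : Agent.UClass.cstarU hF (B : GL (Fin n) K) * (B : GL (Fin n) K) = 1 :=
      Units.ext ((Agent.ClassConj.mem_GU_iff_cstar hF _).1 B.2)
    have hstm : ∀ g k : GL (Fin n) K, Agent.UClass.cstarU hF (g * k) =
        Agent.UClass.cstarU hF k * Agent.UClass.cstarU hF g := fun g k =>
      Units.ext (Agent.ClassConj.cstar_mul hF _ _)
    set c := Agent.UClass.cstarU hF g * g with hc
    have hA : Agent.UClass.cstarU hF A * c * A = c := by
      have e : g * A = (B : GL (Fin n) K) * g := mul_inv_eq_iff_eq_mul.1 hg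
      calc Agent.UClass.cstarU hF A * c * A = Agent.UClass.cstarU hF (g * A) * (g * A) := by
            rw [hstm, hc]; simp only [mul_assoc]
        _ = Agent.UClass.cstarU hF g * (Agent.UClass.cstarU hF (B : GL (Fin n) K) * (B : GL (Fin n) K)) * g := by
            rw [e, hstm]; simp only [mul_assoc]
        _ = c := by rw [hBu, mul_one]
    refine ⟨c, ?_⟩
    rw [SemiconjBy, ← hst, ← Units.val_mul, ← Units.val_mul]
    congr 1
    rw [eq_inv_mul_iff_mul_eq, ← mul_assoc, hA]
  · rintro ⟨c, hc⟩
    rw [SemiconjBy, ← hst, ← Units.val_mul, ← Units.val_mul] at hc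
    refine Agent.UClass.exists_unitary_conj hF A c ?_
    rw [mul_assoc, Units.ext hc, mul_inv_cancel_left]

end Cfsg.Agent.S2588
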