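import Cfsg.Statements.S2591
import Cfsg.Agent.ClassConj.SympRegularCount
-- import your own Cfsg.Agent.* helpers here

set_option autoImplicit false
open Cfsg

namespace Cfsg.Agent.S2591

/-- Over a finite field of odd order and for m ≥ 1, the regular unipotent elements of Sp_2m(F) (u − 1 nilpotent of rank 2m − 1, a single Jordan block) form exactly two conjugacy classes of Sp_2m(F) (one class under the similarity group, which splits in two). -/
theorem result {F : Type*} [Field F] [Fintype F] {q : ℕ} (hF : Fintype.card F = q) (hq : Odd q) {m : ℕ} (hm : 1 ≤ m) : Nat.card {C : ConjClasses ↥(Matrix.symplecticGroup (Fin m) F) // ∃ u : Matrix.symplecticGroup (Fin m) F, ConjClasses.mk u = C ∧ ((u : Matrix (Fin m ⊕ Fin m) (Fin m ⊕ Fin m) F) - 1) ^ (2 * m) = 0 ∧ ((u : Matrix (Fin m ⊕ Fin m) (Fin m ⊕ Fin m) F) - 1).rank = 2 * m - 1} = 2 := by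
  have h2 : (2 : F) ≠ 0 := by
    intro h
    have hc : ringChar F = 2 := CharP.ringChar_of_prime_eq_zero Nat.prime_two (by exact_mod_cast h)
    have := FiniteField.even_card_of_char_two hc
    rw [hF] at this
    exact absurd hq (Nat.not_odd_iff.2 this)
  refine Eq.trans ?_ (ClassConj.card_sympRegular_classes (F := F) h2 hm)
  refine Nat.card_congr (Equiv.subtypeEquivRight fun C => ⟨?_, ?_⟩)
  · rintro ⟨u, hu, h1, h3⟩
    exact ⟨u, hu, h2, hm, ClassConj.mem_symplecticGroup_iff_sadj.1 u.2, h1, h3⟩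
  · rintro ⟨u, hu, h⟩
    exact ⟨u, hu, h.nil, h.rank⟩

end Cfsg.Agent.S2591
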