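import Cfsg.Statements.S2594
import Cfsg.Agent.SympSub.Count
-- import your own Cfsg.Agent.* helpers here

set_option autoImplicit false
open Cfsg Matrix

namespace Cfsg.Agent.S2594

/-- Over a finite field with q elements, q even, an element t of Sp_2m(F) with rank(t − 1) = 1 (a symplectic transvection) has centraliser in Sp_2m(F) of order q^(2m−1) · |Sp_(2m−2)(q)| = q^(2m−1) · q^((m−1)²) · Π_(i=1)^(m−1) (q^(2i) − 1). -/
theorem result {F : Type*} [Field F] [Fintype F] [CharP F 2] {q : ℕ} (hF : Fintype.card F = q) {m : ℕ} (hm : 1 ≤ m) (t : Matrix.symplecticGroup (Fin m) F) (ht : ((t : Matrix (Fin m ⊕ Fin m) (Fin m ⊕ Fin m) F) - 1).rank = 1) : Nat.card ↥(Subgroup.centralizer ({t} : Set ↥(Matrix.symplecticGroup (Fin m) F))) = q ^ (2 * m - 1) * (q ^ ((m - 1) ^ 2) * ∏ i : Fin (m - 1), (q ^ (2 * ((i : ℕ) + 1)) - 1)) := by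
  classical
  subst hF
  set q := Fintype.card F
  set V := (Fin m ⊕ Fin m → F)
  set g₀ := SympSub.spEquiv m F t with hg₀
  set M := (t : Matrix (Fin m ⊕ Fin m) (Fin m ⊕ Fin m) F)
  have happ : ∀ w : V, g₀.1 w = M *ᵥ w := fun w => rfl
  rw [Matrix.rank] at ht
  obtain ⟨⟨v, hv⟩, hv0, hspan⟩ := finrank_eq_one_iff'.1 ht
  have hv0' : v ≠ 0 := fun h => hv0 (Subtype.ext h)
  have hφ : ∀ w, ∃ c : F, (M - 1) *ᵥ w = c • v := fun w => by
    obtain ⟨c, hc⟩ := hspan ⟨_, w, rfl⟩
    exact ⟨c, (congrArg Subtype.val hc).symm⟩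
  have hA : (Forms.sympBil m F).IsAlt := Forms.sympBil_isAlt
  obtain ⟨u, hu⟩ : ∃ u, Forms.sympBil m F v u = 1 := by
    obtain ⟨y, hy⟩ : ∃ y, Forms.sympBil m F v y ≠ 0 := by
      by_contra hno
      push Not at hno
      exact hv0' (Forms.sympBil_nondegenerate.1 v hno)
    exact ⟨(Forms.sympBil m F v y)⁻¹ • y, by rw [map_smul, smul_eq_mul, inv_mul_cancel₀ hy]⟩
  obtain ⟨cu, hcu⟩ := hφ u
  have hform : ∀ w, g₀.1 w = w + (-cu * Forms.sympBil m F w v) • v := fun w => by
    obtain ⟨c, hc⟩ := hφ w
    have h := g₀.2 w u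
    have hw : g₀.1 w = w + c • v := by rw [happ, ← hc, Matrix.sub_mulVec, Matrix.one_mulVec, add_sub_cancel]
    have hu' : g₀.1 u = u + cu • v := by rw [happ, ← hcu, Matrix.sub_mulVec, Matrix.one_mulVec, add_sub_cancel]
    rw [hw, hu'] at h
    simp only [map_add, map_smul, LinearMap.add_apply, LinearMap.smul_apply, smul_eq_mul,
      hA.self_eq_zero, hu] at h
    rw [hw]
    congr 2
    linear_combination h
  have hcu0 : cu ≠ 0 := by
    intro h0
    obtain ⟨w, hw⟩ := hv
    apply hv0'
    have h := hform w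
    rw [h0, neg_zero, zero_mul, zero_smul, add_zero, happ] at h
    rw [← hw, Matrix.mulVecLin_apply, Matrix.sub_mulVec, Matrix.one_mulVec, h, sub_self]
  have hs : SympSub.IsIsoTuple (F := F) (m := m) (fun _ : Fin 1 => v) :=
    ⟨(linearIndependent_unique_iff (R := F)).2 hv0', fun _ _ => hA.self_eq_zero v⟩
  have hcent : ∀ k : Matrix.symplecticGroup (Fin m) F,
      k ∈ Subgroup.centralizer ({t} : Set ↥(Matrix.symplecticGroup (Fin m) F)) ↔
        SympSub.spEquiv m F k ∈ SympSub.tupleFix (F := F) (m := m) (fun _ : Fin 1 => v) := by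
    intro k
    rw [Subgroup.mem_centralizer_singleton_iff, ← (SympSub.spEquiv m F).injective.eq_iff, map_mul,
      map_mul, ← hg₀]
    set g := SympSub.spEquiv m F k
    constructor
    · intro h i
      show g.1 v = v
      have hvu : Forms.sympBil m F u v = -1 := by rw [← LinearMap.IsAlt.neg hA v u, hu]
      have h' := congrArg (fun z : ↥(SympSub.isoGroup (Forms.sympBil m F)) => z.1 u) h
      simp only [Subgroup.coe_mul, LinearEquiv.mul_apply] at h'
      rw [hform, hform, map_add, map_smul, hvu] at h'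
      have h2 : g.1 v = -(Forms.sympBil m F (g.1 u) v) • v := by
        first
          | (have h3 := add_left_cancel h'
             rw [neg_mul_neg, mul_one] at h3
             refine smul_right_injective V hcu0 ?_
             show cu • g.1 v = cu • _
             rw [h3, smul_smul]
             congr 1
             ring)
          | (have h3 := add_left_cancel h'.symm
             rw [neg_mul_neg, mul_one] at h3
             refine smul_right_injective V hcu0 ?_
             show cu • g.1 v = cu • _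
             rw [h3, smul_smul]
             congr 1
             ring)
      set a := -(Forms.sympBil m F (g.1 u) v)
      have h4 := g.2 v u
      rw [h2, map_smul, LinearMap.smul_apply, hu, smul_eq_mul, ← LinearMap.IsAlt.neg hA (g.1 u) v] at h4
      have ha : a * a = 1 := by
        have hneg : -(Forms.sympBil m F (g.1 u)) v = a := rfl
        linear_combination h4
      have h2' : (2 : F) = 0 := CharTwo.two_eq_zero
      have : a = 1 := by
        have : (a + 1) * (a + 1) = 0 := by linear_combination ha + (a + 1) * h2'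
        linear_combination mul_self_eq_zero.1 this - h2'
      rw [h2, this, one_smul]
    · intro h
      have hgv : g.1 v = v := h 0
      refine Subtype.ext (LinearEquiv.ext fun w => ?_)
      simp only [Subgroup.coe_mul, LinearEquiv.mul_apply]
      rw [hform, hform, map_add, map_smul, hgv]
      congr 3
      conv_rhs => rw [← hgv]
      rw [g.2]
  rw [Nat.card_congr ((SympSub.spEquiv m F).toEquiv.subtypeEquiv hcent)]
  have h1 := SympSub.card_isoGroup_eq hs
  rw [← Nat.card_congr (SympSub.spEquiv m F).toEquiv, SympSub.card_symplecticGroup,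
    SympSub.card_isoTuple] at h1
  obtain ⟨r, rfl⟩ : ∃ r, m = r + 1 := ⟨m - 1, by omega⟩
  simp only [Finset.prod_range_one, Nat.sub_zero, pow_zero] at h1
  rw [SympSub.spOrder_succ] at h1
  have hpos : q ^ (2 * (r + 1)) - 1 ≠ 0 := by
    have : 1 < q ^ (2 * (r + 1)) := Nat.one_lt_pow (by omega) Fintype.one_lt_card
    omega
  apply mul_left_cancel₀ hpos
  show _ * Nat.card ↥(SympSub.tupleFix (F := F) (m := r + 1) fun _ : Fin 1 => v) = _
  rw [← h1, SympSub.spOrder, show 2 * (r + 1) - 1 = 2 * r + 1 by omega, Nat.add_sub_cancel,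
    Fin.prod_univ_eq_prod_range (fun i => q ^ (2 * (i + 1)) - 1) r]
  ring

end Cfsg.Agent.S2594
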