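import Cfsg.Statements.S2597
import Cfsg.Agent.InvolConjTwo.OmegaCount

set_option autoImplicit false
open Cfsg

namespace Cfsg.Agent.S2597

/-- Number of conjugacy classes of involutions in Ω⁺_2m(F) (the commutator subgroup of the orthogonal group of Σ x_i y_i) over a finite field F of characteristic two, m ≥ 1, excluding the case m = 2 over the field of two elements: the involutions of Ω are those with s = rank(t − 1) even, giving two O-classes for each even s with 2 ≤ s ≤ m, each of which is a single Ω-class except that for m even the class with s = m and v ↦ f(v, tv) identically zero splits in two; in all 2⌊m/2⌋ + 1 classes if m is even and 2⌊m/2⌋ if m is odd. -/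
theorem result {F : Type*} [Field F] [Fintype F] [CharP F 2] {m : ℕ} (hm : 1 ≤ m) (h : Fintype.card F ≠ 2 ∨ m ≠ 2) : Nat.card {C : ConjClasses ↥(Cfsg.Omega F (Cfsg.quadFormPlus m F)) // ∃ g : ↥(Cfsg.Omega F (Cfsg.quadFormPlus m F)), ConjClasses.mk g = C ∧ orderOf g = 2} = 2 * (m / 2) + (if Even m then 1 else 0) := by
  rw [show Cfsg.quadFormPlus m F = ⇑(Classical.plusQF m F) from
    funext fun v => (Classical.plusQF_apply m v).symm]
  have hm2 : Fintype.card (Fin m ⊕ Fin m) = 2 * m := by simp [two_mul]
  rcases Nat.even_or_odd m with he | ho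
  · rw [InvolConjTwo.card_omega_classes_split Forms.bNondeg_plusQF (Forms.notExceptional_plusQF h) hm2
      (by omega) he InvolConjTwo.finrank_le_plus (fun s b h => InvolConjTwo.exists_rep_plus h),
      if_pos he, two_mul]
  · rw [InvolConjTwo.card_omega_classes_fixed Forms.bNondeg_plusQF (Forms.notExceptional_plusQF h) hm2
      InvolConjTwo.finrank_le_plus (fun s b h => InvolConjTwo.exists_rep_plus h) (fun x hx hmem => ?_),
      if_neg (Nat.not_even_iff_odd.2 ho), two_mul, add_zero]
    by_contra hcon
    push Not at hcon
    have h1 := (InvolConjTwo.half_rank_of_fixed_singular _ Forms.bNondeg_plusQF x hx hcon).1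
    have h2 := (InvolConjTwo.mem_Omega_iff_even _ Forms.bNondeg_plusQF
      (Forms.notExceptional_plusQF h) x).1 hmem
    rw [hm2] at h1
    rw [Nat.eq_of_mul_eq_mul_left two_pos h1] at h2
    exact Nat.not_even_iff_odd.2 ho h2

end Cfsg.Agent.S2597
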