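import Cfsg.Statements.S2598
import Cfsg.Agent.InvolConjTwo.MinusFour

set_option autoImplicit false
open Cfsg

namespace Cfsg.Agent.S2598

/-- Number of conjugacy classes of involutions in Ω⁻_2m(F) (the commutator subgroup of the orthogonal group of an elliptic quadratic form, Σ_(i<m−1) x_i y_i plus an anisotropic binary form) over a finite field F of characteristic two, m ≥ 1: the involutions of Ω are those with s = rank(t − 1) even, one O-class for each even s with 2 ≤ s ≤ m on which v ↦ f(v, tv) is not identically zero and one for each even s with 2 ≤ s < m on which it is zero (f the polar form; in characteristic 2, f(v, tv) = Q(v + tv)), none of which splits in Ω; in all ⌊m/2⌋ + ⌊(m − 1)/2⌋. -/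
theorem result {F : Type*} [Field F] [Fintype F] [CharP F 2] {m : ℕ} (hm : 1 ≤ m) (a b : F) (hab : ∀ z₁ z₂ : F, z₁ ^ 2 + a * z₁ * z₂ + b * z₂ ^ 2 = 0 → z₁ = 0 ∧ z₂ = 0) : Nat.card {C : ConjClasses ↥(Cfsg.Omega F (Cfsg.quadFormMinus (m - 1) F a b)) // ∃ g : ↥(Cfsg.Omega F (Cfsg.quadFormMinus (m - 1) F a b)), ConjClasses.mk g = C ∧ orderOf g = 2} = m / 2 + (m - 1) / 2 := by
  by_cases hexc : Fintype.card F = 2 ∧ m = 2
  · obtain ⟨hF, rfl⟩ := hexc
    exact InvolConjTwo.card_omega_classes_four hF a b hab
  rw [show Cfsg.quadFormMinus (m - 1) F a b = ⇑(Classical.minusQF (m - 1) a b) from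
    funext fun v => (Classical.minusQF_apply (m - 1) a b v).symm]
  obtain ⟨n, rfl⟩ : ∃ n, m = n + 1 := ⟨m - 1, by omega⟩
  rw [Nat.add_sub_cancel]
  have hd : Fintype.card ((Fin n ⊕ Fin n) ⊕ Fin 2) = 2 * (n + 1) := by simp [two_mul]; omega
  have hB := Elusive25.bNondeg_minusQF (m := n) hab
  have hx : OrthGen.NotExceptional (Classical.minusQF n a b) := Forms.notExceptional_of (by
    rw [Module.finrank_fintype_fun_eq_card, hd]
    rcases not_and_or.1 hexc with h | h
    · exact Or.inl h
    · exact Or.inr (by omega))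
  refine InvolConjTwo.card_omega_classes_fixed hB hx hd (InvolConjTwo.finrank_le_minus hab)
    (fun s b' h => InvolConjTwo.exists_rep_minus hab h) (fun x hx2 _ => ?_)
  by_contra hcon
  push Not at hcon
  obtain ⟨h1, -, W, hW, hWd⟩ := InvolConjTwo.half_rank_of_fixed_singular _ hB x hx2 hcon
  have h2 := InvolConjTwo.finrank_le_minus hab W hW
  omega

end Cfsg.Agent.S2598
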