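import Cfsg.Statements.S2599


set_option autoImplicit false
open Cfsg

namespace Cfsg.Agent.S2599

/-- An irreducible invariant subspace of a semisimple isometry is non-degenerate or totally singular: let Q be a quadratic form on F^n (F finite of characteristic p) with non-degenerate polar form f, x an isometry of Q of order prime to p, and U a non-zero x-invariant subspace containing no x-invariant subspace other than 0 and U. Then U meets its f-orthogonal trivially, or Q vanishes on U, or p = 2, U is a line spanned by a non-singular vector and x fixes U pointwise. -/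
theorem result {F : Type*} [Field F] [Fintype F] {p : ℕ} [Fact p.Prime] [CharP F p] {n : ℕ} (Q : QuadraticForm F (Fin n → F)) (hQ : (QuadraticMap.polarBilin Q).Nondegenerate) (x : ↥(Cfsg.isometryGroup F ⇑Q)) (hx : (orderOf x).Coprime p) (U : Submodule F (Fin n → F)) (hU0 : U ≠ ⊥) (hUx : ∀ u ∈ U, ((x : Matrix.GeneralLinearGroup (Fin n) F) : Matrix (Fin n) (Fin n) F).mulVec u ∈ U) (hirr : ∀ W : Submodule F (Fin n → F), W ≤ U → (∀ w ∈ W, ((x : Matrix.GeneralLinearGroup (Fin n) F) : Matrix (Fin n) (Fin n) F).mulVec w ∈ W) → W = ⊥ ∨ W = U) : U ⊓ LinearMap.BilinForm.orthogonal (QuadraticMap.polarBilin Q) U = ⊥ ∨ (∀ u ∈ U, Q u = 0) ∨ (p = 2 ∧ Module.finrank F U = 1 ∧ (∃ u ∈ U, Q u ≠ 0) ∧ ∀ u ∈ U, ((x : Matrix.GeneralLinearGroup (Fin n) F) : Matrix (Fin n) (Fin n) F).mulVec u = u) := by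
  classical
  set B := QuadraticMap.polarBilin Q with hB
  set a : Matrix (Fin n) (Fin n) F := ((x : Matrix.GeneralLinearGroup (Fin n) F) : Matrix (Fin n) (Fin n) F) with ha
  have hpres : ∀ v, Q (a.mulVec v) = Q v := fun v => x.2 v v
  have hBp : ∀ u v, B (a.mulVec u) (a.mulVec v) = B u v := by
    intro u v
    simp only [hB, QuadraticMap.polarBilin_apply_apply, QuadraticMap.polar, ← Matrix.mulVec_add, hpres]
  -- `x` maps `U` onto itself
  have honto : ∀ u ∈ U, ∃ w ∈ U, a.mulVec w = u := by
    intro u hu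
    let r : U →ₗ[F] U := (Matrix.toLin' a).restrict (fun w hw => hUx w hw)
    have hinj : Function.Injective r := by
      intro w w' h
      have h' : a.mulVec w = a.mulVec w' := congrArg Subtype.val h
      exact Subtype.ext (Matrix.mulVec_injective_iff_isUnit.mpr (x : Matrix.GeneralLinearGroup (Fin n) F).isUnit h')
    obtain ⟨w, hw⟩ := LinearMap.injective_iff_surjective.mp hinj ⟨u, hu⟩
    exact ⟨w, w.2, congrArg Subtype.val hw⟩
  have hinv : ∀ w ∈ U ⊓ LinearMap.BilinForm.orthogonal B U, a.mulVec w ∈ U ⊓ LinearMap.BilinForm.orthogonal B U := by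
    rintro w ⟨hwU, hwO⟩
    refine ⟨hUx w hwU, ?_⟩
    rw [SetLike.mem_coe, LinearMap.BilinForm.mem_orthogonal_iff] at hwO ⊢
    intro u hu
    obtain ⟨u', hu', rfl⟩ := honto u hu
    show B (a.mulVec u') (a.mulVec w) = 0
    rw [hBp]
    exact hwO u' hu'
  rcases hirr _ inf_le_left hinv with h | h
  · exact Or.inl h
  · right
    have horth : ∀ u ∈ U, ∀ v ∈ U, B u v = 0 := by
      intro u hu v hv
      have h' : v ∈ U ⊓ LinearMap.BilinForm.orthogonal B U := by rw [h]; exact hv
      have : v ∈ LinearMap.BilinForm.orthogonal B U := h'.2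
      exact (LinearMap.BilinForm.mem_orthogonal_iff.mp this) u hu
    by_cases hQ0 : ∀ u ∈ U, Q u = 0
    · exact Or.inl hQ0
    · right
      push Not at hQ0
      obtain ⟨u₀, hu₀, hQu⟩ := hQ0
      -- characteristic two
      have h2 : (2 : F) = 0 := by
        have h3 := horth u₀ hu₀ u₀ hu₀
        rw [hB, QuadraticMap.polarBilin_apply_apply, QuadraticMap.polar_self] at h3
        rw [nsmul_eq_mul, Nat.cast_ofNat, mul_eq_zero] at h3
        exact h3.resolve_right hQu
      have hp : p = 2 := by
        have : p ∣ 2 := (CharP.cast_eq_zero_iff F p 2).mp (by exact_mod_cast h2)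
        exact (Nat.prime_dvd_prime_iff_eq Fact.out Nat.prime_two).mp this
      subst hp
      have hadd : ∀ u ∈ U, ∀ v ∈ U, Q (u + v) = Q u + Q v := by
        intro u hu v hv
        have h3 := horth u hu v hv
        rw [hB, QuadraticMap.polarBilin_apply_apply, QuadraticMap.polar] at h3
        linear_combination h3
      -- the singular vectors of `U` form an invariant subspace
      let W : Submodule F (Fin n → F) :=
        { carrier := {u | u ∈ U ∧ Q u = 0}
          add_mem' := fun {u v} hu hv => ⟨U.add_mem hu.1 hv.1, by rw [hadd u hu.1 v hv.1, hu.2, hv.2, add_zero]⟩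
          zero_mem' := ⟨U.zero_mem, map_zero Q⟩
          smul_mem' := fun c u hu => ⟨U.smul_mem c hu.1, by rw [QuadraticMap.map_smul, hu.2, smul_zero]⟩ }
      have hW : W = ⊥ := by
        rcases hirr W (fun u hu => hu.1) (fun w hw => ⟨hUx w hw.1, by rw [hpres]; exact hw.2⟩) with hW | hW
        · exact hW
        · exfalso; exact hQu (hW ▸ hu₀ : u₀ ∈ W).2
      have hu₀0 : u₀ ≠ 0 := fun h0 => hQu (by rw [h0, map_zero])
      have hline : ∀ u ∈ U, ∃ c : F, c • u₀ = u := by
        intro u hu
        obtain ⟨s, hs⟩ := FiniteField.isSquare_of_char_two (by rw [ringChar.eq_iff]; infer_instance) (Q u / Q u₀)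
        refine ⟨s, ?_⟩
        have : u + s • u₀ ∈ W := by
          refine ⟨U.add_mem hu (U.smul_mem _ hu₀), ?_⟩
          rw [hadd u hu _ (U.smul_mem _ hu₀), QuadraticMap.map_smul, ← hs, smul_eq_mul, div_mul_cancel₀ _ hQu]
          exact CharTwo.add_self_eq_zero _
        rw [hW, Submodule.mem_bot, add_eq_zero_iff_eq_neg] at this
        rw [this]
        ext i
        simp [CharTwo.neg_eq]
      have hU1 : U = Submodule.span F {u₀} := by
        refine le_antisymm (fun u hu => ?_) (by rw [Submodule.span_singleton_le_iff_mem]; exact hu₀)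
        obtain ⟨c, hc⟩ := hline u hu
        exact Submodule.mem_span_singleton.mpr ⟨c, hc⟩
      refine ⟨rfl, by rw [hU1, finrank_span_singleton hu₀0], ⟨u₀, hu₀, hQu⟩, ?_⟩
      intro u hu
      obtain ⟨c, rfl⟩ := hline u hu
      obtain ⟨d, hd⟩ := hline _ (hUx u₀ hu₀)
      have h1 : d * d = 1 := by
        have h3 := hpres u₀
        rw [← hd, QuadraticMap.map_smul, smul_eq_mul] at h3
        exact mul_right_cancel₀ hQu (h3.trans (one_mul _).symm)
      have hd1 : d = 1 := by
        have : (d + 1) * (d + 1) = 0 := by linear_combination h1 + (d + 1) * CharTwo.two_eq_zero (R := F)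
        exact CharTwo.add_eq_zero.mp (mul_self_eq_zero.mp this)
      rw [hd1, one_smul] at hd
      show a.mulVec (c • u₀) = c • u₀
      rw [Matrix.mulVec_smul, ← hd]

end Cfsg.Agent.S2599
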