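import Cfsg.Statements.S2600
import Cfsg.Agent.GraphAut25.Index
import Cfsg.Agent.Linear.SmallIsoSymp
import Cfsg.Agent.H77.AltSix
import Cfsg.Agent.SymIndex.Six

set_option autoImplicit false
open Cfsg

namespace Cfsg.Agent.S2600

open Matrix Cfsg.Agent.Linear.Symp Cfsg.Agent.SympSub Cfsg.Agent.AutPSp Cfsg.Agent.GraphAut25

set_option linter.unusedSectionVars false

variable {F : Type*} [Field F] [Fintype F]

theorem card_out {G : Type*} [Group G] [Finite G] (hc : Subgroup.center G = ⊥) :
    Nat.card (Cfsg.Out G) * Nat.card G = Nat.card (MulAut G) := by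
  have hinj : Function.Injective (MulAut.conj : G →* MulAut G) := by
    rw [injective_iff_map_eq_one]
    intro a ha
    have hm : a ∈ Subgroup.center G := Subgroup.mem_center_iff.2 fun b => by
      have := congrArg (fun e : MulAut G => e b) ha
      simp only [MulAut.conj_apply, MulAut.one_apply] at this
      calc b * a = (a * b * a⁻¹) * a := by rw [this]
        _ = a * b := by group
    rwa [hc, Subgroup.mem_bot] at hm
  rw [Subgroup.card_eq_card_quotient_mul_card_subgroup (Cfsg.Inn G),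
    ← Nat.card_congr (MonoidHom.ofInjective hinj).toEquiv]

theorem center_psp [CharP F 2] : Subgroup.center (Cfsg.PSp 2 F) = ⊥ := by
  have hinj := psp_proj_injective (F := F) CharTwo.two_eq_zero
  rw [eq_bot_iff]
  intro x hx
  obtain ⟨s, rfl⟩ := proj_surjective x
  have hs : s ∈ Subgroup.center (Matrix.symplecticGroup (Fin 2) F) :=
    Subgroup.mem_center_iff.2 fun t => hinj (by
      rw [map_mul, map_mul]; exact Subgroup.mem_center_iff.1 hx _)
  rw [Subgroup.mem_bot, proj_apply, QuotientGroup.eq_one_iff]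
  exact hs

theorem card_sp_eq [CharP F 2] : Nat.card (Matrix.symplecticGroup (Fin 2) F) = Nat.card (Cfsg.PSp 2 F) :=
  Nat.card_eq_of_bijective proj ⟨psp_proj_injective CharTwo.two_eq_zero, proj_surjective⟩

theorem inn_eq_range [CharP F 2] :
    Cfsg.Inn (Cfsg.PSp 2 F) = (conjAut (m := 2) (F := F)).range := by
  refine Subgroup.eq_of_le_of_card_ge (fun b hb => ?_) ?_
  · rw [inn_eq_map] at hb
    obtain ⟨g, -, rfl⟩ := hb
    exact ⟨g, rfl⟩
  · rw [AutPSp25.card_range_conjAut le_rfl, card_sp_eq]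
    refine le_of_eq (Nat.card_congr (MonoidHom.ofInjective (f := (MulAut.conj : Cfsg.PSp 2 F →* _)) ?_).toEquiv)
    rw [← MonoidHom.ker_eq_bot_iff, eq_bot_iff]
    intro a ha
    have hm : a ∈ Subgroup.center (Cfsg.PSp 2 F) := Subgroup.mem_center_iff.2 fun b => by
      have := congrArg (fun e : MulAut (Cfsg.PSp 2 F) => e b) (MonoidHom.mem_ker.1 ha)
      simp only [MulAut.conj_apply, MulAut.one_apply] at this
      calc b * a = (a * b * a⁻¹) * a := by rw [this]
        _ = a * b := by group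
    rwa [center_psp] at hm

/-- the squared entries -/
noncomputable def frob (F : Type*) [Field F] [Fintype F] [CharP F 2] : F ≃+* F :=
  RingEquiv.ofBijective (frobenius F 2)
    ((Finite.injective_iff_bijective (f := frobenius F 2)).1 (frobenius F 2).injective)

theorem frob_apply [CharP F 2] (x : F) : frob F x = x ^ 2 := rfl

theorem frob_pow_apply [CharP F 2] (k : ℕ) (x : F) : (frob F ^ k) x = x ^ 2 ^ k := by
  induction k with
  | zero => simp
  | succ k ih =>
    rw [pow_succ', show (frob F * frob F ^ k) x = frob F ((frob F ^ k) x) from rfl, ih, frob_apply,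
      ← pow_mul, ← pow_succ]

theorem frob_generates [CharP F 2] {f : ℕ} (hf : 1 ≤ f) (hF : Fintype.card F = 2 ^ f) (σ : F ≃+* F) :
    ∃ k : ℕ, σ = frob F ^ k := by
  classical
  haveI : Fact (Nat.Prime 2) := ⟨Nat.prime_two⟩
  haveI : Finite (F ≃+* F) := Finite.of_injective (fun e : F ≃+* F => (e : F → F)) DFunLike.coe_injective
  have hcard := AutPSp25.card_ringAut (F := F) 2 f hf (by rw [Nat.card_eq_fintype_card, hF])
  let Φ : Fin f → (F ≃+* F) := fun k => frob F ^ (k : ℕ)
  have hinj : Function.Injective Φ := by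
    have key : ∀ i j : Fin f, (i : ℕ) < j → Φ i ≠ Φ j := by
      intro i j hij e
      have h1 : ∀ x : F, x ^ 2 ^ ((j : ℕ) - i) = x := by
        intro x
        have e' : frob F ^ ((j : ℕ) - i) = 1 := by
          apply mul_left_cancel (a := frob F ^ (i : ℕ))
          rw [← pow_add, Nat.add_sub_cancel' hij.le, mul_one]
          exact e.symm
        rw [← frob_pow_apply, e']
        rfl
      set N := 2 ^ ((j : ℕ) - i) with hN
      have hN1 : 1 < N := Nat.one_lt_two_pow (by omega)
      have hlt : N < 2 ^ f := Nat.pow_lt_pow_right (by norm_num) (by omega)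
      have hp : (Polynomial.X ^ N - Polynomial.X : Polynomial F) ≠ 0 :=
        FiniteField.X_pow_card_sub_X_ne_zero F hN1
      have hd := FiniteField.X_pow_card_sub_X_natDegree_eq F hN1
      have hroots : (Finset.univ : Finset F) ⊆ (Polynomial.X ^ N - Polynomial.X : Polynomial F).roots.toFinset := by
        intro x _
        rw [Multiset.mem_toFinset, Polynomial.mem_roots hp]
        simp [h1 x]
      have := (Finset.card_le_card hroots).trans
        ((Multiset.toFinset_card_le _).trans (Polynomial.card_roots' _))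
      rw [Finset.card_univ, hd, hF] at this
      omega
    intro i j e
    rcases lt_trichotomy (i : ℕ) j with h | h | h
    · exact absurd e (key i j h)
    · exact Fin.ext h
    · exact absurd e.symm (key j i h)
  obtain ⟨k, hk⟩ := (hinj.bijective_of_nat_card_le (by rw [hcard, Nat.card_fin])).2 σ
  exact ⟨k, hk.symm⟩

theorem phi_phi_tau [CharP F 2] (v : Fin 2 ⊕ Fin 2 → F) (c : F) :
    phiMat (phiMat ((tau v c : Matrix.symplecticGroup (Fin 2) F) : Matrix _ _ F)) =
      ((tau v c : Matrix.symplecticGroup (Fin 2) F) : Matrix _ _ F).map (fun x => x ^ 2) := by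
  have ev : ∀ k : ℕ, ((2 * k : ℕ) : F) = 0 := fun k => by
    rw [Nat.cast_mul, Nat.cast_two, CharTwo.two_eq_zero, zero_mul]
  have e4 : (4 : F) = 0 := by simpa using ev 2
  have e6 : (6 : F) = 0 := by simpa using ev 3
  have e8 : (8 : F) = 0 := by simpa using ev 4
  have e10 : (10 : F) = 0 := by simpa using ev 5
  have e12 : (12 : F) = 0 := by simpa using ev 6
  have e16 : (16 : F) = 0 := by simpa using ev 8
  have e3 : (3 : F) = 1 := by linear_combination (CharTwo.two_eq_zero : (2 : F) = 0)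
  ext i j
  rcases i with i | i <;> rcases j with j | j <;> fin_cases i <;> fin_cases j <;>
    (simp [phiMat, mn, pr, tau, Cfsg.sympTransvection, Matrix.mul_apply, Fintype.sum_sum_type,
      Fin.sum_univ_two, Matrix.J, Matrix.one_apply, Matrix.vecMulVec_apply, Matrix.mulVec,
      dotProduct, CharTwo.neg_eq]
     try ring_nf
     try simp [CharTwo.two_eq_zero, e3, e4, e6, e8, e10, e12, e16])

theorem phi_phi [CharP F 2] (g : Matrix.symplecticGroup (Fin 2) F) :
    phi (phi g) = spField (frob F) g := by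
  have h : (MonoidHom.comp phi phi : Matrix.symplecticGroup (Fin 2) F →* _).eqLocus (spField (frob F)).toMonoidHom = ⊤ := by
    refine eq_top_iff.2 ?_
    refine le_of_eq_of_le ?_ le_rfl
    symm
    refine closure_tau_le fun v c => ?_
    show phi (phi (tau v c)) = spField (frob F) (tau v c)
    apply Subtype.ext
    rw [spField_coe, phi_coe, phi_coe, phi_phi_tau]
    rfl
  have : g ∈ (MonoidHom.comp phi phi : Matrix.symplecticGroup (Fin 2) F →* _).eqLocus (spField (frob F)).toMonoidHom :=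
    h ▸ Subgroup.mem_top g
  exact this

theorem cyclic_big [CharP F 2] {f : ℕ} (hf : 1 ≤ f) (hF : Fintype.card F = 2 ^ f) (h4 : 3 ≤ Fintype.card F) :
    IsCyclic (Cfsg.Out (Cfsg.PSp 2 F)) := by
  let γ : MulAut (Cfsg.PSp 2 F) := pspAut (MulEquiv.ofBijective phi (phi_bijective h4))
  have hγ2 : γ * γ = fieldAut (frob F) := by
    refine MulEquiv.ext fun x => ?_
    obtain ⟨s, rfl⟩ := proj_surjective x
    rw [MulAut.mul_apply, fieldAut_proj, pspAut_proj, pspAut_proj]
    exact congrArg proj (phi_phi s)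
  have h2 : (2 : F) = 0 := CharTwo.two_eq_zero
  let x₀ : Cfsg.PSp 2 F := proj (tau (Pi.single (Sum.inl 0) 1) (1 : F))
  have hx : IsTau x₀ := ⟨_, 1, by simp, one_ne_zero, rfl⟩
  have hγ : γ ∉ Cfsg.gammaPSp 2 F := fun h => not_isTau_phi (isTau_of_mem_gamma h hx)
  let z : Cfsg.Out (Cfsg.PSp 2 F) := QuotientGroup.mk γ
  have hgam : ∀ β ∈ Cfsg.gammaPSp 2 F, (QuotientGroup.mk β : Cfsg.Out (Cfsg.PSp 2 F)) ∈ Subgroup.zpowers z := by
    intro β hβ
    obtain ⟨g, σ, rfl⟩ := AutPSp25.mem_gammaPSp.1 hβ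
    obtain ⟨k, rfl⟩ := frob_generates hf hF σ
    have hg : (QuotientGroup.mk (conjAut g) : Cfsg.Out (Cfsg.PSp 2 F)) = 1 := by
      rw [QuotientGroup.eq_one_iff, inn_eq_range]; exact ⟨g, rfl⟩
    rw [QuotientGroup.mk_mul, hg, one_mul, map_pow, ← hγ2, QuotientGroup.mk_pow, QuotientGroup.mk_mul]
    exact pow_mem (mul_mem (Subgroup.mem_zpowers z) (Subgroup.mem_zpowers z)) k
  refine ⟨⟨z, fun y => ?_⟩⟩
  obtain ⟨β, rfl⟩ := QuotientGroup.mk_surjective y
  by_cases hβ : β ∈ Cfsg.gammaPSp 2 F
  · exact hgam β hβ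
  · have hm : β * γ⁻¹ ∈ Cfsg.gammaPSp 2 F := by
      rw [Subgroup.mul_mem_iff_of_index_two (index_gamma h4)]
      exact iff_of_false hβ (fun h => hγ (inv_mem_iff.1 h))
    have := mul_mem (hgam _ hm) (Subgroup.mem_zpowers z)
    rwa [← QuotientGroup.mk_mul, inv_mul_cancel_right] at this

theorem card_mulAut_perm_six : Nat.card (MulAut (Equiv.Perm (Fin 6))) = 1440 := by
  classical
  let A := alternatingGroup (Fin 6)
  have hchar : ∀ φ : MulAut (Equiv.Perm (Fin 6)), ∀ a, a ∈ A → φ a ∈ A := by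
    intro φ a ha
    show φ a ∈ alternatingGroup (Fin 6)
    change a ∈ alternatingGroup (Fin 6) at ha
    rw [← alternatingGroup.commutator_perm_eq (by simp : 5 ≤ Nat.card (Fin 6))] at ha ⊢
    exact Subgroup.characteristic_iff_map_le.1 inferInstance φ ⟨a, ha, rfl⟩
  let res : MulAut (Equiv.Perm (Fin 6)) →* MulAut A :=
    { toFun := fun φ =>
        { toFun := fun a => ⟨φ a, hchar φ _ a.2⟩
          invFun := fun a => ⟨φ⁻¹ a, hchar φ⁻¹ _ a.2⟩
          left_inv := fun a => Subtype.ext (φ.symm_apply_apply _)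
          right_inv := fun a => Subtype.ext (φ.apply_symm_apply _)
          map_mul' := fun a b => Subtype.ext (map_mul φ _ _) }
      map_one' := MulEquiv.ext fun a => Subtype.ext rfl
      map_mul' := fun φ ψ => MulEquiv.ext fun a => Subtype.ext rfl }
  have hcent : ∀ σ : Equiv.Perm (Fin 6), (∀ a ∈ A, σ * a = a * σ) → σ = 1 := by
    intro σ hσ
    ext i : 1
    simp only [Equiv.Perm.one_apply]
    by_contra hne
    obtain ⟨j, hj⟩ : ∃ j, j ∉ ({i, σ i} : Finset (Fin 6)) := by
      by_contra hc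
      push Not at hc
      have := (Finset.card_le_card (fun k _ => hc k : (Finset.univ : Finset (Fin 6)) ⊆ {i, σ i})).trans Finset.card_le_two
      simp at this
    obtain ⟨k, hk⟩ : ∃ k, k ∉ ({i, σ i, j} : Finset (Fin 6)) := by
      by_contra hc
      push Not at hc
      have := (Finset.card_le_card (fun l _ => hc l : (Finset.univ : Finset (Fin 6)) ⊆ {i, σ i, j})).trans Finset.card_le_three
      simp at this
    simp only [Finset.mem_insert, Finset.mem_singleton, not_or] at hj hk
    have hmem : Equiv.swap (σ i) j * Equiv.swap (σ i) k ∈ A := by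
      rw [Equiv.Perm.mem_alternatingGroup, map_mul, Equiv.Perm.sign_swap (Ne.symm hj.2), Equiv.Perm.sign_swap (Ne.symm hk.2.1)]
      rfl
    have := congrArg (fun p : Equiv.Perm (Fin 6) => p i) (hσ _ hmem)
    simp only [Equiv.Perm.mul_apply] at this
    rw [Equiv.swap_apply_of_ne_of_ne (Ne.symm hne) (Ne.symm hk.1),
      Equiv.swap_apply_of_ne_of_ne (Ne.symm hne) (Ne.symm hj.1), Equiv.swap_apply_left,
      Equiv.swap_apply_of_ne_of_ne hk.2.1 hk.2.2] at this
    exact hk.2.1 this.symm
  have hres : Function.Injective res := by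
    rw [injective_iff_map_eq_one]
    intro φ hφ
    have hfix : ∀ a ∈ A, φ a = a := fun a ha =>
      congrArg Subtype.val (DFunLike.congr_fun hφ (⟨a, ha⟩ : A))
    refine MulEquiv.ext fun σ => ?_
    show φ σ = σ
    have := hcent (σ⁻¹ * φ σ) fun a ha => by
      have h1 : φ (σ * a * σ⁻¹) = σ * a * σ⁻¹ := hfix _ (Subgroup.Normal.conj_mem inferInstance a ha σ)
      rw [map_mul, map_mul, map_inv, hfix a ha] at h1
      calc σ⁻¹ * φ σ * a = σ⁻¹ * (φ σ * a * (φ σ)⁻¹) * φ σ := by group
        _ = σ⁻¹ * (σ * a * σ⁻¹) * φ σ := by rw [h1]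
        _ = a * (σ⁻¹ * φ σ) := by group
    exact (inv_mul_eq_one.1 this).symm
  have h6 : Fintype.card (Fin 6) = 6 := Fintype.card_fin 6
  haveI : Finite (MulAut A) := Finite.of_injective (fun e : MulAut A => (e : A → A)) DFunLike.coe_injective
  haveI : Finite (MulAut (Equiv.Perm (Fin 6))) :=
    Finite.of_injective (fun e : MulAut (Equiv.Perm (Fin 6)) => (e : Equiv.Perm (Fin 6) → Equiv.Perm (Fin 6))) DFunLike.coe_injective
  have hle : Nat.card (MulAut (Equiv.Perm (Fin 6))) ≤ 1440 :=
    (Nat.card_le_card_of_injective res hres).trans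
      (Nat.le_of_dvd (by norm_num) (Cfsg.Agent.H77.AltSix.card_mulAut_dvd h6))
  have hc : Subgroup.center (Equiv.Perm (Fin 6)) = ⊥ := by
    rw [eq_bot_iff]
    intro σ hσ
    exact Subgroup.mem_bot.2 (hcent σ fun a _ => (Subgroup.mem_center_iff.1 hσ a).symm)
  have hmul := card_out hc
  rw [Nat.card_perm, Nat.card_fin] at hmul
  have hne : Nat.card (Cfsg.Out (Equiv.Perm (Fin 6))) ≠ 1 := by
    intro h1
    obtain ⟨H, hH, hH'⟩ := Cfsg.Agent.SymIndex.exists_exotic (α := Fin 6) h6
    obtain ⟨ψ, y, hψ⟩ := Cfsg.Agent.SymIndex.exists_mulEquiv_map_stabilizer (α := Fin 6) (by simp) (hH.trans h6.symm)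
    have := (Nat.card_eq_one_iff_unique.1 h1).1
    have hin : (ψ : MulAut (Equiv.Perm (Fin 6))) ∈ Cfsg.Inn (Equiv.Perm (Fin 6)) := by
      rw [← QuotientGroup.eq_one_iff]; exact Subsingleton.elim _ _
    obtain ⟨σ, rfl⟩ := hin
    apply hH' (σ y)
    rw [hψ]
    exact (MulAction.stabilizer_smul_eq_stabilizer_map_conj σ y).symm
  have h720 : Nat.factorial 6 = 720 := rfl
  rw [h720] at hmul
  have hpos : 0 < Nat.card (Cfsg.Out (Equiv.Perm (Fin 6))) := Nat.card_pos
  have hge : 2 ≤ Nat.card (Cfsg.Out (Equiv.Perm (Fin 6))) := by omega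
  nlinarith

/-- Outer automorphism group of PSp_4(q) for q = 2^f even: it is cyclic of order 2f, generated by the class of the exceptional (graph-field) automorphism whose square is the Frobenius field automorphism. -/
theorem result {F : Type*} [Field F] [Fintype F] {f : ℕ} (hf : 1 ≤ f) (hF : Fintype.card F = 2 ^ f) : IsCyclic (Cfsg.Out (Cfsg.PSp 2 F)) ∧ Nat.card (Cfsg.Out (Cfsg.PSp 2 F)) = 2 * f := by
  classical
  haveI : CharP F 2 := by
    haveI : Fact (Nat.Prime 2) := ⟨Nat.prime_two⟩
    exact charP_of_card_eq_prime_pow (p := 2) (f := f) hF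
  haveI : Finite (Cfsg.PSp 2 F) := inferInstance
  haveI : Finite (MulAut (Cfsg.PSp 2 F)) :=
    Finite.of_injective (fun e : MulAut (Cfsg.PSp 2 F) => (e : Cfsg.PSp 2 F → Cfsg.PSp 2 F)) DFunLike.coe_injective
  have hpos : 0 < Nat.card (Cfsg.PSp 2 F) := Nat.card_pos
  have hco := card_out (center_psp (F := F))
  rcases Nat.lt_or_ge (Fintype.card F) 3 with h3 | h3
  · have hF2 : Fintype.card F = 2 := by
      have := Fintype.one_lt_card (α := F); omega
    have hf1 : f = 1 := by
      rw [hF2] at hF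
      exact (Nat.pow_right_injective le_rfl (hF.symm.trans (pow_one 2).symm))
    subst hf1
    obtain ⟨e⟩ := Cfsg.Agent.Linear.Symp.sp_four_two_iso hF2
    let e' : Cfsg.PSp 2 F ≃* Equiv.Perm (Fin 6) :=
      (MulEquiv.ofBijective Cfsg.Agent.AutPSp.proj ⟨Cfsg.Agent.GraphAut25.psp_proj_injective CharTwo.two_eq_zero,
        Cfsg.Agent.AutPSp.proj_surjective⟩).symm.trans e
    rw [Nat.card_congr (MulAut.congr e').toEquiv, card_mulAut_perm_six, Nat.card_congr e'.toEquiv,
      Nat.card_perm, Nat.card_fin, show Nat.factorial 6 = 720 from rfl] at hco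
    have hcard : Nat.card (Cfsg.Out (Cfsg.PSp 2 F)) = 2 * 1 := by omega
    haveI : Fact (Nat.Prime 2) := ⟨Nat.prime_two⟩
    exact ⟨isCyclic_of_prime_card (p := 2) hcard, hcard⟩
  · refine ⟨cyclic_big hf hF h3, ?_⟩
    rw [Cfsg.Agent.GraphAut25.card_mulAut f hf hF h3] at hco
    exact Nat.eq_of_mul_eq_mul_right hpos hco

end Cfsg.Agent.S2600
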