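import Cfsg.Statements.S2601
import Cfsg.Agent.ClassicalElem.OutPSL

set_option autoImplicit false
open Cfsg

namespace Cfsg.Agent.S2601

/-- Structure of the outer automorphism group of PSL_n(q), n ≥ 3, q = p^f: it has a normal cyclic subgroup of order gcd(n, q − 1) (the diagonal automorphisms) whose quotient is the direct product of a cyclic group of order f (field automorphisms) and a group of order 2 (the inverse-transpose graph automorphism). -/
theorem result {F : Type*} [Field F] [Fintype F] {p f n : ℕ} [Fact p.Prime] (hf : 1 ≤ f) (hF : Fintype.card F = p ^ f) (hn : 3 ≤ n) : ∃ φ : Cfsg.Out (Matrix.ProjectiveSpecialLinearGroup (Fin n) F) →* Multiplicative (ZMod f × ZMod 2), Function.Surjective φ ∧ IsCyclic φ.ker ∧ Nat.card φ.ker = Nat.gcd n (p ^ f - 1) := by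
  classical
  have hF' : Nat.card F = p ^ f := by rw [Nat.card_eq_fintype_card, hF]
  obtain ⟨ε⟩ := ClassicalElem.exists_ringAut_equiv (F := F) p f hF'
  -- the group of order two generated by inverse-transpose
  let τ : MulAut (Matrix.ProjectiveSpecialLinearGroup (Fin n) F) := AutPSL.invTAut
  have hτ : τ * τ = 1 := AutPSL.invTAut_mul_self
  let t : Multiplicative (ZMod 2) →* MulAut (Matrix.ProjectiveSpecialLinearGroup (Fin n) F) :=
    { toFun := fun x => if x = 1 then 1 else τ
      map_one' := if_pos rfl
      map_mul' := fun x y => by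
        by_cases hx : x = 1
        · subst hx; rw [one_mul, if_pos rfl, one_mul]
        by_cases hy : y = 1
        · subst hy; rw [mul_one, if_pos rfl, mul_one]
        have hxy : x * y = 1 := by
          revert x y; decide
        rw [if_neg hx, if_neg hy, if_pos hxy, hτ] }
  let Λ : Multiplicative (ZMod f × ZMod 2) →* MulAut (Matrix.ProjectiveSpecialLinearGroup (Fin n) F) :=
    { toFun := fun x => AutPSL.fieldAut (ε.symm (Multiplicative.ofAdd x.toAdd.1)) * t (Multiplicative.ofAdd x.toAdd.2)
      map_one' := by simp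
      map_mul' := fun x y => by
        have hc : ∀ σ b, Commute (t b) (AutPSL.fieldAut σ) := by
          intro σ b
          by_cases hb : b = 1
          · subst hb; rw [map_one]; exact Commute.one_left _
          · show Commute (if b = 1 then 1 else τ) _
            rw [if_neg hb]
            exact AutPSL.invTAut_mul_fieldAut σ
        simp only [toAdd_mul, Prod.fst_add, Prod.snd_add, ofAdd_add, map_mul]
        rw [mul_assoc, ← mul_assoc (AutPSL.fieldAut (ε.symm (Multiplicative.ofAdd y.toAdd.1))), ← (hc _ _).eq]
        simp only [mul_assoc] }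
  have ht : t (Multiplicative.ofAdd (1 : ZMod 2)) = τ :=
    show (if Multiplicative.ofAdd (1 : ZMod 2) = 1 then 1 else τ) = τ from
      if_neg (show ¬ Multiplicative.ofAdd (1 : ZMod 2) = 1 by decide)
  obtain ⟨ψ, hψ, hker⟩ := ClassicalElem.exists_hom_ker_inndiag (F := F) (n := n) (by omega) Λ
    (fun β => by
      obtain ⟨g, σ, h | h⟩ := AutPSL.exists_decomp (show 2 ≤ n by omega) β
      · exact ⟨g, Multiplicative.ofAdd ((ε σ).toAdd, 0), by simp [Λ, h]⟩
      · exact ⟨g, Multiplicative.ofAdd ((ε σ).toAdd, 1), by simp [Λ, h, ht, τ, mul_assoc]⟩)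
    (fun g x h => by
      obtain ⟨⟨a, b⟩, rfl⟩ := Multiplicative.ofAdd.surjective x
      simp only [Λ, MonoidHom.coe_mk, OneHom.coe_mk, toAdd_ofAdd] at h
      have hb : ∀ b : ZMod 2, b = 0 ∨ b = 1 := by decide
      rcases hb b with rfl | rfl
      · rw [show t (Multiplicative.ofAdd (0 : ZMod 2)) = 1 from map_one t, mul_one] at h
        have h1 := (AutPSL.conj_field_eq_one (show 2 ≤ n by omega) h).1
        have h2 : Multiplicative.ofAdd a = 1 := ε.symm.injective (h1.trans (map_one _).symm)
        have ha : a = 0 := h2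
        subst ha
        rfl
      · exfalso
        rw [show t (Multiplicative.ofAdd (1 : ZMod 2)) = τ from ht, ← mul_assoc] at h
        exact AutPSL.conj_field_invT_ne_one hn _ _ h)
  obtain ⟨φ, h1, h2, h3⟩ := ClassicalElem.exists_out_hom (show 2 ≤ n by omega) ψ hψ hker
  exact ⟨φ, h1, h2, by rw [h3, hF']⟩

end Cfsg.Agent.S2601
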