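import Cfsg.Statements.S2603
import Cfsg.Agent.AutPSU.Main
import Cfsg.Agent.AutPSU.Kernel
import Cfsg.Agent.ClassicalElem.OutPSL

/-!
The structure of `Out(PSU_n(q))`, `n ≥ 3`.
-/

set_option autoImplicit false
open Cfsg

namespace Cfsg.Agent.S2603

open Cfsg.Agent.AutPSU Cfsg.Agent.Classical.U

universe u

variable {F : Type u} [Field F] {n q : ℕ}

set_option quotPrecheck false
set_option linter.style.haveILetI false

local notation "PSUn" => Cfsg.PSU n F q
local notation "GUn" => ↥(Cfsg.GU n F q)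

/-- The map `GU_n → Out(PSU_n)`. -/
def toOutU (n : ℕ) (F : Type u) [Field F] (q : ℕ) :
    ↥(Cfsg.GU n F q) →* Cfsg.Out (Cfsg.PSU n F q) :=
  (QuotientGroup.mk' _).comp conjAut

variable (hF : SqField F q)
include hF

/-- The group of scalars of norm one has `q + 1` elements. -/
theorem natCard_normOne : Nat.card ↥(normOne F q) = q + 1 := by
  haveI := hF.1
  rw [normOne, IsCyclic.card_powMonoidHom_ker, Nat.card_units, hF.2]
  have h : q ^ 2 - 1 = (q + 1) * (q - 1) := by
    rw [← Nat.sq_sub_sq, one_pow]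
  rw [h]
  exact Nat.gcd_eq_right (dvd_mul_right _ _)

/-- The diagonal part of `Out(PSU_n(q))` is cyclic of order `gcd (n, q + 1)`. -/
theorem range_toOutU (hn : 3 ≤ n) :
    IsCyclic (toOutU n F q).range ∧ Nat.card (toOutU n F q).range = Nat.gcd n (q + 1) := by
  classical
  haveI := hF.1
  haveI : IsCyclic ↥(normOne F q) := Subgroup.isCyclic _
  let S := (powMonoidHom n : ↥(normOne F q) →* ↥(normOne F q)).range
  let d : GUn →* ↥(normOne F q) ⧸ S := (QuotientGroup.mk' S).comp (detU hF)
  have hd : Function.Surjective d :=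
    (QuotientGroup.mk'_surjective S).comp (detU_surjective hF (by omega))
  have hker : (toOutU n F q).ker = d.ker := by
    ext g
    rw [MonoidHom.mem_ker, MonoidHom.mem_ker]
    show (QuotientGroup.mk (conjAut g) : Cfsg.Out _) = 1 ↔
      (QuotientGroup.mk (detU hF g) : ↥(normOne F q) ⧸ S) = 1
    rw [QuotientGroup.eq_one_iff, QuotientGroup.eq_one_iff, inn_eq_map]
    constructor
    · rintro ⟨h, hh, he⟩
      have h1 : conjAut (h⁻¹ * g) = (1 : MulAut PSUn) := by
        rw [map_mul, map_inv, he, inv_mul_cancel]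
      obtain ⟨c, hc⟩ := (conjAut_eq_one_iff hF hn).1 h1
      refine ⟨c, ?_⟩
      have hdh : detU hF h = 1 := by
        rw [← MonoidHom.mem_ker, ker_detU hF]
        exact hh
      show c ^ n = _
      rw [← detU_scal hF c, ← hc, map_mul, map_inv, hdh, inv_one, one_mul]
    · rintro ⟨c, hc⟩
      have hc' : c ^ n = detU hF g := hc
      refine ⟨(scal c)⁻¹ * g, ?_, ?_⟩
      · show (scal c)⁻¹ * g ∈ (suToGU (n := n) (F := F) (q := q)).range
        rw [← ker_detU hF, MonoidHom.mem_ker, map_mul, map_inv, detU_scal hF c, hc',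
          inv_mul_cancel]
      · rw [map_mul, map_inv, conjAut_scal, inv_one, one_mul]
  let e : ↥(normOne F q) ⧸ S ≃* (toOutU n F q).range :=
    ((QuotientGroup.quotientKerEquivOfSurjective d hd).symm.trans
      (QuotientGroup.quotientMulEquivOfEq hker.symm)).trans (QuotientGroup.quotientKerEquivRange _)
  haveI : IsCyclic (↥(normOne F q) ⧸ S) :=
    isCyclic_of_surjective _ (QuotientGroup.mk'_surjective S)
  refine ⟨isCyclic_of_surjective e e.surjective, ?_⟩
  rw [← Nat.card_congr e.toEquiv, ← Subgroup.index_eq_card, IsCyclic.index_powMonoidHom_range,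
    natCard_normOne hF, Nat.gcd_comm]

theorem exists_out_hom (hn : 3 ≤ n) (hn2 : ¬(n = 3 ∧ q = 2)) {P : Type*} [Group P]
    (π : P ≃* (F ≃+* F)) :
    ∃ φ : Cfsg.Out PSUn →* P,
      Function.Surjective φ ∧ IsCyclic φ.ker ∧ Nat.card φ.ker = Nat.gcd n (q + 1) := by
  haveI := inndiagPSU_normal hF hn hn2
  let L : P →* MulAut PSUn ⧸ Cfsg.inndiagPSU n F q :=
    (QuotientGroup.mk' _).comp (fieldAut.comp π.toMonoidHom)
  have hLi : Function.Injective L := by
    rw [injective_iff_map_eq_one]
    intro x hx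
    obtain ⟨g, hg⟩ := mem_inndiagPSU.mp ((QuotientGroup.eq_one_iff _).mp hx)
    have h1 := (conj_field_eq_one hF hn (g := g⁻¹) (σ := π x) (by
      rw [map_inv]
      exact inv_mul_eq_one.2 hg.symm)).1
    exact (map_eq_one_iff π π.injective).1 h1
  have hLs : Function.Surjective L := by
    intro Q
    obtain ⟨β, rfl⟩ := QuotientGroup.mk'_surjective _ Q
    obtain ⟨g, σ, rfl⟩ := exists_decomp hF hn hn2 β
    refine ⟨π.symm σ, ?_⟩
    show QuotientGroup.mk (fieldAut (π (π.symm σ))) = QuotientGroup.mk (conjAut g * fieldAut σ)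
    rw [MulEquiv.apply_symm_apply, QuotientGroup.mk_mul,
      (QuotientGroup.eq_one_iff (conjAut g)).mpr (mem_inndiagPSU.mpr ⟨g, rfl⟩), one_mul]
  let e := MulEquiv.ofBijective L ⟨hLi, hLs⟩
  let ψ : MulAut PSUn →* P := e.symm.toMonoidHom.comp (QuotientGroup.mk' _)
  have hψ : Function.Surjective ψ := e.symm.surjective.comp (QuotientGroup.mk'_surjective _)
  have hψker : ψ.ker = Cfsg.inndiagPSU n F q := by
    ext β
    rw [MonoidHom.mem_ker, MonoidHom.comp_apply, MulEquiv.coe_toMonoidHom,
      EmbeddingLike.map_eq_one_iff, QuotientGroup.mk'_apply, QuotientGroup.eq_one_iff]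
  have hle : Cfsg.Inn PSUn ≤ ψ.ker := by
    rw [inn_eq_map, hψker, inndiagPSU_eq_range]
    exact Subgroup.map_le_range _ _
  refine ⟨QuotientGroup.lift _ ψ hle, ?_, ?_⟩
  · intro y
    obtain ⟨x, rfl⟩ := hψ y
    exact ⟨QuotientGroup.mk x, rfl⟩
  · have h : (QuotientGroup.lift _ ψ hle).ker = (toOutU n F q).range := by
      rw [QuotientGroup.ker_lift, hψker, inndiagPSU_eq_range, MonoidHom.map_range]
      rfl
    rw [h]
    exact range_toOutU hF hn

omit hF in
/-- Structure of the outer automorphism group of PSU_n(q), n ≥ 3, (n, q) ≠ (3, 2), q = p^f, realised over the field with q² elements: it has a normal cyclic subgroup of order gcd(n, q + 1) (diagonal automorphisms) with cyclic quotient of order 2f (generated by the Frobenius field automorphism of the field with q² elements, whose f-th power is the graph automorphism). -/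
theorem result {K : Type*} [Field K] [Fintype K] {p f q n : ℕ} [Fact p.Prime] (hf : 1 ≤ f) (hq : q = p ^ f) (hK : Fintype.card K = q ^ 2) (hn : 3 ≤ n) (h32 : ¬ (n = 3 ∧ q = 2)) : ∃ φ : Cfsg.Out (Cfsg.PSU n K q) →* Multiplicative (ZMod (2 * f)), Function.Surjective φ ∧ IsCyclic φ.ker ∧ Nat.card φ.ker = Nat.gcd n (q + 1) := by
  obtain ⟨e⟩ := Cfsg.Agent.ClassicalElem.exists_ringAut_equiv (F := K) p (2 * f)
    (by rw [Nat.card_eq_fintype_card, hK, hq, ← pow_mul, mul_comm])
  exact exists_out_hom (sqField_of_fintype hK) hn h32 e.symm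

end Cfsg.Agent.S2603
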