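import Cfsg.Statements.S2605
import Cfsg.Agent.OutPO.MinusOut

set_option autoImplicit false
open Cfsg

namespace Cfsg.Agent.S2605

set_option maxHeartbeats 1000000 in
set_option synthInstance.maxHeartbeats 400000 in
/-- Outer automorphism group of PΩ⁻_2m(q), m ≥ 4, q = 2^f: cyclic of order 2f, generated by a semilinear map inducing the Frobenius automorphism of the field (its f-th power is a graph automorphism, an orthogonal transvection). -/
theorem result {F : Type*} [Field F] [Fintype F] {f m : ℕ} (hf : 1 ≤ f) (hF : Fintype.card F = 2 ^ f) (hm : 4 ≤ m) (a b : F) (hab : ∀ z₁ z₂ : F, z₁ ^ 2 + a * z₁ * z₂ + b * z₂ ^ 2 = 0 → z₁ = 0 ∧ z₂ = 0) : IsCyclic (Cfsg.Out (Cfsg.POmega F (Cfsg.quadFormMinus (m - 1) F a b))) ∧ Nat.card (Cfsg.Out (Cfsg.POmega F (Cfsg.quadFormMinus (m - 1) F a b))) = 2 * f := by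
  obtain ⟨k, rfl⟩ : ∃ k, m = k + 4 := ⟨m - 4, by omega⟩
  haveI : Fact (Nat.Prime 2) := ⟨Nat.prime_two⟩
  haveI : CharP F 2 := charP_of_card_eq_prime_pow (f := f) hF
  have hA := Cfsg.Agent.Classical.anisotropic_binQF hab
  obtain ⟨K, _, _, ω, E⟩ := Cfsg.Agent.OutPO.exists_qext hA
  obtain ⟨e1⟩ := Cfsg.Agent.OutPO.out_equiv_minus_two (k := k) E
  obtain ⟨e2⟩ := E.ringAut_equiv (p := 2) (f := f) (by rw [Nat.card_eq_fintype_card, hF])
  rw [show k + 4 - 1 = k + 3 from rfl]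
  refine ⟨(e1.trans e2).isCyclic.2 inferInstance, ?_⟩
  rw [Nat.card_congr (e1.trans e2).toEquiv, Nat.card_congr Multiplicative.toAdd, Nat.card_zmod]

end Cfsg.Agent.S2605
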