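import Cfsg.Statements.S2606
import Cfsg.Agent.OutPO.MinusOut

set_option autoImplicit false
open Cfsg

namespace Cfsg.Agent.S2606

set_option maxHeartbeats 1000000 in
set_option synthInstance.maxHeartbeats 400000 in
/-- Outer automorphism group of PΩ⁻_2m(q), m ≥ 4, q = p^f odd: it is dihedral of order 8 times cyclic of order f when q ≡ 3 (mod 4) and m is odd, and otherwise the direct product of a group of order 2 with a cyclic group of order 2f. -/
theorem result {F : Type*} [Field F] [Fintype F] {p f m : ℕ} [Fact p.Prime] (hf : 1 ≤ f) (hF : Fintype.card F = p ^ f) (hp : p ≠ 2) (hm : 4 ≤ m) (a b : F) (hab : ∀ z₁ z₂ : F, z₁ ^ 2 + a * z₁ * z₂ + b * z₂ ^ 2 = 0 → z₁ = 0 ∧ z₂ = 0) : if p ^ f % 4 = 3 ∧ Odd m then Nonempty (Cfsg.Out (Cfsg.POmega F (Cfsg.quadFormMinus (m - 1) F a b)) ≃* DihedralGroup 4 × Multiplicative (ZMod f)) else Nonempty (Cfsg.Out (Cfsg.POmega F (Cfsg.quadFormMinus (m - 1) F a b)) ≃* Multiplicative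 (ZMod 2 × ZMod (2 * f))) := by
  obtain ⟨k, rfl⟩ : ∃ k, m = k + 4 := ⟨m - 4, by omega⟩
  have hA := Cfsg.Agent.Classical.anisotropic_binQF hab
  have hF' : Nat.card F = p ^ f := by rw [Nat.card_eq_fintype_card, hF]
  have hodd : Odd (Nat.card F) := hF' ▸ ((Fact.out : p.Prime).odd_of_ne_two hp).pow
  obtain ⟨K, _, _, ω, E⟩ := Cfsg.Agent.OutPO.exists_qext hA
  rw [show k + 4 - 1 = k + 3 from rfl]
  have hiff : (p ^ f % 4 = 3 ∧ Odd (k + 4)) ↔ (Even (k + 3) ∧ Nat.card F % 4 = 3) := by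
    rw [hF', Nat.odd_iff, Nat.even_iff]; omega
  split_ifs with h
  · exact Cfsg.Agent.OutPO.out_equiv_minus_dihedral E hodd (hiff.1 h) hF'
  · obtain ⟨e1⟩ := Cfsg.Agent.OutPO.out_equiv_minus_odd (k := k) E hodd fun h' => h (hiff.2 h')
    obtain ⟨e2⟩ := E.ringAut_equiv hF'
    exact ⟨(e1.trans (MulEquiv.prodCongr (MulEquiv.refl _) e2)).trans
      (MulEquiv.prodMultiplicative _ _).symm⟩

end Cfsg.Agent.S2606
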