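import Cfsg.Statements.S2609
import Cfsg.Agent.Forms.OmegaCrit
-- import your own Cfsg.Agent.* helpers here

set_option autoImplicit false
open Cfsg

namespace Cfsg.Agent.S2609

/-- Spinor norm criterion for Ω over a finite field of odd order: let Q be a quadratic form on F^n, n ≥ 2, with non-degenerate polar form, and let g be an isometry written as a product of reflections in non-singular vectors v_1, …, v_k. Then g lies in Ω (the commutator subgroup of the orthogonal group) if and only if k is even and Q(v_1)⋯Q(v_k) is a square; in particular, for g of determinant one, whether that product is a square does not depend on the chosen factorisation (it is the spinor norm of g). -/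
theorem result {F : Type*} [Field F] [Fintype F] (h2 : (2 : F) ≠ 0) {n : ℕ} (hn : 2 ≤ n) (Q : QuadraticForm F (Fin n → F)) (hQ : (QuadraticMap.polarBilin Q).Nondegenerate) (g : ↥(Cfsg.isometryGroup F ⇑Q)) (vs : List (Fin n → F)) (hvs : ∀ v ∈ vs, Q v ≠ 0) (hg : ((g : Matrix.GeneralLinearGroup (Fin n) F) : Matrix (Fin n) (Fin n) F) = (vs.map (fun v => Cfsg.reflectionMatrix ⇑Q v)).prod) : g ∈ Cfsg.Omega F ⇑Q ↔ (Even vs.length ∧ IsSquare (vs.map (fun v => Q v)).prod) := by
  have hB := OrthGen.bNondeg_of_nondegenerate Q hQ
  have hx : OrthGen.NotExceptional Q := OrthGen.notExceptional_of_two_ne_zero h2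
  let l : List {x : Fin n → F // Q x ≠ 0} := vs.attachWith _ hvs
  have hl : l.map Subtype.val = vs := List.attachWith_map_subtype_val ..
  rw [Forms.mem_Omega_iff_matEquiv]
  have hk : OrthGen.matEquiv Q g = Forms.refls Q l := Subtype.ext (LinearEquiv.ext fun v => by
    rw [OrthGen.matEquiv_apply, hg, ← Forms.prod_reflectionMatrix_mulVec, ← hl, List.map_map]
    rfl)
  rw [hk, Forms.refls_mem_commutator_iff hB hx, ← hl, List.length_map, List.map_map]
  rfl

end Cfsg.Agent.S2609
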