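import Cfsg.Statements.S2610
import Cfsg.Agent.Forms.OmegaCrit
-- import your own Cfsg.Agent.* helpers here

set_option autoImplicit false
open Cfsg

namespace Cfsg.Agent.S2610

/-- For a quadratic form Q on F^n with non-degenerate polar form, F finite of odd order and n ≥ 2 even, the isometry −1 lies in Ω (the commutator subgroup of the orthogonal group) if and only if the discriminant of Q (the determinant of the Gram matrix of its polar form) is a square. -/
theorem result {F : Type*} [Field F] [Fintype F] (h2 : (2 : F) ≠ 0) {n : ℕ} (hn : 2 ≤ n) (he : Even n) (Q : QuadraticForm F (Fin n → F)) (hQ : (QuadraticMap.polarBilin Q).Nondegenerate) : (∃ g : ↥(Cfsg.isometryGroup F ⇑Q), g ∈ Cfsg.Omega F ⇑Q ∧ ((g : Matrix.GeneralLinearGroup (Fin n) F) : Matrix (Fin n) (Fin n) F) = -1) ↔ IsSquare (Matrix.of (fun i j : Fin n => QuadraticMap.polar ⇑Q (Pi.single i 1) (Pi.single j 1))).det := by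
  classical
  have hB := OrthGen.bNondeg_of_nondegenerate Q hQ
  obtain ⟨α, -, hα⟩ := OrthGen.exists_nonsquare F h2
  obtain ⟨n', rfl⟩ : ∃ n', n = n' + 1 := ⟨n - 1, by omega⟩
  obtain ⟨b, hb, hb1, hb2⟩ := Forms.exists_orthogonal_basis_symm h2 (B := QuadraticMap.polarBilin Q)
    ⟨fun x y => QuadraticMap.polar_comm (⇑Q) x y⟩ hQ (by rw [Module.finrank_fin_fun]) hα
  have hQb : ∀ k, Q (b k) ≠ 0 := fun k h0 => by
    refine b.ne_zero k (hB _ fun y => ?_)
    have : QuadraticMap.polarBilin Q (b k) = 0 := b.ext fun j => by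
      by_cases hj : k = j
      · subst hj; simp [OrthGen.polar_self_two, h0]
      · exact hb k j hj
    exact LinearMap.congr_fun this y
  obtain ⟨g, hg, hgc⟩ := Forms.exists_orthProd hB (OrthGen.notExceptional_of_two_ne_zero h2) b hQb
    (fun i j hij => hb i j hij)
  have hgneg : g.1.toLinearMap = -LinearMap.id := b.ext fun j => by
    rw [LinearEquiv.coe_coe, hg, Finset.sum_eq_single j (fun k _ hk => by
      rw [show QuadraticMap.polar Q (b k) (b j) = 0 from hb k j hk, mul_zero, zero_smul])
      (fun h => absurd (Finset.mem_univ j) h), OrthGen.polar_self_two,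
      show (Q (b j))⁻¹ * (2 * Q (b j)) = 2 by field_simp [hQb j], two_smul, LinearMap.neg_apply,
      LinearMap.id_apply]
    abel
  rw [Forms.exists_mem_Omega_iff Q (k := g) (fun v => by
      rw [Matrix.neg_mulVec, Matrix.one_mulVec]; exact LinearMap.congr_fun hgneg v),
    hgc, Fintype.card_fin, and_iff_right he]
  obtain ⟨d, hd, hdet⟩ := Forms.exists_det_polarGram_eq Q b (Pi.basisFun F (Fin (n' + 1)))
  have h1 : Forms.polarGram (⇑Q) (Pi.basisFun F (Fin (n' + 1)))
      = Matrix.of (fun i j : Fin (n' + 1) => QuadraticMap.polar ⇑Q (Pi.single i 1) (Pi.single j 1)) := by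
    ext i j; simp [Forms.polarGram, Pi.basisFun_apply]
  have h2' : Forms.polarGram (⇑Q) b = Matrix.diagonal (fun k => 2 * Q (b k)) := by
    ext i j
    by_cases hij : i = j
    · subst hij; simp [Forms.polarGram, OrthGen.polar_self_two]
    · simpa [Forms.polarGram, hij] using hb i j hij
  rw [← h1, hdet, Forms.isSquare_sq_mul_iff hd, h2', Matrix.det_diagonal, Finset.prod_mul_distrib,
    Finset.prod_const, Finset.card_univ, Fintype.card_fin]
  obtain ⟨r, hr⟩ := he
  rw [show (2 : F) ^ (n' + 1) = (2 ^ r) ^ 2 by rw [← pow_mul, hr, mul_two],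
    Forms.isSquare_sq_mul_iff (pow_ne_zero _ h2)]

end Cfsg.Agent.S2610
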