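import Cfsg.Statements.S2612
import Cfsg.Agent.Forms.OmegaPlus
-- import your own Cfsg.Agent.* helpers here

set_option autoImplicit false
open Cfsg

namespace Cfsg.Agent.S2612

/-- For the hyperbolic quadratic form Σ x_i y_i on F^(2m) (F finite, m ≥ 1, excluding m = 2 over the field of two elements), Ω⁺_2m(F) (the commutator subgroup of the orthogonal group) contains an element interchanging the two complementary maximal totally singular subspaces {y = 0} and {x = 0} if and only if m is even (dimension divisible by 4). -/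
theorem result {F : Type*} [Field F] [Fintype F] {m : ℕ} (hm : 1 ≤ m) (h : Fintype.card F ≠ 2 ∨ m ≠ 2) : (∃ g : ↥(Cfsg.isometryGroup F (Cfsg.quadFormPlus m F)), g ∈ Cfsg.Omega F (Cfsg.quadFormPlus m F) ∧ (∀ v : Fin m ⊕ Fin m → F, (∀ i, v (Sum.inr i) = 0) → ∀ i, (((g : Matrix.GeneralLinearGroup (Fin m ⊕ Fin m) F) : Matrix (Fin m ⊕ Fin m) (Fin m ⊕ Fin m) F).mulVec v) (Sum.inl i) = 0) ∧ (∀ v : Fin m ⊕ Fin m → F, (∀ i, v (Sum.inl i) = 0) → ∀ i, (((g : Matrix.GeneralLinearGroup (Fin m ⊕ Fin m) F) : Matrix (Fin m ⊕ Fin m) (Fin m ⊕ Fin m) F).mulVec v) (Sum.inr i) = 0)) ↔ Even m := by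
  have hf : ⇑(Classical.plusQF m F) = Cfsg.quadFormPlus m F := funext (Classical.plusQF_apply _)
  rw [← hf]
  set Q := Classical.plusQF m F
  obtain ⟨hUs, hfin, hV⟩ := Forms.totallySingular_ker_inr (F := F) (m := m)
  constructor
  · rintro ⟨g, hg, h1, -⟩
    rw [Forms.mem_Omega_iff_matEquiv] at hg
    have hd := Forms.dickson_of_mem_commutator Forms.bNondeg_plusQF (Forms.notExceptional_plusQF h) hg
    rw [Forms.dickson_eq_parity Forms.bNondeg_plusQF
      (OrthGen.RQ_eq_top Forms.bNondeg_plusQF (Forms.notExceptional_plusQF h)) hUs (by rw [hV, hfin]),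
      hfin] at hd
    set U := LinearMap.ker (LinearMap.funLeft F F (Sum.inr : Fin m → Fin m ⊕ Fin m))
    have hinf : U ⊓ U.map (OrthGen.matEquiv Q g).1.toLinearMap = ⊥ := by
      rw [eq_bot_iff]
      rintro _ ⟨hv, w, hw, rfl⟩
      refine (Submodule.mem_bot F).2 ?_
      ext (i | i)
      · rw [LinearEquiv.coe_coe, OrthGen.matEquiv_apply]
        exact h1 w (fun j => congrFun (LinearMap.mem_ker.1 hw) j) i
      · exact congrFun (LinearMap.mem_ker.1 hv) i
    rw [hinf, finrank_bot, add_zero] at hd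
    rcases Nat.even_or_odd m with he | he
    · exact he
    · rw [he.neg_one_pow] at hd; exact absurd hd (by decide)
  · intro he
    obtain ⟨k, hk, -, hkc⟩ := Forms.exists_swap (F := F) h
    refine ⟨(OrthGen.matEquiv Q).symm k, (Forms.mem_Omega_iff_matEquiv Q _).2 (by simpa using hkc.2 he),
      fun v hv i => ?_, fun v hv i => ?_⟩
    · rw [Forms.matEquiv_symm_mulVec, hk]; exact hv i
    · rw [Forms.matEquiv_symm_mulVec, hk]; exact hv i

end Cfsg.Agent.S2612
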