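import Cfsg.Statements.S2613
import Cfsg.Agent.Forms.OmegaApps
-- import your own Cfsg.Agent.* helpers here

set_option autoImplicit false
open Cfsg

namespace Cfsg.Agent.S2613

/-- For the hyperbolic form Σ x_j y_j on F^(2m), F finite with q elements, q odd, and 1 ≤ i ≤ m: the involution negating the first i hyperbolic pairs (x_j, y_j ↦ −x_j, −y_j for j < i) and fixing the rest lies in Ω⁺_2m(q) (commutator subgroup of the orthogonal group) if and only if q^i ≡ 1 (mod 4); its (−1)-eigenspace is a hyperbolic 2i-space. -/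
theorem result {F : Type*} [Field F] [Fintype F] {q : ℕ} (hF : Fintype.card F = q) (hq : Odd q) {m : ℕ} (i : ℕ) (hi : 1 ≤ i) (him : i ≤ m) : (∃ g : ↥(Cfsg.isometryGroup F (Cfsg.quadFormPlus m F)), g ∈ Cfsg.Omega F (Cfsg.quadFormPlus m F) ∧ ((g : Matrix.GeneralLinearGroup (Fin m ⊕ Fin m) F) : Matrix (Fin m ⊕ Fin m) (Fin m ⊕ Fin m) F) = Matrix.diagonal (fun k : Fin m ⊕ Fin m => if (Sum.elim (fun j : Fin m => (j : ℕ)) (fun j : Fin m => (j : ℕ)) k) < i then (-1 : F) else 1)) ↔ q ^ i % 4 = 1 := by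
  subst hF
  classical
  have hf : ⇑(Classical.plusQF m F) = Cfsg.quadFormPlus m F := funext (Classical.plusQF_apply _)
  rw [← hf]
  refine Forms.diag_neg_mem_Omega_iff _ (Classical.bNondeg_congr (Classical.plusEquiv m)
    (Classical.plusEquiv_spec m) (Classical.bNondeg_hypExt _ (fun x _ => Subsingleton.elim _ _))) hq
    (fun j => Sum.inl (Fin.castLE him j)) (fun j => Sum.inr (Fin.castLE him j)) ?_
    (fun j v => (Forms.polar_plusQF_single m _ v).1) (fun j v => (Forms.polar_plusQF_single m _ v).2)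
    (fun j => by simp [Classical.plusQF_apply, Cfsg.quadFormPlus, Pi.single_apply])
    (fun j => by simp [Classical.plusQF_apply, Cfsg.quadFormPlus, Pi.single_apply]) _
    (fun j => by simp) ?_
  · rintro (a | a) (b | b) h <;> simp at h <;> rw [h]
  · rintro (k | k) hk <;> refine if_neg ?_ <;>
      intro hlt <;> apply hk
    · exact ⟨Sum.inl ⟨k, hlt⟩, rfl⟩
    · exact ⟨Sum.inr ⟨k, hlt⟩, rfl⟩

end Cfsg.Agent.S2613
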