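import Cfsg.Statements.S2614
import Cfsg.Agent.Forms.OmegaApps
-- import your own Cfsg.Agent.* helpers here

set_option autoImplicit false
open Cfsg

namespace Cfsg.Agent.S2614

/-- For the form x_0² + Σ x_j y_j on F^(2m+1), F finite with q elements, q odd, and 1 ≤ i ≤ m: the involution of determinant one negating the first i hyperbolic pairs (and fixing x_0 and the other pairs) lies in Ω_(2m+1)(q) (commutator subgroup of the orthogonal group) if and only if q^i ≡ 1 (mod 4); its (−1)-eigenspace is a hyperbolic 2i-space. -/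
theorem result {F : Type*} [Field F] [Fintype F] {q : ℕ} (hF : Fintype.card F = q) (hq : Odd q) {m : ℕ} (i : ℕ) (hi : 1 ≤ i) (him : i ≤ m) : (∃ g : ↥(Cfsg.isometryGroup F (Cfsg.quadFormOdd m F)), g ∈ Cfsg.Omega F (Cfsg.quadFormOdd m F) ∧ ((g : Matrix.GeneralLinearGroup (Unit ⊕ (Fin m ⊕ Fin m)) F) : Matrix (Unit ⊕ (Fin m ⊕ Fin m)) (Unit ⊕ (Fin m ⊕ Fin m)) F) = Matrix.diagonal (fun k : Unit ⊕ (Fin m ⊕ Fin m) => if (Sum.elim (fun _ : Unit => i) (Sum.elim (fun j : Fin m => (j : ℕ)) (fun j : Fin m => (j : ℕ))) k) < i then (-1 : F) else 1)) ↔ q ^ i % 4 = 1 := by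
  subst hF
  classical
  have h2 : (2 : F) ≠ 0 := Forms.two_ne_zero_of_odd_card hq
  have hf : ⇑(Classical.oddQF m F) = Cfsg.quadFormOdd m F := funext (Classical.oddQF_apply _)
  rw [← hf]
  refine Forms.diag_neg_mem_Omega_iff _ (Classical.bNondeg_congr (Classical.oddEquiv m)
    (Classical.oddEquiv_spec m) (Classical.bNondeg_hypExt _ (fun x hx => by
      have h := hx 1
      simp [QuadraticMap.polar, QuadraticMap.sq_apply] at h
      have h' : (2 : F) * x = 0 := by linear_combination h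
      exact (mul_eq_zero.1 h').resolve_left h2))) hq
    (fun j => Sum.inr (Sum.inl (Fin.castLE him j))) (fun j => Sum.inr (Sum.inr (Fin.castLE him j))) ?_
    (fun j v => (Forms.polar_oddQF_single m _ v).1) (fun j v => (Forms.polar_oddQF_single m _ v).2)
    (fun j => by simp [Classical.oddQF_apply, Cfsg.quadFormOdd, Pi.single_apply])
    (fun j => by simp [Classical.oddQF_apply, Cfsg.quadFormOdd, Pi.single_apply]) _
    (fun j => by simp) ?_
  · rintro (a | a) (b | b) h <;> simp at h <;> rw [h]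
  · rintro (u | k | k) hk <;> refine if_neg ?_ <;>
      intro hlt
    · exact absurd hlt (lt_irrefl i)
    · exact hk ⟨Sum.inl ⟨k, hlt⟩, rfl⟩
    · exact hk ⟨Sum.inr ⟨k, hlt⟩, rfl⟩

end Cfsg.Agent.S2614
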