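import Cfsg.Statements.S2615
import Cfsg.Agent.Forms.OmegaApps
-- import your own Cfsg.Agent.* helpers here

set_option autoImplicit false
open Cfsg

namespace Cfsg.Agent.S2615

/-- For an elliptic form Σ_(j<m−1) x_j y_j + (z₁² + a z₁z₂ + b z₂²) (anisotropic binary part) on F^(2m), F finite with q elements, q odd, and 1 ≤ i ≤ m − 1: the involution negating the first i hyperbolic pairs and fixing the rest lies in Ω⁻_2m(q) (commutator subgroup of the orthogonal group) if and only if q^i ≡ 1 (mod 4). -/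
theorem result {F : Type*} [Field F] [Fintype F] {q : ℕ} (hF : Fintype.card F = q) (hq : Odd q) {m : ℕ} (a b : F) (hab : ∀ z₁ z₂ : F, z₁ ^ 2 + a * z₁ * z₂ + b * z₂ ^ 2 = 0 → z₁ = 0 ∧ z₂ = 0) (i : ℕ) (hi : 1 ≤ i) (him : i + 1 ≤ m) : (∃ g : ↥(Cfsg.isometryGroup F (Cfsg.quadFormMinus (m - 1) F a b)), g ∈ Cfsg.Omega F (Cfsg.quadFormMinus (m - 1) F a b) ∧ ((g : Matrix.GeneralLinearGroup ((Fin (m - 1) ⊕ Fin (m - 1)) ⊕ Fin 2) F) : Matrix ((Fin (m - 1) ⊕ Fin (m - 1)) ⊕ Fin 2) ((Fin (m - 1) ⊕ Fin (m - 1)) ⊕ Fin 2) F) = Matrix.diagonal (fun k : (Fin (m - 1) ⊕ Fin (m - 1)) ⊕ Fin 2 => if (Sum.elim (Sum.elim (fun j : Fin (m - 1) => (j : ℕ)) (fun j : Fin (m - 1) => (j : ℕ))) (fun _ : Fin 2 => i) k) < i then (-1 : F) else 1)) ↔ q ^ i % 4 = 1 := by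
  subst hF
  classical
  have h2 : (2 : F) ≠ 0 := Forms.two_ne_zero_of_odd_card hq
  have hf : ⇑(Classical.minusQF (m - 1) a b) = Cfsg.quadFormMinus (m - 1) F a b :=
    funext (Classical.minusQF_apply _ _ _)
  rw [← hf]
  have him' : i ≤ m - 1 := by omega
  refine Forms.diag_neg_mem_Omega_iff _ (Classical.bNondeg_congr (Classical.minusEquiv (m - 1))
    (Classical.minusEquiv_spec (m - 1) a b) (Classical.bNondeg_hypExt _ (fun x hx => by
      have h := hx x
      rw [QuadraticMap.polar_self, two_smul, ← two_mul] at h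
      exact Classical.anisotropic_binQF hab x ((mul_eq_zero.1 h).resolve_left h2)))) hq
    (fun j => Sum.inl (Sum.inl (Fin.castLE him' j))) (fun j => Sum.inl (Sum.inr (Fin.castLE him' j))) ?_
    (fun j v => (Forms.polar_minusQF_single _ a b _ v).1) (fun j v => (Forms.polar_minusQF_single _ a b _ v).2)
    (fun j => by simp [Classical.minusQF_apply, Cfsg.quadFormMinus, Pi.single_apply])
    (fun j => by simp [Classical.minusQF_apply, Cfsg.quadFormMinus, Pi.single_apply]) _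
    (fun j => by simp) ?_
  · rintro (a | a) (b | b) h <;> simp at h <;> rw [h]
  · rintro ((k | k) | u) hk <;> refine if_neg ?_ <;>
      intro hlt
    · exact hk ⟨Sum.inl ⟨k, hlt⟩, rfl⟩
    · exact hk ⟨Sum.inr ⟨k, hlt⟩, rfl⟩
    · exact absurd hlt (lt_irrefl i)

end Cfsg.Agent.S2615
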