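import Cfsg.Statements.S2616
import Cfsg.Agent.Forms.FiniteBasis
-- import your own Cfsg.Agent.* helpers here

set_option autoImplicit false
open Cfsg

namespace Cfsg.Agent.S2616

/-- Standard bases of a non-degenerate quadratic space of even dimension 2m over a finite field: either there is a hyperbolic basis e_i, f_i (Q(e_i) = Q(f_i) = 0, B(e_i, f_j) = δ_ij, the e's pairwise orthogonal and the f's pairwise orthogonal, B the polar form), or there is an elliptic basis: hyperbolic pairs e_i, f_i for i < m − 1 together with x, y orthogonal to them with Q(x) = 1, B(x, y) = 1, Q(y) = ζ where t² + t + ζ has no root in the field. -/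
theorem result {F V : Type*} [Field F] [Finite F] [AddCommGroup V] [Module F V] [FiniteDimensional F V] {m : ℕ} (hm : 1 ≤ m) (hV : Module.finrank F V = 2 * m) (Q : QuadraticForm F V) (hQ : (QuadraticMap.polarBilin Q).Nondegenerate) : (∃ b : Module.Basis (Fin m ⊕ Fin m) F V, (∀ i, Q (b (Sum.inl i)) = 0 ∧ Q (b (Sum.inr i)) = 0) ∧ (∀ i j, QuadraticMap.polar ⇑Q (b (Sum.inl i)) (b (Sum.inr j)) = if i = j then 1 else 0) ∧ (∀ i j, QuadraticMap.polar ⇑Q (b (Sum.inl i)) (b (Sum.inl j)) = 0 ∧ QuadraticMap.polar ⇑Q (b (Sum.inr i)) (b (Sum.inr j)) = 0)) ∨ (∃ (b : Module.Basis ((Fin (m - 1) ⊕ Fin (m - 1)) ⊕ Fin 2) F V) (ζ : F), (∀ t : F, t ^ 2 + t + ζ ≠ 0) ∧ (∀ i, Q (b (Sum.inl (Sum.inl i))) = 0 ∧ Q (b (Sum.inl (Sum.inr i))) = 0) ∧ (∀ i j, QuadraticMap.polar ⇑Q (b (Sum.inl (Sum.inl i))) (b (Sum.inl (Sum.inr j))) = if i = j then 1 else 0) ∧ (∀ i j, QuadraticMap.polar ⇑Q (b (Sum.inl (Sum.inl i))) (b (Sum.inl (Sum.inl j))) = 0 ∧ QuadraticMap.polar ⇑Q (b (Sum.inl (Sum.inr i))) (b (Sum.inl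 (Sum.inr j))) = 0) ∧ (∀ i (k : Fin 2), QuadraticMap.polar ⇑Q (b (Sum.inl (Sum.inl i))) (b (Sum.inr k)) = 0 ∧ QuadraticMap.polar ⇑Q (b (Sum.inl (Sum.inr i))) (b (Sum.inr k)) = 0) ∧ Q (b (Sum.inr 0)) = 1 ∧ QuadraticMap.polar ⇑Q (b (Sum.inr 0)) (b (Sum.inr 1)) = 1 ∧ Q (b (Sum.inr 1)) = ζ) := by
  have hns := Forms.nonsingOn_top_of_nondegenerate hQ
  obtain ⟨n, k, e, f, w, b, hk, hdim, hfam, hb, haniso⟩ := Forms.exists_witt_decomposition_le_two Q hns
  interval_cases k
  · obtain rfl : n = m := by omega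
    refine Or.inl ⟨b.reindex (Equiv.sumEmpty _ _), ?_, ?_, ?_⟩
    · intro i; simp [hb, hfam.qe, hfam.qf]
    · intro i j; simp [hb, hfam.ef]
    · intro i j; simp [hb, hfam.ee, hfam.ff]
  · omega
  · obtain rfl : n = m - 1 := by omega
    let L : (Fin 2 → F) →ₗ[F] V := Fintype.linearCombination F w
    let Qw : QuadraticForm F (Fin 2 → F) := Q.comp L
    have hpL : ∀ x y, QuadraticMap.polar Qw x y = QuadraticMap.polar Q (L x) (L y) := fun x y => by
      simp [Qw, QuadraticMap.polar, map_add]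
    have hwL : ∀ (g : Fin (m - 1) → V), (∀ i j, QuadraticMap.polar Q (g i) (w j) = 0) → ∀ i x, QuadraticMap.polar Q (g i) (L x) = 0 := fun g hg i x => by
      rw [← QuadraticMap.polarBilin_apply_apply]
      simp [L, Fintype.linearCombination_apply, hg]
    obtain ⟨u, v, hli, hu, huv, hroot⟩ := Forms.exists_elliptic_pair Qw (fun x hx => haniso x hx) (Module.finrank_fin_fun F) (fun _ x hx => by
      have h0 : QuadraticMap.polarBilin Q (L x) = 0 := b.ext fun i => by
        rcases i with (i | i) | j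
        · simp [hb, QuadraticMap.polar_comm Q (L x), hwL e hfam.ew]
        · simp [hb, QuadraticMap.polar_comm Q (L x), hwL f hfam.fw]
        · have h := hx (Pi.single j 1)
          rw [hpL] at h
          simpa [hb, L, Fintype.linearCombination_apply_single] using h
      exact haniso x (by
        have h := hQ.1 (L x) (fun z => by rw [h0]; rfl)
        show Q (L x) = 0
        rw [h, QuadraticMap.map_zero]))
    let w' : Fin 2 → V := L ∘ ![u, v]
    have hfam' : Forms.IsWittFamily Q e f w' := ⟨hfam.qe, hfam.qf, hfam.ef, hfam.ee, hfam.ff, fun i j => hwL e hfam.ew i _, fun i j => hwL f hfam.fw i _⟩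
    have hwi : LinearIndependent F w := by
      have h := b.linearIndependent.comp Sum.inr Sum.inr_injective
      have he : (⇑b ∘ Sum.inr) = w := funext fun j => by simp [hb]
      rwa [he] at h
    have hL : Function.Injective L := linearIndependent_iff_injective_fintypeLinearCombination.1 hwi
    have hli' := hfam'.linearIndependent (hli.map' L (LinearMap.ker_eq_bot.2 hL))
    let b' := basisOfLinearIndependentOfCardEqFinrank' _ hli' (by rw [hV]; simp; omega)
    refine Or.inr ⟨b', Qw v, hroot, ?_, ?_, ?_, ?_, ?_, ?_, ?_⟩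
    · intro i; simp [b', hfam.qe, hfam.qf]
    · intro i j; simp [b', hfam.ef]
    · intro i j; simp [b', hfam.ee, hfam.ff]
    · intro i j; simp [b', w', hwL e hfam.ew, hwL f hfam.fw]
    · simpa [b', w', Qw] using hu
    · simpa [b', w', hpL] using huv
    · simp [b', w', Qw]

end Cfsg.Agent.S2616
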