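import Cfsg.Statements.S2618
import Cfsg.Agent.Forms.FiniteBasis
-- import your own Cfsg.Agent.* helpers here

set_option autoImplicit false
open Cfsg

namespace Cfsg.Agent.S2618

/-- Standard (parabolic) basis of a non-degenerate quadratic space of odd dimension 2m + 1 over a finite field (the non-degeneracy of the polar form forces the characteristic to be odd): there is a basis e_i, f_i (i < m), x with Q(e_i) = Q(f_i) = 0, B(e_i, f_j) = δ_ij (B the polar form), the e's pairwise orthogonal and the f's pairwise orthogonal, x orthogonal to all of them and Q(x) ≠ 0. -/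
theorem result {F V : Type*} [Field F] [Finite F] [AddCommGroup V] [Module F V] [FiniteDimensional F V] {m : ℕ} (hV : Module.finrank F V = 2 * m + 1) (Q : QuadraticForm F V) (hQ : (QuadraticMap.polarBilin Q).Nondegenerate) : ∃ b : Module.Basis (Unit ⊕ (Fin m ⊕ Fin m)) F V, Q (b (Sum.inl ())) ≠ 0 ∧ (∀ i, QuadraticMap.polar ⇑Q (b (Sum.inl ())) (b (Sum.inr (Sum.inl i))) = 0 ∧ QuadraticMap.polar ⇑Q (b (Sum.inl ())) (b (Sum.inr (Sum.inr i))) = 0) ∧ (∀ i, Q (b (Sum.inr (Sum.inl i))) = 0 ∧ Q (b (Sum.inr (Sum.inr i))) = 0) ∧ (∀ i j, QuadraticMap.polar ⇑Q (b (Sum.inr (Sum.inl i))) (b (Sum.inr (Sum.inr j))) = if i = j then 1 else 0) ∧ (∀ i j, QuadraticMap.polar ⇑Q (b (Sum.inr (Sum.inl i))) (b (Sum.inr (Sum.inl j))) = 0 ∧ QuadraticMap.polar ⇑Q (b (Sum.inr (Sum.inr i))) (b (Sum.inr (Sum.inr j))) = 0) := by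
  have hns := Forms.nonsingOn_top_of_nondegenerate hQ
  obtain ⟨n, k, e, f, w, b, hk, hdim, hfam, hb, haniso⟩ := Forms.exists_witt_decomposition_le_two Q hns
  obtain rfl : k = 1 := by omega
  obtain rfl : n = m := by omega
  let σ : (Fin n ⊕ Fin n) ⊕ Fin 1 ≃ Unit ⊕ (Fin n ⊕ Fin n) := (Equiv.sumComm _ _).trans (Equiv.sumCongr finOneEquiv (Equiv.refl _))
  have h0 : Q (w 0) ≠ 0 := fun h => by
    have := haniso (fun _ => 1) (by simpa using h)
    exact one_ne_zero (congrFun this 0)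
  refine ⟨b.reindex σ, ?_, ?_, ?_, ?_, ?_⟩
  · simpa [σ, hb, Fin.eq_zero (finOneEquiv.symm ())] using h0
  · intro i; simp [σ, hb, QuadraticMap.polar_comm Q (w _) (e i), QuadraticMap.polar_comm Q (w _) (f i), hfam.ew, hfam.fw]
  · intro i; simp [σ, hb, hfam.qe, hfam.qf]
  · intro i j; simp [σ, hb, hfam.ef]
  · intro i j; simp [σ, hb, hfam.ee, hfam.ff]

end Cfsg.Agent.S2618
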