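import Cfsg.Statements.S2619
import Cfsg.Agent.Forms.BaseChange
-- import your own Cfsg.Agent.* helpers here

set_option autoImplicit false
open Cfsg

namespace Cfsg.Agent.S2619

/-- Over a finite field of characteristic two, given an alternating bilinear form B on a finite-dimensional space, a basis (v_i) and scalars (λ_i), there is exactly one quadratic form whose polar form is B and whose value at each v_i is λ_i. -/
theorem result {F V ι : Type*} [Field F] [Finite F] [CharP F 2] [AddCommGroup V] [Module F V] [Fintype ι] (b : Module.Basis ι F V) (B : LinearMap.BilinForm F V) (hB : B.IsAlt) (c : ι → F) : ∃! Q : QuadraticForm F V, QuadraticMap.polarBilin Q = B ∧ ∀ i, Q (b i) = c i := by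
  classical
  let e := Fintype.equivFin ι
  let M : Matrix ι ι F := Matrix.of fun i j => if i = j then c i else if e i < e j then B (b i) (b j) else 0
  have hMb : ∀ i j, Matrix.toBilin b M (b i) (b j) = M i j := fun i j => by
    rw [← LinearMap.BilinForm.toMatrix_apply b, LinearMap.BilinForm.toMatrix_toBilin]
  have hsym : ∀ i j, B (b j) (b i) = B (b i) (b j) := fun i j => by
    rw [← LinearMap.IsAlt.neg hB (b i) (b j), CharTwo.neg_eq]
  refine ⟨LinearMap.BilinMap.toQuadraticMap (Matrix.toBilin b M), ⟨?_, fun i => ?_⟩, fun Q hQ => ?_⟩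
  · refine b.ext fun i => b.ext fun j => ?_
    rw [QuadraticMap.polarBilin_apply_apply, LinearMap.BilinMap.polar_toQuadraticMap, hMb, hMb]
    rcases lt_trichotomy (e i) (e j) with h | h | h
    · have hne : i ≠ j := fun h' => h.ne (congrArg e h')
      simp [M, h, hne, hne.symm, not_lt.2 h.le]
    · obtain rfl := e.injective h
      simp [M, CharTwo.add_self_eq_zero, hB.self_eq_zero]
    · have hne : i ≠ j := fun h' => h.ne (congrArg e h').symm
      simp [M, h, hne, hne.symm, not_lt.2 h.le, hsym i j]
  · rw [LinearMap.BilinMap.toQuadraticMap_apply, hMb]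
    simp [M]
  · refine Forms.quadraticForm_ext_basis b (fun i => ?_) fun i j => ?_
    · rw [hQ.2, LinearMap.BilinMap.toQuadraticMap_apply, hMb]
      simp [M]
    · rw [← QuadraticMap.polarBilin_apply_apply Q, hQ.1, LinearMap.BilinMap.polar_toQuadraticMap, hMb, hMb]
      rcases lt_trichotomy (e i) (e j) with h | h | h
      · have hne : i ≠ j := fun h' => h.ne (congrArg e h')
        simp [M, h, hne, hne.symm, not_lt.2 h.le]
      · obtain rfl := e.injective h
        simp [M, CharTwo.add_self_eq_zero, hB.self_eq_zero]
      · have hne : i ≠ j := fun h' => h.ne (congrArg e h').symm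
        simp [M, h, hne, hne.symm, not_lt.2 h.le, hsym i j]

end Cfsg.Agent.S2619
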