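import Cfsg.Statements.S2620
import Cfsg.Agent.Forms.Discriminant
-- import your own Cfsg.Agent.* helpers here

set_option autoImplicit false
open Cfsg

namespace Cfsg.Agent.S2620

/-- Discriminant of the hyperbolic quadratic form Σ_(i<m) x_i y_i over a field with q elements, q odd, m ≥ 1: the determinant of the Gram matrix of its polar form in any basis is a square if and only if m(q − 1)/2 is even (equivalently q^m ≡ 1 (mod 4)). -/
theorem result {F : Type*} [Field F] [Fintype F] {q : ℕ} (hF : Fintype.card F = q) (hq : Odd q) {m : ℕ} (hm : 1 ≤ m) {ι : Type*} [Fintype ι] [DecidableEq ι] (b : Module.Basis ι F (Fin m ⊕ Fin m → F)) : IsSquare (Matrix.of (fun i j : ι => QuadraticMap.polar (Cfsg.quadFormPlus m F) (b i) (b j))).det ↔ Even (m * (q - 1) / 2) := by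
  subst hF
  have h2 : (2 : F) ≠ 0 := fun h => by
    have : CharP F 2 := CharTwo.of_one_ne_zero_of_two_eq_zero one_ne_zero h
    have := FiniteField.even_card_of_char_two (ringChar.eq F 2)
    rw [Nat.odd_iff] at hq; omega
  obtain ⟨Q, hQ⟩ : ∃ Q : QuadraticForm F (Fin m ⊕ Fin m → F), ∀ v, Q v = Cfsg.quadFormPlus m F v :=
    ⟨∑ i : Fin m, QuadraticMap.proj (Sum.inl i) (Sum.inr i), fun v => by simp [Cfsg.quadFormPlus]⟩
  obtain ⟨d, hd, h⟩ := Forms.exists_det_polarGram_of_equiv Q _ (LinearEquiv.refl F _) hQ b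
  rw [show (Matrix.of fun i j : ι => QuadraticMap.polar (Cfsg.quadFormPlus m F) (b i) (b j)) = Forms.polarGram Q b by
    rw [show (Cfsg.quadFormPlus m F) = ⇑Q from (funext hQ).symm]; rfl]
  rw [h, Forms.det_polarGram_quadFormPlus, Forms.isSquare_sq_mul_iff hd]
  have hkey : m * (Fintype.card F - 1) / 2 = m * ((Fintype.card F - 1) / 2) := by
    rw [Nat.mul_div_assoc]
    rw [Nat.odd_iff] at hq; omega
  rw [hkey, Nat.even_mul]
  rcases Nat.even_or_odd m with he | ho
  · simp [he.neg_one_pow, he]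
  · rw [ho.neg_one_pow, FiniteField.isSquare_neg_one_iff]
    simp only [Nat.not_even_iff_odd.2 ho, false_or, Nat.even_iff]
    rw [Nat.odd_iff] at hq; omega

end Cfsg.Agent.S2620
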