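import Cfsg.Statements.S2621
import Cfsg.Agent.Forms.Discriminant
-- import your own Cfsg.Agent.* helpers here

set_option autoImplicit false
open Cfsg

namespace Cfsg.Agent.S2621

/-- Discriminant of an elliptic quadratic form Σ_(i<m−1) x_i y_i + z₁² + a z₁z₂ + c z₂² (binary part anisotropic) in dimension 2m over a field with q elements, q odd, m ≥ 1: the determinant of the Gram matrix of its polar form in any basis is a square if and only if m(q − 1)/2 is odd (equivalently q^m ≡ 3 (mod 4)). -/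
theorem result {F : Type*} [Field F] [Fintype F] {q : ℕ} (hF : Fintype.card F = q) (hq : Odd q) {m : ℕ} (hm : 1 ≤ m) (a c : F) (hac : ∀ z₁ z₂ : F, z₁ ^ 2 + a * z₁ * z₂ + c * z₂ ^ 2 = 0 → z₁ = 0 ∧ z₂ = 0) {ι : Type*} [Fintype ι] [DecidableEq ι] (b : Module.Basis ι F ((Fin (m - 1) ⊕ Fin (m - 1)) ⊕ Fin 2 → F)) : IsSquare (Matrix.of (fun i j : ι => QuadraticMap.polar (Cfsg.quadFormMinus (m - 1) F a c) (b i) (b j))).det ↔ ¬ Even (m * (q - 1) / 2) := by
  subst hF
  have h2 : (2 : F) ≠ 0 := fun h => by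
    have : CharP F 2 := CharTwo.of_one_ne_zero_of_two_eq_zero one_ne_zero h
    have := FiniteField.even_card_of_char_two (ringChar.eq F 2)
    rw [Nat.odd_iff] at hq; omega
  obtain ⟨n, rfl⟩ : ∃ k, m = k + 1 := ⟨m - 1, by omega⟩
  obtain ⟨Q, hQ⟩ : ∃ Q : QuadraticForm F ((Fin n ⊕ Fin n) ⊕ Fin 2 → F), ∀ v, Q v = Cfsg.quadFormMinus n F a c v :=
    ⟨(∑ i : Fin n, QuadraticMap.proj (Sum.inl (Sum.inl i)) (Sum.inl (Sum.inr i))) + (QuadraticMap.proj (Sum.inr 0) (Sum.inr 0) + a • QuadraticMap.proj (Sum.inr 0) (Sum.inr 1) + c • QuadraticMap.proj (Sum.inr 1) (Sum.inr 1)), fun v => by simp [Cfsg.quadFormMinus]; ring⟩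
  obtain ⟨d, hd, h⟩ := Forms.exists_det_polarGram_of_equiv Q _ (LinearEquiv.refl F _) hQ b
  show IsSquare (Matrix.of fun i j : ι => QuadraticMap.polar (Cfsg.quadFormMinus n F a c) (b i) (b j)).det ↔ _
  rw [show (Matrix.of fun i j : ι => QuadraticMap.polar (Cfsg.quadFormMinus n F a c) (b i) (b j)) = Forms.polarGram Q b by
    rw [show (Cfsg.quadFormMinus n F a c) = ⇑Q from (funext hQ).symm]; rfl]
  rw [h, Forms.det_polarGram_quadFormMinus, Forms.isSquare_sq_mul_iff hd]
  have hns : ¬ IsSquare (a ^ 2 - 4 * c) := Forms.BinaryAniso.not_isSquare h2 (a := a) (b := c) hac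
  have hkey : (n + 1) * (Fintype.card F - 1) / 2 = (n + 1) * ((Fintype.card F - 1) / 2) := by
    rw [Nat.mul_div_assoc]
    rw [Nat.odd_iff] at hq; omega
  rw [hkey, Nat.even_mul]
  rcases Nat.even_or_odd (n + 1) with he | ho
  · simp [he.neg_one_pow, he, hns]
  · rw [ho.neg_one_pow]
    simp only [Nat.not_even_iff_odd.2 ho, false_or, Nat.even_iff]
    have h1 := FiniteField.isSquare_neg_one_iff (F := F)
    rw [Nat.odd_iff] at hq
    by_cases hm1 : IsSquare (-1 : F)
    · have : ¬ IsSquare (-1 * (a ^ 2 - 4 * c)) := fun hs => hns (by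
        obtain ⟨r, hr⟩ := hm1
        have := hs.mul (⟨r, hr⟩ : IsSquare (-1 : F))
        rwa [show -1 * (a ^ 2 - 4 * c) * (-1 : F) = a ^ 2 - 4 * c by ring] at this)
      rw [iff_false_left this]
      have := h1.1 hm1
      omega
    · have := Forms.isSquare_mul_of_not_isSquare hm1 hns
      rw [iff_true_left this]
      have := mt h1.2 hm1
      omega

end Cfsg.Agent.S2621
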