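import Cfsg.Statements.S2623
import Cfsg.Agent.Forms.Discriminant
-- import your own Cfsg.Agent.* helpers here

set_option autoImplicit false
open Cfsg

namespace Cfsg.Agent.S2623

/-- Over a finite field of odd order, two quadratic forms on F^n with non-degenerate polar forms are isometric (related by an invertible linear change of variables) if and only if their discriminants (determinants of the Gram matrices of their polar forms) lie in the same square class. -/
theorem result {F : Type*} [Field F] [Fintype F] (h2 : (2 : F) ≠ 0) {n : ℕ} (Q₁ Q₂ : QuadraticForm F (Fin n → F)) (h₁ : (QuadraticMap.polarBilin Q₁).Nondegenerate) (h₂ : (QuadraticMap.polarBilin Q₂).Nondegenerate) : (∃ g : (Fin n → F) ≃ₗ[F] (Fin n → F), ∀ v, Q₂ (g v) = Q₁ v) ↔ IsSquare ((Matrix.of (fun i j : Fin n => QuadraticMap.polar ⇑Q₁ (Pi.single i 1) (Pi.single j 1))).det * (Matrix.of (fun i j : Fin n => QuadraticMap.polar ⇑Q₂ (Pi.single i 1) (Pi.single j 1))).det) := by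
  classical
  have hb : ∀ Q : QuadraticForm F (Fin n → F), (Matrix.of fun i j : Fin n => QuadraticMap.polar ⇑Q (Pi.single i 1) (Pi.single j 1)) = Forms.polarGram Q (Pi.basisFun F (Fin n)) := fun Q => by
    ext i j
    simp [Forms.polarGram]
  rw [hb, hb]
  constructor
  · rintro ⟨g, hg⟩
    obtain ⟨d, hd, h⟩ := Forms.exists_det_polarGram_of_equiv Q₁ (⇑Q₂) g (fun v => (hg v).symm) (Pi.basisFun F (Fin n))
    rw [h]
    exact ⟨d * (Forms.polarGram Q₂ (Pi.basisFun F (Fin n))).det, by ring⟩
  · intro hsq
    exact Forms.exists_equiv_of_isSquare_det_mul h2 Q₁ Q₂ (Forms.nonsingOn_top_of_nondegenerate h₁) (Forms.nonsingOn_top_of_nondegenerate h₂) _ _ hsq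

end Cfsg.Agent.S2623
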