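import Cfsg.Statements.S2626

set_option autoImplicit false
open Cfsg

namespace Cfsg.Agent.S2626

/-- The block-diagonal embedding `O(Q₁) × O(Q₂) → O(Q₁ ⊕ Q₂)`. -/
def blockHom {F : Type*} [Field F] {k l : ℕ} (Q₁ : (Fin k → F) → F) (Q₂ : (Fin l → F) → F) :
    ↥(Cfsg.isometryGroup F Q₁) × ↥(Cfsg.isometryGroup F Q₂) →*
      ↥(Cfsg.isometryGroup F (fun v : Fin k ⊕ Fin l → F => Q₁ (v ∘ Sum.inl) + Q₂ (v ∘ Sum.inr))) where
  toFun p :=
    ⟨⟨Matrix.fromBlocks ((p.1 : GL (Fin k) F) : Matrix (Fin k) (Fin k) F) 0 0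
          ((p.2 : GL (Fin l) F) : Matrix (Fin l) (Fin l) F),
        Matrix.fromBlocks (((p.1 : GL (Fin k) F)⁻¹ : GL (Fin k) F) : Matrix (Fin k) (Fin k) F) 0 0
          (((p.2 : GL (Fin l) F)⁻¹ : GL (Fin l) F) : Matrix (Fin l) (Fin l) F),
        by simp [Matrix.fromBlocks_multiply],
        by simp [Matrix.fromBlocks_multiply]⟩, by
      intro u _
      have h1 := p.1.2 (u ∘ Sum.inl) 0
      have h2 := p.2.2 (u ∘ Sum.inr) 0
      simp only [Units.coeHom_apply] at h1 h2 ⊢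
      rw [Matrix.fromBlocks_mulVec]
      simp only [Matrix.zero_mulVec, add_zero, zero_add]
      exact congrArg₂ (· + ·) h1 h2⟩
  map_one' := by
    apply Subtype.ext
    apply Units.ext
    exact Matrix.fromBlocks_one
  map_mul' a b := by
    apply Subtype.ext
    apply Units.ext
    simp [Matrix.fromBlocks_multiply]


/-- Ω of an orthogonal direct sum contains the product of the Ω's: for quadratic forms Q₁ on F^k and Q₂ on F^l with non-degenerate polar forms (F finite) and Q = Q₁ ⊕ Q₂ on F^(k+l), if g₁ lies in Ω(Q₁) and g₂ in Ω(Q₂) (commutator subgroups of the orthogonal groups) then the block-diagonal isometry diag(g₁, g₂) lies in Ω(Q). -/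
theorem result {F : Type*} [Field F] [Fintype F] {k l : ℕ} (Q₁ : QuadraticForm F (Fin k → F)) (Q₂ : QuadraticForm F (Fin l → F)) (h₁ : (QuadraticMap.polarBilin Q₁).Nondegenerate) (h₂ : (QuadraticMap.polarBilin Q₂).Nondegenerate) (g₁ : ↥(Cfsg.isometryGroup F ⇑Q₁)) (g₂ : ↥(Cfsg.isometryGroup F ⇑Q₂)) (hg₁ : g₁ ∈ Cfsg.Omega F ⇑Q₁) (hg₂ : g₂ ∈ Cfsg.Omega F ⇑Q₂) : ∃ g : ↥(Cfsg.isometryGroup F (fun v : Fin k ⊕ Fin l → F => Q₁ (v ∘ Sum.inl) + Q₂ (v ∘ Sum.inr))), g ∈ Cfsg.Omega F (fun v : Fin k ⊕ Fin l → F => Q₁ (v ∘ Sum.inl) + Q₂ (v ∘ Sum.inr)) ∧ ((g : Matrix.GeneralLinearGroup (Fin k ⊕ Fin l) F) : Matrix (Fin k ⊕ Fin l) (Fin k ⊕ Fin l) F) = Matrix.fromBlocks ((g₁ : Matrix.GeneralLinearGroup (Fin k) F) : Matrix (Fin k) (Fin k) F) 0 0 ((g₂ : Matrix.GeneralLinearGroup (Fin l) F) : Matrix (Fin l) (Fin l) F) := by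
  refine ⟨blockHom ⇑Q₁ ⇑Q₂ (g₁, g₂), ?_, rfl⟩
  have h : (g₁, g₂) ∈ commutator (↥(Cfsg.isometryGroup F ⇑Q₁) × ↥(Cfsg.isometryGroup F ⇑Q₂)) := by
    rw [commutator_def, ← Subgroup.top_prod_top, Subgroup.commutator_prod_prod]
    exact ⟨hg₁, hg₂⟩
  have h2 : Subgroup.map (blockHom ⇑Q₁ ⇑Q₂) (commutator _) ≤ Cfsg.Omega F _ := by
    rw [Cfsg.Omega, commutator_def, Subgroup.map_commutator, commutator_def]
    exact Subgroup.commutator_mono le_top le_top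
  exact h2 ⟨_, h, rfl⟩

end Cfsg.Agent.S2626
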