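import Cfsg.Statements.S2627
import Cfsg.Agent.Forms.OmegaCrit
-- import your own Cfsg.Agent.* helpers here

set_option autoImplicit false
open Cfsg

namespace Cfsg.Agent.S2627

/-- For an orthogonal direct sum Q = Q₁ ⊕ Q₂ of quadratic forms with non-degenerate polar forms over a finite field, an isometry g₁ of Q₁ extended by the identity on the second summand lies in Ω(Q) (the commutator subgroup of the orthogonal group of Q) if and only if g₁ lies in Ω(Q₁). (Excluded: the field of two elements when the first summand or the whole space has dimension 4, where the commutator subgroup of O⁺₄(2) is smaller than the group usually called Ω.) -/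
theorem result {F : Type*} [Field F] [Fintype F] {k l : ℕ} (h : Fintype.card F ≠ 2 ∨ (k ≠ 4 ∧ k + l ≠ 4)) (Q₁ : QuadraticForm F (Fin k → F)) (Q₂ : QuadraticForm F (Fin l → F)) (h₁ : (QuadraticMap.polarBilin Q₁).Nondegenerate) (h₂ : (QuadraticMap.polarBilin Q₂).Nondegenerate) (g₁ : ↥(Cfsg.isometryGroup F ⇑Q₁)) : (∃ g : ↥(Cfsg.isometryGroup F (fun v : Fin k ⊕ Fin l → F => Q₁ (v ∘ Sum.inl) + Q₂ (v ∘ Sum.inr))), g ∈ Cfsg.Omega F (fun v : Fin k ⊕ Fin l → F => Q₁ (v ∘ Sum.inl) + Q₂ (v ∘ Sum.inr)) ∧ ((g : Matrix.GeneralLinearGroup (Fin k ⊕ Fin l) F) : Matrix (Fin k ⊕ Fin l) (Fin k ⊕ Fin l) F) = Matrix.fromBlocks ((g₁ : Matrix.GeneralLinearGroup (Fin k) F) : Matrix (Fin k) (Fin k) F) 0 0 1) ↔ g₁ ∈ Cfsg.Omega F ⇑Q₁ := by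
  have hB₁ := OrthGen.bNondeg_of_nondegenerate Q₁ h₁
  have hB₂ := OrthGen.bNondeg_of_nondegenerate Q₂ h₂
  let P₁ := LinearMap.funLeft F F (Sum.inl : Fin k → Fin k ⊕ Fin l)
  let P₂ := LinearMap.funLeft F F (Sum.inr : Fin l → Fin k ⊕ Fin l)
  let Q : QuadraticForm F (Fin k ⊕ Fin l → F) := Q₁.comp P₁ + Q₂.comp P₂
  have hf : ⇑Q = fun v : Fin k ⊕ Fin l → F => Q₁ (v ∘ Sum.inl) + Q₂ (v ∘ Sum.inr) := rfl
  rw [← hf]
  have hp : ∀ x y, QuadraticMap.polar Q x y = QuadraticMap.polar Q₁ (x ∘ Sum.inl) (y ∘ Sum.inl)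
      + QuadraticMap.polar Q₂ (x ∘ Sum.inr) (y ∘ Sum.inr) := fun x y => by
    simp only [QuadraticMap.polar, hf, Pi.add_comp]; ring
  have hB : Classical.BNondeg Q := fun x hx => by
    have e1 := hB₁ (x ∘ Sum.inl) fun y => by
      simpa [hp, show (Sum.elim y (0 : Fin l → F)) ∘ Sum.inr = 0 from rfl,
        show (Sum.elim y (0 : Fin l → F)) ∘ Sum.inl = y from rfl] using hx (Sum.elim y 0)
    have e2 := hB₂ (x ∘ Sum.inr) fun y => by
      simpa [hp, show (Sum.elim (0 : Fin k → F) y) ∘ Sum.inl = 0 from rfl,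
        show (Sum.elim (0 : Fin k → F) y) ∘ Sum.inr = y from rfl] using hx (Sum.elim 0 y)
    ext (i | i)
    · exact congrFun e1 i
    · exact congrFun e2 i
  have hx₁ : OrthGen.NotExceptional Q₁ :=
    Forms.notExceptional_of (by rw [Module.finrank_fin_fun]; exact h.imp id And.left)
  have hx : OrthGen.NotExceptional Q := Forms.notExceptional_of (by
    rw [Module.finrank_fintype_fun_eq_card, Fintype.card_sum, Fintype.card_fin, Fintype.card_fin]
    exact h.imp id And.right)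
  obtain ⟨L, hL⟩ := Forms.exists_refls (OrthGen.RQ_eq_top hB₁ hx₁) (OrthGen.matEquiv Q₁ g₁)
  have hQe : ∀ x : Fin k → F, Q (Sum.elim x 0) = Q₁ x := fun x => by
    simp [hf, show (Sum.elim x (0 : Fin l → F)) ∘ Sum.inr = 0 from rfl,
      show (Sum.elim x (0 : Fin l → F)) ∘ Sum.inl = x from rfl]
  let L' : List {x : Fin k ⊕ Fin l → F // Q x ≠ 0} :=
    L.map fun x => ⟨Sum.elim x.1 0, by rw [hQe]; exact x.2⟩
  rw [Forms.exists_mem_Omega_iff Q (k := Forms.refls Q L'), Forms.mem_Omega_iff_matEquiv, hL,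
    Forms.refls_mem_commutator_iff hB hx, Forms.refls_mem_commutator_iff hB₁ hx₁]
  · simp only [L', List.length_map, List.map_map, Function.comp_def, hQe]
  intro v
  have key : ∀ (M : List {x : Fin k → F // Q₁ x ≠ 0}) v,
      (Forms.refls Q (M.map fun x => ⟨Sum.elim x.1 0, by rw [hQe]; exact x.2⟩)).1 v
        = Sum.elim ((Forms.refls Q₁ M).1 (v ∘ Sum.inl)) (v ∘ Sum.inr) := by
    intro M
    induction M with
    | nil => intro v; simp [Sum.elim_comp_inl_inr]
    | cons x M ih =>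
      intro v
      rw [List.map_cons, Forms.refls_cons, Forms.refls_cons, Subgroup.coe_mul, Subgroup.coe_mul,
        LinearEquiv.mul_apply, LinearEquiv.mul_apply, ih, Classical.reflQ_apply, Classical.reflQ_apply]
      simp only [hQe, hp]
      ext (i | i) <;>
        simp [show (Sum.elim x.1 (0 : Fin l → F)) ∘ Sum.inr = 0 from rfl]
  rw [key, ← hL]
  conv_rhs => rw [← Sum.elim_comp_inl_inr v, Matrix.fromBlocks_mulVec]
  simp [OrthGen.matEquiv_apply]

end Cfsg.Agent.S2627
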