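import Cfsg.Statements.S2628
import Cfsg.Agent.Forms.OmegaCrit
-- import your own Cfsg.Agent.* helpers here

set_option autoImplicit false
open Cfsg

namespace Cfsg.Agent.S2628

/-- For the orthogonal direct sum Q ⊕ Q of two copies of a quadratic form Q with non-degenerate polar form on F^k (F finite), every isometry g of Q acting diagonally, diag(g, g), lies in Ω(Q ⊕ Q), the commutator subgroup of the orthogonal group of Q ⊕ Q. (Excluded: k = 2 over the field of two elements, where Q ⊕ Q is the hyperbolic 4-space whose orthogonal group's commutator subgroup is smaller than the group usually called Ω.) -/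
theorem result {F : Type*} [Field F] [Fintype F] {k : ℕ} (h : Fintype.card F ≠ 2 ∨ k ≠ 2) (Q : QuadraticForm F (Fin k → F)) (hQ : (QuadraticMap.polarBilin Q).Nondegenerate) (g : ↥(Cfsg.isometryGroup F ⇑Q)) : ∃ x : ↥(Cfsg.isometryGroup F (fun v : Fin k ⊕ Fin k → F => Q (v ∘ Sum.inl) + Q (v ∘ Sum.inr))), x ∈ Cfsg.Omega F (fun v : Fin k ⊕ Fin k → F => Q (v ∘ Sum.inl) + Q (v ∘ Sum.inr)) ∧ ((x : Matrix.GeneralLinearGroup (Fin k ⊕ Fin k) F) : Matrix (Fin k ⊕ Fin k) (Fin k ⊕ Fin k) F) = Matrix.fromBlocks ((g : Matrix.GeneralLinearGroup (Fin k) F) : Matrix (Fin k) (Fin k) F) 0 0 ((g : Matrix.GeneralLinearGroup (Fin k) F) : Matrix (Fin k) (Fin k) F) := by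
  have hB₁ := OrthGen.bNondeg_of_nondegenerate Q hQ
  let P₁ := LinearMap.funLeft F F (Sum.inl : Fin k → Fin k ⊕ Fin k)
  let P₂ := LinearMap.funLeft F F (Sum.inr : Fin k → Fin k ⊕ Fin k)
  let R : QuadraticForm F (Fin k ⊕ Fin k → F) := Q.comp P₁ + Q.comp P₂
  have hf : ⇑R = fun v : Fin k ⊕ Fin k → F => Q (v ∘ Sum.inl) + Q (v ∘ Sum.inr) := rfl
  rw [← hf]
  have hp : ∀ x y, QuadraticMap.polar R x y = QuadraticMap.polar Q (x ∘ Sum.inl) (y ∘ Sum.inl)
      + QuadraticMap.polar Q (x ∘ Sum.inr) (y ∘ Sum.inr) := fun x y => by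
    simp only [QuadraticMap.polar, hf, Pi.add_comp]; ring
  have hB : Classical.BNondeg R := fun x hx => by
    have e1 := hB₁ (x ∘ Sum.inl) fun y => by
      simpa [hp, show (Sum.elim y (0 : Fin k → F)) ∘ Sum.inr = 0 from rfl,
        show (Sum.elim y (0 : Fin k → F)) ∘ Sum.inl = y from rfl] using hx (Sum.elim y 0)
    have e2 := hB₁ (x ∘ Sum.inr) fun y => by
      simpa [hp, show (Sum.elim (0 : Fin k → F) y) ∘ Sum.inl = 0 from rfl,
        show (Sum.elim (0 : Fin k → F) y) ∘ Sum.inr = y from rfl] using hx (Sum.elim 0 y)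
    ext (i | i)
    · exact congrFun e1 i
    · exact congrFun e2 i
  have hx : OrthGen.NotExceptional R := Forms.notExceptional_of (by
    rw [Module.finrank_fintype_fun_eq_card, Fintype.card_sum, Fintype.card_fin]
    omega)
  set g' := OrthGen.matEquiv Q g
  let e := (LinearEquiv.sumArrowLequivProdArrow (Fin k) (Fin k) F F)
  let a : Classical.OQ R := ⟨(e.trans (g'.1.prodCongr (LinearEquiv.refl F _))).trans e.symm, fun v => by
    show Q (g'.1 (v ∘ Sum.inl)) + Q (v ∘ Sum.inr) = Q (v ∘ Sum.inl) + Q (v ∘ Sum.inr)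
    rw [Classical.OQ_map_app]⟩
  let s : Classical.OQ R := ⟨LinearEquiv.funCongrLeft F F (Equiv.sumComm (Fin k) (Fin k)), fun v => by
    show Q (v ∘ Sum.inr) + Q (v ∘ Sum.inl) = Q (v ∘ Sum.inl) + Q (v ∘ Sum.inr)
    rw [add_comm]⟩
  rw [Forms.exists_mem_Omega_iff R (k := a * (s * a * s⁻¹))]
  · exact Forms.mul_conj_mem_commutator s (Forms.mul_self_mem_commutator hB hx a)
  · intro v
    conv_rhs => rw [← Sum.elim_comp_inl_inr v, Matrix.fromBlocks_mulVec]
    ext (i | i)
    · simp [a, s, e, g', LinearEquiv.sumArrowLequivProdArrow, Equiv.sumArrowEquivProdArrow, OrthGen.matEquiv_apply, Function.comp_def]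
    · simp [a, s, e, g', LinearEquiv.sumArrowLequivProdArrow, Equiv.sumArrowEquivProdArrow, OrthGen.matEquiv_apply, Function.comp_def]

end Cfsg.Agent.S2628
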