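import Cfsg.Statements.S2629
import Cfsg.Agent.Forms.OmegaPlus
-- import your own Cfsg.Agent.* helpers here

set_option autoImplicit false
open Cfsg

namespace Cfsg.Agent.S2629

/-- For the hyperbolic form Σ x_i y_i on F^(2m) over a finite field of odd order (m ≥ 1), an isometry g preserves the class of the maximal totally singular subspace U₀ = {y = 0} (that is, m − dim(U₀ ∩ gU₀) is even) if and only if det g = 1: the stabiliser of each of the two classes of maximal totally singular subspaces is SO. -/
theorem result {F : Type*} [Field F] [Fintype F] (h2 : (2 : F) ≠ 0) {m : ℕ} (hm : 1 ≤ m) (g : ↥(Cfsg.isometryGroup F (Cfsg.quadFormPlus m F))) : Even (m - Module.finrank F ↥(LinearMap.ker (LinearMap.funLeft F F (Sum.inr : Fin m → Fin m ⊕ Fin m)) ⊓ (LinearMap.ker (LinearMap.funLeft F F (Sum.inr : Fin m → Fin m ⊕ Fin m))).map (Matrix.mulVecLin ((g : Matrix.GeneralLinearGroup (Fin m ⊕ Fin m) F) : Matrix (Fin m ⊕ Fin m) (Fin m ⊕ Fin m) F)))) ↔ ((g : Matrix.GeneralLinearGroup (Fin m ⊕ Fin m) F) : Matrix (Fin m ⊕ Fin m)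 (Fin m ⊕ Fin m) F).det = 1 := by
  have hx : Fintype.card F ≠ 2 ∨ m ≠ 2 := Or.inl fun hc => h2 (by
    have := FiniteField.cast_card_eq_zero F
    rw [hc] at this; exact_mod_cast this)
  have hf : ⇑(Classical.plusQF m F) = Cfsg.quadFormPlus m F := funext (Classical.plusQF_apply _)
  revert g
  rw [← hf]
  intro g
  rw [Forms.even_sub_iff_dickson hx g, OrthGen.det_eq_dickson _ Forms.bNondeg_plusQF
    (Forms.notExceptional_plusQF hx)]
  rcases Int.units_eq_one_or (Classical.dickson (OrthGen.matEquiv (Classical.plusQF m F) g)) with e | e <;>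
    rw [e]
  · simp
  · refine iff_of_false (by decide) fun h' => h2 ?_
    simp only [Units.val_neg, Units.val_one, Int.cast_neg, Int.cast_one] at h'
    linear_combination -h'

end Cfsg.Agent.S2629
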