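import Cfsg.Statements.S2634
import Cfsg.Agent.Forms.OmegaCrit
-- import your own Cfsg.Agent.* helpers here

set_option autoImplicit false
open Cfsg

namespace Cfsg.Agent.S2634

/-- Over a finite field of characteristic two, Ω (the commutator subgroup of the orthogonal group of a quadratic form Q on F^n with non-degenerate polar form; excluding dimension 4 over the field of two elements) acts transitively on the non-singular 1-spaces: for u, v with Q(u) ≠ 0 and Q(v) ≠ 0 some element of Ω carries the line through u to the line through v. -/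
theorem result {F : Type*} [Field F] [Fintype F] [CharP F 2] {n : ℕ} (h : Fintype.card F ≠ 2 ∨ n ≠ 4) (Q : QuadraticForm F (Fin n → F)) (hQ : (QuadraticMap.polarBilin Q).Nondegenerate) (u v : Fin n → F) (hu : Q u ≠ 0) (hv : Q v ≠ 0) : ∃ g : ↥(Cfsg.isometryGroup F ⇑Q), g ∈ Cfsg.Omega F ⇑Q ∧ (F ∙ ((g : Matrix.GeneralLinearGroup (Fin n) F) : Matrix (Fin n) (Fin n) F).mulVec u) = F ∙ v := by
  have hB := OrthGen.bNondeg_of_nondegenerate Q hQ
  have hx : OrthGen.NotExceptional Q := Forms.notExceptional_of (by rwa [Module.finrank_fin_fun])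
  obtain ⟨s, hs⟩ := FiniteField.isSquare_of_char_two (F := F) (by rw [ringChar.eq_iff]; infer_instance) (Q u / Q v)
  have hs0 : s ≠ 0 := by rintro rfl; rw [mul_zero] at hs; exact div_ne_zero hu hv hs
  set w := s • v with hw
  have hQw : Q w = Q u := by
    rw [hw, QuadraticMap.map_smul, smul_eq_mul, ← hs, div_mul_cancel₀ _ hv]
  have hu0 : u ≠ 0 := fun h => hu (by rw [h, map_zero])
  have hw0 : w ≠ 0 := fun h => hu (by rw [← hQw, h, map_zero])
  let φ := (LinearEquiv.toSpanNonzeroSingleton F (Fin n → F) u hu0).symm.trans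
    (LinearEquiv.toSpanNonzeroSingleton F (Fin n → F) w hw0)
  obtain ⟨g, hg, hgφ⟩ := Forms.witt_extension_quad_nondeg hQ _ _ φ fun x => by
    obtain ⟨c, rfl⟩ := (LinearEquiv.toSpanNonzeroSingleton F (Fin n → F) u hu0).surjective x
    simp only [φ, LinearEquiv.trans_apply, LinearEquiv.symm_apply_apply]
    simp [LinearEquiv.toSpanNonzeroSingleton_apply, QuadraticMap.map_smul, hQw]
  have hgu : g u = w := by
    have := hgφ (LinearEquiv.toSpanNonzeroSingleton F (Fin n → F) u hu0 1)
    simp only [φ, LinearEquiv.trans_apply, LinearEquiv.symm_apply_apply] at this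
    simpa [LinearEquiv.toSpanNonzeroSingleton_apply] using this
  let K : Subgroup (Classical.OQ Q) :=
    { carrier := {k | k.1 w = w}
      one_mem' := rfl
      mul_mem' := fun {a b} (ha : a.1 w = w) (hb : b.1 w = w) => show (a * b).1 w = w by
        rw [Subgroup.coe_mul, LinearEquiv.mul_apply, hb, ha]
      inv_mem' := fun {a} (ha : a.1 w = w) => show (a⁻¹).1 w = w by
        conv_lhs => rw [← ha, ← LinearEquiv.mul_apply, ← Subgroup.coe_mul, inv_mul_cancel]
        rfl }
  have h2' : (2 : F) = 0 := CharTwo.two_eq_zero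
  obtain ⟨k, hk, hkg⟩ := Forms.exists_mul_mem_commutator hB hx K ⟨g, hg⟩
    (Or.inr ⟨Classical.reflQ Q w (hQw ▸ hu), OrthGen.reflQ_fix Q _
      (by rw [OrthGen.polar_self_two, h2', zero_mul]), Classical.dickson_refl hB _⟩)
    (fun h => absurd h2' h)
  refine ⟨(OrthGen.matEquiv Q).symm (k * ⟨g, hg⟩),
    (Forms.mem_Omega_iff_matEquiv Q _).2 (by simpa using hkg), ?_⟩
  rw [Forms.matEquiv_symm_mulVec, Subgroup.coe_mul, LinearEquiv.mul_apply]
  show F ∙ k.1 (g u) = F ∙ v
  rw [hgu, hk, hw]
  exact Submodule.span_singleton_smul_eq hs0.isUnit v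

end Cfsg.Agent.S2634
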