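import Cfsg.Statements.S2635
import Cfsg.Agent.Forms.OmegaCrit
-- import your own Cfsg.Agent.* helpers here

set_option autoImplicit false
open Cfsg

namespace Cfsg.Agent.S2635

/-- Over a finite field of characteristic two, for a quadratic form Q on F^n with non-degenerate polar form, n ≥ 2, other than dimension 4 over the field of two elements, Ω (the commutator subgroup of the orthogonal group) is exactly the subgroup generated by the products of two reflections (orthogonal transvections) x ↦ x − Q(v)⁻¹ f(x, v) v, Q(v) ≠ 0: the products of an even number of reflections. -/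
theorem result {F : Type*} [Field F] [Fintype F] [CharP F 2] {n : ℕ} (hn : 2 ≤ n) (h : Fintype.card F ≠ 2 ∨ n ≠ 4) (Q : QuadraticForm F (Fin n → F)) (hQ : (QuadraticMap.polarBilin Q).Nondegenerate) : Cfsg.Omega F ⇑Q = Subgroup.closure {g : ↥(Cfsg.isometryGroup F ⇑Q) | ∃ u v : Fin n → F, Q u ≠ 0 ∧ Q v ≠ 0 ∧ ((g : Matrix.GeneralLinearGroup (Fin n) F) : Matrix (Fin n) (Fin n) F) = Cfsg.reflectionMatrix ⇑Q u * Cfsg.reflectionMatrix ⇑Q v} := by
  have hB := OrthGen.bNondeg_of_nondegenerate Q hQ
  have hx : OrthGen.NotExceptional Q := Forms.notExceptional_of (by rwa [Module.finrank_fin_fun])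
  apply le_antisymm
  · intro g hg
    rw [Forms.mem_Omega_iff_matEquiv] at hg
    obtain ⟨l, hl⟩ := Forms.exists_refls (OrthGen.RQ_eq_top hB hx) (OrthGen.matEquiv Q g)
    rw [hl, Forms.refls_mem_commutator_iff hB hx] at hg
    obtain ⟨⟨r, hr⟩, -⟩ := hg
    rw [← (OrthGen.matEquiv Q).symm_apply_apply g, hl]
    clear hl g hn h
    induction r generalizing l with
    | zero =>
      rw [List.eq_nil_of_length_eq_zero (l := l) (by simpa using hr), Forms.refls_nil, map_one]
      exact one_mem _
    | succ r ih =>
      match l, hr with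
      | [], hr => simp at hr
      | [_], hr => simp at hr; omega
      | a :: b :: l, hr =>
        rw [Forms.refls_cons, Forms.refls_cons, ← mul_assoc, map_mul]
        refine mul_mem (Subgroup.subset_closure ⟨a.1, b.1, a.2, b.2, ?_⟩) (ih l (by simp at hr; omega))
        rw [← OrthGen.matEquiv_reflectionIso Q a.1 a.2, ← OrthGen.matEquiv_reflectionIso Q b.1 b.2,
          ← map_mul, MulEquiv.symm_apply_apply, Subgroup.coe_mul, Units.val_mul,
          Refl.coe_reflectionIso, Refl.coe_reflectionIso]
  · refine (Subgroup.closure_le _).2 ?_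
    rintro g ⟨u, v, hu, hv, hguv⟩
    rw [SetLike.mem_coe, Forms.mem_Omega_iff_matEquiv]
    have hk : OrthGen.matEquiv Q g = Forms.refls Q [⟨u, hu⟩, ⟨v, hv⟩] := by
      refine Subtype.ext (LinearEquiv.ext fun w => ?_)
      rw [OrthGen.matEquiv_apply, hguv, ← Forms.prod_reflectionMatrix_mulVec]
      simp
    rw [hk, Forms.refls_mem_commutator_iff hB hx]
    exact ⟨⟨1, rfl⟩, FiniteField.isSquare_of_char_two (by rw [ringChar.eq_iff]; infer_instance) _⟩

end Cfsg.Agent.S2635
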