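import Cfsg.Statements.S2636
import Cfsg.Agent.AutPSL.FieldCard

set_option autoImplicit false
open Cfsg

namespace Cfsg.Agent.S2636

/-- Centraliser of a field automorphism in PGL_n: let F be the field with q = q₀^r elements, σ a field automorphism of F of prime order r (so its fixed field has q₀ elements) and n ≥ 1. The invertible matrices g whose entrywise image under σ is a scalar multiple of g — those whose coset modulo scalars is fixed by σ — number (q − 1)/(q₀ − 1) · |GL_n(q₀)|; equivalently the centraliser in PGL_n(q) of the induced automorphism has the order of PGL_n(q₀). -/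
theorem result {F : Type*} [Field F] [Fintype F] {q₀ r n : ℕ} (hr : r.Prime) (hn : 1 ≤ n) (hF : Fintype.card F = q₀ ^ r) (σ : F ≃+* F) (hσ : orderOf σ = r) : Nat.card {g : GL (Fin n) F // ∃ c : F, c ≠ 0 ∧ (g : Matrix (Fin n) (Fin n) F).map σ = c • (g : Matrix (Fin n) (Fin n) F)} = (q₀ ^ r - 1) / (q₀ - 1) * ∏ i : Fin n, (q₀ ^ n - q₀ ^ (i : ℕ)) := by
  classical
  haveI : Nonempty (Fin n) := ⟨⟨0, hn⟩⟩
  set F₀ := ↥(AutPSL.fixedField σ) with hF₀def
  haveI : Fintype F₀ := Fintype.ofFinite _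
  have hq : Nat.card F₀ = q₀ := by
    have h := AutPSL.card_fixedField_pow σ
    rw [hσ, Nat.card_eq_fintype_card, hF] at h
    exact (Nat.pow_left_injective hr.ne_zero h).symm
  have hcard0 : Nat.card (GL (Fin n) F₀) = ∏ i : Fin n, (q₀ ^ n - q₀ ^ (i : ℕ)) := by
    rw [Matrix.card_GL_field, ← Nat.card_eq_fintype_card, hq]
  let S := {g : GL (Fin n) F //
    ∃ c : F, c ≠ 0 ∧ (g : Matrix (Fin n) (Fin n) F).map σ = c • (g : Matrix (Fin n) (Fin n) F)}
  let ι : GL (Fin n) F₀ →* GL (Fin n) F := Matrix.GeneralLinearGroup.map (AutPSL.fixedField σ).subtype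
  have hι : ∀ h i j, σ ((ι h : Matrix (Fin n) (Fin n) F) i j) = (ι h : Matrix (Fin n) (Fin n) F) i j :=
    fun h i j => ((h : Matrix (Fin n) (Fin n) F₀) i j).2
  let Ψ : Fˣ × GL (Fin n) F₀ →* GL (Fin n) F :=
    MonoidHom.mk' (fun p => Matrix.GeneralLinearGroup.scalar (Fin n) p.1 * ι p.2) fun a b => by
      simp only [Prod.fst_mul, Prod.snd_mul, map_mul]
      have hc : Matrix.GeneralLinearGroup.scalar (Fin n) b.1 ∈ Subgroup.center (GL (Fin n) F) := by
        rw [Matrix.GeneralLinearGroup.center_eq_range_scalar]; exact ⟨_, rfl⟩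
      rw [mul_assoc, ← mul_assoc _ (ι a.2), ← Subgroup.mem_center_iff.1 hc (ι a.2)]
      simp only [mul_assoc]
  have hΨ : ∀ (μ : Fˣ) h i j, (Ψ (μ, h) : Matrix (Fin n) (Fin n) F) i j =
      (μ : F) * (ι h : Matrix (Fin n) (Fin n) F) i j := by
    intro μ h i j
    show ((Matrix.GeneralLinearGroup.scalar (Fin n) μ * ι h : GL (Fin n) F) : Matrix (Fin n) (Fin n) F) i j = _
    simp [Units.val_mul]
  have hrange : ∀ g : GL (Fin n) F, g ∈ Ψ.range ↔
      ∃ c : F, c ≠ 0 ∧ (g : Matrix (Fin n) (Fin n) F).map σ = c • (g : Matrix (Fin n) (Fin n) F) := by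
    intro g
    constructor
    · rintro ⟨⟨μ, h⟩, rfl⟩
      refine ⟨σ (μ : F) / μ, div_ne_zero (fun e => μ.ne_zero ((map_eq_zero σ).1 e)) μ.ne_zero, ?_⟩
      ext i j
      rw [Matrix.map_apply, Matrix.smul_apply, hΨ, map_mul, hι, smul_eq_mul]
      field_simp
    · rintro ⟨c, hc, hg⟩
      obtain ⟨i, j, hij⟩ : ∃ i j, (g : Matrix (Fin n) (Fin n) F) i j ≠ 0 := by
        by_contra h0
        push Not at h0
        apply Units.ne_zero (Matrix.GeneralLinearGroup.det g)
        rw [Matrix.GeneralLinearGroup.val_det_apply,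
          show (g : Matrix (Fin n) (Fin n) F) = 0 from Matrix.ext h0]
        exact Matrix.det_zero
      have hent : ∀ a b, σ ((g : Matrix (Fin n) (Fin n) F) a b) = c * (g : Matrix (Fin n) (Fin n) F) a b :=
        fun a b => congrFun (congrFun hg a) b
      set m := (g : Matrix (Fin n) (Fin n) F) i j with hm
      let M : Matrix (Fin n) (Fin n) F₀ := Matrix.of fun a b =>
        ⟨m⁻¹ * (g : Matrix (Fin n) (Fin n) F) a b, by
          show σ _ = _
          rw [map_mul, map_inv₀, hent, hent, mul_inv]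
          field_simp
          rw [hm, mul_div_assoc, div_self hij, mul_one]⟩
      have hM : (M.map (AutPSL.fixedField σ).subtype) = m⁻¹ • (g : Matrix (Fin n) (Fin n) F) := rfl
      have hdet : M.det ≠ 0 := fun h0 => by
        have h1 : (AutPSL.fixedField σ).subtype M.det = (m⁻¹ • (g : Matrix (Fin n) (Fin n) F)).det := by
          rw [← hM, RingHom.map_det]; rfl
        rw [h0, map_zero, Matrix.det_smul] at h1
        exact mul_ne_zero (pow_ne_zero _ (inv_ne_zero hij))
          (Units.ne_zero (Matrix.GeneralLinearGroup.det g)) h1.symm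
      refine ⟨(Units.mk0 m hij, Matrix.GeneralLinearGroup.mkOfDetNeZero M hdet), Units.ext (Matrix.ext fun a b => ?_)⟩
      rw [hΨ]
      show m * (m⁻¹ * _) = _
      rw [← mul_assoc, mul_inv_cancel₀ hij, one_mul]
  have hS : Nat.card S = Nat.card ↥Ψ.range :=
    Nat.card_congr (Equiv.subtypeEquivRight fun g => (hrange g).symm)
  have hker : Nat.card ↥Ψ.ker = q₀ - 1 := by
    rw [← hq, ← Nat.card_units]
    refine (Nat.card_congr (Equiv.ofBijective (fun u : F₀ˣ =>
      (⟨(Units.map (AutPSL.fixedField σ).subtype.toMonoidHom u⁻¹,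
        Matrix.GeneralLinearGroup.scalar (Fin n) u), ?_⟩ : ↥Ψ.ker)) ⟨?_, ?_⟩)).symm
    · rw [MonoidHom.mem_ker]
      refine Units.ext (Matrix.ext fun a b => ?_)
      rw [hΨ]
      have hu : ((u : F₀) : F) ≠ 0 := fun e => u.ne_zero (Subtype.ext e)
      rcases eq_or_ne a b with rfl | hab
      · simp [ι, Subfield.subtype, inv_mul_cancel₀ hu]
      · simp [ι, hab]
    · intro u v e
      have e2 := congrArg (fun x : ↥Ψ.ker => (x.1.2 : Matrix (Fin n) (Fin n) F₀) ⟨0, hn⟩ ⟨0, hn⟩) e
      simpa [Units.ext_iff] using e2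
    · rintro ⟨⟨μ, h⟩, hk⟩
      rw [MonoidHom.mem_ker] at hk
      have hent : ∀ a b, (μ : F) * (ι h : Matrix (Fin n) (Fin n) F) a b = if a = b then 1 else 0 := by
        intro a b
        rw [← hΨ, hk]
        simp [Matrix.one_apply]
      set u₀ : F₀ := (h : Matrix (Fin n) (Fin n) F₀) ⟨0, hn⟩ ⟨0, hn⟩ with hu₀
      have h0 : (μ : F) * (u₀ : F) = 1 := (hent ⟨0, hn⟩ ⟨0, hn⟩).trans (if_pos rfl)
      have hu0 : u₀ ≠ 0 := fun e => by
        rw [e] at h0
        simp at h0
      refine ⟨Units.mk0 u₀ hu0, Subtype.ext (Prod.ext (Units.ext ?_) (Units.ext (Matrix.ext fun a b => ?_)))⟩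
      · show ((((Units.mk0 u₀ hu0)⁻¹ : F₀ˣ) : F₀) : F) = (μ : F)
        rw [Units.val_inv_eq_inv_val, Units.val_mk0]
        push_cast
        exact inv_eq_of_mul_eq_one_left h0
      · apply Subtype.ext
        have h1 := hent a b
        refine mul_left_cancel₀ μ.ne_zero ?_
        show _ = (μ : F) * (((h : Matrix (Fin n) (Fin n) F₀) a b : F₀) : F)
        rw [show (μ : F) * (((h : Matrix (Fin n) (Fin n) F₀) a b : F₀) : F) = _ from h1]
        rcases eq_or_ne a b with rfl | hab
        · simpa using h0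
        · simp [hab]
  have key : Nat.card ↥Ψ.ker * Nat.card ↥Ψ.range = Nat.card (Fˣ × GL (Fin n) F₀) := by
    rw [← Subgroup.index_ker, Subgroup.card_mul_index]
  rw [hker, ← hS, Nat.card_prod, Nat.card_units, Nat.card_eq_fintype_card (α := F), hF, hcard0] at key
  show Nat.card S = _
  have hq1 : 1 < q₀ := by rw [← hq]; exact Finite.one_lt_card
  obtain ⟨k, hk⟩ : q₀ - 1 ∣ q₀ ^ r - 1 := by simpa using Nat.sub_dvd_pow_sub_pow q₀ 1 r
  rw [hk, Nat.mul_div_cancel_left _ (by omega)]
  rw [hk, mul_assoc] at key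
  exact Nat.eq_of_mul_eq_mul_left (by omega) key

end Cfsg.Agent.S2636
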