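import Cfsg.Statements.S2637
import Cfsg.Agent.Forms.Restrict
import Cfsg.Agent.ClassConj.MatrixConj
import Cfsg.Agent.ClassConj.KerDecomp
import Cfsg.Agent.ClassConj.Unitary
import Cfsg.Agent.Classical.UGroup

set_option autoImplicit false
set_option maxHeartbeats 1600000
open Cfsg
open scoped Matrix

namespace Cfsg.Agent.S2637

/-- Centraliser of a fixed-point-free element of order three in Sp_2m(q) when q ≡ 2 (mod 3): if x ∈ Sp_2m(F) (|F| = q, m ≥ 1) satisfies x³ = 1 and x − 1 is invertible, then its centraliser in Sp_2m(F) has the order of the unitary group GU_m(q), namely q^(m(m−1)/2) Π_(i=1)^m (q^i − (−1)^i) (x lies in the centre of a subgroup GU_m(q) of Sp_2m(q)). -/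
theorem result {F : Type*} [Field F] [Fintype F] {q : ℕ} (hF : Fintype.card F = q) (hq : q % 3 = 2) {m : ℕ} (hm : 1 ≤ m) (x : Matrix.symplecticGroup (Fin m) F) (hx3 : x ^ 3 = 1) (hfpf : IsUnit ((x : Matrix (Fin m ⊕ Fin m) (Fin m ⊕ Fin m) F) - 1)) : (Nat.card ↥(Subgroup.centralizer ({x} : Set ↥(Matrix.symplecticGroup (Fin m) F))) : ℤ) = (q : ℤ) ^ (m * (m - 1) / 2) * ∏ i : Fin m, ((q : ℤ) ^ ((i : ℕ) + 1) - (-1) ^ ((i : ℕ) + 1)) := by
  classical
  obtain ⟨p, hp⟩ := CharP.exists F
  haveI : Fact p.Prime := ⟨CharP.char_is_prime F p⟩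
  have hp3 : p ≠ 3 := by
    rintro rfl
    obtain ⟨k, -, hk⟩ := FiniteField.card F 3
    rw [hF] at hk
    have : 3 ∣ q := hk ▸ dvd_pow_self 3 k.ne_zero
    omega
  -- the extension
  let f : Polynomial F := Polynomial.X ^ 2 + Polynomial.X + Polynomial.C 1
  have hdeg : f.natDegree = 2 := by simp only [f]; compute_degree!
  have hmon : f.Monic := by simp only [f]; monicity!
  have h3F : (3 : F) ≠ 0 := by
    intro h
    have h1 : ((3 : ℕ) : F) = 0 := by exact_mod_cast h
    rw [CharP.cast_eq_zero_iff F p] at h1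
    exact hp3 ((Nat.prime_dvd_prime_iff_eq (Fact.out) Nat.prime_three).1 h1)
  haveI hirr : Fact (Irreducible f) := ⟨by
    rw [hmon.irreducible_iff_roots_eq_zero_of_degree_le_three (by omega) (by omega),
      Multiset.eq_zero_iff_forall_notMem]
    intro a ha
    rw [Polynomial.mem_roots hmon.ne_zero] at ha
    have ha' : a ^ 2 + a + 1 = 0 := by simpa [f] using ha
    have ha3 : a ^ 3 = 1 := by linear_combination (a - 1) * ha'
    have haq : a ^ q = a := by rw [← hF]; exact FiniteField.pow_card a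
    rw [← Nat.mod_add_div q 3, hq, pow_add, pow_mul, ha3, one_pow, mul_one] at haq
    have h1 : a = 1 := by
      have ha0 : a ≠ 0 := fun e => by rw [e] at ha'; simp at ha'
      rw [sq] at haq
      exact (mul_eq_left₀ ha0).1 haq
    exact h3F (by rw [h1] at ha'; linear_combination ha')⟩
  let K := AdjoinRoot f
  let ω : K := AdjoinRoot.root f
  haveI : Module.Finite F K := (AdjoinRoot.powerBasis hmon.ne_zero).finite
  haveI : Finite K := Module.finite_of_finite F
  letI : Fintype K := Fintype.ofFinite K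
  have hK : Fintype.card K = q ^ 2 := by
    rw [Module.card_eq_pow_finrank (K := F) (V := K), hF,
      Agent.ClassConj.finrank_adjoinRoot hmon.ne_zero, hdeg]
  have hω : ω ^ 2 + ω + 1 = 0 := by
    have h := AdjoinRoot.eval₂_root f
    simpa [f] using h
  have hω3 : ω ^ 3 = 1 := by linear_combination (ω - 1) * hω
  have hωn : ω ^ q * ω = 1 := by
    rw [← Nat.mod_add_div q 3, hq, pow_add, pow_mul, hω3, one_pow, mul_one, ← pow_succ, hω3]
  -- the symplectic structure on `K ^ m`
  obtain ⟨t, ht, hx⟩ := Agent.Forms.exists_quadTrace hK hF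
  obtain ⟨ξ, hξ0, hξ⟩ : ∃ ξ : K, ξ ≠ 0 ∧ Agent.Forms.frobQ F K ξ = -ξ := by
    by_cases h : ∃ z : K, z - Agent.Forms.frobQ F K z ≠ 0
    · obtain ⟨z, hz⟩ := h
      exact ⟨z - Agent.Forms.frobQ F K z, hz, by
        rw [map_sub, Agent.Forms.frobQ_frobQ hK hF, neg_sub]⟩
    · simp only [not_exists, not_not] at h
      exact absurd (RingHom.ext fun z => (sub_eq_zero.1 (h z)).symm) (Agent.Forms.frobQ_ne_id hK hF)
  have hAlt : (Agent.Forms.hermBil hF m t ξ).IsAlt := fun u => (algebraMap F K).injective (by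
    rw [map_zero, Agent.Forms.hermBil_apply, ht, mul_pow, Agent.Forms.hermForm_swap hK hF,
      ← Agent.Forms.frobQ_apply hF ξ, hξ]
    ring)
  have hnd : (Agent.Forms.hermBil hF m t ξ).Nondegenerate := by
    refine ⟨fun u hu => Agent.Forms.hermBil_nondeg hK hF m t hx hξ0 hu,
      fun v hv => Agent.Forms.hermBil_nondeg hK hF m t hx hξ0 fun u => ?_⟩
    rw [← LinearMap.IsAlt.neg hAlt u v, hv, neg_zero]
  obtain ⟨e, he⟩ := Agent.Forms.exists_equiv_sympForm hAlt hnd (a := m) (by
    rw [Module.finrank_pi_fintype]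
    simp [Agent.Forms.finrank_eq_two_of_card_sq hK hF, mul_comm])
  have hSp : ∀ g : ↥(Cfsg.GU m K q),
      Agent.Forms.restrictMat e ((g : GL (Fin m) K) : Matrix (Fin m) (Fin m) K) ∈ Matrix.symplecticGroup (Fin m) F :=
    fun g => Agent.Forms.restrictMat_mem_symplectic e fun u v => by
      rw [he, he, Agent.Forms.hermBil_apply, Agent.Forms.hermBil_apply]
      exact congrArg (fun r => t (ξ * r)) (g.2 u v)
  have hFs := Agent.Classical.U.sqField_of_fintype hK
  have hω0 : ω ≠ 0 := fun e => by rw [e, zero_pow (by norm_num)] at hω3; exact zero_ne_one hω3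
  let Ω : GL (Fin m) K := Matrix.GeneralLinearGroup.scalar (Fin m) (Units.mk0 ω hω0)
  have hΩv : (Ω : Matrix (Fin m) (Fin m) K) = ω • 1 := by
    simp [Ω, Matrix.smul_one_eq_diagonal, Matrix.scalar_apply]
  have hΩ : Ω ∈ Cfsg.GU m K q := by
    rw [Agent.ClassConj.mem_GU_iff_cstar hFs, hΩv, Agent.ClassConj.cstar_smul_one, smul_mul_assoc,
      one_mul, smul_smul, show Agent.Forms.sqConj hFs ω * ω = (1 : K) from hωn, one_smul]
  let x₀ : Matrix.symplecticGroup (Fin m) F := ⟨_, hSp ⟨Ω, hΩ⟩⟩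
  have hx₀ : ∀ v, (x₀ : Matrix (Fin m ⊕ Fin m) (Fin m ⊕ Fin m) F) *ᵥ v = e (ω • e.symm v) := fun v => by
    show Agent.Forms.restrictMat e (Ω : Matrix (Fin m) (Fin m) K) *ᵥ v = _
    rw [Agent.Forms.restrictMat_mulVec, hΩv, Matrix.smul_mulVec, Matrix.one_mulVec]
  -- the centraliser of the model element
  have hC : Nat.card ↥(Subgroup.centralizer ({x₀} : Set ↥(Matrix.symplecticGroup (Fin m) F))) =
      Nat.card ↥(Cfsg.GU m K q) := by
    refine (Nat.card_congr (Equiv.ofBijective (fun g : ↥(Cfsg.GU m K q) =>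
      (⟨⟨_, hSp g⟩, ?_⟩ : ↥(Subgroup.centralizer ({x₀} : Set ↥(Matrix.symplecticGroup (Fin m) F))))) ⟨?_, ?_⟩)).symm
    · rw [Subgroup.mem_centralizer_singleton_iff]
      apply Subtype.ext
      show Agent.Forms.restrictMat e _ * Agent.Forms.restrictMat e _ =
        Agent.Forms.restrictMat e _ * Agent.Forms.restrictMat e _
      rw [← map_mul, ← map_mul, hΩv]
      simp
    · intro g g' h
      exact Subtype.ext (Units.ext (Agent.Forms.restrictMat_injective e
        (congrArg (fun y => ((y : ↥(Subgroup.centralizer ({x₀} : Set ↥(Matrix.symplecticGroup (Fin m) F)))) :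
          Matrix.symplecticGroup (Fin m) F).1) h)))
    · rintro ⟨⟨M, hM⟩, hMc⟩
      rw [Subgroup.mem_centralizer_singleton_iff] at hMc
      have hMc' : M * (x₀ : Matrix (Fin m ⊕ Fin m) (Fin m ⊕ Fin m) F) = (x₀ : Matrix (Fin m ⊕ Fin m) (Fin m ⊕ Fin m) F) * M :=
        congrArg Subtype.val hMc
      let L : (Fin m → K) →ₗ[F] (Fin m → K) := e.symm.toLinearMap ∘ₗ M.mulVecLin ∘ₗ e.toLinearMap
      have hL : ∀ v, e (L v) = M *ᵥ e v := fun v => e.apply_symm_apply _
      have hLω : ∀ v, L (ω • v) = ω • L v := by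
        intro v
        apply e.injective
        have h1 := congrArg (fun A => A *ᵥ e v) hMc'
        simp only [← Matrix.mulVec_mulVec, hx₀, LinearEquiv.symm_apply_apply] at h1
        rw [hL, h1]
        rfl
      have hLK : ∀ (a : K) v, L (a • v) = a • L v := by
        intro a
        let A : Subalgebra F K :=
          { carrier := {a | ∀ v, L (a • v) = a • L v}
            mul_mem' := fun {a b} ha hb v => by rw [mul_smul, ha, hb, mul_smul]
            add_mem' := fun {a b} ha hb v => by rw [add_smul, map_add, ha, hb, add_smul]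
            algebraMap_mem' := fun r v => by rw [algebraMap_smul, algebraMap_smul, map_smul] }
        have hA : A = ⊤ := by
          rw [eq_top_iff, ← AdjoinRoot.adjoinRoot_eq_top]
          exact Algebra.adjoin_le (Set.singleton_subset_iff.2 hLω)
        exact (hA ▸ Algebra.mem_top : a ∈ A)
      let L' : (Fin m → K) →ₗ[K] (Fin m → K) :=
        { toFun := L, map_add' := map_add L, map_smul' := fun a v => hLK a v }
      let N := LinearMap.toMatrix' L'
      have hN : ∀ v, N *ᵥ v = L v := fun v => LinearMap.toMatrix'_mulVec L' v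
      have hsymp := Agent.Forms.mem_symplecticGroup_iff_sympForm.1 hM
      have hherm : ∀ u v, Cfsg.hermForm m K q (N *ᵥ u) (N *ᵥ v) = Cfsg.hermForm m K q u v := by
        intro u v
        apply sub_eq_zero.1
        have h0 : ξ * (Cfsg.hermForm m K q (N *ᵥ u) (N *ᵥ v) - Cfsg.hermForm m K q u v) = 0 := by
          refine Agent.Forms.quadTrace_nondeg t hx fun b => ?_
          have h1 : t (ξ * Cfsg.hermForm m K q (L (b • u)) (L v)) =
              t (ξ * Cfsg.hermForm m K q (b • u) v) := by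
            rw [← Agent.Forms.hermBil_apply hF, ← Agent.Forms.hermBil_apply hF, ← he, ← he, hL, hL]
            exact hsymp _ _
          rw [hLK] at h1
          rw [hN, hN, mul_assoc, sub_mul, mul_sub, map_sub, sub_eq_zero]
          have hs : ∀ u v : Fin m → K, Cfsg.hermForm m K q (b • u) v = b * Cfsg.hermForm m K q u v := fun u v => by
            simp only [Cfsg.hermForm, Pi.smul_apply, smul_eq_mul, mul_assoc]
            exact (Finset.mul_sum _ _ _).symm
          rw [hs, hs] at h1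
          rw [mul_comm _ b, mul_comm _ b]
          exact h1
        exact (mul_eq_zero.1 h0).resolve_left hξ0
      have hNu : IsUnit N := by
        rw [← Matrix.mulVec_injective_iff_isUnit]
        intro u v huv
        simp only [hN] at huv
        have h1 := congrArg e huv
        rw [hL, hL] at h1
        have hMu : Function.Injective (fun w => M *ᵥ w) :=
          Matrix.mulVec_injective_iff_isUnit.2
            ((Matrix.isUnit_iff_isUnit_det _).2 (SymplecticGroup.symplectic_det hM))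
        exact e.injective (hMu h1)
      refine ⟨⟨hNu.unit, fun u v => hherm u v⟩, Subtype.ext (Subtype.ext ?_)⟩
      show Agent.Forms.restrictMat e (hNu.unit : Matrix (Fin m) (Fin m) K) = M
      rw [IsUnit.unit_spec]
      refine Matrix.ext_iff_mulVec.2 fun w => ?_
      rw [Agent.Forms.restrictMat_mulVec, hN, hL, LinearEquiv.apply_symm_apply]
  -- both elements are killed by `X² + X + 1`
  have hX : ((x : Matrix (Fin m ⊕ Fin m) (Fin m ⊕ Fin m) F)) ^ 2 + (x : Matrix (Fin m ⊕ Fin m) (Fin m ⊕ Fin m) F) + 1 = 0 := by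
    refine hfpf.mul_right_eq_zero.1 ?_
    have h3 : (x : Matrix (Fin m ⊕ Fin m) (Fin m ⊕ Fin m) F) ^ 3 = 1 := by
      rw [← SubmonoidClass.coe_pow, hx3]; rfl
    rw [← sub_self (1 : Matrix (Fin m ⊕ Fin m) (Fin m ⊕ Fin m) F)]
    conv_rhs => arg 1; rw [← h3]
    noncomm_ring
  have hX₀ : ((x₀ : Matrix (Fin m ⊕ Fin m) (Fin m ⊕ Fin m) F)) ^ 2 + (x₀ : Matrix (Fin m ⊕ Fin m) (Fin m ⊕ Fin m) F) + 1 = 0 := by
    refine Matrix.ext_iff_mulVec.2 fun w => ?_
    rw [Matrix.add_mulVec, Matrix.add_mulVec, sq, ← Matrix.mulVec_mulVec, hx₀, hx₀, LinearEquiv.symm_apply_apply,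
      smul_smul, Matrix.one_mulVec, Matrix.zero_mulVec]
    conv_lhs => arg 2; rw [← e.apply_symm_apply w, ← one_smul K (e.symm w)]
    rw [← map_add, ← map_add, ← add_smul, ← add_smul, ← sq, hω, zero_smul, map_zero]
  have hann : ∀ M : Matrix (Fin m ⊕ Fin m) (Fin m ⊕ Fin m) F, M ^ 2 + M + 1 = 0 →
      Polynomial.aeval (Matrix.toLinAlgEquiv' M) f = 0 := fun M hM => by
    rw [Polynomial.aeval_algHom_apply]
    rw [show Polynomial.aeval M f = M ^ 2 + M + 1 by simp [f], hM, map_zero]
  obtain ⟨g, hg⟩ := Agent.ClassConj.exists_intertwiner_irreducible hirr.out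
    (hann _ hX₀) (hann _ hX) rfl
  have hord : ∀ y : Matrix.symplecticGroup (Fin m) F, y ^ 3 = 1 → (orderOf y).Coprime p := fun y hy =>
    Nat.Coprime.coprime_dvd_left (orderOf_dvd_of_pow_eq_one hy)
      ((Nat.coprime_primes Nat.prime_three Fact.out).2 hp3.symm)
  have hx₀3 : x₀ ^ 3 = 1 := by
    apply Subtype.ext
    rw [SubmonoidClass.coe_pow]
    have := congrArg (fun M => ((x₀ : Matrix (Fin m ⊕ Fin m) (Fin m ⊕ Fin m) F) - 1) * M) hX₀
    simp only [mul_zero] at this
    rw [Submonoid.coe_one, ← sub_eq_zero, ← this]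
    noncomm_ring
  have hconj : IsConj x₀ x := by
    refine Agent.ClassConj.symplectic_isConj_of_isConj p x₀ x (hord x₀ hx₀3) ?_
    have hu : IsUnit (LinearMap.toMatrix' g.toLinearMap) := by
      rw [Matrix.isUnit_iff_isUnit_det, LinearMap.det_toMatrix']
      exact LinearEquiv.isUnit_det' g
    refine ⟨hu.unit, ?_⟩
    rw [SemiconjBy, IsUnit.unit_spec]
    refine Matrix.ext_iff_mulVec.2 fun w => ?_
    rw [← Matrix.mulVec_mulVec, ← Matrix.mulVec_mulVec, LinearMap.toMatrix'_mulVec, LinearMap.toMatrix'_mulVec]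
    exact hg w
  obtain ⟨c, hc⟩ := isConj_iff.1 hconj
  have hCx : Nat.card ↥(Subgroup.centralizer ({x} : Set ↥(Matrix.symplecticGroup (Fin m) F))) =
      Nat.card ↥(Cfsg.GU m K q) := by
    rw [← hC]
    refine Nat.card_congr ((MulAut.conj c⁻¹).toEquiv.subtypeEquiv fun y => ?_)
    show y ∈ Subgroup.centralizer {x} ↔ c⁻¹ * y * c⁻¹⁻¹ ∈ Subgroup.centralizer {x₀}
    rw [Subgroup.mem_centralizer_singleton_iff, Subgroup.mem_centralizer_singleton_iff, ← hc]
    constructor
    · intro h
      calc c⁻¹ * y * c⁻¹⁻¹ * x₀ = c⁻¹ * (y * (c * x₀ * c⁻¹)) * c := by group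
        _ = x₀ * (c⁻¹ * y * c⁻¹⁻¹) := by rw [h]; group
    · intro h
      calc y * (c * x₀ * c⁻¹) = c * (c⁻¹ * y * c⁻¹⁻¹ * x₀) * c⁻¹ := by group
        _ = c * x₀ * c⁻¹ * y := by rw [h]; group
  rw [hCx, Nat.card_congr (Agent.Classical.U.guEquiv m K q).toEquiv, Agent.Classical.U.card_UG hFs]
  push_cast
  rw [Fin.prod_univ_eq_prod_range (fun i => (q : ℤ) ^ (i + 1) - (-1) ^ (i + 1)) m]
  congr 1
  refine Finset.prod_congr rfl fun i _ => ?_
  split_ifs with hi
  · rw [pow_succ (-1 : ℤ), hi.neg_one_pow]; push_cast; ring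
  · have h1 : 1 ≤ q ^ (i + 1) := Nat.one_le_pow _ _ (zero_lt_one.trans hFs.one_lt)
    rw [Nat.cast_sub h1, pow_succ (-1 : ℤ), (Nat.not_even_iff_odd.1 hi).neg_one_pow]; push_cast; ring

end Cfsg.Agent.S2637
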