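import Cfsg.Statements.S2638
import Cfsg.Agent.ClassConj.PrimeOrderClasses
import Cfsg.Agent.ClassConj.PGLInvolutions

set_option autoImplicit false
open Cfsg

namespace Cfsg.Agent.S2638

/-- If an element x of GL_n(q), n ≥ 1, has prime order r and the multiplicative order of q modulo r is n (r is a primitive prime divisor of q^n − 1, so x acts irreducibly), then the centraliser of x in GL_n(q) is cyclic of order q^n − 1 (the multiplicative group of the field with q^n elements, a Singer cycle). -/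
theorem result {F : Type*} [Field F] [Fintype F] {p q : ℕ} [Fact p.Prime] [CharP F p] (hF : Fintype.card F = q) {n r : ℕ} (hn : 1 ≤ n) (hr : r.Prime) (hrp : r ≠ p) (hi : orderOf (q : ZMod r) = n) (x : GL (Fin n) F) (hx : orderOf x = r) : IsCyclic ↥(Subgroup.centralizer ({x} : Set (GL (Fin n) F))) ∧ Nat.card ↥(Subgroup.centralizer ({x} : Set (GL (Fin n) F))) = q ^ n - 1 := by
  classical
  haveI : Fact r.Prime := ⟨hr⟩
  obtain ⟨e, -, hqe⟩ := FiniteField.card F p
  have hrF : (r : F) ≠ 0 := by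
    rw [Ne, CharP.cast_eq_zero_iff F p]
    exact fun h => hrp ((Nat.prime_dvd_prime_iff_eq Fact.out hr).1 h).symm
  have hq : ((Fintype.card F : ℕ) : ZMod r) ≠ 0 := by
    rw [Ne, CharP.cast_eq_zero_iff (ZMod r) r, hqe]
    exact fun h => hrp ((Nat.prime_dvd_prime_iff_eq hr Fact.out).1 (hr.dvd_of_dvd_pow h))
  obtain ⟨s, hX, hirr, hdeg, -, hcop, hprod⟩ := Agent.ClassConj.exists_factors (F := F) hr hrF hq
  rw [hF, hi] at hdeg
  set y := Agent.ClassConj.endOf x
  have hxr : x ^ r = 1 := hx ▸ pow_orderOf_eq_one x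
  have hy : Polynomial.aeval y (∏ f ∈ insert (Polynomial.X - 1 : Polynomial F) s, f) = 0 := by
    rw [hprod, map_sub, map_pow, Polynomial.aeval_X, map_one, sub_eq_zero]
    show (Matrix.toLinAlgEquiv' (x : Matrix (Fin n) (Fin n) F)) ^ r = 1
    rw [← map_pow, ← Units.val_pow_eq_pow_val, hxr, Units.val_one, map_one]
  obtain ⟨f, hfs, v, hv, hv0⟩ : ∃ f ∈ s, ∃ v, Polynomial.aeval y f v = 0 ∧ v ≠ 0 := by
    by_contra h
    push Not at h
    have h0 := Agent.ClassConj.sum_finrank_ker _ id hcop y hy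
    simp only [id_eq] at h0
    rw [Finset.sum_insert hX, Finset.sum_eq_zero (fun f hf => Submodule.finrank_eq_zero.2
      ((Submodule.eq_bot_iff _).2 fun v hv => h f hf v (LinearMap.mem_ker.1 hv))), add_zero] at h0
    have htop : LinearMap.ker (Polynomial.aeval y (Polynomial.X - 1 : Polynomial F)) = ⊤ :=
      Submodule.eq_top_of_finrank_eq h0.symm
    have : x = 1 := by
      refine Units.ext (Matrix.ext_iff_mulVec.2 fun v => ?_)
      have hv : v ∈ LinearMap.ker (Polynomial.aeval y (Polynomial.X - 1 : Polynomial F)) := htop ▸ Submodule.mem_top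
      rw [LinearMap.mem_ker, map_sub, Polynomial.aeval_X, map_one, LinearMap.sub_apply, sub_eq_zero] at hv
      rw [Units.val_one, Matrix.one_mulVec]
      exact hv
    rw [this, orderOf_one] at hx
    exact hr.ne_one hx.symm
  haveI : Fact (Irreducible f) := ⟨hirr f hfs⟩
  haveI : Module.Finite F (AdjoinRoot f) := (AdjoinRoot.powerBasis (hirr f hfs).ne_zero).finite
  haveI : Finite (AdjoinRoot f) := Module.finite_of_finite F
  letI : Fintype (AdjoinRoot f) := Fintype.ofFinite _
  set T := LinearMap.ker (Polynomial.aeval y f)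
  let W := Agent.ClassConj.kerRestrict y f
  let φ : AdjoinRoot f →+* Module.End F T := Ideal.Quotient.lift _ (Polynomial.aeval W).toRingHom fun a ha => by
    obtain ⟨b, rfl⟩ := Ideal.mem_span_singleton.1 ha
    show Polynomial.aeval W (f * b) = 0
    rw [map_mul, Agent.ClassConj.aeval_kerRestrict_self, zero_mul]
  let ev : AdjoinRoot f →ₗ[F] (Fin n → F) :=
    { toFun := fun c => (φ c ⟨v, LinearMap.mem_ker.2 hv⟩ : T)
      map_add' := fun a b => by rw [map_add]; rfl
      map_smul' := fun a b => by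
        rw [Algebra.smul_def, map_mul]
        show ((Polynomial.aeval W (Polynomial.C a) (φ b ⟨v, LinearMap.mem_ker.2 hv⟩) : T) : Fin n → F) = _
        rw [Polynomial.aeval_C, Module.algebraMap_end_apply]
        rfl }
  have hev : ∀ g : Polynomial F, ev (AdjoinRoot.mk f g) = Polynomial.aeval y g v := fun g =>
    Agent.ClassConj.coe_aeval_kerRestrict y f g ⟨v, LinearMap.mem_ker.2 hv⟩
  have hinj : Function.Injective ev := by
    refine (injective_iff_map_eq_zero ev).2 fun c hc => ?_
    by_contra hc0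
    have h0 : φ c ⟨v, LinearMap.mem_ker.2 hv⟩ = 0 := Subtype.ext hc
    have h1 : φ (c⁻¹ * c) ⟨v, LinearMap.mem_ker.2 hv⟩ = 0 := by
      rw [map_mul, Module.End.mul_apply, h0, map_zero]
    rw [inv_mul_cancel₀ hc0, map_one] at h1
    exact hv0 (congrArg Subtype.val h1)
  have hsurj : Function.Surjective ev := by
    refine LinearMap.range_eq_top.1 (Submodule.eq_top_of_finrank_eq ?_)
    rw [LinearMap.finrank_range_of_inj hinj, Agent.ClassConj.finrank_adjoinRoot (hirr f hfs).ne_zero,
      hdeg f hfs, Module.finrank_fin_fun]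
  have hzero : Polynomial.aeval y f = 0 := by
    refine LinearMap.ext fun w => ?_
    obtain ⟨c, rfl⟩ := hsurj w
    exact LinearMap.mem_ker.1 (φ c ⟨v, LinearMap.mem_ker.2 hv⟩).2
  have hzeroM : Polynomial.aeval (x : Matrix (Fin n) (Fin n) F) f = 0 := by
    have h := Polynomial.aeval_algHom_apply
      (Matrix.toLinAlgEquiv' : Matrix (Fin n) (Fin n) F ≃ₐ[F] _).toAlgHom (x : Matrix (Fin n) (Fin n) F) f
    exact (map_eq_zero_iff _ (Matrix.toLinAlgEquiv' : Matrix (Fin n) (Fin n) F ≃ₐ[F] _).injective).1 (h.symm.trans hzero)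
  let ψ : AdjoinRoot f →+* Matrix (Fin n) (Fin n) F :=
    Ideal.Quotient.lift _ (Polynomial.aeval (x : Matrix (Fin n) (Fin n) F)).toRingHom fun a ha => by
      obtain ⟨b, rfl⟩ := Ideal.mem_span_singleton.1 ha
      show Polynomial.aeval (x : Matrix (Fin n) (Fin n) F) (f * b) = 0
      rw [map_mul, hzeroM, zero_mul]
  have hψ : ∀ g w, (ψ (AdjoinRoot.mk f g)).mulVec w = Polynomial.aeval y g w := fun g w => by
    show Matrix.toLinAlgEquiv' (Polynomial.aeval (x : Matrix (Fin n) (Fin n) F) g) w = _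
    exact (LinearMap.congr_fun (Polynomial.aeval_algHom_apply
      (Matrix.toLinAlgEquiv' : Matrix (Fin n) (Fin n) F ≃ₐ[F] _).toAlgHom (x : Matrix (Fin n) (Fin n) F) g) w).symm
  haveI : Nonempty (Fin n) := ⟨⟨0, hn⟩⟩
  have hψX : ψ (AdjoinRoot.mk f Polynomial.X) = (x : Matrix (Fin n) (Fin n) F) :=
    Matrix.ext_iff_mulVec.2 fun w => by rw [hψ, Polynomial.aeval_X]; rfl
  let Θ : (AdjoinRoot f)ˣ →* ↥(Subgroup.centralizer ({x} : Set (GL (Fin n) F))) :=
    (Units.map ψ.toMonoidHom).codRestrict _ fun c => by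
      rw [Subgroup.mem_centralizer_singleton_iff]
      refine Units.ext ?_
      show ψ c * (x : Matrix (Fin n) (Fin n) F) = (x : Matrix (Fin n) (Fin n) F) * ψ c
      rw [← hψX, ← map_mul, ← map_mul, mul_comm]
  have hΘ : Function.Bijective Θ := by
    constructor
    · intro a b h
      exact Units.ext (ψ.injective (congrArg (fun z => ((z.1 : GL (Fin n) F) : Matrix (Fin n) (Fin n) F)) h))
    · rintro ⟨g, hg⟩
      rw [Subgroup.mem_centralizer_singleton_iff] at hg
      have hg' : ∀ w, (g : Matrix (Fin n) (Fin n) F).mulVec (y w) = y ((g : Matrix (Fin n) (Fin n) F).mulVec w) := by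
        intro w
        show (g : Matrix (Fin n) (Fin n) F).mulVec ((x : Matrix (Fin n) (Fin n) F).mulVec w) =
          (x : Matrix (Fin n) (Fin n) F).mulVec ((g : Matrix (Fin n) (Fin n) F).mulVec w)
        rw [Matrix.mulVec_mulVec, Matrix.mulVec_mulVec, ← Units.val_mul, ← Units.val_mul, hg]
      have hgp := Agent.ClassConj.aeval_intertwine (Matrix.toLin' (g : Matrix (Fin n) (Fin n) F)) (y := y) (y' := y) hg'
      obtain ⟨c, hc⟩ := hsurj ((g : Matrix (Fin n) (Fin n) F).mulVec v)
      obtain ⟨c, rfl⟩ := AdjoinRoot.mk_surjective c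
      rw [hev] at hc
      have heq : ψ (AdjoinRoot.mk f c) = (g : Matrix (Fin n) (Fin n) F) := by
        refine Matrix.ext_iff_mulVec.2 fun w => ?_
        obtain ⟨d, rfl⟩ := hsurj w
        obtain ⟨d, rfl⟩ := AdjoinRoot.mk_surjective d
        rw [hψ, hev, ← Module.End.mul_apply, ← map_mul, mul_comm, map_mul, Module.End.mul_apply, hc]
        exact (hgp d v).symm
      have hne : AdjoinRoot.mk f c ≠ 0 := fun h => by
        have : (g : Matrix (Fin n) (Fin n) F) = 0 := by rw [← heq, h, map_zero]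
        exact g.isUnit.ne_zero this
      exact ⟨Units.mk0 _ hne, Subtype.ext (Units.ext heq)⟩
  refine ⟨isCyclic_of_surjective Θ hΘ.2, ?_⟩
  rw [← Nat.card_congr (Equiv.ofBijective Θ hΘ), Nat.card_units, Nat.card_eq_fintype_card,
    Module.card_eq_pow_finrank (K := F), Agent.ClassConj.finrank_adjoinRoot (hirr f hfs).ne_zero, hdeg f hfs, hF]

end Cfsg.Agent.S2638
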