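import Cfsg.Statements.S2640
import Cfsg.Agent.Forms.Restrict
-- import your own Cfsg.Agent.* helpers here

set_option autoImplicit false
open Cfsg

namespace Cfsg.Agent.S2640

/-- For m even, the unitary group GU_m(q) (over the field with q² elements) embeds in the orthogonal group O⁺_2m(q) of the hyperbolic form Σ x_i y_i over the field with q elements (there is an injective homomorphism). -/
theorem result {K F : Type*} [Field K] [Fintype K] [Field F] [Fintype F] {q : ℕ} (hK : Fintype.card K = q ^ 2) (hF : Fintype.card F = q) (m : ℕ) (hm : Even m) : ∃ φ : ↥(Cfsg.GU m K q) →* ↥(Cfsg.isometryGroup F (Cfsg.quadFormPlus m F)), Function.Injective φ := by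
  obtain ⟨i⟩ := Forms.exists_ringHom_of_card_sq hK hF
  let := i.toAlgebra
  obtain ⟨k, rfl⟩ := hm
  obtain ⟨e, he⟩ := Forms.exists_equiv_plus_of_herm (F := F) hK hF k
  refine ⟨((Forms.restrictGL e).comp (Cfsg.GU (k + k) K q).subtype).codRestrict _ fun g => Forms.restrictGL_mem_isometryGroup e fun v => ?_, fun g g' h => ?_⟩
  · apply (algebraMap F K).injective
    rw [he, he]
    exact g.2 v v
  · exact Subtype.ext (Forms.restrictGL_injective e (congrArg Subtype.val h))

end Cfsg.Agent.S2640
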