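import Cfsg.Statements.S2642
import Cfsg.Agent.UClass.Dual
import Cfsg.Agent.ClassConj.JordanType

set_option autoImplicit false
open Cfsg

namespace Cfsg.Agent.S2642

/-- Number of conjugacy classes of elements of order p in the general unitary group GU_n(q), q a power of p: every unipotent Jordan type occurs and the classes correspond to the partitions of n with all parts at most p other than the all-ones partition, exactly as in GL_n; so there are (number of partitions of n with parts ≤ p) − 1 classes. -/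
theorem result {K : Type*} [Field K] [Fintype K] {p q n : ℕ} [Fact p.Prime] [CharP K p] (hK : Fintype.card K = q ^ 2) : Nat.card {C : ConjClasses ↥(Cfsg.GU n K q) // ∃ g : ↥(Cfsg.GU n K q), ConjClasses.mk g = C ∧ orderOf g = p} = (Finset.univ.filter (fun μ : Nat.Partition n => ∀ a ∈ μ.parts, a ≤ p)).card - 1 := by
  classical
  have hF := Agent.Classical.U.sqField_of_fintype hK
  rw [← Agent.ClassConj.card_orderP_classes (F := K) (p := p) (n := n)]
  have hdual : ∀ x : GL (Fin n) K, x ^ p = 1 → IsConj x (Agent.UClass.dualGL hF x) := by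
    intro x hx
    set y := Agent.UClass.dualGL hF x
    have hy : y ^ p = 1 := by rw [← map_pow, hx, map_one]
    have hz : ∀ g : GL (Fin n) K, g ^ p = 1 → ((g : Matrix (Fin n) (Fin n) K) - 1) ^ p = 0 := fun g hg => by
      rw [Agent.ClassConj.sub_one_pow_eq, hg, Units.val_one, sub_self]
    rw [Agent.ClassConj.isConj_GL_iff_layerDim (p := p) x y (hz x hx) (hz y hy)]
    refine Agent.ClassConj.layerDim_eq_of_kdim fun j => ?_
    have hk : ∀ M : Matrix (Fin n) (Fin n) K,
        Agent.ClassConj.kdim (Matrix.toLinAlgEquiv' M) ⊤ j = Agent.UClass.nullity (M ^ j) := fun M => by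
      rw [Agent.ClassConj.kdim, top_inf_eq, ← map_pow]; rfl
    set M := (x : Matrix (Fin n) (Fin n) K) - 1
    set Y := ((y : GL (Fin n) K) : Matrix (Fin n) (Fin n) K)
    have hYc : Y * Agent.ClassConj.cstar hF (x : Matrix (Fin n) (Fin n) K) = 1 :=
      Units.inv_mul (Agent.UClass.cstarU hF x)
    have hcY : Agent.ClassConj.cstar hF (x : Matrix (Fin n) (Fin n) K) * Y = 1 :=
      Units.mul_inv (Agent.UClass.cstarU hF x)
    have hadd : Agent.ClassConj.cstar hF M =
        Agent.ClassConj.cstar hF (x : Matrix (Fin n) (Fin n) K) - 1 := by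
      rw [eq_sub_iff_add_eq, ← Agent.UClass.cstar_one hF, ← Agent.ClassConj.cstar_add, sub_add_cancel]
    have e1 : Y - 1 = -Y * Agent.ClassConj.cstar hF M := by
      rw [hadd, mul_sub, neg_mul, hYc, mul_one]; abel
    have hcomm : Commute (-Y) (Agent.ClassConj.cstar hF M) := by
      rw [hadd]
      refine Commute.sub_right ?_ (Commute.one_right _)
      exact (show Commute Y (Agent.ClassConj.cstar hF (x : Matrix (Fin n) (Fin n) K)) from hYc.trans hcY.symm).neg_left
    rw [hk, hk, e1, hcomm.mul_pow, ← Agent.UClass.cstar_pow hF,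
      Agent.UClass.nullity_unit_mul ((y.isUnit.neg).pow j), Agent.UClass.nullity_cstar]
  let f : {C : ConjClasses ↥(Cfsg.GU n K q) // ∃ g : ↥(Cfsg.GU n K q), ConjClasses.mk g = C ∧ orderOf g = p} →
      {C : ConjClasses (GL (Fin n) K) // ∃ g : GL (Fin n) K, ConjClasses.mk g = C ∧ orderOf g = p} :=
    fun C => ⟨ConjClasses.map (Cfsg.GU n K q).subtype C.1, by
      obtain ⟨g, hg, hgo⟩ := C.2
      refine ⟨g.1, ?_, by rw [Subgroup.orderOf_coe]; exact hgo⟩
      rw [← hg]; rfl⟩
  refine Nat.card_eq_of_bijective f ⟨?_, ?_⟩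
  · rintro ⟨_, g, rfl, _⟩ ⟨_, h, rfl, _⟩ e
    exact Subtype.ext (ConjClasses.mk_eq_mk_iff_isConj.2
      (Agent.ClassConj.GU_isConj_of_isConj hF g h (ConjClasses.mk_eq_mk_iff_isConj.1 (congrArg Subtype.val e))))
  · rintro ⟨C, x, rfl, hx⟩
    obtain ⟨B, hB⟩ := Agent.UClass.exists_unitary_conj_of_dual hF x (hdual x (hx ▸ pow_orderOf_eq_one x))
    refine ⟨⟨ConjClasses.mk B, B, rfl, ?_⟩, Subtype.ext (ConjClasses.mk_eq_mk_iff_isConj.2 hB.symm)⟩
    obtain ⟨c, hc⟩ := isConj_iff.1 hB
    rw [← Subgroup.orderOf_coe, ← hc]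
    exact (MulEquiv.orderOf_eq (MulAut.conj c) x).trans hx

end Cfsg.Agent.S2642
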