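import Cfsg.Statements.S2643
import Cfsg.Agent.UClass.KerClasses
import Cfsg.Agent.UClass.Regular
import Cfsg.Agent.Classical.UGroup

set_option autoImplicit false
open Cfsg

namespace Cfsg.Agent.S2643

/-- Regular unipotent classes of SU_n(q), n ≥ 2: the elements u of the special unitary group (isometries of Σ u_i v_i^q of determinant one over the field with q² elements) with (u − 1)^n = 0 and rank(u − 1) = n − 1 form exactly gcd(n, q + 1) conjugacy classes of SU_n(q). -/
theorem result {K : Type*} [Field K] [Fintype K] {q n : ℕ} (hK : Fintype.card K = q ^ 2) (hn : 2 ≤ n) : Nat.card {C : ConjClasses ↥(Cfsg.SU n K q) // ∃ u : ↥(Cfsg.SU n K q), ConjClasses.mk u = C ∧ (((u : GL (Fin n) K) : Matrix (Fin n) (Fin n) K) - 1) ^ n = 0 ∧ (((u : GL (Fin n) K) : Matrix (Fin n) (Fin n) K) - 1).rank = n - 1} = Nat.gcd n (q + 1) := by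
  classical
  have hF := Agent.Classical.U.sqField_of_fintype hK
  obtain ⟨B, hB0, hBr, hBd⟩ := Agent.UClass.exists_regular_unipotent hF (n := n) (by omega)
  let μ : Subgroup Kˣ := (powMonoidHom (q + 1) : Kˣ →* Kˣ).ker
  have hμ : ∀ u : Kˣ, u ∈ μ ↔ (u : K) ^ (q + 1) = 1 := fun u => by
    rw [MonoidHom.mem_ker, powMonoidHom_apply, Units.ext_iff, Units.val_pow_eq_pow_val, Units.val_one]
  have hμc : Nat.card μ = q + 1 := by
    rw [IsCyclic.card_powMonoidHom_ker, hF.card_units, Nat.gcd_eq_right (Dvd.intro_left _ rfl)]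
  let ι : ↥(Cfsg.SU n K q) →* ↥(Cfsg.GU n K q) :=
    { toFun := fun g => ⟨Matrix.SpecialLinearGroup.toGL g.1, fun u v => g.2 u v⟩
      map_one' := Subtype.ext (by simp)
      map_mul' := fun a b => Subtype.ext (by simp) }
  have hι : Function.Injective ι := fun a b h =>
    Subtype.ext (Matrix.SpecialLinearGroup.toGL_injective (congrArg Subtype.val h))
  let δ : ↥(Cfsg.GU n K q) →* Kˣ := Matrix.GeneralLinearGroup.det.comp (Cfsg.GU n K q).subtype
  have hδv : ∀ g : ↥(Cfsg.GU n K q), (δ g : K) = ((g : GL (Fin n) K) : Matrix (Fin n) (Fin n) K).det := fun g => rfl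
  have hker : ι.range = δ.ker := by
    ext g
    constructor
    · rintro ⟨x, rfl⟩
      rw [MonoidHom.mem_ker]
      exact Units.ext x.1.2
    · intro hg
      rw [MonoidHom.mem_ker, Units.ext_iff, hδv] at hg
      exact ⟨⟨(⟨_, hg⟩ : Matrix.SpecialLinearGroup (Fin n) K), fun u v => g.2 u v⟩,
        Subtype.ext (Units.ext rfl)⟩
  have hrange : δ.range = μ := by
    ext u
    rw [hμ]
    constructor
    · rintro ⟨g, rfl⟩
      have := Agent.Classical.U.det_norm_one hF (Agent.Classical.U.guEquiv n K q g)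
      change ((LinearEquiv.det (Agent.Classical.U.glEquiv n K (g : GL (Fin n) K)) : Kˣ) : K) ^ (q + 1) = 1 at this
      rwa [Agent.Classical.U.det_glEquiv] at this
    · intro hu
      obtain ⟨g, hg⟩ := Agent.Classical.U.exists_det_eq hF (by omega : 1 ≤ n) hu
      refine ⟨(Agent.Classical.U.guEquiv n K q).symm g, Units.ext ?_⟩
      have e : Agent.Classical.U.glEquiv n K ((Agent.Classical.U.guEquiv n K q).symm g : GL (Fin n) K) = g.1 :=
        congrArg Subtype.val ((Agent.Classical.U.guEquiv n K q).apply_symm_apply g)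
      rw [← e, Agent.Classical.U.det_glEquiv] at hg
      exact hg
  let u0 : ↥(Cfsg.SU n K q) := ⟨(⟨_, hBd⟩ : Matrix.SpecialLinearGroup (Fin n) K), fun u v => B.2 u v⟩
  have hu0 : ι u0 = B := Subtype.ext (Units.ext rfl)
  let P : ↥(Cfsg.SU n K q) → Prop := fun u =>
    (((u : GL (Fin n) K) : Matrix (Fin n) (Fin n) K) - 1) ^ n = 0 ∧
      (((u : GL (Fin n) K) : Matrix (Fin n) (Fin n) K) - 1).rank = n - 1
  have hP : ∀ u, P u ↔ IsConj (ι u0) (ι u) := by
    intro u
    rw [hu0]
    constructor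
    · rintro ⟨h0, hr⟩
      refine Agent.ClassConj.GU_isConj_of_isConj hF _ _ ?_
      obtain ⟨g, hg⟩ := Agent.ClassicalElem.isConj_of_regular (Fintype.card_fin n) (by omega) hB0 hBr h0 hr
      refine isConj_iff.2 ⟨g, mul_inv_eq_iff_eq_mul.2 (Units.ext ?_)⟩
      rw [mul_sub, sub_mul, mul_one, one_mul, sub_left_inj] at hg
      exact hg
    · intro h
      obtain ⟨g, hg⟩ := isConj_iff.1 h
      have hg' : ((u : GL (Fin n) K) : Matrix (Fin n) (Fin n) K) - 1 =
          ((g : GL (Fin n) K) : Matrix (Fin n) (Fin n) K) * (((B : GL (Fin n) K) : Matrix (Fin n) (Fin n) K) - 1) *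
            (((g : GL (Fin n) K)⁻¹ : GL (Fin n) K) : Matrix (Fin n) (Fin n) K) := by
        rw [show ((u : GL (Fin n) K) : Matrix (Fin n) (Fin n) K) =
            ((ι u : GL (Fin n) K) : Matrix (Fin n) (Fin n) K) from rfl, ← hg]
        simp only [Subgroup.coe_mul, Subgroup.coe_inv, Units.val_mul]
        rw [mul_sub, mul_one, sub_mul, Units.mul_inv]
      constructor
      · rw [hg', Units.conj_pow, hB0, mul_zero, zero_mul]
      · rw [hg', Matrix.rank_mul_eq_left_of_isUnit_det, Matrix.rank_mul_eq_right_of_isUnit_det, hBr]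
        · exact (Matrix.isUnit_iff_isUnit_det _).mp (g : GL (Fin n) K).isUnit
        · exact (Matrix.isUnit_iff_isUnit_det _).mp ((g : GL (Fin n) K)⁻¹).isUnit
  refine (Agent.UClass.card_classes_ker ι hι δ hker u0 P hP).trans ?_
  have hcent : (Subgroup.centralizer ({ι u0} : Set ↥(Cfsg.GU n K q))).map δ =
      (powMonoidHom n : μ →* μ).range.map μ.subtype := by
    rw [hu0]
    ext u
    constructor
    · rintro ⟨g, hg, rfl⟩
      obtain ⟨c, hc, hd⟩ := Agent.UClass.det_commuting_unitary hF B g (by omega) hB0 hBr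
        (Subgroup.mem_centralizer_singleton_iff.1 hg)
      have hc0 : c ≠ 0 := fun e => by
        rw [e, zero_pow (Nat.succ_ne_zero q)] at hc
        exact zero_ne_one hc
      refine ⟨(⟨Units.mk0 c hc0, (hμ _).2 hc⟩ : μ) ^ n, ⟨_, rfl⟩, Units.ext ?_⟩
      rw [hδv, hd]
      simp
    · rintro ⟨_, ⟨c, rfl⟩, rfl⟩
      have hmem : Matrix.GeneralLinearGroup.scalar (Fin n) c.1 ∈ Cfsg.GU n K q := by
        rw [Agent.ClassConj.mem_GU_iff_cstar hF,
          show ((Matrix.GeneralLinearGroup.scalar (Fin n) c.1 : GL (Fin n) K) : Matrix (Fin n) (Fin n) K) =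
            (c.1 : K) • 1 by simp [Matrix.smul_one_eq_diagonal, Matrix.scalar_apply],
          Agent.ClassConj.cstar_smul_one, smul_mul_assoc, one_mul, smul_smul,
          show Agent.Forms.sqConj hF (c.1 : K) * (c.1 : K) = (1 : K) by
            show (c.1 : K) ^ q * (c.1 : K) = 1
            rw [← pow_succ]; exact (hμ _).1 c.2, one_smul]
      refine ⟨⟨_, hmem⟩, ?_, Units.ext ?_⟩
      · rw [SetLike.mem_coe, Subgroup.mem_centralizer_singleton_iff]
        refine Subtype.ext ?_
        show Matrix.GeneralLinearGroup.scalar (Fin n) c.1 * (B : GL (Fin n) K) = (B : GL (Fin n) K) * _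
        have hc : Matrix.GeneralLinearGroup.scalar (Fin n) c.1 ∈ Subgroup.center (GL (Fin n) K) := by
          rw [Matrix.GeneralLinearGroup.center_eq_range_scalar]; exact ⟨_, rfl⟩
        exact (Subgroup.mem_center_iff.1 hc _).symm
      · rw [hδv]
        simp [Matrix.scalar_apply]
  rw [hcent, hrange, Subgroup.relIndex, Subgroup.subgroupOf,
    Subgroup.comap_map_eq_self_of_injective μ.subtype_injective, IsCyclic.index_powMonoidHom_range, hμc,
    Nat.gcd_comm]

end Cfsg.Agent.S2643
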