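import Cfsg.Statements.S2653
import Mathlib
import Cfsg.Agent.H73.AltDim.Main
-- import your own Cfsg.Agent.* helpers here

set_option autoImplicit false
open scoped MatrixGroups
open Cfsg

namespace Cfsg.Agent.S2653

/-- Alternating sections of finite linear groups. Let `F` be a finite field of characteristic `p` and `n` a natural number, and suppose some subgroup `H` of GL_n(F) has a normal subgroup `K` with `H ⧸ K` isomorphic to the alternating group of degree `r ≥ 9`. Then `n ≥ r - 2` when `p` divides `r`, and `n ≥ r - 1` otherwise (the smallest degree of a nontrivial projective representation of that alternating group in characteristic `p`). The same bound follows for every classical group with natural module of dimension `n` over `F`, since each is a section of a subgroup of GL_n(F). -/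
theorem result {F : Type*} [Field F] [Fintype F] (p : ℕ) [Fact p.Prime] [CharP F p]
    (n : ℕ) (r : ℕ) (H : Subgroup (GL (Fin n) F)) (K : Subgroup ↥H) [K.Normal]
    (h : Nonempty (↥H ⧸ K ≃* ↥(alternatingGroup (Fin r)))) (hr : 9 ≤ r) :
    r - 1 - (if p ∣ r then 1 else 0) ≤ n := by
  classical
  letI := ZMod.algebra F p
  haveI : Algebra.IsAlgebraic (ZMod p) F := Algebra.IsAlgebraic.of_finite (ZMod p) F
  let ι : F →+* AlgebraicClosure (ZMod p) := (IsAlgClosed.lift : F →ₐ[ZMod p] AlgebraicClosure (ZMod p)).toRingHom
  haveI : CharP (AlgebraicClosure (ZMod p)) p :=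
    charP_of_injective_algebraMap (algebraMap (ZMod p) (AlgebraicClosure (ZMod p))).injective p
  let g : ↥H →* GL (Fin n) (AlgebraicClosure (ZMod p)) :=
    (Matrix.GeneralLinearGroup.map ι).comp H.subtype
  have hg : Function.Injective g := by
    intro x y hxy
    exact Subtype.ext (Units.ext (Matrix.map_injective ι.injective (congrArg Units.val hxy)))
  haveI : Finite g.range := Finite.of_surjective g.rangeRestrict g.rangeRestrict_surjective
  obtain ⟨e⟩ := h
  let i : ↥H ≃* g.range := MonoidHom.ofInjective hg
  let φ : g.range →* ↥(alternatingGroup (Fin r)) :=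
    e.toMonoidHom.comp ((QuotientGroup.mk' K).comp i.symm.toMonoidHom)
  let ρ : g.range →* Module.End (AlgebraicClosure (ZMod p)) (Fin n → AlgebraicClosure (ZMod p)) :=
    (Matrix.toLinAlgEquiv' (R := AlgebraicClosure (ZMod p)) (n := Fin n)).toMonoidHom.comp
      ((Units.coeHom _).comp g.range.subtype)
  have hsurj : Function.Surjective φ :=
    e.surjective.comp ((QuotientGroup.mk'_surjective K).comp i.symm.surjective)
  have hker : ρ.ker ≤ φ.ker := by
    intro x hx
    have hx1 : x = 1 := by
      rw [MonoidHom.mem_ker] at hx
      exact Subtype.ext (Units.ext ((Matrix.toLinAlgEquiv' (R := AlgebraicClosure (ZMod p)) (n := Fin n)).injective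
        (hx.trans (map_one _).symm)))
    rw [hx1]
    exact one_mem _
  obtain ⟨h1, h2⟩ := H73.AltDim.claim_all hr n (AlgebraicClosure (ZMod p))
    (Fin n → AlgebraicClosure (ZMod p)) g.range ρ φ (Module.finrank_fin_fun _) hsurj hker
  by_cases hpr : p ∣ r
  · rw [if_pos hpr]; omega
  · rw [if_neg hpr, Nat.sub_zero]
    exact h2 (mt (CharP.cast_eq_zero_iff (AlgebraicClosure (ZMod p)) p r).1 hpr)

end Cfsg.Agent.S2653
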