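import Cfsg.Statements.S2665

set_option autoImplicit false
open scoped MatrixGroups
open Cfsg

namespace Cfsg.Agent.S2665

open Polynomial in
/-- An additive polynomial equation `P(t) = t` with `X ^ q ∣ P ≠ 0` has a non-zero root. -/
theorem exists_root_ne_zero {K : Type*} [Field K] [IsAlgClosed K] {q : ℕ} (hq : 2 ≤ q) {P : K[X]}
    (hP : X ^ q ∣ P) (hP0 : P ≠ 0) : ∃ t : K, t ≠ 0 ∧ P.eval t = t := by
  obtain ⟨R, rfl⟩ := hP
  have hR : R ≠ 0 := right_ne_zero_of_mul hP0
  set T : K[X] := X ^ (q - 1) * R - 1 with hT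
  have hdeg : 0 < T.degree := by
    rw [hT, degree_sub_eq_left_of_degree_lt] <;> rw [degree_mul, degree_X_pow, degree_eq_natDegree hR]
    · exact_mod_cast (by omega : 0 < q - 1 + R.natDegree)
    · rw [degree_one]
      exact_mod_cast (by omega : 0 < q - 1 + R.natDegree)
  obtain ⟨t, ht⟩ := IsAlgClosed.exists_root T (ne_of_gt hdeg)
  have hT0 : t ^ (q - 1) * R.eval t = 1 := by
    have := ht.eq_zero
    simp [hT, sub_eq_zero] at this
    exact this
  have ht0 : t ≠ 0 := fun e => by
    rw [e, zero_pow (by omega), zero_mul] at hT0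
    exact zero_ne_one hT0
  refine ⟨t, ht0, ?_⟩
  rw [eval_mul, eval_pow, eval_X, show t ^ q = t * t ^ (q - 1) by rw [← pow_succ']; congr 1; omega,
    mul_assoc, hT0, mul_one]

/-- The recursion `P₀ = a₀ X^q`, `P_{i+1} = P_i^q + a_{i+1} X^q`. -/
noncomputable def recPoly {K : Type*} [Field K] (q : ℕ) (a : ℕ → K) : ℕ → Polynomial K
  | 0 => Polynomial.C (a 0) * Polynomial.X ^ q
  | i + 1 => recPoly q a i ^ q + Polynomial.C (a (i + 1)) * Polynomial.X ^ q

theorem recPoly_dvd {K : Type*} [Field K] {q : ℕ} (hq : 1 ≤ q) (a : ℕ → K) (i : ℕ) :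
    Polynomial.X ^ q ∣ recPoly q a i := by
  induction i with
  | zero => exact dvd_mul_left _ _
  | succ i ih => exact dvd_add (ih.trans (dvd_pow_self _ (by omega))) (dvd_mul_left _ _)

theorem recPoly_eq_zero {K : Type*} [Field K] {q : ℕ} (hq : 2 ≤ q) (a : ℕ → K) (i : ℕ)
    (h : recPoly q a i = 0) : ∀ j ≤ i, a j = 0 := by
  induction i with
  | zero =>
    intro j hj
    obtain rfl := Nat.le_zero.1 hj
    simpa [recPoly] using h
  | succ i ih =>
    have h' : recPoly q a i ^ q = -(Polynomial.C (a (i + 1)) * Polynomial.X ^ q) := eq_neg_of_add_eq_zero_left h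
    have h0 : recPoly q a i = 0 := by
      by_contra hne
      obtain ⟨R, hR⟩ := recPoly_dvd (by omega : 1 ≤ q) a i
      have hR0 : R ≠ 0 := fun e => hne (by rw [hR, e, mul_zero])
      have h1 := congrArg Polynomial.natDegree h'
      rw [Polynomial.natDegree_pow, hR, Polynomial.natDegree_mul (pow_ne_zero _ Polynomial.X_ne_zero) hR0,
        Polynomial.natDegree_X_pow, Polynomial.natDegree_neg] at h1
      have h2 := Polynomial.natDegree_C_mul_X_pow_le (a (i + 1)) q
      rw [← h1] at h2
      nlinarith [Nat.zero_le R.natDegree]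
    intro j hj
    rcases Nat.lt_or_eq_of_le hj with hlt | rfl
    · exact ih h0 j (by omega)
    · rw [h0, zero_pow (by omega)] at h'
      simpa using h'.symm

/-- A bijective `q`-semilinear map over an algebraically closed field has a basis of fixed vectors. -/
theorem span_fixed {K : Type*} [Field K] [IsAlgClosed K] {n q : ℕ} (hq : 2 ≤ q)
    (φ : (Fin n → K) → Fin n → K) (hadd : ∀ u v, φ (u + v) = φ u + φ v)
    (hsmul : ∀ (c : K) v, φ (c • v) = c ^ q • φ v) (hinj : Function.Injective φ) :
    Submodule.span K {v | φ v = v} = ⊤ := by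
  set S := Submodule.span K {v | φ v = v} with hS
  have h0 : φ 0 = 0 := by simpa [zero_pow (by omega : q ≠ 0)] using hsmul 0 0
  have hsumφ : ∀ (g : ℕ → Fin n → K) (m : ℕ),
      φ (∑ i ∈ Finset.range m, g i) = ∑ i ∈ Finset.range m, φ (g i) := by
    intro g m
    induction m with
    | zero => simpa using h0
    | succ m ih => rw [Finset.sum_range_succ, Finset.sum_range_succ, hadd, ih]
  have honto : ∀ s ∈ S, ∃ s' ∈ S, φ s' = s := by
    intro s hs
    induction hs using Submodule.span_induction with
    | mem x hx => exact ⟨x, Submodule.subset_span hx, hx⟩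
    | zero => exact ⟨0, S.zero_mem, h0⟩
    | add x y _ _ hx hy =>
      obtain ⟨x', hx', rfl⟩ := hx
      obtain ⟨y', hy', rfl⟩ := hy
      exact ⟨x' + y', S.add_mem hx' hy', hadd _ _⟩
    | smul c x _ hx =>
      obtain ⟨x', hx', rfl⟩ := hx
      obtain ⟨d, hd⟩ := IsAlgClosed.exists_pow_nat_eq c (by omega : 0 < q)
      exact ⟨d • x', S.smul_mem _ hx', by rw [hsmul, hd]⟩
  have hlang : ∀ s ∈ S, ∀ c : K, ∃ w ∈ S, φ w - w = c • s := by
    intro s hs
    induction hs using Submodule.span_induction with
    | mem x hx =>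
      intro c
      obtain ⟨t, ht⟩ := IsAlgClosed.exists_root (Polynomial.X ^ q - Polynomial.X - Polynomial.C c)
        (by
          rw [Polynomial.degree_sub_eq_left_of_degree_lt, Polynomial.degree_sub_eq_left_of_degree_lt,
            Polynomial.degree_X_pow]
          · exact_mod_cast (by omega : q ≠ 0)
          · rw [Polynomial.degree_X_pow, Polynomial.degree_X]; exact_mod_cast (by omega : 1 < q)
          · rw [Polynomial.degree_sub_eq_left_of_degree_lt, Polynomial.degree_X_pow]
            · exact lt_of_le_of_lt Polynomial.degree_C_le (by exact_mod_cast (by omega : 0 < q))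
            · rw [Polynomial.degree_X_pow, Polynomial.degree_X]; exact_mod_cast (by omega : 1 < q))
      refine ⟨t • x, S.smul_mem _ (Submodule.subset_span hx), ?_⟩
      have ht' : t ^ q - t = c := by
        have := ht.eq_zero
        simp [sub_eq_zero] at this
        exact this
      rw [hsmul, show φ x = x from hx, ← sub_smul, ht']
    | zero => intro c; exact ⟨0, S.zero_mem, by simp [h0]⟩
    | add x y _ _ hx hy =>
      intro c
      obtain ⟨w, hw, ew⟩ := hx c
      obtain ⟨w', hw', ew'⟩ := hy c
      exact ⟨w + w', S.add_mem hw hw', by rw [hadd, smul_add, ← ew, ← ew']; abel⟩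
    | smul d x _ hx =>
      intro c
      obtain ⟨w, hw, ew⟩ := hx (c * d)
      exact ⟨w, hw, by rw [ew, smul_smul]⟩
  by_contra hne
  obtain ⟨v, hv⟩ : ∃ v, v ∉ S := by
    by_contra h
    push Not at h
    exact hne (eq_top_iff.2 fun x _ => h x)
  let T : ℕ → Submodule K (Fin n → K) :=
    fun j => S ⊔ Submodule.span K ((fun i => φ^[i] v) '' Set.Iio j)
  have hTle : ∀ j, T j ≤ T (j + 1) := fun j =>
    sup_le_sup_left (Submodule.span_mono (Set.image_mono (Set.Iio_subset_Iio (Nat.le_succ j)))) _
  have hex : ∃ j, φ^[j] v ∈ T j := by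
    by_contra hno
    push Not at hno
    have hstep : ∀ j, j ≤ Module.finrank K ↥(T j) := by
      intro j
      induction j with
      | zero => exact Nat.zero_le _
      | succ j ih =>
        have : T j < T (j + 1) := lt_of_le_of_ne (hTle j) fun e => hno j (e ▸
          Submodule.mem_sup_right (Submodule.subset_span ⟨j, Nat.lt_succ_self j, rfl⟩))
        have := Submodule.finrank_lt_finrank_of_lt this
        omega
    have h1 := hstep (n + 1)
    have h2 := Submodule.finrank_le (T (n + 1))
    rw [Module.finrank_fin_fun] at h2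
    omega
  classical
  set k := Nat.find hex with hk
  have hk1 : φ^[k] v ∈ T k := Nat.find_spec hex
  obtain ⟨m, hm⟩ : ∃ m, k = m + 1 := ⟨k - 1, by
    have : k ≠ 0 := by
      intro e
      rw [e] at hk1
      apply hv
      simpa [T] using hk1
    omega⟩
  have hkmin : φ^[m] v ∉ T m := Nat.find_min hex (by omega)
  rw [hm] at hk1
  obtain ⟨s, hs, u', hu', hsum⟩ := Submodule.mem_sup.1 hk1
  obtain ⟨l, hl, hlsum⟩ := (Finsupp.mem_span_image_iff_linearCombination K).1 hu'
  have hu'' : u' = ∑ i ∈ Finset.range (m + 1), l i • φ^[i] v := by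
    rw [← hlsum, Finsupp.linearCombination_apply]
    refine Finsupp.sum_of_support_subset _ ?_ _ (fun i _ => zero_smul K _)
    intro i hi
    exact Finset.mem_range.2 (hl hi)
  have hne0 : recPoly q l m ≠ 0 := by
    intro h
    have hz := recPoly_eq_zero hq l m h
    have hu0 : u' = 0 := by
      rw [hu'']
      exact Finset.sum_eq_zero fun i hi => by
        rw [hz i (Nat.lt_succ_iff.1 (Finset.mem_range.1 hi)), zero_smul]
    rw [hu0, add_zero] at hsum
    obtain ⟨s', hs', es'⟩ := honto s hs
    rw [hsum, Function.iterate_succ_apply'] at es'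
    exact hkmin (Submodule.mem_sup_left (hinj es' ▸ hs'))
  obtain ⟨t, ht0, ht⟩ := exists_root_ne_zero hq (recPoly_dvd (by omega) l m) hne0
  let c : ℕ → K := fun i => (recPoly q l i).eval t
  have hc0 : c 0 = t ^ q * l 0 := by
    simp [c, recPoly]
    ring
  have hcs : ∀ i, c (i + 1) = c i ^ q + t ^ q * l (i + 1) := fun i => by
    simp [c, recPoly]
    ring
  set u := ∑ i ∈ Finset.range (m + 1), c i • φ^[i] v with hu
  have hφu : φ u = u - t ^ q • (-s) := by
    have h1 : φ u = ∑ i ∈ Finset.range m, c i ^ q • φ^[i + 1] v + t ^ q • (s + u') := by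
      rw [hsum, hu, hsumφ, Finset.sum_range_succ]
      congr 1
      · exact Finset.sum_congr rfl fun i _ => by rw [hsmul, Function.iterate_succ_apply']
      · rw [hsmul, show c m = t from ht, Function.iterate_succ_apply']
    have h2 : u = t ^ q • u' + ∑ i ∈ Finset.range m, c i ^ q • φ^[i + 1] v := by
      rw [hu'', Finset.smul_sum, hu, Finset.sum_range_succ', Finset.sum_range_succ', hc0, add_right_comm,
        ← Finset.sum_add_distrib]
      congr 1
      · exact Finset.sum_congr rfl fun i _ => by rw [hcs, add_smul, smul_smul, add_comm]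
      · rw [smul_smul]
    rw [h1, h2, smul_add, smul_neg, sub_neg_eq_add]
    abel
  obtain ⟨w, hw, ew⟩ := hlang s hs (-(t ^ q))
  have hfix : u + w ∈ S := by
    refine Submodule.subset_span ?_
    show φ (u + w) = u + w
    rw [hadd, hφu, show φ w = (φ w - w) + w by abel, ew, smul_neg, neg_smul]
    abel
  have huS : u ∈ S := by simpa using S.sub_mem hfix hw
  apply hkmin
  have hlast : t • φ^[m] v ∈ T m := by
    have hrest : ∑ i ∈ Finset.range m, c i • φ^[i] v ∈ T m :=
      Submodule.sum_mem _ fun i hi => Submodule.smul_mem _ _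
        (Submodule.mem_sup_right (Submodule.subset_span ⟨i, Finset.mem_range.1 hi, rfl⟩))
    have h := (T m).sub_mem (Submodule.mem_sup_left huS : u ∈ T m) hrest
    rw [hu, Finset.sum_range_succ, show c m = t from ht, add_sub_cancel_left] at h
    exact h
  exact (Submodule.smul_mem_iff _ ht0).1 hlast


/-- The Lang–Steinberg Theorem for the general linear group. Let `K` be an algebraically closed field of prime characteristic `p`, let `q = p^f` with `f ≥ 1`, and let `σ` be the endomorphism of GL_n(K) raising every matrix entry to the `q`-th power. Then every element `g` of GL_n(K) can be written `g = x · σ(x)⁻¹` for some `x` in GL_n(K): the map `x ↦ x σ(x)⁻¹` is surjective. -/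
theorem result {K : Type*} [Field K] [IsAlgClosed K] (p : ℕ) [Fact p.Prime] [CharP K p]
    (f : ℕ) (hf : 1 ≤ f) (n : ℕ) (g : GL (Fin n) K) :
    ∃ x : GL (Fin n) K, g = x * (Matrix.GeneralLinearGroup.map (iterateFrobenius K p f) x)⁻¹ := by
  classical
  let φ : (Fin n → K) → Fin n → K :=
    fun v => (g : Matrix (Fin n) (Fin n) K).mulVec fun i => v i ^ (p ^ f)
  have hq : 2 ≤ p ^ f :=
    le_trans (Fact.out : p.Prime).two_le (Nat.le_self_pow (by omega) p)
  have hfr : ∀ a : K, iterateFrobenius K p f a = a ^ p ^ f := fun a => iterateFrobenius_def p f a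
  have hadd : ∀ u v, φ (u + v) = φ u + φ v := fun u v => by
    show Matrix.mulVec _ _ = _
    rw [← Matrix.mulVec_add]
    congr 1
    funext i
    simp only [Pi.add_apply, ← hfr, map_add]
  have hsmul : ∀ (c : K) v, φ (c • v) = c ^ (p ^ f) • φ v := fun c v => by
    show Matrix.mulVec _ _ = _
    rw [← Matrix.mulVec_smul]
    congr 1
    funext i
    simp [mul_pow]
  have hinj : Function.Injective φ := by
    intro u v h
    have h1 := congrArg (fun w => ((g⁻¹ : GL (Fin n) K) : Matrix (Fin n) (Fin n) K).mulVec w) h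
    simp only [φ, Matrix.mulVec_mulVec, ← Units.val_mul, inv_mul_cancel, Units.val_one, Matrix.one_mulVec] at h1
    funext i
    have h2 := congrFun h1 i
    rw [← hfr, ← hfr] at h2
    exact (iterateFrobenius K p f).injective h2
  obtain ⟨t, hts, htspan, htli⟩ := exists_linearIndependent K {v : Fin n → K | φ v = v}
  let B := Module.Basis.mk htli
    (le_of_eq (by rw [Subtype.range_coe, htspan, span_fixed hq φ hadd hsmul hinj]))
  let B' := B.reindex (B.indexEquiv (Pi.basisFun K (Fin n)))
  let M : Matrix (Fin n) (Fin n) K := (Pi.basisFun K (Fin n)).toMatrix B'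
  haveI := (Pi.basisFun K (Fin n)).invertibleToMatrix B'
  refine ⟨unitOfInvertible M, eq_mul_inv_of_mul_eq (Units.ext (Matrix.ext fun i j => ?_))⟩
  have hfix : φ (B' j) = B' j := hts (by simp [B', B])
  have h2 := congrFun hfix i
  show ((g : Matrix (Fin n) (Fin n) K) * M.map (iterateFrobenius K p f)) i j = M i j
  simpa [φ, Matrix.mul_apply, Matrix.mulVec, dotProduct, M, Module.Basis.toMatrix_apply, hfr] using h2

end Cfsg.Agent.S2665
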