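import Mathlib

set_option autoImplicit false

namespace Cfsg.Agent.ShintaniDescent

variable {X : Type*} [Group X] (σ : MulAut X)

theorem pow_succ_apply (n : ℕ) (a : X) : (σ ^ (n + 1)) a = σ ((σ ^ n) a) := by
  rw [pow_succ']; rfl

theorem pow_succ_apply' (n : ℕ) (a : X) : (σ ^ (n + 1)) a = (σ ^ n) (σ a) := by
  rw [pow_succ]; rfl

theorem prod_norm (n : ℕ) (a : X) :
    ((List.range n).map (fun i => (σ ^ i) (a * (σ a)⁻¹))).prod = a * ((σ ^ n) a)⁻¹ := by
  induction n with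
  | zero => simp
  | succ n ih =>
    rw [List.range_succ, List.map_append, List.prod_append, ih]
    simp only [List.map_singleton, List.prod_singleton, map_mul, map_inv]
    rw [← pow_succ_apply' σ n a]
    group

theorem mem_fix {X : Type*} [Group X] (σ : MulAut X) (x : X) :
    x ∈ (MulEquiv.toMonoidHom σ).eqLocus (MonoidHom.id X) ↔ σ x = x := Iff.rfl

/-- `x = σᵉ(a)⁻¹ a` is fixed by `σ` exactly when `g = a σ(a)⁻¹` is fixed by `σᵉ`. -/
theorem shintani_image_fixed_iff (e : ℕ) (a : X) :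
    σ (((σ ^ e) a)⁻¹ * a) = ((σ ^ e) a)⁻¹ * a ↔ (σ ^ e) (a * (σ a)⁻¹) = a * (σ a)⁻¹ := by
  rw [map_mul, map_inv, map_mul, map_inv, ← pow_succ_apply' σ e a, ← pow_succ_apply σ e a]
  rw [inv_mul_eq_iff_eq_mul, mul_inv_eq_iff_eq_mul]
  constructor
  · intro h; rw [h]; group
  · intro h; rw [h]; group

theorem fixed_pow (n : ℕ) {h : X} (hh : σ h = h) : (σ ^ n) h = h := by
  induction n with
  | zero => simp
  | succ n ih => rw [pow_succ_apply, ih, hh]

end Cfsg.Agent.ShintaniDescent
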