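import Cfsg.Statements.S2669
import Cfsg.Agent.ShintaniDescent

set_option autoImplicit false
open Cfsg

namespace Cfsg.Agent.S2669

/-- Shintani descent preserves numbers of fixed points on coset spaces (abstract form). Let `σ` be an automorphism of a group `X` and `e ≥ 1`; write `G` for the fixed points of `σᵉ` and `H` for the fixed points of `σ`, and assume `G` is finite. Let `Y` be a `σ`-stable subgroup of `X` on which the maps `a ↦ a σ(a)⁻¹` and `a ↦ a σᵉ(a)⁻¹` are surjective (as for a closed connected `σ`-stable subgroup of an algebraic group). Let `g ∈ G`, let `a ∈ X` satisfy `g = a σ(a)⁻¹` and put `x = σᵉ(a)⁻¹ a` (the Shintani image, an element of `H`). The element `g σ` of the semidirect product acts on the cosets of `Y ∩ G` in `G` by `k (Y ∩ G) ↦ g σ(k) (Y ∩ G)`, fixing that coset exactly when `k⁻¹ g σ(k) ∈ Y`; and `x` fixes the coset `h (Y ∩ H)` of `H` exactly when `h⁻¹ x h ∈ Y`. Then the two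 numbers of fixed cosets agree; in cross-multiplied form, `#{k ∈ G : k⁻¹ g σ(k) ∈ Y} · |Y ∩ H| = #{h ∈ H : h⁻¹ x h ∈ Y} · |Y ∩ G|`. -/
theorem result {X : Type*} [Group X] (σ : MulAut X) (e : ℕ) (he : 1 ≤ e)
    [Finite ↥((MulEquiv.toMonoidHom (σ ^ e)).eqLocus (MonoidHom.id X))]
    (Y : Subgroup X) (hY : ∀ y : X, y ∈ Y ↔ σ y ∈ Y)
    (hYL : ∀ y ∈ Y, ∃ a ∈ Y, y = a * (σ a)⁻¹) (hYLe : ∀ y ∈ Y, ∃ a ∈ Y, y = a * ((σ ^ e) a)⁻¹)
    (g : X) (hg : g ∈ (MulEquiv.toMonoidHom (σ ^ e)).eqLocus (MonoidHom.id X)) (a : X) (ha : g = a * (σ a)⁻¹) :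
    Nat.card {k : ↥((MulEquiv.toMonoidHom (σ ^ e)).eqLocus (MonoidHom.id X)) // (k : X)⁻¹ * g * σ k ∈ Y} *
        Nat.card ↥(Y ⊓ (MulEquiv.toMonoidHom σ).eqLocus (MonoidHom.id X)) =
      Nat.card {h : ↥((MulEquiv.toMonoidHom σ).eqLocus (MonoidHom.id X)) // (h : X)⁻¹ * (((σ ^ e) a)⁻¹ * a) * h ∈ Y} *
        Nat.card ↥(Y ⊓ (MulEquiv.toMonoidHom (σ ^ e)).eqLocus (MonoidHom.id X)) := by
  open ShintaniDescent in
  subst ha
  simp only [mem_fix] at hg
  set G := (MulEquiv.toMonoidHom (σ ^ e)).eqLocus (MonoidHom.id X) with hGdef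
  set H := (MulEquiv.toMonoidHom σ).eqLocus (MonoidHom.id X) with hHdef
  have hHG : H ≤ G := fun h hh => fixed_pow σ e hh
  haveI : Finite ↥H := Finite.of_injective (Subgroup.inclusion hHG) (Subgroup.inclusion_injective hHG)
  let T := {kh : ↥G × ↥H // (kh.1 : X)⁻¹ * a * (kh.2 : X) ∈ Y}
  have hσY : ∀ y ∈ Y, σ y ∈ Y := fun y hy => (hY y).1 hy
  have hσeY : ∀ n : ℕ, ∀ y ∈ Y, (σ ^ n) y ∈ Y := by
    intro n
    induction n with
    | zero => simp
    | succ n ih => intro y hy; rw [pow_succ_apply]; exact hσY _ (ih y hy)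
  have hGfix : ∀ k : ↥G, (σ ^ e) (k : X) = k := fun k => k.2
  have hHfix : ∀ h : ↥H, σ (h : X) = h := fun h => h.2
  have left : Nat.card T = Nat.card {k : ↥G // (k : X)⁻¹ * (a * (σ a)⁻¹) * σ k ∈ Y} *
      Nat.card ↥(Y ⊓ H) := by
    have hex : ∀ k : {k : ↥G // (k : X)⁻¹ * (a * (σ a)⁻¹) * σ k ∈ Y},
        ∃ h : ↥H, ((k.1 : X))⁻¹ * a * (h : X) ∈ Y := by
      rintro ⟨k, hk⟩
      obtain ⟨y, hy, hy'⟩ := hYL _ hk
      refine ⟨⟨a⁻¹ * k * y, ?_⟩, ?_⟩
      · show σ (a⁻¹ * (k : X) * y) = a⁻¹ * k * y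
        have h2 : σ y = (σ k)⁻¹ * (σ a) * a⁻¹ * k * y := by
          have h3 : (σ y)⁻¹ = y⁻¹ * ((k : X)⁻¹ * (a * (σ a)⁻¹) * σ k) := by rw [hy']; group
          rw [← inv_inv (σ y), h3]; group
        rw [map_mul, map_mul, map_inv, h2]; group
      · show (k : X)⁻¹ * a * (a⁻¹ * k * y) ∈ Y
        have : (k : X)⁻¹ * a * (a⁻¹ * k * y) = y := by group
        rw [this]; exact hy
    choose h0 hh0 using hex
    rw [← Nat.card_prod]
    apply Nat.card_congr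
    refine
      { toFun := fun t => ⟨⟨t.1.1, ?_⟩, ⟨(h0 ⟨t.1.1, ?_⟩ : X)⁻¹ * t.1.2, ?_⟩⟩
        invFun := fun p => ⟨(p.1.1, ⟨(h0 p.1 : X) * p.2, H.mul_mem (h0 p.1).2 p.2.2.2⟩), ?_⟩
        left_inv := ?_
        right_inv := ?_ }
    · have := Y.mul_mem t.2 (Y.inv_mem (hσY _ t.2))
      rw [map_mul, map_mul, map_inv, hHfix] at this
      convert this using 1
      group
    · have := Y.mul_mem t.2 (Y.inv_mem (hσY _ t.2))
      rw [map_mul, map_mul, map_inv, hHfix] at this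
      convert this using 1
      group
    · refine Subgroup.mem_inf.2 ⟨?_, H.mul_mem (H.inv_mem (h0 _).2) t.1.2.2⟩
      have hk : ((t.1.1 : X))⁻¹ * (a * (σ a)⁻¹) * σ (t.1.1 : X) ∈ Y := by
        have := Y.mul_mem t.2 (Y.inv_mem (hσY _ t.2))
        rw [map_mul, map_mul, map_inv, hHfix] at this
        convert this using 1
        group
      have := Y.mul_mem (Y.inv_mem (hh0 ⟨t.1.1, hk⟩)) t.2
      convert this using 1
      group
    · show (p.1.1 : X)⁻¹ * a * ((h0 p.1 : X) * (p.2 : X)) ∈ Y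
      rw [← mul_assoc]
      exact Y.mul_mem (hh0 p.1) (Subgroup.mem_inf.1 p.2.2).1
    · intro t
      apply Subtype.ext
      refine Prod.ext rfl (Subtype.ext ?_)
      simp
    · intro p
      refine Prod.ext rfl (Subtype.ext ?_)
      simp
  have right : Nat.card T =
      Nat.card {h : ↥H // (h : X)⁻¹ * (((σ ^ e) a)⁻¹ * a) * h ∈ Y} * Nat.card ↥(Y ⊓ G) := by
    have hmem : ∀ t : T, (t.1.2 : X)⁻¹ * (((σ ^ e) a)⁻¹ * a) * t.1.2 ∈ Y := by
      intro t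
      have := Y.mul_mem (Y.inv_mem (hσeY e _ t.2)) t.2
      rw [map_mul, map_mul, map_inv, hGfix, fixed_pow σ e (hHfix t.1.2)] at this
      convert this using 1
      group
    have hex : ∀ h : {h : ↥H // (h : X)⁻¹ * (((σ ^ e) a)⁻¹ * a) * h ∈ Y},
        ∃ k : ↥G, (k : X)⁻¹ * a * (h.1 : X) ∈ Y := by
      rintro ⟨h, hh⟩
      obtain ⟨y, hy, hy'⟩ := hYLe _ (Y.inv_mem hh)
      refine ⟨⟨a * h * y, ?_⟩, ?_⟩
      · show (σ ^ e) (a * (h : X) * y) = a * h * y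
        have h2 : (σ ^ e) y = (h : X)⁻¹ * (((σ ^ e) a)⁻¹ * a) * h * y := by
          have h3 : ((σ ^ e) y)⁻¹ = y⁻¹ * ((h : X)⁻¹ * (((σ ^ e) a)⁻¹ * a) * h)⁻¹ := by
            rw [hy']; group
          rw [← inv_inv ((σ ^ e) y), h3]; group
        rw [map_mul, map_mul, fixed_pow σ e (hHfix h), h2]; group
      · show (a * (h : X) * y)⁻¹ * a * h ∈ Y
        have : (a * (h : X) * y)⁻¹ * a * h = y⁻¹ := by group
        rw [this]; exact Y.inv_mem hy
    choose k0 hk0 using hex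
    rw [← Nat.card_prod]
    apply Nat.card_congr
    refine
      { toFun := fun t => ⟨⟨t.1.2, hmem t⟩,
          ⟨(k0 ⟨t.1.2, hmem t⟩ : X)⁻¹ * t.1.1, Subgroup.mem_inf.2 ⟨?_, G.mul_mem (G.inv_mem (k0 _).2) t.1.1.2⟩⟩⟩
        invFun := fun p => ⟨(⟨(k0 p.1 : X) * p.2, G.mul_mem (k0 p.1).2 p.2.2.2⟩, p.1.1), ?_⟩
        left_inv := ?_
        right_inv := ?_ }
    · have := Y.mul_mem (hk0 ⟨t.1.2, hmem t⟩) (Y.inv_mem t.2)
      convert this using 1
      group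
    · show ((k0 p.1 : X) * (p.2 : X))⁻¹ * a * (p.1.1 : X) ∈ Y
      have := Y.mul_mem (Y.inv_mem (Subgroup.mem_inf.1 p.2.2).1) (hk0 p.1)
      convert this using 1
      group
    · intro t
      apply Subtype.ext
      refine Prod.ext (Subtype.ext ?_) rfl
      simp
    · intro p
      refine Prod.ext rfl (Subtype.ext ?_)
      simp
  rw [← left, right]

end Cfsg.Agent.S2669
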