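import Cfsg.Statements.S2670
import Cfsg.Agent.ClassConj.RootsModScalar

set_option autoImplicit false
open Cfsg

namespace Cfsg.Agent.S2670

/-- Number of conjugacy classes of elements of prime order r in PGL_n(q) = GL_n(q)/scalars when r divides q − 1 (n ≥ 2): the classes of elements with a diagonalisable lift correspond to the orbits of the cyclic rotation on the r-tuples of eigenvalue multiplicities (a_0, …, a_(r−1)) summing to n with every a_j < n, and when r divides n there are r − 1 further classes (lifts acting irreducibly on blocks of size r); in all (C(n+r−1, r−1) − r − [r ∣ n])/r + r·[r ∣ n] classes. -/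
theorem result {F : Type*} [Field F] [Fintype F] {q : ℕ} (hF : Fintype.card F = q) {n r : ℕ} (hn : 2 ≤ n) (hr : r.Prime) (hrq : r ∣ q - 1) : Nat.card {C : ConjClasses (GL (Fin n) F ⧸ Subgroup.center (GL (Fin n) F)) // ∃ g : GL (Fin n) F ⧸ Subgroup.center (GL (Fin n) F), ConjClasses.mk g = C ∧ orderOf g = r} = (Nat.choose (n + r - 1) (r - 1) - r - (if r ∣ n then 1 else 0)) / r + r * (if r ∣ n then 1 else 0) := by
  classical
  have hn0 : 0 < n := by omega
  refine Agent.ClassConj.card_primeOrder_mod_scalars (A := Fˣ) hr hn0 (MonoidHom.id _) Function.injective_id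
    (Matrix.GeneralLinearGroup.scalar (Fin n)) (MonoidHom.id _) (fun a => rfl)
    Matrix.GeneralLinearGroup.center_eq_range_scalar (fun g h => id) ?_ Function.injective_id ?_ ?_
  · rw [Nat.card_units, Nat.card_eq_fintype_card, hF]; exact hrq
  · rintro a ⟨b, hb⟩
    have hb0 : b ≠ 0 := fun h => a.ne_zero (by rw [h, zero_pow hr.ne_zero] at hb; exact hb.symm)
    exact ⟨Units.mk0 b hb0, Units.ext (by simpa using hb)⟩
  · intro τ hτ w
    let e : (Fin n → F) ≃ₗ[F] (Fin n → F) :=
      { toFun := fun v x => (w x : F) * v (τ x)
        map_add' := fun u v => by funext x; simp [mul_add]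
        map_smul' := fun c v => by funext x; simp [mul_left_comm]
        invFun := fun v x => ((w ((Equiv.ofBijective τ hτ).symm x))⁻¹ : Fˣ) * v ((Equiv.ofBijective τ hτ).symm x)
        left_inv := fun v => by
          funext x
          simp only [← mul_assoc, Units.inv_mul, one_mul]
          exact congrArg v ((Equiv.ofBijective τ hτ).apply_symm_apply x)
        right_inv := fun v => by
          funext x
          simp [Equiv.ofBijective_symm_apply_apply] }
    refine ⟨Matrix.GeneralLinearGroup.toLin.symm ((LinearMap.GeneralLinearGroup.generalLinearEquiv F _).symm e),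
      fun v x => ?_⟩
    show (LinearMap.toMatrix' e.toLinearMap).mulVec v x = _
    rw [LinearMap.toMatrix'_mulVec]
    rfl

end Cfsg.Agent.S2670
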