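import Cfsg.Statements.S2672
import Cfsg.Agent.ClassConj.RootsModScalar
import Cfsg.Agent.ClassConj.Unitary

set_option autoImplicit false
open Cfsg

namespace Cfsg.Agent.S2672

/-- Number of conjugacy classes of elements of odd prime order r in PGU_n(q) = GU_n(q)/scalars (n ≥ 3) when r divides q + 1: as in the linear case with q − 1 replaced by q + 1, the classes correspond to the rotation orbits on r-tuples of eigenvalue multiplicities summing to n with every entry < n, plus r − 1 further classes when r divides n; in all (C(n+r−1, r−1) − r − [r ∣ n])/r + r·[r ∣ n]. -/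
theorem result {K : Type*} [Field K] [Fintype K] {q n r : ℕ} (hK : Fintype.card K = q ^ 2) (hn : 3 ≤ n) (hr : r.Prime) (hr2 : r ≠ 2) (hrq : r ∣ q + 1) : Nat.card {C : ConjClasses (↥(Cfsg.GU n K q) ⧸ Subgroup.center ↥(Cfsg.GU n K q)) // ∃ g : ↥(Cfsg.GU n K q) ⧸ Subgroup.center ↥(Cfsg.GU n K q), ConjClasses.mk g = C ∧ orderOf g = r} = (Nat.choose (n + r - 1) (r - 1) - r - (if r ∣ n then 1 else 0)) / r + r * (if r ∣ n then 1 else 0) := by
  classical
  have hF := Agent.Classical.U.sqField_of_fintype hK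
  have hn0 : 0 < n := by omega
  let μ : Subgroup Kˣ := (powMonoidHom (q + 1) : Kˣ →* Kˣ).ker
  have hμ : ∀ u : Kˣ, u ∈ μ ↔ (u : K) ^ (q + 1) = 1 := fun u => by
    rw [MonoidHom.mem_ker, powMonoidHom_apply, Units.ext_iff, Units.val_pow_eq_pow_val, Units.val_one]
  have hμc : Nat.card μ = q + 1 := by
    rw [IsCyclic.card_powMonoidHom_ker, hF.card_units, Nat.gcd_eq_right (Dvd.intro_left _ rfl)]
  let ι := (Cfsg.GU n K q).subtype
  have hmono : ∀ (τ : Fin n → Fin n), Function.Bijective τ → ∀ w : Fin n → μ,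
      ∃ g : ↥(Cfsg.GU n K q), ∀ (v : Fin n → K) x,
        ((g : GL (Fin n) K) : Matrix (Fin n) (Fin n) K).mulVec v x = ((w x : Kˣ) : K) * v (τ x) := by
    intro τ hτ w
    let M : Matrix (Fin n) (Fin n) K := Matrix.of fun x y => if y = τ x then ((w x : Kˣ) : K) else 0
    have hM : Agent.ClassConj.cstar hF M * M = 1 := by
      ext y y'
      obtain ⟨x0, rfl⟩ := hτ.2 y
      rw [Matrix.mul_apply, Finset.sum_eq_single x0]
      · show (M x0 (τ x0)) ^ q * M x0 y' = _
        rcases eq_or_ne (τ x0) y' with rfl | h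
        · simp only [M, Matrix.of_apply, if_pos, Matrix.one_apply_eq]
          rw [← pow_succ]
          exact (hμ _).1 (w x0).2
        · simp [M, Matrix.one_apply_ne h, Ne.symm h]
      · intro x _ hx
        show (M x (τ x0)) ^ q * M x y' = _
        have : τ x0 ≠ τ x := fun h => hx (hτ.1 h).symm
        simp [M, this, zero_pow hF.q_ne_zero]
      · exact fun h => absurd (Finset.mem_univ _) h
    let u : GL (Fin n) K := ⟨M, Agent.ClassConj.cstar hF M, mul_eq_one_comm.1 hM, hM⟩
    refine ⟨⟨u, (Agent.ClassConj.mem_GU_iff_cstar hF u).2 hM⟩, fun v x => ?_⟩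
    show ∑ y, M x y * v y = _
    simp [M, ite_mul]
  have hsc : ∀ a : μ, Matrix.GeneralLinearGroup.scalar (Fin n) a.1 ∈ Cfsg.GU n K q := by
    intro a
    obtain ⟨g, hg⟩ := hmono id Function.bijective_id fun _ => a
    have : (g : GL (Fin n) K) = Matrix.GeneralLinearGroup.scalar (Fin n) a.1 :=
      Units.ext (Matrix.ext_iff_mulVec.2 fun v => funext fun x => by
        rw [hg, Agent.ClassConj.scGL_mulVec]; rfl)
    rw [← this]
    exact g.2
  let s : μ →* ↥(Cfsg.GU n K q) :=
    ((Matrix.GeneralLinearGroup.scalar (Fin n)).comp μ.subtype).codRestrict _ hsc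
  have hs : ∀ a, ι (s a) = Agent.ClassConj.scGL (μ.subtype a) := fun a => rfl
  have hcen : Subgroup.center ↥(Cfsg.GU n K q) = s.range := by
    refine le_antisymm (fun g hg => ?_) ?_
    · set M := ((g : GL (Fin n) K) : Matrix (Fin n) (Fin n) K) with hMdef
      haveI : Nontrivial μ := Finite.one_lt_card_iff_nontrivial.1 (by rw [hμc]; have := hF.one_lt; omega)
      obtain ⟨z, hz⟩ := exists_ne (1 : μ)
      have hz1 : ((z : Kˣ) : K) ≠ 1 := fun h => hz (Subtype.ext (Units.ext h))
      have hcomm : ∀ (h : ↥(Cfsg.GU n K q)) v, M.mulVec (((h : GL (Fin n) K) : Matrix (Fin n) (Fin n) K).mulVec v) =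
          ((h : GL (Fin n) K) : Matrix (Fin n) (Fin n) K).mulVec (M.mulVec v) := by
        intro h v
        rw [Matrix.mulVec_mulVec, Matrix.mulVec_mulVec]
        exact congrArg (fun A : Matrix (Fin n) (Fin n) K => A.mulVec v)
          (congrArg (fun x : ↥(Cfsg.GU n K q) => ((x : GL (Fin n) K) : Matrix (Fin n) (Fin n) K))
            (Subgroup.mem_center_iff.1 hg h)).symm
      have hoff : ∀ x y, x ≠ y → M x y = 0 := by
        intro x y hxy
        obtain ⟨h, hh⟩ := hmono id Function.bijective_id (Pi.mulSingle x z)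
        have e := congrFun (hcomm h (Pi.single y 1)) x
        have e1 : ((h : GL (Fin n) K) : Matrix (Fin n) (Fin n) K).mulVec (Pi.single y 1) = Pi.single y 1 := by
          funext k
          rw [hh]
          rcases eq_or_ne k y with rfl | hk
          · rw [Pi.mulSingle_eq_of_ne hxy.symm]; simp
          · simp [hk]
        rw [e1, hh, Pi.mulSingle_eq_same, id, Matrix.mulVec_single_one] at e
        change M x y = ((z : Kˣ) : K) * M x y at e
        exact (mul_eq_zero.1 (show (((z : Kˣ) : K) - 1) * M x y = 0 by rw [sub_mul, one_mul, ← e, sub_self])).resolve_left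
          (sub_ne_zero.2 hz1)
      let i0 : Fin n := ⟨0, hn0⟩
      have hdiag : ∀ j, M j j = M i0 i0 := by
        intro j
        obtain ⟨h, hh⟩ := hmono (Equiv.swap i0 j) (Equiv.swap i0 j).bijective fun _ => 1
        have e := congrFun (hcomm h (Pi.single j 1)) i0
        have e1 : ((h : GL (Fin n) K) : Matrix (Fin n) (Fin n) K).mulVec (Pi.single j 1) = Pi.single i0 1 := by
          funext k
          rw [hh]
          rcases eq_or_ne k i0 with rfl | hk
          · simp [Equiv.swap_apply_left]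
          · have : Equiv.swap i0 j k ≠ j := fun h => hk (by
              have := (Equiv.swap i0 j).injective (h.trans (Equiv.swap_apply_left i0 j).symm); exact this)
            simp [hk, this]
        rw [e1, hh, Matrix.mulVec_single_one, Matrix.mulVec_single_one, Equiv.swap_apply_left] at e
        simp only [OneMemClass.coe_one, Units.val_one, one_mul] at e
        exact e.symm
      have hsca : ∀ v, M.mulVec v = M i0 i0 • v := fun v => funext fun x => by
        show ∑ y, M x y * v y = _
        rw [Finset.sum_eq_single x (fun y _ hy => by rw [hoff x y (Ne.symm hy), zero_mul])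
          (fun h => absurd (Finset.mem_univ _) h), hdiag]
        rfl
      have hU : (Agent.ClassConj.cstar hF M * M) i0 i0 = 1 := by
        rw [(Agent.ClassConj.mem_GU_iff_cstar hF _).1 g.2, Matrix.one_apply_eq]
      rw [Matrix.mul_apply, Finset.sum_eq_single i0 (fun y _ hy => by rw [hoff y i0 hy, mul_zero])
          (fun h => absurd (Finset.mem_univ _) h)] at hU
      change (M i0 i0) ^ q * M i0 i0 = 1 at hU
      rw [← pow_succ] at hU
      have hc0 : M i0 i0 ≠ 0 := fun h => by
        rw [h, zero_pow (Nat.succ_ne_zero q)] at hU; exact zero_ne_one hU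
      refine ⟨⟨Units.mk0 _ hc0, (hμ _).2 hU⟩, Subtype.ext (Units.ext (Matrix.ext_iff_mulVec.2 fun v => ?_))⟩
      show ((Matrix.GeneralLinearGroup.scalar (Fin n) (Units.mk0 _ hc0) : GL (Fin n) K) : Matrix (Fin n) (Fin n) K).mulVec v = M.mulVec v
      rw [Agent.ClassConj.scGL_mulVec, hsca]
      rfl
    · rintro _ ⟨a, rfl⟩
      refine Subgroup.mem_center_iff.2 fun h => Subtype.ext ?_
      exact Subgroup.mem_center_iff.1 (Agent.ClassConj.scGL_mem_center (μ.subtype a)) _
  refine Agent.ClassConj.card_primeOrder_mod_scalars hr hn0 ι (Cfsg.GU n K q).subtype_injective s μ.subtype hs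
    hcen (fun g h => Agent.ClassConj.GU_isConj_of_isConj hF g h) (hμc ▸ hrq) μ.subtype_injective ?_ hmono
  rintro a ⟨b, hb⟩
  have hb0 : b ≠ 0 := fun h => a.1.ne_zero (by rw [h, zero_pow hr.ne_zero] at hb; exact hb.symm)
  have hb' : (Units.mk0 b hb0) ^ r = a.1 := Units.ext (by simpa using hb)
  have hord : (Units.mk0 b hb0) ^ ((q - 1) * (q + 1)) = 1 := by rw [← hF.card_units]; exact pow_card_eq_one'
  have hmem : (Units.mk0 b hb0) ^ (q - 1) ∈ μ := by
    rw [MonoidHom.mem_ker, powMonoidHom_apply, ← pow_mul, hord]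
  have hco : Nat.Coprime (q - 1) r := by
    refine ((Nat.Prime.coprime_iff_not_dvd hr).2 fun h => ?_).symm
    have h2 : r ∣ (q + 1) - (q - 1) := Nat.dvd_sub hrq h
    rw [show q + 1 - (q - 1) = 2 by have := hF.one_lt; omega] at h2
    exact hr2 ((Nat.prime_dvd_prime_iff_eq hr Nat.prime_two).1 h2)
  have hbez : (1 : ℤ) = ((q - 1 : ℕ) : ℤ) * Nat.gcdA (q - 1) r + r * Nat.gcdB (q - 1) r := by
    have := Nat.gcd_eq_gcd_ab (q - 1) r
    rw [hco, Nat.cast_one] at this
    exact this
  refine ⟨(⟨_, hmem⟩ : μ) ^ Nat.gcdA (q - 1) r * a ^ Nat.gcdB (q - 1) r, Subtype.ext ?_⟩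
  simp only [SubgroupClass.coe_pow, Subgroup.coe_mul, SubgroupClass.coe_zpow]
  set bu := Units.mk0 b hb0
  calc ((bu ^ (q - 1)) ^ Nat.gcdA (q - 1) r * (a.1) ^ Nat.gcdB (q - 1) r) ^ r
      = bu ^ ((((q - 1 : ℕ) : ℤ) * Nat.gcdA (q - 1) r + r * Nat.gcdB (q - 1) r) * r) := by
        rw [← hb', mul_pow]
        simp only [← zpow_natCast, ← zpow_mul, ← zpow_add]
        congr 1; ring
    _ = a.1 := by rw [← hbez, one_mul, zpow_natCast, hb']

end Cfsg.Agent.S2672
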