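import Cfsg.Statements.S2674
import Cfsg.Agent.PrimeSO.Arith

set_option autoImplicit false
open Cfsg

namespace Cfsg.Agent.S2674

/-- Number of conjugacy classes of elements of odd prime order r ≠ p in the orthogonal group O⁺_2m(q) of Σ x_j y_j (m ≥ 1): with i the multiplicative order of q mod r and t = (r − 1)/i — if i is odd, C(⌊m/i⌋ + t/2, t/2) − 1; if i is even, C(⌊2m/i⌋ + t, t) − 1 minus, when i divides 2m with odd quotient, the C(2m/i + t − 1, t − 1) tuples using the whole space (an odd number of elliptic i-blocks fills an elliptic, not a hyperbolic, space). -/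
theorem result {F : Type*} [Field F] [Fintype F] {p q : ℕ} [Fact p.Prime] [CharP F p] (hF : Fintype.card F = q) (m r i t : ℕ) (hm : 1 ≤ m) (hr : r.Prime) (hr2 : r ≠ 2) (hrp : r ≠ p) (hi : i = orderOf (q : ZMod r)) (ht : t * i = r - 1) : Nat.card {C : ConjClasses ↥(Cfsg.isometryGroup F (Cfsg.quadFormPlus m F)) // ∃ g : ↥(Cfsg.isometryGroup F (Cfsg.quadFormPlus m F)), ConjClasses.mk g = C ∧ orderOf g = r} = if Odd i then Nat.choose (m / i + t / 2) (t / 2) - 1 else Nat.choose (2 * m / i + t) t - 1 - (if i ∣ 2 * m ∧ Odd (2 * m / i) then Nat.choose (2 * m / i + t - 1) (t - 1) else 0) := by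
  subst hF
  obtain ⟨hi0, ⟨Φ⟩⟩ := Cfsg.Agent.PrimeSO.exists_fac (F := F) (p := p) hr hr2 hrp hi
  rw [Cfsg.Agent.PrimeSO.card_orth_plus (p := p) rfl hr hr2 hrp hi hi0 Φ ht _ rfl]
  obtain ⟨ht1, -⟩ := Cfsg.Agent.PrimeSO.even_t hr hr2 ht
  by_cases ho : Odd i
  · rw [if_pos ho, if_pos ho, if_neg (fun h => Nat.not_even_iff_odd.2 ho h.1), (Cfsg.Agent.PrimeSO.half_div m i).1]
  · rw [if_neg ho, if_neg ho]
    by_cases hc : i ∣ 2 * m ∧ Odd (2 * m / i)
    · rw [if_pos ⟨Nat.not_odd_iff_even.1 ho, hc⟩, if_pos hc]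
      have := Cfsg.Agent.PrimeSO.choose_pred (n := 2 * m / i) hc.2.pos ht1
      omega
    · rw [if_neg (fun h => hc h.2), if_neg hc, Nat.sub_zero]

end Cfsg.Agent.S2674
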