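import Cfsg.Statements.S2675
import Cfsg.Agent.PrimeSO.Arith

set_option autoImplicit false
open Cfsg

namespace Cfsg.Agent.S2675

/-- Number of conjugacy classes of elements of odd prime order r ≠ p in the orthogonal group O⁻_2m(q) of an elliptic form Σ_(j<m−1) x_j y_j + z₁² + a z₁z₂ + c z₂² (binary part anisotropic, m ≥ 1): with i the multiplicative order of q mod r and t = (r − 1)/i — if i is odd, C(⌊m/i⌋ + t/2, t/2) − 1 minus, when i divides m, the C(m/i + t/2 − 1, t/2 − 1) tuples filling the whole space (dual pairs of totally singular blocks fill a hyperbolic space); if i is even, C(⌊2m/i⌋ + t, t) − 1 minus, when i divides 2m with even quotient, the C(2m/i + t − 1, t − 1) tuples filling the whole space with an even number of elliptic blocks. -/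
theorem result {F : Type*} [Field F] [Fintype F] {p q : ℕ} [Fact p.Prime] [CharP F p] (hF : Fintype.card F = q) (m r i t : ℕ) (hm : 1 ≤ m) (a c : F) (hac : ∀ z₁ z₂ : F, z₁ ^ 2 + a * z₁ * z₂ + c * z₂ ^ 2 = 0 → z₁ = 0 ∧ z₂ = 0) (hr : r.Prime) (hr2 : r ≠ 2) (hrp : r ≠ p) (hi : i = orderOf (q : ZMod r)) (ht : t * i = r - 1) : Nat.card {C : ConjClasses ↥(Cfsg.isometryGroup F (Cfsg.quadFormMinus (m - 1) F a c)) // ∃ g : ↥(Cfsg.isometryGroup F (Cfsg.quadFormMinus (m - 1) F a c)), ConjClasses.mk g = C ∧ orderOf g = r} = if Odd i then Nat.choose (m / i + t / 2) (t / 2) - 1 - (if i ∣ m then Nat.choose (m / i + t / 2 - 1) (t / 2 - 1) else 0) else Nat.choose (2 * m / i + t) t - 1 - (if i ∣ 2 * m ∧ Even (2 * m / i) then Nat.choose (2 * m / i + t - 1) (t - 1) else 0) := by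
  subst hF
  obtain ⟨m, rfl⟩ := Nat.exists_eq_add_of_le' hm
  obtain ⟨hi0, ⟨Φ⟩⟩ := Cfsg.Agent.PrimeSO.exists_fac (F := F) (p := p) hr hr2 hrp hi
  rw [Nat.add_sub_cancel, Cfsg.Agent.PrimeSO.card_orth_minus (p := p) rfl hr hr2 hrp hi hi0 Φ ht hac _ rfl]
  obtain ⟨ht1, ht2⟩ := Cfsg.Agent.PrimeSO.even_t hr hr2 ht
  by_cases ho : Odd i
  · rw [if_pos ho, if_pos ho]
    by_cases hc : i ∣ m + 1
    · rw [if_pos ⟨hc.mul_left 2, Or.inl ho⟩, if_pos hc, Cfsg.Agent.PrimeSO.two_mul_div_of_dvd hc]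
      have h1 : 1 ≤ (m + 1) / i := Nat.div_pos (Nat.le_of_dvd (by omega) hc) hi0
      rw [show (2 * ((m + 1) / i) - 1) / 2 = (m + 1) / i - 1 by omega]
      have := Cfsg.Agent.PrimeSO.choose_pred (n := (m + 1) / i) h1 (ht2 ho)
      omega
    · rw [if_neg (fun h => hc ((Nat.coprime_two_right.2 ho).dvd_of_dvd_mul_left h.1)), if_neg hc,
        (Cfsg.Agent.PrimeSO.half_div (m + 1) i).1, Nat.sub_zero]
  · rw [if_neg ho, if_neg ho]
    by_cases hc : i ∣ 2 * (m + 1) ∧ Even (2 * (m + 1) / i)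
    · rw [if_pos ⟨hc.1, Or.inr hc.2⟩, if_pos hc]
      have h1 : 1 ≤ 2 * (m + 1) / i := Nat.div_pos (Nat.le_of_dvd (by omega) hc.1) hi0
      have := Cfsg.Agent.PrimeSO.choose_pred (n := 2 * (m + 1) / i) h1 ht1
      omega
    · rw [if_neg (fun h => hc ⟨h.1, h.2.resolve_left ho⟩), if_neg hc, Nat.sub_zero]

end Cfsg.Agent.S2675
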