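import Cfsg.Statements.S2677
import Cfsg.Agent.AutPSL.FieldCard
import Cfsg.Agent.ClassConj.Unitary
import Cfsg.Agent.Classical.UGroup

set_option autoImplicit false
open Cfsg

namespace Cfsg.Agent.S2677

/-- Centraliser of a field automorphism of odd prime order in PGU_n(q): let q = q₀^r with r an odd prime, K the field with q² elements and σ a field automorphism of K of order r (fixed field of order q₀²). The elements g of GU_n(q) whose entrywise image under σ is a scalar multiple of g — those whose coset modulo the q + 1 unitary scalars is fixed by σ — number (q + 1)/(q₀ + 1) · |GU_n(q₀)|; equivalently the centraliser in PGU_n(q) of the induced automorphism has the order of PGU_n(q₀). -/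
theorem result {K : Type*} [Field K] [Fintype K] {q₀ q r n : ℕ} (hr : r.Prime) (hr2 : r ≠ 2) (hn : 1 ≤ n) (hq : q = q₀ ^ r) (hK : Fintype.card K = q ^ 2) (σ : K ≃+* K) (hσ : orderOf σ = r) : (Nat.card {g : ↥(Cfsg.GU n K q) // ∃ c : K, c ≠ 0 ∧ ((g : GL (Fin n) K) : Matrix (Fin n) (Fin n) K).map σ = c • ((g : GL (Fin n) K) : Matrix (Fin n) (Fin n) K)} : ℤ) = ((q + 1) / (q₀ + 1) : ℕ) * ((q₀ : ℤ) ^ (n * (n - 1) / 2) * ∏ i : Fin n, ((q₀ : ℤ) ^ ((i : ℕ) + 1) - (-1) ^ ((i : ℕ) + 1))) := by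
  classical
  haveI : Nonempty (Fin n) := ⟨⟨0, hn⟩⟩
  subst hq
  set K₀ := ↥(AutPSL.fixedField σ) with hK₀def
  haveI : Fintype K₀ := Fintype.ofFinite _
  have hF := Agent.Classical.U.sqField_of_fintype hK
  have hcard₀ : Nat.card K₀ = q₀ ^ 2 := by
    have h := AutPSL.card_fixedField_pow σ
    rw [hσ, Nat.card_eq_fintype_card, hK, ← pow_mul, mul_comm, pow_mul] at h
    exact (Nat.pow_left_injective hr.ne_zero h).symm
  have hF₀ : Agent.Classical.U.SqField K₀ q₀ := ⟨inferInstance, hcard₀⟩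
  obtain ⟨j, hj⟩ : Odd r := hr.odd_of_ne_two hr2
  have hodd : ∀ x : K₀, x ^ q₀ ^ r = x ^ q₀ := by
    intro x
    rw [hj]
    clear hj
    induction j with
    | zero => simp
    | succ j ih =>
      rw [show 2 * (j + 1) + 1 = 2 * j + 1 + 2 by ring, pow_add, pow_mul, ih, sq, pow_mul,
        hF₀.pow_pow (x ^ q₀)]
  let f : K₀ →+* K := (AutPSL.fixedField σ).subtype
  have hfq : ∀ x : K₀, f x ^ q₀ ^ r = f (x ^ q₀) := fun x => by rw [← map_pow, hodd]
  have hconj : ∀ x : K₀, Agent.Forms.sqConj hF (f x) = f (Agent.Forms.sqConj hF₀ x) := hfq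
  have hcstar : ∀ M : Matrix (Fin n) (Fin n) K₀,
      Agent.ClassConj.cstar hF (M.map f) = (Agent.ClassConj.cstar hF₀ M).map f := fun M =>
    Matrix.ext fun a b => hconj _
  have hone : (1 : Matrix (Fin n) (Fin n) K₀).map f = 1 := Matrix.map_one f (map_zero f) (map_one f)
  let ι : GL (Fin n) K₀ →* GL (Fin n) K := Matrix.GeneralLinearGroup.map f
  have hιv : ∀ h, (ι h : Matrix (Fin n) (Fin n) K) = (h : Matrix (Fin n) (Fin n) K₀).map f := fun h => rfl
  have hι : ∀ h i j, σ ((ι h : Matrix (Fin n) (Fin n) K) i j) = (ι h : Matrix (Fin n) (Fin n) K) i j :=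
    fun h i j => ((h : Matrix (Fin n) (Fin n) K₀) i j).2
  let μ : Subgroup Kˣ := (powMonoidHom (q₀ ^ r + 1) : Kˣ →* Kˣ).ker
  have hμ : ∀ u : Kˣ, u ∈ μ ↔ (u : K) ^ (q₀ ^ r + 1) = 1 := fun u => by
    rw [MonoidHom.mem_ker, powMonoidHom_apply, Units.ext_iff, Units.val_pow_eq_pow_val, Units.val_one]
  have hμc : Nat.card μ = q₀ ^ r + 1 := by
    rw [IsCyclic.card_powMonoidHom_ker, hF.card_units, Nat.gcd_eq_right (Dvd.intro_left _ rfl)]
  have hmem : ∀ (u : μ) (h : ↥(Cfsg.GU n K₀ q₀)),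
      Matrix.GeneralLinearGroup.scalar (Fin n) u.1 * ι h.1 ∈ Cfsg.GU n K (q₀ ^ r) := by
    intro u h
    refine mul_mem ?_ ?_
    · rw [Agent.ClassConj.mem_GU_iff_cstar hF,
        show ((Matrix.GeneralLinearGroup.scalar (Fin n) u.1 : GL (Fin n) K) : Matrix (Fin n) (Fin n) K) =
          (u.1 : K) • 1 by simp [Matrix.smul_one_eq_diagonal, Matrix.scalar_apply],
        Agent.ClassConj.cstar_smul_one, smul_mul_assoc, one_mul, smul_smul,
        show Agent.Forms.sqConj hF (u.1 : K) * (u.1 : K) = (1 : K) by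
          show (u.1 : K) ^ (q₀ ^ r) * (u.1 : K) = 1
          rw [← pow_succ]; exact (hμ _).1 u.2, one_smul]
    · rw [Agent.ClassConj.mem_GU_iff_cstar hF, hιv, hcstar, ← Matrix.map_mul,
        (Agent.ClassConj.mem_GU_iff_cstar hF₀ _).1 h.2, hone]
  let Ψ : μ × ↥(Cfsg.GU n K₀ q₀) →* ↥(Cfsg.GU n K (q₀ ^ r)) :=
    MonoidHom.mk' (fun p => ⟨_, hmem p.1 p.2⟩) fun a b => by
      apply Subtype.ext
      simp only [Prod.fst_mul, Prod.snd_mul, Subgroup.coe_mul, map_mul]
      have hc : Matrix.GeneralLinearGroup.scalar (Fin n) b.1.1 ∈ Subgroup.center (GL (Fin n) K) := by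
        rw [Matrix.GeneralLinearGroup.center_eq_range_scalar]; exact ⟨_, rfl⟩
      rw [mul_assoc, ← mul_assoc _ (ι a.2.1), ← Subgroup.mem_center_iff.1 hc (ι a.2.1)]
      simp only [mul_assoc]
  have hΨ : ∀ (u : μ) h i j, ((Ψ (u, h) : GL (Fin n) K) : Matrix (Fin n) (Fin n) K) i j =
      (u.1 : K) * (ι h.1 : Matrix (Fin n) (Fin n) K) i j := by
    intro u h i j
    show ((Matrix.GeneralLinearGroup.scalar (Fin n) u.1 * ι h.1 : GL (Fin n) K) : Matrix (Fin n) (Fin n) K) i j = _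
    simp [Units.val_mul]
  let S := {g : ↥(Cfsg.GU n K (q₀ ^ r)) //
    ∃ c : K, c ≠ 0 ∧ ((g : GL (Fin n) K) : Matrix (Fin n) (Fin n) K).map σ = c • ((g : GL (Fin n) K) : Matrix (Fin n) (Fin n) K)}
  have hrange : ∀ g : ↥(Cfsg.GU n K (q₀ ^ r)), g ∈ Ψ.range ↔
      ∃ c : K, c ≠ 0 ∧ ((g : GL (Fin n) K) : Matrix (Fin n) (Fin n) K).map σ = c • ((g : GL (Fin n) K) : Matrix (Fin n) (Fin n) K) := by
    intro g
    constructor
    · rintro ⟨⟨u, h⟩, rfl⟩
      refine ⟨σ (u.1 : K) / u.1, div_ne_zero (fun e => u.1.ne_zero ((map_eq_zero σ).1 e)) u.1.ne_zero, ?_⟩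
      ext i j
      rw [Matrix.map_apply, Matrix.smul_apply, hΨ, map_mul, hι, smul_eq_mul]
      field_simp
    · rintro ⟨c, hc, hg⟩
      set G := ((g : GL (Fin n) K) : Matrix (Fin n) (Fin n) K) with hG
      have hGu : Agent.ClassConj.cstar hF G * G = 1 := (Agent.ClassConj.mem_GU_iff_cstar hF _).1 g.2
      obtain ⟨i, j, hij⟩ : ∃ i j, G i j ≠ 0 := by
        by_contra h0
        push Not at h0
        rw [show G = 0 from Matrix.ext h0, mul_zero] at hGu
        exact zero_ne_one hGu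
      have hent : ∀ a b, σ (G a b) = c * G a b := fun a b => congrFun (congrFun hg a) b
      set m := G i j with hm
      let M : Matrix (Fin n) (Fin n) K₀ := Matrix.of fun a b =>
        ⟨m⁻¹ * G a b, by
          show σ _ = _
          rw [map_mul, map_inv₀, hent, hent, mul_inv]
          field_simp
          rw [hm, mul_div_assoc, div_self hij, mul_one]⟩
      have hM : M.map f = m⁻¹ • G := rfl
      -- the similitude factor
      have hMM : ∀ a b, f ((Agent.ClassConj.cstar hF₀ M * M) a b) =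
          (m ^ (q₀ ^ r + 1))⁻¹ * if a = b then 1 else 0 := by
        intro a b
        show ((Agent.ClassConj.cstar hF₀ M * M).map f) a b = _
        rw [Matrix.map_mul, ← hcstar, hM, ← smul_one_mul m⁻¹ G, Agent.ClassConj.cstar_mul,
          Agent.ClassConj.cstar_smul_one, mul_assoc, ← mul_assoc (Agent.Forms.sqConj hF m⁻¹ • (1 : Matrix (Fin n) (Fin n) K)),
          smul_one_mul, smul_smul, smul_one_mul, mul_smul_comm, hGu, Matrix.smul_apply, Matrix.one_apply,
          smul_eq_mul, show Agent.Forms.sqConj hF m⁻¹ * m⁻¹ = (m ^ (q₀ ^ r + 1))⁻¹ by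
            show m⁻¹ ^ (q₀ ^ r) * m⁻¹ = _
            rw [← pow_succ, inv_pow]]
      set a : K₀ := (Agent.ClassConj.cstar hF₀ M * M) i i with hadef
      have ha : f a = (m ^ (q₀ ^ r + 1))⁻¹ := by rw [hadef, hMM, if_pos rfl, mul_one]
      have hafix : a ^ q₀ = a := by
        apply f.injective
        rw [← hfq, ha, inv_pow, ← pow_mul, add_mul, pow_add, one_mul, pow_mul, hF.pow_pow, ← pow_succ']
      obtain ⟨b, hb⟩ := hF₀.exists_norm hafix
      have hfa : f a ≠ 0 := by rw [ha]; exact inv_ne_zero (pow_ne_zero _ hij)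
      have hb0 : b ≠ 0 := by
        rintro rfl
        rw [zero_pow (Nat.succ_ne_zero _)] at hb
        exact hfa (by rw [← hb, map_zero])
      have hfb : f b ≠ 0 := (map_ne_zero f).2 hb0
      have hu : (m * f b) ^ (q₀ ^ r + 1) = 1 := by
        rw [mul_pow, pow_succ (f b), hfq, ← map_mul, ← pow_succ, hb, ha,
          mul_inv_cancel₀ (pow_ne_zero _ hij)]
      let H : Matrix (Fin n) (Fin n) K₀ := b⁻¹ • M
      have hH : Agent.ClassConj.cstar hF₀ H * H = 1 := by
        have e : Agent.ClassConj.cstar hF₀ M * M = a • 1 := by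
          ext x y
          apply congrArg Subtype.val
          apply f.injective
          rw [hMM, Matrix.smul_apply, smul_eq_mul, map_mul, ha, Matrix.one_apply]
          split_ifs <;> simp
        show Agent.ClassConj.cstar hF₀ (b⁻¹ • M) * (b⁻¹ • M) = 1
        rw [← smul_one_mul b⁻¹ M, Agent.ClassConj.cstar_mul, Agent.ClassConj.cstar_smul_one, mul_assoc,
          ← mul_assoc (Agent.Forms.sqConj hF₀ b⁻¹ • (1 : Matrix (Fin n) (Fin n) K₀)),
          smul_one_mul, smul_smul, smul_one_mul, mul_smul_comm, e, smul_smul]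
        have : Agent.Forms.sqConj hF₀ b⁻¹ * b⁻¹ * a = 1 := by
          show b⁻¹ ^ q₀ * b⁻¹ * a = 1
          rw [← pow_succ, ← hb, inv_pow, inv_mul_cancel₀ (pow_ne_zero _ hb0)]
        rw [this, one_smul]
      let h : GL (Fin n) K₀ := ⟨H, Agent.ClassConj.cstar hF₀ H, mul_eq_one_comm.1 hH, hH⟩
      refine ⟨(⟨Units.mk0 (m * f b) (mul_ne_zero hij hfb), (hμ _).2 hu⟩,
        ⟨h, (Agent.ClassConj.mem_GU_iff_cstar hF₀ _).2 hH⟩), Subtype.ext (Units.ext (Matrix.ext fun x y => ?_))⟩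
      rw [hΨ]
      show m * f b * f (b⁻¹ * M x y) = G x y
      rw [map_mul, map_inv₀, ← mul_assoc, mul_assoc m, mul_inv_cancel₀ hfb, mul_one]
      show m * (m⁻¹ * _) = _
      rw [← mul_assoc, mul_inv_cancel₀ hij, one_mul]
  have hS : Nat.card S = Nat.card ↥Ψ.range :=
    Nat.card_congr (Equiv.subtypeEquivRight fun g => (hrange g).symm)
  have hker : Nat.card ↥Ψ.ker = q₀ + 1 := by
    let N₀ : Subgroup K₀ˣ := (powMonoidHom (q₀ + 1) : K₀ˣ →* K₀ˣ).ker
    have hN₀ : Nat.card N₀ = q₀ + 1 := by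
      rw [IsCyclic.card_powMonoidHom_ker, hF₀.card_units, Nat.gcd_eq_right (Dvd.intro_left _ rfl)]
    have hN₀m : ∀ u : N₀, ((u.1 : K₀ˣ) : K₀) ^ (q₀ + 1) = 1 := fun u => by
      have := congrArg Units.val (MonoidHom.mem_ker.1 u.2)
      simpa using this
    have hu_mem : ∀ u : N₀, Units.map f.toMonoidHom u.1⁻¹ ∈ μ := fun u => by
      rw [hμ]
      show f ((u.1⁻¹ : K₀ˣ) : K₀) ^ (q₀ ^ r + 1) = 1
      rw [pow_succ, hfq, ← map_mul, ← pow_succ, Units.val_inv_eq_inv_val, inv_pow, hN₀m, inv_one, map_one]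
    have hs_mem : ∀ u : N₀, Matrix.GeneralLinearGroup.scalar (Fin n) u.1 ∈ Cfsg.GU n K₀ q₀ := fun u => by
      rw [Agent.ClassConj.mem_GU_iff_cstar hF₀,
        show ((Matrix.GeneralLinearGroup.scalar (Fin n) u.1 : GL (Fin n) K₀) : Matrix (Fin n) (Fin n) K₀) =
          (u.1 : K₀) • 1 by simp [Matrix.smul_one_eq_diagonal, Matrix.scalar_apply],
        Agent.ClassConj.cstar_smul_one, smul_mul_assoc, one_mul, smul_smul,
        show Agent.Forms.sqConj hF₀ (u.1 : K₀) * (u.1 : K₀) = (1 : K₀) by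
          show (u.1 : K₀) ^ q₀ * (u.1 : K₀) = 1
          rw [← pow_succ, hN₀m], one_smul]
    rw [← hN₀]
    refine (Nat.card_congr (Equiv.ofBijective (fun u : N₀ =>
      (⟨(⟨_, hu_mem u⟩, ⟨_, hs_mem u⟩), ?_⟩ : ↥Ψ.ker)) ⟨?_, ?_⟩)).symm
    · rw [MonoidHom.mem_ker]
      refine Subtype.ext (Units.ext (Matrix.ext fun a b => ?_))
      rw [hΨ]
      have hu : f ((u.1 : K₀ˣ) : K₀) ≠ 0 := (map_ne_zero f).2 u.1.ne_zero
      show f ((u.1⁻¹ : K₀ˣ) : K₀) * f (Matrix.scalar (Fin n) ((u.1 : K₀ˣ) : K₀) a b) = (1 : Matrix (Fin n) (Fin n) K) a b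
      rw [Units.val_inv_eq_inv_val, map_inv₀, Matrix.scalar_apply, Matrix.diagonal_apply, Matrix.one_apply]
      split_ifs
      · rw [inv_mul_cancel₀ hu]
      · rw [map_zero, mul_zero]
    · intro u v e
      have e2 := congrArg (fun x : ↥Ψ.ker => (x.1.2.1 : Matrix (Fin n) (Fin n) K₀) ⟨0, hn⟩ ⟨0, hn⟩) e
      exact Subtype.ext (Units.ext (by simpa using e2))
    · rintro ⟨⟨u, h⟩, hk⟩
      rw [MonoidHom.mem_ker] at hk
      have hent : ∀ a b, (u.1 : K) * f ((h.1 : Matrix (Fin n) (Fin n) K₀) a b) = if a = b then 1 else 0 := by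
        intro a b
        show (u.1 : K) * (ι h.1 : Matrix (Fin n) (Fin n) K) a b = _
        rw [← hΨ, hk]
        simp [Matrix.one_apply]
      set u₀ : K₀ := (h.1 : Matrix (Fin n) (Fin n) K₀) ⟨0, hn⟩ ⟨0, hn⟩ with hu₀
      have h0 : (u.1 : K) * f u₀ = 1 := (hent ⟨0, hn⟩ ⟨0, hn⟩).trans (if_pos rfl)
      have hu0 : u₀ ≠ 0 := fun e => by
        rw [e, map_zero, mul_zero] at h0
        exact zero_ne_one h0
      have hpow : u₀ ^ (q₀ + 1) = 1 := by
        apply f.injective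
        rw [map_one, pow_succ, map_mul, ← hfq, ← pow_succ]
        calc f u₀ ^ (q₀ ^ r + 1) = ((u.1 : K) * f u₀) ^ (q₀ ^ r + 1) := by
              rw [mul_pow, (hμ _).1 u.2, one_mul]
          _ = 1 := by rw [h0, one_pow]
      refine ⟨⟨Units.mk0 u₀ hu0, MonoidHom.mem_ker.2 (Units.ext (by simpa using hpow))⟩,
        Subtype.ext (Prod.ext (Subtype.ext (Units.ext ?_)) (Subtype.ext (Units.ext (Matrix.ext fun a b => ?_))))⟩
      · show f (((Units.mk0 u₀ hu0)⁻¹ : K₀ˣ) : K₀) = (u.1 : K)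
        rw [Units.val_inv_eq_inv_val, Units.val_mk0, map_inv₀]
        exact inv_eq_of_mul_eq_one_left h0
      · apply f.injective
        refine mul_left_cancel₀ u.1.ne_zero ?_
        rw [hent a b]
        show (u.1 : K) * f (Matrix.scalar (Fin n) u₀ a b) = _
        rw [Matrix.scalar_apply, Matrix.diagonal_apply]
        split_ifs
        · exact h0
        · rw [map_zero, mul_zero]
  have key : Nat.card ↥Ψ.ker * Nat.card ↥Ψ.range = Nat.card (μ × ↥(Cfsg.GU n K₀ q₀)) := by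
    rw [← Subgroup.index_ker, Subgroup.card_mul_index]
  rw [hker, ← hS, Nat.card_prod, hμc,
    Nat.card_congr (Agent.Classical.U.guEquiv n K₀ q₀).toEquiv, Agent.Classical.U.card_UG hF₀] at key
  obtain ⟨k, hk⟩ : q₀ + 1 ∣ q₀ ^ r + 1 := by
    have := Odd.nat_add_dvd_pow_add_pow q₀ 1 (hr.odd_of_ne_two hr2)
    simpa using this
  rw [hk, Nat.mul_div_cancel_left _ (Nat.succ_pos q₀)]
  rw [hk, mul_assoc] at key
  have hval := Nat.eq_of_mul_eq_mul_left (Nat.succ_pos q₀) key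
  show ((Nat.card S : ℕ) : ℤ) = _
  rw [hval]
  push_cast
  rw [Fin.prod_univ_eq_prod_range (fun i => (q₀ : ℤ) ^ (i + 1) - (-1) ^ (i + 1)) n]
  congr 2
  refine Finset.prod_congr rfl fun i _ => ?_
  split_ifs with hi
  · rw [pow_succ (-1 : ℤ), hi.neg_one_pow]; push_cast; ring
  · have h1 : 1 ≤ q₀ ^ (i + 1) := Nat.one_le_pow _ _ (zero_lt_one.trans hF₀.one_lt)
    rw [Nat.cast_sub h1, pow_succ (-1 : ℤ), (Nat.not_even_iff_odd.1 hi).neg_one_pow]; push_cast; ring

end Cfsg.Agent.S2677
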