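import Cfsg.Statements.S2682
import Cfsg.Agent.InvolConjTwo.SympCentralizer

set_option autoImplicit false
open Cfsg

namespace Cfsg.Agent.S2682

/-- Centraliser order of an involution t of Sp_2m(q), q even, with s = rank(t − 1) even and f(v, tv) ≠ 0 for some v, f the symplectic form (type c_s): |C(t)| = q^(2ms − (3s² − 3s)/2 − 1) · |Sp_(s−2)(q)| · |Sp_(2m−2s)(q)|. -/
theorem result {F : Type*} [Field F] [Fintype F] [CharP F 2] {q : ℕ} (hF : Fintype.card F = q) {m s : ℕ} (t : Matrix.symplecticGroup (Fin m) F) (ht : t ^ 2 = 1) (hs : ((t : Matrix (Fin m ⊕ Fin m) (Fin m ⊕ Fin m) F) - 1).rank = s) (heven : Even s) (hna : ∃ v : Fin m ⊕ Fin m → F, Cfsg.sympForm m F v ((t : Matrix (Fin m ⊕ Fin m) (Fin m ⊕ Fin m) F).mulVec v) ≠ 0) : Nat.card ↥(Subgroup.centralizer ({t} : Set ↥(Matrix.symplecticGroup (Fin m) F))) = q ^ (2 * m * s - (3 * s ^ 2 - 3 * s) / 2 - 1) * ((q : ℕ) ^ (((s - 2) / 2) ^ 2) * ∏ i : Fin ((s - 2)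 / 2), (q ^ (2 * ((i : ℕ) + 1)) - 1)) * ((q : ℕ) ^ ((m - s) ^ 2) * ∏ i : Fin (m - s), (q ^ (2 * ((i : ℕ) + 1)) - 1)) := by
  subst hF
  have D := InvolConjTwo.symDisp_data t ht
  have hr := (InvolConjTwo.symDisp_rank t).trans hs
  have hle : s ≤ m := hr ▸ D.rank_le InvolConjTwo.finrank_sympSpace
  have ha : ¬ ∀ x, Cfsg.Agent.Forms.sympBil m F (InvolConjTwo.symDisp t x) x = 0 := fun ha => by
    obtain ⟨v, hv⟩ := hna
    exact hv ((InvolConjTwo.symDisp_value t v).symm.trans (ha v))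
  rw [InvolConjTwo.card_centralizer_symp, D.card_centN_not_alt ha InvolConjTwo.finrank_sympSpace hr,
    if_neg (Nat.not_odd_iff_even.2 heven), InvolConjTwo.spOrder_fin, InvolConjTwo.spOrder_fin,
    show s / 2 - 1 = (s - 2) / 2 by omega, ← InvolConjTwo.exp_c hle, pow_add]
  ring

end Cfsg.Agent.S2682
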