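import Cfsg.Statements.S2693
import Cfsg.Agent.AutPSp.Main

set_option autoImplicit false
open Cfsg

namespace Cfsg.Agent.S2693

/-- The automorphism group of a simple projective symplectic group PSp_{2m}(F) over a finite field of characteristic p, with m ≥ 2 and (2m, p) ≠ (4, 2), is generated by the automorphisms induced by the semilinear maps v ↦ g σ(v) with g conformal symplectic and σ an automorphism of F (the image of the projective semilinear symplectic group). For (2m, p) = (4, 2) the statement fails: a duality of the underlying polar space gives a further automorphism. -/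
theorem result {F : Type*} [Field F] [Fintype F] {p : ℕ} [Fact p.Prime] [CharP F p] {m : ℕ} (hm : 2 ≤ m) (h4 : m = 2 → p ≠ 2) :
    Cfsg.gammaPSp m F = ⊤ := by
  refine Cfsg.Agent.AutPSp.gammaPSp_eq_top hm ?_
  rcases Nat.lt_or_ge m 3 with h | h
  · left
    intro h2
    have hm2 : m = 2 := by omega
    have : p ∣ 2 := (CharP.cast_eq_zero_iff F p 2).1 (by exact_mod_cast h2)
    exact h4 hm2 ((Nat.prime_dvd_prime_iff_eq Fact.out Nat.prime_two).1 this)
  · exact Or.inr h

end Cfsg.Agent.S2693
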