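import Cfsg.Statements.S2702
import Cfsg.Agent.GraphForms.LinearStatements

set_option autoImplicit false
open Cfsg

namespace Cfsg.Agent.S2702

/-- Let T = PSL_n(F) over the field with q = p^f elements, n ≥ 3, G = Inndiag(T) the image of PGL_n(F), and γ an involutory graph automorphism of T. The G-class of γ is the union of exactly c T-classes, where: if n is even and q is odd, c = gcd(n/2, q − 1) when C_G(γ) is isomorphic to the projective conformal symplectic group PGSp_n(F) (symplectic type) and c = gcd(n, q − 1)/2 otherwise; and c = gcd(n, q − 1) when n is odd or q is even. -/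
theorem result {F : Type*} [Field F] [Fintype F] {p f : ℕ} [Fact p.Prime] (hF : Fintype.card F = p ^ f) (hf : 1 ≤ f) {n : ℕ} (hn : 3 ≤ n) (γ : MulAut (Matrix.ProjectiveSpecialLinearGroup (Fin n) F)) (hγ : Cfsg.IsGraphAutClassPSL γ) (hγ2 : orderOf γ = 2) :
    ((Even n ∧ Odd p ∧ Nonempty (↥(Cfsg.inndiagPSL n F ⊓ Subgroup.centralizer {γ}) ≃* Cfsg.PGSp (n / 2) F)) → Cfsg.splitClassCount (Cfsg.inndiagPSL n F) (Cfsg.Inn (Matrix.ProjectiveSpecialLinearGroup (Fin n) F)) γ = Nat.gcd (n / 2) (p ^ f - 1)) ∧ ((Even n ∧ Odd p ∧ ¬ Nonempty (↥(Cfsg.inndiagPSL n F ⊓ Subgroup.centralizer {γ}) ≃* Cfsg.PGSp (n / 2) F)) → Cfsg.splitClassCount (Cfsg.inndiagPSL n F) (Cfsg.Inn (Matrix.ProjectiveSpecialLinearGroup (Fin n) F)) γ = Nat.gcd n (p ^ f - 1) / 2) ∧ (¬ (Even n ∧ Odd p) → Cfsg.splitClassCount (Cfsg.inndiagPSL n F) (Cfsg.Inn (Matrix.ProjectiveSpecialLinearGroup (Fin n) F)) γ = Nat.gcd n (p ^ f - 1)) := by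
  obtain ⟨g, rfl, hg⟩ := Cfsg.Agent.GraphForms.Lin.exists_graph hn hγ hγ2
  obtain ⟨h1, h2, h3⟩ := Cfsg.Agent.GraphForms.Lin.split_case hn hg
  rw [hF] at h1 h2 h3
  have hp : Odd p ↔ (2 : F) ≠ 0 := by
    haveI : Fact (Nat.Prime p) := ‹_›
    haveI : CharP F p := by
      obtain ⟨p', hp'⟩ := CharP.exists F
      haveI := hp'
      obtain ⟨k, hk1, hk2⟩ := FiniteField.card F p'
      have : p' = p := by
        rw [hF] at hk2
        exact ((Nat.prime_dvd_prime_iff_eq hk1 (Fact.out : p.Prime)).1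
          (hk1.dvd_of_dvd_pow (hk2 ▸ dvd_pow_self p' k.pos.ne')))
      subst this
      exact hp'
    constructor
    · intro hodd h2
      have := (CharP.cast_eq_zero_iff F p 2).1 (by exact_mod_cast h2)
      rw [Nat.prime_dvd_prime_iff_eq (Fact.out : p.Prime) Nat.prime_two] at this
      rw [this] at hodd
      exact absurd hodd (by decide)
    · intro h2
      refine (Fact.out : p.Prime).odd_of_ne_two fun hp2 => h2 ?_
      subst hp2
      exact_mod_cast CharP.cast_eq_zero F 2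
  refine ⟨?_, ?_, fun h => h3 fun h' => h ⟨h'.1, hp.2 h'.2⟩⟩
  · rintro ⟨he, hpo, hE⟩
    refine h1 ⟨he, hp.1 hpo, ?_⟩
    obtain ⟨m, hm⟩ := he
    rw [show n / 2 = m by omega] at hE
    exact (Cfsg.Agent.GraphForms.Lin.cent_not_PGSp (hp.1 hpo) hn (by omega) hg).2 hE
  · rintro ⟨he, hpo, hE⟩
    refine h2 ⟨he, hp.1 hpo, fun ha => hE ?_⟩
    obtain ⟨m, hm⟩ := he
    rw [show n / 2 = m by omega]
    exact (Cfsg.Agent.GraphForms.Lin.cent_not_PGSp (hp.1 hpo) hn (by omega) hg).1 ha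

end Cfsg.Agent.S2702
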