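import Cfsg.Statements.S2709
import Cfsg.Agent.GraphForms.UnitaryStatements

set_option autoImplicit false
open Cfsg

namespace Cfsg.Agent.S2709

/-- Let T = PSU_n(q) be simple (n ≥ 3, (n,q) ≠ (3,2), q = p^f), realised over the field F with q² elements, G = Inndiag(T) the image of PGU_n(q), and γ an involutory graph automorphism of T. The G-class of γ is the union of exactly c T-classes, where: if n is even and q is odd, c = gcd(n/2, q + 1) when C_G(γ) is isomorphic to PGSp_n(F₀) for a field F₀ with q elements (symplectic type) and c = gcd(n, q + 1)/2 otherwise; and c = gcd(n, q + 1) when n is odd or q is even. -/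
theorem result {F : Type*} [Field F] [Fintype F] {p f q : ℕ} [Fact p.Prime] (hq : q = p ^ f) (hf : 1 ≤ f) (hF : Fintype.card F = q ^ 2) {n : ℕ} (hn : 3 ≤ n) (hs : ¬ (n = 3 ∧ q = 2)) (F₀ : Type*) [Field F₀] [Fintype F₀] (hF₀ : Fintype.card F₀ = q) (γ : MulAut (Cfsg.PSU n F q)) (hγ : Cfsg.IsGraphAutClassPSU γ) (hγ2 : orderOf γ = 2) :
    ((Even n ∧ Odd q ∧ Nonempty (↥(Cfsg.inndiagPSU n F q ⊓ Subgroup.centralizer {γ}) ≃* Cfsg.PGSp (n / 2) F₀)) → Cfsg.splitClassCount (Cfsg.inndiagPSU n F q) (Cfsg.Inn (Cfsg.PSU n F q)) γ = Nat.gcd (n / 2) (q + 1)) ∧ ((Even n ∧ Odd q ∧ ¬ Nonempty (↥(Cfsg.inndiagPSU n F q ⊓ Subgroup.centralizer {γ}) ≃* Cfsg.PGSp (n / 2) F₀)) → Cfsg.splitClassCount (Cfsg.inndiagPSU n F q) (Cfsg.Inn (Cfsg.PSU n F q)) γ = Nat.gcd n (q + 1) / 2) ∧ (¬ (Even n ∧ Odd q) → Cfsg.splitClassCount (Cfsg.inndiagPSU n F q) (Cfsg.Inn (Cfsg.PSU n F q)) γ = Nat.gcd n (q + 1)) := by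
  have hS := Cfsg.Agent.GraphForms.Uni.sqField_of_card hF
  obtain ⟨e, he⟩ := Cfsg.Agent.GraphForms.Uni.exists_emb (F₀ := F₀) hS (by rw [Nat.card_eq_fintype_card, hF₀])
  obtain ⟨g, rfl, μ, hμ⟩ := Cfsg.Agent.GraphForms.Uni.exists_graph hS hn hγ hγ2
  obtain ⟨A, b, c, d, hD, hA⟩ := Cfsg.Agent.GraphForms.Uni.exists_desc hS e he hn hμ
  obtain ⟨h1, h2, h3⟩ := Cfsg.Agent.GraphForms.Uni.split_case hS hF₀ hn e he hD hA
  have hp : Odd q ↔ (2 : F₀) ≠ 0 := by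
    constructor
    · intro hodd
      exact Cfsg.Agent.GraphForms.Lin.two_ne_zero_of_odd_card (by rwa [hF₀])
    · intro h2
      rw [← hF₀]
      exact Nat.odd_iff.2 (FiniteField.odd_card_of_char_ne_two fun h => h2 (by
        haveI : CharP F₀ 2 := by rw [← h]; exact ringChar.charP F₀
        exact CharTwo.two_eq_zero))
  refine ⟨?_, ?_, fun h => h3 fun h' => h ⟨h'.1, hp.2 h'.2⟩⟩
  · rintro ⟨hev, hpo, hE⟩
    refine h1 ⟨hev, hp.1 hpo, ?_⟩
    obtain ⟨m, hm⟩ := hev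
    rw [show n / 2 = m by omega] at hE
    exact (Cfsg.Agent.GraphForms.Uni.cent_alt_iff_PGSp hS (hp.1 hpo) hn (by omega) e he hD hA).2 hE
  · rintro ⟨hev, hpo, hE⟩
    refine h2 ⟨hev, hp.1 hpo, fun ha => hE ?_⟩
    obtain ⟨m, hm⟩ := hev
    rw [show n / 2 = m by omega]
    exact (Cfsg.Agent.GraphForms.Uni.cent_alt_iff_PGSp hS (hp.1 hpo) hn (by omega) e he hD hA).1 ha

end Cfsg.Agent.S2709
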