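import Cfsg.Statements.S2712
import Cfsg.Agent.AutPSp.Field

set_option autoImplicit false
open Cfsg

namespace Cfsg.Agent.S2712

/-- Let T = PSp_{2m}(F) be simple over the field F with p^f elements (m ≥ 2, (2m, |F|) ≠ (4, 2)), G = Inndiag(T) the image of the projective conformal symplectic group PGSp_{2m}(F), and x a field automorphism of T of prime order r. Then r divides f; C_G(x) is isomorphic to PGSp_{2m}(F₀) for a field F₀ with p^(f/r) elements; and the G-class of x is the union of exactly gcd(gcd(2, p^f − 1), r) T-classes. -/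
theorem result {F : Type*} [Field F] [Fintype F] {p f : ℕ} [Fact p.Prime] (hF : Fintype.card F = p ^ f) (hf : 1 ≤ f) {m : ℕ} (hm : 2 ≤ m) (hs : m = 2 → 3 ≤ Fintype.card F) (x : MulAut (Cfsg.PSp m F)) (hx : Cfsg.IsFieldAutClassPSp x) {r : ℕ} (hr : r.Prime) (hxr : orderOf x = r) (F₀ : Type*) [Field F₀] [Fintype F₀] (hF₀ : Fintype.card F₀ = p ^ (f / r)) :
    r ∣ f ∧ Nonempty (↥(Cfsg.inndiagPSp m F ⊓ Subgroup.centralizer {x}) ≃* Cfsg.PGSp m F₀) ∧ Cfsg.splitClassCount (Cfsg.inndiagPSp m F) (Cfsg.Inn (Cfsg.PSp m F)) x = Nat.gcd (Nat.gcd 2 (p ^ f - 1)) r := by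
  obtain ⟨h1, h2, h3⟩ := Cfsg.Agent.AutPSp.field_class hm hx (p := p) (f := f) (r := r)
    (by rw [Nat.card_eq_fintype_card, hF]) hxr F₀ (by rw [Nat.card_eq_fintype_card, hF₀])
  refine ⟨h1, h2, ?_⟩
  rw [h3]
  obtain ⟨k, rfl⟩ := h1
  rw [Nat.mul_div_cancel_left _ hr.pos]
  have hp := (Fact.out : p.Prime)
  have hk : 1 ≤ k := Nat.pos_of_ne_zero (by rintro rfl; simp at hf)
  have hq : 2 ≤ p ^ k := le_trans hp.two_le (Nat.le_self_pow (by omega) p)
  rw [mul_comm r k, pow_mul, ← Nat.geomSum_eq hq r]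
  rcases hp.eq_two_or_odd' with rfl | hodd
  · have e1 : Nat.gcd 2 ((2 ^ k) ^ r - 1) = 1 := by
      rw [← pow_mul]
      refine (Nat.coprime_two_left).2 (Nat.Even.sub_odd ?_ ?_ odd_one)
      · exact Nat.one_le_two_pow
      · exact Nat.even_pow.2 ⟨even_two, Nat.mul_ne_zero (by omega) hr.ne_zero⟩
    rw [e1, Nat.gcd_one_left]
    obtain ⟨s, rfl⟩ : ∃ s, r = s + 1 := ⟨r - 1, by have := hr.pos; omega⟩
    refine (Nat.coprime_two_left).2 ?_
    rw [Finset.sum_range_succ', pow_zero]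
    refine Even.add_one (Finset.even_sum _ fun i _ => ?_)
    exact Nat.even_pow.2 ⟨Nat.even_pow.2 ⟨even_two, by omega⟩, by omega⟩
  · have hqo : Odd (p ^ k) := hodd.pow
    have e1 : Nat.gcd 2 ((p ^ k) ^ r - 1) = 2 :=
      Nat.gcd_eq_left (even_iff_two_dvd.1 (Nat.Odd.sub_odd hqo.pow odd_one))
    rw [e1]
    have hmod : ∀ s, (∑ i ∈ Finset.range s, (p ^ k) ^ i) % 2 = s % 2 := by
      intro s
      induction s with
      | zero => simp
      | succ s ih =>
        rw [Finset.sum_range_succ, Nat.add_mod, ih, Nat.odd_iff.1 (hqo.pow (n := s))]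
        omega
    rw [Nat.gcd_rec 2 (∑ i ∈ Finset.range r, (p ^ k) ^ i), hmod r, ← Nat.gcd_rec]

end Cfsg.Agent.S2712
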