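import Cfsg.Statements.S2718
import Cfsg.Agent.SimFusion.Split
import Cfsg.Agent.Classical.SimPlus

set_option autoImplicit false
open Cfsg

namespace Cfsg.Agent.S2718

/-- Let T = PΩ⁺_{2m}(F) with m ≥ 4 and |F| = q odd, G = Inndiag(T), and γ an involutory graph automorphism of T induced by a similarity (one interchanging the two classes of maximal totally singular subspaces). Then the G-class of γ is either a single T-class or the union of exactly two T-classes, and it is the union of two unless m is odd and q ≡ 3 (mod 4). -/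
theorem result {F : Type*} [Field F] [Fintype F] (hodd : Odd (Fintype.card F)) {m : ℕ} (hm : 4 ≤ m) (γ : MulAut (Cfsg.POmega F (Cfsg.quadFormPlus m F))) (hγ : Cfsg.IsSimilarityGraphAutPOmegaPlus m γ) (hγ2 : orderOf γ = 2) :
    (Cfsg.splitClassCount (Cfsg.inndiagPOmegaPlus m F) (Cfsg.Inn (Cfsg.POmega F (Cfsg.quadFormPlus m F))) γ = 1 ∨ Cfsg.splitClassCount (Cfsg.inndiagPOmegaPlus m F) (Cfsg.Inn (Cfsg.POmega F (Cfsg.quadFormPlus m F))) γ = 2) ∧ (¬ (Odd m ∧ Fintype.card F % 4 = 3) → Cfsg.splitClassCount (Cfsg.inndiagPOmegaPlus m F) (Cfsg.Inn (Cfsg.POmega F (Cfsg.quadFormPlus m F))) γ = 2) := by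
  classical
  obtain ⟨k, rfl⟩ : ∃ k, m = k + 3 := ⟨m - 3, by omega⟩
  have hodd' : Odd (Nat.card F) := by rwa [Nat.card_eq_fintype_card]
  obtain ⟨g, hg, hcl, hind⟩ := hγ
  obtain rfl := (Agent.Classical.isInduced_iff ⟨g, hg⟩ γ).1 hind
  set D := Agent.Classical.plusCoord (F := F) k
  have hds : D.dsign (k + 3) ⟨g, hg⟩ ≠ 1 := by
    intro h
    refine hcl ?_
    have h' := Agent.Classical.preservesSingularClasses_iff D.Qf D.bNondeg_Qf
      (Agent.Classical.two_ne_zero_of_odd hodd')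
      (LinearEquiv.refl F (Fin (k + 3) ⊕ Fin (k + 3) → F)) (fun v => (D.hQf v).symm)
      (D.mu ⟨g, hg⟩).ne_zero g.isUnit (fun v => by rw [D.hQf, D.hQf]; exact D.f_mulVec ⟨g, hg⟩ v)
    rw [show (⇑D.Qf : _ → F) = Cfsg.quadFormPlus (k + 3) F from funext D.hQf] at h'
    rw [h']
    change Matrix.GeneralLinearGroup.det g * (D.mu ⟨g, hg⟩ ^ (k + 3))⁻¹ = 1 at h
    rw [mul_inv_eq_one, Units.ext_iff, Matrix.GeneralLinearGroup.val_det_apply,
      Units.val_pow_eq_pow_val] at h
    exact h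
  obtain ⟨S⟩ := Agent.Classical.nonempty_genSim_plus (F := F) k hodd'
  rw [Agent.Classical.inndiag_plus_eq k hodd']
  obtain ⟨h1, h2⟩ := Agent.SimFusion.split_count D hodd' (Agent.Classical.card_plus k) (by omega)
    S.hs1 S.hs2 ⟨g, hg⟩ hds (by rw [← hγ2]; exact pow_orderOf_eq_one _)
  refine ⟨h1, fun hne => h2 (Or.inl ?_)⟩
  rw [Agent.Classical.theta_negI_plus k hodd', if_neg]
  rwa [Nat.card_eq_fintype_card]

end Cfsg.Agent.S2718
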