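import Cfsg.Statements.S2719
import Cfsg.Agent.SimFusion.Split
import Cfsg.Agent.OutPO.MinusOut

set_option autoImplicit false
open Cfsg

namespace Cfsg.Agent.S2719

/-- Let T = PΩ⁻_{2m+2}(F) with m ≥ 3 and |F| = q odd (form with anisotropic binary part z₁² + a z₁ z₂ + b z₂²), G = Inndiag(T), and γ an involutory graph automorphism of T (an automorphism in the image of the semisimilarity group, not inner-diagonal, of order 2). Then the G-class of γ is either a single T-class or the union of exactly two T-classes, and it is the union of two unless m is even and q ≡ 1 (mod 4). -/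
theorem result {F : Type*} [Field F] [Fintype F] (hodd : Odd (Fintype.card F)) {m : ℕ} (hm : 3 ≤ m) (a b : F) (hab : (∀ z₁ z₂ : F, z₁ ^ 2 + a * z₁ * z₂ + b * z₂ ^ 2 = 0 → z₁ = 0 ∧ z₂ = 0)) (γ : MulAut (Cfsg.POmega F (Cfsg.quadFormMinus m F a b))) (hγ : Cfsg.IsGraphAutClassPOmegaMinus m a b γ) (hγ2 : orderOf γ = 2) :
    (Cfsg.splitClassCount (Cfsg.inndiagPOmegaMinus m F a b) (Cfsg.Inn (Cfsg.POmega F (Cfsg.quadFormMinus m F a b))) γ = 1 ∨ Cfsg.splitClassCount (Cfsg.inndiagPOmegaMinus m F a b) (Cfsg.Inn (Cfsg.POmega F (Cfsg.quadFormMinus m F a b))) γ = 2) ∧ (¬ (Even m ∧ Fintype.card F % 4 = 1) → Cfsg.splitClassCount (Cfsg.inndiagPOmegaMinus m F a b) (Cfsg.Inn (Cfsg.POmega F (Cfsg.quadFormMinus m F a b))) γ = 2) := by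
  classical
  obtain ⟨k, rfl⟩ : ∃ k, m = k + 3 := ⟨m - 3, by omega⟩
  have hodd' : Odd (Nat.card F) := by rwa [Nat.card_eq_fintype_card]
  have hA := Agent.Classical.anisotropic_binQF (a := a) (b := b) hab
  obtain ⟨K, _, _, ω, E⟩ := Agent.OutPO.exists_qext hA
  obtain ⟨-, hnin, -⟩ := hγ
  -- the automorphism comes from a similarity
  obtain ⟨g, τ, hg, rfl⟩ := Agent.OutPO.exists_decomp_minus E γ
  haveI := E.finite
  have hsq : Agent.Classical.simAut (g * Agent.OutPO.gConj k E τ g) * Agent.OutPO.gamma k E (τ * τ) = 1 := by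
    rw [Agent.OutPO.simAut_mul, map_mul]
    calc _ = Agent.Classical.simAut g * (Agent.Classical.simAut (Agent.OutPO.gConj k E τ g) *
          Agent.OutPO.gamma k E τ) * Agent.OutPO.gamma k E τ := by group
      _ = (Agent.Classical.simAut g * Agent.OutPO.gamma k E τ) ^ 2 := by
        rw [← Agent.OutPO.gamma_mul_simAut, pow_two]; group
      _ = 1 := by
        have h := pow_orderOf_eq_one (Agent.Classical.simAut g * Agent.OutPO.gamma k E τ)
        rwa [hγ2] at h
  have hττ : τ * τ = 1 := (Agent.OutPO.simAut_gamma_eq_one E _ (τ * τ)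
    (by rw [map_mul, Agent.OutPO.chi_gConj, hg, one_mul]) hsq).1
  have hτ1 : τ ≠ 1 := by
    rintro rfl
    apply hnin
    rw [Agent.OutPO.inndiagMinus_eq E, map_one, mul_one]
    exact ⟨g, hg, rfl⟩
  have hτ : τ = E.conj := by
    obtain ⟨p, hp⟩ := CharP.exists F
    obtain ⟨e, hp', hcard⟩ := FiniteField.card F p
    haveI : Fact p.Prime := ⟨hp'⟩
    obtain ⟨eK⟩ := E.ringAut_equiv (p := p) (f := e) (by rw [Nat.card_eq_fintype_card]; exact hcard)
    haveI : Finite (K ≃+* K) := Finite.of_injective (fun σ => (σ : K → K)) DFunLike.coe_injective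
    haveI : Fintype (K ≃+* K) := Fintype.ofFinite _
    haveI : IsCyclic (K ≃+* K) := isCyclic_of_surjective eK.symm.toMonoidHom eK.symm.surjective
    by_contra hne
    have hle := IsCyclic.card_pow_eq_one_le (α := K ≃+* K) (n := 2) (by norm_num)
    have hsub : ({1, τ, E.conj} : Finset (K ≃+* K)) ⊆ Finset.univ.filter fun σ => σ ^ 2 = 1 := by
      intro σ hσ
      simp only [Finset.mem_insert, Finset.mem_singleton] at hσ
      simp only [Finset.mem_filter, Finset.mem_univ, true_and, pow_two]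
      rcases hσ with rfl | rfl | rfl
      · exact one_mul 1
      · exact hττ
      · exact E.conj_mul_conj
    have h3 : ({1, τ, E.conj} : Finset (K ≃+* K)).card = 3 := by
      rw [Finset.card_insert_of_notMem (by simp [hτ1.symm, E.conj_ne_one.symm]),
        Finset.card_pair hne]
    have := (Finset.card_le_card hsub).trans hle
    omega
  subst hτ
  obtain ⟨r, hr, hrL⟩ := Agent.OutPO.exists_conjRefl k E
  rw [Agent.OutPO.gamma_eq_simAut_of_L E _ r hrL, ← Agent.OutPO.simAut_mul] at hγ2 ⊢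
  have hchi : g * r ∉ (Agent.OutPO.chi E).ker := by
    rw [MonoidHom.mem_ker, map_mul, hg, one_mul, hr]
    decide
  rw [Agent.OutPO.ker_chi_eq_dsign E hodd', MonoidHom.mem_ker] at hchi
  obtain ⟨S⟩ := Agent.Classical.nonempty_genSim_minus (F := F) k hodd' hA
  rw [Agent.Classical.inndiag_minus_eq k hodd' hA]
  obtain ⟨h1, h2⟩ := Agent.SimFusion.split_count (Agent.Classical.minusCoord k hA) hodd'
    (Agent.Classical.card_minus k) (by omega) S.hs1 S.hs2 (g * r) hchi
    (by have h := pow_orderOf_eq_one (Agent.Classical.simAut (g * r)); rwa [hγ2] at h)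
  refine ⟨h1, fun hne => h2 ?_⟩
  rcases Nat.even_or_odd (k + 3) with he | ho
  · left
    rw [Agent.Classical.theta_negI_minus k hodd' hA, if_pos]
    refine ⟨he, ?_⟩
    rw [Nat.card_eq_fintype_card]
    have h4 := Nat.odd_iff.1 hodd
    have : ¬ Fintype.card F % 4 = 1 := fun h => hne ⟨he, h⟩
    omega
  · exact Or.inr (Nat.even_iff.2 (by rw [Nat.odd_iff] at ho; omega))

end Cfsg.Agent.S2719
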