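import Cfsg.Statements.S2722
import Cfsg.Agent.Classical.SimPlus

set_option autoImplicit false
set_option maxHeartbeats 1000000
open Cfsg

namespace Cfsg.Agent.S2722

/-- Let T = PΩ⁺_{2m}(F) with m ≥ 4 and |F| = q odd. Inside Aut(T), the image G̃ of the conformal orthogonal group of the form modulo the image of the special orthogonal group is elementary abelian of order 4. -/
theorem result {F : Type*} [Field F] [Fintype F] (hodd : Odd (Fintype.card F)) {m : ℕ} (hm : 4 ≤ m) :
    (∃ φ : ↥(Cfsg.pgoAut F (Cfsg.quadFormPlus m F)) →* Multiplicative (ZMod 2 × ZMod 2), Function.Surjective φ ∧ φ.ker = (Cfsg.psoAut F (Cfsg.quadFormPlus m F)).subgroupOf (Cfsg.pgoAut F (Cfsg.quadFormPlus m F))) := by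
  obtain ⟨k, rfl⟩ : ∃ k, m = k + 3 := ⟨m - 3, by omega⟩
  have hodd' : Odd (Nat.card F) := by rwa [Nat.card_eq_fintype_card]
  obtain ⟨S⟩ := Cfsg.Agent.Classical.nonempty_genSim_plus (F := F) k hodd'
  have hn := Cfsg.Agent.Classical.card_plus k
  have hθ := Cfsg.Agent.Classical.theta_negI_plus (F := F) k hodd'
  rw [Nat.card_eq_fintype_card] at hθ
  set D := Cfsg.Agent.Classical.plusCoord (F := F) k
  exact D.conformal_mod_special hodd' hn S.hs1 S.hs2


end Cfsg.Agent.S2722
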