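import Cfsg.Statements.S2723
import Cfsg.Agent.Classical.SimPlus

set_option autoImplicit false
open Cfsg

namespace Cfsg.Agent.S2723

/-- Let T = PΩ⁺_{2m}(F) with m ≥ 4 and |F| = q odd. The image of the special orthogonal group in Aut(T) contains the inner automorphism group T with index 1 (they coincide) when m is odd and q ≡ 3 (mod 4), and with index 2 otherwise (the index is 2 exactly when the discriminant of the form is a square). -/
theorem result {F : Type*} [Field F] [Fintype F] (hodd : Odd (Fintype.card F)) {m : ℕ} (hm : 4 ≤ m) :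
    ((Odd m ∧ Fintype.card F % 4 = 3) → (Cfsg.Inn (Cfsg.POmega F (Cfsg.quadFormPlus m F))).relIndex (Cfsg.psoAut F (Cfsg.quadFormPlus m F)) = 1) ∧ (¬ (Odd m ∧ Fintype.card F % 4 = 3) → (Cfsg.Inn (Cfsg.POmega F (Cfsg.quadFormPlus m F))).relIndex (Cfsg.psoAut F (Cfsg.quadFormPlus m F)) = 2) := by
  obtain ⟨k, rfl⟩ : ∃ k, m = k + 3 := ⟨m - 3, by omega⟩
  have hodd' : Odd (Nat.card F) := by rwa [Nat.card_eq_fintype_card]
  obtain ⟨S⟩ := Cfsg.Agent.Classical.nonempty_genSim_plus (F := F) k hodd'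
  have hn := Cfsg.Agent.Classical.card_plus k
  have hθ := Cfsg.Agent.Classical.theta_negI_plus (F := F) k hodd'
  rw [Nat.card_eq_fintype_card] at hθ
  set D := Cfsg.Agent.Classical.plusCoord (F := F) k
  exact ⟨fun h => (D.relIndex_pso hodd' hn).1 (by rw [hθ, if_pos h]),
    fun h => (D.relIndex_pso hodd' hn).2 (by rw [hθ, if_neg h])⟩


end Cfsg.Agent.S2723
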