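import Cfsg.Statements.S2726
import Cfsg.Agent.Classical.SimMinus

set_option autoImplicit false
set_option maxHeartbeats 4000000
open Cfsg

namespace Cfsg.Agent.S2726

/-- Let T = PΩ⁻_{2m+2}(F) with m ≥ 3 and |F| = q odd (form with anisotropic binary part). Inside Aut(T), the image G̃ of the conformal orthogonal group of the form modulo the image of the special orthogonal group is elementary abelian of order 4. -/
theorem result {F : Type*} [Field F] [Fintype F] (hodd : Odd (Fintype.card F)) {m : ℕ} (hm : 3 ≤ m) (a b : F) (hab : (∀ z₁ z₂ : F, z₁ ^ 2 + a * z₁ * z₂ + b * z₂ ^ 2 = 0 → z₁ = 0 ∧ z₂ = 0)) :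
    (∃ φ : ↥(Cfsg.pgoAut F (Cfsg.quadFormMinus m F a b)) →* Multiplicative (ZMod 2 × ZMod 2), Function.Surjective φ ∧ φ.ker = (Cfsg.psoAut F (Cfsg.quadFormMinus m F a b)).subgroupOf (Cfsg.pgoAut F (Cfsg.quadFormMinus m F a b))) := by
  obtain ⟨k, rfl⟩ : ∃ k, m = k + 3 := ⟨m - 3, by omega⟩
  have hodd' : Odd (Nat.card F) := by rwa [Nat.card_eq_fintype_card]
  have hA := Cfsg.Agent.Classical.anisotropic_binQF hab
  obtain ⟨S⟩ := Cfsg.Agent.Classical.nonempty_genSim_minus k hodd' hA
  have hn := Cfsg.Agent.Classical.card_minus k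
  have hθ := Cfsg.Agent.Classical.theta_negI_minus k hodd' hA
  rw [Nat.card_eq_fintype_card] at hθ
  set D := Cfsg.Agent.Classical.minusCoord k hA
  exact D.conformal_mod_special hodd' hn S.hs1 S.hs2


end Cfsg.Agent.S2726
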