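import Cfsg.Statements.S2727
import Cfsg.Agent.Classical.SimMinus

set_option autoImplicit false
set_option maxHeartbeats 4000000
open Cfsg

namespace Cfsg.Agent.S2727

/-- Let T = PΩ⁻_{2m+2}(F) with m ≥ 3 and |F| = q odd (form with anisotropic binary part). The image of the special orthogonal group in Aut(T) contains the inner automorphism group T with index 2 when m is even and q ≡ 3 (mod 4), and coincides with it otherwise (the index is 2 exactly when the discriminant of the form is a square). -/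
theorem result {F : Type*} [Field F] [Fintype F] (hodd : Odd (Fintype.card F)) {m : ℕ} (hm : 3 ≤ m) (a b : F) (hab : (∀ z₁ z₂ : F, z₁ ^ 2 + a * z₁ * z₂ + b * z₂ ^ 2 = 0 → z₁ = 0 ∧ z₂ = 0)) :
    ((Even m ∧ Fintype.card F % 4 = 3) → (Cfsg.Inn (Cfsg.POmega F (Cfsg.quadFormMinus m F a b))).relIndex (Cfsg.psoAut F (Cfsg.quadFormMinus m F a b)) = 2) ∧ (¬ (Even m ∧ Fintype.card F % 4 = 3) → (Cfsg.Inn (Cfsg.POmega F (Cfsg.quadFormMinus m F a b))).relIndex (Cfsg.psoAut F (Cfsg.quadFormMinus m F a b)) = 1) := by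
  obtain ⟨k, rfl⟩ : ∃ k, m = k + 3 := ⟨m - 3, by omega⟩
  have hodd' : Odd (Nat.card F) := by rwa [Nat.card_eq_fintype_card]
  have hA := Cfsg.Agent.Classical.anisotropic_binQF hab
  obtain ⟨S⟩ := Cfsg.Agent.Classical.nonempty_genSim_minus k hodd' hA
  have hn := Cfsg.Agent.Classical.card_minus k
  have hθ := Cfsg.Agent.Classical.theta_negI_minus k hodd' hA
  rw [Nat.card_eq_fintype_card] at hθ
  set D := Cfsg.Agent.Classical.minusCoord k hA
  exact ⟨fun h => (D.relIndex_pso hodd' hn).2 (by rw [hθ, if_pos h]),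
    fun h => (D.relIndex_pso hodd' hn).1 (by rw [hθ, if_neg h])⟩


end Cfsg.Agent.S2727
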