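import Cfsg.Statements.S2728
import Cfsg.Agent.Classical.SimMinus

set_option autoImplicit false
set_option maxHeartbeats 4000000
open Cfsg

namespace Cfsg.Agent.S2728

/-- Let T = PΩ⁻_{2m+2}(F) with m ≥ 3 and |F| = q odd (form with anisotropic binary part). The image G̃ of the conformal orthogonal group in Aut(T), taken modulo the inner automorphism group T, is dihedral of order 8 when m is even and q ≡ 3 (mod 4), and elementary abelian of order 4 otherwise. -/
theorem result {F : Type*} [Field F] [Fintype F] (hodd : Odd (Fintype.card F)) {m : ℕ} (hm : 3 ≤ m) (a b : F) (hab : (∀ z₁ z₂ : F, z₁ ^ 2 + a * z₁ * z₂ + b * z₂ ^ 2 = 0 → z₁ = 0 ∧ z₂ = 0)) :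
    ((Even m ∧ Fintype.card F % 4 = 3) → (∃ φ : ↥(Cfsg.pgoAut F (Cfsg.quadFormMinus m F a b)) →* DihedralGroup 4, Function.Surjective φ ∧ φ.ker = (Cfsg.Inn (Cfsg.POmega F (Cfsg.quadFormMinus m F a b))).subgroupOf (Cfsg.pgoAut F (Cfsg.quadFormMinus m F a b)))) ∧ (¬ (Even m ∧ Fintype.card F % 4 = 3) → (∃ φ : ↥(Cfsg.pgoAut F (Cfsg.quadFormMinus m F a b)) →* Multiplicative (ZMod 2 × ZMod 2), Function.Surjective φ ∧ φ.ker = (Cfsg.Inn (Cfsg.POmega F (Cfsg.quadFormMinus m F a b))).subgroupOf (Cfsg.pgoAut F (Cfsg.quadFormMinus m F a b)))) := by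
  obtain ⟨k, rfl⟩ : ∃ k, m = k + 3 := ⟨m - 3, by omega⟩
  have hodd' : Odd (Nat.card F) := by rwa [Nat.card_eq_fintype_card]
  have hA := Cfsg.Agent.Classical.anisotropic_binQF hab
  obtain ⟨S⟩ := Cfsg.Agent.Classical.nonempty_genSim_minus k hodd' hA
  have hn := Cfsg.Agent.Classical.card_minus k
  have hθ := Cfsg.Agent.Classical.theta_negI_minus k hodd' hA
  rw [Nat.card_eq_fintype_card] at hθ
  set D := Cfsg.Agent.Classical.minusCoord k hA
  refine ⟨fun h => D.conformal_mod_inn_dihedral hodd' hn (by rw [hθ, if_pos h]) S, fun h => ?_⟩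
  rw [D.inn_eq_pso hodd' hn (by rw [hθ, if_neg h])]
  exact D.conformal_mod_special hodd' hn S.hs1 S.hs2


end Cfsg.Agent.S2728
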