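import Cfsg.Statements.S2738

set_option autoImplicit false
open Cfsg

namespace Cfsg.Agent.S2738

/-- The special linear group SL(3, 4) has centre of order 3 and does not split over it: no subgroup is a complement to the centre (so SL(3, 4) is a non-split central extension of PSL(3, 4) by a group of order 3). -/
theorem result (F : Type*) [Field F] [Fintype F] (hF : Fintype.card F = 4) : Nat.card ↥(Subgroup.center (Matrix.SpecialLinearGroup (Fin 3) F)) = 3 ∧ ¬ ∃ K : Subgroup (Matrix.SpecialLinearGroup (Fin 3) F), Subgroup.IsComplement' (Subgroup.center (Matrix.SpecialLinearGroup (Fin 3) F)) K := by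
  classical
  have hu : Fintype.card Fˣ = 3 := by rw [Fintype.card_units, hF]
  have hcube : ∀ x : F, x ≠ 0 → x ^ 3 = 1 := by
    intro x hx
    have := FiniteField.pow_card_sub_one_eq_one x hx
    rwa [hF] at this
  obtain ⟨w, hw0, hw1⟩ : ∃ w : F, w ≠ 0 ∧ w ≠ 1 := by
    by_contra h
    push Not at h
    have : (Finset.univ : Finset F) ⊆ {0, 1} := by
      intro x _
      by_cases hx : x = 0
      · simp [hx]
      · simp [h x hx]
    have := (Finset.card_le_card this).trans Finset.card_le_two
    rw [Finset.card_univ, hF] at this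
    omega
  constructor
  · rw [Nat.card_congr (Matrix.SpecialLinearGroup.center_equiv_rootsOfUnity' (0 : Fin 3)).toEquiv,
      Fintype.card_fin]
    have htop : rootsOfUnity 3 F = ⊤ := by
      refine eq_top_iff.2 fun u _ => ?_
      rw [mem_rootsOfUnity]
      exact Units.ext (by simpa using hcube (u : F) u.ne_zero)
    rw [htop, Subgroup.card_top, Nat.card_eq_fintype_card, hu]
  · rintro ⟨K, hK⟩
    have hw3 : w * w * w = 1 := by rw [← hcube w hw0]; ring
    let A : Matrix.SpecialLinearGroup (Fin 3) F :=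
      ⟨!![1, 0, 0; 0, w, 0; 0, 0, w * w], by simp [Matrix.det_fin_three]; rw [← mul_assoc, hw3]⟩
    let B : Matrix.SpecialLinearGroup (Fin 3) F :=
      ⟨!![0, 0, 1; 1, 0, 0; 0, 1, 0], by simp [Matrix.det_fin_three]⟩
    let C : Matrix.SpecialLinearGroup (Fin 3) F :=
      ⟨Matrix.scalar (Fin 3) w, by simp [Matrix.det_diagonal, hcube w hw0]⟩
    have hC : C ∈ Subgroup.center (Matrix.SpecialLinearGroup (Fin 3) F) :=
      Matrix.SpecialLinearGroup.mem_center_iff.2 ⟨w, by simpa using hcube w hw0, rfl⟩
    have hAB : A * B = C * (B * A) := by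
      apply Subtype.ext
      show !![1, 0, 0; 0, w, 0; 0, 0, w * w] * !![0, 0, 1; 1, 0, 0; 0, 1, 0] =
        Matrix.scalar (Fin 3) w * (!![0, 0, 1; 1, 0, 0; 0, 1, 0] * !![1, 0, 0; 0, w, 0; 0, 0, w * w])
      ext i j
      fin_cases i <;> fin_cases j <;>
        simp [Matrix.mul_apply, Fin.sum_univ_three]
      linear_combination -hw3
    have hdec : ∀ x : Matrix.SpecialLinearGroup (Fin 3) F, ∃ z ∈ Subgroup.center (Matrix.SpecialLinearGroup (Fin 3) F),
        ∃ k ∈ K, z * k = x := by
      intro x
      obtain ⟨⟨z, k⟩, h⟩ := hK.2 x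
      exact ⟨z, z.2, k, k.2, h⟩
    obtain ⟨z, hz, k, hk, hA⟩ := hdec A
    obtain ⟨z', hz', k', hk', hB⟩ := hdec B
    have hCK : C ∈ K := by
      have h1 : C = k * k' * k⁻¹ * k'⁻¹ := by
        have h2 : C = A * B * (B * A)⁻¹ := by rw [hAB]; group
        rw [h2, ← hA, ← hB]
        have c1 := Subgroup.mem_center_iff.1 hz
        have c2 := Subgroup.mem_center_iff.1 hz'
        have h3 : z * k * (z' * k') = z * z' * (k * k') := by
          rw [mul_assoc, ← mul_assoc k, c2 k]; group
        have h4 : z' * k' * (z * k) = z * z' * (k' * k) := by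
          rw [mul_assoc, ← mul_assoc k', c1 k', mul_assoc z k' k, ← mul_assoc z', ← c2 z]
        have c3 := Subgroup.mem_center_iff.1 (mul_mem hz hz') (k * k' * (k' * k)⁻¹)
        rw [h3, h4, mul_inv_rev, mul_assoc, ← mul_assoc (k * k'), ← mul_assoc (z * z'), ← c3]
        group
      rw [h1]
      exact mul_mem (mul_mem (mul_mem hk hk') (inv_mem hk)) (inv_mem hk')
    have : C = 1 := Subgroup.disjoint_def.1 hK.disjoint hC hCK
    have h00 := congrArg (fun M : Matrix.SpecialLinearGroup (Fin 3) F => (M : Matrix (Fin 3) (Fin 3) F) 0 0) this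
    simp [C] at h00
    exact hw1 h00

end Cfsg.Agent.S2738
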