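import Cfsg.Statements.S2739
import Cfsg.Agent.AutPSL.Basic

set_option autoImplicit false
open scoped Pointwise
open Cfsg

namespace Cfsg.Agent.S2739

open Matrix Polynomial in
/-- Every element of order three of `PSL(3,4)` is conjugate to the class of `diag(1, w, w²)`. -/
theorem exists_conj_std {F : Type*} [Field F] [Fintype F] (hF : Fintype.card F = 4) (D : Matrix.SpecialLinearGroup (Fin 3) F)
    (w : F) (hw0 : w ≠ 0) (hw1 : w ≠ 1) (hD : (D : Matrix (Fin 3) (Fin 3) F) = Matrix.diagonal ![1, w, w * w])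
    (x : Matrix.ProjectiveSpecialLinearGroup (Fin 3) F) (hx : orderOf x = 3) :
    ∃ h : Matrix.ProjectiveSpecialLinearGroup (Fin 3) F, x = h * Cfsg.Agent.AutPSL.proj D * h⁻¹ := by
  classical
  have hcube : ∀ a : F, a ≠ 0 → a ^ 3 = 1 := by
    intro a ha
    have := FiniteField.pow_card_sub_one_eq_one a ha
    rwa [hF] at this
  have hw3 : w ^ 3 = 1 := hcube w hw0
  have hchar : (2 : F) = 0 := by
    have h4 : ((4 : ℕ) : F) = 0 := by rw [← hF]; exact Nat.cast_card_eq_zero F
    norm_num at h4
    exact mul_self_eq_zero.1 (by linear_combination h4)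
  have hwrel : 1 + w + w * w = 0 := by
    have h : (w - 1) * (1 + w + w * w) = 0 := by linear_combination hw3
    exact (mul_eq_zero.1 h).resolve_left (sub_ne_zero.2 hw1)
  have hall : ∀ a : F, a ≠ 0 → a = 1 ∨ a = w ∨ a = w * w := by
    intro a ha
    have h : (a - 1) * (a - w) * (a - w * w) = 0 := by
      linear_combination hcube a ha + (-(a ^ 2) + a * w) * hwrel - hw3
    rcases mul_eq_zero.1 h with h | h
    · rcases mul_eq_zero.1 h with h | h
      · exact Or.inl (sub_eq_zero.1 h)
      · exact Or.inr (Or.inl (sub_eq_zero.1 h))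
    · exact Or.inr (Or.inr (sub_eq_zero.1 h))
  obtain ⟨g, rfl⟩ := Cfsg.Agent.AutPSL.proj_surjective x
  set G : Matrix (Fin 3) (Fin 3) F := (g : Matrix (Fin 3) (Fin 3) F) with hG
  obtain ⟨c, hc⟩ : ∃ c : F, G ^ 3 = c • (1 : Matrix (Fin 3) (Fin 3) F) := by
    have h1 := pow_orderOf_eq_one (Cfsg.Agent.AutPSL.proj g)
    rw [hx, ← map_pow, ← map_one Cfsg.Agent.AutPSL.proj] at h1
    obtain ⟨c, hc⟩ := Cfsg.Agent.AutPSL.proj_eq_proj_iff.1 h1.symm
    exact ⟨c, by rw [Matrix.SpecialLinearGroup.coe_one, Matrix.SpecialLinearGroup.coe_pow] at hc; exact hc⟩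
  have hc3 : c ^ 3 = 1 := by
    have := congrArg Matrix.det hc
    rwa [Matrix.det_pow, g.2, one_pow, Matrix.det_smul, Matrix.det_one, mul_one, Fintype.card_fin,
      eq_comm] at this
  have hc1 : c = 1 := by
    by_contra hne
    set p : F[X] := X ^ 3 - C c with hp
    have hdeg : p.natDegree = 3 := by rw [hp, natDegree_X_pow_sub_C]
    have hp0 : p ≠ 0 := ne_zero_of_natDegree_gt (n := 2) (by omega)
    have hirr : Irreducible p := by
      refine (irreducible_iff_roots_eq_zero_of_degree_le_three (by omega) (by omega)).2 ?_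
      refine Multiset.eq_zero_of_forall_notMem fun a ha => ?_
      rw [mem_roots hp0] at ha
      have he : a ^ 3 = c := by simpa [hp, sub_eq_zero] using ha.eq_zero
      have ha0 : a ≠ 0 := fun e => by rw [e, zero_pow (by norm_num)] at he; rw [← he] at hc3; simp at hc3
      exact hne (by rw [← he, hcube a ha0])
    have hmin : minpoly F G = p :=
      (minpoly.eq_of_irreducible_of_monic hirr (by simp [hp, hc, Algebra.algebraMap_eq_smul_one])
        (monic_X_pow_sub_C c (by norm_num))).symm
    have hdvd := Matrix.minpoly_dvd_charpoly G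
    rw [hmin] at hdvd
    have hd2 : G.charpoly.natDegree = 3 := by rw [Matrix.charpoly_natDegree_eq_dim, Fintype.card_fin]
    have heq : p = G.charpoly :=
      eq_of_monic_of_associated (monic_X_pow_sub_C c (by norm_num)) (Matrix.charpoly_monic G)
        (associated_of_dvd_of_natDegree_le hdvd (Matrix.charpoly_monic G).ne_zero (by omega))
    have h0 := Matrix.det_eq_sign_charpoly_coeff G
    rw [g.2, ← heq, Fintype.card_fin] at h0
    simp [hp, coeff_X_pow] at h0
    exact hne (by linear_combination -h0)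
  subst hc1
  rw [one_smul] at hc
  let S : Set (Fin 3 → F) := {v | ∃ a : F, a ≠ 0 ∧ G *ᵥ v = a • v}
  have hspan : Submodule.span F S = ⊤ := by
    refine eq_top_iff.2 fun v _ => ?_
    have hG3 : G *ᵥ (G *ᵥ (G *ᵥ v)) = v := by
      rw [mulVec_mulVec, mulVec_mulVec, show G * G * G = 1 by rw [← hc]; simp [pow_succ], one_mulVec]
    have proj : ∀ a : F, a ≠ 0 → v + (a * a) • (G *ᵥ v) + a • (G *ᵥ (G *ᵥ v)) ∈ S := by
      intro a ha
      refine ⟨a, ha, ?_⟩
      rw [mulVec_add, mulVec_add, mulVec_smul, mulVec_smul, hG3, smul_add, smul_add, smul_smul, smul_smul,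
        show a * (a * a) = 1 by rw [← hcube a ha]; ring, one_smul]
      abel
    have h1 := proj 1 one_ne_zero
    have h2 := proj w hw0
    have h3 := proj (w * w) (mul_ne_zero hw0 hw0)
    have hsum := Submodule.add_mem _ (Submodule.add_mem _ (Submodule.subset_span (R := F) h1)
      (Submodule.subset_span (R := F) h2)) (Submodule.subset_span (R := F) h3)
    convert hsum using 1
    funext i
    simp only [Pi.add_apply, Pi.smul_apply, smul_eq_mul]
    linear_combination (-(v i)) * hchar + (-((G *ᵥ v) i) - (G *ᵥ (G *ᵥ v)) i) * hwrel +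
      (-((G *ᵥ v) i) * w) * hw3
  obtain ⟨t, hts, htspan, htli⟩ := exists_linearIndependent F S
  let B := Module.Basis.mk htli (le_of_eq (by rw [Subtype.range_coe, htspan, hspan]))
  let B' := B.reindex (B.indexEquiv (Pi.basisFun F (Fin 3)))
  have hB : ∀ i, ∃ a : F, a ≠ 0 ∧ G *ᵥ B' i = a • B' i := fun i => hts (by simp [B', B])
  choose d hd0 hd using hB
  -- transport to a matrix
  have mk : ∀ (B'' : Module.Basis (Fin 3) F (Fin 3 → F)) (e : Fin 3 → F), (∀ i, G *ᵥ B'' i = e i • B'' i) →
      ∃ M : GL (Fin 3) F, G * (M : Matrix (Fin 3) (Fin 3) F) = (M : Matrix (Fin 3) (Fin 3) F) * Matrix.diagonal e := by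
    intro B'' e he
    haveI := (Pi.basisFun F (Fin 3)).invertibleToMatrix B''
    refine ⟨unitOfInvertible ((Pi.basisFun F (Fin 3)).toMatrix B''), ?_⟩
    ext i j
    have := congrFun (he j) i
    show (G * (Pi.basisFun F (Fin 3)).toMatrix B'') i j = ((Pi.basisFun F (Fin 3)).toMatrix B'' * Matrix.diagonal e) i j
    rw [Matrix.mul_diagonal]
    simpa [Matrix.mul_apply, Matrix.mulVec, dotProduct, Module.Basis.toMatrix_apply, mul_comm] using this
  obtain ⟨M₀, hM₀⟩ := mk B' d hd
  have hdet : d 0 * d 1 * d 2 = 1 := by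
    have h := congrArg Matrix.det hM₀
    rw [Matrix.det_mul, Matrix.det_mul, g.2, one_mul, Matrix.det_diagonal, Fin.prod_univ_three] at h
    have hne : (M₀ : Matrix (Fin 3) (Fin 3) F).det ≠ 0 := Units.ne_zero (GeneralLinearGroup.det M₀)
    exact mul_left_cancel₀ hne (by rw [mul_one]; exact h.symm)
  have hinj : Function.Injective d := by
    by_contra hni
    obtain ⟨a, ha⟩ : ∃ a, ∀ i, d i = a := by
      have key : ∀ p q r : F, p ≠ 0 → r ≠ 0 → p = q → p * q * r = 1 → r = p := by
        intro p q r hp hr e h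
        subst e
        exact mul_left_cancel₀ (mul_ne_zero hp hp) (h.trans (by rw [← hcube p hp]; ring))
      rcases (show d 0 = d 1 ∨ d 0 = d 2 ∨ d 1 = d 2 by
        by_contra h
        push Not at h
        obtain ⟨h01, h02, h12⟩ := h
        apply hni
        intro i j e
        fin_cases i <;> fin_cases j <;> simp at e ⊢ <;>
          first | exact h01 e | exact h02 e | exact h12 e | exact h01 e.symm | exact h02 e.symm | exact h12 e.symm)
        with e | e | e
      · have h2 := key _ _ _ (hd0 0) (hd0 2) e hdet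
        exact ⟨d 0, fun i => by fin_cases i <;> simp [← e, h2]⟩
      · have h2 := key _ _ _ (hd0 0) (hd0 1) e (by linear_combination hdet)
        exact ⟨d 0, fun i => by fin_cases i <;> simp [← e, h2]⟩
      · have h2 := key _ _ _ (hd0 1) (hd0 0) e (by linear_combination hdet)
        exact ⟨d 1, fun i => by fin_cases i <;> simp [← e, h2]⟩
    have hsc : G = a • (1 : Matrix (Fin 3) (Fin 3) F) := by
      have h : Matrix.diagonal d = a • (1 : Matrix (Fin 3) (Fin 3) F) := by
        rw [smul_one_eq_diagonal]; congr 1; funext i; exact ha i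
      rw [h, Matrix.mul_smul, mul_one] at hM₀
      have h2 := congrArg (fun Z => Z * ((M₀⁻¹ : GL (Fin 3) F) : Matrix (Fin 3) (Fin 3) F)) hM₀
      simpa [mul_assoc] using h2
    have h1 : Cfsg.Agent.AutPSL.proj g = 1 := by
      rw [← map_one Cfsg.Agent.AutPSL.proj]
      exact (Cfsg.Agent.AutPSL.proj_eq_proj_iff.2 ⟨a, by
        rw [Matrix.SpecialLinearGroup.coe_one]; exact hsc⟩).symm
    rw [h1, orderOf_one] at hx
    norm_num at hx
  let pick : F → Fin 3 := fun a => if a = 1 then 0 else if a = w then 1 else 2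
  have hww : w * w ≠ w := fun e => hw1 (mul_left_cancel₀ hw0 (by rw [e, mul_one]))
  have hww1 : w * w ≠ 1 := fun e => hw1 (by linear_combination hw3 - w * e)
  have hpick : ∀ i, ![1, w, w * w] (pick (d i)) = d i := fun i => by
    rcases hall (d i) (hd0 i) with h | h | h
    · simp [pick, h]
    · simp [pick, h, hw1]
    · simp [pick, h, hww, hww1]
  have hpinj : Function.Injective (fun i => pick (d i)) := fun i j e =>
    hinj (by rw [← hpick i, ← hpick j]; exact congrArg _ e)
  let e := Equiv.ofBijective _ (Finite.injective_iff_bijective.1 hpinj)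
  obtain ⟨M, hM⟩ := mk (B'.reindex e) ![1, w, w * w] fun i => by
    obtain ⟨j, rfl⟩ := e.surjective i
    rw [B'.reindex_apply, e.symm_apply_apply, hd]
    congr 1
    exact (hpick j).symm
  set u : Fˣ := (GeneralLinearGroup.det M)⁻¹ with hu
  let N : Matrix.SpecialLinearGroup (Fin 3) F :=
    ⟨(M : Matrix (Fin 3) (Fin 3) F) * Matrix.diagonal ![(u : F), 1, 1], by
      rw [Matrix.det_mul, Matrix.det_diagonal, Fin.prod_univ_three]
      simp only [hu, Matrix.cons_val_zero, Matrix.cons_val_one]
      simp [← GeneralLinearGroup.val_det_apply]⟩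
  refine ⟨Cfsg.Agent.AutPSL.proj N, ?_⟩
  rw [← map_inv, ← map_mul, ← map_mul]
  congr 1
  rw [eq_mul_inv_iff_mul_eq]
  apply Subtype.ext
  show G * ((M : Matrix (Fin 3) (Fin 3) F) * Matrix.diagonal ![(u : F), 1, 1]) =
    (M : Matrix (Fin 3) (Fin 3) F) * Matrix.diagonal ![(u : F), 1, 1] * (D : Matrix (Fin 3) (Fin 3) F)
  rw [← mul_assoc, hM, hD, mul_assoc, mul_assoc, diagonal_mul_diagonal, diagonal_mul_diagonal]
  congr 1
  congr 1
  funext i
  exact mul_comm _ _


/-- In the projective special linear group PSL(3, 4) all subgroups of order 3 are conjugate. -/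
theorem result (F : Type*) [Field F] [Fintype F] (hF : Fintype.card F = 4) (X Y : Subgroup (Matrix.ProjectiveSpecialLinearGroup (Fin 3) F)) (hX : Nat.card ↥X = 3) (hY : Nat.card ↥Y = 3) : ∃ g : Matrix.ProjectiveSpecialLinearGroup (Fin 3) F, MulAut.conj g • X = Y := by
  classical
  haveI : Fact (Nat.Prime 3) := ⟨Nat.prime_three⟩
  obtain ⟨w, hw0, hw1⟩ : ∃ w : F, w ≠ 0 ∧ w ≠ 1 := by
    by_contra h
    push Not at h
    have : (Finset.univ : Finset F) ⊆ {0, 1} := by
      intro x _
      by_cases hx : x = 0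
      · simp [hx]
      · simp [h x hx]
    have := (Finset.card_le_card this).trans Finset.card_le_two
    rw [Finset.card_univ, hF] at this
    omega
  have hw3 : w * (w * w) = 1 := by
    have h := FiniteField.pow_card_sub_one_eq_one w hw0
    rw [hF] at h
    rw [← h]; ring
  let D : Matrix.SpecialLinearGroup (Fin 3) F :=
    ⟨Matrix.diagonal ![1, w, w * w], by simp [Matrix.det_diagonal, Fin.prod_univ_three, hw3]⟩
  have key : ∀ Z : Subgroup (Matrix.ProjectiveSpecialLinearGroup (Fin 3) F), Nat.card ↥Z = 3 →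
      ∃ h : Matrix.ProjectiveSpecialLinearGroup (Fin 3) F,
        Z = MulAut.conj h • Subgroup.zpowers (AutPSL.proj D) := by
    intro Z hZ
    haveI : Finite ↥Z := Nat.finite_of_card_ne_zero (by omega)
    haveI : Nontrivial ↥Z := Finite.one_lt_card_iff_nontrivial.1 (by omega)
    obtain ⟨⟨x, hxZ⟩, hx⟩ := exists_ne (1 : ↥Z)
    have hx3 : orderOf x = 3 := by
      rw [show x = ((⟨x, hxZ⟩ : ↥Z) : Matrix.ProjectiveSpecialLinearGroup (Fin 3) F) from rfl, Subgroup.orderOf_coe]
      exact orderOf_eq_prime ((congrArg (fun n => (⟨x, hxZ⟩ : ↥Z) ^ n) hZ).symm.trans pow_card_eq_one') hx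
    obtain ⟨h, hh⟩ := exists_conj_std hF D w hw0 hw1 rfl x hx3
    have hZx : Z = Subgroup.zpowers x := by
      refine (Subgroup.eq_of_le_of_card_ge (Subgroup.zpowers_le.2 hxZ) ?_).symm
      rw [Nat.card_zpowers, hx3, hZ]
    refine ⟨h, ?_⟩
    rw [hZx, hh, Subgroup.pointwise_smul_def]
    exact (MonoidHom.map_zpowers (MulAut.conj h).toMonoidHom (AutPSL.proj D)).symm
  obtain ⟨a, ha⟩ := key X hX
  obtain ⟨b, hb⟩ := key Y hY
  refine ⟨b * a⁻¹, ?_⟩
  rw [ha, hb, smul_smul, ← map_mul, inv_mul_cancel_right]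

end Cfsg.Agent.S2739
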