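import Cfsg.Statements.S2756
import Cfsg.Agent.EvenLocal.Inversion.Clean
import Cfsg.Agent.CharTwo.CommutingFamilies

set_option autoImplicit false
open Cfsg

namespace Cfsg.Agent.S2756

/-- For a finite group G the following are equivalent: (a) G has a normal Sylow 2-subgroup; (b) for every odd prime q dividing the order of G and every Sylow q-subgroup T, the normalizer of Z(J(T)) has a normal Sylow 2-subgroup; (c) for every odd prime q and every Sylow q-subgroup T, no nonidentity element of T is inverted by an element of the normalizer of Z(J(T)). Here J(T) is the Thompson subgroup generated by the abelian subgroups of T of largest order. Stated as the two equivalences (a) ⇔ (b) and (a) ⇔ (c). -/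
theorem result {G : Type*} [Group G] [Finite G] : ((∀ P : Sylow 2 G, (P : Subgroup G).Normal) ↔ ∀ (q : ℕ) [Fact q.Prime], q ≠ 2 → q ∣ Nat.card G → ∀ T : Sylow q G, ∀ P : Sylow 2 ↥(Subgroup.normalizer (Cfsg.centerThompsonAOf (T : Subgroup G) : Set G)), (P : Subgroup ↥(Subgroup.normalizer (Cfsg.centerThompsonAOf (T : Subgroup G) : Set G))).Normal) ∧ ((∀ P : Sylow 2 G, (P : Subgroup G).Normal) ↔ ∀ (q : ℕ) [Fact q.Prime], q ≠ 2 → ∀ T : Sylow q G, ∀ x ∈ (T : Subgroup G), x ≠ 1 → ∀ g ∈ Subgroup.normalizer (Cfsg.centerThompsonAOf (T : Subgroup G) : Set G), g * x * g⁻¹ ≠ x⁻¹) := by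
  haveI : Fact (Nat.Prime 2) := ⟨Nat.prime_two⟩
  -- a normal Sylow `2`-subgroup excludes inversions of odd `p`-elements
  have hac : ∀ {H : Type _} [Group H] [Finite H], (∀ P : Sylow 2 H, (P : Subgroup H).Normal) →
      ∀ (q : ℕ) [Fact q.Prime], q ≠ 2 → ∀ x g : H, (∃ k, orderOf x = q ^ k) →
        g * x * g⁻¹ = x⁻¹ → x = 1 := by
    intro H _ _ hP q _ hq x g ⟨k, hk⟩ he
    obtain ⟨P⟩ := (inferInstance : Nonempty (Sylow 2 H))
    haveI := hP P
    set π := QuotientGroup.mk' (P : Subgroup H) with hπ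
    have hodd : Odd (orderOf (π g)) := by
      refine Nat.odd_iff.2 (Nat.two_dvd_ne_zero.1 fun h2 => P.not_dvd_index ?_)
      rw [Subgroup.index_eq_card]
      exact h2.trans (orderOf_dvd_natCard _)
    have h1 : π g * π x * (π g)⁻¹ = (π x)⁻¹ := by
      rw [← map_inv, ← map_mul, ← map_mul, he, map_inv]
    have h2 := EvenLocal.conj_eq_inv_of_odd_pow h1 hodd
    rw [pow_orderOf_eq_one, one_mul, inv_one, mul_one, eq_inv_iff_mul_eq_one] at h2
    have hx2 : orderOf (π x) ∣ 2 := orderOf_dvd_of_pow_eq_one (by rw [sq]; exact h2)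
    have hxq : orderOf (π x) ∣ q ^ k := hk ▸ orderOf_map_dvd π x
    have hπx : π x = 1 := orderOf_eq_one_iff.1 (Nat.eq_one_of_dvd_coprimes
      (Nat.Coprime.pow_left k ((Nat.coprime_primes Fact.out Nat.prime_two).2 hq)) hxq hx2)
    obtain ⟨j, hj⟩ := P.2 ⟨x, (QuotientGroup.eq_one_iff x).1 hπx⟩
    exact orderOf_eq_one_iff.1 (Nat.eq_one_of_dvd_coprimes
      (Nat.Coprime.pow k j ((Nat.coprime_primes Fact.out Nat.prime_two).2 hq))
      (dvd_of_eq hk) (orderOf_dvd_of_pow_eq_one (congrArg Subtype.val hj)))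
  -- (c) gives (a)
  have hca : (∀ (q : ℕ) [Fact q.Prime], q ≠ 2 → ∀ T : Sylow q G, ∀ x ∈ (T : Subgroup G), x ≠ 1 →
      ∀ g ∈ Subgroup.normalizer (Cfsg.centerThompsonAOf (T : Subgroup G) : Set G),
        g * x * g⁻¹ ≠ x⁻¹) → ∀ P : Sylow 2 G, (P : Subgroup G).Normal := by
    intro hc
    have hfree : ∀ (q : ℕ) [Fact q.Prime], q ≠ 2 → EvenLocal.InvFreeOn q (⊤ : Subgroup G) := by
      intro q _ hq
      obtain ⟨T⟩ := (inferInstance : Nonempty (Sylow q G))
      refine EvenLocal.invFree_of_normalizer hq T ?_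
      rintro g hg x hx ⟨k, hk⟩ he
      set N := Subgroup.normalizer (Cfsg.centerThompsonAOf (T : Subgroup G) : Set G) with hN
      have hTN : (T : Subgroup G) ≤ N :=
        Subgroup.le_normalizer.trans (EvenLocal.normalizer_le_centerThompsonAOf _)
      have hxp : IsPGroup q (Subgroup.zpowers (⟨x, hx⟩ : N)) := by
        rintro ⟨w, hw⟩
        obtain ⟨j, rfl⟩ := Subgroup.mem_zpowers_iff.1 hw
        refine ⟨k, Subtype.ext (Subtype.ext ?_)⟩
        show (x ^ j) ^ q ^ k = 1
        rw [← zpow_natCast (x ^ j), ← zpow_mul, mul_comm, zpow_mul, zpow_natCast, hk, one_zpow]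
      obtain ⟨R, hR⟩ := hxp.exists_le_sylow
      obtain ⟨n, hn⟩ := MulAction.exists_smul_eq N R (T.subtype hTN)
      have hxT : (n : G) * x * (n : G)⁻¹ ∈ (T : Subgroup G) := by
        have h : n * ⟨x, hx⟩ * n⁻¹ ∈ ((n • R : Sylow q N) : Subgroup N) := by
          rw [Fusion.coe_smul_sylow]
          exact Fusion.conj_mem_cj.2 (hR (Subgroup.mem_zpowers _))
        rw [hn] at h
        exact h
      by_contra hx1
      refine hc q hq T _ hxT (fun h => hx1 ?_) ((n : G) * g * (n : G)⁻¹)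
        (mul_mem (mul_mem n.2 hg) (inv_mem n.2)) ?_
      · simpa using h
      · calc (n : G) * g * (n : G)⁻¹ * ((n : G) * x * (n : G)⁻¹) * ((n : G) * g * (n : G)⁻¹)⁻¹
            = (n : G) * (g * x * g⁻¹) * (n : G)⁻¹ := by group
          _ = ((n : G) * x * (n : G)⁻¹)⁻¹ := by rw [he]; group
    intro P
    set O := Cfsg.pCore 2 G with hO
    suffices h : (P : Subgroup G) ≤ O by
      rw [le_antisymm h (Cores.pCore_le_sylow P)]
      infer_instance
    by_contra hne
    set π := QuotientGroup.mk' O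
    set Pb := (P : Subgroup G).map π with hPb
    have hPbne : Pb ≠ ⊥ := fun h => hne (by
      rwa [hPb, Subgroup.map_eq_bot_iff, QuotientGroup.ker_mk'] at h)
    obtain ⟨i, hi⟩ := (P.2.map π).exists_card_eq
    have hdvd : 2 ∣ Nat.card Pb := by
      rw [hi]
      refine dvd_pow_self 2 fun h0 => hPbne (Subgroup.eq_bot_of_card_eq _ ?_)
      rw [hi, h0, pow_zero]
    obtain ⟨t, ht⟩ := exists_prime_orderOf_dvd_card' 2 hdvd
    obtain ⟨y, hy1, hyodd, hty⟩ := CharTwo.exists_inverted_of_not_mem_pCore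
      (t := (t : G ⧸ O)) (by rw [Subgroup.orderOf_coe]; exact ht) (by
        rw [show Cfsg.pCore 2 (G ⧸ O) = ⊥ from Cores.pCore_quotient_pCore_eq_bot, Subgroup.mem_bot]
        intro h
        rw [← Subgroup.orderOf_coe, h, orderOf_one] at ht
        omega)
    obtain ⟨r, hr, hrd⟩ := Nat.exists_prime_and_dvd (n := orderOf y)
      fun h => hy1 (orderOf_eq_one_iff.1 h)
    haveI := Fact.mk hr
    have hr2 : r ≠ 2 := by
      rintro rfl
      exact (Nat.two_dvd_ne_zero.2 (Nat.odd_iff.1 hyodd)) hrd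
    obtain ⟨m, hm⟩ := hrd
    have hmpos : m ≠ 0 := by
      rintro rfl
      exact (orderOf_pos y).ne' (by rw [hm, mul_zero])
    have hord : orderOf (y ^ m) = r := by
      rw [orderOf_pow' y hmpos, hm, Nat.gcd_eq_right (dvd_mul_left m r),
        Nat.mul_div_cancel _ (Nat.pos_of_ne_zero hmpos)]
    obtain ⟨g, x, -, ⟨k, hk⟩, hgx, hx⟩ := EvenLocal.exists_inverted_of_map hr2 π
      (QuotientGroup.mk'_surjective O) (a := (t : G ⧸ O)) (b := y ^ m) ⟨1, by rw [hord, pow_one]⟩
      (fun h => hr.one_lt.ne' (by rw [← hord, h, orderOf_one]))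
      (by rw [← conj_pow, hty, inv_pow])
    exact hx (by rw [hfree r hr2 g trivial x trivial ⟨k, by rw [← hk, pow_orderOf_eq_one]⟩ hgx,
      map_one])
  -- (b) gives (c)
  have hbc : (∀ (q : ℕ) [Fact q.Prime], q ≠ 2 → q ∣ Nat.card G → ∀ T : Sylow q G,
      ∀ P : Sylow 2 ↥(Subgroup.normalizer (Cfsg.centerThompsonAOf (T : Subgroup G) : Set G)),
        (P : Subgroup ↥(Subgroup.normalizer (Cfsg.centerThompsonAOf (T : Subgroup G) : Set G))).Normal) →
      ∀ (q : ℕ) [Fact q.Prime], q ≠ 2 → ∀ T : Sylow q G, ∀ x ∈ (T : Subgroup G), x ≠ 1 →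
      ∀ g ∈ Subgroup.normalizer (Cfsg.centerThompsonAOf (T : Subgroup G) : Set G),
        g * x * g⁻¹ ≠ x⁻¹ := by
    intro hb q _ hq T x hx hx1 g hg he
    obtain ⟨k, hk⟩ := IsPGroup.iff_orderOf.1 T.2 ⟨x, hx⟩
    rw [Subgroup.orderOf_mk] at hk
    have hdvd : q ∣ Nat.card G := by
      rcases k with _ | k
      · exact absurd (orderOf_eq_one_iff.1 (by simpa using hk)) hx1
      · exact (dvd_pow_self q k.succ_ne_zero).trans (hk ▸ orderOf_dvd_natCard x)
    have hxN := (Subgroup.le_normalizer.trans (EvenLocal.normalizer_le_centerThompsonAOf _)) hx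
    have h := hac (hb q hq hdvd T) q hq ⟨x, hxN⟩ ⟨g, hg⟩
      ⟨k, by rw [Subgroup.orderOf_mk]; exact hk⟩ (Subtype.ext he)
    exact hx1 (congrArg Subtype.val h)
  -- (a) gives (b)
  have hab : (∀ P : Sylow 2 G, (P : Subgroup G).Normal) → ∀ (q : ℕ) [Fact q.Prime], q ≠ 2 →
      q ∣ Nat.card G → ∀ T : Sylow q G,
      ∀ P : Sylow 2 ↥(Subgroup.normalizer (Cfsg.centerThompsonAOf (T : Subgroup G) : Set G)),
        (P : Subgroup ↥(Subgroup.normalizer (Cfsg.centerThompsonAOf (T : Subgroup G) : Set G))).Normal := by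
    intro hP q _ _ _ T
    set N := Subgroup.normalizer (Cfsg.centerThompsonAOf (T : Subgroup G) : Set G) with hN
    intro Q
    obtain ⟨P⟩ := (inferInstance : Nonempty (Sylow 2 G))
    haveI := hP P
    have hPn : ((P : Subgroup G).subgroupOf N).Normal := inferInstance
    have hle : (P : Subgroup G).subgroupOf N ≤ (Q : Subgroup N) :=
      (Cores.le_pCore hPn P.2.comap_subtype).trans (Cores.pCore_le_sylow Q)
    have hge : (Q : Subgroup N) ≤ (P : Subgroup G).subgroupOf N := by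
      intro y hy
      obtain ⟨R, hR⟩ := (Q.2.map N.subtype).exists_le_sylow
      obtain ⟨g, hg⟩ := Fusion.exists_cj_sylow P R
      rw [Fusion.cj_eq_of_normal] at hg
      show (y : G) ∈ (P : Subgroup G)
      rw [hg]
      exact hR ⟨y, hy, rfl⟩
    rw [le_antisymm hge hle]
    exact hPn
  refine ⟨⟨hab, fun hb => hca (hbc hb)⟩, ⟨fun hP => hbc (hab hP), hca⟩⟩

end Cfsg.Agent.S2756
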