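import Cfsg.Statements.S2758
import Cfsg.Agent.EvenLocal.Involved

set_option autoImplicit false
open Cfsg

namespace Cfsg.Agent.S2758

/-- For an odd prime p and a finite group G the following are equivalent: the dihedral group of order 2p is involved in G; some element of 2-power order normalizes but does not centralize some p-subgroup of G; some element of 2-power order inverts some nonidentity element of p-power order. -/
theorem result {G : Type*} [Group G] [Finite G] {p : ℕ} [Fact p.Prime] (hp : p ≠ 2) : (Cfsg.Involves (DihedralGroup p) G ↔ ∃ (x : G) (P : Subgroup G), (∃ k : ℕ, orderOf x = 2 ^ k) ∧ IsPGroup p ↥P ∧ x ∈ Subgroup.normalizer (P : Set G) ∧ x ∉ Subgroup.centralizer (P : Set G)) ∧ (Cfsg.Involves (DihedralGroup p) G ↔ ∃ x y : G, (∃ k : ℕ, orderOf x = 2 ^ k) ∧ (∃ k : ℕ, orderOf y = p ^ k) ∧ y ≠ 1 ∧ x * y * x⁻¹ = y⁻¹) := by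
  have h1 : Cfsg.Involves (DihedralGroup p) G ↔ ∃ x y : G, (∃ k : ℕ, orderOf x = 2 ^ k) ∧
      (∃ k : ℕ, orderOf y = p ^ k) ∧ y ≠ 1 ∧ x * y * x⁻¹ = y⁻¹ :=
    ⟨EvenLocal.exists_inverted_of_involves hp,
      fun ⟨_, _, hx, hy, hy1, hxy⟩ => EvenLocal.involves_of_inverted hp hx hy hy1 hxy⟩
  refine ⟨h1.trans ⟨?_, ?_⟩, h1⟩
  · rintro ⟨x, y, hx, ⟨k, hk⟩, hy1, hxy⟩
    refine ⟨x, Subgroup.zpowers y, hx, IsPGroup.of_card (n := k) (by rw [Nat.card_zpowers, hk]),
      ?_, fun hc => hy1 ?_⟩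
    · rw [Subgroup.mem_normalizer_iff_map_conj_eq, MonoidHom.map_zpowers,
        ← Subgroup.zpowers_inv (g := y)]
      congr 1
    · have h := Subgroup.mem_centralizer_iff.1 hc y (Subgroup.mem_zpowers y)
      rw [← h, mul_inv_cancel_right] at hxy
      have h2 : orderOf y ∣ 2 := orderOf_dvd_of_pow_eq_one (by
        rw [sq]
        calc y * y = y * y⁻¹ := by rw [← hxy]
          _ = 1 := mul_inv_cancel y)
      rw [hk] at h2
      rcases k with _ | k
      · exact orderOf_eq_one_iff.1 (by simpa using hk)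
      · exact absurd ((Nat.prime_dvd_prime_iff_eq Fact.out Nat.prime_two).1
          ((dvd_pow_self p k.succ_ne_zero).trans h2)) hp
  · rintro ⟨x, P, hx, hP, hxP, hxc⟩
    obtain ⟨x', y, hx', hy, hy1, hxy⟩ := EvenLocal.exists_inverted_of_normalizes hx hxP hxc
    obtain ⟨j, hj⟩ := IsPGroup.iff_orderOf.1 hP ⟨y, hy⟩
    exact ⟨x', y, hx', ⟨j, by rwa [Subgroup.orderOf_mk] at hj⟩, hy1, hxy⟩

end Cfsg.Agent.S2758
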