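import Cfsg.Statements.S2760
import Cfsg.Agent.Cores.Basic
import Cfsg.Agent.Cores.Residual
import Cfsg.Agent.Modules.Fixed

set_option autoImplicit false
open Cfsg
open scoped commutatorElement

namespace Cfsg.Agent.S2760

/-- Let G be a finite group with C_G(O₂(G)) ≤ O₂(G) and H a subgroup of G such that H is normal in G, or the subgroup O²(H) generated by the elements of H of odd order is normal in G. Then C_H(O₂(H)) ≤ O₂(H). -/
theorem result {G : Type*} [Group G] [Finite G] (hchar : Subgroup.centralizer (Cfsg.pCore 2 G : Set G) ≤ Cfsg.pCore 2 G) (H : Subgroup G) (hH : H.Normal ∨ ((Cfsg.pResidual 2 ↥H).map H.subtype).Normal) : Subgroup.centralizer (Cfsg.pCore 2 ↥H : Set ↥H) ≤ Cfsg.pCore 2 ↥H := by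
  have isp : ∀ (L : Subgroup G), L.Normal →
      Subgroup.centralizer (Cfsg.pCore 2 ↥L : Set ↥L) ≤ Cfsg.pCore 2 ↥L := by
    intro L hL
    set X := Cfsg.pCore 2 G with hX
    have hXp : IsPGroup 2 X := Cores.pCore_isPGroup
    set C := Subgroup.centralizer (Cfsg.pCore 2 ↥L : Set ↥L) with hC
    refine Cores.le_pCore inferInstance ?_
    intro c
    have hXL : ∀ x ∈ X, ⁅x, ((c : ↥L) : G)⁆ ∈ (Cfsg.pCore 2 ↥L).map L.subtype := fun x hx => by
      rw [Cores.map_subtype_pCore_eq]
      refine ⟨?_, ?_⟩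
      · exact Subgroup.commutator_le_right _ _ (Subgroup.commutator_mem_commutator hx c.1.2)
      · exact Subgroup.commutator_le_left _ _ (Subgroup.commutator_mem_commutator
          (H₂ := (⊤ : Subgroup G)) hx trivial)
    have hpow : ∀ n : ℕ, ∀ x ∈ X, ⁅x, ((c : ↥L) : G) ^ n⁆ = ⁅x, ((c : ↥L) : G)⁆ ^ n := by
      intro n x hx
      induction n with
      | zero => simp
      | succ n ih =>
        obtain ⟨d, hd, hdx⟩ := hXL x hx
        have hcd : ((c : ↥L) : G) ^ n * ⁅x, ((c : ↥L) : G)⁆ =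
            ⁅x, ((c : ↥L) : G)⁆ * ((c : ↥L) : G) ^ n := by
          rw [← hdx]
          exact (Commute.pow_right (congrArg (Subtype.val (p := (· ∈ L)))
            (Subgroup.mem_centralizer_iff.1 c.2 d hd) : Commute (d : G) ((c : ↥L) : G)) n).eq.symm
        rw [pow_succ, Modules.commutatorElement_mul_right, hcd, mul_inv_cancel_right, ih, pow_succ]
    obtain ⟨m, hm⟩ := IsPGroup.iff_card.1 hXp
    have hmem : ((c : ↥L) : G) ^ 2 ^ m ∈ X := by
      refine hchar (Subgroup.mem_centralizer_iff.2 fun x hx => ?_)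
      refine commutatorElement_eq_one_iff_mul_comm.1 ?_
      rw [hpow _ x hx]
      have hcx : ⁅x, ((c : ↥L) : G)⁆ ∈ X := Subgroup.commutator_le_left _ _
        (Subgroup.commutator_mem_commutator (H₂ := (⊤ : Subgroup G)) hx trivial)
      have := pow_card_eq_one' (G := X) (x := ⟨_, hcx⟩)
      rw [hm] at this
      exact congrArg Subtype.val this
    obtain ⟨j, hj⟩ := hXp ⟨_, hmem⟩
    refine ⟨m + j, Subtype.ext (Subtype.ext ?_)⟩
    have := congrArg Subtype.val hj
    simp only [SubmonoidClass.coe_pow, OneMemClass.coe_one, ← pow_mul, ← pow_add] at this ⊢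
    exact this
  rcases hH with hH | hH
  · exact isp H hH
  · haveI := hH
    set R := Cfsg.pResidual 2 ↥H with hR
    have hRc := isp _ hH
    set C := Subgroup.centralizer (Cfsg.pCore 2 ↥H : Set ↥H) with hC
    refine Cores.le_pCore inferInstance ?_
    intro c
    obtain ⟨i, hi⟩ := Cores.isPGroup_quotient_pResidual (p := 2) (G := ↥H)
      (QuotientGroup.mk ((c : ↥H)))
    have hmem : (c : ↥H) ^ 2 ^ i ∈ R := (QuotientGroup.eq_one_iff _).1 hi
    have hsub : (Cfsg.pCore 2 ↥R).map R.subtype ≤ Cfsg.pCore 2 ↥H := Cores.map_subtype_pCore_le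
    let e := R.equivMapOfInjective H.subtype H.subtype_injective
    have hR' : Subgroup.centralizer (Cfsg.pCore 2 ↥R : Set ↥R) ≤ Cfsg.pCore 2 ↥R := by
      intro r hr
      have h1 : e r ∈ Subgroup.centralizer (Cfsg.pCore 2 ↥(R.map H.subtype) : Set _) := by
        refine Subgroup.mem_centralizer_iff.2 fun y hy => ?_
        rw [← Cores.map_pCore_equiv e] at hy
        obtain ⟨z, hz, rfl⟩ := hy
        show e z * e r = e r * e z
        rw [← map_mul, ← map_mul, Subgroup.mem_centralizer_iff.1 hr z hz]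
      have h2 := hRc h1
      rw [← Cores.map_pCore_equiv e] at h2
      obtain ⟨z, hz, hze⟩ := h2
      exact e.injective hze ▸ hz
    have hcR : (⟨_, hmem⟩ : ↥R) ∈ Cfsg.pCore 2 ↥R := by
      refine hR' (Subgroup.mem_centralizer_iff.2 fun d hd => Subtype.ext ?_)
      exact ((Subgroup.mem_centralizer_iff.1 (C.pow_mem c.2 _) _ (hsub ⟨d, hd, rfl⟩)) :
        (d : ↥H) * (c : ↥H) ^ 2 ^ i = (c : ↥H) ^ 2 ^ i * (d : ↥H))
    obtain ⟨j, hj⟩ := Cores.pCore_isPGroup (p := 2) (G := ↥R) ⟨_, hcR⟩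
    refine ⟨i + j, Subtype.ext ?_⟩
    have := congrArg (fun x : ↥(Cfsg.pCore 2 ↥R) => ((x : ↥R) : ↥H)) hj
    simp only [SubmonoidClass.coe_pow, OneMemClass.coe_one, ← pow_mul, ← pow_add] at this ⊢
    exact this

end Cfsg.Agent.S2760
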