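import Cfsg.Statements.S2762
import Cfsg.Agent.EvenLocal.Qd

set_option autoImplicit false
open Cfsg

namespace Cfsg.Agent.S2762

/-- Structure of Qd over a finite field F of characteristic p (the affine subgroup of SL₃(F)): its largest normal p-subgroup is the group of translations (matrices with upper-left block the identity), the block-diagonal matrices form a complement isomorphic to SL₂(F), and the translation subgroup is a natural SL₂(F)-module for that complement. -/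
theorem result {F : Type*} [Field F] [Fintype F] {p : ℕ} [Fact p.Prime] [CharP F p] : (∀ M : ↥(Cfsg.qdOver F), M ∈ Cfsg.pCore p ↥(Cfsg.qdOver F) ↔ ((M : Matrix.SpecialLinearGroup (Fin 3) F) : Matrix (Fin 3) (Fin 3) F) 0 0 = 1 ∧ ((M : Matrix.SpecialLinearGroup (Fin 3) F) : Matrix (Fin 3) (Fin 3) F) 0 1 = 0 ∧ ((M : Matrix.SpecialLinearGroup (Fin 3) F) : Matrix (Fin 3) (Fin 3) F) 1 0 = 0 ∧ ((M : Matrix.SpecialLinearGroup (Fin 3) F) : Matrix (Fin 3) (Fin 3) F) 1 1 = 1) ∧ ∃ K : Subgroup ↥(Cfsg.qdOver F), (∀ M : ↥(Cfsg.qdOver F), M ∈ K ↔ ((M : Matrix.SpecialLinearGroup (Fin 3) F) : Matrix (Fin 3) (Fin 3) F) 0 2 = 0 ∧ ((M : Matrix.SpecialLinearGroup (Fin 3) F) : Matrix (Fin 3) (Fin 3) F) 1 2 = 0) ∧ K ⊓ Cfsg.pCore p ↥(Cfsg.qdOver F) = ⊥ ∧ K ⊔ Cfsg.pCore p ↥(Cfsg.qdOver F) = ⊤ ∧ Nonempty (↥K ≃* Matrix.SpecialLinearGroup (Fin 2) F) ∧ Cfsg.IsNaturalSL2Module F (Cfsg.pCore p ↥(Cfsg.qdOver F)) K := by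
  rw [EvenLocal.Qd.pCore_eq_ker (F := F) (p := p)]
  refine ⟨fun M => ?_, EvenLocal.Qd.linearSub F, fun M => ?_, ?_, ?_, ?_,
    EvenLocal.Qd.pCore_eq_ker (F := F) (p := p) ▸ EvenLocal.Qd.natural_module⟩
  · rw [MonoidHom.mem_ker]
    constructor
    · intro h
      have h' : EvenLocal.Qd.linMat M = 1 := congrArg Subtype.val h
      have e00 := congrFun (congrFun h' 0) 0
      have e01 := congrFun (congrFun h' 0) 1
      have e10 := congrFun (congrFun h' 1) 0
      have e11 := congrFun (congrFun h' 1) 1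
      simp [EvenLocal.Qd.linMat] at e00 e01 e10 e11
      exact ⟨e00, e01, e10, e11⟩
    · rintro ⟨h1, h2, h3, h4⟩
      apply Subtype.ext
      show EvenLocal.Qd.linMat M = 1
      ext i j
      fin_cases i <;> fin_cases j <;> simp [EvenLocal.Qd.linMat, h1, h2, h3, h4]
  · show EvenLocal.Qd.tr M = 0 ↔ _
    constructor
    · intro h
      exact ⟨by simpa [EvenLocal.Qd.tr] using congrFun h 0,
        by simpa [EvenLocal.Qd.tr] using congrFun h 1⟩
    · rintro ⟨h1, h2⟩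
      ext i
      fin_cases i <;> simp [EvenLocal.Qd.tr, h1, h2]
  · refine (Subgroup.eq_bot_iff_forall _).2 fun M hM => ?_
    exact EvenLocal.Qd.ext_lin_tr (hM.2.trans (map_one _).symm)
      (hM.1.trans EvenLocal.Qd.tr_one.symm)
  · refine top_le_iff.1 fun M _ => ?_
    set N := EvenLocal.Qd.mkEl (EvenLocal.Qd.lin M) 0 with hN
    have hNK : N ∈ EvenLocal.Qd.linearSub F := EvenLocal.Qd.tr_mkEl _ _
    have hker : N⁻¹ * M ∈ (EvenLocal.Qd.lin (F := F)).ker := by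
      rw [MonoidHom.mem_ker, map_mul, map_inv, hN, EvenLocal.Qd.lin_mkEl, inv_mul_cancel]
    simpa using Subgroup.mul_mem_sup hNK hker
  · exact ⟨MulEquiv.ofBijective ((EvenLocal.Qd.lin (F := F)).comp (EvenLocal.Qd.linearSub F).subtype)
      ⟨fun a b h => Subtype.ext (EvenLocal.Qd.ext_lin_tr h (a.2.trans b.2.symm)),
        fun A => ⟨⟨EvenLocal.Qd.mkEl A 0, EvenLocal.Qd.tr_mkEl A 0⟩, EvenLocal.Qd.lin_mkEl A 0⟩⟩⟩

end Cfsg.Agent.S2762
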