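import Cfsg.Statements.S2763
import Cfsg.Agent.EvenLocal.Qd
import Cfsg.Agent.Modules.Fixed

set_option autoImplicit false
open Cfsg

namespace Cfsg.Agent.S2763

/-- In the group Qd(p) (p prime; the natural semidirect product of an elementary abelian group of order p² by SL₂(p)), the normalizer of every nontrivial characteristic subgroup of a Sylow p-subgroup S equals the normalizer of S, which is a proper subgroup; in particular no such characteristic subgroup is normal. -/
theorem result {p : ℕ} [Fact p.Prime] (S : Sylow p ↥(Cfsg.qd p)) (T : Subgroup ↥(S : Subgroup ↥(Cfsg.qd p))) (hT : T ≠ ⊥) (hTc : T.Characteristic) : Subgroup.normalizer ((T.map (S : Subgroup ↥(Cfsg.qd p)).subtype : Subgroup ↥(Cfsg.qd p)) : Set ↥(Cfsg.qd p)) = Subgroup.normalizer ((S : Subgroup ↥(Cfsg.qd p)) : Set ↥(Cfsg.qd p)) ∧ Subgroup.normalizer ((S : Subgroup ↥(Cfsg.qd p)) : Set ↥(Cfsg.qd p)) ≠ ⊤ := by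
  obtain ⟨P, hPeq⟩ : ∃ P : Sylow p ↥(Cfsg.qd p),
      (P : Subgroup ↥(Cfsg.qd p)) = EvenLocal.Qd.uni (ZMod p) := by
    obtain ⟨P, hP⟩ := (EvenLocal.Qd.uni_isPGroup (p := p)).exists_le_sylow
    exact ⟨P, EvenLocal.Qd.uni_maximal P.2 hP⟩
  obtain ⟨g, hgS⟩ := MulAction.exists_smul_eq ↥(Cfsg.qd p) P S
  set U : Subgroup ↥(Cfsg.qd p) := (P : Subgroup ↥(Cfsg.qd p)) with hU
  have hSU : U.map (MulAut.conj g).toMonoidHom = (S : Subgroup ↥(Cfsg.qd p)) := by
    rw [← hgS]
    rfl
  let e : ↥U ≃* ↥(S : Subgroup ↥(Cfsg.qd p)) :=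
    (U.equivMapOfInjective (MulAut.conj g).toMonoidHom (MulAut.conj g).injective).trans
      (MulEquiv.subgroupCongr hSU)
  set T' := T.map e.symm.toMonoidHom with hT'
  have hT'ne : T' ≠ ⊥ := fun h =>
    hT ((Subgroup.map_eq_bot_iff_of_injective T e.symm.injective).1 h)
  have hT'c : T'.Characteristic := by
    refine Subgroup.characteristic_iff_map_le.2 fun φ => ?_
    rintro - ⟨-, ⟨t, ht, rfl⟩, rfl⟩
    refine ⟨(e.symm.trans (φ.trans e)) t, ?_, by simp⟩
    exact Subgroup.characteristic_iff_map_le.1 hTc (e.symm.trans (φ.trans e)) ⟨t, ht, rfl⟩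
  have hN : Subgroup.normalizer ((T'.map U.subtype : Subgroup ↥(Cfsg.qd p)) : Set ↥(Cfsg.qd p)) =
      EvenLocal.Qd.borel (ZMod p) := by
    clear_value U
    subst hPeq
    exact EvenLocal.Qd.normalizer_characteristic_uni T' hT'ne hT'c
  have hmap : (T'.map U.subtype).map (MulAut.conj g).toMonoidHom = T.map (S : Subgroup ↥(Cfsg.qd p)).subtype := by
    rw [hT', Subgroup.map_map, Subgroup.map_map]
    congr 1
    refine MonoidHom.ext fun t => ?_
    show _ = ((t : ↥(Cfsg.qd p)))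
    conv_rhs => rw [← e.apply_symm_apply t]
    rfl
  have hNS : Subgroup.normalizer ((S : Subgroup ↥(Cfsg.qd p)) : Set ↥(Cfsg.qd p)) =
      (EvenLocal.Qd.borel (ZMod p)).map (MulAut.conj g).toMonoidHom := by
    rw [← hSU, ← Subgroup.map_equiv_normalizer_eq U (MulAut.conj g), hPeq,
      ← EvenLocal.Qd.normalizer_uni]
    rfl
  refine ⟨?_, fun h => EvenLocal.Qd.borel_ne_top (F := ZMod p) ?_⟩
  · rw [← hmap]
    refine Eq.trans ?_ hNS.symm
    refine (Subgroup.map_equiv_normalizer_eq _ (MulAut.conj g)).symm.trans ?_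
    rw [hN]
  · rw [hNS] at h
    refine Subgroup.map_injective (f := (MulAut.conj g).toMonoidHom) (MulAut.conj g).injective ?_
    rw [h]
    exact (Subgroup.map_top_of_surjective _ (MulAut.conj g).surjective).symm

end Cfsg.Agent.S2763
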