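import Cfsg.Statements.S2765
import Cfsg.Agent.PushUp.Main
import Cfsg.Agent.PushUp.ChiefFactors

set_option autoImplicit false
open Cfsg
open scoped commutatorElement

namespace Cfsg.Agent.S2765

/-- In the same pushing-up situation (G finite, C_G(O_p(G)) ≤ O_p(G), G/K ≅ PSL₂(p^n) with n ≥ 1, a Sylow p-subgroup S in exactly one maximal subgroup, no nontrivial characteristic subgroup of S normal in G), one of the following holds: (I) S has nilpotency class 2, exponent 4 if p = 2 and exponent p otherwise, and G has exactly one noncentral chief factor inside O_p(G); or (II) p = 3, S has class 3 and exponent 9, and G has exactly two noncentral chief factors inside O_p(G). 'Exactly one' is phrased as: some noncentral chief factor U/W inside O_p(G) with G acting hypercentrally on W and on O_p(G)/U; 'exactly two' analogously with a chain. -/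
theorem result {G : Type*} [Group G] [Finite G] {p : ℕ} [Fact p.Prime] (S : Sylow p G) (hE₁ : Subgroup.centralizer (Cfsg.pCore p G : Set G) ≤ Cfsg.pCore p G) (hE₂ : ∃! M : Subgroup G, IsCoatom M ∧ (S : Subgroup G) ≤ M) (K : Subgroup G) [K.Normal] (F : Type) [Field F] [Fintype F] (n : ℕ) (hn : 1 ≤ n) (hF : Fintype.card F = p ^ n) (hE₃ : Nonempty (G ⧸ K ≃* Matrix.ProjectiveSpecialLinearGroup (Fin 2) F)) (hd : ∀ T : Subgroup ↥(S : Subgroup G), T ≠ ⊥ → T.Characteristic → ¬ (T.map (S : Subgroup G).subtype).Normal) : ((S : Subgroup G).lowerCentralSeries 2 = ⊥ ∧ (S : Subgroup G).lowerCentralSeries 1 ≠ ⊥ ∧ (p = 2 → Monoid.exponent ↥(S : Subgroup G) = 4) ∧ (p ≠ 2 → Monoid.exponent ↥(S : Subgroup G) = p) ∧ (∃ U W : Subgroup G, W ≤ U ∧ U ≤ (Cfsg.pCore p G) ∧ Cfsg.IsChiefFactor U W ∧ ¬ ⁅U, (⊤ : Subgroup G)⁆ ≤ W ∧ (∃ k : ℕ, Cfsg.iterCommutator W ⊤ k = ⊥) ∧ (∃ k : ℕ, Cfsg.iterCommutator (Cfsg.pCore p G) ⊤ k ≤ U))) ∨ (p = 3 ∧ (S : Subgroup G).lowerCentralSeries 3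 = ⊥ ∧ (S : Subgroup G).lowerCentralSeries 2 ≠ ⊥ ∧ Monoid.exponent ↥(S : Subgroup G) = 9 ∧ (∃ U₁ W₁ U₂ W₂ : Subgroup G, W₁ ≤ U₁ ∧ U₁ ≤ W₂ ∧ W₂ ≤ U₂ ∧ U₂ ≤ (Cfsg.pCore p G) ∧ Cfsg.IsChiefFactor U₁ W₁ ∧ Cfsg.IsChiefFactor U₂ W₂ ∧ ¬ ⁅U₁, (⊤ : Subgroup G)⁆ ≤ W₁ ∧ ¬ ⁅U₂, (⊤ : Subgroup G)⁆ ≤ W₂ ∧ (∃ k : ℕ, Cfsg.iterCommutator W₁ ⊤ k = ⊥) ∧ (∃ k : ℕ, Cfsg.iterCommutator W₂ ⊤ k ≤ U₁) ∧ (∃ k : ℕ, Cfsg.iterCommutator (Cfsg.pCore p G) ⊤ k ≤ U₂))) := by
  classical
  obtain ⟨M, B⟩ := PushUp.exists_base S hE₁ hE₂ K F hF hE₃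
  have hF' : Fintype.card F = (Cfsg.pCore p G).relIndex S :=
    hF.trans (PushUp.relIndex_eq_pow S B K F hF hE₃).symm
  have hp : p.Prime := Fact.out
  haveI := B.normal
  have hVn := PushUp.omZ_normal p B.normal
  have hQ := B.ne_top
  rcases PushUp.typeOne_or_twoLocal B hE₁ hd with T | ⟨hp3, g₀, Vl, Vr, Al, Ar, T⟩
  · have hs := T.natSection F hF'
    obtain ⟨a, ha, c, hc, hac⟩ := T.nonAbelian
    refine Or.inl ⟨?_, ?_, ?_, ?_, _, _, inf_le_left, PushUp.omZ_le p _, hs.isChief hVn T.F_normal hQ,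
      hs.noncentral hVn hQ, ⟨1, PushUp.iterCommutator_one_central inf_le_right⟩, 2, T.hyper⟩
    · show ⁅⁅(S : Subgroup G), (S : Subgroup G)⁆, (S : Subgroup G)⁆ = ⊥
      rw [eq_bot_iff, Subgroup.commutator_le]
      intro r hr d hd'
      have hle : ⁅(S : Subgroup G), (S : Subgroup G)⁆ ≤ Subgroup.centralizer ({d} : Set G) := by
        rw [Subgroup.commutator_le]
        intro x hx y hy
        exact Subgroup.mem_centralizer_singleton_iff.2
          (commutatorElement_eq_one_iff_commute.1 (T.classTwo x hx y hy d hd')).eq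
      rw [Subgroup.mem_bot, commutatorElement_eq_one_iff_mul_comm]
      exact Subgroup.mem_centralizer_singleton_iff.1 (hle hr)
    · show ⁅(S : Subgroup G), (S : Subgroup G)⁆ ≠ ⊥
      intro h
      have := Subgroup.commutator_mem_commutator ha hc
      rw [h, Subgroup.mem_bot, commutatorElement_eq_one_iff_mul_comm] at this
      exact hac this
    · intro h2
      have hdvd : Monoid.exponent ↥(S : Subgroup G) ∣ 2 ^ 2 :=
        Monoid.exponent_dvd_of_forall_pow_eq_one fun x => Subtype.ext (by simpa using T.expTwo h2 x x.2)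
      obtain ⟨i, hi, he⟩ := (Nat.dvd_prime_pow Nat.prime_two).1 hdvd
      interval_cases i
      · exfalso
        have h1 := Monoid.pow_exponent_eq_one (⟨a, ha⟩ : ↥(S : Subgroup G))
        rw [he, pow_zero, pow_one] at h1
        exact hac (by rw [show a = 1 from congrArg Subtype.val h1, one_mul, mul_one])
      · exfalso
        have hsq : ∀ x ∈ (S : Subgroup G), x * x = 1 := fun x hx => by
          have := Monoid.pow_exponent_eq_one (⟨x, hx⟩ : ↥(S : Subgroup G))
          rw [he, pow_one, pow_two] at this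
          exact congrArg Subtype.val this
        refine hac ?_
        calc a * c = (a * c)⁻¹ := eq_inv_of_mul_eq_one_left (hsq _ (mul_mem ha hc))
          _ = c⁻¹ * a⁻¹ := mul_inv_rev a c
          _ = c * a := by
            rw [inv_eq_of_mul_eq_one_left (hsq c hc), inv_eq_of_mul_eq_one_left (hsq a ha)]
      · exact he
    · intro h2
      refine (hp.eq_one_or_self_of_dvd _ (Monoid.exponent_dvd_of_forall_pow_eq_one
        fun x : ↥(S : Subgroup G) => Subtype.ext (by simpa using T.expOdd h2 x x.2))).resolve_left fun he => ?_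
      have h1 := Monoid.pow_exponent_eq_one (⟨a, ha⟩ : ↥(S : Subgroup G))
      rw [he, pow_one] at h1
      exact hac (by rw [show a = 1 from congrArg Subtype.val h1, one_mul, mul_one])
  · have hp2 : p ≠ 2 := by omega
    have hsE := T.natSectionE hp2 F hF'
    have hsM := T.natSectionM hp2 F hF'
    refine Or.inr ⟨hp3, T.gamma_four hd, ?_, ?_, _, _, _, _, inf_le_left, le_rfl, T.V_le_W, T.W_le_Q,
      hsE.isChief hVn T.F_normal hQ, hsM.isChief T.W_normal hVn hQ, hsE.noncentral hVn hQ,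
      hsM.noncentral T.W_normal hQ, ⟨1, PushUp.iterCommutator_one_central inf_le_right⟩,
      ⟨0, le_rfl⟩, 3, T.hyper hd⟩
    · show ⁅⁅(S : Subgroup G), (S : Subgroup G)⁆, (S : Subgroup G)⁆ ≠ ⊥
      intro h
      obtain ⟨a, ha, u, hu, -, hne⟩ := T.exists_double
      refine hne ?_
      have hm : ⁅a, ⁅a, u⁆⁆ ∈ ⁅(S : Subgroup G), ⁅(S : Subgroup G), (S : Subgroup G)⁆⁆ :=
        Subgroup.commutator_mem_commutator (T.ar_le ha)
          (Subgroup.commutator_mem_commutator (T.ar_le ha) (T.W_le_Q.trans B.le hu))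
      rw [Subgroup.commutator_comm, h, Subgroup.mem_bot] at hm
      rw [hm]
      exact one_mem _
    · have hdvd : Monoid.exponent ↥(S : Subgroup G) ∣ 3 ^ 2 :=
        Monoid.exponent_dvd_of_forall_pow_eq_one fun x => Subtype.ext (by
          simpa using T.pow_nine hp3 hd x.2)
      obtain ⟨i, hi, he⟩ := (Nat.dvd_prime_pow Nat.prime_three).1 hdvd
      obtain ⟨s, hs, hne⟩ := T.not_exp_three
      interval_cases i
      · exfalso
        have h1 := Monoid.pow_exponent_eq_one (⟨s, hs⟩ : ↥(S : Subgroup G))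
        rw [he, pow_zero, pow_one] at h1
        exact hne (by rw [show s = 1 from congrArg Subtype.val h1, one_pow])
      · exfalso
        have h1 := Monoid.pow_exponent_eq_one (⟨s, hs⟩ : ↥(S : Subgroup G))
        rw [he, pow_one] at h1
        exact hne (congrArg Subtype.val h1)
      · exact he

end Cfsg.Agent.S2765
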