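import Cfsg.Statements.S2766
import Cfsg.Agent.PushUp.QdRec
import Cfsg.Agent.LAE62.SylowBasics

set_option autoImplicit false
open Cfsg

namespace Cfsg.Agent.S2766

/-- Let p ≥ 5 be prime and G a maximal p-local subgroup of a finite group H (G is the normalizer of a nontrivial p-subgroup and lies in no other such normalizer). Suppose C_G(O_p(G)) ≤ O_p(G), G/K ≅ PSL₂(p^n) for some normal K and n ≥ 1, a Sylow p-subgroup S of G lies in exactly one maximal subgroup of G, and N_H(S) is not contained in G. Then G = G₀ × E for subgroups G₀ ≅ Qd(p^n) (the natural semidirect product of the plane over the field with p^n elements by SL₂) and E an elementary abelian p-group. -/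
theorem result {H : Type*} [Group H] [Finite H] {p : ℕ} [Fact p.Prime] (hp : 5 ≤ p) (G : Subgroup H) (hloc : ∃ R : Subgroup H, IsPGroup p ↥R ∧ R ≠ ⊥ ∧ G = Subgroup.normalizer (R : Set H)) (hmax : ∀ R : Subgroup H, IsPGroup p ↥R → R ≠ ⊥ → G ≤ Subgroup.normalizer (R : Set H) → Subgroup.normalizer (R : Set H) = G) (S : Sylow p ↥G) (hE₁ : Subgroup.centralizer (Cfsg.pCore p ↥G : Set ↥G) ≤ Cfsg.pCore p ↥G) (hE₂ : ∃! M : Subgroup ↥G, IsCoatom M ∧ (S : Subgroup ↥G) ≤ M) (K : Subgroup ↥G) [K.Normal] (F : Type) [Field F] [Fintype F] (n : ℕ) (hn : 1 ≤ n) (hF : Fintype.card F = p ^ n) (hE₃ : Nonempty (↥G ⧸ K ≃* Matrix.ProjectiveSpecialLinearGroup (Fin 2) F)) (hN : ¬ Subgroup.normalizer (((S : Subgroup ↥G).map G.subtype : Subgroup H) : Set H) ≤ G) : ∃ G₀ E : Subgroup H, Cfsg.IsInternalDirectProduct G₀ E G ∧ Cfsg.IsElementaryAbelian p E ∧ Nonempty (↥G₀ ≃* ↥(Cfsg.qdOver F)) := by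
  classical
  obtain ⟨M, B⟩ := PushUp.exists_base S hE₁ hE₂ K F hF hE₃
  set SH : Subgroup H := (S : Subgroup ↥G).map G.subtype with hSH
  -- invariant `p`-subgroups of `G`
  have hglob : ∀ R : Subgroup ↥G, IsPGroup p R → R ≠ ⊥ → R.Normal →
      ∀ h : H, (∀ r ∈ R, ∃ r' ∈ R, G.subtype r' = h * G.subtype r * h⁻¹) → ∃ x, G.subtype x = h := by
    intro R hR hne hRn h hh
    have hG : G ≤ Subgroup.normalizer ((R.map G.subtype : Subgroup H) : Set H) := fun g hg =>
      LAE62.mem_normalizer_of_conj_mem fun r hr => by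
        obtain ⟨r, hr', rfl⟩ := hr
        exact ⟨_, hRn.conj_mem r hr' ⟨g, hg⟩, rfl⟩
    have hne' : R.map G.subtype ≠ ⊥ := fun e =>
      hne ((Subgroup.map_eq_bot_iff_of_injective R (Subgroup.subtype_injective _)).1 e)
    have hmem : h ∈ Subgroup.normalizer ((R.map G.subtype : Subgroup H) : Set H) :=
      LAE62.mem_normalizer_of_conj_mem fun r hr => by
        obtain ⟨r, hr', rfl⟩ := hr
        obtain ⟨r', hr'', e⟩ := hh r hr'
        exact ⟨r', hr'', e⟩
    rw [hmax _ (hR.map _) hne' hG] at hmem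
    exact ⟨⟨h, hmem⟩, rfl⟩
  obtain ⟨γ, hγ, hγG⟩ := SetLike.not_le_iff_exists.1 hN
  have hγS : ∀ s ∈ (S : Subgroup ↥G), ∃ s' ∈ (S : Subgroup ↥G),
      G.subtype s' = γ * G.subtype s * γ⁻¹ := fun s hs =>
    (Subgroup.mem_normalizer_iff.1 hγ _).1 ⟨s, hs, rfl⟩
  have hd : ∀ T : Subgroup ↥(S : Subgroup ↥G), T ≠ ⊥ → T.Characteristic →
      ¬ (T.map (S : Subgroup ↥G).subtype).Normal := by
    intro T hT hTc hTn
    suffices hh : ∀ r ∈ T.map (S : Subgroup ↥G).subtype, ∃ r' ∈ T.map (S : Subgroup ↥G).subtype,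
        G.subtype r' = γ * G.subtype r * γ⁻¹ by
      obtain ⟨x, hx⟩ := hglob (T.map (S : Subgroup ↥G).subtype) (S.2.to_le (Subgroup.map_subtype_le T))
        (fun e => hT ((Subgroup.map_eq_bot_iff_of_injective T (Subgroup.subtype_injective _)).1 e)) hTn γ hh
      exact hγG (hx ▸ x.2)
    rintro _ ⟨r, hr, rfl⟩
    choose f hfS hf using fun s : ↥(S : Subgroup ↥G) => hγS s s.2
    let φ : ↥(S : Subgroup ↥G) →* ↥(S : Subgroup ↥G) := MonoidHom.mk' (fun s => ⟨f s, hfS s⟩)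
      fun a b => Subtype.ext (Subgroup.subtype_injective G (by
        simp only [Subgroup.coe_mul, map_mul, hf]; group))
    have hφi : Function.Injective φ := fun a b hab => Subtype.ext (Subgroup.subtype_injective G (by
      have h : G.subtype (f a) = G.subtype (f b) :=
        congrArg (fun z : ↥(S : Subgroup ↥G) => G.subtype (z : ↥G)) hab
      rw [hf, hf] at h
      exact mul_left_cancel (mul_right_cancel h)))
    let e : ↥(S : Subgroup ↥G) ≃* ↥(S : Subgroup ↥G) :=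
      MulEquiv.ofBijective φ ⟨hφi, Finite.surjective_of_injective hφi⟩
    have hTe := Subgroup.characteristic_iff_map_le.1 hTc e ⟨r, hr, rfl⟩
    exact ⟨f r, ⟨e r, hTe, rfl⟩, hf r⟩
  have T := PushUp.typeOne_of_ne_three B hE₁ hd (by omega)
  obtain ⟨φ, hs, hker, hSφ⟩ := EvenLocal.exists_normalized S K hn hF hE₃.some
  have hF1 : 1 < Nat.card F := by
    rw [Nat.card_eq_fintype_card, hF]; exact Nat.one_lt_pow (by omega) (by omega)
  have hSK := EvenLocal.inf_ker_eq_pCore S hs hker hSφ hE₂ hF1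
  have hcard := EvenLocal.card_sylow_eq S hker hSφ hSK
  have hrel : Fintype.card F = (Cfsg.pCore p ↥G).relIndex (S : Subgroup ↥G) := by
    refine Nat.eq_of_mul_eq_mul_left (Nat.card_pos (α := Cfsg.pCore p ↥G)) ?_
    calc Nat.card (Cfsg.pCore p ↥G) * Fintype.card F = Nat.card (S : Subgroup ↥G) := by
          rw [hcard, Nat.card_eq_fintype_card (α := F), mul_comm]
      _ = (⊥ : Subgroup ↥G).relIndex (S : Subgroup ↥G) := (Subgroup.relIndex_bot_left _).symm
      _ = _ := by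
          rw [← Subgroup.relIndex_mul_relIndex _ _ _ bot_le B.le, Subgroup.relIndex_bot_left]
  obtain ⟨ρ, ψ, t, D⟩ := PushUp.exists_coord T hp hn hF hrel
  have h0 := D.der0_eq_bot G.subtype (Subgroup.subtype_injective G) γ hγS
    (fun x hx => hγG (hx ▸ x.2)) hglob
  obtain ⟨G₀, E, ⟨-, -, hc, hinf, hsup⟩, ⟨hEc, hEp⟩, ⟨e⟩⟩ := D.exists_decomposition h0
  refine ⟨G₀.map G.subtype, E.map G.subtype, ⟨Subgroup.map_subtype_le _, Subgroup.map_subtype_le _, ?_, ?_, ?_⟩,
    ⟨?_, ?_⟩, ⟨((G₀.equivMapOfInjective _ (Subgroup.subtype_injective G)).symm).trans e⟩⟩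
  · rintro _ ⟨a, ha, rfl⟩ _ ⟨b, hb, rfl⟩
    rw [← map_mul, ← map_mul, hc a ha b hb]
  · rw [← Subgroup.map_inf _ _ _ (Subgroup.subtype_injective G), hinf, Subgroup.map_bot]
  · rw [← Subgroup.map_sup, hsup, ← MonoidHom.range_eq_map, Subgroup.range_subtype]
  · refine ⟨⟨?_⟩⟩
    rintro ⟨_, a, ha, rfl⟩ ⟨_, b, hb, rfl⟩
    refine Subtype.ext ?_
    show G.subtype a * G.subtype b = G.subtype b * G.subtype a
    rw [← map_mul, ← map_mul, show a * b = b * a from congrArg Subtype.val (hEc.is_comm.comm ⟨a, ha⟩ ⟨b, hb⟩)]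
  · rintro _ ⟨a, ha, rfl⟩
    rw [← map_pow, hEp a ha, map_one]

end Cfsg.Agent.S2766
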