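import Cfsg.Statements.S2769
import Cfsg.Agent.EvenLocal.RankOneFactor

set_option autoImplicit false
open Cfsg

namespace Cfsg.Agent.S2769

/-- Let G be a finite group and p a prime with C_G(O_p(G)) ≤ O_p(G), S a Sylow p-subgroup lying in exactly one maximal subgroup of G, and G/K ≅ PSL₂(p^n) for some normal K and n ≥ 1. Let J(S) be generated by the abelian subgroups of S of largest order. If [Z(J(S)), S] ≠ 1, then either [Z(J(S)), S] ∩ Z(S) is normal in G or C_S(Z(J(S))) is normal in G. -/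
theorem result {G : Type*} [Group G] [Finite G] {p : ℕ} [Fact p.Prime] (S : Sylow p G) (hE₁ : Subgroup.centralizer (Cfsg.pCore p G : Set G) ≤ Cfsg.pCore p G) (hE₂ : ∃! M : Subgroup G, IsCoatom M ∧ (S : Subgroup G) ≤ M) (K : Subgroup G) [K.Normal] (F : Type) [Field F] [Fintype F] (n : ℕ) (hn : 1 ≤ n) (hF : Fintype.card F = p ^ n) (hE₃ : Nonempty (G ⧸ K ≃* Matrix.ProjectiveSpecialLinearGroup (Fin 2) F)) (h : ⁅(Cfsg.centerThompsonAOf (S : Subgroup G)), (S : Subgroup G)⁆ ≠ ⊥) : (⁅(Cfsg.centerThompsonAOf (S : Subgroup G)), (S : Subgroup G)⁆ ⊓ ((S : Subgroup G) ⊓ Subgroup.centralizer ((S : Subgroup G) : Set G))).Normal ∨ (((S : Subgroup G) ⊓ Subgroup.centralizer (Cfsg.centerThompsonAOf (S : Subgroup G) : Set G))).Normal := by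
  open Subgroup EvenLocal in
  open scoped commutatorElement in
  by_cases hZ : (S : Subgroup G) ⊓ centralizer ((S : Subgroup G) : Set G) ≤ center G
  · exact Or.inl (normal_of_le_center (inf_le_right.trans hZ))
  by_cases hJ : Cfsg.thompsonSubgroupAOf (S : Subgroup G) ≤ Cfsg.pCore p G
  · exact Or.inr ((jTilde_normal_or_center_le_center S hE₂ hJ).resolve_right hZ)
  obtain ⟨U₀, hU₀, -, htop, hle⟩ := centerThompson_factor S hE₁ hE₂ K hn hF hE₃ hJ hZ
  have hc : ⁅Cfsg.centerThompsonAOf (S : Subgroup G), (S : Subgroup G)⁆ ≤ U₀ := by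
    refine commutator_le.2 fun u hu s hs => ?_
    have hu' := hle hu
    rw [← SetLike.mem_coe, Subgroup.normal_mul] at hu'
    obtain ⟨u₀, hu₀, z, hz, rfl⟩ := hu'
    beta_reduce at hu ⊢
    rw [Modules.commutatorElement_mul_left, commutatorElement_eq_one_iff_mul_comm.2
      (mem_centralizer_iff.1 hz.2 s hs).symm, mul_one, mul_inv_cancel, one_mul]
    exact Modules.commutatorElement_mem (by rw [normalizer_eq_top (H := U₀)]; trivial) hu₀
  exact Or.inl (normal_of_le_center (le_center_of_centralized S htop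
    (centralizer_le (inf_le_left.trans hc)) (inf_le_right.trans inf_le_right)))

end Cfsg.Agent.S2769
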