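import Cfsg.Statements.S2770
import Cfsg.Agent.EvenLocal.RankOne

set_option autoImplicit false
open Cfsg

namespace Cfsg.Agent.S2770

/-- Let G be a finite group and p a prime with C_G(O_p(G)) ≤ O_p(G), S a Sylow p-subgroup lying in exactly one maximal subgroup of G, and G/K ≅ PSL₂(p^n) for some normal K and n ≥ 1. If Z(S) is not elementary abelian, then either ℧¹(Z(S)) (the subgroup generated by the p-th powers of the elements of Z(S)) is normal in G or C_S(Z(J(S))) is normal in G, J(S) being generated by the abelian subgroups of S of largest order. -/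
theorem result {G : Type*} [Group G] [Finite G] {p : ℕ} [Fact p.Prime] (S : Sylow p G) (hE₁ : Subgroup.centralizer (Cfsg.pCore p G : Set G) ≤ Cfsg.pCore p G) (hE₂ : ∃! M : Subgroup G, IsCoatom M ∧ (S : Subgroup G) ≤ M) (K : Subgroup G) [K.Normal] (F : Type) [Field F] [Fintype F] (n : ℕ) (hn : 1 ≤ n) (hF : Fintype.card F = p ^ n) (hE₃ : Nonempty (G ⧸ K ≃* Matrix.ProjectiveSpecialLinearGroup (Fin 2) F)) (h : ¬ Cfsg.IsElementaryAbelian p ((S : Subgroup G) ⊓ Subgroup.centralizer ((S : Subgroup G) : Set G))) : (Cfsg.powerClosure p 1 ((S : Subgroup G) ⊓ Subgroup.centralizer ((S : Subgroup G) : Set G))).Normal ∨ (((S : Subgroup G) ⊓ Subgroup.centralizer (Cfsg.centerThompsonAOf (S : Subgroup G) : Set G))).Normal := by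
  open Subgroup EvenLocal in
  open scoped commutatorElement in
  by_cases hJ : Cfsg.thompsonSubgroupAOf (S : Subgroup G) ≤ Cfsg.pCore p G
  · rcases jTilde_normal_or_center_le_center S hE₂ hJ with hn | hc
    · exact Or.inr hn
    · refine Or.inl (normal_of_le_center ((closure_le _).2 ?_))
      rintro - ⟨x, hx, rfl⟩
      exact pow_mem (hc hx) _
  refine Or.inl (normal_of_le_center ?_)
  set Q := Cfsg.pCore p G with hQdef
  set W := Q ⊓ centralizer (Q : Set G) with hW
  have hWn : W.Normal := inferInstance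
  have hWc : IsMulCommutative W := Modules.comm_iff.2 fun a ha b hb =>
    mem_centralizer_iff.1 hb.2 a ha.1
  have hZW := center_sylow_le S hE₁
  haveI : (centralizer (W : Set G)).Normal := normalizer_eq_top_iff.1 (top_le_iff.1
    (Modules.normalizes_centralizer (normalizer_eq_top (H := W)).ge))
  rcases inf_le_pCore_or_sup_eq_top S hE₂ (centralizer (W : Set G)) with hC | hC
  swap
  · have hc := le_center_of_centralized S hC (centralizer_le hZW) inf_le_right
    refine (closure_le _).2 ?_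
    rintro - ⟨x, hx, rfl⟩
    exact pow_mem (hc hx) _
  obtain ⟨A, hA, hAQ, hquad⟩ := exists_quadratic_element S hE₂ hJ hC
  have hex : ∃ a ∈ A, a ∉ Q ∧ a ^ p ∈ Q := by
    obtain ⟨a, ha, haQ⟩ := SetLike.not_le_iff_exists.1 hAQ
    obtain ⟨k, hk⟩ := S.2.to_le hA.1 ⟨a, ha⟩
    have hk' : a ^ p ^ k = 1 := congrArg Subtype.val hk
    classical
    have h : ∃ n, a ^ p ^ n ∈ Q := ⟨k, hk'.symm ▸ one_mem _⟩
    obtain ⟨m, hm⟩ : ∃ m, Nat.find h = m + 1 := by
      rcases hn : Nat.find h with _ | m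
      · exact absurd (by simpa [hn] using Nat.find_spec h) haQ
      · exact ⟨m, rfl⟩
    refine ⟨a ^ p ^ m, pow_mem ha _, Nat.find_min h (by omega), ?_⟩
    rw [← pow_mul, ← pow_succ, ← hm]
    exact Nat.find_spec h
  obtain ⟨b, hbA, hbQ, hbp⟩ := hex
  set C₂ := centralizer ((Cfsg.powerClosure p 1 W : Subgroup G) : Set G) with hC₂
  have hPn : (Cfsg.powerClosure p 1 W).Normal := by
    refine normalizer_eq_top_iff.1 (top_le_iff.1 fun g _ => mem_normalizer_iff_map_conj_eq.2 ?_)
    rw [Cfsg.powerClosure, MonoidHom.map_closure]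
    congr 1
    ext y
    constructor
    · rintro ⟨-, ⟨x, hx, rfl⟩, rfl⟩
      exact ⟨_, hWn.conj_mem x hx g, (conj_pow (i := p ^ 1) (a := g) (b := x)).symm⟩
    · rintro ⟨x, hx, rfl⟩
      refine ⟨_, ⟨g⁻¹ * x * g, by simpa using hWn.conj_mem x hx g⁻¹, rfl⟩, ?_⟩
      show g * (g⁻¹ * x * g) ^ p ^ 1 * g⁻¹ = _
      rw [← conj_pow]
      simp [mul_assoc]
  haveI : C₂.Normal := normalizer_eq_top_iff.1 (top_le_iff.1
    (Modules.normalizes_centralizer (normalizer_eq_top (H := Cfsg.powerClosure p 1 W)).ge))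
  rcases inf_le_pCore_or_sup_eq_top S hE₂ C₂ with h | h
  · refine absurd (h ⟨hA.1 hbA, ?_⟩) hbQ
    rw [hC₂, Cfsg.powerClosure, centralizer_closure]
    refine mem_centralizer_iff.2 ?_
    rintro - ⟨v, hv, rfl⟩
    rw [pow_one]
    have hbN : b ∈ normalizer (W : Set G) := by rw [normalizer_eq_top (H := W)]; trivial
    refine commutatorElement_eq_one_iff_mul_comm.1 ?_
    have h1 := congrArg Subtype.val (map_pow (Modules.commHom hWc hbN) ⟨v, hv⟩ p)
    have h2 : ⁅v, b ^ p⁆ = 1 := commutatorElement_eq_one_iff_mul_comm.2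
      (mem_centralizer_iff.1 hv.2 _ hbp).symm
    rw [Modules.commutatorElement_pow_of_quadratic hquad hv hbA] at h2
    exact h1.trans h2
  · refine le_center_of_centralized S h (centralizer_le ?_) ?_
    · exact closure_mono fun y ⟨x, hx, e⟩ => ⟨x, hZW hx, e⟩
    · refine (closure_le _).2 ?_
      rintro - ⟨x, hx, rfl⟩
      exact pow_mem hx.2 _

end Cfsg.Agent.S2770
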