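import Cfsg.Statements.S2773
import Cfsg.Agent.CF.FocalThree.Main

set_option autoImplicit false
set_option linter.style.haveILetI false
universe u
open Cfsg

open scoped commutatorElement

namespace Cfsg.Agent.S2773

/-- For every nontrivial finite 3-group S there is a nontrivial characteristic subgroup K of S such that, in every finite group G containing S as a Sylow 3-subgroup, S ∩ G' is the product of S ∩ (C_G(Z(S)))' and S ∩ (N_G(K))' (derived subgroups; product taken elementwise). -/
theorem result {S : Type u} [Group S] [Finite S] [Nontrivial S] (hS : IsPGroup 3 S) : ∃ K : Subgroup S, K ≠ ⊥ ∧ K.Characteristic ∧ ∀ (G : Type u) [Group G] [Finite G] (τ : S →* G), Function.Injective τ → (∃ P : Sylow 3 G, (P : Subgroup G) = τ.range) → ∀ g : G, g ∈ τ.range ⊓ commutator G ↔ ∃ a ∈ τ.range ⊓ ⁅Subgroup.centralizer ((τ.range ⊓ Subgroup.centralizer (τ.range : Set G) : Subgroup G) : Set G), Subgroup.centralizer ((τ.range ⊓ Subgroup.centralizer (τ.range : Set G) : Subgroup G) : Set G)⁆, ∃ b ∈ τ.range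 ⊓ ⁅Subgroup.normalizer ((K.map τ : Subgroup G) : Set G), Subgroup.normalizer ((K.map τ : Subgroup G) : Set G)⁆, g = a * b := by
  open Cfsg.Agent Cfsg.Agent.CF Cfsg.Agent.CF.FocalOdd Cfsg.Agent.CF.FocalThree Cfsg.Agent.Fusion in
  haveI : Fact (Nat.Prime 3) := ⟨Nat.prime_three⟩
  set W : ∀ (Q : Type u) [Group Q], Subgroup Q := compJt CDQuad.cdAb with hWdef
  have hW : Cfsg.IsCharPFunctor.{u} 3 W := compJt_charP (CDQuad.cdAb_charP 3)
  refine ⟨W S, hW.1 S hS inferInstance, characteristic_of_charP hW hS, ?_⟩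
  intro G _ _ τ hτ hsyl g
  obtain ⟨P, hP⟩ := hsyl
  have hK : (W S).map τ = Cfsg.inducedFunctor W τ.range := by
    have h1 : Cfsg.inducedFunctor W (⊤ : Subgroup S) = W S :=
      hW.2 (↥(⊤ : Subgroup S)) S (hS.to_subgroup ⊤) Subgroup.topEquiv
    rw [MonoidHom.range_eq_map, ← h1, ← inducedFunctor_map_of_injective hW τ hτ (hS.to_subgroup ⊤)]
  rw [hK, ← hP]
  set C : Subgroup G := Subgroup.centralizer (((P : Subgroup G) ⊓
    Subgroup.centralizer ((P : Subgroup G) : Set G) : Subgroup G) : Set G) with hC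
  set NK : Subgroup G :=
    Subgroup.normalizer ((Cfsg.inducedFunctor W (P : Subgroup G) : Subgroup G) : Set G) with hNK
  set P₁ := (P : Subgroup G) ⊓ ⁅C, C⁆ with hP₁
  set P₂ := (P : Subgroup G) ⊓ ⁅NK, NK⁆ with hP₂
  have hPC : (P : Subgroup G) ≤ C := Subgroup.le_centralizer_iff.1 inf_le_right
  have hnorm : P₂ ≤ Subgroup.normalizer (P₁ : Set G) := inf_le_left.trans
    (CDQuad.le_normalizer_of_conj fun s hs a ha =>
      ⟨(P : Subgroup G).mul_mem ((P : Subgroup G).mul_mem hs ha.1) ((P : Subgroup G).inv_mem hs), by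
        rw [show s * a * s⁻¹ = ⁅s, a⁆ * a by simp [commutatorElement_def]]
        exact mul_mem (Subgroup.commutator_mem_commutator (hPC hs) (hPC ha.1)) ha.2⟩)
  constructor
  swap
  · rintro ⟨a, ha, b, hb, rfl⟩
    exact ⟨mul_mem ha.1 hb.1, mul_mem (Subgroup.commutator_mono le_top le_top ha.2)
      (Subgroup.commutator_mono le_top le_top hb.2)⟩
  intro hg
  have key : TrIn (Fam FocalThree.family.{u} G) ⊤ (P : Subgroup G) := by
    refine trIn_of_sections (FocalThree.family_charP 3) (fun Y _ _ _ hYC hsub hquot T => ?_) G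
      (IsSec.refl G) P
    by_contra hG
    obtain ⟨⟨hMne, hHM⟩, ⟨-, hQM⟩, hex⟩ :=
      minimal_failure (FocalThree.family_charP 3) ⟨_, centerFun_mem⟩ T hsub hquot hYC hG
    have hbase : ∀ W ∈ FocalThree.family.{u}, Nz (Cfsg.inducedFunctor W (T : Subgroup Y)) ≠ ⊤ :=
      fun W hW h => hG (le_iSup₂_of_le _ ⟨W, hW, rfl⟩ (by rw [h, top_inf_eq]))
    have hTne : (T : Subgroup Y) ≠ ⊤ := fun h => hbase _ centerFun_mem (top_le_iff.1
      ((h.ge.trans Subgroup.le_normalizer).trans
        (normalizer_le_Nz_W (isConjugacyFunctor_induced (centerFun_charP 3)) T.2)))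
    have D : FocalThree.Fail 3 T (Nz (TrT (Fam FocalThree.family.{u} Y) ⊤ (T : Subgroup Y) ⊓
        Cfsg.pCore 3 Y)) :=
      { constr := hYC
        SM := hHM _ le_rfl hTne
        Mne := hMne
        uniq := hHM
        ctrl := hsub
        norm := fun H R hQR hR hle => by
          rw [Nz, Subgroup.le_normalizer_iff]
          intro h hh a ha
          refine Subgroup.mem_inf.mpr
            ⟨?_, (inferInstance : (Cfsg.pCore 3 Y).Normal).conj_mem a ha.2 h⟩
          have h0 : ⁅h, a⁆ ∈ Cfsg.pCore 3 Y := Subgroup.commutator_le_right ⊤ _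
            (Subgroup.commutator_mem_commutator (Subgroup.mem_top h) ha.2)
          have h1 := (hQM ⟨h0, hle ⟨hQR h0,
            Subgroup.commutator_mem_commutator hh (hR.le (hQR ha.2))⟩⟩).2
          have := mul_mem h1 ha.1
          simpa [commutatorElement_def, mul_assoc] using this
        center_not := fun h => hbase _ centerFun_mem (by
          rw [induced_centerFun]
          exact Subgroup.normalizer_eq_top_iff.2 h)
        ab_not := fun h => hbase _ FocalThree.compJt_mem (by
          rw [induced_compJt (CDQuad.cdAb_charP 3) T.2]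
          exact Subgroup.normalizer_eq_top_iff.2 h) }
    obtain ⟨u, hu, huQ, hquad⟩ := D.exists_quadratic (by norm_num)
    obtain ⟨U, V, hUV, hUQ, hnot⟩ := hex u hu huQ
    exact hnot (hquad U V hUV hUQ)
  have hle : TrT (Fam FocalThree.family.{u} G) ⊤ (P : Subgroup G) ≤ P₁ ⊔ P₂ := by
    refine iSup₂_le ?_
    rintro _ ⟨F, hF, rfl⟩
    rcases hF with rfl | rfl <;> dsimp only
    · rw [induced_centerFun, top_inf_eq]
      set H := Nz ((P : Subgroup G) ⊓ Subgroup.centralizer ((P : Subgroup G) : Set G)) with hH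
      have hconj := isConjugacyFunctor_induced (X := G) (centerFun_charP.{u} 3)
      have hNP : Nz (P : Subgroup G) ≤ NK :=
        normalizer_le_Nz_W (isConjugacyFunctor_induced hW) P.2
      have hPH : (P : Subgroup G) ≤ H := by
        have h := normalizer_le_Nz_W hconj P.2
        rw [induced_centerFun] at h
        exact Subgroup.le_normalizer.trans h
      have hCH : C ≤ H := Subgroup.centralizer_le_normalizer _
      refine inf_commutator_le_of_focal (IsSyl.sylow_inf hPH) fun x hx d hd hxd => ?_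
      obtain ⟨c, hc, y, hyH, hy, rfl⟩ := (IsSyl.sylow_inf hPH).frattini (N := C) hCH
        (Modules.normalizes_centralizer le_rfl) hx
      rw [inf_eq_left.2 hPC] at hy
      have he : y * d * y⁻¹ ∈ (P : Subgroup G) := CDQuad.conj_mem_of_normalizer hy hd
      set e := y * d * y⁻¹ with hedef
      rw [show d⁻¹ * (c * y * d * (c * y)⁻¹) = ⁅d⁻¹, y⁆ * ⁅e⁻¹, c⁆ by
        simp only [hedef, commutatorElement_def]; group]
      refine mul_mem (Subgroup.mem_sup_right ⟨?_, ?_⟩) (Subgroup.mem_sup_left ⟨?_, ?_⟩)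
      · rw [show ⁅d⁻¹, y⁆ = d⁻¹ * e by simp only [hedef, commutatorElement_def]; group]
        exact (P : Subgroup G).mul_mem ((P : Subgroup G).inv_mem hd) he
      · exact Subgroup.commutator_mem_commutator
          (hNP (Subgroup.le_normalizer (inv_mem hd))) (hNP hy)
      · rw [show ⁅e⁻¹, c⁆ = e⁻¹ * (c * y * d * (c * y)⁻¹) by
          simp only [hedef, commutatorElement_def]; group]
        exact (P : Subgroup G).mul_mem ((P : Subgroup G).inv_mem he) hxd
      · exact Subgroup.commutator_mem_commutator (hPC (inv_mem he)) hc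
    · rw [top_inf_eq]
      exact le_sup_right
  have hmem : g ∈ P₁ ⊔ P₂ := hle (key (by rw [← commutator_def]; exact hg))
  rw [← SetLike.mem_coe, Subgroup.coe_mul_of_right_le_normalizer_left P₁ P₂ hnorm] at hmem
  obtain ⟨a, ha, b, hb, he⟩ := hmem
  exact ⟨a, ha, b, hb, he.symm⟩

end Cfsg.Agent.S2773
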