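import Cfsg.Statements.S2774
import Cfsg.Agent.CF.FocalOdd.Main

set_option autoImplicit false
open Cfsg

open scoped commutatorElement

namespace Cfsg.Agent.S2774

/-- Let p be an odd prime and S a nontrivial Sylow p-subgroup of a finite group G. Then S ∩ G' is generated by the subgroups S ∩ (N_G(K))' as K ranges over the nontrivial characteristic subgroups of S (derived subgroups of the normalizers). -/
theorem result {G : Type*} [Group G] [Finite G] {p : ℕ} [Fact p.Prime] (hp : p ≠ 2) (S : Sylow p G) (hS : (S : Subgroup G) ≠ ⊥) : (S : Subgroup G) ⊓ commutator G = ⨆ K : {K : Subgroup ↥(S : Subgroup G) // K ≠ ⊥ ∧ K.Characteristic}, (S : Subgroup G) ⊓ ⁅Subgroup.normalizer ((((K : Subgroup ↥(S : Subgroup G))).map (S : Subgroup G).subtype : Subgroup G) : Set G), Subgroup.normalizer ((((K : Subgroup ↥(S : Subgroup G))).map (S : Subgroup G).subtype : Subgroup G) : Set G)⁆ := by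
  open Cfsg.Agent Cfsg.Agent.CF Cfsg.Agent.CF.FocalOdd Cfsg.Agent.Fusion in
  refine le_antisymm ?_ (iSup_le fun K => inf_le_inf_left _ (Subgroup.commutator_mono le_top le_top))
  have key : TrIn (Fam (family p) G) ⊤ (S : Subgroup G) := by
    refine trIn_of_sections family_charP (fun Y _ _ _ hC hsub hquot T => ?_) G (IsSec.refl G) S
    by_contra hG
    obtain ⟨⟨hMne, hHM⟩, ⟨-, hQM⟩, hex⟩ :=
      minimal_failure family_charP ⟨_, omZFun_mem⟩ T hsub hquot hC hG
    have hbase : ∀ W ∈ family p, Nz (Cfsg.inducedFunctor W (T : Subgroup Y)) ≠ ⊤ := fun W hW h =>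
      hG (le_iSup₂_of_le _ ⟨W, hW, rfl⟩ (by rw [h, top_inf_eq]))
    have hTne : (T : Subgroup Y) ≠ ⊤ := fun h => hbase _ omZFun_mem (top_le_iff.1
      ((h.ge.trans Subgroup.le_normalizer).trans
        (normalizer_le_Nz_W (isConjugacyFunctor_induced omZFun_charP) T.2)))
    have D : Fail p T (Nz (TrT (Fam (family p) Y) ⊤ (T : Subgroup Y) ⊓ Cfsg.pCore p Y)) :=
      { constr := hC
        SM := hHM _ le_rfl hTne
        Mne := hMne
        uniq := hHM
        ctrl := hsub
        norm := fun H P hQP hP hle => by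
          rw [Nz, Subgroup.le_normalizer_iff]
          intro h hh a ha
          refine Subgroup.mem_inf.mpr
            ⟨?_, (inferInstance : (Cfsg.pCore p Y).Normal).conj_mem a ha.2 h⟩
          have h0 : ⁅h, a⁆ ∈ Cfsg.pCore p Y := Subgroup.commutator_le_right ⊤ _
            (Subgroup.commutator_mem_commutator (Subgroup.mem_top h) ha.2)
          have h1 := (hQM ⟨h0, hle ⟨hQP h0,
            Subgroup.commutator_mem_commutator hh (hP.le (hQP ha.2))⟩⟩).2
          have := mul_mem h1 ha.1
          simpa [commutatorElement_def, mul_assoc] using this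
        omZ_not := fun h => hbase _ omZFun_mem (by
          rw [induced_omZFun]
          exact Subgroup.normalizer_eq_top_iff.2 h)
        jt_not := fun K hK hKc hn => by
          obtain ⟨W, hW, hWK⟩ := exists_charP_eq (p := p) (T.2.to_inf_left) hKc hK
          refine hbase _ (compJt_mem hW) ?_
          rw [induced_compJt hW T.2, Cfsg.inducedFunctor, hWK]
          exact Subgroup.normalizer_eq_top_iff.2 hn }
    obtain ⟨u, hu, huQ, hquad⟩ := D.exists_quadratic hp
    obtain ⟨U, V, hUV, hUQ, hnot⟩ := hex u hu huQ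
    have : V.Normal := hUV.2.2.1
    have h2 : 2 ≤ p := (Fact.out : p.Prime).two_le
    exact hnot (iterCommutator_le_of_le (by omega) (hquad U V hUV hUQ))
  rw [commutator_def]
  refine le_trans key (iSup₂_le ?_)
  rintro _ ⟨W, hW, rfl⟩
  have : Nontrivial (S : Subgroup G) := (Subgroup.nontrivial_iff_ne_bot _).2 hS
  exact le_iSup_of_le ⟨W ↥(S : Subgroup G), (family_charP W hW).1 _ S.2 inferInstance,
    characteristic_of_charP (family_charP W hW) S.2⟩
    (inf_le_inf_left _ (Subgroup.commutator_mono inf_le_right inf_le_right))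

end Cfsg.Agent.S2774
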