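import Cfsg.Statements.S2779
import Cfsg.Agent.LocalP.NaturalSL2

set_option autoImplicit false
open Cfsg
open scoped commutatorElement

namespace Cfsg.Agent.S2779



/-- Let L act on the elementary abelian p-group V (inside a finite group, by conjugation, faithfully) as SL₂(F) on its natural module, F a field with p^n elements, and let S be a Sylow p-subgroup of L. Then [V, S, S] = 1; |V| = p^(2n) and |C_V(S)| = p^n; and for every nonidentity s ∈ S and every v ∈ V outside C_V(S): C_V(s) = C_V(S) = [V, S] = [V, s] = the subgroup generated by the commutators [v, t], t ∈ S. -/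
theorem result {G : Type*} [Group G] [Finite G] {p : ℕ} [Fact p.Prime] {F : Type*} [Field F] [Fintype F] (n : ℕ) (hF : Fintype.card F = p ^ n) (V L : Subgroup G) (hnat : Cfsg.IsNaturalSL2Module F V L) (hf : L ⊓ Subgroup.centralizer (V : Set G) = ⊥) (S : Sylow p ↥L) (T : Subgroup G) (hT : T = ((S : Subgroup ↥L).map L.subtype)) : ⁅⁅V, T⁆, T⁆ = ⊥ ∧ Nat.card V = p ^ (2 * n) ∧ Nat.card ↥(V ⊓ Subgroup.centralizer ((T : Subgroup G) : Set G)) = p ^ n ∧ ∀ s ∈ T, s ≠ 1 → (V ⊓ Subgroup.centralizer ({s} : Set G)) = (V ⊓ Subgroup.centralizer ((T : Subgroup G) : Set G)) ∧ ⁅V, T⁆ = (V ⊓ Subgroup.centralizer ((T : Subgroup G) : Set G)) ∧ ⁅V, Subgroup.zpowers s⁆ = (V ⊓ Subgroup.centralizer ((T : Subgroup G) : Set G)) ∧ ∀ v ∈ V, v ∉ Subgroup.centralizer (T : Set G) → Subgroup.closure {x : G | ∃ t ∈ T, x = v * t * v⁻¹ * t⁻¹} = (V ⊓ Subgroup.centralizer ((T : Subgroup G) : Set G)) := by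
  subst hT
  obtain ⟨c⟩ := LocalP.NatSL2.exists_coords hF hnat hf S
  set T := (S : Subgroup ↥L).map L.subtype
  set C := V ⊓ Subgroup.centralizer (T : Set G) with hC
  have hVT : ⁅V, T⁆ ≤ C := by
    rw [Subgroup.commutator_le]
    intro v hv t ht
    exact c.mem_inf_iff.2 ⟨⟨_, c.comm_mem ht ⟨v, hv⟩⟩, rfl, by rw [c.vec_comm ht]; rfl⟩
  have hcard : Nat.card ↥V = p ^ (2 * n) := by
    rw [show Nat.card ↥V = Nat.card (Fin 2 → F) from Nat.card_congr (Additive.ofMul.trans c.ψ.toEquiv),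
      Nat.card_fun, Nat.card_fin, Nat.card_eq_fintype_card, hF, ← pow_mul, mul_comm]
  have hCcard : Nat.card ↥C = p ^ n := by
    rw [← hF, ← Nat.card_eq_fintype_card]
    refine Nat.card_congr (Equiv.ofBijective (fun x : ↥C => c.vec ⟨x, x.2.1⟩ 0) ⟨fun x y he => ?_, fun a => ?_⟩)
    · have hxy : c.vec ⟨x, x.2.1⟩ = c.vec ⟨y, y.2.1⟩ := by
        ext i
        fin_cases i
        · exact he
        · show c.vec _ 1 = c.vec _ 1
          rw [(c.mem_C_iff ⟨x, x.2.1⟩).1 x.2.2, (c.mem_C_iff ⟨y, y.2.1⟩).1 y.2.2]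
      exact Subtype.ext (congrArg (fun v : ↥V => (v : G)) (c.vec_injective hxy))
    · refine ⟨⟨(c.ofVec ![a, 0] : G), c.mem_inf_iff.2 ⟨c.ofVec ![a, 0], rfl, by simp [c.vec_mk]⟩⟩, ?_⟩
      show c.vec (c.ofVec ![a, 0]) 0 = a
      simp [c.vec_mk]
  refine ⟨?_, hcard, hCcard, fun s hs hs1 => ?_⟩
  · rw [Subgroup.commutator_eq_bot_iff_le_centralizer]
    exact hVT.trans inf_le_right
  have hb := c.ne_zero_of_ne_one hs hs1
  set b := (c.ρ ⟨s, c.leT hs⟩ : Matrix (Fin 2) (Fin 2) F) 0 1 with hbdef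
  have hzT : Subgroup.zpowers s ≤ T := Subgroup.zpowers_le.2 hs
  have hCz : C ≤ ⁅V, Subgroup.zpowers s⁆ := by
    intro x hx
    obtain ⟨v, rfl, hv⟩ := c.mem_inf_iff.1 hx
    set w := c.ofVec ![0, -(c.vec v 0) / b] with hw
    have h1 : (⟨_, c.comm_mem hs w⟩ : ↥V) = v := by
      refine c.vec_injective ?_
      rw [c.vec_comm hs, ← hbdef, hw, c.vec_mk]
      ext i
      fin_cases i
      · simp; field_simp
      · simp [hv]
    rw [← h1]
    exact Subgroup.commutator_mem_commutator w.2 (Subgroup.mem_zpowers s)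
  refine ⟨le_antisymm ?_ ?_, le_antisymm hVT (hCz.trans (Subgroup.commutator_mono le_rfl hzT)),
    le_antisymm ((Subgroup.commutator_mono le_rfl hzT).trans hVT) hCz, fun v hv hvC => le_antisymm ?_ ?_⟩
  · rintro x ⟨hxV, hxs⟩
    refine c.mem_inf_iff.2 ⟨⟨x, hxV⟩, rfl, ?_⟩
    have h1 := (c.commute_iff hs ⟨x, hxV⟩).1 (Subgroup.mem_centralizer_iff.1 hxs s rfl)
    exact (mul_eq_zero.1 h1).resolve_left hb
  · exact inf_le_inf_left _ (Subgroup.centralizer_le (Set.singleton_subset_iff.2 hs))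
  · rw [Subgroup.closure_le]
    rintro _ ⟨t, ht, rfl⟩
    have h1 := hVT (Subgroup.commutator_mem_commutator hv ht)
    rwa [commutatorElement_def] at h1
  · intro x hx
    obtain ⟨u, rfl, hu⟩ := c.mem_inf_iff.1 hx
    have hv1 : c.vec ⟨v, hv⟩ 1 ≠ 0 := fun h0 => hvC ((c.mem_C_iff ⟨v, hv⟩).2 h0)
    obtain ⟨t, ht, hbt⟩ := c.exists_T (-(c.vec u 0) / c.vec ⟨v, hv⟩ 1)
    refine Subgroup.subset_closure ⟨t, ht, ?_⟩
    have h1 : u = ⟨_, c.comm_mem ht ⟨v, hv⟩⟩ := by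
      refine c.vec_injective ?_
      rw [c.vec_comm ht, hbt]
      ext i
      fin_cases i
      · simp; field_simp
      · simp [hu]
    rw [congrArg Subtype.val h1]
    rfl

end Cfsg.Agent.S2779
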