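import Cfsg.Statements.S2780
import Cfsg.Agent.LocalP.NaturalSL2

set_option autoImplicit false
open Cfsg
open scoped commutatorElement

namespace Cfsg.Agent.S2780



/-- Let L act on the elementary abelian p-group V (inside a finite group, faithfully) as SL₂(F) on its natural module, F a field with p^n elements, S a Sylow p-subgroup of L. Then: for every g ∈ L not normalizing S, V is the internal direct product of C_V(S) and C_V(gSg⁻¹); every nonidentity element of L of order prime to p acts on V without nonidentity fixed points; and C_V(S) and V/C_V(S) are irreducible for N_L(S): the only N_L(S)-invariant subgroups of C_V(S) are 1 and C_V(S), and the only N_L(S)-invariant subgroups between C_V(S) and V are those two. -/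
theorem result {G : Type*} [Group G] [Finite G] {p : ℕ} [Fact p.Prime] {F : Type*} [Field F] [Fintype F] (n : ℕ) (hF : Fintype.card F = p ^ n) (V L : Subgroup G) (hnat : Cfsg.IsNaturalSL2Module F V L) (hf : L ⊓ Subgroup.centralizer (V : Set G) = ⊥) (S : Sylow p ↥L) (T : Subgroup G) (hT : T = ((S : Subgroup ↥L).map L.subtype)) : (∀ g ∈ L, g ∉ Subgroup.normalizer (T : Set G) → Cfsg.IsInternalDirectProduct (V ⊓ Subgroup.centralizer ((T : Subgroup G) : Set G)) (V ⊓ Subgroup.centralizer ((T.map (MulAut.conj g).toMonoidHom : Subgroup G) : Set G)) V) ∧ (∀ x ∈ L, x ≠ 1 → (orderOf x).Coprime p → (V ⊓ Subgroup.centralizer ({x} : Set G)) = ⊥) ∧ (∀ U : Subgroup G, U ≤ (V ⊓ Subgroup.centralizer ((T : Subgroup G) : Set G)) → L ⊓ Subgroup.normalizer (T : Set G) ≤ Subgroup.normalizer (U : Set G) → U = ⊥ ∨ U = (V ⊓ Subgroup.centralizer ((T : Subgroup G) : Set G))) ∧ (∀ U : Subgroup G, (V ⊓ Subgroup.centralizer ((T : Subgroup G) : Set G)) ≤ U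 → U ≤ V → L ⊓ Subgroup.normalizer (T : Set G) ≤ Subgroup.normalizer (U : Set G) → U = (V ⊓ Subgroup.centralizer ((T : Subgroup G) : Set G)) ∨ U = V) := by
  subst hT
  obtain ⟨c⟩ := LocalP.NatSL2.exists_coords hF hnat hf S
  set T := (S : Subgroup ↥L).map L.subtype
  set C := V ⊓ Subgroup.centralizer (T : Set G) with hC
  have hVc : ∀ a ∈ V, ∀ b ∈ V, a * b = b * a := by
    intro a ha b hb
    refine congrArg Subtype.val (c.vec_injective (a₁ := ⟨a, ha⟩ * ⟨b, hb⟩) (a₂ := ⟨b, hb⟩ * ⟨a, ha⟩) ?_)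
    rw [c.vec_mul, c.vec_mul, add_comm]
  -- upper triangular elements normalize `T`
  have hupper : ∀ l : ↥L, (c.ρ l : Matrix (Fin 2) (Fin 2) F) 1 0 = 0 →
      (l : G) ∈ Subgroup.normalizer (T : Set G) := by
    intro l hl
    have key : ∀ m : ↥L, (c.ρ m : Matrix (Fin 2) (Fin 2) F) 1 0 = 0 → ∀ t ∈ T,
        (m : G) * t * (m : G)⁻¹ ∈ T := by
      intro m hm t ht
      obtain ⟨e0, e1, e2⟩ := c.entries (l := ⟨t, c.leT ht⟩) ht
      have h1 : ((m * ⟨t, c.leT ht⟩ * m⁻¹ : ↥L) : G) ∈ T := by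
        refine (c.mem _).2 ?_
        rw [map_mul, map_mul, map_inv, Matrix.SpecialLinearGroup.coe_mul, Matrix.SpecialLinearGroup.coe_mul,
          Matrix.SpecialLinearGroup.coe_inv, Matrix.adjugate_fin_two]
        have hd := (c.ρ m).2
        rw [Matrix.det_fin_two, hm, mul_zero, sub_zero] at hd
        ext i
        fin_cases i <;>
          simp [Matrix.mulVec, dotProduct, Matrix.mul_apply, Fin.sum_univ_two, hm, e0, e1, e2, hd]
      simpa using h1
    refine Subgroup.mem_normalizer_iff.2 fun t => ⟨key l hl t, fun h => ?_⟩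
    have hl' : (c.ρ l⁻¹ : Matrix (Fin 2) (Fin 2) F) 1 0 = 0 := by
      rw [map_inv, Matrix.SpecialLinearGroup.coe_inv, Matrix.adjugate_fin_two]
      simp [hl]
    simpa [mul_assoc] using key l⁻¹ hl' _ h
  have hscal : ∀ U : Subgroup G, L ⊓ Subgroup.normalizer (T : Set G) ≤ Subgroup.normalizer (U : Set G) →
      ∀ a : F, a ≠ 0 → ∀ v : ↥V, (v : G) ∈ U → ∃ w : ↥V, (w : G) ∈ U ∧ c.vec w = ![a * c.vec v 0, a⁻¹ * c.vec v 1] := by
    intro U hU a ha v hv
    obtain ⟨l, hl⟩ := c.bij.2 (EvenLocal.Qd.mat2 a 0 0 a⁻¹ (by rw [mul_inv_cancel₀ ha]; ring))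
    have hn : (l : G) ∈ Subgroup.normalizer (U : Set G) := hU ⟨l.2, hupper l (by simp [hl])⟩
    refine ⟨⟨_, c.conj_mem l v⟩, (Subgroup.mem_normalizer_iff.1 hn v).1 hv, ?_⟩
    rw [c.vec_conj, hl]
    ext i
    fin_cases i <;> simp [Matrix.mulVec, dotProduct, Fin.sum_univ_two]
  refine ⟨?_, ?_, ?_, ?_⟩
  · intro g hg hgN
    set l : ↥L := ⟨g, hg⟩
    have h10 : (c.ρ l : Matrix (Fin 2) (Fin 2) F) 1 0 ≠ 0 := fun h0 => hgN (hupper l h0)
    set T' := T.map (MulAut.conj g).toMonoidHom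
    have hmem : ∀ v : ↥V, (v : G) ∈ Subgroup.centralizer (T : Set G) →
        g * (v : G) * g⁻¹ ∈ Subgroup.centralizer (T' : Set G) := by
      intro v hv
      rw [Subgroup.mem_centralizer_iff] at hv ⊢
      rintro _ ⟨t, ht, rfl⟩
      show g * t * g⁻¹ * (g * v * g⁻¹) = g * v * g⁻¹ * (g * t * g⁻¹)
      calc g * t * g⁻¹ * (g * v * g⁻¹) = g * (t * v) * g⁻¹ := by group
        _ = g * v * g⁻¹ * (g * t * g⁻¹) := by rw [hv t ht]; group
    refine ⟨inf_le_left, inf_le_left, fun a ha b hb => hVc a ha.1 b hb.1, ?_,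
      le_antisymm (sup_le inf_le_left inf_le_left) ?_⟩
    · rw [eq_bot_iff]
      rintro x ⟨⟨hxV, hxT⟩, -, hxT'⟩
      have h0 := (c.mem_C_iff ⟨x, hxV⟩).1 hxT
      set y : ↥V := ⟨_, c.conj_mem l⁻¹ ⟨x, hxV⟩⟩
      replace hxT' : x ∈ Subgroup.centralizer (T' : Set G) := hxT'
      have hy : (y : G) ∈ Subgroup.centralizer (T : Set G) := by
        rw [Subgroup.mem_centralizer_iff] at hxT' ⊢
        intro t ht
        have h1 : g * t * g⁻¹ * x = x * (g * t * g⁻¹) := hxT' _ ⟨t, ht, rfl⟩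
        show t * (g⁻¹ * x * g⁻¹⁻¹) = g⁻¹ * x * g⁻¹⁻¹ * t
        calc t * (g⁻¹ * x * g⁻¹⁻¹) = g⁻¹ * (g * t * g⁻¹ * x) * g := by group
          _ = g⁻¹ * x * g⁻¹⁻¹ * t := by rw [h1]; group
      have h1 := (c.mem_C_iff y).1 hy
      rw [c.vec_conj, map_inv, Matrix.SpecialLinearGroup.coe_inv, Matrix.adjugate_fin_two] at h1
      simp [Matrix.mulVec, dotProduct, Fin.sum_univ_two, h0] at h1
      have h2 : c.vec ⟨x, hxV⟩ = 0 := by
        funext i
        fin_cases i
        · exact h1.resolve_left h10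
        · exact h0
      rw [← c.vec_one] at h2
      exact Subgroup.mem_bot.2 (congrArg Subtype.val (c.vec_injective h2))
    · intro x hx
      set v : ↥V := ⟨x, hx⟩
      set k := c.vec v 1 / (c.ρ l : Matrix (Fin 2) (Fin 2) F) 1 0
      set u : ↥V := ⟨_, c.conj_mem l (c.ofVec ![k, 0])⟩ with hu
      have hu' : c.vec u 1 = c.vec v 1 := by
        rw [hu, c.vec_conj, c.vec_mk]
        simp [Matrix.mulVec, dotProduct, Fin.sum_univ_two, k]
        field_simp
      have h1 : ((v * u⁻¹ : ↥V) : G) ∈ C :=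
        c.mem_inf_iff.2 ⟨_, rfl, by rw [c.vec_mul, c.vec_inv]; simp [hu']⟩
      have h2 : (u : G) ∈ V ⊓ Subgroup.centralizer (T' : Set G) :=
        ⟨u.2, hmem _ ((c.mem_C_iff _).2 (by rw [c.vec_mk]; simp))⟩
      have h3 := Subgroup.mul_mem_sup h1 h2
      simpa using h3
  · intro x hx hx1 hcop
    rw [eq_bot_iff]
    rintro w ⟨hwV, hwx⟩
    rw [Subgroup.mem_bot]
    by_contra hw1
    have hne : c.vec ⟨w, hwV⟩ ≠ 0 := fun h0 => hw1 (congrArg Subtype.val
      (c.vec_injective (h0.trans c.vec_one.symm)))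
    obtain ⟨A, hA⟩ := EvenLocal.Qd.exists_mulVec_eq hne
    obtain ⟨l, hl⟩ := c.bij.2 A
    have hfix : (c.ρ ⟨x, hx⟩ : Matrix (Fin 2) (Fin 2) F).mulVec (c.vec ⟨w, hwV⟩) = c.vec ⟨w, hwV⟩ := by
      rw [← c.vec_conj]
      refine congrArg c.vec (Subtype.ext ?_)
      show x * w * x⁻¹ = w
      rw [Subgroup.mem_centralizer_iff.1 hwx x rfl, mul_inv_cancel_right]
    have hT : ((l⁻¹ * ⟨x, hx⟩ * l : ↥L) : G) ∈ T := by
      refine (c.mem _).2 ?_
      rw [map_mul, map_mul, Matrix.SpecialLinearGroup.coe_mul, Matrix.SpecialLinearGroup.coe_mul,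
        ← Matrix.mulVec_mulVec, hl, hA, ← Matrix.mulVec_mulVec, hfix, ← hA, Matrix.mulVec_mulVec, map_inv, hl,
        ← Matrix.SpecialLinearGroup.coe_mul, inv_mul_cancel, Matrix.SpecialLinearGroup.coe_one,
        Matrix.one_mulVec]
    obtain ⟨k, hk⟩ := c.isP ⟨_, hT⟩
    have hk' : (l : G)⁻¹ * x * (l : G) ∈ T := hT
    have h1 : orderOf ((l : G)⁻¹ * x * (l : G)) = orderOf x := by
      rw [show (l : G)⁻¹ * x * (l : G) = MulAut.conj (l : G)⁻¹ x by simp, MulEquiv.orderOf_eq]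
    have h2 : ((l : G)⁻¹ * x * (l : G)) ^ p ^ k = 1 := congrArg Subtype.val hk
    exact hx1 (orderOf_eq_one_iff.1 (Nat.eq_one_of_dvd_coprimes (hcop.pow_right k) dvd_rfl
      (h1 ▸ orderOf_dvd_of_pow_eq_one h2)))
  · intro U hUC hU
    by_cases hbot : U = ⊥
    · exact Or.inl hbot
    refine Or.inr (le_antisymm hUC fun x hx => ?_)
    obtain ⟨w, hw, hw1⟩ := (Subgroup.bot_or_exists_ne_one U).resolve_left hbot
    obtain ⟨v, rfl, hv⟩ := c.mem_inf_iff.1 (hUC hw)
    obtain ⟨u, rfl, hu⟩ := c.mem_inf_iff.1 hx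
    by_cases hu0 : c.vec u 0 = 0
    · have : u = 1 := c.vec_injective (by
        rw [c.vec_one]; funext i; fin_cases i <;> assumption)
      rw [this]; exact U.one_mem
    have hv0 : c.vec v 0 ≠ 0 := fun h0 => hw1 (by
      have : v = 1 := c.vec_injective (by rw [c.vec_one]; funext i; fin_cases i <;> assumption)
      rw [this]; rfl)
    obtain ⟨z, hz, hze⟩ := hscal U hU (c.vec u 0 / c.vec v 0) (div_ne_zero hu0 hv0) v hw
    rw [show u = z from c.vec_injective (by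
      rw [hze]; funext i; fin_cases i
      · simp; field_simp
      · simp [hu, hv])]
    exact hz
  · intro U hCU hUV hU
    by_cases hle : U ≤ C
    · exact Or.inl (le_antisymm hle hCU)
    refine Or.inr (le_antisymm hUV fun x hx => ?_)
    obtain ⟨w, hw, hwC⟩ := SetLike.not_le_iff_exists.1 hle
    set v : ↥V := ⟨w, hUV hw⟩
    have hv1 : c.vec v 1 ≠ 0 := fun h0 => hwC (c.mem_inf_iff.2 ⟨v, rfl, h0⟩)
    set u : ↥V := ⟨x, hx⟩
    by_cases hu1 : c.vec u 1 = 0
    · exact hCU (c.mem_inf_iff.2 ⟨u, rfl, hu1⟩)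
    obtain ⟨z, hz, hze⟩ := hscal U hU (c.vec v 1 / c.vec u 1) (div_ne_zero hv1 hu1) v hw
    have h1 : ((u * z⁻¹ : ↥V) : G) ∈ U := hCU (c.mem_inf_iff.2 ⟨_, rfl, by
      rw [c.vec_mul, c.vec_inv, hze]; simp; field_simp; ring⟩)
    have h2 := mul_mem h1 hz
    simpa using h2

end Cfsg.Agent.S2780
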