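import Cfsg.Statements.S2781
import Cfsg.Agent.LocalP.Basic

set_option autoImplicit false
open Cfsg
open scoped commutatorElement

namespace Cfsg.Agent.S2781



/-- Let H act faithfully by conjugation on the elementary abelian p-subgroup V of a finite group, let O^p(H) be the subgroup of H generated by its elements of order prime to p, and T a Sylow p-subgroup of O^p(H). If V is generated by the H-conjugates of C_V(T) (V is the smallest H-invariant subgroup containing C_V(T)), then V = [V, O^p(H)]·C_V(O^p(H)). -/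
theorem result {G : Type*} [Group G] [Finite G] {p : ℕ} [Fact p.Prime] (V H : Subgroup G) (hV : Cfsg.IsElementaryAbelian p V) (hHV : H ≤ Subgroup.normalizer (V : Set G)) (hf : H ⊓ Subgroup.centralizer (V : Set G) = ⊥) (R : Subgroup G) (hR : R = (Cfsg.pResidual p ↥H).map H.subtype) (S : Sylow p ↥R) (T : Subgroup G) (hT : T = ((S : Subgroup ↥R).map R.subtype)) (hgen : ∀ W : Subgroup G, H ≤ Subgroup.normalizer (W : Set G) → (V ⊓ Subgroup.centralizer ((T : Subgroup G) : Set G)) ≤ W → V ≤ W) : ⁅V, R⁆ ⊔ (V ⊓ Subgroup.centralizer ((R : Subgroup G) : Set G)) = V := by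
  classical
  obtain ⟨hNc, hp1⟩ := hV
  haveI := hNc
  letI : CommGroup ↥V := { (inferInstance : Group ↥V) with mul_comm := hNc.is_comm.comm }
  have hRH : R ≤ H := hR ▸ Subgroup.map_subtype_le _
  have hRV : R ≤ Subgroup.normalizer (V : Set G) := hRH.trans hHV
  have hRn : H ≤ Subgroup.normalizer (R : Set G) := hR ▸ LocalP.le_normalizer_resOf H
  set C := ⁅V, R⁆ with hC
  set W := C ⊔ (V ⊓ Subgroup.centralizer (R : Set G)) with hW
  have hCV : C ≤ V := LocalP.commutator_le_of_le_normalizer hRV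
  have hWn : H ≤ Subgroup.normalizer (W : Set G) := by
    refine (le_inf ?_ ?_).trans (Subgroup.normalizer_inf_normalizer_le_normalizer_sup _ _)
    · intro h hh
      rw [Subgroup.mem_normalizer_iff_map_conj_eq, hC]
      change (⁅V, R⁆ : Subgroup G).map (MulAut.conj h).toMonoidHom = _
      rw [Subgroup.map_commutator]
      erw [Subgroup.mem_normalizer_iff_map_conj_eq.1 (hHV hh),
        Subgroup.mem_normalizer_iff_map_conj_eq.1 (hRn hh)]
    · refine (le_inf hHV ?_).trans Subgroup.inf_normalizer_le_normalizer_inf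
      apply LocalP.le_normalizer_of_conj_mem
      intro h hh c hc
      rw [Subgroup.mem_centralizer_iff] at hc ⊢
      intro r hr
      have hr' : h⁻¹ * r * h ∈ R := by
        simpa using LocalP.conj_mem_of_le_normalizer hRn (inv_mem hh) hr
      have := hc _ hr'
      calc r * (h * c * h⁻¹) = h * ((h⁻¹ * r * h) * c) * h⁻¹ := by group
        _ = h * c * h⁻¹ * r := by rw [this]; group
  refine le_antisymm (sup_le hCV inf_le_left) (hgen W hWn ?_)
  rintro v ⟨hv, hvT⟩
  let f : ↥R → ↥V := fun r => ⟨(r : G) * v * (r : G)⁻¹,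
    LocalP.conj_mem_of_le_normalizer hRV r.2 hv⟩
  have hf : ∀ a b : ↥R, (QuotientGroup.leftRel (S : Subgroup ↥R)) a b → f a = f b := by
    intro a b hab
    rw [QuotientGroup.leftRel_apply] at hab
    have hb : ((a⁻¹ * b : ↥R) : G) ∈ T := hT ▸ Subgroup.mem_map_of_mem _ hab
    have hcom := Subgroup.mem_centralizer_iff.1 hvT _ hb
    apply Subtype.ext
    show (a : G) * v * (a : G)⁻¹ = (b : G) * v * (b : G)⁻¹
    calc (a : G) * v * (a : G)⁻¹
        = a * (v * ((a⁻¹ * b : ↥R) : G)) * ((a⁻¹ * b : ↥R) : G)⁻¹ * (a : G)⁻¹ := by group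
      _ = (b : G) * v * (b : G)⁻¹ := by rw [← hcom]; push_cast; group
  let F : ↥R ⧸ (S : Subgroup ↥R) → ↥V := Quotient.lift f hf
  haveI : Fintype (↥R ⧸ (S : Subgroup ↥R)) := Fintype.ofFinite _
  set w : ↥V := ∏ q, F q with hw
  have hwR : (w : G) ∈ W := by
    refine Subgroup.mem_sup_right ⟨w.2, Subgroup.mem_centralizer_iff.2 fun r hr => ?_⟩
    let σ : ↥V →* ↥V :=
    { toFun := fun x => ⟨r * x * r⁻¹, LocalP.conj_mem_of_le_normalizer hRV hr x.2⟩
      map_one' := Subtype.ext (by simp)
      map_mul' := fun x y => Subtype.ext (by simp [mul_assoc]) }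
    have hσ : σ w = w := by
      rw [hw, map_prod]
      refine Fintype.prod_equiv (MulAction.toPerm (⟨r, hr⟩ : ↥R)) _ _ ?_
      intro q
      induction q using Quotient.inductionOn with
      | h a =>
        apply Subtype.ext
        show r * ((a : G) * v * (a : G)⁻¹) * r⁻¹ = (r * (a : G)) * v * (r * (a : G))⁻¹
        group
    have h1 := congrArg Subtype.val hσ
    change r * (w : G) * r⁻¹ = w at h1
    exact mul_inv_eq_iff_eq_mul.1 h1
  let D : Subgroup ↥V := C.subgroupOf V
  have hFD : ∀ q, (QuotientGroup.mk (F q) : ↥V ⧸ D) = QuotientGroup.mk ⟨v, hv⟩ := by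
    intro q
    induction q using Quotient.inductionOn with
    | h a =>
      rw [QuotientGroup.eq, Subgroup.mem_subgroupOf]
      show ((a : G) * v * (a : G)⁻¹)⁻¹ * v ∈ C
      have h1 : ⁅(a : G), v⁻¹⁆ ∈ C := hC ▸ Subgroup.commutator_comm R V ▸
        Subgroup.commutator_mem_commutator a.2 (inv_mem hv)
      simpa [commutatorElement_def, mul_assoc] using h1
  have hw2 : (QuotientGroup.mk w : ↥V ⧸ D) = QuotientGroup.mk ⟨v, hv⟩ ^ (S : Subgroup ↥R).index := by
    rw [hw, ← QuotientGroup.mk'_apply, map_prod, Subgroup.index_eq_card, Nat.card_eq_fintype_card,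
      ← Finset.card_univ, ← Finset.prod_const]
    exact Finset.prod_congr rfl fun q _ => hFD q
  rw [← QuotientGroup.mk_pow, eq_comm, QuotientGroup.eq, Subgroup.mem_subgroupOf] at hw2
  have hpowW : v ^ (S : Subgroup ↥R).index ∈ W := by
    have h1 := mul_mem hwR (inv_mem (Subgroup.mem_sup_left (T := V ⊓ Subgroup.centralizer (R : Set G)) hw2))
    have e : (w : G) * (((⟨v, hv⟩ : ↥V) ^ (S : Subgroup ↥R).index)⁻¹ * w : ↥V).1⁻¹ =
        v ^ (S : Subgroup ↥R).index := by
      push_cast; group
    rwa [e] at h1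
  have hcop : ((S : Subgroup ↥R).index).Coprime (orderOf v) := by
    refine Nat.Coprime.coprime_dvd_right (orderOf_dvd_of_pow_eq_one (hp1 v hv)) ?_
    exact Cores.coprime_iff_not_dvd_prime Fact.out |>.2 S.not_dvd_index
  obtain ⟨m, hm⟩ := exists_pow_eq_self_of_coprime hcop
  rw [← hm]
  exact pow_mem hpowW m

end Cfsg.Agent.S2781
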