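import Cfsg.Statements.S2788
import Cfsg.Agent.LocalP.ModuleBoundMain

set_option autoImplicit false
open Cfsg

namespace Cfsg.Agent.S2788



/-- Let H act faithfully by conjugation on the elementary abelian p-subgroup V of a finite group with H ≅ SL₂(F), F a field with p^n elements, S a Sylow p-subgroup of H, and A ≤ S a subgroup of order at least 3 acting quadratically on V ([V, A, A] = 1). Then |V/C_V(a)| ≥ p^n for every nonidentity a ∈ A. -/
theorem result {G : Type*} [Group G] [Finite G] {p : ℕ} [Fact p.Prime] (V H : Subgroup G) (hV : Cfsg.IsElementaryAbelian p V) (hHV : H ≤ Subgroup.normalizer (V : Set G)) (hf : H ⊓ Subgroup.centralizer (V : Set G) = ⊥) {F : Type*} [Field F] [Fintype F] (n : ℕ) (hF : Fintype.card F = p ^ n) (hiso : Nonempty (↥H ≃* Matrix.SpecialLinearGroup (Fin 2) F)) (S : Sylow p ↥H) (T : Subgroup G) (hT : T = ((S : Subgroup ↥H).map H.subtype)) (A : Subgroup G) (hA : A ≤ T) (hA3 : 3 ≤ Nat.card A) (hquad : ⁅⁅V, A⁆, A⁆ = ⊥) :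 ∀ a ∈ A, a ≠ 1 → p ^ n ≤ ((V ⊓ Subgroup.centralizer ({a} : Set G))).relIndex V := by
  intro a ha hne
  obtain ⟨e⟩ := hiso
  haveI : CharP F p := charP_of_card_eq_prime_pow hF
  have hTH : T ≤ H := hT ▸ Subgroup.map_subtype_le _
  obtain ⟨m, hm⟩ := (hT ▸ S.isPGroup'.map _ : IsPGroup p T) ⟨a, hA ha⟩
  have hm' : a ^ p ^ m = 1 := by simpa using congrArg Subtype.val hm
  refine (LocalP.ModuleBound.pow_le_relIndex hV hHV hf hF
    ((QuotientGroup.mk' (Subgroup.center (Matrix.SpecialLinearGroup (Fin 2) F))).comp e.toMonoidHom)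
    ((QuotientGroup.mk'_surjective _).comp e.surjective) (hTH (hA ha)) hm' fun h => ?_).1
  obtain ⟨c, hc, hce⟩ := LocalP.ModuleBound.mem_center_iff_smul.1 ((QuotientGroup.eq_one_iff _).1 h)
  have hpow : (e ⟨a, hTH (hA ha)⟩) ^ p ^ m = 1 := by
    rw [← map_pow, show (⟨a, hTH (hA ha)⟩ : H) ^ p ^ m = 1 from Subtype.ext (by simpa using hm'),
      map_one]
  have hc1 : c ^ p ^ m = 1 := by
    have h := congrArg (fun M : Matrix.SpecialLinearGroup (Fin 2) F =>
      (M : Matrix (Fin 2) (Fin 2) F) 0 0) hpow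
    simp only [Matrix.SpecialLinearGroup.coe_pow] at h
    rw [show ((e ⟨a, hTH (hA ha)⟩ : Matrix.SpecialLinearGroup (Fin 2) F) :
      Matrix (Fin 2) (Fin 2) F) = c • 1 from hce, smul_pow, one_pow] at h
    simpa using h
  have hc0 : c - 1 = 0 := by
    refine (pow_eq_zero_iff (n := p ^ m) (pow_ne_zero _ (Fact.out : p.Prime).ne_zero)).1 ?_
    rw [sub_pow_char_pow, hc1, one_pow, sub_self]
  rw [sub_eq_zero.1 hc0, one_smul] at hce
  have he1 : e ⟨a, hTH (hA ha)⟩ = 1 := Subtype.ext hce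
  exact hne (congrArg Subtype.val (e.injective (he1.trans (map_one e).symm)))

end Cfsg.Agent.S2788
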