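import Cfsg.Statements.S2791
import Cfsg.Agent.Fusion.Basic

set_option autoImplicit false
open Cfsg

namespace Cfsg.Agent.S2791

open Cfsg.Agent.Fusion
open scoped Pointwise

variable {G : Type*} [Group G] [Finite G] {p : ℕ} [Fact p.Prime]

/-- `g` agrees on `R` with an element of `N(A)`. -/
def Agrees (A R : Subgroup G) (g : G) : Prop :=
  ∃ x ∈ Subgroup.normalizer (A : Set G), ∀ r ∈ R, g * r * g⁻¹ = x * r * x⁻¹

omit [Finite G] in
theorem agrees_mem_cj {R : Subgroup G} {g r : G} (hr : r ∈ R) : g * r * g⁻¹ ∈ cj g R :=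
  conj_mem_cj.2 hr

omit [Finite G] in
theorem agrees_comp {A R : Subgroup G} {g h : G} (hg : Agrees A R g)
    (hh : Agrees A (cj g R) h) : Agrees A R (h * g) := by
  obtain ⟨x, hx, hx'⟩ := hg
  obtain ⟨y, hy, hy'⟩ := hh
  refine ⟨y * x, mul_mem hy hx, fun r hr => ?_⟩
  calc h * g * r * (h * g)⁻¹ = h * (g * r * g⁻¹) * h⁻¹ := by group
    _ = y * (g * r * g⁻¹) * y⁻¹ := hy' _ (agrees_mem_cj hr)
    _ = y * (x * r * x⁻¹) * y⁻¹ := by rw [hx' r hr]
    _ = y * x * r * (y * x)⁻¹ := by group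

omit [Finite G] in
theorem agrees_inv {A R : Subgroup G} {g : G} (hg : Agrees A R g) :
    Agrees A (cj g R) g⁻¹ := by
  obtain ⟨x, hx, hx'⟩ := hg
  refine ⟨x⁻¹, inv_mem hx, fun s hs => ?_⟩
  have hr : g⁻¹ * s * g ∈ R := mem_cj.1 hs
  have h1 := hx' _ hr
  have h2 : s = x * (g⁻¹ * s * g) * x⁻¹ := by rw [← h1]; group
  calc g⁻¹ * s * g⁻¹⁻¹ = x⁻¹ * (x * (g⁻¹ * s * g) * x⁻¹) * x := by group
    _ = x⁻¹ * s * x := by rw [← h2]
    _ = x⁻¹ * s * x⁻¹⁻¹ := by group

theorem relIndex_dvd_of_normalized {M K N : Subgroup G} (hM : M ≤ N) (hK : K ≤ N)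
    (hn : N ≤ Subgroup.normalizer (K : Set G)) : M.relIndex K ∣ M.relIndex N := by
  haveI : (K.subgroupOf N).Normal := Subgroup.normal_subgroupOf_of_le_normalizer hn
  have h : ∀ (A B : Subgroup N) [B.Normal], A.relIndex B ∣ A.index := by
    intro A B _
    have h1 := Subgroup.relIndex_mul_relIndex (A ⊓ B) A (A ⊔ B) inf_le_left le_sup_left
    have h2 := Subgroup.relIndex_mul_relIndex (A ⊓ B) B (A ⊔ B) inf_le_right le_sup_right
    rw [Subgroup.relIndex_sup_right, Subgroup.inf_relIndex_right] at h2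
    rw [Subgroup.inf_relIndex_left] at h1
    have h3 : A.relIndex B = A.relIndex (A ⊔ B) :=
      Nat.eq_of_mul_eq_mul_left (Nat.pos_of_ne_zero Subgroup.index_ne_zero_of_finite)
        ((h1.trans h2.symm).trans (mul_comm _ _)).symm
    exact h3 ▸ Subgroup.relIndex_dvd_index_of_le le_sup_left
  have h4 := h (M.subgroupOf N) (K.subgroupOf N)
  rwa [Subgroup.relIndex_subgroupOf hK] at h4

theorem main {A : Subgroup G} (hA : IsMulCommutative ↥A) (S : Sylow p G)
    (hsc : Cfsg.IsStronglyClosed A (S : Subgroup G)) :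
    ∀ (n : ℕ) (R : Subgroup G), Nat.card G - Nat.card R = n → R ≤ (S : Subgroup G) →
      ∀ g : G, cj g R ≤ (S : Subgroup G) → Agrees A R g := by
  have hSA : (S : Subgroup G) ≤ Subgroup.normalizer (A : Set G) := by
    intro s hs
    apply cj_eq_iff_mem_normalizer.1
    apply Subgroup.eq_of_le_of_card_ge
    · intro a ha
      have ha' := mem_cj.1 ha
      have h1 := hsc.2 _ ha' s (by
        have := S.toSubgroup.mul_mem (S.toSubgroup.mul_mem hs (hsc.1 ha')) (S.toSubgroup.inv_mem hs)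
        simpa [mul_assoc] using this)
      simpa [mul_assoc] using h1
    · rw [card_cj]
  have hcomm : ∀ a ∈ A, ∀ b ∈ A, a * b = b * a := fun a ha b hb => by
    have := hA.1.comm (⟨a, ha⟩ : A) ⟨b, hb⟩
    exact congrArg Subtype.val this
  intro n
  induction n using Nat.strong_induction_on with
  | _ n ih =>
  intro R hn hRS g hgR
  have ihP : ∀ P : Subgroup G, R < P → P ≤ (S : Subgroup G) → ∀ x : G, cj x P ≤ (S : Subgroup G) →
      Agrees A P x := by
    intro P hP hPS x hx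
    refine ih _ ?_ P rfl hPS x hx
    have h1 := card_lt_card hP
    have h2 : Nat.card P ≤ Nat.card G := Subgroup.card_le_card_group P
    omega
  by_cases hAR : A ≤ R
  · refine ⟨g, cj_eq_iff_mem_normalizer.1 ?_, fun r _ => rfl⟩
    apply Subgroup.eq_of_le_of_card_ge
    · intro a ha
      have ha' := mem_cj.1 ha
      have h1 := hsc.2 _ ha' g (hgR (conj_mem_cj.2 (hAR ha')))
      simpa [mul_assoc] using h1
    · rw [card_cj]
  have hlt : R < (S : Subgroup G) := lt_of_le_of_ne hRS fun he => hAR (he ▸ hsc.1)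
  -- fully normalized conjugate of `R`
  obtain ⟨T₁, hPT₁, hT₁⟩ := exists_sylow_inf_relIndex (p := p)
    (S.2.to_le (inf_le_left (b := Subgroup.normalizer (R : Set G)))) inf_le_right
  obtain ⟨h, hh⟩ := exists_cj_sylow T₁ S
  have hR₀ : R < (S : Subgroup G) ⊓ Subgroup.normalizer (R : Set G) := lt_normalizer_inf S.2 hlt
  have hhP : cj h ((S : Subgroup G) ⊓ Subgroup.normalizer (R : Set G)) ≤ (S : Subgroup G) :=
    (cj_mono h hPT₁).trans hh.le
  obtain ⟨x₁, hx₁, hx₁'⟩ := ihP _ hR₀ inf_le_left h hhP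
  set R' := cj h R with hR'
  have hR'S : R' ≤ (S : Subgroup G) := (cj_mono h hR₀.le).trans hhP
  set N := Subgroup.normalizer (R' : Set G) with hNdef
  set M := (S : Subgroup G) ⊓ N with hMdef
  have hN_eq : N = cj h (Subgroup.normalizer (R : Set G)) := (cj_normalizer h R).symm
  have hM_eq : M = cj h ((T₁ : Subgroup G) ⊓ Subgroup.normalizer (R : Set G)) := by
    rw [cj_inf, hh, hMdef, hN_eq]
  have hMN : ¬ p ∣ M.relIndex N := by
    rw [hM_eq, hN_eq, cj, cj, Subgroup.relIndex_map_map_of_injective _ _ (MulEquiv.injective _)]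
    exact hT₁
  have hMp : IsPGroup p M := S.2.to_le inf_le_left
  have hcard' : Nat.card R' = Nat.card R := card_cj h R
  -- the second side
  set R₂ := cj g R with hR₂
  have hlt₂ : R₂ < (S : Subgroup G) := lt_of_le_of_ne hgR fun he => by
    have h1 := card_lt_card hlt
    rw [← card_cj g R, ← hR₂, he] at h1
    exact lt_irrefl _ h1
  set k := h * g⁻¹ with hk
  have hkR₂ : cj k R₂ = R' := by
    rw [hR₂, cj_cj, hR', hk, inv_mul_cancel_right]
  set P₂ := (S : Subgroup G) ⊓ Subgroup.normalizer (R₂ : Set G) with hP₂def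
  have hkP₂ : cj k P₂ ≤ N := by
    rw [hNdef, ← hkR₂, ← cj_normalizer k R₂]; exact cj_mono k inf_le_right
  obtain ⟨V, hVk, hV⟩ := exists_sylow_inf_relIndex (p := p)
    (isPGroup_cj (S.2.to_le inf_le_left) k) hkP₂
  obtain ⟨y, hyN, hy⟩ := exists_conj_of_relIndex (V.2.to_le inf_le_left) hMp inf_le_right
    inf_le_right hV hMN
  have hk' : cj (y * k) P₂ ≤ (S : Subgroup G) := by
    rw [← cj_cj]
    exact ((cj_mono y (le_inf hVk hkP₂)).trans hy.le).trans inf_le_left
  have hR₂P₂ : R₂ < P₂ := lt_normalizer_inf S.2 hlt₂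
  have hR₂card : Nat.card R₂ = Nat.card R := card_cj g R
  have hag₂ : Agrees A P₂ (y * k) := by
    refine ih _ ?_ P₂ rfl inf_le_left _ hk'
    have h1 := card_lt_card hR₂P₂
    have h2 : Nat.card P₂ ≤ Nat.card G := Subgroup.card_le_card_group P₂
    omega
  have hag₂' : Agrees A R₂ (y * k) := by
    obtain ⟨x, hx, hx'⟩ := hag₂
    exact ⟨x, hx, fun r hr => hx' r (hR₂P₂.le hr)⟩
  -- reduce to `y` on `R'`
  suffices hy' : Agrees A R' y by
    have h1 : Agrees A R (y * h) := agrees_comp ⟨x₁, hx₁, fun r hr => hx₁' r (hR₀.le hr)⟩ hy'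
    have h2 : Agrees A (cj (y * h) R) (y * k)⁻¹ := by
      have := agrees_inv hag₂'
      have he : cj (y * k) R₂ = cj (y * h) R := by
        rw [← cj_cj y k, ← cj_cj y h, hkR₂]
      rwa [he] at this
    have h3 := agrees_comp h1 h2
    have he : (y * k)⁻¹ * (y * h) = g := by rw [hk]; group
    rwa [he] at h3
  clear hag₂ hag₂' hk' hVk hV hy
  have hyR' : cj y R' = R' := cj_eq_of_mem hyN
  by_cases hAR' : A ≤ R'
  · refine ⟨y, cj_eq_iff_mem_normalizer.1 ?_, fun r _ => rfl⟩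
    apply Subgroup.eq_of_le_of_card_ge
    · intro a ha
      have ha' := mem_cj.1 ha
      have h1 := hsc.2 _ ha' y
        (hR'S (by rw [← hyR']; exact conj_mem_cj.2 (hAR' ha')))
      simpa [mul_assoc] using h1
    · rw [card_cj]
  -- the chain stabilizer
  have hA₀ : ∀ c ∈ N, ∀ a ∈ A, a ∈ R' → c * a * c⁻¹ ∈ A ∧ c * a * c⁻¹ ∈ R' := by
    intro c hc a ha haR
    have h1 : c * a * c⁻¹ ∈ R' := (Subgroup.mem_normalizer_iff.1 hc a).1 haR
    exact ⟨hsc.2 a ha c (hR'S h1), h1⟩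
  let K : Subgroup G :=
  { carrier := {c | c ∈ N ∧ (∀ a ∈ A, a ∈ R' → c * a * c⁻¹ = a) ∧
      ∀ r ∈ R', c * r * c⁻¹ * r⁻¹ ∈ A}
    one_mem' := ⟨one_mem _, by simp, by simp⟩
    mul_mem' := by
      rintro c d ⟨hc, hc1, hc2⟩ ⟨hd, hd1, hd2⟩
      refine ⟨mul_mem hc hd, fun a ha haR => ?_, fun r hr => ?_⟩
      · calc c * d * a * (c * d)⁻¹ = c * (d * a * d⁻¹) * c⁻¹ := by group
          _ = a := by rw [hd1 a ha haR, hc1 a ha haR]
      · have hrd : d * r * d⁻¹ ∈ R' := (Subgroup.mem_normalizer_iff.1 hd r).1 hr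
        have : c * d * r * (c * d)⁻¹ * r⁻¹ =
            (c * (d * r * d⁻¹) * c⁻¹ * (d * r * d⁻¹)⁻¹) * (d * r * d⁻¹ * r⁻¹) := by group
        rw [this]
        exact mul_mem (hc2 _ hrd) (hd2 r hr)
    inv_mem' := by
      rintro c ⟨hc, hc1, hc2⟩
      refine ⟨inv_mem hc, fun a ha haR => ?_, fun r hr => ?_⟩
      · calc c⁻¹ * a * c⁻¹⁻¹ = c⁻¹ * (c * a * c⁻¹) * c := by rw [hc1 a ha haR]; group
          _ = a := by group
      · have hr' : c⁻¹ * r * c ∈ R' := by
          simpa using (Subgroup.mem_normalizer_iff.1 (inv_mem hc) r).1 hr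
        have h1 := hc2 _ hr'
        have : c⁻¹ * r * c⁻¹⁻¹ * r⁻¹ = (c * (c⁻¹ * r * c) * c⁻¹ * (c⁻¹ * r * c)⁻¹)⁻¹ := by group
        rw [this]
        exact inv_mem h1 }
  have memK : ∀ c, c ∈ K ↔ (c ∈ N ∧ (∀ a ∈ A, a ∈ R' → c * a * c⁻¹ = a) ∧
      ∀ r ∈ R', c * r * c⁻¹ * r⁻¹ ∈ A) := fun c => Iff.rfl
  have hKN : K ≤ N := fun c hc => ((memK c).1 hc).1
  have hKnorm : N ≤ Subgroup.normalizer (K : Set G) := by
    have key : ∀ d ∈ N, ∀ c ∈ K, d * c * d⁻¹ ∈ K := by
      intro d hd c hc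
      obtain ⟨hcN, hc1, hc2⟩ := (memK c).1 hc
      refine (memK _).2 ⟨mul_mem (mul_mem hd hcN) (inv_mem hd), fun a ha haR => ?_, fun r hr => ?_⟩
      · obtain ⟨ha', haR'⟩ := hA₀ d⁻¹ (inv_mem hd) a ha haR
        calc d * c * d⁻¹ * a * (d * c * d⁻¹)⁻¹
            = d * (c * (d⁻¹ * a * d⁻¹⁻¹) * c⁻¹) * d⁻¹ := by group
          _ = a := by rw [hc1 _ ha' haR']; group
      · have hr' : d⁻¹ * r * d ∈ R' := by
          simpa using (Subgroup.mem_normalizer_iff.1 (inv_mem hd) r).1 hr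
        have h1 := hc2 _ hr'
        have h2 : c * (d⁻¹ * r * d) * c⁻¹ * (d⁻¹ * r * d)⁻¹ ∈ R' :=
          mul_mem ((Subgroup.mem_normalizer_iff.1 hcN _).1 hr') (inv_mem hr')
        have h3 := (hA₀ d hd _ h1 h2).1
        have : d * c * d⁻¹ * r * (d * c * d⁻¹)⁻¹ * r⁻¹ =
            d * (c * (d⁻¹ * r * d) * c⁻¹ * (d⁻¹ * r * d)⁻¹) * d⁻¹ := by group
        rw [this]; exact h3
    intro d hd
    rw [Subgroup.mem_normalizer_iff]
    intro c
    refine ⟨key d hd c, fun hc => ?_⟩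
    have := key d⁻¹ (inv_mem hd) _ hc
    simpa [mul_assoc] using this
  have hAK : A ⊓ N ≤ K := by
    rintro a ⟨ha, haN⟩
    refine (memK a).2 ⟨haN, fun b hb _ => by rw [hcomm a ha b hb]; group, fun r hr => ?_⟩
    have h1 : r * a⁻¹ * r⁻¹ ∈ A :=
      (Subgroup.mem_normalizer_iff.1 (hSA (hR'S hr)) a⁻¹).1 (inv_mem ha)
    have : a * r * a⁻¹ * r⁻¹ = a * (r * a⁻¹ * r⁻¹) := by group
    rw [this]; exact mul_mem ha h1
  set P' := (S : Subgroup G) ⊓ K with hP'def
  set P := R' ⊔ P' with hPdef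
  have hPS : P ≤ (S : Subgroup G) := sup_le hR'S inf_le_left
  have hR'P : R' < P := by
    refine lt_of_le_of_ne le_sup_left fun he => ?_
    have hlt' : R' < R' ⊔ A := lt_of_le_of_ne le_sup_left fun he' => hAR' (he' ▸ le_sup_right)
    obtain ⟨u, hu, hu'⟩ := SetLike.exists_of_lt
      (lt_normalizer_inf (S.2.to_le (sup_le hR'S hsc.1)) hlt')
    obtain ⟨hu1, hu2⟩ := hu
    have hu3 : u ∈ ((R' ⊔ A : Subgroup G) : Set G) := hu1
    rw [Subgroup.coe_mul_of_left_le_normalizer_right R' A (hR'S.trans hSA)] at hu3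
    obtain ⟨r, hr, a, ha, hra⟩ := hu3
    dsimp only at hra
    have haN : a ∈ N := by
      have : a = r⁻¹ * u := by rw [← hra]; group
      rw [this]
      exact mul_mem (inv_mem (Subgroup.le_normalizer hr)) hu2
    have haP : a ∈ P := le_sup_right (a := R') (show a ∈ P' from ⟨hsc.1 ha, hAK ⟨ha, haN⟩⟩)
    exact hu' (by rw [← hra]; exact mul_mem hr (he ▸ haP))
  have hP'eq : P' = M ⊓ K := by
    rw [hMdef, inf_assoc, inf_eq_right.2 hKN, hP'def]
  have hP'K : ¬ p ∣ P'.relIndex K := by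
    intro hdvd
    apply hMN
    rw [hP'eq, Subgroup.inf_relIndex_right] at hdvd
    refine hdvd.trans ?_
    exact relIndex_dvd_of_normalized inf_le_right hKN hKnorm
  have hP'p : IsPGroup p P' := S.2.to_le inf_le_left
  have hy₁ : cj y P' ≤ K := by
    rw [← cj_eq_of_mem (hKnorm hyN)]; exact cj_mono y inf_le_right
  have hy₂ : ¬ p ∣ (cj y P').relIndex K := by
    nth_rewrite 1 [← cj_eq_of_mem (hKnorm hyN)]
    rw [cj, cj, Subgroup.relIndex_map_map_of_injective _ _ (MulEquiv.injective _)]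
    exact hP'K
  obtain ⟨c₁, hc₁K, hc₁⟩ := exists_conj_of_relIndex (isPGroup_cj hP'p y) hP'p hy₁ inf_le_right
    hy₂ hP'K
  -- K = P' C_K(R')
  set C := K ⊓ Subgroup.centralizer (R' : Set G) with hCdef
  have hKC : K ≤ Subgroup.normalizer (C : Set G) := by
    refine le_trans (le_inf Subgroup.le_normalizer ?_) ((Subgroup.inf_normalizer_le_normalizer_inf).trans_eq rfl)
    have h1 : N ≤ Subgroup.normalizer ((Subgroup.centralizer (R' : Set G) : Subgroup G) : Set G) := by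
      rw [hNdef]
      exact Subgroup.le_normalizer_of_normal_subgroupOf (Subgroup.centralizer_le_normalizer _)
    exact hKN.trans h1
  have hPC : P' ⊔ C = K := by
    apply le_antisymm (sup_le inf_le_right inf_le_left)
    haveI hCn : (C.subgroupOf K).Normal := Subgroup.normal_subgroupOf_of_le_normalizer hKC
    have hKp : IsPGroup p (K ⧸ C.subgroupOf K) := by
      intro q
      obtain ⟨⟨c, hc⟩, rfl⟩ := QuotientGroup.mk_surjective q
      obtain ⟨hcN, hc1, hc2⟩ := (memK c).1 hc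
      obtain ⟨e, he⟩ := IsPGroup.iff_card.1 (S.2.to_le (inf_le_of_right_le hR'S) :
        IsPGroup p ↥(A ⊓ R'))
      refine ⟨e, ?_⟩
      rw [← QuotientGroup.mk_pow, QuotientGroup.eq_one_iff, Subgroup.mem_subgroupOf]
      refine ⟨((⟨c, hc⟩ : K) ^ p ^ e).2, ?_⟩
      refine Subgroup.mem_centralizer_iff.2 fun r hr => ?_
      set a := c * r * c⁻¹ * r⁻¹ with hadef
      have ha : a ∈ A := hc2 r hr
      have haR : a ∈ R' :=
        mul_mem ((Subgroup.mem_normalizer_iff.1 hcN r).1 hr) (inv_mem hr)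
      have hm : ∀ m : ℕ, c ^ m * r * (c ^ m)⁻¹ = a ^ m * r := by
        intro m
        induction m with
        | zero => simp
        | succ m ihm =>
          have hcm : c * a ^ m * c⁻¹ = a ^ m := by
            rw [← conj_pow, hc1 a ha haR]
          calc c ^ (m + 1) * r * (c ^ (m + 1))⁻¹ = c * (c ^ m * r * (c ^ m)⁻¹) * c⁻¹ := by
                rw [pow_succ']; group
            _ = (c * a ^ m * c⁻¹) * (c * r * c⁻¹) := by rw [ihm]; group
            _ = a ^ m * (a * r) := by rw [hcm, hadef]; group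
            _ = a ^ (m + 1) * r := by rw [pow_succ]; group
      have h1 := hm (p ^ e)
      have hap : a ^ p ^ e = 1 := by
        rw [← he]
        exact congrArg Subtype.val (pow_card_eq_one' (x := (⟨a, ha, haR⟩ : ↥(A ⊓ R'))))
      rw [hap, one_mul] at h1
      change r * ((⟨c, hc⟩ : K) ^ p ^ e : K).1 = ((⟨c, hc⟩ : K) ^ p ^ e : K).1 * r
      rw [SubmonoidClass.coe_pow]
      exact (mul_inv_eq_iff_eq_mul.1 h1).symm
    obtain ⟨e, he⟩ := IsPGroup.iff_card.1 hKp
    have h1 : C.relIndex K = p ^ e := he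
    have h2 : (P' ⊔ C).relIndex K ∣ p ^ e := h1 ▸ Subgroup.relIndex_dvd_of_le_left K le_sup_right
    have h3 : (P' ⊔ C).relIndex K ∣ P'.relIndex K :=
      Subgroup.relIndex_dvd_of_le_left K le_sup_left
    have h4 : (P' ⊔ C).relIndex K = 1 := by
      obtain ⟨i, -, hi⟩ := (Nat.dvd_prime_pow Fact.out).1 h2
      rcases i with _ | i
      · simpa using hi
      · exact absurd ((dvd_pow_self p (Nat.succ_ne_zero i)).trans (hi ▸ h3)) hP'K
    exact Subgroup.relIndex_eq_one.1 h4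
  have hc₁' : c₁ ∈ ((P' ⊔ C : Subgroup G) : Set G) := by rw [hPC]; exact hc₁K
  rw [Subgroup.coe_mul_of_left_le_normalizer_right P' C ((inf_le_right).trans hKC)] at hc₁'
  obtain ⟨p₀, hp₀, c, hc, hpc⟩ := hc₁'
  dsimp only at hpc
  have hg' : cj (c * y) P' = P' := by
    rw [← hpc, cj_cj, mul_assoc, ← cj_cj] at hc₁
    have h2 := congrArg (cj p₀⁻¹) hc₁
    rw [cj_inv_cj, cj_eq_self_of_mem (inv_mem hp₀)] at h2
    exact h2
  have hgR' : cj (c * y) R' = R' := cj_eq_of_mem (mul_mem (hKN hc.1) hyN)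
  have hgP : cj (c * y) P ≤ (S : Subgroup G) := by
    refine le_of_eq_of_le ?_ hPS
    rw [hPdef, cj, Subgroup.map_sup]
    exact congrArg₂ _ hgR' hg'
  have hagP : Agrees A P (c * y) := by
    refine ih _ ?_ P rfl hPS _ hgP
    have h1 := card_lt_card hR'P
    have h2 : Nat.card P ≤ Nat.card G := Subgroup.card_le_card_group P
    omega
  obtain ⟨x, hx, hx'⟩ := hagP
  refine ⟨x, hx, fun r hr => ?_⟩
  rw [← hx' r (hR'P.le hr)]
  have hyr : y * r * y⁻¹ ∈ R' := (Subgroup.mem_normalizer_iff.1 hyN r).1 hr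
  have hcom := Subgroup.mem_centralizer_iff.1 hc.2 _ hyr
  calc y * r * y⁻¹ = c * (y * r * y⁻¹) * c⁻¹ := by rw [← hcom]; group
    _ = c * y * r * (c * y)⁻¹ := by group

/-- Let S be a Sylow p-subgroup of the finite group G and A an abelian subgroup of S that is strongly closed in S with respect to G. Then A controls strong fusion in G: for some Sylow p-subgroup T containing A, whenever a subset of T is conjugated into T by an element of G, the same elementwise conjugation is induced by an element of N_G(A). -/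
theorem result {G : Type*} [Group G] [Finite G] {p : ℕ} [Fact p.Prime] (S : Sylow p G) (A : Subgroup G) (hA : IsMulCommutative ↥A) (hsc : Cfsg.IsStronglyClosed A (S : Subgroup G)) : Cfsg.ControlsStrongFusion p A := by
  refine ⟨S, hsc.1, fun B hB => ⟨hB, fun g hg => ?_⟩⟩
  have hR : Subgroup.closure B ≤ (S : Subgroup G) := (Subgroup.closure_le _).2 hB
  have hgR : cj g (Subgroup.closure B) ≤ (S : Subgroup G) := by
    rw [cj, MonoidHom.map_closure, Subgroup.closure_le]
    rintro _ ⟨b, hb, rfl⟩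
    simpa using hg ⟨b, hb, rfl⟩
  obtain ⟨x, hx, hx'⟩ := main hA S hsc _ _ rfl hR g hgR
  exact ⟨x, hx, fun a ha => hx' a (Subgroup.subset_closure ha)⟩

end Cfsg.Agent.S2791
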