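import Cfsg.Statements.S2792
import Cfsg.Agent.LocalP.Yoshida
import Cfsg.Agent.Tech.WreathQuotient

set_option autoImplicit false
open Cfsg

namespace Cfsg.Agent.S2792



/-- Let S be a Sylow p-subgroup of the finite group G and W a subgroup of S weakly closed in S with respect to G. If S ∩ G' ≠ S ∩ (N_G(W))', then there are x ∈ S, z ∈ W and a maximal subgroup W₀ of W such that the iterated commutator [x, z; p−1] (with [x, z] = x⁻¹z⁻¹xz and [x, z; i+1] = [[x, z; i], z]) lies in W₀ but not in the Frattini subgroup of W₀; in particular [x, z; p−1] ≠ 1. -/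
theorem result {G : Type*} [Group G] [Finite G] {p : ℕ} [Fact p.Prime] (S : Sylow p G) (W : Subgroup G) (hW : Cfsg.IsWeaklyClosed W (S : Subgroup G)) (h : (S : Subgroup G) ⊓ commutator G ≠ (S : Subgroup G) ⊓ ⁅Subgroup.normalizer (W : Set G), Subgroup.normalizer (W : Set G)⁆) : ∃ x ∈ (S : Subgroup G), ∃ z ∈ W, ∃ W₀ : Subgroup ↥W, IsCoatom W₀ ∧ (fun y : G => y⁻¹ * z⁻¹ * y * z)^[p - 1] x ∈ W₀.map W.subtype ∧ (fun y : G => y⁻¹ * z⁻¹ * y * z)^[p - 1] x ∉ ((frattini ↥W₀).map W₀.subtype).map W.subtype := by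
  classical
  obtain ⟨x, hxS, z, hzW, U, F, hUS, hxU, hzn, hWn, hzU, hidx, hy1, hmul, hne⟩ :=
    LocalP.Yoshida.exists_config S W hW h
  set st := fun y : G => y⁻¹ * z⁻¹ * y * z with hst
  set W₀ := U.subgroupOf W with hW₀
  have hWp : IsPGroup p ↥W := S.2.to_le hW.1
  have hindex : W₀.index = p := by rw [← hidx, Subgroup.inf_relIndex_left]; rfl
  have hcoat : IsCoatom W₀ := by
    refine ⟨fun he => (Fact.out : p.Prime).ne_one ?_, fun X hX => ?_⟩
    · rw [← hindex, he, Subgroup.index_top]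
    · have hd : X.index ∣ p := hindex ▸ Subgroup.index_dvd_of_le hX.le
      rcases (Nat.dvd_prime Fact.out).1 hd with h1 | h1
      · exact Subgroup.index_eq_one.1 h1
      · exfalso
        have h2 := Subgroup.card_mul_index W₀
        have h3 := Subgroup.card_mul_index X
        rw [hindex] at h2
        rw [h1, ← h2] at h3
        exact hX.ne (Subgroup.eq_of_le_of_card_ge hX.le
          (Nat.eq_of_mul_eq_mul_right (Fact.out : p.Prime).pos h3).le)
  have hinvU : ∀ u ∈ U, ∀ i : ℕ, (z ^ i)⁻¹ * u * z ^ i ∈ U := fun u hu i => by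
    simpa using (Subgroup.mem_normalizer_iff.1 (inv_mem (pow_mem hzn i)) u).1 hu
  have hstU : ∀ u ∈ U, st u ∈ U := fun u hu => by
    have h2 := mul_mem (inv_mem hu) (hinvU u hu 1)
    rw [pow_one] at h2
    simpa only [hst, ← mul_assoc] using h2
  have hitU : ∀ k, st^[k] x ∈ U := by
    intro k
    induction k with
    | zero => exact hxU
    | succ k ih => rw [Function.iterate_succ_apply']; exact hstU _ ih
  have hstW : ∀ u ∈ W, st u ∈ W := fun u hu =>
    mul_mem (mul_mem (mul_mem (inv_mem hu) (inv_mem hzW)) hu) hzW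
  have hitW : ∀ k, st^[k + 1] x ∈ W := by
    intro k
    induction k with
    | zero => exact hy1
    | succ k ih => rw [Function.iterate_succ_apply']; exact hstW _ ih
  have hF1 : F 1 = 1 := by
    have h2 := hmul 1 U.one_mem 1 U.one_mem
    rw [one_mul] at h2
    exact left_eq_mul.1 h2
  have hFinv : ∀ u ∈ U, F u⁻¹ = (F u)⁻¹ := fun u hu => by
    rw [eq_inv_iff_mul_eq_one, ← hmul _ (inv_mem hu) _ hu, inv_mul_cancel, hF1]
  set a : ℕ → (ℕ → ZMod p) := fun k i => (F ((z ^ i)⁻¹ * st^[k] x * z ^ i)).toAdd with ha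
  set τ : (ℕ → ZMod p) →+ (ℕ → ZMod p) :=
    { toFun := fun f i => f (i + 1), map_zero' := rfl, map_add' := fun _ _ => rfl } with hτ
  have hrec : ∀ k, a (k + 1) = τ (a k) - a k := by
    intro k
    funext i
    have hy := hitU k
    show (F ((z ^ i)⁻¹ * st^[k + 1] x * z ^ i)).toAdd = a k (i + 1) - a k i
    rw [Function.iterate_succ_apply']
    have e : (z ^ i)⁻¹ * st (st^[k] x) * z ^ i =
        ((z ^ i)⁻¹ * st^[k] x * z ^ i)⁻¹ * ((z ^ (i + 1))⁻¹ * st^[k] x * z ^ (i + 1)) := by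
      simp only [hst, pow_succ']
      group
    rw [e, hmul _ (inv_mem (hinvU _ hy i)) _ (hinvU _ hy (i + 1)), hFinv _ (hinvU _ hy i),
      toAdd_mul, toAdd_inv, neg_add_eq_sub]
  have hit : ∀ k, a k = (fun w => τ w - w)^[k] (a 0) := by
    intro k
    induction k with
    | zero => rfl
    | succ k ih => rw [Function.iterate_succ_apply', ← ih, hrec]
  have hτit : ∀ j : ℕ, ∀ f : ℕ → ZMod p, (⇑τ)^[j] f = fun i => f (i + j) := by
    intro j
    induction j with
    | zero => intro f; rfl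
    | succ j ih =>
      intro f
      rw [Function.iterate_succ_apply', ih]
      funext i
      show f (i + 1 + j) = f (i + (j + 1))
      rw [add_assoc, add_comm 1 j]
  have hFy : F (st^[p - 1] x) ≠ 1 := by
    intro h1
    apply hne
    apply Multiplicative.toAdd.injective
    have h2 : a (p - 1) 0 = 0 := by simp [ha, h1]
    rw [hit, Tech.sub_iterate_eq_sum (fun v => by funext i; simp) τ, Finset.sum_apply] at h2
    rw [toAdd_prod, toAdd_one, ← h2]
    refine Finset.sum_congr rfl fun j _ => ?_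
    rw [hτit]
    simp [ha]
  obtain ⟨m, hm⟩ : ∃ m, p - 1 = m + 1 := ⟨p - 2, by have := (Fact.out : p.Prime).two_le; omega⟩
  refine ⟨x, hxS, z, hzW, W₀, hcoat,
    ⟨⟨st^[p - 1] x, hm ▸ hitW m⟩, hitU (p - 1), rfl⟩, ?_⟩
  intro hmem
  obtain ⟨_, ⟨w, hw, rfl⟩, he⟩ := hmem
  apply hFy
  have hwU : ∀ v : ↥W₀, ((v : ↥W) : G) ∈ U := fun v => v.2
  let F₀ : ↥W₀ →* Multiplicative (ZMod p) :=
    { toFun := fun v => F ((v : ↥W) : G)
      map_one' := hF1
      map_mul' := fun u v => hmul _ (hwU u) _ (hwU v) }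
  have hle : frattini ↥W₀ ≤ F₀.ker := by
    rw [PGroup.frattini_le_iff (hWp.to_subgroup W₀)]
    refine ⟨Abelianization.commutator_subset_ker F₀, fun v => ?_⟩
    rw [MonoidHom.mem_ker, map_pow]
    apply Multiplicative.toAdd.injective
    simp
  have h2 : F ((w : ↥W) : G) = 1 := hle hw
  have he' : ((w : ↥W) : G) = st^[p - 1] x := he
  rw [← he']
  exact h2

end Cfsg.Agent.S2792
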