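import Cfsg.Statements.S2793
import Cfsg.Agent.ZJFail.Main

set_option autoImplicit false
open Cfsg

namespace Cfsg.Agent.S2793

open Subgroup Cfsg.Agent.Fusion Cfsg.Agent.ZJFail

variable {G : Type*} [Group G] [Finite G] {p : ℕ} [hp : Fact p.Prime]

/-- An element of order `p` sent to a primitive power of itself gives the full automorphism group. -/
theorem relIndex_centralizer_eq {H : Subgroup G} {z k : G} (ho : orderOf z = p) (hk : k ∈ H) {c : ℕ}
    (hc : orderOf (c : ZMod p) = p - 1) (hkz : k * z * k⁻¹ = z ^ c) :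
    (H ⊓ centralizer (zpowers z : Set G)).relIndex (H ⊓ normalizer (zpowers z : Set G)) = p - 1 := by
  set C := zpowers z with hC
  have hC' : Nat.card C = p := by rw [hC, Nat.card_zpowers, ho]
  have hkN : k ∈ normalizer (C : Set G) := mem_normalizer_of_forall fun x hx => by
    obtain ⟨i, rfl⟩ := mem_zpowers_iff.1 hx
    rw [← conj_zpow, hkz]
    exact zpow_mem (pow_mem (mem_zpowers z) c) i
  set f : ↥(H ⊓ normalizer (C : Set G)) →* MulAut C :=
    C.normalizerMonoidHom.comp (inclusion inf_le_right) with hf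
  have hker : f.ker = (H ⊓ centralizer (C : Set G)).subgroupOf (H ⊓ normalizer (C : Set G)) := by
    rw [hf, ← MonoidHom.comap_ker, normalizerMonoidHom_ker]
    ext x
    simp only [mem_comap, mem_subgroupOf, mem_inf]
    exact ⟨fun h => ⟨x.2.1, h⟩, fun h => h.2⟩
  rw [relIndex, ← hker, Subgroup.index_ker]
  have hA : Nat.card (MulAut C) = p - 1 := by
    rw [Nat.card_congr (IsCyclic.mulAutMulEquiv C).toEquiv, hC', Nat.card_eq_fintype_card,
      ZMod.card_units]
  refine Nat.dvd_antisymm (hA ▸ card_subgroup_dvd_card f.range) ?_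
  set kk : ↥(H ⊓ normalizer (C : Set G)) := ⟨k, hk, hkN⟩ with hkk
  refine dvd_trans ?_ (Subgroup.orderOf_dvd_natCard f.range ⟨kk, rfl⟩)
  rw [← hc, orderOf_dvd_iff_pow_eq_one]
  set m := orderOf (f kk) with hm
  have h1 : (f (kk ^ m)) ⟨z, mem_zpowers z⟩ = ⟨z, mem_zpowers z⟩ := by
    rw [map_pow, hm, pow_orderOf_eq_one]
    rfl
  have h2 : k ^ m * z * (k ^ m)⁻¹ = z := by
    have := congrArg Subtype.val h1
    exact this
  have h3 : ∀ j : ℕ, k ^ j * z * (k ^ j)⁻¹ = z ^ (c ^ j) := by
    intro j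
    induction j with
    | zero => simp
    | succ j ih =>
      rw [pow_succ', show k * k ^ j * z * (k * k ^ j)⁻¹ = k * (k ^ j * z * (k ^ j)⁻¹) * k⁻¹ by group,
        ih, ← conj_pow, hkz, ← pow_mul, ← pow_succ']
  rw [h3 m] at h2
  have h4 : z ^ (c ^ m) = z ^ 1 := by rw [h2, pow_one]
  rw [pow_eq_pow_iff_modEq, ho, ← ZMod.natCast_eq_natCast_iff] at h4
  simpa using h4

/-- Let p be an odd prime, S a Sylow p-subgroup of the finite group G, J(S) the subgroup generated by the abelian subgroups of S of largest order, and suppose Z(J(S)) does not control strong fusion in G. Put H = N_G(Z(J(S))). Then the group F(p) of upper triangular 3 × 3 matrices (a b c; 0 a⁻¹ d; 0 0 1) over the field with p elements is involved in H, and Z(J(S)) contains a subgroup C of order p with |N_H(C) : C_H(C)| = p − 1. -/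
theorem result {G : Type*} [Group G] [Finite G] {p : ℕ} [Fact p.Prime] (hp : p ≠ 2) (S : Sylow p G) (h : ¬ Cfsg.ControlsStrongFusion p (Cfsg.centerThompsonAOf (S : Subgroup G))) (H : Subgroup G) (hH : H = Subgroup.normalizer ((Cfsg.centerThompsonAOf (S : Subgroup G)) : Set G)) : Cfsg.Involves ↥(Cfsg.fOver (ZMod p)) ↥H ∧ ∃ C : Subgroup G, C ≤ (Cfsg.centerThompsonAOf (S : Subgroup G)) ∧ Nat.card C = p ∧ (H ⊓ Subgroup.centralizer (C : Set G)).relIndex (H ⊓ Subgroup.normalizer (C : Set G)) = p - 1 := by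
  subst hH
  have hfail : Fails S := by
    by_contra hF
    refine h ⟨S, zj_le S, fun A hA => ⟨hA, fun g hg => ?_⟩⟩
    have hD : Subgroup.closure A ≤ (S : Subgroup G) := (Subgroup.closure_le _).2 hA
    have hgD : cj g (Subgroup.closure A) ≤ (S : Subgroup G) := by
      rw [cj, MonoidHom.map_closure, Subgroup.closure_le]
      rintro _ ⟨b, hb, rfl⟩
      simpa using hg ⟨b, hb, rfl⟩
    by_contra hx
    exact hF ⟨_, hD, g, hgD, fun ⟨k, hk, hag⟩ =>
      hx ⟨k, hk, fun a ha => hag a (Subgroup.subset_closure ha)⟩⟩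
  obtain ⟨hinv, z, hz, k, hk, ho, c, hc, hkz⟩ := concl_of_fails hp (Nat.card G) G le_rfl S hfail
  exact ⟨hinv, zpowers z, zpowers_le.2 hz, by rw [Nat.card_zpowers, ho],
    relIndex_centralizer_eq ho hk hc hkz⟩

end Cfsg.Agent.S2793
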