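import Cfsg.Statements.S2856
import Cfsg.Agent.LAE60.AmalgamRes
-- import your own Cfsg.Agent.* helpers here

set_option autoImplicit false
open Cfsg
set_option linter.unusedVariables false
open Subgroup
open Cfsg.Agent.Amalgam
open Cfsg.Agent.LAE60

/-- If `V = W [V, Q]` with `W`, `V` normalized by the nilpotent group `Q`, then `V = W`. -/
theorem le_of_le_sup_commutator {X : Type*} [Group X] {Q V W : Subgroup X}
    [Group.IsNilpotent Q] (hV : V ≤ Q) (hWV : W ≤ V) (hW : Q ≤ normalizer (W : Set X))
    (h : V ≤ W ⊔ ⁅V, Q⁆) : V ≤ W := by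
  have key : ∀ i, V ≤ W ⊔ Q.lowerCentralSeries i := by
    intro i
    induction i with
    | zero => exact hV.trans le_sup_right
    | succ i ih =>
      set D := Q.lowerCentralSeries i with hD
      rw [Subgroup.lowerCentralSeries_succ, ← hD]
      refine h.trans (sup_le le_sup_left ?_)
      have hDQ : D ≤ Q := Q.lowerCentralSeries_antitone (Nat.zero_le i)
      have hP : Q ≤ normalizer ((W ⊔ ⁅D, Q⁆ : Subgroup X) : Set X) :=
        Cfsg.Agent.LAE60.le_normalizer_sup hW (right_le_normalizer_commutator D Q)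
      refine (commutator_mono ih le_rfl).trans ?_
      rw [← closure_eq W, ← closure_eq D, ← Subgroup.closure_union, closure_eq, closure_eq]
      refine commutator_closure_le ?_ ?_
      · exact Set.union_subset ((hWV.trans hV).trans hP) (hDQ.trans hP)
      · rintro x (hx | hx) c hc
        · exact mem_sup_left (commutator_le_left_of_le_normalizer hW (commutator_mem_commutator hx hc))
        · exact mem_sup_right (commutator_mem_commutator hx hc)
  obtain ⟨n, hn⟩ := (Subgroup.isNilpotent_iff_lowerCentralSeries Q).1 ‹Group.IsNilpotent Q›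
  have := key n
  rwa [hn, sup_bot_eq] at this

namespace Cfsg.Agent.S2856

/-- Let (M₁, M₂) be an amalgam pair in X satisfying the rank-two standing hypothesis (characteristic p, the normalizers in M₁ and in M₂ of a Sylow p-subgroup of M₁ ∩ M₂ equal and contained in M₁ ∩ M₂, and strongly p-embedded residues), λ a vertex of the coset graph, L_λ the subgroup of its stabilizer generated by the p-elements, Q_λ = O_p of the stabilizer, O^p(L_λ) the subgroup of L_λ generated by its elements of order prime to p, and V_λ^{(k)} the subgroup generated by the Z_μ over the vertices μ at distance at most k from λ (Z_μ being generated by the Ω₁(Z(S)), S a Sylow p-subgroup of the stabilizer of μ). If n ≥ 1 and V_λ^{(n)} ≤ Q_λ, then O^p(L_λ) does not centralize V_λ^{(n)}/[V_λ^{(n)}, Q_λ], that is, [V_λ^{(n)}, O^p(L_λ)] is not contained in [V_λ^{(n)}, Q_λ]. -/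
theorem result {X : Type*} [Group X] {p : ℕ} [Fact p.Prime] (M₁ M₂ : Subgroup X) (h : Cfsg.IsSpeAmalgamPair p M₁ M₂) (lam : Cfsg.CosetVertex M₁ M₂) (n : ℕ) (hn : 1 ≤ n) (V : Subgroup X) (hV : V = Cfsg.vertexVIter p M₁ M₂ n lam) (hVQ : V ≤ Cfsg.vertexQ p lam) : ¬ ⁅V, ((Cfsg.pResidual p ↥(Cfsg.pElementClosure p (MulAction.stabilizer X lam))).map (Cfsg.pElementClosure p (MulAction.stabilizer X lam)).subtype)⁆ ≤ ⁅V, Cfsg.vertexQ p lam⁆ := by
  intro hle
  subst hV
  obtain ⟨m, rfl⟩ : ∃ m, n = m + 1 := ⟨n - 1, by omega⟩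
  obtain ⟨mu, hmu⟩ := exists_adj lam
  have hgen := h.1.1.1
  haveI := finite_stabilizer h.1 lam
  have hQH : Cfsg.vertexQ p lam ≤ MulAction.stabilizer X lam := Amalgam.pCoreOf_le p _
  haveI : Finite (Cfsg.vertexQ p lam) := Finite.of_injective _ (inclusion_injective hQH)
  haveI : Group.IsNilpotent (Cfsg.vertexQ p lam) := (Amalgam.pCoreOf_isPGroup _).isNilpotent
  set W := Cfsg.vertexVIter p M₁ M₂ m mu with hW
  set V := Cfsg.vertexVIter p M₁ M₂ (m + 1) lam with hV
  have hWV : W ≤ V := vIter_le_of_adj hgen hmu m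
  have hQW : Cfsg.vertexQ p lam ≤ normalizer (W : Set X) :=
    (vertexQ_le_stabilizer_of_adj h.1 hmu).trans (stabilizer_le_normalizer_vIter hgen mu m)
  have hQV : Cfsg.vertexQ p lam ≤ normalizer (V : Set X) :=
    hQH.trans (stabilizer_le_normalizer_vIter hgen lam _)
  refine vIter_succ_ne h hmu m hVQ (le_antisymm ?_ hWV)
  refine le_of_le_sup_commutator hVQ hWV hQW (vIter_le_of_lRes h hmu m le_sup_left ?_)
  refine le_normalizer_of_commutator_le ?_
  rw [Subgroup.commutator_comm]
  exact (commutator_mono (sup_le hWV (commutator_le_left_of_le_normalizer hQV)) le_rfl).trans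
    (hle.trans le_sup_right)

end Cfsg.Agent.S2856
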