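import Cfsg.Statements.S2950
import Cfsg.Agent.LocalEven.JUnique
-- import your own Cfsg.Agent.* helpers here

set_option autoImplicit false
open Cfsg

namespace Cfsg.Agent.S2950

/-- Uniqueness of the maximal 2-local overgroup. Let G be a finite group of characteristic 2 type in which every 2-local subgroup is solvable and the centralizer of Ω₁(Z(S)) lies in N_G(S) for every Sylow 2-subgroup S; suppose O₂(G) = 1, fix a Sylow 2-subgroup S and a 2-local subgroup M containing N_G(J(S)) (J the Thompson subgroup generated by the elementary abelian 2-subgroups of largest order). Let T be maximal (for the order of a largest elementary abelian subgroup, then the order of J(T), then the order of T) among the nontrivial 2-subgroups of M lying in a 2-local subgroup not inside M, and let K be a J(T)-component not contained in M with J(T) the Thompson subgroup of every Sylow 2-subgroup of N_G(W_K) containing J(T), and O₂(⟨K, T⟩) ≠ 1. Then there is exactly one maximal 2-local subgroup L of G containing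 ⟨K, J(T)⟩; moreover K is subnormal in L and T is a Sylow 2-subgroup of L. -/
theorem result {G : Type*} [Group G] [Finite G] (hL : Cfsg.IsCharacteristicTwoType G) (hN : ∀ N : Subgroup G, Cfsg.IsTwoLocal N → Group.IsSolvable ↥N)
    (hZ : ∀ S : Sylow 2 G, Subgroup.centralizer (Cfsg.omegaCenterOf (S : Subgroup G) : Set G) ≤ Subgroup.normalizer ((S : Subgroup G) : Set G)) (hO : Cfsg.pCore 2 G = ⊥) (S : Sylow 2 G) (M : Subgroup G) (hM : Cfsg.IsTwoLocal M)
    (hMJ : Subgroup.normalizer (Cfsg.thompsonSubgroupOf 2 (S : Subgroup G) : Set G) ≤ M) (T : Subgroup G) (hT : T ∈ Cfsg.maxStraddlingTwoSubgroups M)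
    (K : Subgroup G) (hK : K ∈ Cfsg.jComponentsOutside M T) :
    ∃ L : Subgroup G, Cfsg.IsMaximalTwoLocal L ∧ K ⊔ Cfsg.thompsonSubgroupOf 2 T ≤ L ∧
      (∀ L' : Subgroup G, Cfsg.IsMaximalTwoLocal L' → K ⊔ Cfsg.thompsonSubgroupOf 2 T ≤ L' → L' = L) ∧
      (K.subgroupOf L).IsSubnormal ∧ Cfsg.IsSylowTwoIn T L := by
  have hz : Cfsg.Agent.LocalEven.ZNHyp G := ⟨hL, hN, hZ⟩
  have hNJ := Cfsg.Agent.LocalEven.normalizer_thompson_le S hMJ hT
  obtain ⟨hK0, hKM, hO2⟩ := hK
  have hKt := Cfsg.Agent.LocalEven.tight_of_not_le hz hT hNJ hK0.1 hKM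
  obtain ⟨L, hle, hLmax⟩ := Cfsg.Agent.LocalEven.exists_maximal_twoLocal
    (N := Subgroup.normalizer (Cfsg.pCoreOf 2 (K ⊔ T) : Set G))
    ⟨_, Cfsg.Agent.LocalP.pCoreOf_isPGroup _, hO2, rfl⟩
  have hKT : K ⊔ T ≤ L := (Cfsg.Agent.LocalEven.le_normalizer_pCoreOf _ 2).trans hle
  have hKL : K ≤ L := le_sup_left.trans hKT
  have hJL : Cfsg.thompsonSubgroupOf 2 T ≤ L :=
    (Cfsg.Agent.LocalEven.thompsonOf_le T).trans (le_sup_right.trans hKT)
  have hover := Cfsg.Agent.LocalEven.straddle_sylow hz hT hNJ hLmax.1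
    (fun h => hKM (hKL.trans h)) (le_sup_right.trans hKT)
  refine ⟨L, hLmax, sup_le hKL hJL, fun L' hL' hle' => ?_, ?_, hover.1⟩
  · exact hKt.unique hz hT.1.1 hLmax hKL hJL hL' (le_sup_left.trans hle') (le_sup_right.trans hle')
  · exact Cfsg.Agent.LocalEven.CompData.subnormal hz hover
      (Cfsg.Agent.LocalEven.CompData.of_isJComponent hK0.1 hKL)

end Cfsg.Agent.S2950
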