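import Cfsg.Statements.S2951
import Cfsg.Agent.LocalEven.JFinal
-- import your own Cfsg.Agent.* helpers here

set_option autoImplicit false
open Cfsg

namespace Cfsg.Agent.S2951

/-- Let G be a finite group of characteristic 2 type in which every 2-local subgroup is solvable and the centralizer of Ω₁(Z(S)) lies in N_G(S) for every Sylow 2-subgroup S; suppose O₂(G) = 1, fix a Sylow 2-subgroup S and a 2-local subgroup M containing N_G(J(S)) (J the Thompson subgroup generated by the elementary abelian 2-subgroups of largest order), and put Z = Ω₁(Z(S)). Let T ≤ S be maximal (for the order of a largest elementary abelian subgroup, then the order of J(T), then the order of T) among the nontrivial 2-subgroups of M lying in a 2-local subgroup not inside M, K a J(T)-component not contained in M with J(T) the Thompson subgroup of every Sylow 2-subgroup of N_G(W_K) containing J(T), and O₂(⟨K, T⟩) ≠ 1, L a maximal 2-local subgroup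 containing ⟨K, J(T)⟩ (there is only one), and Z₀ = Ω₁(Z(J(T))). Then Z₀ ∩ W_K ≠ 1, and one of: Z = Z₀ has order 2; Z = Z₀ has order 4 and T = S; Ω₁(Z(T)) = Z₀ has order 4 and C_L(Z₀) has index 2 in N_G(Z₀). -/
theorem result {G : Type*} [Group G] [Finite G] (hL : Cfsg.IsCharacteristicTwoType G) (hN : ∀ N : Subgroup G, Cfsg.IsTwoLocal N → Group.IsSolvable ↥N)
    (hZ : ∀ S : Sylow 2 G, Subgroup.centralizer (Cfsg.omegaCenterOf (S : Subgroup G) : Set G) ≤ Subgroup.normalizer ((S : Subgroup G) : Set G)) (hO : Cfsg.pCore 2 G = ⊥) (S : Sylow 2 G) (M : Subgroup G) (hM : Cfsg.IsTwoLocal M)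
    (hMJ : Subgroup.normalizer (Cfsg.thompsonSubgroupOf 2 (S : Subgroup G) : Set G) ≤ M) (T : Subgroup G) (hT : T ∈ Cfsg.maxStraddlingTwoSubgroups M)
    (hTS : T ≤ (S : Subgroup G)) (K : Subgroup G) (hK : K ∈ Cfsg.jComponentsOutside M T)
    (L : Subgroup G) (hLmax : Cfsg.IsMaximalTwoLocal L) (hKL : K ⊔ Cfsg.thompsonSubgroupOf 2 T ≤ L)
    (Z Z₀ : Subgroup G) (hZdef : Z = Cfsg.omegaCenterOf (S : Subgroup G)) (hZ₀ : Z₀ = Cfsg.omegaCenterOf (Cfsg.thompsonSubgroupOf 2 T)) :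
    Z₀ ⊓ Cfsg.wOf K ≠ ⊥ ∧
      ((Z = Z₀ ∧ Nat.card ↥Z₀ = 2) ∨ (Z = Z₀ ∧ Nat.card ↥Z₀ = 4 ∧ T = (S : Subgroup G)) ∨
        (Cfsg.omegaCenterOf T = Z₀ ∧ Nat.card ↥Z₀ = 4 ∧
          (L ⊓ Subgroup.centralizer (Z₀ : Set G)).relIndex (Subgroup.normalizer (Z₀ : Set G)) = 2)) := by
  subst hZdef hZ₀
  have hz : LocalEven.ZNHyp G := ⟨hL, hN, hZ⟩
  have hKL' : K ≤ L := le_sup_left.trans hKL
  have hNJ := LocalEven.normalizer_thompson_le S hMJ hT
  have ht : LocalEven.Tight T K := LocalEven.tight_of_not_le hz hT hNJ hK.1.1 hK.2.1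
  have hTL : T ≤ L := by
    obtain ⟨L₁, hL₁, hKL₁, hTL₁⟩ := LocalEven.exists_overgroup hK
    rwa [ht.unique hz hT.1.1 hL₁ hKL₁ ((LocalEven.thompsonOf_le T).trans hTL₁) hLmax hKL'
      (le_sup_right.trans hKL)]
  constructor
  · obtain ⟨w, hw, hwW, hw1, -⟩ := LocalEven.exists_line hK.1.1 hT.1.1
    intro hb
    exact hw1 (Subgroup.mem_bot.1 (hb ▸ (⟨hw, hwW⟩ : w ∈ _ ⊓ Cfsg.wOf K)))
  by_cases he : T = (S : Subgroup G)
  · subst he
    obtain ⟨C, L', p⟩ := (⟨hK.1.1, hLmax, hKL', hTL⟩ : LocalEven.SComp S K L).exists_pair hz hO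
    obtain ⟨h1, h2 | h4⟩ := p.omega_eq hz
    · exact Or.inl ⟨h1, h2⟩
    · exact Or.inr (Or.inl ⟨h1, h4, rfl⟩)
  · obtain ⟨g, c⟩ := LocalEven.exists_pctx hz hT hNJ hK.1.1 hK.2.1 hLmax hKL' hTL hTS he
    rcases LocalEven.card_two_or_four (LocalEven.zOf_mem_z0 c.mem) c.mem.z_ne c.card_le with h2 | h4
    · exact Or.inl ⟨c.omega_sylow_eq h2, h2⟩
    · exact Or.inr (Or.inr ⟨c.omega_eq, h4, c.relIndex_eq h4⟩)

end Cfsg.Agent.S2951
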