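import Cfsg.Statements.S3084
import Cfsg.Agent.Clifford.Extension

set_option autoImplicit false
open Cfsg

namespace Cfsg.Agent.S3084

/-- Let K be a group acting faithfully and linearly on a finite-dimensional vector space U of dimension 2n ≥ 2 over the field with two elements, preserving a quadratic form q whose polar bilinear form is non-degenerate and which vanishes on some n-dimensional subspace (a non-singular form of plus type). Then there is a finite group R with a normal extraspecial 2-subgroup Q of order 2^(2n+1), an isomorphism of R/Q with K, and a surjective homomorphism χ from Q onto (the additive group of) U with kernel the centre of Q, such that χ carries conjugation by any r in R to the action of the image of r in K, and an element a of Q squares to the identity exactly when q vanishes at χ(a). -/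
theorem result {K : Type*} [Group K] {U : Type*} [AddCommGroup U] [Module (ZMod 2) U] [Module.Finite (ZMod 2) U] (n : ℕ) (hn1 : 1 ≤ n) (hn : Module.finrank (ZMod 2) U = 2 * n) (ρ : Representation (ZMod 2) K U) (hρ : Function.Injective ρ) (q : QuadraticForm (ZMod 2) U) (hq : ∀ (k : K) (u : U), q (ρ k u) = q u) (hnd : (QuadraticMap.polarBilin q).Nondegenerate) (hplus : ∃ W : Submodule (ZMod 2) U, Module.finrank (ZMod 2) ↥W = n ∧ ∀ w ∈ W, q w = 0) : ∃ (R : Type) (_ : Group R) (_ : Finite R) (Q : Subgroup R) (hN : Q.Normal) (e : R ⧸ Q ≃* K) (χ : ↥Q →* Multiplicative U), Cfsg.IsExtraspecial 2 ↥Q ∧ Nat.card ↥Q = 2 ^ (2 * n + 1) ∧ Function.Surjective χ ∧ χ.ker = Subgroup.center ↥Q ∧ (∀ (r : R) (a : ↥Q), χ ⟨r * a * r⁻¹, hN.conj_mem (a : R) a.2 r⟩ = Multiplicative.ofAdd (ρ (e (r : R ⧸ Q)) (Multiplicative.toAdd (χ a)))) ∧ ∀ a : ↥Q, a * a = 1 ↔ q (Multiplicative.toAdd (χ a)) = 0 := by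
  classical
  obtain ⟨W, hW, hWq⟩ := hplus
  haveI : Finite U := Module.finite_of_finite (ZMod 2)
  haveI : FiniteDimensional (ZMod 2) U := inferInstance
  obtain ⟨C, hC⟩ := Submodule.exists_isCompl W
  have hCd : Module.finrank (ZMod 2) C = n := by
    have h := Submodule.finrank_add_eq_of_isCompl hC
    omega
  let fC : (Fin n → ZMod 2) ≃ₗ[ZMod 2] C :=
    (LinearEquiv.ofFinrankEq C (Fin n → ZMod 2) (by rw [hCd, Module.finrank_fin_fun])).symm
  let pW : U →ₗ[ZMod 2] U := W.projection C hC
  let pC' : U →ₗ[ZMod 2] C := C.projectionOnto W hC.symm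
  let pC : U →ₗ[ZMod 2] (Fin n → ZMod 2) := fC.symm.toLinearMap.comp pC'
  let B := QuadraticMap.polarBilin q
  have hB : ∀ u v, q (u + v) = q u + q v + B u v := fun u v => QuadraticMap.map_add q u v
  let qC : QuadraticForm (ZMod 2) (Fin n → ZMod 2) := q.comp (C.subtype.comp fC.toLinearMap)
  obtain ⟨β, hβ⟩ := LinearMap.BilinMap.toQuadraticMap_surjective qC
  let P : U →ₗ[ZMod 2] (Fin n → ZMod 2) →ₗ[ZMod 2] ZMod 2 :=
    B.compl₁₂ pW (C.subtype.comp fC.toLinearMap)
  have hsum : ∀ u, pW u + (pC' u : U) = u := fun u =>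
    Submodule.projection_add_projection_eq_self hC u
  have hpWmem : ∀ u, pW u ∈ W := fun u => Submodule.projection_apply_mem hC u
  have hfC : ∀ u, (fC (pC u) : U) = pC' u := fun u => by simp [pC]
  have hWB : ∀ a ∈ W, ∀ b ∈ W, B a b = 0 := by
    intro a ha b hb
    have h := hB a b
    rw [hWq _ (add_mem ha hb), hWq a ha, hWq b hb, zero_add, zero_add] at h
    exact h.symm
  have hmemW : ∀ u, pC u = 0 → u ∈ W := by
    intro u hu
    have h : (pC' u : U) = 0 := by rw [← hfC, hu, map_zero]; rfl
    rw [← hsum u, h, add_zero]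
    exact hpWmem u
  have hpW : ∀ u, pC u = 0 → pW u = u := by
    intro u hu
    have h : (pC' u : U) = 0 := by rw [← hfC, hu, map_zero]; rfl
    have h2 := hsum u
    rwa [h, add_zero] at h2
  have hfaith : ∀ u, pC u = 0 → (∀ x, P u x = 0) → u = 0 := by
    intro u hu hP
    refine hnd.1 u fun v => ?_
    show B u v = 0
    have h1 : B u (pC' v : U) = 0 := by
      have h := hP (pC v)
      change B (pW u) (fC (pC v) : U) = 0 at h
      rwa [hpW u hu, hfC] at h
    rw [← hsum v, map_add, h1, hWB u (hmemW u hu) _ (hpWmem v), add_zero]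
  have hsurj : Function.Surjective pC := by
    intro x
    refine ⟨(fC x : U), ?_⟩
    apply fC.injective
    apply Subtype.ext
    rw [hfC]
    exact congrArg Subtype.val (C.projectionOnto_apply_left hC.symm (fC x))
  have hsep : ∀ x, x ≠ 0 → ∃ u, pC u = 0 ∧ P u x ≠ 0 := by
    let T : W →ₗ[ZMod 2] Module.Dual (ZMod 2) (Fin n → ZMod 2) := P.comp W.subtype
    have hker : ∀ w : W, pC (w : U) = 0 := by
      intro w
      have h : pC' (w : U) = 0 := C.projectionOnto_apply_right hC.symm w
      show fC.symm (pC' (w : U)) = 0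
      rw [h, map_zero]
    have hTinj : Function.Injective T := by
      refine (injective_iff_map_eq_zero T).mpr fun w hw => ?_
      exact Subtype.ext (hfaith w (hker w) fun x => congrArg (fun f => f x) hw)
    have hTs : Function.Surjective T :=
      (LinearMap.injective_iff_surjective_of_finrank_eq_finrank
        (by rw [hW, Subspace.dual_finrank_eq, Module.finrank_fin_fun])).mp hTinj
    intro x hx
    obtain ⟨i, hi⟩ : ∃ i, x i ≠ 0 := by
      by_contra h
      push Not at h
      exact hx (funext h)
    obtain ⟨w, hw⟩ := hTs (LinearMap.proj i)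
    exact ⟨w, hker w, by
      have h : P (w : U) x = x i := congrArg (fun f => f x) hw
      rw [h]; exact hi⟩
  let D : Cfsg.Agent.Clifford.Model U n := ⟨pC, β, P, hsurj, hfaith, hsep⟩
  have hform : ∀ u, D.form u = q u := by
    intro u
    show β (pC u) (pC u) + B (pW u) (fC (pC u) : U) = q u
    have h1 : β (pC u) (pC u) = q (fC (pC u) : U) := congrArg (fun f => f (pC u)) hβ
    rw [h1, hfC]
    conv_rhs => rw [← hsum u, hB, hWq _ (hpWmem u), zero_add]
  have hpol : ∀ u v, D.coc u v + D.coc v u = B u v := by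
    intro u v
    have h1 := D.form_add u v
    rw [hform, hform, hform, hB] at h1
    exact (add_left_cancel h1).symm
  have hndD : ∀ s : U →+ ZMod 2, ∃ v, ∀ u, D.coc v u + D.coc u v = s u := by
    intro s
    refine ⟨(LinearMap.BilinForm.toDual B hnd).symm (s.toZModLinearMap 2), fun u => ?_⟩
    rw [hpol]
    exact LinearMap.BilinForm.apply_toDual_symm_apply (B := B) (hB := hnd) (s.toZModLinearMap 2) u
  have hcard : Nat.card U = 2 ^ (2 * n) := by
    rw [Module.natCard_eq_pow_finrank (K := ZMod 2), Nat.card_zmod, hn]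
  obtain ⟨R, i1, i2, Q, hN, e, χ, h1, h2, h3, h4, h5, h6⟩ :=
    Cfsg.Agent.Clifford.exists_extension (D := D) (ρ := ρ) hn1 hcard hρ
      (fun k u => by rw [hform, hform, hq]) hndD
  exact ⟨R, i1, i2, Q, hN, e, χ, h1, h2, h3, h4, h5, fun a => by rw [h6, hform]⟩

end Cfsg.Agent.S3084
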