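import Cfsg.Statements.S3085
import Cfsg.Agent.PGroup.Frattini

set_option autoImplicit false
open Cfsg
open scoped commutatorElement

namespace Cfsg.Agent.S3085

section Helpers

variable {Q : Type*} [Group Q] {z : Q}

theorem anti_mul_comm {x y a : Q} (hx : ¬ Commute x a) (hy : Commute y a) : ¬ Commute (x * y) a := by
  intro h
  have := h.mul_left hy.inv_left
  rw [mul_inv_cancel_right] at this
  exact hx this

theorem comm_mul_anti {x y a : Q} (hx : Commute x a) (hy : ¬ Commute y a) : ¬ Commute (x * y) a := by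
  intro h
  have := hx.inv_left.mul_left h
  rw [inv_mul_cancel_left] at this
  exact hy this

theorem anti_mul_anti (hz : ∀ x : Q, Commute z x) (hz2 : z * z = 1)
    (hd : ∀ x y : Q, ¬ Commute x y → x * y = y * x * z)
    {x y a : Q} (hx : ¬ Commute x a) (hy : ¬ Commute y a) : Commute (x * y) a := by
  show x * y * a = a * (x * y)
  calc x * y * a = x * (a * y * z) := by rw [mul_assoc, hd y a hy]
    _ = x * a * (y * z) := by group
    _ = a * x * z * (y * z) := by rw [hd x a hx]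
    _ = a * x * (y * (z * z)) := by rw [mul_assoc (a * x) z, ← mul_assoc z y z, (hz y).eq, mul_assoc y z z]
    _ = a * (x * y) := by rw [hz2, mul_one, mul_assoc]

open Classical in
/-- The transvection automorphism attached to `a`. -/
noncomputable def transv (hz : ∀ x : Q, Commute z x) (hz2 : z * z = 1)
    (hd : ∀ x y : Q, ¬ Commute x y → x * y = y * x * z) (a : Q) (ha : a * a = z) : Q →* Q where
  toFun x := if Commute x a then x else x * a
  map_one' := if_pos (Commute.one_left a)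
  map_mul' x y := by
    by_cases hx : Commute x a <;> by_cases hy : Commute y a
    · rw [if_pos hx, if_pos hy, if_pos (hx.mul_left hy)]
    · rw [if_pos hx, if_neg hy, if_neg (comm_mul_anti hx hy), mul_assoc]
    · rw [if_neg hx, if_pos hy, if_neg (anti_mul_comm hx hy), mul_assoc x a y, ← hy.eq, mul_assoc]
    · rw [if_neg hx, if_neg hy, if_pos (anti_mul_anti hz hz2 hd hx hy)]
      calc x * y = x * (y * (z * z)) := by rw [hz2, mul_one]
        _ = x * ((y * z) * (a * a)) := by rw [ha, mul_assoc]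
        _ = x * a * (y * a) := by
          have h1 := hd y a hy
          have h2 : a * y = y * a * z := by
            rw [h1, mul_assoc _ z z, hz2, mul_one]
          rw [show x * a * (y * a) = x * (a * y) * a by group, h2,
            show x * (y * a * z) * a = x * (y * (a * (z * a))) by group, (hz a).eq,
            show x * (y * (a * (a * z))) = x * ((y * (a * a)) * z) by group, ha,
            show y * z * z = y * (z * z) by group, ← ha]

end Helpers

/-- Let Q be an extraspecial 2-group of order 2^(2n+1) with n ≥ 3 that is of plus type (it contains an elementary abelian subgroup of order 2^(n+1)). Then the group of inner automorphisms of Q has no complement in the full automorphism group of Q: the extension of the inner automorphism group (elementary abelian of order 2^(2n)) by the outer automorphism group (the orthogonal group of plus type) does not split. -/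
theorem result {Q : Type*} [Group Q] [Finite Q] (n : ℕ) (hn : 3 ≤ n) (hQ : Cfsg.IsExtraspecial 2 Q) (hcard : Nat.card Q = 2 ^ (2 * n + 1)) (hplus : ∃ E : Subgroup Q, Cfsg.IsElementaryAbelian 2 E ∧ Nat.card ↥E = 2 ^ (n + 1)) (L : Subgroup (MulAut Q)) : ¬ (Cfsg.Inn Q).IsComplement' L := by
  classical
  intro hL
  obtain ⟨⟨-, hFr, hCm⟩, hZc⟩ := hQ
  obtain ⟨E, ⟨hEcomm, hEexp⟩, hEcard⟩ := hplus
  set Z := Subgroup.center Q with hZ
  obtain ⟨⟨z, hzZ⟩, hz1⟩ : ∃ z : Z, z ≠ 1 := by
    have : Nontrivial Z := Finite.one_lt_card_iff_nontrivial.1 (by omega)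
    exact exists_ne 1
  have hz1' : z ≠ 1 := fun h => hz1 (Subtype.ext h)
  have hzc : ∀ x : Q, Commute z x := fun x => (Subgroup.mem_center_iff.1 hzZ x).symm
  have hZmem : ∀ w ∈ Z, w = 1 ∨ w = z := by
    intro w hw
    by_contra h
    push Not at h
    have : Nat.card Z ≥ 3 := by
      have : Fintype Z := Fintype.ofFinite Z
      rw [Nat.card_eq_fintype_card]
      refine Fintype.two_lt_card_iff.2 ⟨1, ⟨z, hzZ⟩, ⟨w, hw⟩, ?_, ?_, ?_⟩
      · exact fun e => hz1' (congrArg Subtype.val e).symm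
      · exact fun e => h.1 (congrArg Subtype.val e).symm
      · exact fun e => h.2 (congrArg Subtype.val e).symm
    omega
  have hz2 : z * z = 1 := by
    rcases hZmem (z * z) (Z.mul_mem hzZ hzZ) with h | h
    · exact h
    · exact absurd (mul_left_cancel (a := z) (h.trans (mul_one z).symm)) hz1'
  have hd : ∀ x y : Q, ¬ Commute x y → x * y = y * x * z := by
    intro x y h
    have hm : ⁅x, y⁆ ∈ Z := hCm ▸ Subgroup.commutator_mem_commutator (Subgroup.mem_top x) (Subgroup.mem_top y)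
    rcases hZmem _ hm with h' | h'
    · exact absurd (commutatorElement_eq_one_iff_commute.1 h') h
    · rw [commutatorElement_def] at h'
      calc x * y = (x * y * x⁻¹ * y⁻¹) * (y * x) := by group
        _ = y * x * z := by rw [h', (hzc (y * x)).eq]
  have hsq : ∀ x : Q, x * x = 1 ∨ x * x = z := by
    intro x
    refine hZmem _ ?_
    rw [← hFr, ← pow_two]
    exact PGroup.pow_mem_frattini (p := 2) (IsPGroup.of_card hcard) x
  have hnz : ∀ a : Q, a * a = z → a ∉ Z := by
    intro a ha haZ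
    rcases hZmem a haZ with rfl | rfl
    · exact hz1' (by rw [← ha, mul_one])
    · exact hz1' (ha.symm.trans hz2)
  have hanti : ∀ x : Q, x ∉ Z → ∃ y, ¬ Commute y x := by
    intro x hx
    by_contra h
    push Not at h
    exact hx (Subgroup.mem_center_iff.2 fun y => h y)
  have hEc : ∀ x ∈ E, ∀ y ∈ E, Commute x y := fun x hx y hy =>
    congrArg Subtype.val (hEcomm.is_comm.comm ⟨x, hx⟩ ⟨y, hy⟩)
  -- intersections with centralizers have index at most two
  have hhalf : ∀ (K : Subgroup Q) (f : Q), Nat.card K ≤ 2 * Nat.card ↥(K ⊓ Subgroup.centralizer {f}) := by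
    intro K f
    set C := Subgroup.centralizer ({f} : Set Q)
    have h1 : C.relIndex K ≤ 2 := by
      refine le_trans (Nat.card_le_card_of_injective
        (fun q : K ⧸ C.subgroupOf K => Quotient.liftOn' q (fun k => decide (Commute (k : Q) f)) ?_) ?_)
        (by simp)
      · intro a b hab
        rw [QuotientGroup.leftRel_apply] at hab
        have hab' : Commute ((a : Q)⁻¹ * b) f :=
          Subgroup.mem_centralizer_singleton_iff.1 (Subgroup.mem_subgroupOf.1 hab)
        apply decide_eq_decide.2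
        constructor
        · intro h; have := h.mul_left hab'; rwa [mul_inv_cancel_left] at this
        · intro h; have := h.mul_left hab'.inv_left; rwa [mul_inv_rev, inv_inv, mul_inv_cancel_left] at this
      · intro q r
        obtain ⟨a, rfl⟩ := QuotientGroup.mk_surjective q
        obtain ⟨b, rfl⟩ := QuotientGroup.mk_surjective r
        intro h
        have h' : Commute (a : Q) f ↔ Commute (b : Q) f := decide_eq_decide.1 h
        rw [QuotientGroup.eq, Subgroup.mem_subgroupOf]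
        refine Subgroup.mem_centralizer_singleton_iff.2 ?_
        push_cast
        by_cases ha : Commute (a : Q) f
        · exact (ha.inv_left.mul_left (h'.1 ha)).eq
        · exact (anti_mul_anti hzc hz2 hd (fun hh => ha (by simpa using hh.inv_left)) (fun hh => ha (h'.2 hh))).eq
    have h2 : Nat.card ↥(K ⊓ C) * C.relIndex K = Nat.card K := by
      rw [← Subgroup.inf_relIndex_left, ← Subgroup.relIndex_bot_left, ← Subgroup.relIndex_bot_left]
      exact Subgroup.relIndex_mul_relIndex _ _ _ bot_le inf_le_left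
    calc Nat.card K = Nat.card ↥(K ⊓ C) * C.relIndex K := h2.symm
      _ ≤ Nat.card ↥(K ⊓ C) * 2 := Nat.mul_le_mul_left _ h1
      _ = _ := mul_comm _ _
  have hpick : ∀ K : Subgroup Q, 2 < Nat.card K → ∃ e ∈ K, e ∉ Z := by
    intro K hK
    by_contra h
    push Not at h
    have := Subgroup.card_le_of_le (fun x hx => h x hx : K ≤ Z)
    omega
  have hfix : ∀ (f e g a : Q), Commute g e → ¬ Commute f e → ¬ Commute g a →
      ∃ f', ¬ Commute f' e ∧ Commute f' a ∧ ∀ b, Commute g b → (Commute f b → Commute f' b) := by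
    intro f e g a hge hfe hga
    by_cases hfa : Commute f a
    · exact ⟨f, hfe, hfa, fun _ _ h => h⟩
    · exact ⟨f * g, anti_mul_comm hfe hge, anti_mul_anti hzc hz2 hd hfa hga, fun b hgb h => h.mul_left hgb⟩
  have h2n : 16 ≤ Nat.card E := by
    rw [hEcard]
    calc 16 = 2 ^ 4 := by norm_num
      _ ≤ _ := Nat.pow_le_pow_right two_pos (by omega)
  obtain ⟨e₁, he₁, he₁z⟩ := hpick E (by omega)
  obtain ⟨f₁, hf₁⟩ := hanti e₁ he₁z
  set K₁ := E ⊓ Subgroup.centralizer {f₁} with hK₁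
  have hK₁c : 8 ≤ Nat.card K₁ := by have := hhalf E f₁; rw [← hK₁] at this; omega
  obtain ⟨e₂, he₂, he₂z⟩ := hpick K₁ (by omega)
  have c21 : Commute e₂ e₁ := hEc _ he₂.1 _ he₁
  have d21 : Commute e₂ f₁ := Subgroup.mem_centralizer_singleton_iff.1 he₂.2
  obtain ⟨f₂₀, hf₂₀⟩ := hanti e₂ he₂z
  obtain ⟨f₂₁, hf₂₁, g21, -⟩ := hfix f₂₀ e₂ f₁ e₁ d21.symm hf₂₀ hf₁
  obtain ⟨f₂, hf₂, k21, pres⟩ := hfix f₂₁ e₂ e₁ f₁ c21.symm hf₂₁ (fun h => hf₁ h.symm)
  have g21' : Commute f₂ e₁ := pres e₁ (Commute.refl e₁) g21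
  set K₂ := K₁ ⊓ Subgroup.centralizer {f₂} with hK₂
  have hK₂c : 4 ≤ Nat.card K₂ := by have := hhalf K₁ f₂; rw [← hK₂] at this; omega
  obtain ⟨e₃, he₃, he₃z⟩ := hpick K₂ (by omega)
  have c31 : Commute e₃ e₁ := hEc _ he₃.1.1 _ he₁
  have c32 : Commute e₃ e₂ := hEc _ he₃.1.1 _ he₂.1
  have d31 : Commute e₃ f₁ := Subgroup.mem_centralizer_singleton_iff.1 he₃.1.2
  have d32 : Commute e₃ f₂ := Subgroup.mem_centralizer_singleton_iff.1 he₃.2
  obtain ⟨f₃₀, hf₃₀⟩ := hanti e₃ he₃z
  obtain ⟨f₃₁, hf₃₁, x1, -⟩ := hfix f₃₀ e₃ f₁ e₁ d31.symm hf₃₀ hf₁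
  obtain ⟨f₃₂, hf₃₂, x2, p2⟩ := hfix f₃₁ e₃ e₁ f₁ c31.symm hf₃₁ (fun h => hf₁ h.symm)
  obtain ⟨f₃₃, hf₃₃, x3, p3⟩ := hfix f₃₂ e₃ f₂ e₂ d32.symm hf₃₂ hf₂
  obtain ⟨f₃, hf₃, x4, p4⟩ := hfix f₃₃ e₃ e₂ f₂ c32.symm hf₃₃ (fun h => hf₂ h.symm)
  have g31 : Commute f₃ e₁ := p4 _ c21 (p3 _ g21' (p2 _ (Commute.refl e₁) x1))
  have k31 : Commute f₃ f₁ := p4 _ d21 (p3 _ k21 x2)
  have g32 : Commute f₃ e₂ := p4 _ (Commute.refl e₂) x3
  have hA : ∀ e f : Q, e * e = 1 → ¬ Commute f e → ∃ a, a * a = z ∧ ¬ Commute a e ∧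
      ∀ b, Commute e b → Commute f b → Commute a b := by
    intro e f he hfe
    rcases hsq f with h | h
    · refine ⟨e * f, ?_, comm_mul_anti (Commute.refl e) hfe, fun b h1 h2 => h1.mul_left h2⟩
      calc e * f * (e * f) = e * (f * e) * f := by group
        _ = e * (e * f * z) * f := by rw [hd f e hfe]
        _ = (e * e) * (f * (z * f)) := by group
        _ = z := by rw [he, (hzc f).eq, ← mul_assoc f, h, one_mul, one_mul]
    · exact ⟨f, h, hfe, fun b _ h2 => h2⟩
  have hE2 : ∀ e ∈ E, e * e = 1 := fun e he => by rw [← pow_two]; exact hEexp e he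
  obtain ⟨a₁, ha₁, ha₁e, pa₁⟩ := hA e₁ f₁ (hE2 _ he₁) hf₁
  obtain ⟨a₂, ha₂, ha₂e, pa₂⟩ := hA e₂ f₂ (hE2 _ he₂.1) hf₂
  obtain ⟨a₃, ha₃, ha₃e, pa₃⟩ := hA e₃ f₃ (hE2 _ he₃.1.1) hf₃
  have a1e2 : Commute a₁ e₂ := pa₁ _ c21.symm d21.symm
  have a1e3 : Commute a₁ e₃ := pa₁ _ c31.symm d31.symm
  have a2e1 : Commute a₂ e₁ := pa₂ _ c21 g21'
  have a2e3 : Commute a₂ e₃ := pa₂ _ c32.symm d32.symm
  have a3e1 : Commute a₃ e₁ := pa₃ _ c31 g31
  have a3e2 : Commute a₃ e₂ := pa₃ _ c32 g32
  have a12 : Commute a₁ a₂ := (pa₂ _ (pa₁ _ c21.symm d21.symm).symm (pa₁ _ g21'.symm k21.symm).symm).symm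
  have a13 : Commute a₁ a₃ := (pa₃ _ (pa₁ _ c31.symm d31.symm).symm (pa₁ _ g31.symm k31.symm).symm).symm
  have a23 : Commute a₂ a₃ := (pa₃ _ (pa₂ _ c32.symm d32.symm).symm (pa₂ _ g32.symm x4.symm).symm).symm
  set a₄ := a₁ * a₂ * a₃ with ha4
  have ha₄ : a₄ * a₄ = z := by
    calc a₄ * a₄ = a₁ * (a₂ * a₃) * (a₁ * (a₂ * a₃)) := by rw [ha4]; group
      _ = a₁ * ((a₂ * a₃) * a₁) * (a₂ * a₃) := by group
      _ = (a₁ * a₁) * ((a₂ * a₃) * (a₂ * a₃)) := by rw [(a12.mul_right a13).symm.eq]; group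
      _ = z := by
        rw [show (a₂ * a₃) * (a₂ * a₃) = a₂ * (a₃ * a₂) * a₃ by group, a23.symm.eq,
          show a₂ * (a₂ * a₃) * a₃ = (a₂ * a₂) * (a₃ * a₃) by group, ha₁, ha₂, ha₃, hz2, mul_one]
  have a14 : Commute a₁ a₄ := ((Commute.refl a₁).mul_right a12).mul_right a13
  -- automorphisms
  have haut : ∀ a : Q, a * a = z → ∃ σ : MulAut Q, (∀ x, Commute x a → σ x = x) ∧
      (∀ x, ¬ Commute x a → σ x = x * a) := by
    intro a ha
    have hinj : Function.Injective (transv hzc hz2 hd a ha) := by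
      rw [injective_iff_map_eq_one]
      intro x hx
      change (if Commute x a then x else x * a) = 1 at hx
      split_ifs at hx with h
      · exact hx
      · exfalso; apply h
        rw [eq_inv_of_mul_eq_one_left hx]
        exact (Commute.refl a).inv_left
    exact ⟨MulEquiv.ofBijective _ ⟨hinj, Finite.injective_iff_surjective.1 hinj⟩,
      fun x h => if_pos h, fun x h => if_neg h⟩
  have hconjhom : ∀ (φ : MulAut Q) (w : Q), φ * MulAut.conj w = MulAut.conj (φ w) * φ := by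
    intro φ w; ext x; simp [MulAut.mul_apply]
  have hker : ∀ u : Q, MulAut.conj u = 1 → u ∈ Z := by
    intro u hu
    refine Subgroup.mem_center_iff.2 fun x => ?_
    have h1 := DFunLike.congr_fun hu x
    rw [MulAut.conj_apply, MulAut.one_apply] at h1
    nth_rw 1 [← h1]
    group
  have hsq' : ∀ (a : Q) (σ : MulAut Q), a * a = z → (∀ x, Commute x a → σ x = x) →
      (∀ x, ¬ Commute x a → σ x = x * a) → σ * σ = MulAut.conj a := by
    intro a σ ha hf hm
    ext x
    rw [MulAut.mul_apply, MulAut.conj_apply]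
    by_cases h : Commute x a
    · rw [hf x h, hf x h, ← h.eq, mul_inv_cancel_right]
    · rw [hm x h, hm _ (anti_mul_comm h (Commute.refl a)), mul_assoc, ha]
      have h1 : a * x = x * a * z := hd a x fun hh => h hh.symm
      rw [h1, mul_assoc (x * a), (hzc a⁻¹).eq]
      group
  have hdec : ∀ σ : MulAut Q, ∃ w : Q, MulAut.conj w * σ ∈ L := by
    intro σ
    obtain ⟨⟨⟨i, y, rfl⟩, l⟩, hil⟩ := hL.2 σ
    refine ⟨y⁻¹, ?_⟩
    have hil' : MulAut.conj y * (l : MulAut Q) = σ := hil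
    rw [map_inv, ← hil', inv_mul_cancel_left]
    exact l.2
  have htriv : ∀ x : MulAut Q, x ∈ L → x ∈ Cfsg.Inn Q → x = 1 := fun x h1 h2 =>
    Subgroup.disjoint_def.1 hL.disjoint h2 h1
  have hdata : ∀ a : Q, a * a = z → ∃ (σ : MulAut Q) (w : Q), (∀ x, Commute x a → σ x = x) ∧
      (∀ x, ¬ Commute x a → σ x = x * a) ∧ MulAut.conj w * σ ∈ L ∧ ¬ Commute w a := by
    intro a ha
    obtain ⟨σ, hf, hm⟩ := haut a ha
    obtain ⟨w, hw⟩ := hdec σ
    refine ⟨σ, w, hf, hm, hw, fun hc => hnz a ha ?_⟩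
    have h1 : (MulAut.conj w * σ) * (MulAut.conj w * σ) = MulAut.conj (w * w * a) := by
      rw [show (MulAut.conj w * σ) * (MulAut.conj w * σ) = MulAut.conj w * (σ * MulAut.conj w) * σ by group,
        hconjhom, hf w hc, map_mul, map_mul, ← hsq' a σ ha hf hm]
      group
    have h2 : MulAut.conj (w * w * a) = 1 :=
      htriv _ (h1 ▸ L.mul_mem hw hw) ⟨_, rfl⟩
    have h3 := hker _ h2
    have hww : w * w ∈ Z := by
      rcases hsq w with h | h <;> rw [h]
      · exact Z.one_mem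
      · exact hzZ
    have h4 := Z.mul_mem (Z.inv_mem hww) h3
    rwa [inv_mul_cancel_left] at h4
  have hcross : ∀ (a b : Q) (σ τ : MulAut Q) (w v : Q), a * a = z → b * b = z → Commute a b → a * b ∉ Z →
      (∀ x, Commute x a → σ x = x) → (∀ x, ¬ Commute x a → σ x = x * a) →
      (∀ x, Commute x b → τ x = x) → (∀ x, ¬ Commute x b → τ x = x * b) →
      MulAut.conj w * σ ∈ L → MulAut.conj v * τ ∈ L → Commute v a := by
    intro a b σ τ w v ha hb hab habZ hf hm hf' hm' hw hv
    have hst : σ * τ = τ * σ := by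
      ext x
      simp only [MulAut.mul_apply]
      by_cases h1 : Commute x a <;> by_cases h2 : Commute x b
      · rw [hf' x h2, hf x h1, hf' x h2]
      · rw [hm' x h2, hf x h1, hm' x h2, hf _ (h1.mul_left hab.symm)]
      · rw [hf' x h2, hm x h1, hf' _ (h2.mul_left hab)]
      · rw [hm' x h2, hm x h1, hm _ (anti_mul_comm h1 hab.symm), hm' _ (anti_mul_comm h2 hab),
          mul_assoc, ← hab.eq, mul_assoc]
    have e1 : ∀ (w v : Q) (σ τ : MulAut Q),
        (MulAut.conj w * σ) * (MulAut.conj v * τ) = MulAut.conj (w * σ v) * (σ * τ) := by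
      intro w v σ τ
      rw [show (MulAut.conj w * σ) * (MulAut.conj v * τ) = MulAut.conj w * (σ * MulAut.conj v) * τ by group,
        hconjhom, map_mul]
      group
    have h1 : MulAut.conj (w * σ v * (v * τ w)⁻¹) =
        (MulAut.conj w * σ) * (MulAut.conj v * τ) * ((MulAut.conj v * τ) * (MulAut.conj w * σ))⁻¹ := by
      rw [e1, e1, ← hst, map_mul, map_inv]; group
    have h2 := hker _ (htriv _ (h1 ▸ L.mul_mem (L.mul_mem hw hv) (L.inv_mem (L.mul_mem hv hw))) ⟨_, rfl⟩)
    by_contra hva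
    rw [hm v hva] at h2
    -- compare modulo the centre
    have hq : ∀ x y : Q ⧸ Subgroup.center Q, x * y = y * x := by
      intro x y
      obtain ⟨x, rfl⟩ := QuotientGroup.mk_surjective x
      obtain ⟨y, rfl⟩ := QuotientGroup.mk_surjective y
      rw [← commutatorElement_eq_one_iff_mul_comm, ← QuotientGroup.mk'_apply, ← QuotientGroup.mk'_apply,
        ← map_commutatorElement, QuotientGroup.mk'_apply, QuotientGroup.eq_one_iff]
      exact hCm.le (Subgroup.commutator_mem_commutator (Subgroup.mem_top x) (Subgroup.mem_top y))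
    have h3 := (QuotientGroup.eq_one_iff _).2 h2
    rw [QuotientGroup.mk_mul, QuotientGroup.mk_inv, mul_inv_eq_one] at h3
    by_cases hwb : Commute w b
    · rw [hf' w hwb, QuotientGroup.mk_mul, QuotientGroup.mk_mul, QuotientGroup.mk_mul, hq (v : Q ⧸ Subgroup.center Q) (w : Q ⧸ Subgroup.center Q),
        mul_left_cancel_iff] at h3
      apply hnz a ha
      exact (QuotientGroup.eq_one_iff a).1 (mul_eq_left.1 h3)
    · rw [hm' w hwb, QuotientGroup.mk_mul, QuotientGroup.mk_mul, QuotientGroup.mk_mul, QuotientGroup.mk_mul,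
        ← mul_assoc, ← mul_assoc, hq (v : Q ⧸ Subgroup.center Q) (w : Q ⧸ Subgroup.center Q), mul_left_cancel_iff] at h3
      apply habZ
      have hbb : (b : Q ⧸ Subgroup.center Q) * b = 1 := by
        rw [← QuotientGroup.mk_mul, hb, QuotientGroup.eq_one_iff]; exact hzZ
      rw [hZ, ← QuotientGroup.eq_one_iff, QuotientGroup.mk_mul, h3, hbb]
  have hneZ : ∀ a b e : Q, ¬ Commute a e → Commute b e → a * b ∉ Z := fun a b e h1 h2 h =>
    anti_mul_comm h1 h2 ((Subgroup.mem_center_iff.1 h e).symm)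
  obtain ⟨σ₁, w₁, f1, m1, l1, na1⟩ := hdata a₁ ha₁
  obtain ⟨σ₂, w₂, f2, m2, l2, -⟩ := hdata a₂ ha₂
  obtain ⟨σ₃, w₃, f3, m3, l3, -⟩ := hdata a₃ ha₃
  obtain ⟨σ₄, w₄, f4, m4, l4, -⟩ := hdata a₄ ha₄
  have r2 := hcross a₂ a₁ σ₂ σ₁ w₂ w₁ ha₂ ha₁ a12.symm (hneZ a₂ a₁ e₂ ha₂e a1e2) f2 m2 f1 m1 l2 l1
  have r3 := hcross a₃ a₁ σ₃ σ₁ w₃ w₁ ha₃ ha₁ a13.symm (hneZ a₃ a₁ e₃ ha₃e a1e3) f3 m3 f1 m1 l3 l1
  have h4e : ¬ Commute a₄ e₂ := anti_mul_comm (comm_mul_anti a1e2 ha₂e) a3e2
  have r4 := hcross a₄ a₁ σ₄ σ₁ w₄ w₁ ha₄ ha₁ a14.symm (hneZ a₄ a₁ e₂ h4e a1e2) f4 m4 f1 m1 l4 l1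
  apply na1
  have h5 := r4.mul_right (r2.mul_right r3).inv_right
  have e5 : a₄ * (a₂ * a₃)⁻¹ = a₁ := by rw [ha4]; group
  rwa [e5] at h5

end Cfsg.Agent.S3085
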