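import Cfsg.Statements.S3103
import Cfsg.Agent.TwoAut.EmbedGL
import Cfsg.Agent.S0256

set_option autoImplicit false
open Cfsg

namespace Cfsg.Agent.S3103

/-- Let X be a finite 2-constrained group with no nontrivial normal subgroup of odd order such that O₂(X) has sectional 2-rank at most 4. Then X/O₂(X) is isomorphic to a subgroup of the alternating group of degree 8. -/
theorem result {X : Type*} [Group X] [Finite X] (hc : Cfsg.IsPConstrained 2 X) (hO : Cfsg.oddCore X = ⊥)
    (h4 : Cfsg.SectionalPRankLE 2 4 ↥(Cfsg.pCore 2 X)) :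
    ∃ f : X ⧸ Cfsg.pCore 2 X →* ↥(alternatingGroup (Fin 8)), Function.Injective f := by
  obtain ⟨f, hf⟩ := Cfsg.Agent.TwoAut.exists_radical_quotient_embed hc hO h4
  haveI : Fact (Nat.Prime 2) := ⟨Nat.prime_two⟩
  obtain ⟨g, hg⟩ := Cfsg.Agent.TwoAut.exists_sl_four_embed_psl (F := ZMod 2) (ZMod.card 2)
  obtain ⟨e⟩ := Cfsg.Agent.S0256.result (F := ZMod 2) (ZMod.card 2)
  exact ⟨(e.toMonoidHom.comp g).comp f, (e.injective.comp hg).comp hf⟩

end Cfsg.Agent.S3103
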