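import Cfsg.Statements.S3104
import Cfsg.Agent.TwoAut.RankFiveMain

set_option autoImplicit false
open Cfsg

namespace Cfsg.Agent.S3104

/-- Let X be a finite nonsolvable 2-constrained group with no nontrivial normal subgroup of odd order such that O₂(X) has sectional 2-rank at most 4, and write Q for X/O₂(X). Then Q is isomorphic to the projective special linear group of dimension 3 over the field with 2 elements, to an alternating group of degree n with 5 ≤ n ≤ 8, to a symmetric group of degree n with 5 ≤ n ≤ 7, or else O₃(Q) has order 3 and Q/O₃(Q) is isomorphic to the alternating or the symmetric group of degree 5 (so Q is the direct product of a group of order 3 with the alternating group of degree 5, or an extension of that direct product by a group of order 2). If moreover X itself has sectional 2-rank at most 4, then Q is not isomorphic to the symmetric group of degree 6 or 7 nor to the alternating group of degree 8. -/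
theorem result {X : Type*} [Group X] [Finite X] (hns : ¬ Group.IsSolvable X) (hc : Cfsg.IsPConstrained 2 X) (hO : Cfsg.oddCore X = ⊥)
    (h4 : Cfsg.SectionalPRankLE 2 4 ↥(Cfsg.pCore 2 X)) :
    ((∃ (F : Type) (_ : Field F) (_ : Fintype F), Fintype.card F = 2 ∧
          Nonempty (X ⧸ Cfsg.pCore 2 X ≃* Matrix.ProjectiveSpecialLinearGroup (Fin 3) F)) ∨
        (∃ n : ℕ, 5 ≤ n ∧ n ≤ 8 ∧ Nonempty (X ⧸ Cfsg.pCore 2 X ≃* ↥(alternatingGroup (Fin n)))) ∨
        (∃ n : ℕ, 5 ≤ n ∧ n ≤ 7 ∧ Nonempty (X ⧸ Cfsg.pCore 2 X ≃* Equiv.Perm (Fin n))) ∨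
        (Nat.card ↥(Cfsg.pCore 3 (X ⧸ Cfsg.pCore 2 X)) = 3 ∧
          (Nonempty ((X ⧸ Cfsg.pCore 2 X) ⧸ Cfsg.pCore 3 (X ⧸ Cfsg.pCore 2 X) ≃* ↥(alternatingGroup (Fin 5))) ∨
            Nonempty ((X ⧸ Cfsg.pCore 2 X) ⧸ Cfsg.pCore 3 (X ⧸ Cfsg.pCore 2 X) ≃* Equiv.Perm (Fin 5))))) ∧
      (Cfsg.SectionalPRankLE 2 4 X →
        ¬ (Nonempty (X ⧸ Cfsg.pCore 2 X ≃* Equiv.Perm (Fin 6)) ∨ Nonempty (X ⧸ Cfsg.pCore 2 X ≃* Equiv.Perm (Fin 7)) ∨
            Nonempty (X ⧸ Cfsg.pCore 2 X ≃* ↥(alternatingGroup (Fin 8))))) := by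
  haveI : Fact (Nat.Prime 2) := ⟨Nat.prime_two⟩
  haveI : Fact (Nat.Prime 7) := ⟨by norm_num⟩
  obtain ⟨f, hf⟩ := Cfsg.Agent.TwoAut.exists_radical_quotient_embed hc hO h4
  obtain ⟨g, hg⟩ := Cfsg.Agent.TwoAut.exists_sl_four_embed_psl (F := ZMod 2) (ZMod.card 2)
  obtain ⟨e⟩ := Cfsg.Agent.S0256.result (F := ZMod 2) (ZMod.card 2)
  have hfQ : Function.Injective ((e.toMonoidHom.comp g).comp f) := (e.injective.comp hg).comp hf
  have hQ : ¬ Group.IsSolvable (X ⧸ Cfsg.pCore 2 X) := fun hs =>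
    hns (Cfsg.Agent.TwoAut.solvable_of_hom (QuotientGroup.mk' (Cfsg.pCore 2 X)) hs (by
      rw [QuotientGroup.ker_mk']
      haveI := (Cfsg.Agent.PSolv.isPGroup_pCore 2 X).isNilpotent
      infer_instance))
  have hO2 := Cfsg.Agent.PSolv.pCore_quotient_eq_bot 2 X
  refine ⟨?_, fun h4X h => ?_⟩
  · rcases Cfsg.Agent.TwoAut.SubEight.classify _ hfQ hQ hO2 with h | h | h | h | h | h | ⟨hs, hc'⟩ | h
    · exact Or.inr (Or.inl ⟨5, le_rfl, by norm_num, h⟩)
    · exact Or.inr (Or.inr (Or.inl ⟨5, le_rfl, by norm_num, h⟩))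
    · exact Or.inr (Or.inl ⟨6, by norm_num, by norm_num, h⟩)
    · exact Or.inr (Or.inr (Or.inl ⟨6, by norm_num, by norm_num, h⟩))
    · exact Or.inr (Or.inl ⟨7, by norm_num, by norm_num, h⟩)
    · exact Or.inr (Or.inl ⟨8, by norm_num, le_rfl, h⟩)
    · haveI := hs
      obtain ⟨e1⟩ := Cfsg.Agent.SmallPSL.equiv_seven hc' (F := ZMod 7) (ZMod.card 7)
      obtain ⟨e2⟩ := Cfsg.Agent.S0255.result (F := ZMod 7) (K := ZMod 2) (ZMod.card 7) (ZMod.card 2)
      exact Or.inl ⟨ZMod 2, inferInstance, inferInstance, ZMod.card 2, ⟨e1.trans e2⟩⟩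
    · exact Or.inr (Or.inr (Or.inr h))
  · rcases h with h | ⟨⟨e7⟩⟩ | h
    · exact Cfsg.Agent.TwoAut.RankFive.not_six_or_eight hc hO h4X (Or.inl h)
    · have hA : Nat.card (alternatingGroup (Fin 8)) = 20160 :=
        Cfsg.Agent.TwoAut.SubEight.card_alt 8 20160 (by norm_num) rfl
      have hr := Nat.card_congr (MonoidHom.ofInjective hfQ).toEquiv
      rw [Nat.card_congr e7.toEquiv, Cfsg.Agent.TwoAut.SubEight.card_perm_fin] at hr
      have hmul := ((e.toMonoidHom.comp g).comp f).range.card_mul_index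
      rw [← hr, hA] at hmul
      rw [show Nat.factorial 7 = 5040 from rfl] at hmul
      have htop : ((e.toMonoidHom.comp g).comp f).range ≠ ⊤ := fun ht => by
        rw [ht, Subgroup.index_top] at hmul
        norm_num at hmul
      have hle := Cfsg.Agent.Alt.card_le_index_alt (by rw [Nat.card_fin]; norm_num) htop
      rw [Nat.card_fin] at hle
      omega
    · exact Cfsg.Agent.TwoAut.RankFive.not_six_or_eight hc hO h4X (Or.inr h)

end Cfsg.Agent.S3104
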