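import Cfsg.Statements.S3105
import Cfsg.Agent.RadLThreeTwo.Main
import Cfsg.Agent.PSolv.HallHigman
import Cfsg.Agent.CentralExt.Basic
import Cfsg.Agent.Linear.Orders
import Cfsg.Agent.Linear.Transvection
import Cfsg.Agent.S2087

set_option autoImplicit false
open Cfsg

namespace Cfsg.Agent.S3105

open Cfsg.Agent Cfsg.Agent.RadLThree

universe u

/-- A radical of type `(4,2,2,2)` in coordinates. -/
theorem shape_iso {Y : Type u} [Group Y] [Finite Y] {Q : Subgroup Y} (h : Shape Q) :
    Nonempty (↥Q ≃* Multiplicative (ZMod 4) × (Fin 3 → Multiplicative (ZMod 2))) := by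
  classical
  obtain ⟨h32, hab, M, hMn, hMQ, hM16, hM1, z, hz, hzM, hxM, hx1⟩ := h
  have hx2 : z * z * (z * z) = 1 := hM1 _ hxM
  set x := z * z with hxdef
  have hle : Subgroup.zpowers x ≤ M := Subgroup.zpowers_le.2 hxM
  have hK2 : Nat.card (Subgroup.zpowers x) = 2 := by
    rw [Nat.card_zpowers]
    exact orderOf_eq_prime (by rw [sq]; exact hx2) hx1
  have hMab := comm_of_sq hM1
  haveI : IsMulCommutative M := ⟨⟨fun a b => Subtype.ext (hMab a a.2 b b.2)⟩⟩
  letI : CommGroup M := { (inferInstance : Group M) with mul_comm := fun a b => Subtype.ext (hMab a a.2 b b.2) }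
  letI : Module (ZMod 2) (Additive M) := AddCommGroup.zmodModule (fun a => by
    rw [two_nsmul]; exact Subtype.ext (hM1 _ (Additive.toMul a).2))
  let W : Submodule (ZMod 2) (Additive M) := Submodule.span (ZMod 2) {Additive.ofMul ⟨x, hxM⟩}
  obtain ⟨U, hU⟩ := W.exists_isCompl
  have hx0 : (Additive.ofMul (⟨x, hxM⟩ : M)) ≠ 0 := fun e => hx1 (congrArg Subtype.val e)
  have hU3 : Module.finrank (ZMod 2) U = 3 := by
    have h4 : Module.finrank (ZMod 2) (Additive M) = 4 := by
      have hc := Module.natCard_eq_pow_finrank (K := ZMod 2) (V := Additive M)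
      rw [show Nat.card (Additive M) = 16 from hM16, Nat.card_zmod] at hc
      exact (Nat.pow_right_injective (le_refl 2) (show 2 ^ 4 = _ from hc)).symm
    have hW : Module.finrank (ZMod 2) W = 1 := finrank_span_singleton hx0
    have := Submodule.finrank_add_eq_of_isCompl hU
    omega
  let b : U ≃ₗ[ZMod 2] (Fin 3 → ZMod 2) := LinearEquiv.ofFinrankEq _ _ (by rw [hU3]; simp)
  let toY : U → Y := fun u => ((Additive.toMul (u : Additive M)) : M)
  have htoY : ∀ u v : U, toY (u + v) = toY u * toY v := fun u v => rfl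
  have hUQ : ∀ u : U, toY u ∈ Q := fun u => hMQ (Additive.toMul (u : Additive M)).2
  have hz4 : z ^ 4 = 1 := by
    rw [show z ^ 4 = z * z * (z * z) by simp [pow_succ, mul_assoc]]
    exact hx2
  let f : Multiplicative (ZMod 4) × (Fin 3 → Multiplicative (ZMod 2)) →* Q :=
    MonoidHom.mk' (fun a => ⟨z ^ (Multiplicative.toAdd a.1).val *
        toY (b.symm fun i => Multiplicative.toAdd (a.2 i)),
      Q.mul_mem (Q.pow_mem hz _) (hUQ _)⟩) (by
      intro a c
      refine Subtype.ext ?_
      show z ^ (Multiplicative.toAdd a.1 + Multiplicative.toAdd c.1).val *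
          toY (b.symm ((fun i => Multiplicative.toAdd (a.2 i)) + fun i => Multiplicative.toAdd (c.2 i))) = _
      rw [map_add, htoY, ZMod.val_add, ← pow_eq_pow_mod _ hz4, pow_add]
      show _ = z ^ _ * toY _ * (z ^ _ * toY _)
      rw [mul_assoc, mul_assoc, ← mul_assoc (z ^ (Multiplicative.toAdd c.1).val),
        hab _ (Q.pow_mem hz _) _ (hUQ _), mul_assoc])
  have hinj : Function.Injective f := by
    rw [injective_iff_map_eq_one]
    rintro ⟨a, c⟩ hac
    have hv : z ^ (Multiplicative.toAdd a).val *
        toY (b.symm fun i => Multiplicative.toAdd (c i)) = 1 := congrArg Subtype.val hac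
    set u := b.symm fun i => Multiplicative.toAdd (c i) with hu
    have huM : toY u ∈ M := (Additive.toMul (u : Additive M)).2
    have hzi : z ^ (Multiplicative.toAdd a).val ∈ M := by
      rw [mul_eq_one_iff_eq_inv.1 hv]; exact M.inv_mem huM
    have hlt := ZMod.val_lt (Multiplicative.toAdd a)
    have h0 : (Multiplicative.toAdd a).val = 0 := by
      generalize hi : (Multiplicative.toAdd a).val = i at hzi hlt hv
      interval_cases i
      · rfl
      · exact absurd (by simpa using hzi) hzM
      · exfalso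
        have hxu : x = toY u := by
          rw [show z ^ 2 = x by rw [sq]] at hv
          rw [mul_eq_one_iff_eq_inv.1 hv]
          exact inv_eq_of_mul_eq_one_right (hM1 _ huM)
        have hmem : (Additive.ofMul (⟨x, hxM⟩ : M)) ∈ U := by
          have e : (u : Additive M) = Additive.ofMul (⟨x, hxM⟩ : M) := Subtype.ext hxu.symm
          rw [← e]; exact u.2
        exact hx0 ((Submodule.mem_bot (R := ZMod 2)).1 (hU.disjoint.le_bot
          ⟨Submodule.mem_span_singleton_self _, hmem⟩))
      · exfalso
        have : z ^ 2 * z ∈ M := by rwa [← pow_succ]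
        have := M.mul_mem (M.inv_mem hxM) this
        rw [sq, inv_mul_cancel_left] at this
        exact hzM this
    rw [h0, pow_zero, one_mul] at hv
    have hu0 : u = 0 := Subtype.ext (Subtype.ext hv)
    have hc0 : (fun i => Multiplicative.toAdd (c i)) = 0 := by
      have := congrArg b hu0
      rwa [hu, LinearEquiv.apply_symm_apply, map_zero] at this
    refine Prod.ext ?_ (funext fun i => congrFun hc0 i)
    exact (ZMod.val_eq_zero _).1 h0
  have hbij : Function.Bijective f := hinj.bijective_of_nat_card_le (by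
    rw [h32, Nat.card_prod, Nat.card_fun]
    simp)
  exact ⟨(MulEquiv.ofBijective f hbij).symm⟩

/-- Let X be a finite nonsolvable 2-constrained group with no nontrivial normal subgroup of odd order and of sectional 2-rank at most 4, and suppose X/O₂(X) is isomorphic to the projective special linear group of dimension 3 over the field with 2 elements. Then O₂(X) is elementary abelian of order 8 or 16, or is isomorphic to the direct product of a cyclic group of order 4 and an elementary abelian group of order 8. -/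
theorem result {X : Type*} [Group X] [Finite X] (hns : ¬ Group.IsSolvable X) (hc : Cfsg.IsPConstrained 2 X) (hO : Cfsg.oddCore X = ⊥)
    (h4 : Cfsg.SectionalPRankLE 2 4 X) {F : Type*} [Field F] [Fintype F] (hF : Fintype.card F = 2)
    (hQ : Nonempty (X ⧸ Cfsg.pCore 2 X ≃* Matrix.ProjectiveSpecialLinearGroup (Fin 3) F)) :
    (Cfsg.IsElementaryAbelian 2 (Cfsg.pCore 2 X) ∧ (Nat.card ↥(Cfsg.pCore 2 X) = 8 ∨ Nat.card ↥(Cfsg.pCore 2 X) = 16)) ∨
      Nonempty (↥(Cfsg.pCore 2 X) ≃* Multiplicative (ZMod 4) × (Fin 3 → Multiplicative (ZMod 2))) := by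
  classical
  haveI : Fact (Nat.Prime 2) := ⟨Nat.prime_two⟩
  obtain ⟨e⟩ := hQ
  have hsimp : IsSimpleGroup (Matrix.ProjectiveSpecialLinearGroup (Fin 3) F) :=
    Linear.isSimpleGroup_PSL_fin 3 (by norm_num) (fun h => absurd h (by norm_num))
  have hcard : Nat.card (Matrix.ProjectiveSpecialLinearGroup (Fin 3) F) = 168 := by
    have h1 := Linear.card_PSL_mul (ι := Fin 3) (F := F)
    have h2 := Linear.card_SL_mul (F := F) 3
    rw [hF] at h1 h2
    simp only [Fin.prod_univ_three, Fintype.card_fin] at h1 h2
    norm_num at h1 h2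
    rw [Nat.card_eq_fintype_card]; omega
  let π := e.toMonoidHom.comp (QuotientGroup.mk' (pCore 2 X))
  have hrad : Rad π (pCore 2 X) :=
    { simple := hsimp
      card := hcard
      surj := e.surjective.comp (QuotientGroup.mk'_surjective _)
      ker := by
        ext y
        rw [MonoidHom.mem_ker]
        exact (e.map_eq_one_iff).trans (QuotientGroup.eq_one_iff y)
      two := PSolv.isPGroup_pCore 2 X
      rank := h4
      act := by
        intro s hs hc'
        have hmem : s ∈ pCore 2 X := PSolv.centralizer_pCore_le_of_isPConstrained hc hO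
          (Subgroup.mem_centralizer_iff.2 fun q hq => (hc' q hq).symm)
        obtain ⟨k, hk⟩ := PSolv.isPGroup_pCore 2 X ⟨s, hmem⟩
        have hk' : s ^ 2 ^ k = 1 := congrArg Subtype.val hk
        have h1 : s ^ Nat.gcd (2 ^ k) 7 = 1 := pow_gcd_eq_one.2 ⟨hk', hs⟩
        rwa [Nat.Coprime.gcd_eq_one (Nat.Coprime.pow_left k (by norm_num : Nat.Coprime 2 7)), pow_one] at h1 }
  have hm : MultBound (Matrix.ProjectiveSpecialLinearGroup (Fin 3) F) := by
    intro Δ _ _ τ hτ
    have := CentralExt.card_ker_dvd_of_hasSchurMultiplier (Cfsg.Agent.S2087.result hF) hτ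
    simpa using this
  rcases Rad.outcome hm _ X π _ hrad rfl with ⟨hel, hc8⟩ | hs
  · exact Or.inl ⟨⟨⟨⟨fun a b => Subtype.ext (comm_of_sq hel a a.2 b b.2)⟩⟩,
      fun a ha => by rw [sq]; exact hel a ha⟩, hc8⟩
  · exact Or.inr (shape_iso hs)

end Cfsg.Agent.S3105
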