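import Cfsg.Statements.S3117
import Cfsg.Agent.TwoAut.FewInvolutions

set_option autoImplicit false
open Cfsg

namespace Cfsg.Agent.S3117

/-- If X is a finite 2-group containing exactly three involutions, then the automorphism group of X is solvable. -/
theorem result {X : Type*} [Group X] [Finite X] (h2 : IsPGroup 2 X) (h3 : Nat.card {x : X // orderOf x = 2} = 3) : Group.IsSolvable (MulAut X) := by
  classical
  refine Cfsg.Agent.TwoAut.solvable_mulAut h2 ?_
  let f : {x : X // x ^ 2 = 1} → Option {x : X // orderOf x = 2} := fun x =>
    if h : (x : X) = 1 then none else some ⟨x, orderOf_eq_prime x.2 h⟩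
  have hf : Function.Injective f := by
    intro a b e
    by_cases ha : (a : X) = 1 <;> by_cases hb : (b : X) = 1
    · exact Subtype.ext (ha.trans hb.symm)
    · simp [f, ha, hb] at e
    · simp [f, ha, hb] at e
    · simp only [f, ha, hb, dif_neg, not_false_eq_true, Option.some.injEq] at e
      exact Subtype.ext (congrArg (fun z : {x : X // orderOf x = 2} => (z : X)) e)
  have := Nat.card_le_card_of_injective f hf
  rw [Finite.card_option, h3] at this
  exact this

end Cfsg.Agent.S3117
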