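import Cfsg.Statements.S3356
import Cfsg.Agent.Recog.HalfTransitive

set_option autoImplicit false
open Cfsg

namespace Cfsg.Agent.S3356

/-- Let G be a finite 3/2-transitive permutation group: G acts faithfully and transitively on a finite set, the point stabilizers are non-trivial, and for each point a all orbits of G_a on the remaining points have the same size. Suppose G has a regular normal subgroup N and G is not a Frobenius group (some two-point stabilizer is non-trivial). Then N is an elementary abelian p-group for some prime p, and every non-trivial normal subgroup of G contains N (so N is the unique minimal normal subgroup). -/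
theorem result {G Ω : Type*} [Group G] [Finite G]
    [MulAction G Ω] [FaithfulSMul G Ω] [Finite Ω] (htrans : MulAction.IsPretransitive G Ω)
    (hne : ∀ a : Ω, MulAction.stabilizer G a ≠ ⊥)
    (hhalf : ∀ a b c : Ω, b ≠ a → c ≠ a →
      Nat.card (MulAction.orbit (MulAction.stabilizer G a) b) = Nat.card (MulAction.orbit (MulAction.stabilizer G a) c))
    (N : Subgroup G) [hN : N.Normal] (hNt : MulAction.IsPretransitive N Ω) (hNr : ∀ a : Ω, MulAction.stabilizer N a = ⊥)
    (hnotF : ∃ a b : Ω, a ≠ b ∧ MulAction.stabilizer G a ⊓ MulAction.stabilizer G b ≠ ⊥) :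
    (∃ p : ℕ, p.Prime ∧ IsMulCommutative N ∧ ∀ x ∈ N, x ^ p = 1) ∧
    (∀ M : Subgroup G, M.Normal → M ≠ ⊥ → N ≤ M) := by
  classical
  obtain ⟨a, b, hab, hst⟩ := hnotF
  set H := MulAction.stabilizer G a with hH
  let act : MulDistribMulAction H N :=
    { smul := fun h n => ⟨(h : G) * n * (h : G)⁻¹, hN.conj_mem n n.2 h⟩
      one_smul := fun n => Subtype.ext (by show (1 : G) * n * (1 : G)⁻¹ = n; simp)
      mul_smul := fun g h n => Subtype.ext (by
        show ((g : G) * h) * n * ((g : G) * h)⁻¹ = g * (h * n * (h : G)⁻¹) * (g : G)⁻¹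
        group)
      smul_mul := fun h m n => Subtype.ext (by
        show (h : G) * (m * n) * (h : G)⁻¹ = (h * m * (h : G)⁻¹) * (h * n * (h : G)⁻¹)
        group)
      smul_one := fun h => Subtype.ext (by show (h : G) * (1 : G) * (h : G)⁻¹ = 1; simp) }
  have hbij : Function.Bijective (fun n : N => (n : G) • a) := by
    refine ⟨fun m n hmn => ?_, fun w => ?_⟩
    · have hmem : m⁻¹ * n ∈ MulAction.stabilizer N a := by
        rw [MulAction.mem_stabilizer_iff]
        show ((m : G)⁻¹ * n) • a = a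
        rw [mul_smul, show (n : G) • a = (m : G) • a from hmn.symm, inv_smul_smul]
      rw [hNr a, Subgroup.mem_bot, inv_mul_eq_one] at hmem
      exact hmem
    · obtain ⟨n, hn⟩ := hNt.exists_smul_eq a w
      exact ⟨n, hn⟩
  have hequiv : ∀ (h : H) (n : N), ((h • n : N) : G) • a = (h : G) • ((n : G) • a) := fun h n => by
    show ((h : G) * n * (h : G)⁻¹) • a = _
    rw [mul_smul, mul_smul, inv_smul_eq_iff.mpr (MulAction.mem_stabilizer_iff.mp h.2).symm]
  have hne1 : ∀ n : N, n ≠ 1 → (n : G) • a ≠ a := fun n hn h =>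
    hn (hbij.1 (h.trans (by simp : a = ((1 : N) : G) • a)))
  obtain ⟨n₀, hn₀⟩ := hbij.2 b
  have hn01 : n₀ ≠ 1 := by
    rintro rfl
    exact hab (by simpa using hn₀)
  have horb : ∀ n : N, MulAction.orbit H ((n : G) • a) =
      (fun m : N => (m : G) • a) '' MulAction.orbit H n := by
    intro n
    ext w
    constructor
    · rintro ⟨h, rfl⟩
      exact ⟨h • n, ⟨h, rfl⟩, hequiv h n⟩
    · rintro ⟨_, ⟨h, rfl⟩, rfl⟩
      exact ⟨h, (hequiv h n).symm⟩
  have hk : Recog.HalfTrans.IsHalf H N (Nat.card (MulAction.orbit H b)) := by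
    intro n hn
    rw [← hhalf a ((n : G) • a) b (hne1 n hn) (Ne.symm hab), horb,
      Nat.card_image_of_injective hbij.1]
  have hfaith : ∀ h : H, (∀ n : N, h • n = n) → h = 1 := by
    intro h hh
    refine Subtype.ext (FaithfulSMul.eq_of_smul_eq_smul (α := Ω) fun w => ?_)
    obtain ⟨n, rfl⟩ := hbij.2 w
    show (h : G) • ((n : G) • a) = (1 : G) • ((n : G) • a)
    rw [← hequiv, hh n, one_smul]
  have hex : ∃ n : N, n ≠ 1 ∧ MulAction.stabilizer H n ≠ ⊥ := by
    obtain ⟨⟨g, hga, hgb⟩, hg1⟩ := (Subgroup.ne_bot_iff_exists_ne_one).mp hst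
    refine ⟨n₀, hn01, fun hbot => ?_⟩
    have hmem : (⟨g, hga⟩ : H) ∈ MulAction.stabilizer H n₀ := by
      refine MulAction.mem_stabilizer_iff.mpr (hbij.1 ?_)
      show ((((⟨g, hga⟩ : H) • n₀ : N)) : G) • a = (n₀ : G) • a
      rw [hequiv, show (n₀ : G) • a = b from hn₀]
      exact MulAction.mem_stabilizer_iff.mp hgb
    rw [hbot, Subgroup.mem_bot] at hmem
    exact hg1 (Subtype.ext (show g = 1 from congrArg Subtype.val hmem))
  have : Nontrivial N := ⟨⟨n₀, 1, hn01⟩⟩
  obtain ⟨p, hp, hexp⟩ := Recog.HalfTrans.exists_prime_exponent hk hfaith hex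
  have hcom := Recog.HalfTrans.isMulCommutative hk hfaith hex
  refine ⟨⟨p, hp, hcom, fun x hx => congrArg Subtype.val (hexp ⟨x, hx⟩)⟩, fun M hM hMne => ?_⟩
  have hdec : ∀ g : G, ∃ n : N, (n : G)⁻¹ * g ∈ H := by
    intro g
    obtain ⟨n, hn⟩ := hbij.2 (g • a)
    exact ⟨n, MulAction.mem_stabilizer_iff.mpr (by rw [mul_smul, ← hn, inv_smul_smul])⟩
  rcases Recog.HalfTrans.invariant_trivial hk hfaith hex (M := M.subgroupOf N)
      (fun h m hm => hM.conj_mem (m : G) hm h) with h | h
  · exfalso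
    apply hMne
    rw [Subgroup.eq_bot_iff_forall]
    intro g hg
    rw [Subgroup.subgroupOf_eq_bot] at h
    have hcomm : ∀ n ∈ N, n * g = g * n := by
      intro n hn
      have hd := h.le_bot (x := g * n * g⁻¹ * n⁻¹) ⟨by
        have := M.mul_mem hg (hM.conj_mem g⁻¹ (M.inv_mem hg) n)
        simpa [mul_assoc] using this, N.mul_mem (hN.conj_mem n hn g) (N.inv_mem hn)⟩
      rw [Subgroup.mem_bot, mul_inv_eq_one, mul_inv_eq_iff_eq_mul] at hd
      exact hd.symm
    obtain ⟨n, hn⟩ := hdec g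
    have hfix : (n : G)⁻¹ * g = 1 := by
      refine congrArg Subtype.val (hfaith ⟨_, hn⟩ fun m => Subtype.ext ?_)
      show ((n : G)⁻¹ * g) * m * ((n : G)⁻¹ * g)⁻¹ = m
      have h1 : (n : G) * m = m * n := congrArg Subtype.val (hcom.is_comm.comm n m)
      rw [mul_inv_rev, inv_inv, mul_assoc ((n : G)⁻¹) g, ← hcomm m m.2]
      calc (n : G)⁻¹ * ((m : G) * g) * (g⁻¹ * n) = (n : G)⁻¹ * (m * n) := by group
        _ = m := by rw [← h1]; group
    rw [inv_mul_eq_one] at hfix
    have : g ∈ (⊥ : Subgroup G) := h.le_bot ⟨hg, hfix ▸ n.2⟩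
    exact Subgroup.mem_bot.mp this
  · exact Subgroup.subgroupOf_eq_top.mp h

end Cfsg.Agent.S3356
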