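import Cfsg.Statements.S3357
import Cfsg.Agent.PermP.ZassCore

set_option autoImplicit false
open Cfsg

open Subgroup
open scoped Pointwise
namespace Cfsg.Agent.S3357

/-- Let G be a finite group that occurs as a Frobenius complement. Then G has a faithful irreducible representation over an algebraic closure of the rationals in which no non-identity element of G has 1 as an eigenvalue: there are n ≥ 1 and an injective homomorphism ρ from G to GL(n) over that field, with no invariant subspace other than 0 and the whole space, such that for g ≠ 1 the only vector fixed by ρ(g) is 0. -/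
theorem result {G : Type*} [Group G] [Finite G]
    (hFC : ∃ (L : Type) (_ : Group L) (_ : Finite L) (H : Subgroup L), Cfsg.IsFrobeniusComplement H ∧ Nonempty (G ≃* H)) :
    ∃ (n : ℕ) (ρ : G →* GL (Fin n) (AlgebraicClosure ℚ)), 0 < n ∧ Function.Injective ρ ∧
      (∀ W : Submodule (AlgebraicClosure ℚ) (Fin n → AlgebraicClosure ℚ),
        (∀ g : G, ∀ w ∈ W, ((ρ g : GL (Fin n) (AlgebraicClosure ℚ)) : Matrix (Fin n) (Fin n) (AlgebraicClosure ℚ)).mulVec w ∈ W) → W = ⊥ ∨ W = ⊤) ∧
      ∀ g : G, g ≠ 1 → ∀ v : Fin n → AlgebraicClosure ℚ,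
        ((ρ g : GL (Fin n) (AlgebraicClosure ℚ)) : Matrix (Fin n) (Fin n) (AlgebraicClosure ℚ)).mulVec v = v → v = 0 := by
  classical
  obtain ⟨n, ρ, hn, hρ⟩ := PermP.Zass.exists_rat_rep (G := G) hFC
  let K := AlgebraicClosure ℚ
  let F : Matrix (Fin n) (Fin n) ℚ →+* Matrix (Fin n) (Fin n) K := (algebraMap ℚ K).mapMatrix
  let σ : G →* Module.End K (Fin n → K) :=
    ((Matrix.toLinAlgEquiv' (R := K) (n := Fin n)).toRingEquiv.toRingHom.comp F).toMonoidHom.comp ρ
  have hσ : ∀ g : G, ∀ v, σ g v = (F (ρ g)).mulVec v := fun g v => rfl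
  have hfpf : ∀ g : G, g ≠ 1 → ∀ v, σ g v = v → v = 0 := by
    intro g hg v hv
    have hu : IsUnit (F (ρ g) - 1) := by simpa using (hρ g hg).map F
    refine (Matrix.mulVec_injective_iff_isUnit.mpr hu) ?_
    rw [Matrix.mulVec_zero, Matrix.sub_mulVec, Matrix.one_mulVec, ← hσ, hv, sub_self]
  -- a minimal invariant subspace
  have hex : ∃ d, ∃ W : Submodule K (Fin n → K), W ≠ ⊥ ∧ (∀ g, ∀ w ∈ W, σ g w ∈ W) ∧ Module.finrank K W = d := by
    refine ⟨_, ⊤, ?_, fun g w _ => trivial, rfl⟩
    have : Nonempty (Fin n) := ⟨⟨0, hn⟩⟩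
    exact top_ne_bot
  obtain ⟨W, hW0, hWinv, hWd⟩ := Nat.find_spec hex
  let b := Module.finBasis K W
  let σW : G →* Module.End K W :=
    { toFun := fun g => (σ g).restrict (hWinv g)
      map_one' := LinearMap.ext fun w => Subtype.ext (by simp)
      map_mul' := fun g h => LinearMap.ext fun w => Subtype.ext (by simp) }
  let τ : G →* Matrix (Fin (Module.finrank K W)) (Fin (Module.finrank K W)) K :=
    (LinearMap.toMatrixAlgEquiv b).toRingEquiv.toRingHom.toMonoidHom.comp σW
  have hτ : ∀ g (w : W), (τ g).mulVec (b.repr w) = b.repr (σW g w) := fun g w =>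
    LinearMap.toMatrix_mulVec_repr b b (σW g) w
  refine ⟨Module.finrank K W, τ.toHomUnits, ?_, ?_, ?_, ?_⟩
  · have : Nontrivial W := Submodule.nontrivial_iff_ne_bot.mpr hW0
    exact Module.finrank_pos
  · intro g h e
    have e' : τ g = τ h := congrArg Units.val e
    by_contra hne
    obtain ⟨w, hw⟩ := Submodule.exists_mem_ne_zero_of_ne_bot hW0
    have h1 : (σ (g⁻¹ * h)) w = w := by
      have e1 : σW g = σW h := (LinearMap.toMatrixAlgEquiv b).injective e'
      have e2 : σW (g⁻¹ * h) = 1 := by rw [map_mul, ← e1, ← map_mul, inv_mul_cancel, map_one]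
      have := congrArg (fun f : Module.End K W => ((f ⟨w, hw.1⟩ : W) : Fin n → K)) e2
      exact this
    exact hw.2 (hfpf _ (fun e => hne (inv_mul_eq_one.mp e)) w h1)
  · intro U hU
    set U' : Submodule K (Fin n → K) := (U.comap b.equivFun.toLinearMap).map W.subtype with hU'
    have hU'inv : ∀ g, ∀ w ∈ U', σ g w ∈ U' := by
      rintro g _ ⟨w, hw, rfl⟩
      refine ⟨σW g w, ?_, rfl⟩
      have h1 := hU g _ hw
      show (b.repr (σW g w) : Fin _ → K) ∈ U
      rw [← hτ]
      exact h1
    by_cases h0 : U' = ⊥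
    · left
      rw [eq_bot_iff]
      intro u hu
      have h1 : ((b.equivFun.symm u : W) : Fin n → K) ∈ U' := ⟨b.equivFun.symm u, (show b.equivFun (b.equivFun.symm u) ∈ U by rw [LinearEquiv.apply_symm_apply]; exact hu), rfl⟩
      rw [h0, Submodule.mem_bot] at h1
      have h2 : b.equivFun.symm u = 0 := Subtype.ext h1
      have h3 := congrArg b.equivFun h2
      rw [LinearEquiv.apply_symm_apply, map_zero] at h3
      exact h3
    · right
      have hle : U' ≤ W := Submodule.map_subtype_le _ _
      have hge : Module.finrank K W ≤ Module.finrank K U' := hWd ▸ Nat.find_min' hex ⟨U', h0, hU'inv, rfl⟩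
      have heq : U' = W := Submodule.eq_of_le_of_finrank_le hle hge
      rw [eq_top_iff]
      intro u _
      have h1 : ((b.equivFun.symm u : W) : Fin n → K) ∈ U' := heq.symm ▸ (b.equivFun.symm u).2
      obtain ⟨w, hw, hwu⟩ := h1
      rw [show w = b.equivFun.symm u from Subtype.ext hwu] at hw
      have h4 : b.equivFun (b.equivFun.symm u) ∈ U := hw
      rwa [LinearEquiv.apply_symm_apply] at h4
  · intro g hg v hv
    set w := b.equivFun.symm v with hw
    have hvw : (b.repr w : Fin _ → K) = v := b.equivFun.apply_symm_apply v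
    have h1 : σW g w = w := by
      apply b.equivFun.injective
      show (b.repr (σW g w) : Fin _ → K) = b.repr w
      rw [← hτ, hvw]
      exact hv
    have h2 : w = 0 := Subtype.ext (hfpf g hg _ (congrArg Subtype.val h1))
    rw [← hvw, h2, map_zero]
    rfl

end Cfsg.Agent.S3357
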