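import Cfsg.Statements.S3971
import Cfsg.Agent.Transfer.Frobenius

set_option autoImplicit false
open Cfsg

open Subgroup
open scoped Pointwise
namespace Cfsg.Agent.S3971

open MulAction

variable {G : Type*} [Group G] [Finite G]

theorem centralize_aux (y : G) (hodd : Odd (orderOf y)) (h3 : ¬ 3 ∣ orderOf y) :
    ∀ (n : ℕ) (U : Subgroup G), Nat.card U ≤ n → IsPGroup 2 U →
      (∃ c ∈ U, Nat.card U ≤ 2 * orderOf c) → (∀ u ∈ U, y * u * y⁻¹ ∈ U) →
      ∀ u ∈ U, y * u * y⁻¹ = u := by
  classical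
  have : Fact (Nat.Prime 2) := ⟨Nat.prime_two⟩
  intro n
  induction n using Nat.strong_induction_on with | _ n ih =>
  intro U hn hU ⟨c, hcU, hcc⟩ hnorm u hu
  by_cases hU1 : U = ⊥
  · rw [hU1, mem_bot] at hu; rw [hu]; group
  obtain ⟨k, hk⟩ := IsPGroup.iff_card.mp hU
  have hk0 : k ≠ 0 := fun e => hU1 (card_eq_one.mp (by rw [hk, e, pow_zero]))
  have hUeven : 2 ∣ Nat.card U := hk ▸ dvd_pow_self 2 hk0
  -- a second generator
  obtain ⟨b, hbU, hgen⟩ : ∃ b ∈ U, ∀ x ∈ U, x ∈ closure {c, b} := by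
    by_cases hall : ∀ x ∈ U, x ∈ zpowers c
    · exact ⟨c, hcU, fun x hx => (zpowers_le.mpr (subset_closure (Set.mem_insert _ _))) (hall x hx)⟩
    push Not at hall
    obtain ⟨b, hb, hbc⟩ := hall
    refine ⟨b, hb, fun x hx => ?_⟩
    set K := closure {c, b} with hK
    have hcK : zpowers c ≤ K := zpowers_le.mpr (subset_closure (Set.mem_insert _ _))
    have hKU : K ≤ U := (closure_le _).mpr (Set.insert_subset hcU (Set.singleton_subset_iff.mpr hb))
    have hlt : zpowers c < K := lt_of_le_of_ne hcK fun e =>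
      hbc ((le_of_eq e.symm) (subset_closure (Set.mem_insert_of_mem _ (Set.mem_singleton b))))
    have h1 : 2 * orderOf c ≤ Nat.card K := by
      obtain ⟨d, hd⟩ := card_dvd_of_le hcK
      rw [Nat.card_zpowers] at hd
      have hd1 : d ≠ 1 := fun e => hlt.ne (eq_of_le_of_card_ge hcK (by rw [Nat.card_zpowers, hd, e, mul_one]))
      have hd0 : d ≠ 0 := fun e => Nat.card_pos.ne' (by rw [hd, e, mul_zero])
      rw [hd, mul_comm]
      exact Nat.mul_le_mul_left _ (by omega)
    rw [eq_of_le_of_card_ge hKU (hcc.trans h1)]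
    exact hx
  let Y : SubMulAction (zpowers (ConjAct.toConjAct y)) (Subgroup G) :=
    { carrier := {M | M ≤ U ∧ 2 * Nat.card M = Nat.card U}
      smul_mem' := fun g M hM => by
        show (g : ConjAct G) • M ≤ U ∧ 2 * Nat.card ((g : ConjAct G) • M : Subgroup G) = Nat.card U
        refine ⟨?_, by rw [Nat.card_congr (Subgroup.equivSMul (g : ConjAct G) M).toEquiv.symm]; exact hM.2⟩
        have hyU : ConjAct.toConjAct y ∈ stabilizer (ConjAct G) U := by
          refine eq_of_le_of_card_ge ?_ (le_of_eq (Nat.card_congr (Subgroup.equivSMul _ U).toEquiv))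
          rintro _ ⟨x, hx, rfl⟩
          exact hnorm x hx
        have hgU : (g : ConjAct G) • U = U := (zpowers_le.mpr hyU) g.2
        rw [← hgU]
        exact Subgroup.pointwise_smul_le_pointwise_smul_iff.mpr hM.1 }
  have hidx : ∀ M : Y, (M.1.subgroupOf U).index = 2 := by
    rintro ⟨M, hMU, hM⟩
    have h := (M.subgroupOf U).card_mul_index
    rw [Nat.card_congr (subgroupOfEquivOfLe hMU).toEquiv] at h
    exact Nat.eq_of_mul_eq_mul_left Nat.card_pos (by rw [h, ← hM, mul_comm])
  let f : Y → Bool × Bool := fun M => (decide (c ∈ M.1), decide (b ∈ M.1))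
  have hf : Function.Injective f := by
    intro M M' e
    simp only [f, Prod.mk.injEq, decide_eq_decide] at e
    let E : Subgroup U :=
      { carrier := {x | (x : G) ∈ M.1 ↔ (x : G) ∈ M'.1}
        one_mem' := iff_of_true (one_mem _) (one_mem _)
        mul_mem' := fun {a b'} ha hb' => by
          have h1 := Subgroup.mul_mem_iff_of_index_two (hidx M) (a := a) (b := b')
          have h2 := Subgroup.mul_mem_iff_of_index_two (hidx M') (a := a) (b := b')
          simp only [mem_subgroupOf, coe_mul] at h1 h2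
          show ((a * b' : U) : G) ∈ M.1 ↔ ((a * b' : U) : G) ∈ M'.1
          simp only [Set.mem_setOf_eq] at ha hb'
          rw [coe_mul, h1, h2, ha, hb']
        inv_mem' := fun {a} ha => by
          show ((a⁻¹ : U) : G) ∈ M.1 ↔ ((a⁻¹ : U) : G) ∈ M'.1
          simpa using ha }
    have hE : ∀ x : U, x ∈ E := by
      intro x
      have hle : closure {c, b} ≤ E.map U.subtype := by
        rw [closure_le]
        rintro z (rfl | rfl)
        · exact ⟨⟨z, hcU⟩, e.1, rfl⟩
        · exact ⟨⟨z, hbU⟩, e.2, rfl⟩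
      obtain ⟨z, hz, hzx⟩ := hle (hgen x x.2)
      rwa [← Subtype.ext hzx]
    apply Subtype.ext
    ext x
    exact ⟨fun hx => (hE ⟨x, M.2.1 hx⟩).mp hx, fun hx => (hE ⟨x, M'.2.1 hx⟩).mpr hx⟩
  obtain ⟨M₀, hM₀, -⟩ := Sylow.exists_subgroup_card_pow_prime_le 2 (G := U) (n := 0) (m := k - 1)
    (hk ▸ Nat.pow_dvd_pow 2 (Nat.sub_le k 1)) ⊥ (by rw [card_bot, pow_zero]) (Nat.zero_le _)
  have hmem : M₀.map U.subtype ∈ Y := ⟨map_subtype_le _, by
    rw [card_map_of_injective U.subtype_injective, hM₀, hk, ← pow_succ']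
    congr 1; omega⟩
  set M : Y := ⟨_, hmem⟩ with hMdef
  have horb : (orbit (zpowers (ConjAct.toConjAct y)) M).ncard = 1 := by
    set d := (orbit (zpowers (ConjAct.toConjAct y)) M).ncard with hd
    have hd1 : d ∣ orderOf y := by
      rw [hd, ← index_stabilizer]
      refine (index_dvd_card _).trans (dvd_of_eq ?_)
      rw [Nat.card_zpowers]
      exact orderOf_injective (ConjAct.toConjAct (G := G)).toMonoidHom ConjAct.toConjAct.injective y
    have hd0 : 0 < d := (Set.ncard_pos (Set.toFinite _)).mpr ⟨M, mem_orbit_self M⟩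
    have hd4 : d ≤ Nat.card Y := by
      rw [hd, ← Nat.card_coe_set_eq]; exact Finite.card_subtype_le _
    have h4 : Nat.card Y ≤ 4 := (Nat.card_le_card_of_injective f hf).trans (le_of_eq (by simp))
    obtain ⟨i, hi⟩ := hodd
    have h2 : ¬ 2 ∣ d := fun h => by have := h.trans hd1; omega
    have h3' : d ≠ 3 := fun e => h3 (e ▸ hd1)
    omega
  have hfix : ConjAct.toConjAct y • (M.1 : Subgroup G) = M.1 := by
    obtain ⟨a, ha⟩ := Set.ncard_eq_one.mp horb
    have h1 : (⟨_, mem_zpowers (ConjAct.toConjAct y)⟩ : zpowers (ConjAct.toConjAct y)) • M = a :=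
      Set.mem_singleton_iff.mp (ha ▸ mem_orbit _ _)
    have h2 : M = a := Set.mem_singleton_iff.mp (ha ▸ mem_orbit_self M)
    rw [← h2] at h1
    exact congrArg Subtype.val h1
  obtain ⟨hMU, hMc⟩ := M.2
  have hMnorm : ∀ v ∈ M.1, y * v * y⁻¹ ∈ M.1 := fun v hv => (le_of_eq hfix) ⟨v, hv, rfl⟩
  have hMlt : Nat.card M.1 < n := by
    have := Nat.card_pos (α := M.1); omega
  have hMcyc : ∃ c' ∈ M.1, Nat.card M.1 ≤ 2 * orderOf c' := by
    refine ⟨c ^ 2, ?_, ?_⟩
    · have := Subgroup.sq_mem_of_index_two (hidx M) ⟨c, hcU⟩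
      simpa [mem_subgroupOf] using this
    · obtain ⟨a, ha⟩ := hU ⟨c, hcU⟩
      have ho := Nat.le_of_dvd (Nat.mul_pos two_pos (orderOf_pos (c ^ 2))) (orderOf_dvd_of_pow_eq_one
        (by rw [pow_mul, pow_orderOf_eq_one] : c ^ (2 * orderOf (c ^ 2)) = 1))
      omega
  have hfixM := ih _ hMlt M.1 le_rfl (hU.to_le hMU) hMcyc hMnorm
  by_cases huM : u ∈ M.1
  · exact hfixM u huM
  set m := u⁻¹ * (y * u * y⁻¹) with hm
  have hmM : m ∈ M.1 := by
    have h := Subgroup.mul_mem_iff_of_index_two (hidx M) (a := (⟨u, hu⟩ : U)⁻¹) (b := ⟨_, hnorm u hu⟩)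
    simp only [inv_mem_iff, mem_subgroupOf, coe_mul, coe_inv] at h
    refine h.mpr (iff_of_false huM fun hy => huM ?_)
    obtain ⟨z, hz, hzz⟩ := (le_of_eq hfix.symm) hy
    have : z = u := mul_left_cancel (mul_right_cancel hzz : y * z = y * u)
    rwa [← this]
  have hpow : ∀ i : ℕ, y ^ i * u * (y ^ i)⁻¹ = u * m ^ i := by
    intro i
    induction i with
    | zero => simp
    | succ i hi =>
      calc y ^ (i + 1) * u * (y ^ (i + 1))⁻¹ = y * (y ^ i * u * (y ^ i)⁻¹) * y⁻¹ := by
            rw [pow_succ']; group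
        _ = (y * u * y⁻¹) * (y * m ^ i * y⁻¹) := by rw [hi]; group
        _ = u * m ^ (i + 1) := by rw [hfixM _ (pow_mem hmM i), pow_succ', ← mul_assoc, hm, mul_inv_cancel_left]
  have hm1 : m = 1 := by
    have h := hpow (orderOf y)
    rw [pow_orderOf_eq_one, one_mul, inv_one, mul_one, left_eq_mul] at h
    obtain ⟨a, ha⟩ := hU ⟨m, hMU hmM⟩
    rw [← orderOf_eq_one_iff]
    refine Nat.eq_one_of_dvd_coprimes (Nat.Coprime.pow_left a ?_)
      (orderOf_dvd_of_pow_eq_one (show m ^ 2 ^ a = 1 from congrArg Subtype.val ha)) (orderOf_dvd_of_pow_eq_one h)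
    exact hodd.coprime_two_left
  rwa [hm, inv_mul_eq_one, eq_comm] at hm1

/-- Let `G` be a finite group of order `2 ^ a * n` with `n` odd and not divisible by `3`, and suppose `G` has an element of order `2 ^ (a - 1)` (so a Sylow `2`-subgroup has a cyclic subgroup of index at most `2`). Then `G` has a normal subgroup of order `n`. -/
theorem result {G : Type*} [Group G] [Finite G] (a n : ℕ) (hG : Nat.card G = 2 ^ a * n) (hn : Odd n) (h3 : ¬ 3 ∣ n) (hx : ∃ x : G, orderOf x = 2 ^ (a - 1)) : ∃ N : Subgroup G, N.Normal ∧ Nat.card N = n := by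
  classical
  have : Fact (Nat.Prime 2) := ⟨Nat.prime_two⟩
  obtain ⟨x, hx⟩ := hx
  have hn2 : Nat.Coprime 2 n := hn.coprime_two_left
  have hnp : Cfsg.HasNormalPComplement 2 G := by
    refine Transfer.hasNormalPComplement_of_coprime_centralize fun Q hQ _ y hy hyo => ?_
    have hyodd : Odd (orderOf y) := Nat.coprime_two_right.mp hyo
    have hy3 : ¬ 3 ∣ orderOf y := by
      intro h
      have h' := (h.trans (orderOf_dvd_natCard y))
      rw [hG] at h'
      exact h3 ((Nat.Coprime.dvd_mul_left (Nat.Coprime.pow_right a (by norm_num : Nat.Coprime 3 2))).mp h')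
    obtain ⟨S, hS⟩ := hQ.exists_le_sylow
    obtain ⟨R, hR⟩ := (IsPGroup.of_card (n := a - 1) (by rw [Nat.card_zpowers, hx]) :
      IsPGroup 2 (zpowers x)).exists_le_sylow
    obtain ⟨g, hg⟩ := MulAction.exists_smul_eq G R S
    set x' := g * x * g⁻¹ with hx'
    have hx'S : x' ∈ (S : Subgroup G) := by
      rw [← hg, Sylow.coe_subgroup_smul]
      exact ⟨x, hR (mem_zpowers x), rfl⟩
    have hox : orderOf x' = 2 ^ (a - 1) := by
      rw [← hx]; exact orderOf_injective (MulAut.conj g).toMonoidHom (MulAut.conj g).injective x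
    have hScard : Nat.card (S : Subgroup G) ∣ 2 ^ a := by
      obtain ⟨i, hi⟩ := IsPGroup.iff_card.mp S.2
      have hd := card_subgroup_dvd_card (S : Subgroup G)
      rw [hG, hi] at hd
      rw [hi]
      exact (Nat.Coprime.dvd_mul_right (Nat.Coprime.pow_left i hn2)).mp hd
    have hcyc : ∃ c ∈ Q, Nat.card Q ≤ 2 * orderOf c := by
      obtain ⟨c, hc⟩ := IsCyclic.exists_generator (α := (Q ⊓ zpowers x' : Subgroup G).subgroupOf (zpowers x'))
      have hcard : orderOf c = Nat.card (Q ⊓ zpowers x' : Subgroup G) := by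
        rw [orderOf_eq_card_of_forall_mem_zpowers hc,
          Nat.card_congr (subgroupOfEquivOfLe (inf_le_right : Q ⊓ zpowers x' ≤ zpowers x')).toEquiv]
      refine ⟨((c : zpowers x') : G), (mem_subgroupOf.mp c.2).1, ?_⟩
      rw [Subgroup.orderOf_coe, Subgroup.orderOf_coe, hcard]
      have h1 : (zpowers x').relIndex Q ≤ (zpowers x').relIndex (S : Subgroup G) :=
        relIndex_le_of_le_right hS (Nat.pos_iff_ne_zero.mp (Nat.pos_of_ne_zero index_ne_zero_of_finite))
      have h2 : (zpowers x').relIndex (S : Subgroup G) ≤ 2 := by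
        have h := card_mul_index ((zpowers x').subgroupOf (S : Subgroup G))
        rw [Nat.card_congr (subgroupOfEquivOfLe (zpowers_le.mpr hx'S)).toEquiv, Nat.card_zpowers, hox] at h
        have hle := Nat.le_of_dvd (pow_pos two_pos a) (h ▸ hScard)
        have ha2 : 2 ^ a ≤ 2 ^ (a - 1) * 2 := by
          rw [← pow_succ]; exact Nat.pow_le_pow_right two_pos (by omega)
        exact Nat.le_of_mul_le_mul_left (hle.trans ha2) (pow_pos two_pos _)
      have h3 := card_mul_index ((zpowers x').subgroupOf Q)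
      rw [← inf_subgroupOf_right, Nat.card_congr (subgroupOfEquivOfLe (inf_le_right : zpowers x' ⊓ Q ≤ Q)).toEquiv,
        inf_subgroupOf_right, inf_comm] at h3
      rw [← h3, mul_comm 2]
      exact Nat.mul_le_mul_left _ (h1.trans h2)
    rw [mem_centralizer_iff]
    intro u hu
    have := centralize_aux y hyodd hy3 _ Q le_rfl hQ hcyc (fun v hv => (mem_normalizer_iff.mp hy v).mp hv) u hu
    exact (mul_inv_eq_iff_eq_mul.mp this).symm
  obtain ⟨P, N, hN, hc⟩ := hnp
  refine ⟨N, hN, ?_⟩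
  have h1 := hc.card_mul
  have h2 : Nat.card (P : Subgroup G) = 2 ^ a := by
    rw [P.card_eq_multiplicity, hG, Nat.factorization_mul (by positivity) (Nat.pos_iff_ne_zero.mp hn.pos)]
    simp [Nat.prime_two.factorization_pow, Nat.factorization_eq_zero_of_not_dvd (fun h : 2 ∣ n =>
      Nat.not_even_iff_odd.mpr hn (even_iff_two_dvd.mpr h))]
  rw [h2, hG, mul_comm] at h1
  exact Nat.eq_of_mul_eq_mul_left (pow_pos two_pos a) h1

end Cfsg.Agent.S3971
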