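import Cfsg.Statements.S3358
import Cfsg.Agent.Lib.ZGroupPresentation
import Cfsg.Agent.Lib.FrobeniusComplement
import Cfsg.Agent.FGS.FrobEven
import Cfsg.Agent.H4.QuaternionSection
import Cfsg.Agent.TwoFusion.LocalIndex
import Cfsg.Agent.PSolv.HallHigman
import Cfsg.Agent.S3971
import Cfsg.Agent.S0218

set_option autoImplicit false
open Cfsg

namespace Cfsg.Agent.S3358

open Subgroup

theorem subgroupMap_injective_of_inf_ker {G M : Type*} [Group G] [Group M] (f : G →* M) {U : Subgroup G}
    (h : U ⊓ f.ker = ⊥) : Function.Injective (f.subgroupMap U) := by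
  rw [← MonoidHom.ker_eq_bot_iff, eq_bot_iff]
  intro u hu
  have h1 : f u = 1 := congrArg Subtype.val (MonoidHom.mem_ker.mp hu)
  have : (u : G) ∈ U ⊓ f.ker := ⟨u.2, MonoidHom.mem_ker.mpr h1⟩
  rw [h, mem_bot] at this
  exact Subgroup.mem_bot.mpr (Subtype.ext this)

theorem quaternion_center_card :
    Nat.card (center (QuaternionGroup 2)) = 2 := by
  classical
  have : (center (QuaternionGroup 2) : Set (QuaternionGroup 2)) = {z | ∀ g, g * z = z * g} := by
    ext z; exact Subgroup.mem_center_iff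
  rw [show Nat.card (center (QuaternionGroup 2)) =
    Nat.card {z : QuaternionGroup 2 // ∀ g, g * z = z * g} from Nat.card_congr (Equiv.setCongr this),
    Nat.card_eq_fintype_card]
  decide

/-- A solvable group with trivial odd core and quaternion Sylow 2-subgroup maps to `Sym(4)` with
cyclic kernel. -/
theorem exists_hom_perm_four {M : Type*} [Group M] [Finite M] (hs : Group.IsSolvable M)
    (hO : Cfsg.pPrimeCore 2 M = ⊥) (S : Sylow 2 M) {n : ℕ}
    (e : (S : Subgroup M) ≃* QuaternionGroup (2 ^ (n + 1))) :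
    ∃ f : M →* Equiv.Perm (Fin 4), IsCyclic f.ker := by
  classical
  have : Fact (Nat.Prime 2) := ⟨Nat.prime_two⟩
  have : Fact (Nat.Prime 3) := ⟨Nat.prime_three⟩
  set T := Cfsg.pCore 2 M with hT
  have hTn : T.Normal := by
    rw [hT, Cores.pCore_eq_iInf_sylow]
    refine ⟨fun x hx g => ?_⟩
    simp only [mem_iInf] at hx ⊢
    intro P
    have := hx (g⁻¹ • P)
    rw [Sylow.coe_subgroup_smul, Subgroup.mem_pointwise_smul_iff_inv_smul_mem] at this
    simpa [MulAut.conj_apply] using this
  have hTp : IsPGroup 2 T := Cores.pCore_isPGroup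
  have hCT : centralizer (T : Set M) ≤ T :=
    PSolv.centralizer_pCore_le (PSolv.isPSolvable_of_isSolvable hs) hO
  have hTS : T ≤ S := Cores.pCore_le_sylow S
  by_cases hall : ∀ g : M, (orderOf g).Coprime 2 → g ∈ centralizer (T : Set M)
  · have hM : IsPGroup 2 M := by
      have : ∀ p : ℕ, p.Prime → p ∣ Nat.card M → p = 2 := by
        intro p hp hd
        by_contra hp2
        have : Fact p.Prime := ⟨hp⟩
        obtain ⟨g, hg⟩ := exists_prime_orderOf_dvd_card' (G := M) p hd
        have hg2 : (orderOf g).Coprime 2 := hg ▸ (Nat.coprime_primes hp Nat.prime_two).mpr hp2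
        obtain ⟨k, hk⟩ := hTp ⟨g, hCT (hall g hg2)⟩
        have : g ^ 2 ^ k = 1 := by simpa using congrArg Subtype.val hk
        have h1 : p ∣ 2 ^ k := hg ▸ orderOf_dvd_of_pow_eq_one this
        exact hp2 ((Nat.prime_dvd_prime_iff_eq hp Nat.prime_two).mp (hp.dvd_of_dvd_pow h1))
      exact IsPGroup.of_card (n := (Nat.card M).primeFactorsList.length)
        (Nat.eq_prime_pow_of_unique_prime_dvd Nat.card_pos.ne' fun {d} hd hdvd => this d hd hdvd)
    have hStop : (S : Subgroup M) = ⊤ := (S.is_maximal' (IsPGroup.to_subgroup hM ⊤) le_top).symm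
    let e' : M ≃* QuaternionGroup (2 ^ (n + 1)) :=
      (Subgroup.topEquiv.symm.trans (MulEquiv.subgroupCongr hStop.symm)).trans e
    set C0 := (zpowers (QuaternionGroup.a (1 : ZMod (2 * 2 ^ (n + 1))))).comap e'.toMonoidHom with hC0
    have hidx : C0.index = 2 := by
      rw [hC0, index_comap_of_surjective _ e'.surjective]
      have h1 := (zpowers (QuaternionGroup.a (1 : ZMod (2 * 2 ^ (n + 1))))).card_mul_index
      rw [Nat.card_zpowers, QuaternionGroup.orderOf_a_one, Nat.card_eq_fintype_card, QuaternionGroup.card] at h1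
      have : 0 < 2 ^ (n + 1) := pow_pos two_pos _
      nlinarith
    have hC0n : C0.Normal := Subgroup.normal_of_index_eq_two hidx
    have hq : Nat.card (M ⧸ C0) = 2 := hidx
    have : IsCyclic (M ⧸ C0) := isCyclic_of_prime_card hq
    have hsw : Nat.card (M ⧸ C0) = Nat.card (zpowers (Equiv.swap (0 : Fin 4) 1)) := by
      rw [hq, Nat.card_zpowers]
      exact (orderOf_eq_prime (by rw [pow_two, Equiv.swap_mul_self]) (by decide)).symm
    let ψ := mulEquivOfCyclicCardEq hsw
    refine ⟨(zpowers (Equiv.swap (0 : Fin 4) 1)).subtype.comp (ψ.toMonoidHom.comp (QuotientGroup.mk' C0)), ?_⟩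
    rw [MonoidHom.ker_comp_of_injective _ _ (Subgroup.subtype_injective _),
      MonoidHom.ker_comp_of_injective _ _ ψ.injective, QuotientGroup.ker_mk', hC0,
      Subgroup.comap_equiv_eq_map_symm']
    exact isCyclic_of_surjective _
      ((zpowers (QuaternionGroup.a (1 : ZMod (2 * 2 ^ (n + 1))))).equivMapOfInjective _ e'.symm.injective).surjective
  push Not at hall
  obtain ⟨g, hg2, hgT⟩ := hall
  have huniq : ∀ x ∈ T, ∀ y ∈ T, orderOf x = 2 → orderOf y = 2 → x = y := by
    obtain ⟨hsub, -⟩ := Nat.card_eq_one_iff_unique.mp (Cfsg.Agent.S0218.result n)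
    intro x hx y hy hox hoy
    have hord : ∀ z (hz : z ∈ T), orderOf z = 2 → orderOf (e ⟨z, hTS hz⟩) = 2 := fun z hz h => by
      rw [MulEquiv.orderOf_eq, ← orderOf_coe, h]
    exact congrArg Subtype.val (e.injective (congrArg Subtype.val
      (hsub.elim ⟨_, hord x hx hox⟩ ⟨_, hord y hy hoy⟩)))
  obtain ⟨eT⟩ := H4.equiv_quaternion_two hTp huniq
    (show g ∈ normalizer (T : Set M) by rw [normalizer_eq_top_iff.mpr hTn]; trivial) hg2 hgT
  have hTcard : Nat.card T = 8 := by
    rw [Nat.card_congr eT.toEquiv, Nat.card_eq_fintype_card, QuaternionGroup.card]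
  set Z := centralizer (T : Set M) with hZ
  have hZn : Z.Normal := Subgroup.normal_centralizer
  have hZcard : Nat.card Z = 2 := by
    have h1 : Z.subgroupOf T = center T := by
      ext z
      rw [mem_subgroupOf, hZ, mem_centralizer_iff, mem_center_iff]
      exact ⟨fun h a => Subtype.ext (h a a.2), fun h a ha => congrArg Subtype.val (h ⟨a, ha⟩)⟩
    rw [← Nat.card_congr (subgroupOfEquivOfLe hCT).toEquiv, h1,
      Nat.card_congr (Subgroup.centerCongr eT).toEquiv, quaternion_center_card]
  have hZcenter : ∀ z ∈ Z, ∀ a : M, a * z * a⁻¹ = z := by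
    intro z hz a
    by_cases hz1 : z = 1
    · simp [hz1]
    obtain ⟨u, v, -, huniv⟩ := Nat.card_eq_two_iff.mp hZcard
    have hmem : ∀ w : Z, w = 1 ∨ w = ⟨z, hz⟩ := by
      intro w
      have h2 : ∀ t : Z, t = u ∨ t = v := fun t => by
        have : t ∈ ({u, v} : Set Z) := huniv ▸ Set.mem_univ t
        simpa using this
      have hne : (⟨z, hz⟩ : Z) ≠ 1 := fun h => hz1 (congrArg Subtype.val h)
      rcases h2 w with h | h <;> rcases h2 1 with h' | h' <;> rcases h2 ⟨z, hz⟩ with h'' | h'' <;> aesop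
    rcases hmem ⟨a * z * a⁻¹, hZn.conj_mem z hz a⟩ with h | h
    · exfalso; apply hz1
      have h' : a * z * a⁻¹ = 1 := congrArg Subtype.val h
      exact conj_eq_one_iff.mp h'
    · exact congrArg Subtype.val h
  -- the order of `M`
  have hbound : Nat.card M ≤ 48 := by
    have h1 : Z = (MulAut.conjNormal : M →* MulAut T).ker := by
      ext a
      rw [hZ, mem_centralizer_iff, MonoidHom.mem_ker, MulEquiv.ext_iff]
      constructor
      · intro h t
        exact Subtype.ext (by simp [MulAut.conjNormal_apply, ← h t t.2])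
      · intro h t ht
        have := congrArg Subtype.val (h ⟨t, ht⟩)
        simp [MulAut.conjNormal_apply] at this
        exact (mul_inv_eq_iff_eq_mul.mp this).symm
    have h2 : Z.index ≤ 24 := by
      rw [h1, Subgroup.index_ker]
      exact (Subgroup.card_le_card_group _).trans
        ((Nat.card_congr (MulAut.congr eT).toEquiv).le.trans TwoFusion.quaternion_aut_bound)
    have := Z.card_mul_index
    rw [hZcard] at this
    omega
  have h8 : 8 ∣ Nat.card M := hTcard ▸ T.card_subgroup_dvd_card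
  have hodd3 : ∀ a : M, Odd (orderOf a) → ¬ 3 ∣ orderOf a → a = 1 := by
    intro a hao ha3
    have hcyc : ∃ c ∈ T, Nat.card T ≤ 2 * orderOf c := by
      refine ⟨(eT.symm (QuaternionGroup.a 1) : T), (eT.symm (QuaternionGroup.a 1)).2, ?_⟩
      rw [hTcard, orderOf_coe, MulEquiv.orderOf_eq, QuaternionGroup.orderOf_a_one]
    have hmem : a ∈ Z := by
      rw [hZ, mem_centralizer_iff]
      intro t ht
      exact (mul_inv_eq_iff_eq_mul.mp
        (S3971.centralize_aux a hao ha3 _ T le_rfl hTp hcyc (fun u hu => hTn.conj_mem u hu a) t ht)).symm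
    have h1 : orderOf a ∣ 2 := by
      have := orderOf_dvd_natCard (⟨a, hmem⟩ : Z)
      rwa [hZcard, orderOf_mk] at this
    rcases (Nat.dvd_prime Nat.prime_two).mp h1 with h | h
    · exact orderOf_eq_one_iff.mp h
    · exact absurd (h ▸ hao) (by decide)
  have hg1 : g ≠ 1 := fun h => hgT (h ▸ one_mem _)
  have h3 : 3 ∣ Nat.card M := by
    by_contra h
    exact hg1 (hodd3 g (Nat.coprime_two_right.mp hg2) fun h' => h (h'.trans (orderOf_dvd_natCard g)))
  have hM : Nat.card M = 24 ∨ Nat.card M = 48 := by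
    have h24 : 24 ∣ Nat.card M := Nat.Coprime.mul_dvd_of_dvd_of_dvd (show Nat.Coprime 8 3 by norm_num) h8 h3
    obtain ⟨c, hc⟩ := h24
    have := Nat.card_pos (α := M)
    omega
  let P : Sylow 3 M := default
  have hPcard : Nat.card (P : Subgroup M) = 3 := by
    rw [P.card_eq_multiplicity]
    rcases hM with h | h <;> rw [h]
    · rw [show (24 : ℕ) = 2 ^ 3 * 3 ^ 1 by norm_num, Nat.factorization_mul (by norm_num) (by norm_num),
        Nat.prime_two.factorization_pow, Nat.prime_three.factorization_pow]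
      simp
    · rw [show (48 : ℕ) = 2 ^ 4 * 3 ^ 1 by norm_num, Nat.factorization_mul (by norm_num) (by norm_num),
        Nat.prime_two.factorization_pow, Nat.prime_three.factorization_pow]
      simp
  have hZN : Z ≤ normalizer (P : Set M) := by
    intro z hz
    refine mem_normalizer_iff.mpr fun w => ?_
    have hc : z * w * z⁻¹ = w := by
      have h := hZcenter z hz w
      calc z * w * z⁻¹ = (w * z * w⁻¹) * w * z⁻¹ := by rw [h]
        _ = w := by group
    rw [hc]
  have hsyl : Nat.card (Sylow 3 M) = 4 := by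
    have hmod := card_sylow_modEq_one 3 M
    have hdvd := P.card_dvd_index
    have hmul := (P : Subgroup M).card_mul_index
    rw [hPcard] at hmul
    have hne1 : Nat.card (Sylow 3 M) ≠ 1 := by
      intro h1
      have := (Nat.card_eq_one_iff_unique.mp h1).1
      have hPn : (P : Subgroup M).Normal := P.normal_of_subsingleton
      have : (P : Subgroup M) ≤ Cfsg.pPrimeCore 2 M := Cores.le_pPrimeCore hPn (by rw [hPcard]; norm_num)
      rw [hO, le_bot_iff] at this
      rw [this, Subgroup.card_bot] at hPcard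
      omega
    have hne16 : Nat.card (Sylow 3 M) ≠ 16 := by
      intro h16
      have hN := (normalizer (P : Set M)).card_mul_index
      rw [← P.card_eq_index_normalizer, h16] at hN
      have hd : Nat.card Z ∣ Nat.card (normalizer (P : Set M)) := card_dvd_of_le hZN
      rw [hZcard] at hd
      omega
    have hidx : (P : Subgroup M).index = 8 ∨ (P : Subgroup M).index = 16 := by omega
    unfold Nat.ModEq at hmod
    have hle : Nat.card (Sylow 3 M) ≤ 16 := (Nat.le_of_dvd (by omega) hdvd).trans (by omega)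
    rcases hidx with h | h <;> rw [h] at hdvd <;>
      interval_cases (Nat.card (Sylow 3 M)) <;> omega
  let eS : Sylow 3 M ≃ Fin 4 := Finite.equivFinOfCardEq hsyl
  let f0 : M →* Equiv.Perm (Sylow 3 M) := MulAction.toPermHom M (Sylow 3 M)
  refine ⟨eS.permCongrHom.toMonoidHom.comp f0, ?_⟩
  rw [MonoidHom.ker_comp_of_injective _ _ eS.permCongrHom.injective]
  set K := f0.ker with hK
  have hKn : K.Normal := MonoidHom.normal_ker _
  have hKfix : ∀ k ∈ K, ∀ Q : Sylow 3 M, k ∈ normalizer (Q : Set M) := by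
    intro k hk Q
    refine Sylow.smul_eq_iff_mem_normalizer.mp ?_
    exact Equiv.Perm.ext_iff.mp (MonoidHom.mem_ker.mp hk) Q
  have hZK : Z ≤ K := by
    intro z hz
    refine MonoidHom.mem_ker.mpr (Equiv.Perm.ext fun Q => ?_)
    refine Sylow.smul_eq_iff_mem_normalizer.mpr ?_
    refine mem_normalizer_iff.mpr fun w => ?_
    have h := hZcenter z hz w
    have hc : z * w * z⁻¹ = w := by
      calc z * w * z⁻¹ = (w * z * w⁻¹) * w * z⁻¹ := by rw [h]
        _ = w := by group
    rw [hc]
  have hK3 : ¬ 3 ∣ Nat.card K := by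
    intro hd
    obtain ⟨k, hk⟩ := exists_prime_orderOf_dvd_card' (G := K) 3 hd
    have hk' : orderOf (k : M) = 3 := by rw [orderOf_coe, hk]
    have hmem : ∀ Q : Sylow 3 M, (Q : Subgroup M) = zpowers (k : M) := by
      intro Q
      have hp : IsPGroup 3 (zpowers (k : M)) := IsPGroup.of_card (n := 1) (by rw [Nat.card_zpowers, hk', pow_one])
      have hle : zpowers (k : M) ≤ normalizer (Q : Set M) := zpowers_le.mpr (hKfix _ k.2 Q)
      have h1 := hp.inf_normalizer_sylow Q
      rw [inf_eq_left.mpr hle] at h1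
      have hle' : zpowers (k : M) ≤ Q := inf_eq_left.mp h1.symm
      refine (Subgroup.eq_of_le_of_card_ge hle' ?_).symm
      rw [Nat.card_zpowers, hk', Q.card_eq_multiplicity, ← P.card_eq_multiplicity, hPcard]
    have : Subsingleton (Sylow 3 M) := ⟨fun A B => Sylow.ext ((hmem A).trans (hmem B).symm)⟩
    have := Finite.card_le_one_iff_subsingleton.mpr this
    omega
  have hKp : IsPGroup 2 K := by
    refine IsPGroup.of_card (n := (Nat.card K).primeFactorsList.length)
      (Nat.eq_prime_pow_of_unique_prime_dvd Nat.card_pos.ne' fun {d} hd hdvd => ?_)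
    have h1 : d ∣ Nat.card M := hdvd.trans K.card_subgroup_dvd_card
    have hd3 : d ≠ 3 := fun h => hK3 (h ▸ hdvd)
    have : d ∣ 2 ^ 4 * 3 := by
      rcases hM with h | h <;> rw [h] at h1
      · exact h1.trans ⟨2, by norm_num⟩
      · exact h1.trans ⟨1, by norm_num⟩
    rcases hd.dvd_mul.mp this with h | h
    · exact (Nat.prime_dvd_prime_iff_eq hd Nat.prime_two).mp (hd.dvd_of_dvd_pow h)
    · exact absurd ((Nat.prime_dvd_prime_iff_eq hd Nat.prime_three).mp h) hd3
  have hKT : K ≤ T := Cores.le_pCore hKn hKp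
  have hPK : (P : Subgroup M) ≤ centralizer (K : Set M) := by
    intro a ha
    rw [mem_centralizer_iff]
    intro k hk
    have h1 : k * a * k⁻¹ * a⁻¹ ∈ (P : Subgroup M) :=
      mul_mem ((mem_normalizer_iff.mp (hKfix k hk P) a).mp ha) (inv_mem ha)
    have h2 : k * a * k⁻¹ * a⁻¹ ∈ K := by
      rw [show k * a * k⁻¹ * a⁻¹ = k * (a * k⁻¹ * a⁻¹) by group]
      exact mul_mem hk (hKn.conj_mem _ (inv_mem hk) a)
    have hcop : Nat.Coprime (Nat.card (P : Subgroup M)) (Nat.card K) := by
      rw [hPcard]; exact (Nat.prime_three.coprime_iff_not_dvd).mpr hK3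
    have h3 : k * a * k⁻¹ * a⁻¹ = 1 := Subgroup.mem_bot.mp
      ((disjoint_iff.mp (Subgroup.disjoint_of_coprime_natCard hcop)).le ⟨h1, h2⟩)
    exact mul_inv_eq_iff_eq_mul.mp (mul_inv_eq_one.mp h3)
  have hPT : ¬ (P : Subgroup M) ≤ centralizer (T : Set M) := by
    intro h
    have := card_dvd_of_le h
    rw [hPcard, hZcard] at this
    norm_num at this
  suffices hKZ : K = Z by rw [hKZ]; exact isCyclic_of_prime_card hZcard
  refine (Subgroup.eq_of_le_of_card_ge hZK ?_).symm
  rw [hZcard]
  have hd8 : Nat.card K ∣ 8 := hTcard ▸ card_dvd_of_le hKT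
  have hne8 : Nat.card K ≠ 8 := by
    intro h
    refine hPT ?_
    rw [← Subgroup.eq_of_le_of_card_ge hKT (by omega)]
    exact hPK
  have hne4 : Nat.card K ≠ 4 := by
    intro h
    apply hPT
    have hidx : (K.subgroupOf T).index = 2 := by
      have h1 := (K.subgroupOf T).card_mul_index
      rw [Nat.card_congr (subgroupOfEquivOfLe hKT).toEquiv, hTcard, h] at h1
      omega
    refine Coprime.le_centralizer_of_stabilizes (N := K) (le_top.trans (normalizer_eq_top_iff.mpr hTn).ge)
      (by rw [hPcard, hTcard]; norm_num) ?_ hPK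
    rw [Subgroup.commutator_le]
    intro t ht a ha
    have hat : a * t⁻¹ * a⁻¹ ∈ T := hTn.conj_mem _ (inv_mem ht) a
    have hiff := Subgroup.mul_mem_iff_of_index_two hidx (a := ⟨t, ht⟩) (b := ⟨a * t⁻¹ * a⁻¹, hat⟩)
    simp only [mem_subgroupOf, Subgroup.coe_mul] at hiff
    rw [commutatorElement_def, show t * a * t⁻¹ * a⁻¹ = t * (a * t⁻¹ * a⁻¹) by group, hiff]
    constructor
    · intro htK; exact hKn.conj_mem _ (inv_mem htK) a
    · intro h
      have := hKn.conj_mem _ h a⁻¹
      simpa [mul_assoc] using inv_mem this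
  have := Nat.le_of_dvd (by norm_num) hd8
  rcases (Nat.dvd_prime_pow Nat.prime_two (m := 3)).mp (by simpa using hd8) with ⟨i, hi, hi'⟩
  interval_cases i <;> omega


/-- Structure of solvable Frobenius complements. Let G be a finite solvable group that occurs as a Frobenius complement. Then G has a normal subgroup G₀ such that G/G₀ is isomorphic to a subgroup of Sym(4) (G₀ is the kernel of a homomorphism to Sym(4)), all Sylow subgroups of G₀ are cyclic, and G₀ has a presentation ⟨x, y | x^n = 1, y^m = 1, x⁻¹ y x = y^r⟩ with n, m ≥ 1, gcd(r − 1, m) = gcd(n, m) = 1 and r^(n/n′) ≡ 1 (mod m), where n′ is the product of the distinct primes dividing n. -/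
theorem result {G : Type*} [Group G] [Finite G] (hsol : Group.IsSolvable G)
    (hFC : ∃ (L : Type) (_ : Group L) (_ : Finite L) (H : Subgroup L), Cfsg.IsFrobeniusComplement H ∧ Nonempty (G ≃* H)) :
    ∃ G₀ : Subgroup G, G₀.Normal ∧
      (∃ f : G →* Equiv.Perm (Fin 4), f.ker = G₀) ∧
      (∀ (p : ℕ) [Fact p.Prime] (P : Sylow p G₀), IsCyclic P) ∧
      ∃ n m r : ℕ, 0 < n ∧ 0 < m ∧ Nat.Coprime (r - 1) m ∧ Nat.Coprime n m ∧ 1 ≤ r ∧
        r ^ (n / ∏ p ∈ n.primeFactors, p) % m = 1 % m ∧
        Nonempty (G₀ ≃* PresentedGroup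
          ({FreeGroup.of (0 : Fin 2) ^ n, FreeGroup.of (1 : Fin 2) ^ m,
            (FreeGroup.of (0 : Fin 2))⁻¹ * FreeGroup.of 1 * FreeGroup.of 0 * (FreeGroup.of (1 : Fin 2) ^ r)⁻¹} :
            Set (FreeGroup (Fin 2)))) := by
  classical
  obtain ⟨L, _, _, H, hH, ⟨e⟩⟩ := hFC
  obtain ⟨K, -, hKn, hc⟩ := Frobenius.exists_kernel hH
  have hK : K ≠ ⊥ := Frobenius.ne_bot_of_isComplement' hH hc
  have hHK : H ≤ normalizer (K : Set L) := by rw [normalizer_eq_top_iff.mpr hKn]; exact le_top
  have hfpf : ∀ h ∈ H, h ≠ 1 → K ⊓ centralizer {h} = ⊥ := fun h hh h1 =>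
    Frobenius.fpf_of_disjoint hH hc.disjoint hh h1
  -- facts transferred to `G`
  have hodd : ∀ p : ℕ, p.Prime → p ≠ 2 → ∀ U : Subgroup G, IsPGroup p U → IsCyclic U := by
    intro p hp hp2 U hU
    have : Fact p.Prime := ⟨hp⟩
    obtain ⟨Q, hQ⟩ := (hU.map e.toMonoidHom).exists_le_sylow
    have := FGS.FC.isCyclic_sylow_of_odd hH hp2 Q
    have := Subgroup.isCyclic_of_le hQ
    exact isCyclic_of_injective (U.equivMapOfInjective e.toMonoidHom e.injective).toMonoidHom (MulEquiv.injective _)
  have hpq : ∀ (A : Subgroup G) (p q : ℕ), p.Prime → q.Prime → Nat.card A = p * q → IsCyclic A := by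
    intro A p q hp hq hA
    let f : G →* L := H.subtype.comp e.toMonoidHom
    have hf : Function.Injective f := H.subtype_injective.comp e.injective
    have := FrobeniusCompl.isCyclic_of_le hHK hK hfpf (A.map f) (by rintro _ ⟨a, -, rfl⟩; exact (e a).2)
      (Or.inr ⟨p, q, hp, hq, by rw [card_map_of_injective hf, hA]⟩)
    exact isCyclic_of_injective (A.equivMapOfInjective f hf).toMonoidHom (MulEquiv.injective _)
  -- it suffices to find a normal subgroup with cyclic Sylow 2-subgroups
  suffices hmain : ∃ f : G →* Equiv.Perm (Fin 4), ∀ U : Subgroup G, U ≤ f.ker → IsPGroup 2 U → IsCyclic U by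
    obtain ⟨f, hf⟩ := hmain
    have hcyc : ∀ (p : ℕ) [Fact p.Prime] (P : Sylow p f.ker), IsCyclic P := by
      intro p hp P
      have : IsCyclic ((P : Subgroup f.ker).map f.ker.subtype) := by
        by_cases hp2 : p = 2
        · subst hp2; exact hf _ (map_subtype_le _) (P.2.map _)
        · exact hodd p hp.out hp2 _ (P.2.map _)
      exact isCyclic_of_injective ((P : Subgroup f.ker).equivMapOfInjective _ f.ker.subtype_injective).toMonoidHom
        (MulEquiv.injective _)
    have : IsZGroup f.ker := ⟨fun p hp P => have := Fact.mk hp; hcyc p P⟩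
    refine ⟨f.ker, f.normal_ker, ⟨f, rfl⟩, hcyc, ZGroupPres.exists_presentation fun A p q hp hq hA => ?_⟩
    have := hpq (A.map f.ker.subtype) p q hp hq (by rw [card_map_of_injective f.ker.subtype_injective, hA])
    exact isCyclic_of_injective (A.equivMapOfInjective _ f.ker.subtype_injective).toMonoidHom (MulEquiv.injective _)
  have : Fact (Nat.Prime 2) := ⟨Nat.prime_two⟩
  let S : Sylow 2 G := default
  by_cases hS : IsCyclic S
  · refine ⟨1, fun U _ hU => ?_⟩
    obtain ⟨Q, hQ⟩ := hU.exists_le_sylow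
    have : IsCyclic Q := isCyclic_of_surjective _ (Sylow.equiv S Q).surjective
    exact Subgroup.isCyclic_of_le hQ
  obtain ⟨k, ⟨eS⟩⟩ : ∃ k : ℕ, Nonempty ((S : Subgroup G) ≃* QuaternionGroup (2 ^ (k + 1))) := by
    obtain ⟨Q, hQ⟩ := (S.2.map e.toMonoidHom).exists_le_sylow
    have hQS : (S : Subgroup G).map e.toMonoidHom = Q := by
      refine Subgroup.eq_of_le_of_card_ge hQ (le_of_eq ?_)
      rw [card_map_of_injective e.injective, Q.card_eq_multiplicity, S.card_eq_multiplicity,
        Nat.card_congr e.toEquiv]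
    let eSQ : (S : Subgroup G) ≃* (Q : Subgroup H) :=
      ((S : Subgroup G).equivMapOfInjective _ e.injective).trans (MulEquiv.subgroupCongr hQS)
    rcases FrobeniusCompl.sylow_cyclic_or_quaternion hHK hK hfpf Q with h | ⟨-, n, ⟨eQ⟩⟩
    · exact absurd (isCyclic_of_surjective _ eSQ.symm.surjective) hS
    · rcases n with _ | k
      · exfalso
        apply hS
        have : IsCyclic (QuaternionGroup (2 ^ 0)) := isCyclic_of_orderOf_eq_card (QuaternionGroup.xa 0) (by
          rw [QuaternionGroup.orderOf_xa, Nat.card_eq_fintype_card, QuaternionGroup.card]; rfl)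
        exact isCyclic_of_surjective _ (eSQ.trans eQ).symm.surjective
      · exact ⟨k, ⟨eSQ.trans eQ⟩⟩
  set W := Cfsg.pPrimeCore 2 G with hW
  have hWn : W.Normal := inferInstance
  let π := QuotientGroup.mk' W
  have hinj : ∀ U : Subgroup G, IsPGroup 2 U → U ⊓ π.ker = ⊥ := by
    intro U hU
    rw [QuotientGroup.ker_mk', ← disjoint_iff]
    refine Subgroup.disjoint_of_coprime_natCard ?_
    obtain ⟨j, hj⟩ := IsPGroup.iff_card.mp hU
    rw [hj]
    exact Nat.Coprime.pow_left _ (Cores.pPrimeCore_coprime (p := 2) (G := G)).symm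
  obtain ⟨f, hf⟩ := exists_hom_perm_four (M := G ⧸ W) (by have := hsol; infer_instance)
    Cores.pPrimeCore_quotient_pPrimeCore_eq_bot (S.mapSurjective (QuotientGroup.mk'_surjective W))
    ((MulEquiv.ofBijective (π.subgroupMap (S : Subgroup G))
      ⟨subgroupMap_injective_of_inf_ker π (hinj _ S.2), π.subgroupMap_surjective _⟩).symm.trans eS)
  refine ⟨f.comp π, fun U hU hU2 => ?_⟩
  have hle : U.map π ≤ f.ker := by
    rintro _ ⟨u, hu, rfl⟩
    exact MonoidHom.mem_ker.mpr (MonoidHom.mem_ker.mp (hU hu))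
  have := Subgroup.isCyclic_of_le hle
  exact isCyclic_of_injective (π.subgroupMap U) (subgroupMap_injective_of_inf_ker π (hinj _ hU2))

end Cfsg.Agent.S3358
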