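import Cfsg.Statements.S3362
import Cfsg.Agent.Recog.MathieuTwelve

set_option autoImplicit false
open Cfsg

namespace Cfsg.Agent.S3362

/-- An explicit construction of the Mathieu groups of degrees 11 and 12. On the points 0, …, 11 let s = (3 4 5)(6 7 8)(9 10 11), t = (3 6 9)(4 7 10)(5 8 11), u = (4 6 5 9)(7 8 11 10), v = (4 7 5 11)(6 10 9 8), w = (4 10 5 8)(6 11 9 7), x₁ = (0 3)(6 7)(8 10)(9 11), x₂ = (0 1)(6 9)(7 10)(8 11), x₃ = (1 2)(6 11)(7 9)(8 10) (each written as a product of transpositions). Then the group M₁₂ generated by all eight permutations is sharply 5-transitive on the 12 points and has order 95040, and the group M₁₁ generated by the first seven has order 7920 and is the stabilizer of the point 2 in M₁₂. -/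
theorem result
    (s t u v w x₁ x₂ x₃ : Equiv.Perm (Fin 12))
    (hs : s = Equiv.swap (3 : Fin 12) 5 * Equiv.swap (3 : Fin 12) 4 * Equiv.swap (6 : Fin 12) 8 * Equiv.swap (6 : Fin 12) 7 * Equiv.swap (9 : Fin 12) 11 * Equiv.swap (9 : Fin 12) 10) (ht : t = Equiv.swap (3 : Fin 12) 9 * Equiv.swap (3 : Fin 12) 6 * Equiv.swap (4 : Fin 12) 10 * Equiv.swap (4 : Fin 12) 7 * Equiv.swap (5 : Fin 12) 11 * Equiv.swap (5 : Fin 12) 8)
    (hu : u = Equiv.swap (4 : Fin 12) 9 * Equiv.swap (4 : Fin 12) 5 * Equiv.swap (4 : Fin 12) 6 * Equiv.swap (7 : Fin 12) 10 * Equiv.swap (7 : Fin 12) 11 * Equiv.swap (7 : Fin 12) 8) (hv : v = Equiv.swap (4 : Fin 12) 11 * Equiv.swap (4 : Fin 12) 5 * Equiv.swap (4 : Fin 12) 7 * Equiv.swap (6 : Fin 12) 8 * Equiv.swap (6 : Fin 12) 9 * Equiv.swap (6 : Fin 12) 10) (hw : w = Equiv.swap (4 : Fin 12) 8 * Equiv.swap (4 : Fin 12) 5 * Equiv.swap (4 : Fin 12) 10 * Equiv.swap (6 : Fin 12) 7 * Equiv.swap (6 : Fin 12) 9 *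 Equiv.swap (6 : Fin 12) 11)
    (hx₁ : x₁ = Equiv.swap (0 : Fin 12) 3 * Equiv.swap (6 : Fin 12) 7 * Equiv.swap (8 : Fin 12) 10 * Equiv.swap (9 : Fin 12) 11) (hx₂ : x₂ = Equiv.swap (0 : Fin 12) 1 * Equiv.swap (6 : Fin 12) 9 * Equiv.swap (7 : Fin 12) 10 * Equiv.swap (8 : Fin 12) 11)
    (hx₃ : x₃ = Equiv.swap (1 : Fin 12) 2 * Equiv.swap (6 : Fin 12) 11 * Equiv.swap (7 : Fin 12) 9 * Equiv.swap (8 : Fin 12) 10)
    (M₁₂ M₁₁ : Subgroup (Equiv.Perm (Fin 12))) (hM₁₂ : M₁₂ = Subgroup.closure {s, t, u, v, w, x₁, x₂, x₃})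
    (hM₁₁ : M₁₁ = Subgroup.closure {s, t, u, v, w, x₁, x₂}) :
    MulAction.IsMultiplyPretransitive M₁₂ (Fin 12) 5 ∧ (∀ y : Fin 5 ↪ Fin 12, MulAction.stabilizer M₁₂ y = ⊥) ∧
    Nat.card M₁₂ = 95040 ∧ Nat.card M₁₁ = 7920 ∧
    M₁₁ = M₁₂ ⊓ MulAction.stabilizer (Equiv.Perm (Fin 12)) (2 : Fin 12) := by
  have hs' : s = Recog.MathieuTwelve.gs := by subst hs; exact Equiv.ext (by decide +kernel)
  have ht' : t = Recog.MathieuTwelve.gt := by subst ht; exact Equiv.ext (by decide +kernel)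
  have hu' : u = Recog.MathieuTwelve.gu := by subst hu; exact Equiv.ext (by decide +kernel)
  have hv' : v = Recog.MathieuTwelve.gv := by subst hv; exact Equiv.ext (by decide +kernel)
  have hw' : w = Recog.MathieuTwelve.gw := by subst hw; exact Equiv.ext (by decide +kernel)
  have h1 : x₁ = Recog.MathieuTwelve.gx1 := by subst hx₁; exact Equiv.ext (by decide +kernel)
  have h2 : x₂ = Recog.MathieuTwelve.gx2 := by subst hx₂; exact Equiv.ext (by decide +kernel)
  have h3 : x₃ = Recog.MathieuTwelve.gx3 := by subst hx₃; exact Equiv.ext (by decide +kernel)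
  have e4 : M₁₂ = Recog.MathieuTwelve.grp Recog.MathieuTwelve.S4 := by
    rw [hM₁₂, hs', ht', hu', hv', hw', h1, h2, h3, Recog.MathieuTwelve.grp,
      Recog.MathieuTwelve.S4]
    refine congrArg Subgroup.closure (Set.ext fun z => ?_)
    simp only [Set.mem_range, Fin.exists_fin_succ, Fin.exists_fin_zero, Matrix.cons_val_zero,
      Matrix.cons_val_succ, Set.mem_insert_iff, Set.mem_singleton_iff, eq_comm (b := z), or_false]
  have e3 : M₁₁ = Recog.MathieuTwelve.grp Recog.MathieuTwelve.S3 := by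
    rw [hM₁₁, hs', ht', hu', hv', hw', h1, h2, Recog.MathieuTwelve.grp, Recog.MathieuTwelve.S3]
    refine congrArg Subgroup.closure (Set.ext fun z => ?_)
    simp only [Set.mem_range, Fin.exists_fin_succ, Fin.exists_fin_zero, Matrix.cons_val_zero,
      Matrix.cons_val_succ, Set.mem_insert_iff, Set.mem_singleton_iff, eq_comm (b := z), or_false]
  subst e4 e3
  exact ⟨Recog.MathieuTwelve.five_transitive.1, Recog.MathieuTwelve.five_transitive.2,
    Recog.MathieuTwelve.step4.1, Recog.MathieuTwelve.step3.1, Recog.MathieuTwelve.stab_two⟩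

end Cfsg.Agent.S3362
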