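import Cfsg.Statements.S3371
import Cfsg.Agent.Recog.HalfTransitiveDihedral

set_option autoImplicit false
open Cfsg

namespace Cfsg.Agent.S3371

/-- Let q be a prime, V a non-trivial finite vector space over the field with q elements, and G a finite p-group (p prime) acting faithfully and linearly on V such that all G-orbits on the non-zero vectors have the same size. Then one of the following holds: G is cyclic or generalized quaternion and acts semiregularly on the non-zero vectors; or V has q² elements with q = 2^m − 1 and G is dihedral of order 2^(m+1) or semidihedral of order 2^(m+2); or V has q² elements with q = 2^m + 1 and, in suitable coordinates V = F_q², G is exactly the group of maps (x, y) ↦ (a x, ± a⁻¹ y) and (x, y) ↦ (± a⁻¹ y, a x) with a ≠ 0; or V has 81 elements (q = 3) and G is a 2-group. -/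
theorem result (q : ℕ) [Fact q.Prime] {V : Type*} [AddCommGroup V] [Module (ZMod q) V] [Finite V] [Nontrivial V]
    {G : Type*} [Group G] [Finite G] (p : ℕ) [Fact p.Prime] (hG : IsPGroup p G)
    (ρ : G →* (V ≃ₗ[ZMod q] V)) (hρ : Function.Injective ρ)
    (hhalf : ∀ v w : V, v ≠ 0 → w ≠ 0 → Nat.card {u : V | ∃ g : G, ρ g v = u} = Nat.card {u : V | ∃ g : G, ρ g w = u}) :
    ((IsCyclic G ∨ ∃ n : ℕ, Nonempty (G ≃* QuaternionGroup n)) ∧ ∀ v : V, v ≠ 0 → ∀ g : G, ρ g v = v → g = 1) ∨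
    (Nat.card V = q ^ 2 ∧ ∃ m : ℕ, q = 2 ^ m - 1 ∧
      (Nonempty (G ≃* DihedralGroup (2 ^ m)) ∨ (Cfsg.IsQuasiDihedral G ∧ Nat.card G = 2 ^ (m + 2)))) ∨
    (Nat.card V = q ^ 2 ∧ (∃ m : ℕ, q = 2 ^ m + 1) ∧
      ∃ e : V ≃ₗ[ZMod q] (Fin 2 → ZMod q), ∀ f : (Fin 2 → ZMod q) ≃ₗ[ZMod q] (Fin 2 → ZMod q),
        (∃ g : G, f = e.symm.trans ((ρ g).trans e)) ↔
        ∃ a s : ZMod q, a ≠ 0 ∧ (s = 1 ∨ s = -1) ∧
          ((∀ v, f v = ![a * v 0, s * a⁻¹ * v 1]) ∨ (∀ v, f v = ![s * a⁻¹ * v 1, a * v 0]))) ∨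
    (Nat.card V = 81 ∧ q = 3 ∧ p = 2) := by
  classical
  have hpp : p.Prime := Fact.out
  by_cases hfree : ∀ v : V, v ≠ 0 → ∀ g : G, ρ g v = v → g = 1
  · left
    refine ⟨?_, hfree⟩
    by_cases hpq : ((p : ℕ) : ZMod q) = 0
    · left
      rw [ZMod.natCast_eq_zero_iff, Nat.prime_dvd_prime_iff_eq Fact.out hpp] at hpq
      have hd : p ∣ Nat.card V := by
        rw [Module.natCard_eq_pow_finrank (K := ZMod q) (V := V), Nat.card_zmod]
        exact hpq.symm.dvd.trans (dvd_pow_self q (Module.finrank_pos (R := ZMod q) (M := V)).ne')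
      let act : MulAction G V := MulAction.compHom V ρ
      obtain ⟨v, hv, hne⟩ := hG.exists_fixed_point_of_prime_dvd_card_of_fixed_point V hd
        (a := 0) (MulAction.mem_fixedPoints.mpr fun g => map_zero (ρ g))
      have : Subsingleton G := ⟨fun a b =>
        (hfree v (Ne.symm hne) a (MulAction.mem_fixedPoints.mp hv a)).trans
          (hfree v (Ne.symm hne) b (MulAction.mem_fixedPoints.mp hv b)).symm⟩
      infer_instance
    · exact Recog.HalfP.cyclic_or_quaternion_of_free hG hpq hρ hfree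
  push Not at hfree
  obtain ⟨v₀, hv₀, g₀, hg₀, hg₀1⟩ := hfree
  have hex : ∃ v : V, v ≠ 0 ∧ Recog.HalfP.stab ρ v ≠ ⊥ :=
    ⟨v₀, hv₀, fun h => hg₀1 (Subgroup.mem_bot.mp (h ▸ (hg₀ : g₀ ∈ Recog.HalfP.stab ρ v₀)))⟩
  have hirr := Recog.HalfP.irreducible hρ hhalf hex
  obtain ⟨hab, hnc, hnq⟩ := Recog.HalfP.not_cyclic_quaternion hρ hhalf hex hG
  -- the characteristic differs from `p`
  have hpq : ((p : ℕ) : ZMod q) ≠ 0 := by
    intro hpq
    rw [ZMod.natCast_eq_zero_iff, Nat.prime_dvd_prime_iff_eq Fact.out hpp] at hpq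
    have hd : p ∣ Nat.card V := by
      rw [Module.natCard_eq_pow_finrank (K := ZMod q) (V := V), Nat.card_zmod]
      exact hpq.symm.dvd.trans (dvd_pow_self q (Module.finrank_pos (R := ZMod q) (M := V)).ne')
    let act : MulAction G V := MulAction.compHom V ρ
    obtain ⟨v, hv, hne⟩ := hG.exists_fixed_point_of_prime_dvd_card_of_fixed_point V hd
      (a := 0) (MulAction.mem_fixedPoints.mpr fun g => map_zero (ρ g))
    refine Recog.HalfP.false_of_all_eq hρ hhalf hex (K := Recog.HalfP.stab ρ v) fun w hw => ?_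
    refine (Recog.HalfP.stab_eq_of_le hhalf hw (Ne.symm hne) fun g _ => ?_)
    exact Recog.HalfP.mem_stab.mpr (MulAction.mem_fixedPoints.mp hv g)
  have heven : 2 ∣ Nat.card G → p = 2 := fun h => by
    obtain ⟨j, hj⟩ := IsPGroup.iff_card.mp hG
    rw [hj] at h
    exact ((Nat.prime_dvd_prime_iff_eq Nat.prime_two hpp).mp (Nat.prime_two.dvd_of_dvd_pow h)).symm
  by_cases hd : ∃ n : ℕ, Nonempty (G ≃* DihedralGroup n)
  · obtain ⟨n, ⟨e⟩⟩ := hd
    have hp2 : p = 2 := heven (by rw [Nat.card_congr e.toEquiv, DihedralGroup.nat_card]; exact dvd_mul_right 2 n)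
    subst hp2
    obtain ⟨h1, m, h2, h3⟩ := Recog.HalfP.dihedral_case hρ hhalf hex hpq e hG hab
    exact Or.inr (Or.inl ⟨h1, m, h2, Or.inl h3⟩)
  push Not at hd
  by_cases hsd : Cfsg.IsQuasiDihedral G
  · have hp2 : p = 2 := by
      obtain ⟨n, -, hc, -⟩ := id hsd
      exact heven (by rw [hc]; exact dvd_pow_self 2 (by omega))
    subst hp2
    obtain ⟨h1, m, h2, h3, h4⟩ := Recog.HalfP.quasidihedral_case hρ hhalf hex hpq hsd
    exact Or.inr (Or.inl ⟨h1, m, h2, Or.inr ⟨h3, h4⟩⟩)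
  obtain ⟨H, W, hidx, htop, hind, hinv, hker, hperm⟩ :=
    Recog.PGroupImprim.exists_blocks p hG ρ hρ hirr hnc hnq (fun n ⟨e⟩ => (hd n).false e) hsd
  have hp2 : p = 2 := Recog.HalfP.eq_two hρ hhalf hex hidx htop hind hinv hker hperm
  subst hp2
  rcases Recog.HalfP.two_blocks hρ hhalf hex hG hpq hidx htop hind hinv hker hperm with h | ⟨h1, h2⟩
  · exact Or.inr (Or.inr (Or.inl h))
  · exact Or.inr (Or.inr (Or.inr ⟨h1, h2, rfl⟩))

end Cfsg.Agent.S3371
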