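import Cfsg.Statements.S3374
import Cfsg.Agent.Recog.Icosahedral
-- import your own Cfsg.Agent.* helpers here

set_option autoImplicit false
open scoped Pointwise
open Cfsg

namespace Cfsg.Agent.S3374

open Cfsg.Agent.Recog.Icosahedral

/-- `x` in `SL(2,11)`. -/
def xEl : Matrix.SpecialLinearGroup (Fin 2) (ZMod 11) := ⟨!![7, 1; 9, 3], by decide⟩

/-- `y` in `SL(2,11)`. -/
def yEl : Matrix.SpecialLinearGroup (Fin 2) (ZMod 11) := ⟨!![3, 0; 0, 4], by decide⟩

theorem el_rel : xEl ^ 3 = 1 ∧ yEl ^ 5 = 1 ∧ ((xEl * yEl) ^ 2) ^ 2 = 1 ∧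
    xEl * (xEl * yEl) ^ 2 = (xEl * yEl) ^ 2 * xEl ∧
      yEl * (xEl * yEl) ^ 2 = (xEl * yEl) ^ 2 * yEl := by decide

theorem el_nodup : ((normalForms xEl yEl ((xEl * yEl) ^ 2) 2).map
    fun g : Matrix.SpecialLinearGroup (Fin 2) (ZMod 11) =>
      (g.1 0 0, g.1 0 1, g.1 1 0, g.1 1 1)).Nodup := by
  decide +kernel

theorem el_subgroup : ∃ H : Subgroup (Matrix.SpecialLinearGroup (Fin 2) (ZMod 11)),
    Nat.card H = 120 ∧ Nonempty (H ≃* Matrix.SpecialLinearGroup (Fin 2) (ZMod 5)) := by
  classical
  obtain ⟨h1, h2, h3, h4, h5⟩ := el_rel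
  set H := Subgroup.closure {xEl, yEl} with hH
  let a : H := ⟨xEl, Subgroup.subset_closure (Set.mem_insert _ _)⟩
  let b : H := ⟨yEl, Subgroup.subset_closure (Set.mem_insert_of_mem _ rfl)⟩
  have hgen : Subgroup.closure {a, b} = ⊤ := by
    refine Subgroup.map_injective H.subtype_injective ?_
    rw [MonoidHom.map_closure, Set.image_pair, ← MonoidHom.range_eq_map, Subgroup.range_subtype]
    exact hH.symm
  have hsub : ∀ t ∈ normalForms xEl yEl ((xEl * yEl) ^ 2) 2, t ∈ H := by
    have hr : ∀ t ∈ reps xEl yEl, t ∈ H := by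
      intro t ht
      simp only [reps, List.mem_cons, List.not_mem_nil, or_false] at ht
      have ha : xEl ∈ H := a.2
      have hb : yEl ∈ H := b.2
      rcases ht with rfl | rfl | rfl | rfl | rfl | rfl | rfl | rfl | rfl | rfl | rfl | rfl <;>
        repeat' first | apply H.mul_mem | assumption | exact H.one_mem
    intro t ht
    simp only [normalForms, List.mem_flatMap, List.mem_map] at ht
    obtain ⟨r, hr', j, -, i, -, rfl⟩ := ht
    exact H.mul_mem (H.mul_mem (hr r hr') (H.pow_mem b.2 j))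
      (H.pow_mem (word_mem_closure xEl yEl) i)
  have hge : 120 ≤ Nat.card H := by
    have hlen : (normalForms xEl yEl ((xEl * yEl) ^ 2) 2).length = 120 := by decide +kernel
    rw [← hlen, ← List.toFinset_card_of_nodup (List.Nodup.of_map _ el_nodup),
      ← Nat.card_eq_finsetCard]
    exact Nat.card_le_card_of_injective
      (fun t => (⟨t.1, hsub t.1 (List.mem_toFinset.mp t.2)⟩ : H))
      fun _ _ h => Subtype.ext (congrArg (fun u : H => u.1) h)
  obtain ⟨e1⟩ := presented_sl_equiv hgen (Subtype.ext h1) (Subtype.ext h2) (Subtype.ext h3)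
    (Subtype.ext h4) (Subtype.ext h5) hge
  obtain ⟨e2⟩ := presented_sl_iso
  exact ⟨H, (Nat.card_congr (e1.symm.trans e2).toEquiv).trans nat_card_SL, ⟨e1.symm.trans e2⟩⟩

theorem eq_one_of_mulVec_eq {H : Subgroup (Matrix.SpecialLinearGroup (Fin 2) (ZMod 11))}
    (hH : Nat.card H = 120) (g : H) {v : Fin 2 → ZMod 11}
    (hg : (g.1.1).mulVec v = v) (hv : v ≠ 0) : g = 1 := by
  have : Fact (Nat.Prime 11) := ⟨by norm_num⟩
  set M : Matrix (Fin 2) (Fin 2) (ZMod 11) := g.1.1 with hM
  have hdet : M.det = 1 := g.1.2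
  have hsing : (M - 1).det = 0 := by
    rw [← Matrix.exists_mulVec_eq_zero_iff]
    exact ⟨v, hv, by rw [Matrix.sub_mulVec, Matrix.one_mulVec, hg, sub_self]⟩
  have htr : M 0 0 + M 1 1 = 2 := by
    rw [Matrix.det_fin_two] at hdet hsing
    simp only [Matrix.sub_apply, Matrix.one_apply_eq, ne_eq, Fin.zero_ne_one, not_false_eq_true,
      Matrix.one_apply_ne, one_ne_zero, sub_zero] at hsing
    linear_combination hdet - hsing
  have hsq : (M - 1) ^ 2 = 0 := by
    rw [Matrix.det_fin_two] at hdet
    rw [pow_two]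
    ext i j
    fin_cases i <;> fin_cases j <;>
      simp [Matrix.mul_apply, Fin.sum_univ_two]
    · linear_combination M 0 0 * htr - hdet
    · linear_combination M 0 1 * htr
    · linear_combination M 1 0 * htr
    · linear_combination M 1 1 * htr - hdet
  have h11 : M ^ 11 = 1 := by
    have h := add_pow_char_of_commute (R := Matrix (Fin 2) (Fin 2) (ZMod 11)) (p := 11)
      ((Commute.one_right (M - 1)))
    have h9 : (M - 1) ^ 11 = 0 := pow_eq_zero_of_le (by norm_num) hsq
    rw [sub_add_cancel, one_pow, h9, zero_add] at h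
    exact h
  have h1 : orderOf g ∣ 11 := by
    refine orderOf_dvd_of_pow_eq_one (Subtype.ext (Subtype.ext ?_))
    simpa [hM] using h11
  have h2 : orderOf g ∣ 120 := hH ▸ orderOf_dvd_natCard g
  exact orderOf_eq_one_iff.mp (Nat.eq_one_of_dvd_coprimes (by norm_num) h1 h2)

/-- The natural action on the plane. -/
def planeAut (H : Subgroup (Matrix.SpecialLinearGroup (Fin 2) (ZMod 11))) :
    H →* MulAut (Multiplicative (Fin 2 → ZMod 11)) where
  toFun g := AddEquiv.toMultiplicative (Matrix.SpecialLinearGroup.toLin' g.1).toAddEquiv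
  map_one' := by ext v i; simp
  map_mul' g h := by
    refine MulEquiv.ext fun v => ?_
    show Multiplicative.ofAdd (Matrix.SpecialLinearGroup.toLin' (g.1 * h.1) v.toAdd) = _
    rw [map_mul]
    rfl

theorem complement_of_fpf {V H : Type*} [Group V] [Group H] [Nontrivial V] [Nontrivial H]
    (φ : H →* MulAut V) (hfpf : ∀ h : H, ∀ v : V, φ h v = v → v ≠ 1 → h = 1) :
    Cfsg.IsFrobeniusComplement (SemidirectProduct.inr : H →* SemidirectProduct V H φ).range := by
  refine ⟨?_, ?_, fun g hg => ?_⟩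
  · rw [Ne, MonoidHom.range_eq_bot_iff]
    intro h
    obtain ⟨x, hx⟩ := exists_ne (1 : H)
    exact hx (SemidirectProduct.inr_injective (φ := φ) ((DFunLike.congr_fun h x).trans (map_one _).symm))
  · intro h
    obtain ⟨v, hv⟩ := exists_ne (1 : V)
    obtain ⟨x, hx⟩ := (h ▸ Subgroup.mem_top (SemidirectProduct.inl v) :
      (SemidirectProduct.inl v : SemidirectProduct V H φ) ∈ SemidirectProduct.inr.range)
    have := congrArg SemidirectProduct.left hx
    simp at this
    exact hv this.symm
  · rw [Subgroup.eq_bot_iff_forall]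
    rintro _ ⟨⟨x, rfl⟩, hx⟩
    have hx' := Subgroup.mem_pointwise_smul_iff_inv_smul_mem.mp
      (show SemidirectProduct.inr x ∈ MulAut.conj g • (SemidirectProduct.inr : H →* SemidirectProduct V H φ).range from hx)
    obtain ⟨y, hy⟩ := hx'
    have hy' : SemidirectProduct.inr x * g = g * SemidirectProduct.inr y := by
      rw [hy]
      simp [mul_assoc]
    have hl : φ x g.left = g.left := by simpa using congrArg SemidirectProduct.left hy'
    by_cases hv : g.left = 1
    · refine absurd ⟨g.right, ?_⟩ hg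
      ext <;> simp [hv]
    · rw [hfpf x g.left hl hv, map_one]

/-- SL(2,5) occurs as a Frobenius complement: there is a finite group L with a subgroup H isomorphic to SL(2,5) which is a non-trivial proper subgroup meeting each conjugate gHg⁻¹ with g outside H trivially. -/
theorem result :
    ∃ (L : Type) (_ : Group L) (_ : Finite L) (H : Subgroup L),
      Cfsg.IsFrobeniusComplement H ∧ Nonempty (H ≃* Matrix.SpecialLinearGroup (Fin 2) (ZMod 5)) := by
  obtain ⟨H, hH, ⟨e⟩⟩ := el_subgroup
  have : Nontrivial (Multiplicative (Fin 2 → ZMod 11)) :=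
    ⟨⟨Multiplicative.ofAdd (fun _ => 1), 1, by decide⟩⟩
  have : Nontrivial H := Finite.one_lt_card_iff_nontrivial.mp (by omega)
  have hfin : Finite (SemidirectProduct (Multiplicative (Fin 2 → ZMod 11)) H (planeAut H)) :=
    Finite.of_equiv _ SemidirectProduct.equivProd.symm
  refine ⟨_, inferInstance, hfin, _, complement_of_fpf (planeAut H) ?_, ⟨?_⟩⟩
  · intro g v hgv hv
    refine eq_one_of_mulVec_eq hH g (v := v.toAdd) ?_ hv
    exact congrArg Multiplicative.toAdd hgv
  · exact (MonoidHom.ofInjective SemidirectProduct.inr_injective).symm.trans e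

end Cfsg.Agent.S3374
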