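import Cfsg.Statements.S3375
-- import your own Cfsg.Agent.* helpers here

set_option autoImplicit false
open Cfsg

namespace Cfsg.Agent.S3375

/-- Let γ be an automorphism of order 2 of a finite group H. (i) If γ fixes only the identity, then H is abelian and γ inverts every element. (ii) If γ has exactly two fixed points and H has a subgroup of index 2, then H has a γ-invariant abelian subgroup of index 2 on which γ acts by inversion. -/
theorem result {H : Type*} [Group H] [Finite H] (γ : MulAut H) (hγ : orderOf γ = 2) :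
    ((∀ h : H, γ h = h → h = 1) → (∀ a b : H, a * b = b * a) ∧ ∀ h : H, γ h = h⁻¹) ∧
    ((Nat.card {h : H // γ h = h} = 2 ∧ ∃ M : Subgroup H, M.index = 2) →
      ∃ A : Subgroup H, A.index = 2 ∧ IsMulCommutative A ∧ (∀ a ∈ A, γ a ∈ A) ∧ ∀ a ∈ A, γ a = a⁻¹) := by
  have hinv : ∀ h : H, γ (γ h) = h := fun h => by
    have : (γ ^ 2) h = h := by rw [← hγ, pow_orderOf_eq_one]; rfl
    rwa [pow_two, MulAut.mul_apply] at this
  refine ⟨fun hfpf => ?_, fun ⟨hcard, M, hM⟩ => ?_⟩
  · have h1 : MonoidHom.FixedPointFree γ.toMonoidHom := hfpf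
    exact ⟨fun a b => h1.commute_all_of_involutive hinv a b,
      fun h => congrFun (h1.coe_eq_inv_of_involutive hinv) h⟩
  · classical
    -- an invariant subgroup of index two
    obtain ⟨N, hN, hNγ⟩ : ∃ N : Subgroup H, N.index = 2 ∧ ∀ a ∈ N, γ a ∈ N := by
      by_cases hMγ : ∀ a ∈ M, γ a ∈ M
      · exact ⟨M, hM, hMγ⟩
      have hmul : ∀ a b : H, a * b ∈ M ↔ (a ∈ M ↔ b ∈ M) := fun a b =>
        Subgroup.mul_mem_iff_of_index_two hM
      let N : Subgroup H :=
        { carrier := {h | h ∈ M ↔ γ h ∈ M}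
          one_mem' := by simp
          mul_mem' := by
            intro a b ha hb
            simp only [Set.mem_ofPred_eq, map_mul, hmul] at *
            rw [ha, hb]
          inv_mem' := by
            intro a ha
            simpa [Set.mem_ofPred_eq] using ha }
      have hmemN : ∀ h, h ∈ N ↔ (h ∈ M ↔ γ h ∈ M) := fun h => Iff.rfl
      obtain ⟨a, haM, haγ⟩ : ∃ a ∈ M, γ a ∉ M := by
        push Not at hMγ
        exact hMγ
      refine ⟨N, ?_, fun h hh => ?_⟩
      · rw [Subgroup.index_eq_two_iff]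
        refine ⟨a, fun b => ?_⟩
        simp only [hmemN, map_mul, hmul]
        by_cases hb : b ∈ M <;> by_cases hb' : γ b ∈ M <;> simp [haM, haγ, hb, hb']
      · rw [hmemN] at hh ⊢
        rw [hinv]
        exact hh.symm
    have : Fintype H := Fintype.ofFinite H
    have hN2 := hN
    rw [Subgroup.index_eq_two_iff] at hN2
    obtain ⟨a, ha⟩ := hN2
    have hcross : ∀ h, h ∉ N → γ h ∉ N := fun h hh hh' => hh (by simpa [hinv] using hNγ _ hh')
    have himgN : ∀ h, h⁻¹ * γ h ∈ N := by
      intro h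
      by_cases hh : h ∈ N
      · exact N.mul_mem (N.inv_mem hh) (hNγ h hh)
      · rw [Subgroup.mul_mem_iff_of_index_two hN, inv_mem_iff]
        exact iff_of_false hh (hcross h hh)
    have hmulc : ∀ h : H, γ (h⁻¹ * γ h) = (h⁻¹ * γ h)⁻¹ := fun h => by simp [hinv]
    -- every fibre of `h ↦ h⁻¹ γ(h)` has at most two elements, so the map is onto `N`
    let f : H → N := fun h => ⟨h⁻¹ * γ h, himgN h⟩
    have hfib : ∀ n : N, Nat.card {h // f h = n} ≤ 2 := by
      intro n
      rcases isEmpty_or_nonempty {h // f h = n} with he | ⟨⟨h₀, hh₀⟩⟩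
      · simp
      rw [← hcard]
      refine Nat.card_le_card_of_injective
        (fun h => (⟨h.1 * h₀⁻¹, ?_⟩ : {h : H // γ h = h})) ?_
      · have e : h.1⁻¹ * γ h.1 = h₀⁻¹ * γ h₀ :=
          (congrArg Subtype.val (h.2.trans hh₀.symm) : _)
        rw [map_mul, map_inv]
        calc γ h.1 * (γ h₀)⁻¹ = h.1 * (h.1⁻¹ * γ h.1) * (h₀⁻¹ * γ h₀)⁻¹ * h₀⁻¹ := by group
          _ = h.1 * (h₀⁻¹ * γ h₀) * (h₀⁻¹ * γ h₀)⁻¹ * h₀⁻¹ := by rw [e]
          _ = h.1 * h₀⁻¹ := by group
      · intro x y hxy
        exact Subtype.ext (mul_right_cancel (congrArg Subtype.val hxy))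
    have hsurj : Function.Surjective f := by
      by_contra hns
      simp only [Function.Surjective, not_forall, not_exists] at hns
      obtain ⟨n₀, hn₀⟩ := hns
      have h1 : Nat.card H = ∑ n : N, Nat.card {h // f h = n} := by
        rw [← Nat.card_congr (Equiv.sigmaFiberEquiv f), Nat.card_sigma]
      have h2 : ∑ n : N, Nat.card {h // f h = n} < ∑ _n : N, 2 := by
        refine Finset.sum_lt_sum (fun n _ => hfib n) ⟨n₀, Finset.mem_univ _, ?_⟩
        have : IsEmpty {h // f h = n₀} := ⟨fun h => hn₀ h.1 h.2⟩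
        simp
      simp only [Finset.sum_const, Finset.card_univ, ← Nat.card_eq_fintype_card, smul_eq_mul] at h2
      have h3 := N.card_mul_index
      rw [hN] at h3
      omega
    have hall : ∀ b ∈ N, γ b = b⁻¹ := by
      intro b hb
      obtain ⟨h, hh⟩ := hsurj ⟨b, hb⟩
      have : h⁻¹ * γ h = b := congrArg Subtype.val hh
      rw [← this, hmulc]
    refine ⟨N, hN, ⟨⟨fun x y => Subtype.ext ?_⟩⟩, hNγ, hall⟩
    have h := hall _ (N.mul_mem x.2 y.2)
    rw [map_mul, hall _ x.2, hall _ y.2, ← mul_inv_rev, inv_inj] at h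
    exact h.symm

end Cfsg.Agent.S3375
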