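import Cfsg.Statements.S3379
-- import your own Cfsg.Agent.* helpers here

set_option autoImplicit false
open Cfsg

namespace Cfsg.Agent.S3379

/-- Let G be a finite group all of whose Sylow subgroups are cyclic. Then G is generated by two elements x and y of coprime orders n and m with x⁻¹yx = y^r, where gcd(r − 1, m) = 1 and r^n ≡ 1 (mod m). -/
theorem result {G : Type*} [Group G] [Finite G]
    (hZ : ∀ (p : ℕ) [Fact p.Prime] (P : Sylow p G), IsCyclic (P : Subgroup G)) :
    ∃ (x y : G) (n m r : ℕ), Subgroup.closure {x, y} = ⊤ ∧ orderOf x = n ∧ orderOf y = m ∧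
      x⁻¹ * y * x = y ^ r ∧ Nat.Coprime (r - 1) m ∧ Nat.Coprime n m ∧ 1 ≤ r ∧ r ^ n % m = 1 % m := by
  have : IsZGroup G := ⟨fun p hp P => have : Fact p.Prime := ⟨hp⟩; hZ p P⟩
  obtain ⟨H, hH⟩ := Subgroup.exists_right_complement'_of_coprime
    (IsZGroup.coprime_commutator_index (G := G))
  have hHc : IsCyclic H :=
    have e : Abelianization G ≃* H := hH.symm.QuotientMulEquiv
    isCyclic_of_surjective _ e.surjective
  have hNc : IsCyclic (commutator G) := IsZGroup.isCyclic_commutator G
  obtain ⟨x, hx⟩ := (Subgroup.isCyclic_iff_exists_zpowers_eq_top H).mp hHc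
  obtain ⟨y, hy⟩ := (Subgroup.isCyclic_iff_exists_zpowers_eq_top (commutator G)).mp hNc
  have hgen : Subgroup.closure {x, y} = ⊤ := by
    rw [eq_top_iff, ← hH.sup_eq_top, ← hy, ← hx]
    simp only [sup_le_iff, Subgroup.zpowers_le]
    exact ⟨Subgroup.subset_closure (by simp), Subgroup.subset_closure (by simp)⟩
  have hmem : x⁻¹ * y * x ∈ Subgroup.zpowers y := by
    rw [hy]
    have h := (inferInstance : (commutator G).Normal).conj_mem y (hy ▸ Subgroup.mem_zpowers y) x⁻¹
    simpa using h
  have hm0 : 0 < orderOf y := orderOf_pos y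
  obtain ⟨r₀, hr₀⟩ := Submonoid.mem_powers_iff _ _ |>.mp (mem_powers_iff_mem_zpowers.mpr hmem)
  have hr : x⁻¹ * y * x = y ^ (r₀ + orderOf y) := by
    rw [pow_add, pow_orderOf_eq_one, mul_one]; exact hr₀.symm
  refine ⟨x, y, orderOf x, orderOf y, r₀ + orderOf y, hgen, rfl, rfl, hr, ?_, ?_, by omega, ?_⟩
  · -- `y ^ (r - 1)` generates the derived subgroup
    set r := r₀ + orderOf y with hrdef
    set N := Subgroup.zpowers (y ^ (r - 1)) with hNdef
    have hNy : N ≤ Subgroup.zpowers y :=
      Subgroup.zpowers_le.mpr (Subgroup.pow_mem _ (Subgroup.mem_zpowers y) _)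
    have hcomm : x⁻¹ * y * x * y⁻¹ = y ^ (r - 1) := by
      rw [hr]
      conv_lhs => rw [show r = r - 1 + 1 by omega, pow_succ]
      group
    have hconjx : ∀ a ∈ N, x⁻¹ * a * x ∈ N := by
      rintro a ⟨i, rfl⟩
      refine ⟨(r : ℤ) * i, ?_⟩
      show (y ^ (r - 1)) ^ ((r : ℤ) * i) = x⁻¹ * (y ^ (r - 1)) ^ i * x
      have e1 : ∀ z : G, ∀ j : ℤ, x⁻¹ * z ^ j * x = (x⁻¹ * z * x) ^ j := fun z j => by
        have := conj_zpow (i := j) (a := x⁻¹) (b := z)
        simpa using this.symm
      rw [e1, ← zpow_natCast y (r - 1), e1, hr, ← zpow_natCast y r, ← zpow_mul, ← zpow_mul,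
        ← zpow_mul]
      ring_nf
    have hconj : ∀ g : G, g ∈ Subgroup.normalizer (N : Set G) := by
      intro g
      have hle : Subgroup.closure {x, y} ≤ Subgroup.normalizer (N : Set G) := by
        rw [Subgroup.closure_le]
        intro z hz
        simp only [Set.mem_insert_iff, Set.mem_singleton_iff] at hz
        rcases hz with hz | hz <;> subst z
        · have h1 : x⁻¹ ∈ Subgroup.normalizer (N : Set G) := by
            rw [Subgroup.mem_normalizer_iff]
            have key : N.map (MulAut.conj x⁻¹).toMonoidHom = N := by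
              refine Subgroup.eq_of_le_of_card_ge ?_ (by
                rw [Subgroup.card_map_of_injective (MulAut.conj x⁻¹).injective])
              rintro _ ⟨a, ha, rfl⟩
              simpa using hconjx a ha
            intro a
            constructor
            · exact fun ha => by simpa using hconjx a ha
            · intro ha
              rw [← key] at ha
              obtain ⟨b, hb, hba⟩ := ha
              have : b = a := (MulAut.conj x⁻¹).injective (by simpa using hba)
              exact this ▸ hb
          simpa using (Subgroup.normalizer (N : Set G)).inv_mem h1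
        · rw [SetLike.mem_coe, Subgroup.mem_normalizer_iff]
          intro a
          have key : ∀ c ∈ Subgroup.zpowers y, y * c * y⁻¹ = c := by
            rintro _ ⟨i, rfl⟩; group
          constructor
          · intro ha; rwa [key a (hNy ha)]
          · intro ha
            have h2 : a ∈ Subgroup.zpowers y := by
              have := hNy ha
              have h3 := (Subgroup.zpowers y).mul_mem ((Subgroup.zpowers y).mul_mem
                ((Subgroup.zpowers y).inv_mem (Subgroup.mem_zpowers y)) this)
                (Subgroup.mem_zpowers y)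
              simpa [mul_assoc] using h3
            rwa [key a h2] at ha
      exact hle (hgen ▸ Subgroup.mem_top g)
    have hN : N.Normal := Subgroup.normalizer_eq_top_iff.mp (eq_top_iff.mpr fun g _ => hconj g)
    have hder : commutator G ≤ N := by
      rw [← QuotientGroup.ker_mk' N]
      have hgen' : Subgroup.closure {QuotientGroup.mk' N x, QuotientGroup.mk' N y} = ⊤ := by
        rw [← Set.image_pair, ← MonoidHom.map_closure, hgen,
          Subgroup.map_top_of_surjective _ (QuotientGroup.mk'_surjective N)]
      have hc : Commute (QuotientGroup.mk' N x) (QuotientGroup.mk' N y) := by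
        have h1 : QuotientGroup.mk' N (x⁻¹ * y * x * y⁻¹) = 1 :=
          (QuotientGroup.eq_one_iff _).mpr (hcomm ▸ Subgroup.mem_zpowers _)
        simp only [map_mul, map_inv] at h1
        have h2 := mul_inv_eq_one.mp h1
        show _ * _ = _ * _
        rw [mul_assoc, inv_mul_eq_iff_eq_mul] at h2
        exact h2.symm
      have hab : ∀ a b : G ⧸ N, a * b = b * a := by
        intro a b
        have hcl := Subgroup.isMulCommutative_closure
          (k := {QuotientGroup.mk' N x, QuotientGroup.mk' N y}) (by
            rintro u (rfl | rfl) v (rfl | rfl) <;> first | rfl | exact hc.eq | exact hc.eq.symm)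
        exact congrArg Subtype.val (hcl.is_comm.comm
          ⟨a, hgen' ▸ Subgroup.mem_top a⟩ ⟨b, hgen' ▸ Subgroup.mem_top b⟩)
      rw [commutator_def, Subgroup.commutator_le]
      intro a _ b _
      rw [MonoidHom.mem_ker, map_commutatorElement, commutatorElement_eq_one_iff_commute]
      exact hab _ _
    have heq : Subgroup.zpowers (y ^ (r - 1)) = Subgroup.zpowers y :=
      le_antisymm hNy (hy ▸ hder)
    have ho : orderOf (y ^ (r - 1)) = orderOf y := by
      rw [← Nat.card_zpowers, heq, Nat.card_zpowers]
    rcases Nat.eq_or_lt_of_le (Nat.succ_le_of_lt hm0) with h1 | h1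
    · rw [← h1]; exact Nat.coprime_one_right _
    · rw [orderOf_pow] at ho
      have hg : Nat.gcd (orderOf y) (r - 1) = 1 := by
        rcases (Nat.div_eq_self.mp ho) with h | h
        · omega
        · exact h
      exact Nat.coprime_comm.mp hg
  · rw [← Nat.card_zpowers, ← Nat.card_zpowers, hx, hy, ← hH.symm.index_eq_card]
    exact (IsZGroup.coprime_commutator_index (G := G)).symm
  · have key : ∀ k : ℕ, (x ^ k)⁻¹ * y * x ^ k = y ^ (r₀ + orderOf y) ^ k := by
      intro k
      induction k with
      | zero => simp
      | succ k ih =>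
        rw [pow_succ' x, pow_succ (r₀ + orderOf y), mul_comm ((r₀ + orderOf y) ^ k),
          pow_mul y, ← hr]
        calc (x * x ^ k)⁻¹ * y * (x * x ^ k) = (x ^ k)⁻¹ * (x⁻¹ * y * x) * x ^ k := by group
          _ = (x ^ k)⁻¹ * y ^ (r₀ + orderOf y) * x ^ k := by rw [hr]
          _ = ((x ^ k)⁻¹ * y * x ^ k) ^ (r₀ + orderOf y) := by
            have := conj_pow (i := r₀ + orderOf y) (a := (x ^ k)⁻¹) (b := y)
            simpa using this.symm
          _ = _ := by rw [ih, hr, ← pow_mul, ← pow_mul, mul_comm]
    have h := key (orderOf x)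
    rw [pow_orderOf_eq_one, inv_one, one_mul, mul_one] at h
    conv_lhs at h => rw [← pow_one y]
    exact (pow_eq_pow_iff_modEq.mp h).symm

end Cfsg.Agent.S3379
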