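import Cfsg.Statements.S3381
-- import your own Cfsg.Agent.* helpers here

set_option autoImplicit false
open Cfsg

namespace Cfsg.Agent.S3381

/-- Let G be a finite group acting faithfully and linearly on a non-trivial finite vector space V over the field with q elements (q prime) so that every non-zero vector has a stabilizer of order 2, and suppose G has a central involution. Then V has q^(2r) elements for some r and G contains exactly q^r + 1 non-central involutions. -/
theorem result
    (q : ℕ) [Fact q.Prime] {V : Type*} [AddCommGroup V] [Module (ZMod q) V] [Finite V] [Nontrivial V]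
    {G : Type*} [Group G] [Finite G] (ρ : G →* (V ≃ₗ[ZMod q] V)) (hρ : Function.Injective ρ)
    (hstab : ∀ v : V, v ≠ 0 → Nat.card {g : G // ρ g v = v} = 2)
    (z : G) (hz : orderOf z = 2) (hzc : z ∈ Subgroup.center G) :
    ∃ r : ℕ, Nat.card V = q ^ (2 * r) ∧
      Nat.card {g : G // orderOf g = 2 ∧ g ∉ Subgroup.center G} = q ^ r + 1 := by
  classical
  have hp : q.Prime := Fact.out
  have : Fintype G := Fintype.ofFinite G
  have : Fintype V := Fintype.ofFinite V
  -- each non-zero vector is fixed by exactly one involution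
  have hstab1 : ∀ v : V, v ≠ 0 → ∃ t : G, orderOf t = 2 ∧ ρ t v = v ∧
      ∀ g : G, ρ g v = v → g = 1 ∨ g = t := by
    intro v hv
    have h := hstab v hv
    obtain ⟨a, b, hab, hall⟩ := Nat.card_eq_two_iff.mp h
    have h1 : (⟨1, by simp⟩ : {g : G // ρ g v = v}) ∈ ({a, b} : Set _) := hall ▸ Set.mem_univ _
    obtain ⟨t, ht1, ht⟩ : ∃ t : {g : G // ρ g v = v}, (t : G) ≠ 1 ∧
        ∀ g : {g : G // ρ g v = v}, (g : G) = 1 ∨ g = t := by
      rcases h1 with h1 | h1
      · refine ⟨b, fun hb => hab ?_, fun g => ?_⟩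
        · rw [← h1]; exact Subtype.ext hb.symm
        · have hg : g ∈ ({a, b} : Set _) := hall ▸ Set.mem_univ g
          rcases hg with hg | hg
          · left; rw [hg, ← h1]
          · exact Or.inr hg
      · have h1' : (⟨1, by simp⟩ : {g : G // ρ g v = v}) = b := h1
        refine ⟨a, fun ha => hab ?_, fun g => ?_⟩
        · rw [← h1']; exact Subtype.ext ha
        · have hg : g ∈ ({a, b} : Set _) := hall ▸ Set.mem_univ g
          rcases hg with hg | hg
          · exact Or.inr hg
          · left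
            have hg' : g = b := hg
            rw [hg', ← h1']
    refine ⟨t, orderOf_eq_prime ?_ ht1, t.2, fun g hg => ?_⟩
    · rcases ht ⟨t * t, by rw [map_mul, LinearEquiv.mul_apply, t.2, t.2]⟩ with h2 | h2
      · rw [pow_two]; exact h2
      · exact absurd (mul_eq_left.mp (congrArg Subtype.val h2)) ht1
    · rcases ht ⟨g, hg⟩ with h2 | h2
      · exact Or.inl h2
      · exact Or.inr (congrArg Subtype.val h2)
  choose τ hτ2 hτfix hτuniq using hstab1
  have hmulapp : ∀ a b : G, ∀ v, ρ (a * b) v = ρ a (ρ b v) := fun a b v => by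
    rw [map_mul, LinearEquiv.mul_apply]
  have hinvol : ∀ t : G, orderOf t = 2 → ∀ v, ρ t (ρ t v) = v := fun t ht v => by
    rw [← hmulapp, ← pow_two, ← ht, pow_orderOf_eq_one, map_one]; rfl
  -- every central involution acts as `-1`
  have hcentral : ∀ s : G, orderOf s = 2 → s ∈ Subgroup.center G → ∀ v, ρ s v = -v := by
    intro s hs hsc v
    have hs1 : s ≠ 1 := fun h => by simp [h] at hs
    have key : ∀ v, ρ s v ≠ v → ρ s v = -v := by
      intro v hv
      have hv0 : v ≠ 0 := by rintro rfl; simp at hv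
      by_contra hne
      have hu : ρ s v + v ≠ 0 := fun h => hne (eq_neg_of_add_eq_zero_left h)
      have h1 : ρ s (ρ s v + v) = ρ s v + v := by rw [map_add, hinvol s hs, add_comm]
      have h2 : ρ (τ v hv0) (ρ s v + v) = ρ s v + v := by
        rw [map_add, ← hmulapp, Subgroup.mem_center_iff.mp hsc (τ v hv0), hmulapp, hτfix]
      rcases hτuniq _ hu _ h1 with h3 | h3
      · exact hs1 h3
      rcases hτuniq _ hu _ h2 with h4 | h4
      · have := hτ2 v hv0; simp [h4] at this
      · exact hv (by rw [h3, ← h4]; exact hτfix v hv0)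
    obtain ⟨v₀, hv₀⟩ : ∃ v₀, ρ s v₀ ≠ v₀ := by
      by_contra hcon
      push Not at hcon
      exact hs1 (hρ (LinearEquiv.ext fun v => by rw [hcon v, map_one]; rfl))
    by_cases hv : ρ s v = v
    · have h1 : ρ s (v₀ + v) ≠ v₀ + v := fun h => hv₀ (by rw [map_add, hv] at h; exact add_right_cancel h)
      have h2 := key _ h1
      rw [map_add, hv, key _ hv₀, neg_add] at h2
      rw [hv]
      exact add_left_cancel h2
    · exact key v hv
  have hneg : ∀ v, ρ z v = -v := hcentral z hz hzc
  have hz1 : z ≠ 1 := fun h => by simp [h] at hz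
  have htwo : (2 : ZMod q) ≠ 0 := by
    intro h2
    refine hz1 (hρ (LinearEquiv.ext fun v => ?_))
    rw [hneg, map_one]
    show -v = v
    have : (2 : ZMod q) • v = 0 := by rw [h2, zero_smul]
    rw [two_smul] at this
    exact neg_eq_of_add_eq_zero_left this
  have hhalf : ∀ v : V, v + v = 0 → v = 0 := fun v hv => by
    rw [← two_smul (ZMod q)] at hv
    exact (smul_eq_zero.mp hv).resolve_left htwo
  have hzuniq : ∀ s : G, orderOf s = 2 → s ∈ Subgroup.center G → s = z := fun s hs hsc =>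
    hρ (LinearEquiv.ext fun v => by rw [hcentral s hs hsc, hneg])
  have hnfix : ∀ v : V, v ≠ 0 → ρ z v ≠ v := fun v hv h => by
    rw [hneg, neg_eq_iff_add_eq_zero] at h
    exact hv (hhalf v h)
  let S := {g : G // orderOf g = 2 ∧ g ∉ Subgroup.center G}
  have hτS : ∀ v (hv : v ≠ 0), τ v hv ∉ Subgroup.center G := fun v hv hc =>
    hnfix v hv (hzuniq _ (hτ2 v hv) hc ▸ hτfix v hv)
  let F : G → Submodule (ZMod q) V := fun t =>
    LinearMap.ker ((ρ t : V →ₗ[ZMod q] V) - LinearMap.id)
  have hF : ∀ t v, v ∈ F t ↔ ρ t v = v := fun t v => by simp [F, sub_eq_zero]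
  have hzt : ∀ t : G, orderOf t = 2 → t ∉ Subgroup.center G →
      orderOf (z * t) = 2 ∧ z * t ∉ Subgroup.center G := by
    intro t ht htc
    have hnc : z * t ∉ Subgroup.center G := fun h => htc (by
      simpa using (Subgroup.center G).mul_mem ((Subgroup.center G).inv_mem hzc) h)
    refine ⟨orderOf_eq_prime ?_ fun h => hnc (h ▸ (Subgroup.center G).one_mem), hnc⟩
    have hzz : z ^ 2 = 1 := by rw [← hz, pow_orderOf_eq_one]
    have htt : t ^ 2 = 1 := by rw [← ht, pow_orderOf_eq_one]
    have hcm : Commute z t := (Subgroup.mem_center_iff.mp hzc t).symm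
    rw [hcm.mul_pow, hzz, htt, one_mul]
  -- `V = F t ⊕ F (z t)`
  have hsplit : ∀ t : S, Nat.card (F t.1) * Nat.card (F (z * t.1)) = Nat.card V := by
    intro t
    rw [← Nat.card_prod]
    refine Nat.card_congr (Equiv.ofBijective (fun ab : F t.1 × F (z * t.1) => (ab.1 : V) + ab.2) ⟨?_, ?_⟩)
    · rintro ⟨a, b⟩ ⟨a', b'⟩ h
      have e : ((a : V) - a') = (b' : V) - b := by
        rw [sub_eq_sub_iff_add_eq_add]
        simpa [add_comm] using h
      have h1 : ρ t.1 ((a : V) - a') = (a : V) - a' := by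
        rw [map_sub, (hF _ _).mp a.2, (hF _ _).mp a'.2]
      have h2 : ρ (z * t.1) ((a : V) - a') = (a : V) - a' := by
        rw [e, map_sub, (hF _ _).mp b'.2, (hF _ _).mp b.2]
      rw [hmulapp, h1] at h2
      have h0 : (a : V) - a' = 0 := by_contra fun h => hnfix _ h h2
      exact Prod.ext (Subtype.ext (sub_eq_zero.mp h0))
        (Subtype.ext (sub_eq_zero.mp (e ▸ h0)).symm)
    · intro v
      refine ⟨(⟨(2 : ZMod q)⁻¹ • (v + ρ t.1 v), ?_⟩, ⟨(2 : ZMod q)⁻¹ • (v - ρ t.1 v), ?_⟩), ?_⟩
      · rw [hF, map_smul, map_add, hinvol _ t.2.1, add_comm]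
      · rw [hF, hmulapp, map_smul, map_sub, hinvol _ t.2.1, hneg, ← smul_neg, neg_sub]
      · show (2 : ZMod q)⁻¹ • (v + ρ t.1 v) + (2 : ZMod q)⁻¹ • (v - ρ t.1 v) = v
        rw [← smul_add, add_add_sub_cancel, ← two_smul (ZMod q) v, smul_smul,
          inv_mul_cancel₀ htwo, one_smul]
  have hpos : ∀ t : G, 0 < Nat.card (F t) := fun t => Nat.card_pos
  have hbigF : ∀ t : S, 1 < Nat.card (F t.1) := by
    intro t
    obtain ⟨v, hv⟩ : ∃ v, ρ t.1 v + v ≠ 0 := by
      by_contra hcon
      push Not at hcon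
      refine t.2.2 ?_
      have : t.1 = z := hρ (LinearEquiv.ext fun v => by
        rw [hneg]; exact eq_neg_of_add_eq_zero_left (hcon v))
      rw [this]; exact hzc
    have : Nontrivial (F t.1) := ⟨⟨⟨_, (hF _ _).mpr (by
      rw [map_add, hinvol _ t.2.1, add_comm] : ρ t.1 (ρ t.1 v + v) = ρ t.1 v + v)⟩, 0,
      fun h => hv (congrArg Subtype.val h)⟩⟩
    exact Finite.one_lt_card
  -- two different fixed spaces meet trivially
  have hle : ∀ t u : S, t ≠ u → Nat.card (F t.1) * Nat.card (F u.1) ≤ Nat.card V := by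
    intro t u htu
    rw [← Nat.card_prod]
    refine Nat.card_le_card_of_injective (fun ab : F t.1 × F u.1 => (ab.1 : V) + ab.2) ?_
    rintro ⟨a, b⟩ ⟨a', b'⟩ h
    have e : ((a : V) - a') = (b' : V) - b := by
      rw [sub_eq_sub_iff_add_eq_add]
      simpa [add_comm] using h
    have h0 : (a : V) - a' = 0 := by
      by_contra h0
      have h1 : ρ t.1 ((a : V) - a') = (a : V) - a' := by
        rw [map_sub, (hF _ _).mp a.2, (hF _ _).mp a'.2]
      have h2 : ρ u.1 ((a : V) - a') = (a : V) - a' := by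
        rw [e, map_sub, (hF _ _).mp b'.2, (hF _ _).mp b.2]
      rcases hτuniq _ h0 _ h1 with h3 | h3
      · have := t.2.1; simp [h3] at this
      rcases hτuniq _ h0 _ h2 with h4 | h4
      · have := u.2.1; simp [h4] at this
      · exact htu (Subtype.ext (h3.trans h4.symm))
    exact Prod.ext (Subtype.ext (sub_eq_zero.mp h0)) (Subtype.ext (sub_eq_zero.mp (e ▸ h0)).symm)
  have hzsq : z ^ 2 = 1 := orderOf_dvd_iff_pow_eq_one.mp (hz ▸ dvd_rfl)
  let zS : S → S := fun t => ⟨z * t.1, hzt t.1 t.2.1 t.2.2⟩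
  have hzz : ∀ t : S, zS (zS t) = t := fun t => Subtype.ext (by
    show z * (z * t.1) = t.1
    rw [← mul_assoc, ← pow_two, hzsq, one_mul])
  have hcomp : ∀ t u : S, u ≠ t → u ≠ zS t → Nat.card (F t.1) = Nat.card (F u.1) := by
    have half : ∀ t u : S, u ≠ t → u ≠ zS t → Nat.card (F t.1) ≤ Nat.card (F u.1) := by
      intro t u hut huz
      have h2 := hle t (zS u) (fun h => huz (by rw [h, hzz]))
      refine Nat.le_of_mul_le_mul_right ?_ (hpos (z * u.1))
      exact h2.trans_eq (hsplit u).symm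
    intro t u hut huz
    exact le_antisymm (half t u hut huz) (half u t hut.symm (fun h => huz (by rw [h, hzz])))
  obtain ⟨v₀, hv₀⟩ := exists_ne (0 : V)
  let t₀ : S := ⟨τ v₀ hv₀, hτ2 _ _, hτS _ _⟩
  -- a third involution, for any `t`
  have hthird : ∀ t : S, ∃ u : S, u ≠ t ∧ u ≠ zS t := by
    intro t
    obtain ⟨⟨a, ha⟩, ha0⟩ : ∃ a : F t.1, a ≠ 0 :=
      have := (Finite.one_lt_card_iff_nontrivial.mp (hbigF t)); exists_ne 0
    obtain ⟨⟨b, hb⟩, hb0⟩ : ∃ b : F (z * t.1), b ≠ 0 :=
      have := (Finite.one_lt_card_iff_nontrivial.mp (hbigF (zS t))); exists_ne 0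
    have ha' : a ≠ 0 := fun h => ha0 (Subtype.ext h)
    have hb' : b ≠ 0 := fun h => hb0 (Subtype.ext h)
    have hta := (hF _ _).mp ha
    have hzb := (hF _ _).mp hb
    rw [hmulapp, hneg] at hzb
    have htb : ρ t.1 b = -b := by rw [← neg_eq_iff_eq_neg]; exact hzb
    have hab : a + b ≠ 0 := fun h => by
      have he : a = -b := eq_neg_of_add_eq_zero_left h
      rw [he, map_neg, htb, neg_neg] at hta
      exact hb' (hhalf b (eq_neg_iff_add_eq_zero.mp hta))
    refine ⟨⟨τ _ hab, hτ2 _ _, hτS _ _⟩, fun h => ?_, fun h => ?_⟩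
    · have h' : ρ t.1 (a + b) = a + b := by
        have e : τ _ hab = t.1 := congrArg Subtype.val h
        rw [← e]; exact hτfix _ hab
      rw [map_add, hta, htb, add_left_cancel_iff] at h'
      exact hb' (hhalf b (neg_eq_iff_add_eq_zero.mp h'))
    · have h' : ρ (z * t.1) (a + b) = a + b := by
        have e : τ _ hab = z * t.1 := congrArg Subtype.val h
        rw [← e]; exact hτfix _ hab
      rw [hmulapp, map_add, hta, htb, hneg, neg_add, neg_neg, add_right_cancel_iff] at h'
      exact ha' (hhalf a (neg_eq_iff_add_eq_zero.mp h'))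
  have hall : ∀ t : S, Nat.card (F t.1) = Nat.card (F t₀.1) ∧
      Nat.card (F (z * t.1)) = Nat.card (F t.1) := by
    intro t
    obtain ⟨u, hu1, hu2⟩ := hthird t
    have h1 : Nat.card (F (zS t).1) = Nat.card (F t.1) :=
      (hcomp (zS t) u hu2 (by rw [hzz]; exact hu1)).trans (hcomp t u hu1 hu2).symm
    refine ⟨?_, h1⟩
    by_cases h0 : t₀ = t
    · rw [h0]
    by_cases h0' : t₀ = zS t
    · rw [h0', h1]
    · exact hcomp t t₀ h0 h0'
  obtain ⟨r, hr⟩ : ∃ r, Nat.card (F t₀.1) = q ^ r :=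
    ⟨_, (Module.natCard_eq_pow_finrank (K := ZMod q)).trans (by rw [Nat.card_zmod])⟩
  have hV : Nat.card V = q ^ (2 * r) := by
    rw [← hsplit t₀, (hall t₀).2, hr, ← pow_add, two_mul]
  refine ⟨r, hV, ?_⟩
  -- count the non-zero vectors
  let e : {v : V // v ≠ 0} ≃ Σ t : S, {v : F t.1 // v ≠ 0} :=
    { toFun := fun v => ⟨⟨τ v.1 v.2, hτ2 _ _, hτS _ _⟩,
        ⟨v.1, (hF _ _).mpr (hτfix _ _)⟩, fun h => v.2 (congrArg Subtype.val h)⟩
      invFun := fun x => ⟨(x.2.1 : V), fun h => x.2.2 (Subtype.ext h)⟩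
      left_inv := fun v => rfl
      right_inv := by
        rintro ⟨t, ⟨v, hv⟩, hv0⟩
        have hv' : v ≠ 0 := fun h => hv0 (Subtype.ext h)
        have : τ v hv' = t.1 := by
          rcases hτuniq v hv' t.1 ((hF _ _).mp hv) with h | h
          · have := t.2.1; simp [h] at this
          · exact h.symm
        obtain ⟨t, ht⟩ := t
        change τ v hv' = t at this
        subst this
        rfl }
  have hcnt : ∀ (A : Type _) [Finite A] [Zero A], Nat.card {a : A // a ≠ 0} = Nat.card A - 1 := by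
    intro A _ _
    have h := Nat.card_congr (Equiv.optionSubtypeNe (0 : A))
    rw [Finite.card_option] at h
    omega
  have key := Nat.card_congr e
  rw [hcnt, Nat.card_sigma, Finset.sum_congr rfl (fun t _ => (hcnt _).trans (by rw [(hall t).1, hr])),
    Finset.sum_const, Finset.card_univ, smul_eq_mul, hV, ← Nat.card_eq_fintype_card] at key
  have hr1 : 1 < q ^ r := hr ▸ hbigF t₀
  have hfac : q ^ (2 * r) - 1 = (q ^ r + 1) * (q ^ r - 1) := by
    rw [mul_comm 2 r, pow_mul, ← Nat.sq_sub_sq, one_pow]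
  rw [hfac] at key
  exact (Nat.eq_of_mul_eq_mul_right (by omega) key).symm

end Cfsg.Agent.S3381
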