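import Cfsg.Statements.S3382
-- import your own Cfsg.Agent.* helpers here

set_option autoImplicit false
open Cfsg

namespace Cfsg.Agent.S3382

theorem units_three : ∀ a : (ZMod 3)ˣ, a = 1 ∨ a = -1 := by decide

theorem neg_one_ne_one_three : (-1 : (ZMod 3)ˣ) ≠ 1 := by decide

variable {q : ℕ} [Fact q.Prime]

/-- The diagonal map `(v₀, v₁) ↦ (a v₀, b v₁)`. -/
def diagE (a b : (ZMod q)ˣ) : (Fin 2 → ZMod q) ≃ₗ[ZMod q] (Fin 2 → ZMod q) where
  toFun v := ![(a : ZMod q) * v 0, (b : ZMod q) * v 1]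
  invFun v := ![((a⁻¹ : (ZMod q)ˣ) : ZMod q) * v 0, ((b⁻¹ : (ZMod q)ˣ) : ZMod q) * v 1]
  map_add' v w := by ext i; fin_cases i <;> simp [-ZMod.inv_coe_unit, mul_add]
  map_smul' c v := by ext i; fin_cases i <;> simp [-ZMod.inv_coe_unit, mul_left_comm]
  left_inv v := by ext i; fin_cases i <;> simp [-ZMod.inv_coe_unit]
  right_inv v := by ext i; fin_cases i <;> simp [-ZMod.inv_coe_unit]

/-- The swap of the two coordinates. -/
def swapE : (Fin 2 → ZMod q) ≃ₗ[ZMod q] (Fin 2 → ZMod q) where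
  toFun v := ![v 1, v 0]
  invFun v := ![v 1, v 0]
  map_add' v w := by ext i; fin_cases i <;> simp
  map_smul' c v := by ext i; fin_cases i <;> simp
  left_inv v := by ext i; fin_cases i <;> simp [-ZMod.inv_coe_unit]
  right_inv v := by ext i; fin_cases i <;> simp [-ZMod.inv_coe_unit]

theorem diagE_mul (a b c d : (ZMod q)ˣ) :
    diagE a b * diagE c d = diagE (a * c) (b * d) := by
  ext v i
  fin_cases i <;> simp [-ZMod.inv_coe_unit, diagE, mul_assoc]

theorem diagE_one : diagE (1 : (ZMod q)ˣ) 1 = 1 := by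
  ext v i
  fin_cases i <;> simp [-ZMod.inv_coe_unit, diagE]

theorem diagE_pow (a b : (ZMod q)ˣ) (n : ℕ) : diagE a b ^ n = diagE (a ^ n) (b ^ n) := by
  induction n with
  | zero => simp [-ZMod.inv_coe_unit, diagE_one]
  | succ n ih => rw [pow_succ, ih, diagE_mul, ← pow_succ, ← pow_succ]

theorem diagE_inj {a b c d : (ZMod q)ˣ} (h : diagE a b = diagE c d) : a = c ∧ b = d := by
  have h0 := congrFun (LinearEquiv.congr_fun h ![1, 1]) 0
  have h1 := congrFun (LinearEquiv.congr_fun h ![1, 1]) 1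
  simp [-ZMod.inv_coe_unit, diagE] at h0 h1
  exact ⟨Units.ext h0, Units.ext h1⟩

theorem swapE_mul_diagE (a b : (ZMod q)ˣ) : swapE * diagE a b = diagE b a * swapE := by
  ext v i
  fin_cases i <;> simp [-ZMod.inv_coe_unit, diagE, swapE]

theorem swapE_sq : (swapE : (Fin 2 → ZMod q) ≃ₗ[ZMod q] (Fin 2 → ZMod q)) * swapE = 1 := by
  ext v i
  fin_cases i <;> simp [swapE]

theorem swapE_ne_diagE (a b : (ZMod q)ˣ) : swapE ≠ diagE a b := by
  intro h
  have h0 := congrFun (LinearEquiv.congr_fun h ![0, 1]) 0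
  simp [-ZMod.inv_coe_unit, diagE, swapE] at h0

theorem swapE_mul_diagE_sq (a b : (ZMod q)ˣ) :
    (swapE * diagE a b) * (swapE * diagE a b) = diagE (b * a) (a * b) := by
  rw [swapE_mul_diagE a b, mul_assoc, ← mul_assoc swapE (diagE b a), swapE_mul_diagE b a,
    mul_assoc (diagE a b), swapE_sq, mul_one, diagE_mul]

/-- Automorphisms of a finite 2-group, some 2-power of each of which fixes an index two subgroup
pointwise, form a 2-group. -/
theorem isPGroup_mulAut {T : Type*} [Group T] (hT : IsPGroup 2 T) [Finite T] (A : Subgroup T)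
    (hA2 : A.index = 2) (x : T) (hxA : x ∉ A)
    (h : ∀ α : MulAut T, (∀ a ∈ A, α a ∈ A) ∧ ∃ k, ∀ a ∈ A, (α ^ 2 ^ k) a = a) :
    IsPGroup 2 (MulAut T) := by
  intro α
  obtain ⟨-, k, hk⟩ := h α
  set β := α ^ 2 ^ k with hβ
  obtain ⟨n, hn⟩ := IsPGroup.iff_card.mp hT
  refine ⟨k + n, ?_⟩
  rw [pow_add, pow_mul, ← hβ]
  have hβx : β x ∉ A := fun hh => hxA (by
    have := hk _ hh
    exact (β.injective this) ▸ hh)
  have hc : x⁻¹ * β x ∈ A := by
    rw [Subgroup.mul_mem_iff_of_index_two hA2, inv_mem_iff]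
    exact iff_of_false hxA hβx
  have hpow : ∀ j : ℕ, (β ^ j) x = x * (x⁻¹ * β x) ^ j := by
    intro j
    induction j with
    | zero => simp
    | succ j ih =>
      rw [pow_succ', MulAut.mul_apply, ih, map_mul, map_pow, hk _ hc, pow_succ']
      simp [mul_assoc]
  have hfix : ∀ j : ℕ, ∀ a ∈ A, (β ^ j) a = a := by
    intro j
    induction j with
    | zero => simp
    | succ j ih => intro a ha; rw [pow_succ', MulAut.mul_apply, ih a ha, hk a ha]
  ext t
  rw [MulAut.one_apply]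
  by_cases ht : t ∈ A
  · exact hfix _ t ht
  · have hta : x⁻¹ * t ∈ A := by
      rw [Subgroup.mul_mem_iff_of_index_two hA2, inv_mem_iff]
      exact iff_of_false hxA ht
    have e : x * (x⁻¹ * t) = t := by group
    have hx' : (β ^ 2 ^ n) x = x := by rw [hpow, ← hn, pow_card_eq_one', mul_one]
    calc (β ^ 2 ^ n) t = (β ^ 2 ^ n) (x * (x⁻¹ * t)) := by rw [e]
      _ = t := by rw [map_mul, hx', hfix _ _ hta, e]

/-- The monomial group case `q - 1 = 2 ^ m ≥ 8`, abstractly. -/
theorem isPGroup_mulAut_monomial {T : Type*} [Group T] [Finite T] (hT : IsPGroup 2 T)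
    (m : ℕ) (hm : 3 ≤ m) (u w x : T) (hu : orderOf u = 2 ^ m) (hw : orderOf w = 2)
    (hwu : w ∉ Subgroup.zpowers u) (huw : u * w = w * u)
    (hxu : x * u * x⁻¹ = u⁻¹) (hxw : x * w * x⁻¹ = u ^ 2 ^ (m - 1) * w)
    (hx2 : ∀ i e : ℕ, (x * (u ^ i * w ^ e)) ^ 4 = 1)
    (hdec : ∀ t : T, ∃ i e : ℕ, t = u ^ i * w ^ e ∨ t = x * (u ^ i * w ^ e))
    (hxA : ∀ i e : ℕ, x ≠ u ^ i * w ^ e) :
    IsPGroup 2 (MulAut T) := by
  have hm8 : 8 ≤ 2 ^ m := le_trans (by norm_num) (Nat.pow_le_pow_right two_pos hm)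
  have hw2 : w ^ 2 = 1 := orderOf_dvd_iff_pow_eq_one.mp (hw ▸ dvd_rfl)
  have hc : Commute u w := huw
  have hh : 2 ^ (m - 1) * 2 = 2 ^ m := by rw [← pow_succ, show m - 1 + 1 = m by omega]
  let A : Subgroup T :=
    { carrier := {t | ∃ i e : ℕ, t = u ^ i * w ^ e}
      one_mem' := ⟨0, 0, by simp⟩
      mul_mem' := by
        rintro _ _ ⟨i, e, rfl⟩ ⟨j, f, rfl⟩
        refine ⟨i + j, e + f, ?_⟩
        rw [pow_add, pow_add, mul_assoc, ← mul_assoc (w ^ e), (hc.symm.pow_pow e j).eq]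
        simp [mul_assoc]
      inv_mem' := by
        rintro _ ⟨i, e, rfl⟩
        refine ⟨i * (orderOf u - 1), e, ?_⟩
        rw [inv_eq_iff_mul_eq_one, mul_assoc, ← mul_assoc (w ^ e),
          (hc.symm.pow_pow e _).eq, mul_assoc, ← pow_add, ← two_mul, pow_mul w, hw2, one_pow,
          mul_one, ← pow_add, show i + i * (orderOf u - 1) = orderOf u * i by
            rw [hu]; cases h : 2 ^ m <;> simp_all <;> ring,
          pow_mul, pow_orderOf_eq_one, one_pow] }
  have hAmem : ∀ t, t ∈ A ↔ ∃ i e : ℕ, t = u ^ i * w ^ e := fun t => Iff.rfl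
  have hxnA : x ∉ A := fun hh => by obtain ⟨i, e, h⟩ := (hAmem x).mp hh; exact hxA i e h
  have hA2 : A.index = 2 := by
    rw [Subgroup.index_eq_two_iff_exists_notMem_and']
    refine ⟨x⁻¹, fun hh => hxnA (by simpa using A.inv_mem hh), fun t => ?_⟩
    obtain ⟨i, e, h | h⟩ := hdec t
    · exact Or.inr ((hAmem t).mpr ⟨i, e, h⟩)
    · exact Or.inl ((hAmem _).mpr ⟨i, e, by rw [h, inv_mul_cancel_left]⟩)
  have hw4 : w ^ 4 = 1 := by rw [show (4 : ℕ) = 2 * 2 from rfl, pow_mul, hw2, one_pow]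
  refine isPGroup_mulAut hT A hA2 x hxnA fun α => ?_
  have hαu4 : (α u) ^ 4 ≠ 1 := by
    rw [← map_pow, Ne, map_eq_one_iff α α.injective]
    intro h4
    have := Nat.le_of_dvd (by norm_num) (hu ▸ orderOf_dvd_of_pow_eq_one h4)
    omega
  obtain ⟨i, e, hαu⟩ : ∃ i e : ℕ, α u = u ^ i * w ^ e := by
    obtain ⟨i, e, h | h⟩ := hdec (α u)
    · exact ⟨i, e, h⟩
    · exact absurd (h ▸ hx2 i e) hαu4
  have hi : Odd i := by
    by_contra hi
    obtain ⟨c, rfl⟩ := Nat.not_odd_iff_even.mp hi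
    have h1 : (α u) ^ 2 ^ (m - 1) = 1 := by
      rw [hαu, (hc.pow_pow _ _).mul_pow, ← pow_mul, ← pow_mul, show (c + c) * 2 ^ (m - 1) =
        2 ^ m * c by rw [← hh]; ring, pow_mul, ← hu, pow_orderOf_eq_one, one_pow, one_mul,
        show m - 1 = m - 2 + 1 by omega, pow_succ, ← mul_assoc, pow_mul', hw2, one_pow]
    rw [← map_pow, map_eq_one_iff α α.injective] at h1
    have h2 := hu ▸ orderOf_dvd_of_pow_eq_one h1
    rw [Nat.pow_dvd_pow_iff_le_right (by norm_num)] at h2
    omega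
  set z := u ^ 2 ^ (m - 1) with hz
  have hz2 : z ^ 2 = 1 := by rw [hz, ← pow_mul, hh, ← hu, pow_orderOf_eq_one]
  have hαz : α z = z := by
    obtain ⟨c, rfl⟩ := hi
    rw [hz, map_pow, hαu, (hc.pow_pow _ _).mul_pow, ← pow_mul, ← pow_mul,
      show (2 * c + 1) * 2 ^ (m - 1) = 2 ^ m * c + 2 ^ (m - 1) by rw [← hh]; ring, pow_add,
      pow_mul u (2 ^ m) c, ← hu, pow_orderOf_eq_one, one_pow, one_mul,
      show m - 1 = m - 2 + 1 by omega, pow_succ, ← mul_assoc, pow_mul' w, hw2, one_pow, mul_one]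
  obtain ⟨j, f, hαw⟩ : ∃ j f : ℕ, α w = u ^ j * w ^ f := by
    obtain ⟨j, f, h | h⟩ := hdec (α w)
    · exact ⟨j, f, h⟩
    exfalso
    -- `α w` would invert the order `2 ^ m` part of `α u`
    set a := u ^ j * w ^ f with ha
    have hca : a * α u * a⁻¹ = α u := by
      have : Commute a (α u) := by
        rw [ha, hαu]
        exact (((Commute.refl u).pow_pow j i).mul_left (hc.symm.pow_pow f i)).mul_right
          (((hc.pow_pow j e)).mul_left ((Commute.refl w).pow_pow f e))
      rw [this.eq, mul_inv_cancel_right]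
    have hcm : α w * α u * (α w)⁻¹ = α u := by
      rw [← map_mul, ← huw, map_mul, mul_inv_cancel_right]
    rw [h, mul_inv_rev] at hcm
    have h5 : x * α u * x⁻¹ = α u := by
      calc x * α u * x⁻¹ = x * (a * α u * a⁻¹) * x⁻¹ := by rw [hca]
        _ = x * a * α u * (a⁻¹ * x⁻¹) := by group
        _ = α u := hcm
    rw [hαu] at h5
    have e1 : x * (u ^ i * w ^ e) * x⁻¹ = (u⁻¹) ^ i * (z * w) ^ e := by
      rw [← hxu, ← hxw, conj_pow, conj_pow]; group
    rw [e1, inv_pow] at h5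
    have hzw : Commute z w := hc.pow_left _
    have hu2i : (u ^ i) ^ 2 = z ^ e := by
      rw [hzw.mul_pow, ← mul_assoc] at h5
      have h6 := mul_right_cancel h5
      rw [inv_mul_eq_iff_eq_mul] at h6
      rw [h6, pow_two]
    have h4i : u ^ (i * 4) = 1 := by
      rw [show i * 4 = i * 2 * 2 by ring, pow_mul, pow_mul, hu2i, ← pow_mul, mul_comm e 2,
        pow_mul, hz2, one_pow]
    have h7 : 2 ^ m ∣ i * 4 := hu ▸ orderOf_dvd_of_pow_eq_one h4i
    have h8 : 2 ^ m ∣ 4 :=
      ((Nat.coprime_two_left.mpr hi).pow_left m).dvd_of_dvd_mul_left h7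
    have := Nat.le_of_dvd (by norm_num) h8
    omega
  have hαw2 : (α w) ^ 2 = 1 := by rw [← map_pow, hw2, map_one]
  have huj : u ^ j = 1 ∨ u ^ j = z := by
    rw [hαw, (hc.pow_pow j f).mul_pow, ← pow_mul, ← pow_mul, pow_mul' w, hw2, one_pow,
      mul_one] at hαw2
    have h9 : 2 ^ m ∣ j * 2 := hu ▸ orderOf_dvd_of_pow_eq_one hαw2
    rw [← hh] at h9
    obtain ⟨c, rfl⟩ := Nat.dvd_of_mul_dvd_mul_right two_pos h9
    rcases Nat.even_or_odd' c with ⟨d, rfl | rfl⟩
    · left
      rw [← mul_assoc, pow_mul, hh, ← hu, pow_orderOf_eq_one, one_pow]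
    · right
      rw [mul_add, mul_one, pow_add, ← mul_assoc, pow_mul, hh, ← hu, pow_orderOf_eq_one,
        one_pow, one_mul]
  have hw1 : w ≠ 1 := fun hh => by simp [hh] at hw
  have hαw' : α w = w ∨ α w = z * w := by
    rcases Nat.even_or_odd' f with ⟨d, rfl | rfl⟩
    · exfalso
      rw [pow_mul, hw2, one_pow, mul_one] at hαw
      rcases huj with h | h
      · rw [h, map_eq_one_iff α α.injective] at hαw; exact hw1 hαw
      · rw [h, ← hαz] at hαw
        exact hwu (α.injective hαw ▸ Subgroup.pow_mem _ (Subgroup.mem_zpowers u) _)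
    · rw [pow_succ, pow_mul, hw2, one_pow, one_mul] at hαw
      rcases huj with h | h <;> rw [h] at hαw
      · exact Or.inl (by rw [hαw, one_mul])
      · exact Or.inr hαw
  have hαA : ∀ a ∈ A, α a ∈ A := by
    rintro _ ⟨k, l, rfl⟩
    rw [map_mul, map_pow, map_pow]
    exact A.mul_mem (A.pow_mem ((hAmem _).mpr ⟨i, e, hαu⟩) k)
      (A.pow_mem ((hAmem _).mpr ⟨j, f, hαw⟩) l)
  refine ⟨hαA, ?_⟩
  -- `α ^ 2` fixes `w` and sends `u` to a power of itself up to `w`
  have hα2w : (α ^ 2) w = w := by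
    rw [pow_two, MulAut.mul_apply]
    rcases hαw' with h | h <;> rw [h]
    · exact h
    · rw [map_mul, h, hαz, ← mul_assoc, ← pow_two, hz2, one_mul]
  obtain ⟨i', e', hα2u⟩ : ∃ i' e' : ℕ, (α ^ 2) u = u ^ i' * w ^ e' := by
    have h := hαA _ ((hAmem _).mpr ⟨i, e, hαu⟩)
    rw [hAmem] at h
    rw [pow_two, MulAut.mul_apply]
    exact h
  have hi' : Odd i' := by
    by_contra hcon
    obtain ⟨c, rfl⟩ := Nat.not_odd_iff_even.mp hcon
    have h1 : ((α ^ 2) u) ^ 2 ^ (m - 1) = 1 := by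
      rw [hα2u, (hc.pow_pow _ _).mul_pow, ← pow_mul, ← pow_mul, show (c + c) * 2 ^ (m - 1) =
        2 ^ m * c by rw [← hh]; ring, pow_mul, ← hu, pow_orderOf_eq_one, one_pow, one_mul,
        show m - 1 = m - 2 + 1 by omega, pow_succ, ← mul_assoc, pow_mul', hw2, one_pow]
    rw [← map_pow, map_eq_one_iff _ (α ^ 2).injective] at h1
    have h2 := hu ▸ orderOf_dvd_of_pow_eq_one h1
    rw [Nat.pow_dvd_pow_iff_le_right (by norm_num)] at h2
    omega
  -- the fourth power sends `u` to a power of `u`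
  have hα4u : ((α ^ 2) ^ 2) u = u ^ (i' * i') := by
    obtain ⟨c, hc'⟩ := hi'
    rw [pow_two (α ^ 2), MulAut.mul_apply, hα2u, map_mul, map_pow, map_pow, hα2u, hα2w,
      (hc.pow_pow _ _).mul_pow, ← pow_mul, ← pow_mul, mul_assoc, ← pow_add,
      show e' * i' + e' = 2 * (e' * (c + 1)) by rw [hc']; ring, pow_mul w, hw2, one_pow, mul_one]
  set γ := (α ^ 2) ^ 2 with hγ
  have hγw : γ w = w := by rw [hγ, pow_two (α ^ 2), MulAut.mul_apply, hα2w, hα2w]
  have hγpow : ∀ k : ℕ, (γ ^ k) u = u ^ ((i' * i') ^ k) ∧ (γ ^ k) w = w := by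
    intro k
    induction k with
    | zero => simp
    | succ k ih =>
      rw [pow_succ', MulAut.mul_apply, MulAut.mul_apply, ih.1, ih.2, map_pow, hα4u, hγw,
        ← pow_mul, ← pow_succ']
      exact ⟨rfl, rfl⟩
  refine ⟨2 + (m - 1), ?_⟩
  rintro _ ⟨k, l, rfl⟩
  rw [pow_add 2, show (2 : ℕ) ^ 2 = 2 * 2 from rfl, pow_mul, pow_mul, ← hγ, map_mul, map_pow,
    map_pow, (hγpow _).1, (hγpow _).2]
  congr 2
  -- `i'` is odd, so `(i'^2)^(2^(m-1))` is `1` modulo `2^m`
  conv_rhs => rw [← pow_one u]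
  rw [pow_eq_pow_iff_modEq, hu]
  have hcop : Nat.Coprime (i' * i') (2 ^ m) :=
    Nat.Coprime.pow_right _ ((Nat.coprime_two_right.mpr (hi'.mul hi')))
  have h := Nat.ModEq.pow_totient hcop
  rwa [Nat.totient_prime_pow Nat.prime_two (by omega), show 2 ^ (m - 1) * (2 - 1) = 2 ^ (m - 1) by
    norm_num] at h

/-- Let q = 2^m + 1 be a prime other than 5. Then the automorphism group of the group of linear maps of F_q² of the forms (x, y) ↦ (a x, ± a⁻¹ y) and (x, y) ↦ (± a⁻¹ y, a x) with a ≠ 0 is itself a 2-group. -/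
theorem result (q m : ℕ) [Fact q.Prime] (hq : q = 2 ^ m + 1) (hq5 : q ≠ 5)
    (T : Subgroup ((Fin 2 → ZMod q) ≃ₗ[ZMod q] (Fin 2 → ZMod q)))
    (hT : ∀ f, f ∈ T ↔ ∃ a s : ZMod q, a ≠ 0 ∧ (s = 1 ∨ s = -1) ∧
      ((∀ v, f v = ![a * v 0, s * a⁻¹ * v 1]) ∨ (∀ v, f v = ![s * a⁻¹ * v 1, a * v 0]))) :
    IsPGroup 2 (MulAut T) := by
  have hp : q.Prime := Fact.out
  have hunit : ∀ s : ZMod q, s = 1 ∨ s = -1 → s ≠ 0 := by
    rintro s (rfl | rfl) <;> simp
  have hmem : ∀ f, f ∈ T ↔ ∃ a s : (ZMod q)ˣ, (s = 1 ∨ s = -1) ∧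
      (f = diagE a (s * a⁻¹) ∨ f = swapE * diagE a (s * a⁻¹)) := by
    intro f
    rw [hT]
    constructor
    · rintro ⟨a, s, ha, hs, h⟩
      refine ⟨Units.mk0 a ha, Units.mk0 s (hunit s hs), hs.imp (fun h => Units.ext h)
        (fun h => Units.ext (by simpa using h)), ?_⟩
      rcases h with h | h
      · left; ext v i; rw [h v]; fin_cases i <;> simp [-ZMod.inv_coe_unit, diagE]
      · right; ext v i; rw [h v]; fin_cases i <;> simp [-ZMod.inv_coe_unit, diagE, swapE]
    · rintro ⟨a, s, hs, h⟩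
      refine ⟨a, s, a.ne_zero, hs.imp (by rintro rfl; simp) (by rintro rfl; simp), ?_⟩
      rcases h with rfl | rfl
      · left; intro v; ext i; fin_cases i <;> simp [-ZMod.inv_coe_unit, diagE]
      · right; intro v; ext i; fin_cases i <;> simp [-ZMod.inv_coe_unit, diagE, swapE]
  have hcardU : Nat.card (ZMod q)ˣ = 2 ^ m := by
    rw [Nat.card_eq_fintype_card, ZMod.card_units, hq, Nat.add_sub_cancel]
  have hcop : ∀ (a b : (ZMod q)ˣ), diagE a b ^ 2 ^ m = 1 := by
    intro a b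
    rw [diagE_pow, ← hcardU, pow_card_eq_one', pow_card_eq_one', diagE_one]
  have hfin : Finite ((Fin 2 → ZMod q) ≃ₗ[ZMod q] (Fin 2 → ZMod q)) :=
    Finite.of_injective (fun f => (f : (Fin 2 → ZMod q) → (Fin 2 → ZMod q))) DFunLike.coe_injective
  have hT2 : IsPGroup 2 T := by
    rintro ⟨f, hf⟩
    refine ⟨m + 1, Subtype.ext ?_⟩
    obtain ⟨a, s, hs, h⟩ := (hmem f).mp hf
    rw [SubmonoidClass.coe_pow, OneMemClass.coe_one]
    rcases h with rfl | rfl
    · rw [pow_succ, pow_mul, hcop, one_pow]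
    · rw [pow_succ', pow_mul, pow_two, swapE_mul_diagE_sq, hcop]
  rcases Nat.lt_or_ge m 3 with hm | hm
  · interval_cases m
    · -- `q = 2`
      subst hq
      have : Subsingleton (ZMod 2)ˣ := by
        apply (Fintype.card_le_one_iff_subsingleton).mp
        rw [ZMod.card_units]
      have h1 : Nat.card (MulAut T) = 1 := by
        rw [Nat.card_eq_one_iff_unique]
        refine ⟨⟨fun α β => MulEquiv.ext fun t => ?_⟩, inferInstance⟩
        have hone : ∀ t : T, t = 1 ∨ (t : (Fin 2 → ZMod 2) ≃ₗ[ZMod 2] (Fin 2 → ZMod 2)) = swapE := by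
          rintro ⟨f, hf⟩
          obtain ⟨a, s, -, h | h⟩ := (hmem f).mp hf <;>
            rw [Subsingleton.elim (s * a⁻¹) 1, Subsingleton.elim a 1] at h <;>
            simp only [diagE_one, mul_one] at h
          · exact Or.inl (Subtype.ext h)
          · exact Or.inr h
        rcases hone t with h | h
        · rw [h, map_one, map_one]
        · have key : ∀ γ : MulAut T, γ t = t := fun γ => by
            rcases hone (γ t) with h' | h'
            · rw [map_eq_one_iff γ γ.injective] at h'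
              rw [h', map_one]
            · exact Subtype.ext (h'.trans h.symm)
          rw [key, key]
      exact IsPGroup.of_card (n := 0) (by rw [h1, pow_zero])
    · -- `q = 3`
      obtain rfl : q = 3 := by simpa using hq
      have hu : ∀ a : (ZMod 3)ˣ, a = 1 ∨ a = -1 := units_three
      have hcmem : swapE * diagE (1 : (ZMod 3)ˣ) (-1) ∈ T :=
        (hmem _).mpr ⟨1, -1, Or.inr rfl, Or.inr (by simp)⟩
      set c : T := ⟨_, hcmem⟩ with hc
      have hc2 : ((c ^ 2 : T) : (Fin 2 → ZMod 3) ≃ₗ[ZMod 3] _) = diagE (-1) (-1) := by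
        rw [SubmonoidClass.coe_pow, pow_two, hc, swapE_mul_diagE_sq]; simp
      have hneg : (-1 : (ZMod 3)ˣ) ≠ 1 := neg_one_ne_one_three
      have hc21 : c ^ 2 ≠ 1 := fun h => by
        rw [h, OneMemClass.coe_one, ← diagE_one] at hc2
        exact hneg (diagE_inj hc2).1.symm
      have hc4 : c ^ 4 = 1 := Subtype.ext (by
        rw [show (4 : ℕ) = 2 * 2 from rfl, pow_mul, SubmonoidClass.coe_pow, hc2, diagE_pow]
        simp [-ZMod.inv_coe_unit, diagE_one])
      have hc3 : ((c ^ 3 : T) : (Fin 2 → ZMod 3) ≃ₗ[ZMod 3] _) =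
          swapE * diagE (-1) 1 := by
        rw [pow_succ', Subgroup.coe_mul, hc2, hc, mul_assoc, diagE_mul]; simp
      have key : ∀ t : T, t ^ 2 = 1 ∨ t = c ∨ t = c ^ 3 := by
        rintro ⟨f, hf⟩
        obtain ⟨a, s, hs, h⟩ := (hmem f).mp hf
        rcases h with rfl | rfl
        · left
          refine Subtype.ext ?_
          rw [SubmonoidClass.coe_pow, diagE_pow, OneMemClass.coe_one, ← diagE_one]
          rcases hu a with rfl | rfl <;> rcases hs with rfl | rfl <;> simp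
        · rcases hu a with rfl | rfl <;> rcases hs with rfl | rfl
          · left; refine Subtype.ext ?_
            rw [SubmonoidClass.coe_pow, pow_two, swapE_mul_diagE_sq, OneMemClass.coe_one,
              ← diagE_one]
            simp
          · right; left; refine Subtype.ext ?_; simp [hc]
          · left; refine Subtype.ext ?_
            rw [SubmonoidClass.coe_pow, pow_two, swapE_mul_diagE_sq, OneMemClass.coe_one,
              ← diagE_one]
            simp
          · right; right; refine Subtype.ext ?_; rw [hc3]; simp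
      have hoc : orderOf c = 4 := by
        apply orderOf_eq_prime_pow (p := 2) (n := 1)
        · rwa [pow_one]
        · exact hc4
      have hx : diagE (1 : (ZMod 3)ˣ) (-1) ∈ T :=
        (hmem _).mpr ⟨1, -1, Or.inr rfl, Or.inl (by simp)⟩
      set x : T := ⟨_, hx⟩ with hxdef
      have hpows : ∀ t ∈ Subgroup.zpowers c, t = 1 ∨ t = c ∨ t = c ^ 2 ∨ t = c ^ 3 := by
        intro t ht
        obtain ⟨k, rfl⟩ := mem_powers_iff_mem_zpowers.mpr ht
        have h : c ^ k = c ^ (k % 4) := by rw [← hoc, pow_mod_orderOf]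
        have h4 : k % 4 < 4 := Nat.mod_lt _ (by norm_num)
        show c ^ k = 1 ∨ c ^ k = c ∨ c ^ k = c ^ 2 ∨ c ^ k = c ^ 3
        rw [h]
        interval_cases k % 4 <;> simp
      have hxA : x ∉ Subgroup.zpowers c := by
        intro hxc
        rcases hpows x hxc with h | h | h | h <;> have h' := congrArg Subtype.val h
        · rw [OneMemClass.coe_one, ← diagE_one] at h'
          exact hneg (diagE_inj h').2
        · have h'' : diagE (1 : (ZMod 3)ˣ) (-1) = swapE * diagE 1 (-1) := h'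
          exact swapE_ne_diagE _ _ ((mul_eq_right.mp h''.symm).trans diagE_one.symm)
        · rw [hc2] at h'
          exact hneg (diagE_inj h').1.symm
        · rw [hc3] at h'
          have h'' : diagE (1 : (ZMod 3)ˣ) (-1) = swapE * diagE (-1) 1 := h'
          have h3 := congrArg (fun g => g * diagE (-1 : (ZMod 3)ˣ) 1) h''
          simp only [mul_assoc, diagE_mul] at h3
          simp only [mul_neg, mul_one, neg_neg, diagE_one] at h3
          exact swapE_ne_diagE _ _ h3.symm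
      refine isPGroup_mulAut hT2 (Subgroup.zpowers c) ?_ x hxA fun α => ?_
      · have h8 : Nat.card T ≤ 8 := by
          let g : (ZMod 3)ˣ × (ZMod 3)ˣ × Bool →
              (Fin 2 → ZMod 3) ≃ₗ[ZMod 3] (Fin 2 → ZMod 3) :=
            fun p => if p.2.2 then diagE p.1 p.2.1 else swapE * diagE p.1 p.2.1
          have hsub : (T : Set _) ⊆ Set.range g := by
            intro f hf
            obtain ⟨a, s, -, h | h⟩ := (hmem f).mp hf
            · exact ⟨(a, s * a⁻¹, true), by simp [g, h]⟩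
            · exact ⟨(a, s * a⁻¹, false), by simp [g, h]⟩
          refine (Nat.card_mono (Set.toFinite _) hsub).trans ((Finite.card_range_le g).trans ?_)
          simp [Nat.card_eq_fintype_card, ZMod.card_units, Nat.totient_prime hp]
        have h := (Subgroup.zpowers c).card_mul_index
        rw [Nat.card_zpowers, hoc] at h
        have h1 : (Subgroup.zpowers c).index ≠ 1 := fun h1 => hxA (by
          rw [Subgroup.index_eq_one.mp h1]; exact Subgroup.mem_top x)
        have h0 : (Subgroup.zpowers c).index ≠ 0 := Subgroup.index_ne_zero_of_finite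
        omega
      · have hαc : α c = c ∨ α c = c ^ 3 := by
          rcases key (α c) with h | h
          · rw [← map_pow, map_eq_one_iff α α.injective] at h
            exact absurd h hc21
          · exact h
        refine ⟨?_, 1, ?_⟩
        · rintro _ ⟨k, rfl⟩
          show α (c ^ k) ∈ _
          rw [map_zpow]
          refine Subgroup.zpow_mem _ ?_ _
          rcases hαc with h | h <;> rw [h]
          · exact Subgroup.mem_zpowers c
          · exact Subgroup.pow_mem _ (Subgroup.mem_zpowers c) _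
        · rintro _ ⟨k, rfl⟩
          show (α ^ 2 ^ 1) (c ^ k) = c ^ k
          rw [map_zpow, pow_one, pow_two, MulAut.mul_apply]
          congr 1
          rcases hαc with h | h
          · rw [h, h]
          · rw [h, map_pow, h, ← pow_mul]
            calc c ^ (3 * 3) = (c ^ 4) ^ 2 * c := by rw [← pow_mul, ← pow_succ]
              _ = c := by rw [hc4, one_pow, one_mul]
    · subst hq; norm_num at hq5
  · obtain ⟨g, hg⟩ := IsCyclic.exists_generator (α := (ZMod q)ˣ)
    have hog : orderOf g = 2 ^ m := by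
      rw [← hcardU, orderOf_eq_card_of_forall_mem_zpowers hg]
    have hu : diagE g g⁻¹ ∈ T := (hmem _).mpr ⟨g, 1, Or.inl rfl, Or.inl (by simp)⟩
    have hw : diagE (1 : (ZMod q)ˣ) (-1) ∈ T := (hmem _).mpr ⟨1, -1, Or.inr rfl, Or.inl (by simp)⟩
    have hx : (swapE : (Fin 2 → ZMod q) ≃ₗ[ZMod q] _) ∈ T :=
      (hmem _).mpr ⟨1, 1, Or.inl rfl, Or.inr (by simp [-ZMod.inv_coe_unit, diagE_one])⟩
    have hq2 : 2 < q := by
      rw [hq]
      have := Nat.pow_le_pow_right two_pos hm
      omega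
    have hneg : (-1 : (ZMod q)ˣ) ≠ 1 := by
      intro h
      have h2 : (-1 : ZMod q) = 1 := by simpa using congrArg Units.val h
      have : Fact (2 < q) := ⟨hq2⟩
      exact ZMod.neg_one_ne_one h2
    have hsw : (swapE : (Fin 2 → ZMod q) ≃ₗ[ZMod q] _)⁻¹ = swapE :=
      inv_eq_of_mul_eq_one_right swapE_sq
    have hghalf : g ^ 2 ^ (m - 1) = -1 := by
      have h1 : ((g ^ 2 ^ (m - 1) : (ZMod q)ˣ) : ZMod q) ^ 2 = 1 := by
        rw [← Units.val_pow_eq_pow_val, ← pow_mul, ← pow_succ, show m - 1 + 1 = m by omega,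
          ← hog, pow_orderOf_eq_one, Units.val_one]
      rcases sq_eq_one_iff.mp h1 with h | h
      · exfalso
        have h' : g ^ 2 ^ (m - 1) = 1 := Units.ext h
        have h2 := hog ▸ orderOf_dvd_of_pow_eq_one h'
        rw [Nat.pow_dvd_pow_iff_le_right (by norm_num)] at h2
        omega
      · exact Units.ext (by simpa using h)
    have hwo : diagE (1 : (ZMod q)ˣ) (-1) ≠ 1 := fun h => by
      rw [← diagE_one] at h; exact hneg (diagE_inj h).2
    refine isPGroup_mulAut_monomial hT2 m hm ⟨_, hu⟩ ⟨_, hw⟩ ⟨_, hx⟩ ?_ ?_ ?_ ?_ ?_ ?_ ?_ ?_ ?_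
    · refine Nat.dvd_antisymm (orderOf_dvd_of_pow_eq_one (Subtype.ext (hcop _ _))) ?_
      rw [← hog]
      refine orderOf_dvd_of_pow_eq_one ?_
      have h := congrArg Subtype.val (pow_orderOf_eq_one (⟨_, hu⟩ : T))
      rw [SubmonoidClass.coe_pow, diagE_pow, OneMemClass.coe_one, ← diagE_one] at h
      exact (diagE_inj h).1
    · refine orderOf_eq_prime (Subtype.ext ?_) (fun h => hwo (congrArg Subtype.val h))
      rw [SubmonoidClass.coe_pow, diagE_pow, OneMemClass.coe_one, ← diagE_one]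
      simp
    · intro h
      obtain ⟨k, hk⟩ := mem_powers_iff_mem_zpowers.mpr h
      have h' := congrArg Subtype.val hk
      simp only [SubmonoidClass.coe_pow, diagE_pow] at h'
      obtain ⟨h1, h2⟩ := diagE_inj h'
      rw [inv_pow, h1, inv_one] at h2
      exact hneg h2.symm
    · refine Subtype.ext ?_
      simp only [Subgroup.coe_mul, diagE_mul, one_mul, mul_one, mul_comm]
    · refine Subtype.ext ?_
      show swapE * diagE g g⁻¹ * swapE⁻¹ = (diagE g g⁻¹)⁻¹
      rw [hsw, swapE_mul_diagE, mul_assoc, swapE_sq, mul_one]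
      refine eq_inv_of_mul_eq_one_left ?_
      rw [diagE_mul, inv_mul_cancel, mul_inv_cancel, diagE_one]
    · refine Subtype.ext ?_
      show swapE * diagE 1 (-1) * swapE⁻¹ = diagE g g⁻¹ ^ 2 ^ (m - 1) * diagE 1 (-1)
      rw [hsw, swapE_mul_diagE, mul_assoc, swapE_sq, mul_one, diagE_pow, inv_pow, hghalf,
        diagE_mul]
      simp
    · intro i e
      refine Subtype.ext ?_
      show (swapE * (diagE g g⁻¹ ^ i * diagE 1 (-1) ^ e)) ^ 4 = 1
      rw [diagE_pow, diagE_pow, diagE_mul, show (4 : ℕ) = 2 * 2 from rfl, pow_mul, pow_two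
        (swapE * _), swapE_mul_diagE_sq, diagE_pow]
      have e1 : (g⁻¹) ^ i * (-1) ^ e * (g ^ i * 1 ^ e) = ((-1 : (ZMod q)ˣ)) ^ e := by
        rw [inv_pow, one_pow, mul_one, mul_comm ((g ^ i)⁻¹), inv_mul_cancel_right]
      have e2 : (g ^ i * 1 ^ e) * ((g⁻¹) ^ i * (-1) ^ e) = ((-1 : (ZMod q)ˣ)) ^ e := by
        rw [mul_comm, e1]
      rw [e1, e2, ← pow_mul, mul_comm e 2, pow_mul, neg_one_sq, one_pow, diagE_one]
    · intro t
      obtain ⟨a, s, hs, h⟩ := (hmem _).mp t.2
      obtain ⟨i, hi⟩ := mem_powers_iff_mem_zpowers.mpr (hg a)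
      have hi' : g ^ i = a := hi
      obtain ⟨e, he⟩ : ∃ e : ℕ, (-1 : (ZMod q)ˣ) ^ e = s := by
        rcases hs with rfl | rfl
        · exact ⟨0, pow_zero _⟩
        · exact ⟨1, pow_one _⟩
      refine ⟨i, e, h.imp (fun h => Subtype.ext ?_) (fun h => Subtype.ext ?_)⟩ <;>
        · simp only [Subgroup.coe_mul, SubmonoidClass.coe_pow, diagE_pow, diagE_mul, one_pow,
            mul_one, inv_pow, hi', he]
          rw [h, mul_comm s a⁻¹]
    · intro i e h
      have h' := congrArg Subtype.val h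
      simp only [Subgroup.coe_mul, SubmonoidClass.coe_pow, diagE_pow, diagE_mul] at h'
      exact swapE_ne_diagE _ _ h'

end Cfsg.Agent.S3382
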