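import Cfsg.Statements.S3383
import Cfsg.Agent.Recog.FrobeniusBasics
-- import your own Cfsg.Agent.* helpers here

set_option autoImplicit false
open Cfsg

namespace Cfsg.Agent.S3383

/-- Let H be a Frobenius complement in a finite group L and K the Frobenius kernel (as a subgroup). Then K is characteristic in L, and every normal subgroup of L either contains K or is contained in K. -/
theorem result {L : Type*} [Group L] [Finite L]
    (H : Subgroup L) (hH : Cfsg.IsFrobeniusComplement H)
    (K : Subgroup L) (hK : (K : Set L) = Cfsg.frobeniusKernel H) :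
    K.Characteristic ∧ ∀ N : Subgroup L, N.Normal → K ≤ N ∨ N ≤ K := by
  obtain ⟨hKn, hc⟩ := Cfsg.Agent.Recog.kernel_spec hH hK
  have hcop := Cfsg.Agent.Recog.coprime_card_kernel hH hK
  have hidx : K.index = Nat.card H := hc.symm.index_eq_card
  -- `K` consists of the elements of order dividing `#K`
  have hiff : ∀ x : L, x ∈ K ↔ x ^ Nat.card K = 1 := by
    intro x
    constructor
    · intro hx
      exact congrArg Subtype.val (pow_card_eq_one' (x := (⟨x, hx⟩ : K)))
    · intro hx
      have h1 : orderOf (QuotientGroup.mk' K x) ∣ Nat.card K :=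
        orderOf_dvd_of_pow_eq_one (by rw [← map_pow, hx, map_one])
      have h2 : orderOf (QuotientGroup.mk' K x) ∣ Nat.card H := by
        rw [← hidx, Subgroup.index_eq_card]
        exact orderOf_dvd_natCard _
      have h3 := Nat.eq_one_of_dvd_coprimes hcop h1 h2
      rwa [orderOf_eq_one_iff, ← MonoidHom.mem_ker, QuotientGroup.ker_mk'] at h3
  refine ⟨Subgroup.characteristic_iff_comap_eq.mpr fun φ => ?_, fun N hN => ?_⟩
  · ext x
    rw [Subgroup.mem_comap, hiff, hiff, ← map_pow]
    exact map_eq_one_iff φ φ.injective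
  · by_cases hle : N ≤ K
    · exact Or.inr hle
    left
    obtain ⟨n, hnN, hnK⟩ := SetLike.not_le_iff_exists.mp hle
    obtain ⟨g, hg⟩ := Cfsg.Agent.Recog.exists_conj_mem_of_notMem_kernel hK hnK
    set h := g⁻¹ * n * g with hh
    have hhN : h ∈ N := by
      have := hN.conj_mem n hnN g⁻¹
      simpa [hh] using this
    have hh1 : h ≠ 1 := by
      intro he
      apply hnK
      have : n = g * h * g⁻¹ := by rw [hh]; group
      rw [this, he]
      simp
    -- `k ↦ h k h⁻¹ k⁻¹` is injective on `K`, hence onto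
    let f : K → K := fun k => ⟨h * k * h⁻¹ * (k : L)⁻¹,
      K.mul_mem (hKn.conj_mem _ k.2 h) (K.inv_mem k.2)⟩
    have hf : Function.Injective f := by
      intro a b hab
      have he : h * a * h⁻¹ * (a : L)⁻¹ = h * b * h⁻¹ * (b : L)⁻¹ := congrArg Subtype.val hab
      have hcm : h * ((b : L)⁻¹ * a) = ((b : L)⁻¹ * a) * h := by
        calc h * ((b : L)⁻¹ * a)
            = (h * b * h⁻¹)⁻¹ * (h * a * h⁻¹ * (a : L)⁻¹) * a * h := by group
          _ = (h * b * h⁻¹)⁻¹ * (h * b * h⁻¹ * (b : L)⁻¹) * a * h := by rw [he]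
          _ = _ := by group
      exact Subtype.ext (inv_mul_eq_one.mp (Cfsg.Agent.Recog.eq_one_of_commute hH hK hg hh1
        (K.mul_mem (K.inv_mem b.2) a.2) hcm)).symm
    intro k hk
    obtain ⟨a, ha⟩ := Finite.surjective_of_injective hf ⟨k, hk⟩
    have hka : h * a * h⁻¹ * (a : L)⁻¹ = k := congrArg Subtype.val ha
    rw [← hka, show h * a * h⁻¹ * (a : L)⁻¹ = h * ((a : L) * h⁻¹ * (a : L)⁻¹) by group]
    exact N.mul_mem hhN (hN.conj_mem _ (N.inv_mem hhN) a)

end Cfsg.Agent.S3383
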