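import Cfsg.Statements.S3421
import Cfsg.Agent.OrderSpecPSL.Recognition
import Cfsg.Agent.SpecSquare.PSLTwo
import Cfsg.Agent.Linear.SmallIso

set_option autoImplicit false
open Cfsg

namespace Cfsg.Agent.S3421

/-- Let F be a finite field with more than 3 elements. A finite group G is isomorphic to PSL(2, F) if and only if G has the same set of element orders and the same order as PSL(2, F). -/
theorem result {G : Type*} [Group G] [Finite G] {F : Type*} [Field F] [Fintype F] (hF : 3 < Fintype.card F) :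
    Nonempty (G ≃* Matrix.ProjectiveSpecialLinearGroup (Fin 2) F) ↔
      (Set.range (orderOf : G → ℕ) = Set.range (orderOf : Matrix.ProjectiveSpecialLinearGroup (Fin 2) F → ℕ) ∧
        Nat.card G = Nat.card (Matrix.ProjectiveSpecialLinearGroup (Fin 2) F)) := by
  classical
  constructor
  · rintro ⟨e⟩
    refine ⟨?_, Nat.card_congr e.toEquiv⟩
    ext n
    constructor
    · rintro ⟨g, rfl⟩; exact ⟨e g, e.orderOf_eq g⟩
    · rintro ⟨g, rfl⟩; exact ⟨e.symm g, e.symm.orderOf_eq g⟩
  rintro ⟨hspec, hcard⟩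
  obtain ⟨p, hpc⟩ := CharP.exists F
  haveI := hpc
  obtain ⟨k, hp, hq⟩ := FiniteField.card F p
  haveI : Fact p.Prime := ⟨hp⟩
  set q := Fintype.card F with hqdef
  have hL := SpecSquare.mem_range_orderOf_psl_two (F := F) p
  rcases eq_or_ne p 2 with rfl | hp2
  · have heven : Even q := by rw [hq]; exact Nat.even_pow.mpr ⟨even_two, k.pos.ne'⟩
    refine (OrderSpecPSL.Hyp.nonempty_mulEquiv (p := 2) (k := (k : ℕ)) (a := q - 1) (b := q + 1)
      (d := 1) ⟨hp, by omega, by omega, by omega, Or.inl ⟨rfl, rfl⟩, ?_, fun n => ?_⟩ hq)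
    · rw [hcard, Linear.card_PSL_two_of_even heven, ← hq, one_mul, hqdef]; ring
    · rw [hspec, hL]; simp [SpecSquare.red, hqdef]
  · have hodd : q % 2 = 1 := by
      rw [hq]; exact Nat.odd_iff.mp ((hp.odd_of_ne_two hp2).pow)
    refine (OrderSpecPSL.Hyp.nonempty_mulEquiv (p := p) (k := (k : ℕ)) (a := (q - 1) / 2)
      (b := (q + 1) / 2) (d := 2) ⟨hp, by omega, by omega, by omega, Or.inr ⟨rfl, hp2⟩, ?_,
        fun n => ?_⟩ hq)
    · have h2 := Linear.card_PSL_two_of_odd (F := F) (Nat.odd_iff.mpr hodd)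
      rw [← hcard, ← hqdef] at h2
      rw [← hq]
      have e1 : q - 1 = 2 * ((q - 1) / 2) := by omega
      have e2 : q + 1 = 2 * ((q + 1) / 2) := by omega
      rw [e1, e2] at h2
      apply Nat.eq_of_mul_eq_mul_left two_pos
      rw [h2]; ring
    · rw [hspec, hL]; simp [SpecSquare.red, hp2, hqdef]

end Cfsg.Agent.S3421
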