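import Cfsg.Statements.S3433
import Cfsg.Agent.SpecFive.Extension

set_option autoImplicit false
open Cfsg

namespace Cfsg.Agent.S3433

/-- A finite group whose set of element orders is exactly {1, 2, 3, 4, 5} is isomorphic to the alternating group of degree 6, or has a normal elementary abelian 2-subgroup with quotient isomorphic to the alternating group of degree 5. -/
theorem result {G : Type*} [Group G] [Finite G] (h : Set.range (orderOf : G → ℕ) = {k : ℕ | 1 ≤ k ∧ k ≤ 5}) :
    Nonempty (G ≃* ↥(alternatingGroup (Fin 6))) ∨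
      ∃ (N : Subgroup G) (_ : N.Normal), Cfsg.IsElementaryAbelian 2 N ∧ Nonempty (G ⧸ N ≃* ↥(alternatingGroup (Fin 5))) := by
  have hb : SpecFive.Bound G := fun g => by
    have := (Set.ext_iff.mp h (orderOf g)).mp ⟨g, rfl⟩
    exact this.2
  have hd : ∀ k, 1 ≤ k → k ≤ 5 → k ∣ Nat.card G := fun k h1 h2 => by
    obtain ⟨g, rfl⟩ := (Set.ext_iff.mp h k).mpr ⟨h1, h2⟩
    exact orderOf_dvd_natCard g
  exact SpecFive.Full.structure_five ⟨hb, hd 2 (by norm_num) (by norm_num),
    hd 3 (by norm_num) (by norm_num), hd 5 (by norm_num) (by norm_num)⟩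

end Cfsg.Agent.S3433
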