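import Cfsg.Statements.S3704
import Cfsg.Agent.Suborbit.TwoOrbits

set_option autoImplicit false
open Cfsg

namespace Cfsg.Agent.S3704

/-- Let G be a finite group acting faithfully and 2-transitively on a finite set Ω of size n, and let H be a subgroup of index n in G which is not transitive on Ω and fixes no point of Ω. Then H has exactly two orbits on Ω. -/
theorem result {G Ω : Type*} [Group G] [Finite G] [MulAction G Ω] [FaithfulSMul G Ω] [Finite Ω] (h2 : MulAction.IsMultiplyPretransitive G Ω 2) (H : Subgroup G) (hidx : H.index = Nat.card Ω) (hnt : ¬ MulAction.IsPretransitive H Ω) (hfix : ∀ a : Ω, ∃ h : H, h • a ≠ a) : Nat.card (MulAction.orbitRel.Quotient H Ω) = 2 := by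
  obtain ⟨x, y, hxy⟩ : ∃ x y : Ω, x ∉ MulAction.orbit H y := by
    by_contra hc
    push Not at hc
    exact hnt ⟨fun a b => by obtain ⟨h, hh⟩ := hc b a; exact ⟨h, hh⟩⟩
  have hinv : ∀ z : Ω, ∀ h ∈ H, ∀ w : Ω, h • w ∈ MulAction.orbit H z ↔ w ∈ MulAction.orbit H z := by
    intro z h hh w
    rw [MulAction.mem_orbit_symm, MulAction.mem_orbit_symm (a₁ := w)]
    rw [show MulAction.orbit H (h • w) = MulAction.orbit H w from MulAction.orbit_eq_iff.2 ⟨⟨h, hh⟩, rfl⟩]
  have hall := Suborbit.two_orbits h2 H hidx _ _ (hinv x) (hinv y)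
    (fun w hw hw' => hxy (by
      rw [← MulAction.orbit_eq_iff] at hw hw' ⊢
      exact hw.symm.trans hw'))
    x y (MulAction.mem_orbit_self x) (MulAction.mem_orbit_self y)
  refine Nat.card_eq_two_iff.2 ⟨Quotient.mk _ x, Quotient.mk _ y, fun h => hxy ?_, ?_⟩
  · exact MulAction.orbitRel_apply.1 (Quotient.exact h)
  · refine Set.eq_univ_iff_forall.2 fun q => ?_
    induction q using Quotient.inductionOn with
    | h w =>
      exact (hall w).imp (fun h => Quotient.sound (MulAction.orbitRel_apply.2 h)) (fun h => Quotient.sound (MulAction.orbitRel_apply.2 h))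

end Cfsg.Agent.S3704
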