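import Cfsg.Statements.S3733

set_option autoImplicit false
open Cfsg

namespace Cfsg.Agent.S3733

/-- Let A and V be subgroups of a finite group with V abelian and nontrivial and A normalizing V. Suppose a nonempty finite family of proper subgroups of A partitions A: every non-identity element of A lies in exactly one member. If the number of members minus one is coprime to the order of V, then some member B of the family has a non-identity fixed point on V, that is V ∩ C(B) ≠ 1. -/
theorem result {G : Type*} [Group G] [Finite G] (A V : Subgroup G) (hVab : IsMulCommutative V) (hV : V ≠ ⊥) (hAV : A ≤ Subgroup.normalizer (V : Set G)) (𝒜 : Finset (Subgroup G)) (hne : 𝒜.Nonempty) (hprop : ∀ B ∈ 𝒜, B < A) (hpart : ∀ a ∈ A, a ≠ 1 → ∃! B, B ∈ 𝒜 ∧ a ∈ B) (hk : (𝒜.card - 1).Coprime (Nat.card V)) : ∃ B ∈ 𝒜, V ⊓ Subgroup.centralizer (B : Set G) ≠ ⊥ := by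
  classical
  by_contra hno
  push Not at hno
  obtain ⟨v, hv, hv1⟩ := V.ne_bot_iff_exists_ne_one.mp hV |> fun ⟨v, hv⟩ =>
    (⟨(v : G), v.2, fun e => hv (Subtype.ext e)⟩ : ∃ v : G, v ∈ V ∧ v ≠ 1)
  haveI : Fintype G := Fintype.ofFinite G
  letI : CommGroup V := { (inferInstance : Group V) with mul_comm := hVab.is_comm.comm }
  let f : G → V := fun a =>
    if h : a ∈ A then ⟨a * v * a⁻¹, (Subgroup.mem_normalizer_iff.mp (hAV h) v).mp hv⟩ else 1
  have hf : ∀ a ∈ A, (f a : G) = a * v * a⁻¹ := fun a ha => by simp [f, ha]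
  let S : Subgroup G → Finset G := fun B => Finset.univ.filter (· ∈ B)
  -- the product over a subgroup of `A` is a fixed point, hence trivial
  have hfixed : ∀ (C : Subgroup G), C ≤ A → ∀ B ∈ 𝒜, B ≤ C → ∏ a ∈ S C, f a = 1 := by
    intro C hC B hB hBC
    have hmem : ((∏ a ∈ S C, f a : V) : G) ∈ V ⊓ Subgroup.centralizer (B : Set G) := by
      refine ⟨(∏ a ∈ S C, f a).2, Subgroup.mem_centralizer_iff.mpr fun b hb => ?_⟩
      let c : V →* V :=
        { toFun := fun w => ⟨b * w * b⁻¹,
            (Subgroup.mem_normalizer_iff.mp (hAV ((hprop B hB).le hb)) w).mp w.2⟩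
          map_one' := Subtype.ext (by simp)
          map_mul' := fun w w' => Subtype.ext (by simp [mul_assoc]) }
      have hc : c (∏ a ∈ S C, f a) = ∏ a ∈ S C, f a := by
        rw [map_prod]
        refine Finset.prod_nbij' (b * ·) (b⁻¹ * ·) ?_ ?_ ?_ ?_ ?_
        · intro a ha
          simp only [S, Finset.mem_filter, Finset.mem_univ, true_and] at ha ⊢
          exact mul_mem (hBC hb) ha
        · intro a ha
          simp only [S, Finset.mem_filter, Finset.mem_univ, true_and] at ha ⊢
          exact mul_mem (inv_mem (hBC hb)) ha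
        · intro a _; simp
        · intro a _; simp
        · intro a ha
          simp only [S, Finset.mem_filter, Finset.mem_univ, true_and] at ha
          refine Subtype.ext ?_
          show b * (f a : G) * b⁻¹ = f (b * a)
          rw [hf a (hC ha), hf _ (mul_mem ((hprop B hB).le hb) (hC ha))]
          group
      have h := congrArg Subtype.val hc
      exact mul_inv_eq_iff_eq_mul.mp h
    rw [hno B hB, Subgroup.mem_bot] at hmem
    exact Subtype.ext hmem
  have h1 : ∀ B ∈ 𝒜, f 1 * ∏ a ∈ (S B).erase 1, f a = 1 := fun B hB => by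
    rw [Finset.mul_prod_erase (S B) f (by simp [S])]
    exact hfixed B (hprop B hB).le B hB le_rfl
  obtain ⟨B₀, hB₀⟩ := hne
  have hA1 : f 1 * ∏ a ∈ (S A).erase 1, f a = 1 := by
    rw [Finset.mul_prod_erase (S A) f (by simp [S])]
    exact hfixed A le_rfl B₀ hB₀ (hprop B₀ hB₀).le
  have hunion : (S A).erase 1 = 𝒜.biUnion fun B => (S B).erase 1 := by
    ext a
    simp only [S, Finset.mem_erase, Finset.mem_filter, Finset.mem_univ, true_and, Finset.mem_biUnion]
    constructor
    · rintro ⟨ha1, haA⟩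
      obtain ⟨B, ⟨hB, haB⟩, -⟩ := hpart a haA ha1
      exact ⟨B, hB, ha1, haB⟩
    · rintro ⟨B, hB, ha1, haB⟩
      exact ⟨ha1, (hprop B hB).le haB⟩
  have hdisj : (𝒜 : Set (Subgroup G)).PairwiseDisjoint fun B => (S B).erase 1 := by
    intro B hB C hC hne'
    refine Finset.disjoint_left.mpr fun a ha ha' => ?_
    simp only [S, Finset.mem_erase, Finset.mem_filter, Finset.mem_univ, true_and] at ha ha'
    exact hne' ((hpart a ((hprop B hB).le ha.2) ha.1).unique ⟨hB, ha.2⟩ ⟨hC, ha'.2⟩)
  have hprod : f 1 ^ 𝒜.card * ∏ a ∈ (S A).erase 1, f a = 1 := by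
    rw [hunion, Finset.prod_biUnion hdisj, ← Finset.prod_const, ← Finset.prod_mul_distrib]
    exact Finset.prod_eq_one h1
  have hpos : 1 ≤ 𝒜.card := Finset.card_pos.mpr ⟨B₀, hB₀⟩
  rw [← Nat.sub_add_cancel hpos, pow_succ, mul_assoc, hA1, mul_one] at hprod
  have hord := Nat.eq_one_of_dvd_coprimes hk (orderOf_dvd_of_pow_eq_one hprod) (orderOf_dvd_natCard _)
  have := congrArg Subtype.val (orderOf_eq_one_iff.mp hord)
  rw [hf 1 (one_mem A)] at this
  exact hv1 (by simpa using this)

end Cfsg.Agent.S3733
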