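import Cfsg.Statements.S3735

set_option autoImplicit false
open Cfsg

namespace Cfsg.Agent.S3735

/-- Clifford's Theorem for actions on finite abelian groups, first part. Let H and V be subgroups of a finite group with V abelian and H normalizing V, and let A be a normal subgroup of H. If every H-invariant subgroup of V has an H-invariant complement in V, then every A-invariant subgroup of V has an A-invariant complement in V. -/
theorem result {G : Type*} [Group G] [Finite G] (H A V : Subgroup G) (hVab : IsMulCommutative V) (hHV : H ≤ Subgroup.normalizer (V : Set G)) (hAH : A ≤ H) (hAn : H ≤ Subgroup.normalizer (A : Set G)) (hss : ∀ U : Subgroup G, U ≤ V → H ≤ Subgroup.normalizer (U : Set G) → ∃ W : Subgroup G, W ≤ V ∧ H ≤ Subgroup.normalizer (W : Set G) ∧ U ⊓ W = ⊥ ∧ U ⊔ W = V) (U : Subgroup G) (hUV : U ≤ V) (hAU : A ≤ Subgroup.normalizer (U : Set G)) : ∃ W : Subgroup G, W ≤ V ∧ A ≤ Subgroup.normalizer (W : Set G) ∧ U ⊓ W = ⊥ ∧ U ⊔ W = V := by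
  classical
  have hcomm : ∀ u ∈ V, ∀ v ∈ V, u * v = v * u := fun u hu v hv =>
    congrArg Subtype.val (hVab.is_comm.comm ⟨u, hu⟩ ⟨v, hv⟩)
  -- minimal non-trivial `A`-invariant subgroups of `V`
  let Min : Set (Subgroup G) := {S | S ≤ V ∧ S ≠ ⊥ ∧ A ≤ Subgroup.normalizer (S : Set G) ∧
    ∀ T : Subgroup G, T ≤ S → A ≤ Subgroup.normalizer (T : Set G) → T = ⊥ ∨ T = S}
  have hexists : ∀ W : Subgroup G, W ≤ V → W ≠ ⊥ → A ≤ Subgroup.normalizer (W : Set G) →
      ∃ S ∈ Min, S ≤ W := by
    intro W hW hW1 hWA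
    induction hn : Nat.card W using Nat.strong_induction_on generalizing W with
    | _ n ih =>
      subst hn
      by_cases hmin : ∀ T : Subgroup G, T ≤ W → A ≤ Subgroup.normalizer (T : Set G) → T = ⊥ ∨ T = W
      · exact ⟨W, ⟨hW, hW1, hWA, hmin⟩, le_rfl⟩
      · push Not at hmin
        obtain ⟨T, hTW, hTA, hT1, hTne⟩ := hmin
        have hlt : Nat.card T < Nat.card W := lt_of_le_of_ne (Subgroup.card_le_of_le hTW)
          fun h => hTne (Subgroup.eq_of_le_of_card_ge hTW h.ge)
        obtain ⟨S, hS, hST⟩ := ih _ hlt T (hTW.trans hW) hT1 hTA rfl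
        exact ⟨S, hS, hST.trans hTW⟩
  have hmap : ∀ (h : G), h ∈ H → ∀ S ∈ Min, S.map (MulAut.conj h).toMonoidHom ∈ Min := by
    intro h hh S hS
    obtain ⟨hSV, hS1, hSA, hSmin⟩ := hS
    have hnormV : V.map (MulAut.conj h).toMonoidHom = V :=
      Subgroup.mem_normalizer_iff'.mp (hHV hh) |> fun _ => by
        ext y
        simp only [Subgroup.mem_map, MulEquiv.coe_toMonoidHom, MulAut.conj_apply]
        constructor
        · rintro ⟨z, hz, rfl⟩; exact (Subgroup.mem_normalizer_iff.mp (hHV hh) z).mp hz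
        · intro hy
          exact ⟨h⁻¹ * y * h, by
            simpa using (Subgroup.mem_normalizer_iff.mp (inv_mem (hHV hh)) y).mp hy, by group⟩
    have hconjA : ∀ (g : G), g ∈ H → ∀ (T : Subgroup G), A ≤ Subgroup.normalizer (T : Set G) →
        A ≤ Subgroup.normalizer ((T.map (MulAut.conj g).toMonoidHom : Subgroup G) : Set G) := by
      intro g hg T hT a ha
      have ha' : g⁻¹ * a * g ∈ A := by
        simpa using (Subgroup.mem_normalizer_iff.mp (inv_mem (hAn hg)) a).mp ha
      refine Subgroup.mem_normalizer_iff.mpr fun y => ?_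
      simp only [Subgroup.mem_map_equiv, MulAut.conj_symm_apply]
      rw [Subgroup.mem_normalizer_iff.mp (hT ha') (g⁻¹ * y * g)]
      have : g⁻¹ * a * g * (g⁻¹ * y * g) * (g⁻¹ * a * g)⁻¹ = g⁻¹ * (a * y * a⁻¹) * g := by group
      rw [this]
    refine ⟨(Subgroup.map_mono hSV).trans hnormV.le, ?_, hconjA h hh S hSA, fun T hT hTA => ?_⟩
    · exact fun e => hS1 ((Subgroup.map_eq_bot_iff_of_injective _ (MulAut.conj h).injective).mp e)
    · have hcomp : ∀ T : Subgroup G,
          (T.map (MulAut.conj h⁻¹).toMonoidHom).map (MulAut.conj h).toMonoidHom = T := by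
        intro T
        ext y
        simp [Subgroup.mem_map_equiv, MulAut.conj_symm_apply, MulAut.conj_apply, mul_assoc]
      rcases hSmin (T.map (MulAut.conj h⁻¹).toMonoidHom) (by
          rintro _ ⟨y, hy, rfl⟩
          obtain ⟨z, hz, rfl⟩ := hT hy
          simpa [MulAut.conj_apply, mul_assoc] using hz)
        (hconjA _ (inv_mem hh) T hTA) with h1 | h1
      · left; rw [← hcomp T, h1, Subgroup.map_bot]
      · right; rw [← hcomp T, h1]
  -- the `A`-socle of `V` is everything
  have hsoc : sSup Min = V := by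
    have hle : sSup Min ≤ V := sSup_le fun S hS => hS.1
    have hinv : ∀ h ∈ H, h ∈ Subgroup.normalizer ((sSup Min : Subgroup G) : Set G) := by
      have key : ∀ g ∈ H, (sSup Min).map (MulAut.conj g).toMonoidHom ≤ sSup Min := by
        intro g hg
        rw [sSup_eq_iSup, Subgroup.map_iSup]
        refine iSup_le fun S => ?_
        rw [Subgroup.map_iSup]
        refine iSup_le fun hS => ?_
        exact le_iSup₂_of_le _ (hmap g hg S hS) le_rfl
      intro h hh
      refine Subgroup.mem_normalizer_iff.mpr fun y => ⟨fun hy => key h hh ⟨y, hy, rfl⟩, fun hy => ?_⟩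
      have := key h⁻¹ (inv_mem hh) ⟨_, hy, rfl⟩
      simpa [MulAut.conj_apply, mul_assoc] using this
    obtain ⟨W, hWV, hWH, hdis, hsup⟩ := hss _ hle hinv
    have hW : W = ⊥ := by
      by_contra hW
      obtain ⟨S, hS, hSW⟩ := hexists W hWV hW (hAH.trans hWH)
      exact hS.2.1 (le_bot_iff.mp (hdis ▸ le_inf (le_sSup hS) hSW))
    rwa [hW, sup_bot_eq] at hsup
  -- a maximal `A`-invariant subgroup meeting `U` trivially is a complement
  obtain ⟨W, -, hW⟩ := Finite.exists_le_maximal
    (p := fun W : Subgroup G => W ≤ V ∧ A ≤ Subgroup.normalizer (W : Set G) ∧ U ⊓ W = ⊥) (a := ⊥)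
    ⟨bot_le, fun a _ => Subgroup.mem_normalizer_iff.mpr fun y => by simp, inf_bot_eq U⟩
  obtain ⟨hWV, hWA, hWU⟩ := hW.prop
  refine ⟨W, hWV, hWA, hWU, le_antisymm (sup_le hUV hWV) ?_⟩
  rw [← hsoc]
  refine sSup_le fun S hS => ?_
  by_contra hnot
  obtain ⟨hSV, hS1, hSA, hSmin⟩ := hS
  have hnorm : ∀ {B C : Subgroup G}, A ≤ Subgroup.normalizer (B : Set G) →
      A ≤ Subgroup.normalizer (C : Set G) →
      A ≤ Subgroup.normalizer ((B ⊔ C : Subgroup G) : Set G) := fun hB hC =>
    (le_inf hB hC).trans (Subgroup.normalizer_inf_normalizer_le_normalizer_sup _ _)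
  have hSb : S ⊓ (U ⊔ W) = ⊥ := by
    refine (hSmin _ inf_le_left (fun a ha => Subgroup.mem_normalizer_iff.mpr fun y => by
      rw [Subgroup.mem_inf, Subgroup.mem_inf, Subgroup.mem_normalizer_iff.mp (hSA ha) y,
        Subgroup.mem_normalizer_iff.mp (hnorm hAU hWA ha) y])).resolve_right fun h => hnot ?_
    exact inf_eq_left.mp h
  have hUW' : U ⊓ (W ⊔ S) = ⊥ := by
    refine le_bot_iff.mp fun u hu => ?_
    obtain ⟨huU, huWS⟩ := hu
    haveI : IsMulCommutative V := hVab
    have hWn : ∀ s ∈ S, s ∈ Subgroup.normalizer (W : Set G) := fun s hs =>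
      Subgroup.mem_normalizer_iff.mpr fun y => by
        constructor
        · intro hy; rwa [hcomm s (hSV hs) y (hWV hy), mul_inv_cancel_right]
        · intro hy
          have := hcomm s⁻¹ (inv_mem (hSV hs)) _ (hWV hy)
          have h2 : s⁻¹ * (s * y * s⁻¹) * s = s * y * s⁻¹ := by rw [this, inv_mul_cancel_right]
          have h3 : y = s * y * s⁻¹ := by rw [← h2]; group
          rwa [h3]
    replace huWS : u ∈ ((W ⊔ S : Subgroup G) : Set G) := huWS
    rw [Subgroup.coe_mul_of_right_le_normalizer_left W S hWn] at huWS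
    obtain ⟨w, hw, s, hs, rfl⟩ := huWS
    have hs1 : s ∈ S ⊓ (U ⊔ W) := ⟨hs, by
      have : s = w⁻¹ * (w * s) := by group
      rw [this]
      exact mul_mem (Subgroup.mem_sup_right (inv_mem hw)) (Subgroup.mem_sup_left huU)⟩
    rw [hSb, Subgroup.mem_bot] at hs1
    subst hs1
    have huU : w * 1 ∈ U := huU
    rw [mul_one] at huU
    show w * 1 ∈ (⊥ : Subgroup G)
    rw [mul_one]
    exact hWU ▸ (⟨huU, hw⟩ : w ∈ U ⊓ W)
  exact hnot ((le_sup_right.trans (hW.le_of_ge ⟨sup_le hWV hSV, hnorm hWA hSA, hUW'⟩ le_sup_left)).trans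
    le_sup_right)

end Cfsg.Agent.S3735
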