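import Cfsg.Statements.S3737
import Cfsg.Agent.PGroup.Baer
import Cfsg.Agent.PGroup.Critical
import Mathlib.Algebra.BigOperators.Group.Finset.Basic

set_option autoImplicit false
open Cfsg

namespace Cfsg.Agent.S3737

open Cfsg.Agent.PGroup in
/-- The exponent `p`, class two case: a norm argument in the Baer group. -/
theorem baer_case {D : Type*} [Group D] [Finite D] {p : ℕ} [Fact p.Prime] [IsBaer D p]
    (U V : Subgroup (MulAut D)) [Finite U] [Finite V] (hU : IsPGroup p U)
    (hV : (Nat.card V).Coprime p) (hn : ∀ u ∈ U, ∀ v ∈ V, u⁻¹ * v * u ∈ V)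
    (hC : ∀ x : D, (∀ u ∈ U, u x = x) → ∀ v ∈ V, v x = x) : ∀ v ∈ V, ∀ x : D, v x = x := by
  classical
  haveI : Fintype V := Fintype.ofFinite V
  let φ := Baer.mapAut (D := D) (p := p)
  let ν : Baer D p →* Baer D p :=
    { toFun := fun x => ∏ v : V, φ v x
      map_one' := Finset.prod_eq_one fun v _ => map_one _
      map_mul' := fun x y => by simp only [map_mul, Finset.prod_mul_distrib] }
  have hinv : ∀ (w : V) (x : Baer D p), ν (φ w x) = ν x := fun w x =>
    Fintype.prod_equiv (Equiv.mulRight w) _ _ fun v => by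
      show φ v (φ w x) = φ ((v * w : V) : MulAut D) x
      rw [Subgroup.coe_mul, map_mul, MulAut.mul_apply]
  have heq : ∀ u ∈ U, ∀ x : Baer D p, ν (φ u x) = φ u (ν x) := by
    intro u hu x
    show ∏ v : V, φ v (φ u x) = φ u (∏ v : V, φ v x)
    rw [map_prod]
    have hn' : ∀ v ∈ V, u * v * u⁻¹ ∈ V := fun v hv => by simpa using hn u⁻¹ (inv_mem hu) v hv
    refine Fintype.prod_equiv
      { toFun := fun v => ⟨u⁻¹ * (v : MulAut D) * u, hn u hu v v.2⟩
        invFun := fun v => ⟨u * (v : MulAut D) * u⁻¹, hn' v v.2⟩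
        left_inv := fun v => Subtype.ext (by simp [mul_assoc])
        right_inv := fun v => Subtype.ext (by simp [mul_assoc]) } _ _ fun v => ?_
    show φ v (φ u x) = φ u (φ (u⁻¹ * (v : MulAut D) * u) x)
    rw [← MulAut.mul_apply, ← MulAut.mul_apply, ← map_mul, ← map_mul]
    simp [mul_assoc]
  by_cases hK : ν.ker = ⊥
  · intro v hv x
    have hinj := (MonoidHom.ker_eq_bot_iff ν).mp hK
    exact congrArg Baer.val (hinj (hinv ⟨v, hv⟩ ⟨x⟩))
  · exfalso
    have hBp : IsPGroup p (Baer D p) := fun x => ⟨1, by rw [pow_one]; exact Baer.pow_eq_one x⟩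
    haveI : Finite (Baer D p) := Finite.of_injective (fun x => x.val) fun a b h => Baer.ext' h
    let act : MulAction U ν.ker :=
      { smul := fun u x => ⟨φ (u : MulAut D) x.1, MonoidHom.mem_ker.mpr (by
          rw [heq u u.2, MonoidHom.mem_ker.mp x.2, map_one])⟩
        one_smul := fun x => Subtype.ext (Baer.ext' rfl)
        mul_smul := fun a b x => Subtype.ext (Baer.ext' rfl) }
    obtain ⟨b, hb, hne⟩ := hU.exists_fixed_point_of_prime_dvd_card_of_fixed_point ν.ker
      ((hBp.to_subgroup ν.ker).card_eq_or_dvd.resolve_left fun h => hK (Subgroup.card_eq_one.mp h))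
      (a := (1 : ν.ker)) (fun u => Subtype.ext (map_one (φ (u : MulAut D))))
    have hfixU : ∀ u ∈ U, u b.1.val = b.1.val := fun u hu =>
      congrArg (fun y : ν.ker => y.1.val) (hb ⟨u, hu⟩)
    have hconst : ν b.1 = b.1 ^ Nat.card V := by
      show ∏ v : V, φ v b.1 = _
      rw [Nat.card_eq_fintype_card, ← Finset.card_univ]
      exact Finset.prod_eq_pow_card fun v _ => Baer.ext' (hC _ hfixU v v.2)
    rw [MonoidHom.mem_ker.mp b.2] at hconst
    have h1 := Nat.eq_one_of_dvd_coprimes hV (orderOf_dvd_of_pow_eq_one hconst.symm)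
      (orderOf_dvd_of_pow_eq_one (Baer.pow_eq_one b.1))
    exact hne (Subtype.ext (orderOf_eq_one_iff.mp h1).symm)

/-- Thompson's strengthening of the P × Q lemma for odd primes. Let p be an odd prime and let P, Q and G be subgroups of a finite group with P a p-group, Q of order prime to p and normalized by P, and G a p-group normalized by both P and Q. If every element of G centralized by P is centralized by Q, then Q centralizes G. -/
theorem result {X : Type*} [Group X] [Finite X] {p : ℕ} [Fact p.Prime] (hp : p ≠ 2) (P Q G : Subgroup X) (hP : IsPGroup p P) (hQ : (Nat.card Q).Coprime p) (hPQ : P ≤ Subgroup.normalizer (Q : Set X)) (hG : IsPGroup p G) (hPG : P ≤ Subgroup.normalizer (G : Set X)) (hQG : Q ≤ Subgroup.normalizer (G : Set X)) (hC : G ⊓ Subgroup.centralizer (P : Set X) ≤ Subgroup.centralizer (Q : Set X)) : Q ≤ Subgroup.centralizer (G : Set X) := by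
  obtain ⟨D, hDchar, hDc, hDe, hDfaith⟩ :=
    Cfsg.Agent.PGroup.exists_characteristic_exponent_prime hp hG
  haveI : Cfsg.Agent.PGroup.IsBaer D p :=
    ⟨(Fact.out : p.Prime).odd_of_ne_two hp, hDc, fun x => Subtype.ext (by simpa using hDe x x.2)⟩
  have hres : ∀ φ : MulAut G, D.map φ.toMonoidHom = D := fun φ =>
    Subgroup.characteristic_iff_map_eq.mp hDchar φ
  let ρ : MulAut G →* MulAut D :=
    { toFun := fun φ => (φ.subgroupMap D).trans (MulEquiv.subgroupCongr (hres φ))
      map_one' := MulEquiv.ext fun x => rfl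
      map_mul' := fun a b => MulEquiv.ext fun x => rfl }
  have hρ : ∀ (φ : MulAut G) (x : D), ((ρ φ x : D) : G) = φ x := fun φ x => rfl
  let θ : Subgroup.normalizer (G : Set X) →* MulAut D := ρ.comp G.normalizerMonoidHom
  have hθ : ∀ (g : Subgroup.normalizer (G : Set X)) (x : D),
      (((θ g x : D) : G) : X) = (g : X) * ((x : G) : X) * (g : X)⁻¹ := fun g x => rfl
  set U := (P.subgroupOf (Subgroup.normalizer (G : Set X))).map θ
  set V := (Q.subgroupOf (Subgroup.normalizer (G : Set X))).map θ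
  have hUp : IsPGroup p U := (hP.of_equiv (Subgroup.subgroupOfEquivOfLe hPG).symm).map θ
  have hVc : (Nat.card V).Coprime p := by
    refine Nat.Coprime.coprime_dvd_left ?_ hQ
    rw [← Nat.card_congr (Subgroup.subgroupOfEquivOfLe hQG).toEquiv]
    exact Subgroup.card_map_dvd ..
  have hn : ∀ u ∈ U, ∀ v ∈ V, u⁻¹ * v * u ∈ V := by
    rintro _ ⟨a, ha, rfl⟩ _ ⟨b, hb, rfl⟩
    refine ⟨a⁻¹ * b * a, ?_, by simp⟩
    have := (Subgroup.mem_normalizer_iff.mp (inv_mem (hPQ ha)) (b : X)).mp hb
    simpa [Subgroup.mem_subgroupOf] using this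
  have hCfix : ∀ x : D, (∀ u ∈ U, u x = x) → ∀ v ∈ V, v x = x := by
    rintro x hx _ ⟨b, hb, rfl⟩
    have hxP : ((x : G) : X) ∈ G ⊓ Subgroup.centralizer (P : Set X) := by
      refine ⟨(x : G).2, Subgroup.mem_centralizer_iff.mpr fun a ha => ?_⟩
      have := hθ ⟨a, hPG ha⟩ x
      rw [hx _ ⟨⟨a, hPG ha⟩, ha, rfl⟩] at this
      exact mul_inv_eq_iff_eq_mul.mp this.symm
    refine Subtype.ext (Subtype.ext ?_)
    rw [hθ]
    rw [Subgroup.mem_centralizer_iff.mp (hC hxP) (b : X) hb, mul_inv_cancel_right]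
  intro b hb
  have h1 := baer_case U V hUp hVc hn hCfix (θ ⟨b, hQG hb⟩) ⟨⟨b, hQG hb⟩, hb, rfl⟩
  have h2 : G.normalizerMonoidHom ⟨b, hQG hb⟩ = 1 := by
    refine hDfaith _ (Nat.Coprime.coprime_dvd_left ?_ hQ) fun x hx => ?_
    · refine (orderOf_map_dvd _ _).trans ?_
      rw [← Subgroup.orderOf_coe]
      show orderOf b ∣ _
      exact Subgroup.orderOf_dvd_natCard Q hb
    · have := congrArg (fun y : D => (y : G)) (h1 ⟨x, hx⟩)
      exact this
  refine Subgroup.mem_centralizer_iff.mpr fun g hg => ?_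
  have := congrArg Subtype.val (MulEquiv.congr_fun h2 ⟨g, hg⟩)
  exact (mul_inv_eq_iff_eq_mul.mp this).symm

end Cfsg.Agent.S3737
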