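import Cfsg.Statements.S3739
import Cfsg.Agent.FGS.RankTwo
import Cfsg.Agent.Cores.Basic

set_option autoImplicit false
open Cfsg
set_option linter.style.haveILetI false

namespace Cfsg.Agent.S3739

/-- Let G be a finite group with C_G(O₂(G)) ≤ O₂(G) containing an element of order 6, and let d be a non-identity 3-element of G normalizing a nontrivial elementary abelian 2-subgroup W with C_W(d) = 1. Then G has an elementary abelian subgroup of order 8. -/
theorem result {G : Type*} [Group G] [Finite G] (hchar : Subgroup.centralizer (Cfsg.pCore 2 G : Set G) ≤ Cfsg.pCore 2 G) (hsix : ∃ g : G, orderOf g = 6) (d : G) (hd1 : d ≠ 1) (hd : IsPGroup 3 ↥(Subgroup.zpowers d)) (W : Subgroup G) (hW : Cfsg.IsElementaryAbelian 2 W) (hW1 : W ≠ ⊥) (hdW : d ∈ Subgroup.normalizer (W : Set G)) (hfpf : W ⊓ Subgroup.centralizer {d} = ⊥) : ∃ E : Subgroup G, Cfsg.IsElementaryAbelian 2 E ∧ Nat.card E = 8 := by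
  classical
  haveI : Fact (Nat.Prime 2) := ⟨Nat.prime_two⟩
  haveI : Fact (Nat.Prime 3) := ⟨Nat.prime_three⟩
  by_contra hno
  push Not at hno
  have helem : ∀ E : Subgroup G, IsMulCommutative E → (∀ x ∈ E, x ^ 2 = 1) → Nat.card E ≤ 4 := by
    intro E hEc hE2
    by_contra hbig
    have hEp : IsPGroup 2 E := fun x => ⟨1, Subtype.ext (by simpa using hE2 x x.2)⟩
    obtain ⟨k, hk⟩ := IsPGroup.iff_card.mp hEp
    have h3 : 2 ^ 3 ≤ Nat.card E := by
      rw [hk] at hbig ⊢
      refine Nat.pow_le_pow_right (by norm_num) ?_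
      by_contra hlt
      have : 2 ^ k ≤ 2 ^ 2 := Nat.pow_le_pow_right (by norm_num) (by omega)
      omega
    obtain ⟨B, -, hB, hBc⟩ :=
      Cfsg.Agent.PGroup.exists_elemAb_card_eq (p := 2) (show Cfsg.IsElementaryAbelian 2 E from ⟨hEc, hE2⟩) h3
    exact hno B hB (by rw [hBc]; norm_num)
  have hWp : IsPGroup 2 W := fun x => ⟨1, Subtype.ext (by simpa using hW.2 x x.2)⟩
  have hfpf' : ∀ x ∈ W, d * x = x * d → x = 1 := fun x hx hdx => by
    have : x ∈ W ⊓ Subgroup.centralizer {d} :=
      ⟨hx, Subgroup.mem_centralizer_singleton_iff.mpr hdx.symm⟩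
    rw [hfpf, Subgroup.mem_bot] at this
    exact this
  have hW4 : Nat.card W = 4 :=
    Cfsg.Agent.FGS.card_eq_four hWp hdW hW1 (helem W hW.1 hW.2) hfpf'
  -- an elementary abelian overgroup of `W` is `W`
  have hover : ∀ V : Subgroup G, W ≤ V → IsMulCommutative V → (∀ x ∈ V, x ^ 2 = 1) → V = W :=
    fun V hle hc h2 => (Subgroup.eq_of_le_of_card_ge hle ((helem V hc h2).trans hW4.ge)).symm
  have hjoin : ∀ y : G, y ^ 2 = 1 → (∀ w ∈ W, y * w = w * y) → y ∈ W := by
    intro y hy hyW
    have hnorm : Subgroup.zpowers y ≤ Subgroup.normalizer (W : Set G) :=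
      (Subgroup.zpowers_le.mpr (Subgroup.mem_centralizer_iff.mpr fun w hw => (hyW w hw).symm)).trans
        (Subgroup.centralizer_le_normalizer _)
    set V := W ⊔ Subgroup.zpowers y
    have hmem : ∀ v ∈ V, ∃ w ∈ W, ∃ j : ℤ, v = w * y ^ j := by
      intro v hv
      have hv' : v ∈ ((V : Subgroup G) : Set G) := hv
      rw [Subgroup.coe_mul_of_right_le_normalizer_left W _ hnorm] at hv'
      obtain ⟨w, hw, u, hu, rfl⟩ := hv'
      obtain ⟨j, rfl⟩ := Subgroup.mem_zpowers_iff.mp hu
      exact ⟨w, hw, j, rfl⟩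
    have hwy : ∀ w ∈ W, ∀ j : ℤ, Commute w (y ^ j) := fun w hw j =>
      (show Commute w y from (hyW w hw).symm).zpow_right j
    have hWc : ∀ a ∈ W, ∀ b ∈ W, Commute a b := fun a ha b hb =>
      congrArg Subtype.val (hW.1.is_comm.comm ⟨a, ha⟩ ⟨b, hb⟩)
    have := hover V le_sup_left ⟨⟨fun ⟨a, ha⟩ ⟨b, hb⟩ => Subtype.ext (by
        obtain ⟨w, hw, i, rfl⟩ := hmem a ha
        obtain ⟨w', hw', j, rfl⟩ := hmem b hb
        exact (((hWc w hw w' hw').mul_right (hwy w hw j)).mul_left
          ((hwy w' hw' i).symm.mul_right ((Commute.refl y).zpow_zpow i j))).eq)⟩⟩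
      (fun v hv => by
        obtain ⟨w, hw, j, rfl⟩ := hmem v hv
        have h2 : (y ^ j) ^ 2 = 1 := by
          rw [← zpow_natCast, ← zpow_mul, mul_comm, zpow_mul, zpow_natCast, hy, one_zpow]
        rw [(hwy w hw j).mul_pow, hW.2 w hw, h2, one_mul])
    exact this ▸ Subgroup.mem_sup_right (Subgroup.mem_zpowers y)
  set Q := Cfsg.pCore 2 G with hQdef
  have hQp : IsPGroup 2 Q := Cfsg.Agent.Cores.pCore_isPGroup
  haveI : Q.Normal := by rw [hQdef]; infer_instance
  have hQn : ∀ g, g ∈ Subgroup.normalizer (Q : Set G) := fun g =>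
    (Subgroup.normalizer_eq_top Q).ge (Subgroup.mem_top g)
  -- `W` is central in `W Q`
  have hWC : W ≤ Subgroup.centralizer (Q : Set G) := by
    set S := W ⊔ Q with hS
    have hSp : IsPGroup 2 S := hWp.to_sup_of_normal_right hQp
    have hS1 : S ≠ ⊥ := fun h => hW1 (le_bot_iff.mp (h ▸ le_sup_left))
    haveI : Nontrivial S := (Subgroup.nontrivial_iff_ne_bot S).mpr hS1
    have hdS : d ∈ Subgroup.normalizer (S : Set G) :=
      Subgroup.normalizer_inf_normalizer_le_normalizer_sup W Q ⟨hdW, hQn d⟩
    haveI := hSp.center_nontrivial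
    obtain ⟨z, hz⟩ := exists_prime_orderOf_dvd_card' (G := Subgroup.center S) 2
      ((hSp.to_subgroup _).card_eq_or_dvd.resolve_left fun h =>
        (Subgroup.nontrivial_iff_ne_bot _).mp inferInstance (Subgroup.card_eq_one.mp h))
    have hz2 : ((z : S) : G) ^ 2 = 1 := by
      rw [← hz, ← Subgroup.orderOf_coe, ← Subgroup.orderOf_coe, pow_orderOf_eq_one]
    have hz1 : ((z : S) : G) ≠ 1 := fun h => by
      rw [← Subgroup.orderOf_coe, ← Subgroup.orderOf_coe, h, orderOf_one] at hz
      norm_num at hz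
    -- the central elements of `S` inside `W` form a `d`-invariant subgroup
    set T := W ⊓ (Subgroup.center S).map S.subtype with hT
    have hzT : ((z : S) : G) ∈ T := ⟨hjoin _ hz2 fun w hw => (congrArg Subtype.val
      (Subgroup.mem_center_iff.mp z.2 ⟨w, Subgroup.mem_sup_left hw⟩)).symm, z, z.2, rfl⟩
    have hdT : d ∈ Subgroup.normalizer (T : Set G) := by
      refine Subgroup.mem_normalizer_iff.mpr fun y => ?_
      rw [hT, Subgroup.mem_inf, Subgroup.mem_inf, Subgroup.mem_normalizer_iff.mp hdW y,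
        Subgroup.mem_normalizer_iff.mp (Cfsg.Agent.FGS.le_normalizer_map_char
          (B := Subgroup.normalizer (S : Set G)) le_rfl (Subgroup.center S) hdS) y]
    have hT4 := Cfsg.Agent.FGS.card_eq_four (hWp.to_le inf_le_left) hdT
      (fun h => hz1 (Subgroup.mem_bot.mp (h ▸ hzT)))
      ((Subgroup.card_le_of_le inf_le_left).trans hW4.le) fun x hx => hfpf' x hx.1
    have hTW : T = W := Subgroup.eq_of_le_of_card_ge inf_le_left (hW4.trans hT4.symm).le
    intro w hw
    obtain ⟨c, hc, rfl⟩ := (hTW.ge hw).2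
    exact Subgroup.mem_centralizer_iff.mpr fun q hq =>
      congrArg Subtype.val (Subgroup.mem_center_iff.mp hc ⟨q, Subgroup.mem_sup_right hq⟩)
  have hWQ : W ≤ Q := hWC.trans hchar
  have hWinv : ∀ y ∈ Q, y ^ 2 = 1 → y ∈ W := fun y hy hy2 =>
    hjoin y hy2 fun w hw => Subgroup.mem_centralizer_iff.mp (hWC hw) y hy
  haveI : W.Normal := ⟨fun w hw g => hWinv _ ((inferInstance : Q.Normal).conj_mem w (hWQ hw) g)
    (by rw [conj_pow, hW.2 w hw, mul_one, mul_inv_cancel])⟩
  let act := MulAut.conjNormal (H := W)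
  -- an element of order three centralizing `W`
  have h3W : ∃ s : G, orderOf s = 3 ∧ act s = 1 := by
    obtain ⟨g, hg⟩ := hsix
    set t := g ^ 3 with ht
    set s := g ^ 2 with hs
    have hts : t * s = s * t := by rw [ht, hs, ← pow_add, ← pow_add]
    have hot : t ^ 2 = 1 ∧ t ≠ 1 := by
      constructor
      · rw [ht, ← pow_mul]; rw [show 3 * 2 = orderOf g by rw [hg]]; exact pow_orderOf_eq_one g
      · exact pow_ne_one_of_lt_orderOf (by norm_num) (by rw [hg]; norm_num)
    have hos : orderOf s = 3 := by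
      rw [hs, orderOf_pow' g (by norm_num), hg]; norm_num
    refine ⟨s, hos, ?_⟩
    -- `t` fixes a non-trivial element of `W` that is fixed by `s`
    have hs3 : ∀ x : W, act s (act s (act s x)) = x := fun x => by
      rw [← MulAut.mul_apply, ← MulAut.mul_apply, ← map_mul, ← map_mul]
      have : s * s * s = 1 := by
        have := pow_orderOf_eq_one s
        rw [hos] at this
        simpa [pow_succ, pow_zero, mul_assoc] using this
      rw [this, map_one]; rfl
    have hts' : ∀ x : W, act t (act s x) = act s (act t x) := fun x => by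
      rw [← MulAut.mul_apply, ← MulAut.mul_apply, ← map_mul, ← map_mul, hts]
    have ht2 : ∀ x : W, act t (act t x) = x := fun x => by
      rw [← MulAut.mul_apply, ← map_mul, ← sq, hot.1, map_one]; rfl
    haveI : Fintype W := Fintype.ofFinite W
    have hcard : Fintype.card W = 4 := by rw [← Nat.card_eq_fintype_card]; exact hW4
    -- four elements: `1, w, a, b`
    obtain ⟨w, hw1, hwt, hws⟩ : ∃ w : W, w ≠ 1 ∧ act t w = w ∧ act s w = w := by
      by_cases htW : ∀ w ∈ W, t * w = w * t
      · refine ⟨⟨t, hjoin t hot.1 htW⟩, fun h => hot.2 (congrArg Subtype.val h), Subtype.ext ?_,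
          Subtype.ext ?_⟩
        · show t * t * t⁻¹ = t; simp
        · show s * t * s⁻¹ = t; rw [← hts, mul_inv_cancel_right]
      · -- otherwise `t` has exactly one non-trivial fixed point
        push Not at htW
        obtain ⟨a, haW, hat⟩ := htW
        set a' : W := ⟨a, haW⟩
        have hat' : act t a' ≠ a' := fun h => hat (mul_inv_eq_iff_eq_mul.mp (congrArg Subtype.val h))
        set b' := act t a' with hb'
        have ha1 : a' ≠ 1 := fun h => hat' (by rw [hb', h, map_one])
        have hb1 : b' ≠ 1 := fun h => ha1 (by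
          have := ht2 a'
          rw [← hb', h, map_one] at this
          exact this.symm)
        have hsq : ∀ x : W, x * x = 1 := fun x => Subtype.ext (by simpa [sq] using hW.2 x x.2)
        have hcomm := hW.1.is_comm.comm
        refine ⟨a' * b', ?_, ?_, ?_⟩
        · intro h
          apply hat'
          calc b' = a' * a' * b' := by rw [hsq, one_mul]
            _ = a' := by rw [mul_assoc, h, mul_one]
        · rw [map_mul, ← hb', hb', ht2, hcomm]
        · -- the only non-trivial fixed point of `t` is fixed by `s`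
          have huniv : ∀ x : W, x = 1 ∨ x = a' ∨ x = b' ∨ x = a' * b' := by
            have hne1 : a' * b' ≠ 1 := fun h => hat' (by
              calc b' = a' * a' * b' := by rw [hsq, one_mul]
                _ = a' := by rw [mul_assoc, h, mul_one])
            have hne2 : a' * b' ≠ a' := fun h => hb1 (mul_left_cancel (h.trans (mul_one a').symm))
            have hne3 : a' * b' ≠ b' := fun h => ha1 (mul_right_cancel (h.trans (one_mul b').symm))
            have hfin : ({1, a', b', a' * b'} : Finset W) = Finset.univ := by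
              refine Finset.eq_univ_of_card _ ?_
              rw [hcard, Finset.card_insert_of_notMem (by simp [Ne.symm ha1, Ne.symm hb1, Ne.symm hne1]),
                Finset.card_insert_of_notMem (by simp [Ne.symm hat', Ne.symm hne2]),
                Finset.card_insert_of_notMem (by simp [Ne.symm hne3]), Finset.card_singleton]
            intro x
            have := Finset.mem_univ x
            rw [← hfin] at this
            simpa using this
          have hfix : act t (act s (a' * b')) = act s (a' * b') := by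
            rw [hts', map_mul (act t), ← hb', hb', ht2, hcomm (act t a') a']
          rcases huniv (act s (a' * b')) with h | h | h | h
          · exfalso
            have := (map_eq_one_iff (act s) (act s).injective).mp h
            exact hat' (by
              calc b' = a' * a' * b' := by rw [hsq, one_mul]
                _ = a' := by rw [mul_assoc, this, mul_one])
          · rw [h] at hfix; exact absurd hfix hat'
          · exact absurd (by rw [h, hb', ht2] at hfix; exact hfix.symm) hat'
          · exact h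
    -- hence `s` centralizes `W`
    refine MulEquiv.ext fun x => ?_
    show act s x = x
    by_contra hx
    have h1 : x ≠ 1 := fun h => hx (by rw [h, map_one])
    have hxw : x ≠ w := fun h => hx (h ▸ hws)
    have hy1 : act s x ≠ 1 := fun h => h1 ((map_eq_one_iff _ (act s).injective).mp h)
    have hyw : act s x ≠ w := fun h => hxw ((act s).injective (h.trans hws.symm))
    have hz1 : act s (act s x) ≠ 1 := fun h => hy1 ((map_eq_one_iff _ (act s).injective).mp h)
    have hzw : act s (act s x) ≠ w := fun h => hyw ((act s).injective (h.trans hws.symm))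
    have hzy : act s (act s x) ≠ act s x := fun h => hx ((act s).injective h)
    have hzx : act s (act s x) ≠ x := fun h => hx (by
      have := hs3 x
      rwa [h] at this)
    have := Finset.card_le_univ ({1, w, x, act s x, act s (act s x)} : Finset W)
    rw [hcard, Finset.card_insert_of_notMem (by simp [Ne.symm hw1, Ne.symm h1, Ne.symm hy1, Ne.symm hz1]),
      Finset.card_insert_of_notMem (by simp [Ne.symm hxw, Ne.symm hyw, Ne.symm hzw]),
      Finset.card_insert_of_notMem (by simp [Ne.symm hx, Ne.symm hzx]),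
      Finset.card_insert_of_notMem (by simp [Ne.symm hzy]), Finset.card_singleton] at this
    omega
  -- such an element commuting with `d`
  obtain ⟨s, hos, hsW⟩ := h3W
  obtain ⟨P, hdP⟩ := hd.exists_le_sylow
  haveI : ((act.ker).subgroupOf (P : Subgroup G)).Normal := inferInstance
  have hK3 : 3 ∣ Nat.card act.ker := by
    rw [← hos]; exact Subgroup.orderOf_dvd_natCard _ (MonoidHom.mem_ker.mpr hsW)
  have hPK : (act.ker).subgroupOf (P : Subgroup G) ≠ ⊥ := by
    intro h
    rw [Subgroup.subgroupOf_eq_bot, disjoint_iff] at h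
    obtain ⟨k, hk⟩ := IsPGroup.iff_card.mp P.2
    have hcard : Nat.card ↥((P : Subgroup G) ⊔ act.ker) = Nat.card P * Nat.card act.ker := by
      rw [← Subgroup.relIndex_bot_left, ← Subgroup.relIndex_mul_relIndex ⊥ act.ker _ bot_le le_sup_right,
        Subgroup.relIndex_bot_left, Subgroup.relIndex_sup_right, mul_comm]
      congr 1
      rw [← Subgroup.inf_relIndex_right, h, Subgroup.relIndex_bot_left]
    have hdvd := Subgroup.card_subgroup_dvd_card ((P : Subgroup G) ⊔ act.ker)
    rw [hcard] at hdvd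
    have h3 : 3 ∣ (P : Subgroup G).index := by
      refine hK3.trans ?_
      rw [← (P : Subgroup G).card_mul_index] at hdvd
      exact Nat.dvd_of_mul_dvd_mul_left Nat.card_pos hdvd
    exact P.not_dvd_index h3
  have hPc := Cfsg.Agent.PGroup.inf_center_ne_bot P.2 _ hPK
  obtain ⟨z, hz⟩ := exists_prime_orderOf_dvd_card'
    (G := ↥((act.ker).subgroupOf (P : Subgroup G) ⊓ Subgroup.center P)) 3
    (((P.2).to_subgroup _).card_eq_or_dvd.resolve_left fun h => hPc (Subgroup.card_eq_one.mp h))
  set e : G := ((z : P) : G) with he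
  have he3 : orderOf e = 3 := by rw [he, Subgroup.orderOf_coe, Subgroup.orderOf_coe, hz]
  have heW : act e = 1 := MonoidHom.mem_ker.mp z.2.1
  have hde : d * e = e * d := congrArg Subtype.val
    (Subgroup.mem_center_iff.mp z.2.2 ⟨d, hdP (Subgroup.mem_zpowers d)⟩)
  -- the minimal subgroup of `Q` moved by `e`
  set A := Subgroup.zpowers e
  set B := Subgroup.zpowers d ⊔ Subgroup.zpowers e
  have hAn : B ≤ Subgroup.normalizer (A : Set G) :=
    sup_le ((Subgroup.zpowers_le.mpr (Subgroup.mem_centralizer_iff.mpr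
      (Cfsg.Agent.FGS.commute_zpowers hde.symm))).trans (Subgroup.centralizer_le_normalizer _))
      Subgroup.le_normalizer
  have hAc : (Nat.card A).Coprime 2 := by rw [Nat.card_zpowers, he3]; norm_num
  have hnt : ⁅Q, A⁆ ≠ ⊥ := by
    intro h
    have heQ : e ∈ Q := hchar (Subgroup.mem_centralizer_iff.mpr fun q hq =>
      (Cfsg.Agent.FGS.commute_of_commutator_eq_bot h hq (Subgroup.mem_zpowers e)).symm)
    obtain ⟨k, hk⟩ := hQp ⟨e, heQ⟩
    have h3 : (3 : ℕ) ∣ 2 ^ k := by
      rw [← he3]
      exact orderOf_dvd_of_pow_eq_one (by simpa using congrArg Subtype.val hk)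
    have := Nat.Prime.dvd_of_dvd_pow Nat.prime_three h3
    norm_num at this
  obtain ⟨R, hRQ, hBR, hRnt, hRmin⟩ := Cfsg.Agent.FGS.exists_minimal_nontrivial B A Q
    (fun g _ => hQn g) hnt
  have hR2 : IsPGroup 2 R := hQp.to_le hRQ
  have hAR : A ≤ Subgroup.normalizer (R : Set G) := le_sup_right.trans hBR
  have hcop : (Nat.card A).Coprime (Nat.card R) := by
    obtain ⟨k, hk⟩ := IsPGroup.iff_card.mp hR2
    exact hk ▸ hAc.pow_right k
  obtain ⟨hRA, htype, -, -, -, -⟩ :=
    Cfsg.Agent.FGS.minimal_action B A R hR2 hBR le_sup_right hAn hAc hRnt hRmin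
  rcases htype with hel | hsp
  · -- the elements of `R` would be fixed by `e`
    have hR1 : R ≠ ⊥ := fun h => hRnt (by rw [h, Subgroup.commutator_bot_left])
    obtain ⟨⟨r, hr⟩, hr1⟩ := R.ne_bot_iff_exists_ne_one.mp hR1
    refine hr1 (Cfsg.Agent.FGS.eq_one_of_fixed_abelian hAR hcop hRA hel.1 (Subtype.ext ?_))
    have := congrArg Subtype.val (MulEquiv.congr_fun heW ⟨r, hWinv r (hRQ hr) (hel.2 r hr)⟩)
    show e * r * e⁻¹ = r
    simpa [act, MulAut.conjNormal_apply] using this
  set Z := (Subgroup.center R).map R.subtype with hZ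
  have hZW : Z ≤ W := by
    rintro _ ⟨a, ha, rfl⟩
    exact hWinv _ (hRQ a.2) (congrArg Subtype.val (Cfsg.Agent.PGroup.special_center_pow hsp ha))
  have hR1 : R ≠ ⊥ := fun h => hRnt (by rw [h, Subgroup.commutator_bot_left])
  haveI : Nontrivial R := (Subgroup.nontrivial_iff_ne_bot R).mpr hR1
  have hdR : d ∈ Subgroup.normalizer (R : Set G) :=
    hBR (Subgroup.mem_sup_left (Subgroup.mem_zpowers d))
  have hZ1 : Z ≠ ⊥ := fun h => hR2.bot_lt_center.ne'
    ((Subgroup.map_eq_bot_iff_of_injective _ R.subtype_injective).mp h)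
  have hZ4 := Cfsg.Agent.FGS.card_eq_four (hWp.to_le hZW)
    (Cfsg.Agent.FGS.le_normalizer_map_char (B := Subgroup.normalizer (R : Set G)) le_rfl _ hdR) hZ1
    ((Subgroup.card_le_of_le hZW).trans hW4.le) fun x hx => hfpf' x (hZW hx)
  have hZeq : Z = W := Subgroup.eq_of_le_of_card_ge hZW (hW4.trans hZ4.symm).le
  have hinv : ∀ x : R, x ^ 2 = 1 → x ∈ Subgroup.center R := by
    intro x hx
    obtain ⟨a, ha, hax⟩ := hZeq.ge (hWinv x (hRQ x.2) (congrArg Subtype.val hx))
    exact (Subtype.ext hax : a = x) ▸ ha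
  have h32 := Cfsg.Agent.FGS.special_index_le hsp
    ((Subgroup.card_map_of_injective R.subtype_injective).symm.trans hZ4) hinv
  -- the squaring map on `R / Z(R)`
  set V := R ⧸ Subgroup.center R
  let q : V → R := fun v => v.out ^ 2
  have hq : ∀ x : R, q (QuotientGroup.mk x) = x ^ 2 := by
    intro x
    obtain ⟨c, hc⟩ := QuotientGroup.mk_out_eq_mul (Subgroup.center R) x
    show ((QuotientGroup.mk x : V)).out ^ 2 = x ^ 2
    rw [hc, (show Commute x c.1 from Subgroup.mem_center_iff.mp c.2 x).mul_pow,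
      Cfsg.Agent.PGroup.special_center_pow hsp c.2, mul_one]
  let δ : Subgroup.normalizer (R : Set G) := ⟨d, hdR⟩
  let ε : Subgroup.normalizer (R : Set G) := ⟨e, hAR (Subgroup.mem_zpowers e)⟩
  have hqequiv : ∀ (g : Subgroup.normalizer (R : Set G)) (v : V),
      q (Cfsg.Agent.FGS.quotCenterAut R g v) = R.normalizerMonoidHom g (q v) := by
    intro g v
    induction v using QuotientGroup.induction_on with
    | _ x => rw [Cfsg.Agent.FGS.quotCenterAut_mk, hq, hq, map_pow]
  let F : R → Type _ := fun w => {v : V // v ≠ 1 ∧ q v = w}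
  have hfree : ∀ v : V, Cfsg.Agent.FGS.quotCenterAut R (ε ^ 3 ^ 0) v = v → v = 1 := fun v hv =>
    Cfsg.Agent.FGS.eq_one_of_quot_fixed hsp hAR hcop hRA (by simpa using hv)
  have h3F : ∀ w ∈ Subgroup.center R, 3 ∣ Nat.card (F w) := by
    intro w hw
    have hwfix : R.normalizerMonoidHom ε w = w := by
      refine Subtype.ext ?_
      have := congrArg Subtype.val (MulEquiv.congr_fun heW ⟨(w : G), hZW ⟨w, hw, rfl⟩⟩)
      show e * (w : G) * e⁻¹ = w
      simpa [act, MulAut.conjNormal_apply] using this
    have hiff : ∀ v : V, ((Cfsg.Agent.FGS.quotCenterAut R ε).toEquiv v ≠ 1 ∧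
        q ((Cfsg.Agent.FGS.quotCenterAut R ε).toEquiv v) = w) ↔ (v ≠ 1 ∧ q v = w) := by
      intro v
      show (Cfsg.Agent.FGS.quotCenterAut R ε v ≠ 1 ∧ q (Cfsg.Agent.FGS.quotCenterAut R ε v) = w) ↔ _
      rw [ne_eq, EmbeddingLike.map_eq_one_iff, hqequiv]
      exact and_congr_right fun _ => ⟨fun h => (R.normalizerMonoidHom ε).injective
        (h.trans hwfix.symm), fun h => by rw [h, hwfix]⟩
    let f : Equiv.Perm (F w) := Equiv.Perm.subtypePerm (Cfsg.Agent.FGS.quotCenterAut R ε).toEquiv hiff
    have hf : ∀ (j : ℕ) (v : F w), ((f ^ j) v).1 = Cfsg.Agent.FGS.quotCenterAut R (ε ^ j) v.1 := by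
      intro j
      induction j with
      | zero => intro v; simp
      | succ j ih =>
        intro v
        rw [pow_succ', pow_succ', map_mul, MulAut.mul_apply, Equiv.Perm.mul_apply]
        show Cfsg.Agent.FGS.quotCenterAut R ε ((f ^ j) v).1 = _
        rw [ih]
    have he1 : ε ^ 3 ^ (0 + 1) = 1 := Subtype.ext (by
      show e ^ 3 ^ (0 + 1) = 1
      rw [zero_add, pow_one, ← he3, pow_orderOf_eq_one])
    simpa using Cfsg.Agent.FGS.pow_dvd_card_of_free f Nat.prime_three 0
      (Equiv.ext fun v => Subtype.ext (by rw [hf, he1, map_one]; rfl))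
      (fun v hv => v.2.1 (hfree v.1 ((hf _ v).symm.trans (congrArg Subtype.val hv))))
  -- `d` permutes the three fibres transitively
  have hFd : ∀ w : R, Nat.card (F (R.normalizerMonoidHom δ w)) = Nat.card (F w) := by
    intro w
    refine (Nat.card_congr (Equiv.subtypeEquiv (Cfsg.Agent.FGS.quotCenterAut R δ).toEquiv
      fun v => ?_)).symm
    show _ ↔ (Cfsg.Agent.FGS.quotCenterAut R δ v ≠ 1 ∧ q (Cfsg.Agent.FGS.quotCenterAut R δ v) = _)
    rw [ne_eq, ne_eq, EmbeddingLike.map_eq_one_iff, hqequiv,
      (R.normalizerMonoidHom δ).injective.eq_iff]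
  have hRne : Subgroup.center R ≠ ⊥ := hR2.bot_lt_center.ne'
  obtain ⟨⟨w, hw⟩, hw1⟩ := (Subgroup.center R).ne_bot_iff_exists_ne_one.mp hRne
  have hw1' : w ≠ 1 := fun h => hw1 (Subtype.ext h)
  set σ := R.normalizerMonoidHom δ with hσ
  have hσc : ∀ a ∈ Subgroup.center R, σ a ∈ Subgroup.center R := fun a ha =>
    (Subgroup.characteristic_iff_le_comap.mp inferInstance σ) ha
  have hσfix : ∀ a ∈ Subgroup.center R, σ a = a → a = 1 := fun a ha h =>
    Subtype.ext (hfpf' a (hZW ⟨a, ha, rfl⟩) (mul_inv_eq_iff_eq_mul.mp (congrArg Subtype.val h)))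
  obtain ⟨k, hk⟩ := hd ⟨d, Subgroup.mem_zpowers d⟩
  have hσodd : σ ^ 3 ^ k = 1 := by
    rw [hσ, ← map_pow, show δ ^ 3 ^ k = 1 from Subtype.ext
      (by simpa [SubgroupClass.coe_pow] using congrArg Subtype.val hk), map_one]
  have hσ2 : σ (σ w) ≠ w := by
    intro h
    have hev : ∀ j, (σ ^ (2 * j)) w = w := by
      intro j
      induction j with
      | zero => simp
      | succ j ih =>
        rw [show 2 * (j + 1) = 2 + 2 * j by ring, pow_add, MulAut.mul_apply, ih, sq, MulAut.mul_apply, h]
    obtain ⟨j, hj⟩ : Odd (3 ^ k) := Odd.pow (by decide)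
    have := congrArg (fun f : MulAut R => f w) hσodd
    rw [hj, pow_succ', MulAut.mul_apply, hev, MulAut.one_apply] at this
    exact hw1' (hσfix w hw this)
  have hc4 : Nat.card (Subgroup.center R) = 4 :=
    (Subgroup.card_map_of_injective R.subtype_injective).symm.trans hZ4
  haveI : Fintype R := Fintype.ofFinite R
  have hset : (Finset.univ.filter fun a : R => a ∈ Subgroup.center R) = {1, w, σ w, σ (σ w)} := by
    symm
    refine Finset.eq_of_subset_of_card_le ?_ ?_
    · intro a ha
      simp only [Finset.mem_insert, Finset.mem_singleton] at ha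
      simp only [Finset.mem_filter, Finset.mem_univ, true_and]
      rcases ha with rfl | rfl | rfl | rfl
      exacts [one_mem _, hw, hσc _ hw, hσc _ (hσc _ hw)]
    · have e1 : σ w ≠ 1 := fun h => hw1' ((map_eq_one_iff σ σ.injective).mp h)
      have e2 : σ (σ w) ≠ 1 := fun h => e1 ((map_eq_one_iff σ σ.injective).mp h)
      have e3 : σ w ≠ w := fun h => hw1' (hσfix w hw h)
      have e4 : σ (σ w) ≠ σ w := fun h => e3 (σ.injective h)
      rw [Finset.card_insert_of_notMem (by simp [Ne.symm hw1', Ne.symm e1, Ne.symm e2]),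
        Finset.card_insert_of_notMem (by simp [Ne.symm e3, Ne.symm hσ2]),
        Finset.card_insert_of_notMem (by simp [Ne.symm e4]), Finset.card_singleton,
        ← Fintype.card_subtype, ← Nat.card_eq_fintype_card]
      exact hc4.le
  -- all non-trivial cosets are distributed over the three fibres
  haveI : Fintype V := Fintype.ofFinite V
  have hfib := Finset.card_eq_sum_card_fiberwise (s := Finset.univ.filter fun v : V => v ≠ 1)
    (t := ({w, σ w, σ (σ w)} : Finset R)) (f := q) (fun v hv => by
      simp only [Finset.coe_filter, Finset.mem_univ, true_and, Set.mem_ofPred_eq] at hv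
      have hqc : q v ∈ Subgroup.center R := Cfsg.Agent.PGroup.special_pow_mem_center hsp _
      have hq1 : q v ≠ 1 := fun h => hv (by
        rw [← QuotientGroup.out_eq' v, QuotientGroup.eq_one_iff]
        exact hinv _ h)
      have : q v ∈ ({1, w, σ w, σ (σ w)} : Finset R) := by rw [← hset]; simp [hqc]
      simpa [hq1] using this)
  have hFc : ∀ a : R, ((Finset.univ.filter fun v : V => v ≠ 1).filter fun v => q v = a).card =
      Nat.card (F a) := by
    intro a
    rw [Nat.card_eq_fintype_card, Fintype.card_subtype, Finset.filter_filter]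
  have e3 : σ w ≠ w := fun h => hw1' (hσfix w hw h)
  have e4 : σ (σ w) ≠ σ w := fun h => e3 (σ.injective h)
  rw [Finset.sum_insert (by simp [Ne.symm e3, Ne.symm hσ2]),
    Finset.sum_insert (by simp [Ne.symm e4]), Finset.sum_singleton, hFc, hFc, hFc,
    hFd (σ w), hFd w] at hfib
  have hVc : (Finset.univ.filter fun v : V => v ≠ 1).card = Nat.card V - 1 := by
    rw [Nat.card_eq_fintype_card, ← Fintype.card_subtype, Fintype.card_subtype_compl,
      Fintype.card_subtype_eq]
  rw [hVc] at hfib
  have h9 : 9 ∣ (Subgroup.center R).index - 1 := by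
    rw [Subgroup.index_eq_card, hfib]
    obtain ⟨c, hc⟩ := h3F w hw
    exact ⟨c, by rw [hc]; omega⟩
  obtain ⟨j, hj⟩ := hR2.index (Subgroup.center R)
  have htop : Subgroup.center R = ⊤ :=
    Subgroup.index_eq_one.mp (Cfsg.Agent.FGS.eq_one_of_nine_dvd hj h32 h9)
  have hc := (commutator_eq_bot_iff_center_eq_top R).mpr htop
  rw [hsp.2.2, htop] at hc
  exact top_ne_bot hc

end Cfsg.Agent.S3739
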