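import Cfsg.Statements.S3740
import Cfsg.Agent.Elusive.TwoByTwo
import Cfsg.Agent.H4.QuaternionSection
import Cfsg.Agent.Linear.Torus
import Cfsg.Agent.Coprime.Action
import Cfsg.Agent.S3742

set_option linter.style.haveILetI false
set_option maxHeartbeats 1000000

set_option autoImplicit false
open Cfsg
open scoped commutatorElement Pointwise

namespace Cfsg.Agent.S3740

open Matrix hiding mul_inv_rev one_zpow

variable {F : Type} [Field F] {p : ℕ} [Fact p.Prime] [CharP F p]

omit [Fact p.Prime] in
theorem two_ne_zero_of_char (hp : p ≠ 2) (hpr : p.Prime) : (2 : F) ≠ 0 := by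
  intro h
  have h2 : ((2 : ℕ) : F) = 0 := by exact_mod_cast h
  rw [CharP.cast_eq_zero_iff F p] at h2
  exact hp ((Nat.prime_dvd_prime_iff_eq hpr Nat.prime_two).mp h2)

/-- The only elements squaring to the identity are `± 1`. -/
theorem eq_one_or_neg_one (h2 : (2 : F) ≠ 0) (x : SpecialLinearGroup (Fin 2) F) (hx : x ^ 2 = 1) :
    x = 1 ∨ x = -1 := by
  have hX : (x : Matrix (Fin 2) (Fin 2) F) * x = 1 := by
    rw [← Matrix.SpecialLinearGroup.coe_mul, ← sq, hx, Matrix.SpecialLinearGroup.coe_one]
  set X := (x : Matrix (Fin 2) (Fin 2) F) with hXdef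
  have hch := Cfsg.Agent.Elusive.mul_self_two X
  rw [hX, Matrix.SpecialLinearGroup.det_coe, one_smul] at hch
  set t := X 0 0 + X 1 1 with ht
  have h00 := congrFun (congrFun hch 0) 0
  have h01 := congrFun (congrFun hch 0) 1
  have h10 := congrFun (congrFun hch 1) 0
  have h11 := congrFun (congrFun hch 1) 1
  simp at h00 h01 h10 h11
  have htne : t ≠ 0 := fun h => h2 (by rw [h] at h00; linear_combination h00)
  have e01 : X 0 1 = 0 := h01.resolve_left htne
  have e10 : X 1 0 = 0 := h10.resolve_left htne
  have he : X 0 0 = X 1 1 := mul_left_cancel₀ htne (by linear_combination h11 - h00)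
  have hdet : X 0 0 * X 0 0 = 1 := by
    have h := Matrix.SpecialLinearGroup.det_coe x
    rw [Matrix.det_fin_two, ← hXdef, e01, zero_mul, sub_zero, ← he] at h
    exact h
  rcases mul_self_eq_one_iff.mp hdet with h | h
  · left
    ext i j
    fin_cases i <;> fin_cases j <;> simp [← hXdef, e01, e10, h, ← he]
  · right
    ext i j
    fin_cases i <;> fin_cases j <;> simp [← hXdef, e01, e10, h, ← he]

/-- Non-trivial `p`-elements have order `p` and small centralisers. -/
theorem unipotent_facts (a : SpecialLinearGroup (Fin 2) F) (ha1 : a ≠ 1) {k : ℕ} (hk : a ^ p ^ k = 1) :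
    a ^ p = 1 ∧ ∀ x : SpecialLinearGroup (Fin 2) F, a * x = x * a → (x ^ 2) ^ p = 1 := by
  have hpr : p.Prime := Fact.out
  set A := (a : Matrix (Fin 2) (Fin 2) F) with hA
  set N := A - 1 with hN
  have hNk : N ^ p ^ k = 0 := by
    rw [hN, sub_pow_char_pow_of_commute p k (Commute.one_right A), one_pow, hA,
      ← Matrix.SpecialLinearGroup.coe_pow, hk, Matrix.SpecialLinearGroup.coe_one, sub_self]
  have hdet : N.det = 0 := by
    have := congrArg Matrix.det hNk
    rw [Matrix.det_pow, Matrix.det_zero] at this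
    exact eq_zero_of_pow_eq_zero this
  have hch := Cfsg.Agent.Elusive.mul_self_two N
  rw [hdet, zero_smul, sub_zero] at hch
  have hN0 : N ≠ 0 := fun h => ha1 (Subtype.ext (sub_eq_zero.mp h))
  have htr : N 0 0 + N 1 1 = 0 := by
    by_contra ht
    have hpow : ∀ m, N ^ (m + 1) = (N 0 0 + N 1 1) ^ m • N := by
      intro m
      induction m with
      | zero => simp
      | succ m ih => rw [pow_succ, ih, smul_mul_assoc, hch, smul_smul, ← pow_succ]
    obtain ⟨m, hm⟩ := Nat.exists_eq_add_of_le' (Nat.one_le_pow k p hpr.pos)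
    rw [hm, hpow] at hNk
    rcases smul_eq_zero.mp hNk with h | h
    · exact ht (eq_zero_of_pow_eq_zero h)
    · exact hN0 h
  rw [htr, zero_smul] at hch
  have hN2 : ∀ c : F, (1 + c • N) ^ p = 1 := by
    intro c
    rw [add_pow_char_of_commute p (Commute.one_left _), one_pow, smul_pow]
    obtain ⟨m, hm⟩ := Nat.exists_eq_add_of_le' hpr.two_le
    rw [hm, pow_add (M := Matrix (Fin 2) (Fin 2) F), pow_two N, hch, mul_zero, smul_zero, add_zero]
  refine ⟨Subtype.ext ?_, fun x hx => Subtype.ext ?_⟩
  · rw [Matrix.SpecialLinearGroup.coe_pow, Matrix.SpecialLinearGroup.coe_one]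
    have := hN2 1
    rwa [one_smul, hN, add_sub_cancel] at this
  set X := (x : Matrix (Fin 2) (Fin 2) F) with hX
  have hXN : N * X = X * N := by
    rw [hN, sub_mul, mul_sub, one_mul, mul_one, hA, hX, ← Matrix.SpecialLinearGroup.coe_mul,
      ← Matrix.SpecialLinearGroup.coe_mul, hx]
  obtain ⟨α, β, hab⟩ : ∃ α β : F, X = α • (1 : Matrix (Fin 2) (Fin 2) F) + β • N := by
    have e00 := congrFun (congrFun hXN 0) 0
    have e01 := congrFun (congrFun hXN 0) 1
    have e10 := congrFun (congrFun hXN 1) 0
    simp only [Matrix.mul_apply, Fin.sum_univ_two] at e00 e01 e10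
    by_cases h01 : N 0 1 = 0
    · by_cases h10 : N 1 0 = 0
      · exfalso
        have h00 : N 0 0 = 0 := by
          have h := congrFun (congrFun hch 0) 0
          simp [Matrix.mul_apply, Fin.sum_univ_two, h01] at h
          exact h
        apply hN0
        ext i j
        fin_cases i <;> fin_cases j
        · exact h00
        · exact h01
        · exact h10
        · show N 1 1 = 0
          rwa [h00, zero_add] at htr
      · refine ⟨X 0 0 - X 1 0 / N 1 0 * N 0 0, X 1 0 / N 1 0, ?_⟩
        ext i j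
        fin_cases i <;> fin_cases j <;> simp
        · field_simp
          linear_combination -e00
        · field_simp
        · field_simp
          linear_combination -e10
    · refine ⟨X 0 0 - X 0 1 / N 0 1 * N 0 0, X 0 1 / N 0 1, ?_⟩
      ext i j
      fin_cases i <;> fin_cases j <;> simp
      · field_simp
      · field_simp
        linear_combination e00
      · field_simp
        linear_combination e01
  have hα : α * α = 1 := by
    have h := Matrix.SpecialLinearGroup.det_coe x
    rw [← hX, hab, Matrix.det_fin_two] at h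
    rw [Matrix.det_fin_two] at hdet
    simp at h
    linear_combination h - β * β * hdet - α * β * htr
  have hX2 : X * X = 1 + (2 * α * β) • N := by
    rw [hab]
    simp only [add_mul, mul_add, smul_mul_smul_comm, one_mul, mul_one, hch, smul_zero, add_zero, hα,
      one_smul, add_assoc, ← add_smul]
    congr 2
    ring
  rw [Matrix.SpecialLinearGroup.coe_pow, Matrix.SpecialLinearGroup.coe_pow,
    Matrix.SpecialLinearGroup.coe_one, sq, ← hX, hX2]
  exact hN2 _

/-- An element conjugate to `x` and commuting with it is `x` or `x⁻¹`. -/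
theorem eq_self_or_inv (h2 : (2 : F) ≠ 0) (a x : SpecialLinearGroup (Fin 2) F)
    (hx2 : (x ^ 2) ^ p ≠ 1) (hc : x * (a * x * a⁻¹) = a * x * a⁻¹ * x) :
    a * x * a⁻¹ = x ∨ a * x * a⁻¹ = x⁻¹ := by
  set y := a * x * a⁻¹ with hy
  set X := (x : Matrix (Fin 2) (Fin 2) F) with hX
  set Y := (y : Matrix (Fin 2) (Fin 2) F) with hY
  have hXY : X * Y = Y * X := by
    rw [hX, hY, ← Matrix.SpecialLinearGroup.coe_mul, ← Matrix.SpecialLinearGroup.coe_mul, hc]
  have htr : Y 0 0 + Y 1 1 = X 0 0 + X 1 1 := by
    have h : Matrix.trace Y = Matrix.trace X := by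
      rw [hY, hy, Matrix.SpecialLinearGroup.coe_mul, Matrix.trace_mul_comm,
        ← Matrix.SpecialLinearGroup.coe_mul, inv_mul_cancel_left]
    rwa [Matrix.trace_fin_two, Matrix.trace_fin_two] at h
  set t := X 0 0 + X 1 1 with ht
  have hns : ∀ z : F, X ≠ z • (1 : Matrix (Fin 2) (Fin 2) F) := by
    intro z hz
    have h := Matrix.SpecialLinearGroup.det_coe x
    rw [← hX, hz, Matrix.det_smul, Matrix.det_one, Fintype.card_fin, mul_one] at h
    refine hx2 ?_
    have hx' : x ^ 2 = 1 := Subtype.ext (by
      rw [Matrix.SpecialLinearGroup.coe_pow, ← hX, hz, smul_pow, h, one_pow, one_smul,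
        Matrix.SpecialLinearGroup.coe_one])
    rw [hx', one_pow]
  obtain ⟨β, α, hab⟩ : ∃ β α : F, Y = β • X + α • (1 : Matrix (Fin 2) (Fin 2) F) := by
    have e00 := congrFun (congrFun hXY 0) 0
    have e01 := congrFun (congrFun hXY 0) 1
    have e10 := congrFun (congrFun hXY 1) 0
    simp only [Matrix.mul_apply, Fin.sum_univ_two] at e00 e01 e10
    by_cases h01 : X 0 1 = 0
    · by_cases h10 : X 1 0 = 0
      · have hd : X 0 0 ≠ X 1 1 := by
          intro hd
          refine hns (X 0 0) ?_
          ext i j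
          fin_cases i <;> fin_cases j <;> simp [h01, h10, hd]
        have hd' : X 0 0 - X 1 1 ≠ 0 := sub_ne_zero.mpr hd
        refine ⟨(Y 0 0 - Y 1 1) / (X 0 0 - X 1 1),
          Y 0 0 - (Y 0 0 - Y 1 1) / (X 0 0 - X 1 1) * X 0 0, ?_⟩
        ext i j
        fin_cases i <;> fin_cases j <;> simp [h01, h10]
        · refine mul_left_cancel₀ hd' ?_
          rw [h01] at e01
          linear_combination e01
        · refine mul_left_cancel₀ hd' ?_
          rw [h10] at e10
          linear_combination -e10
        · field_simp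
          ring
      · refine ⟨Y 1 0 / X 1 0, Y 0 0 - Y 1 0 / X 1 0 * X 0 0, ?_⟩
        ext i j
        fin_cases i <;> fin_cases j <;> simp
        · field_simp
          linear_combination -e00
        · field_simp
        · field_simp
          linear_combination -e10
    · refine ⟨Y 0 1 / X 0 1, Y 0 0 - Y 0 1 / X 0 1 * X 0 0, ?_⟩
      ext i j
      fin_cases i <;> fin_cases j <;> simp
      · field_simp
      · field_simp
        linear_combination e00
      · field_simp
        linear_combination e01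
  have hdY := Matrix.SpecialLinearGroup.det_coe y
  have hdX := Matrix.SpecialLinearGroup.det_coe x
  rw [← hY, hab, Matrix.det_fin_two] at hdY
  rw [← hX, Matrix.det_fin_two] at hdX
  rw [hab] at htr
  simp at hdY htr
  have hα : 2 * α = t * (1 - β) := by rw [ht] at htr ⊢; linear_combination htr
  have key : (1 - β) * (1 + β) * (t * t - 4) = 0 := by
    rw [ht] at hα ⊢
    linear_combination 4 * hdY - 4 * β * β * hdX -
      (2 * α + (X 0 0 + X 1 1) * (1 - β) + 2 * β * (X 0 0 + X 1 1)) * hα
  have hch := Cfsg.Agent.Elusive.mul_self_two X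
  rw [Matrix.SpecialLinearGroup.det_coe, one_smul, ← ht] at hch
  rcases mul_eq_zero.mp key with h | h
  · rcases mul_eq_zero.mp h with h' | h'
    · left
      have hβ : β = 1 := by linear_combination -h'
      have hα0 : α = 0 := mul_left_cancel₀ h2 (by rw [hα, hβ]; ring)
      exact Subtype.ext (by rw [← hY, hab, hβ, hα0, one_smul, zero_smul, add_zero])
    · right
      have hβ : β = -1 := by linear_combination h'
      have hαt : α = t := mul_left_cancel₀ h2 (by rw [hα, hβ]; ring)
      refine eq_inv_of_mul_eq_one_right (Subtype.ext ?_)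
      rw [Matrix.SpecialLinearGroup.coe_mul, Matrix.SpecialLinearGroup.coe_one, ← hX, ← hY, hab,
        hβ, hαt, mul_add, mul_smul_comm, mul_smul_comm, mul_one, hch, neg_smul, one_smul]
      abel
  · -- `x` would be unipotent up to a sign
    exfalso
    have htt : t * t = 2 * 2 := by linear_combination h
    refine hx2 (Subtype.ext ?_)
    rw [Matrix.SpecialLinearGroup.coe_pow, Matrix.SpecialLinearGroup.coe_pow, ← hX,
      Matrix.SpecialLinearGroup.coe_one]
    set M := X ^ 2 - 1 with hM
    have hM2 : M * M = 0 := by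
      have e : X ^ 2 - 1 = t • X - (2 : F) • 1 := by
        rw [sq, hch, two_smul]; abel
      rw [hM, e]
      simp only [sub_mul, mul_sub, smul_mul_smul_comm, one_mul, mul_one, hch, htt, smul_sub, smul_smul]
      rw [mul_comm (2 : F) t]
      module
    have e : X ^ 2 = 1 + M := by rw [hM]; abel
    rw [e, add_pow_char_of_commute p (Commute.one_left _), one_pow]
    obtain ⟨m, hm⟩ := Nat.exists_eq_add_of_le' (Fact.out : p.Prime).two_le
    rw [hm, pow_add, pow_two M, hM2, mul_zero, add_zero]

/-- Let F be a finite field of odd characteristic p and let a be a p-element of SL₂(F) normalizing a subgroup R of order prime to p with [R, a] ≠ 1. Then p = 3, R is a quaternion group of order 8, and R⟨a⟩ is isomorphic to SL₂(3). -/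
theorem result (F : Type) [Field F] [Fintype F] {p : ℕ} [Fact p.Prime] [CharP F p] (hp : p ≠ 2) (a : Matrix.SpecialLinearGroup (Fin 2) F) (ha : IsPGroup p ↥(Subgroup.zpowers a)) (R : Subgroup (Matrix.SpecialLinearGroup (Fin 2) F)) (hR : (Nat.card R).Coprime p) (haR : a ∈ Subgroup.normalizer (R : Set (Matrix.SpecialLinearGroup (Fin 2) F))) (hnt : ⁅R, Subgroup.zpowers a⁆ ≠ ⊥) : p = 3 ∧ Nonempty (↥R ≃* QuaternionGroup 2) ∧ Nonempty (↥(R ⊔ Subgroup.zpowers a) ≃* Matrix.SpecialLinearGroup (Fin 2) (ZMod 3)) := by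
  classical
  have hpr : p.Prime := Fact.out
  haveI : Fact (Nat.Prime 2) := ⟨Nat.prime_two⟩
  have hpodd : Odd p := hpr.odd_of_ne_two hp
  have h2 : (2 : F) ≠ 0 := two_ne_zero_of_char hp hpr
  have ha1 : a ≠ 1 := by
    intro h
    refine hnt ?_
    rw [h, Subgroup.zpowers_one_eq_bot, Subgroup.commutator_bot_right]
  obtain ⟨k, hk⟩ := ha ⟨a, Subgroup.mem_zpowers a⟩
  obtain ⟨hap, hcent⟩ := unipotent_facts a ha1 (k := k) (by simpa using congrArg Subtype.val hk)
  have hao : orderOf a = p := orderOf_eq_prime hap ha1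
  set A := Subgroup.zpowers a with hA
  have hAR : A ≤ Subgroup.normalizer (R : Set (Matrix.SpecialLinearGroup (Fin 2) F)) :=
    Subgroup.zpowers_le.mpr haR
  have hcop : (Nat.card A).Coprime (Nat.card R) := by rw [Nat.card_zpowers, hao]; exact hR.symm
  -- elements of `R` centralised by `a`
  have hsmall : ∀ x ∈ R, a * x = x * a → x = 1 ∨ x = -1 := by
    intro x hx hax
    refine eq_one_or_neg_one h2 x ?_
    have ho : orderOf (x ^ 2) ∣ Nat.card R := by
      rw [← Subgroup.orderOf_mk _ (pow_mem hx 2)]; exact orderOf_dvd_natCard _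
    rw [← orderOf_eq_one_iff]
    exact Nat.eq_one_of_dvd_coprimes hR ho (orderOf_dvd_of_pow_eq_one (hcent x hax))
  -- `R` is a `2`-group
  have hR2 : IsPGroup 2 R := by
    obtain ⟨e, he⟩ : ∃ e, Nat.card R = 2 ^ e := by
      refine ⟨_, Nat.eq_prime_pow_of_unique_prime_dvd Nat.card_pos.ne' (p := 2) ?_⟩
      intro r hr hrd
      by_contra hr2
      haveI : Fact r.Prime := ⟨hr⟩
      obtain ⟨S, hS⟩ := Cfsg.Agent.Coprime.exists_invariant_sylow r hAR hcop (Or.inl inferInstance)
      set Sm := (S : Subgroup R).map R.subtype with hSm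
      have hSR : Sm ≤ R := Subgroup.map_subtype_le _
      have hrq : ¬ r ∣ Fintype.card F := by
        intro h
        obtain ⟨n, hn, hn'⟩ := FiniteField.card F p
        rw [hn'] at h
        have hrp := (Nat.prime_dvd_prime_iff_eq hr hpr).mp (hr.dvd_of_dvd_pow h)
        subst hrp
        exact hr.ne_one (Nat.eq_one_of_dvd_coprimes hR hrd dvd_rfl)
      obtain ⟨T, hT⟩ := (S.2.map R.subtype).exists_le_sylow
      haveI : IsCyclic (T : Subgroup (Matrix.SpecialLinearGroup (Fin 2) F)) :=
        Cfsg.Agent.Linear.isCyclic_sylow_SL_two r hr2 hrq T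
      haveI : IsCyclic Sm := Subgroup.isCyclic_of_le hT
      obtain ⟨x, hx⟩ := IsCyclic.exists_generator (α := Sm)
      -- the generator is centralised
      have hxR : (x : Matrix.SpecialLinearGroup (Fin 2) F) ∈ R := hSR x.2
      have hxo : ∃ m, orderOf (x : Matrix.SpecialLinearGroup (Fin 2) F) = r ^ m := by
        obtain ⟨m, hm⟩ := IsPGroup.iff_orderOf.mp (S.2.map R.subtype) x
        exact ⟨m, by rw [Subgroup.orderOf_coe]; exact hm⟩
      obtain ⟨m, hm⟩ := hxo
      set g := (x : Matrix.SpecialLinearGroup (Fin 2) F) with hg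
      have hg1 : g ≠ 1 := by
        intro h
        have hx1 : Sm = ⊥ := (Subgroup.eq_bot_iff_forall _).mpr fun y hy => by
          obtain ⟨i, hi⟩ := Subgroup.mem_zpowers_iff.mp (hx ⟨y, hy⟩)
          have : (g ^ i) = y := congrArg Subtype.val hi
          rw [← this, h, _root_.one_zpow]
        rw [hSm, Subgroup.map_eq_bot_iff_of_injective _ R.subtype_injective] at hx1
        exact S.ne_bot_of_dvd_card hrd hx1
      have hdvdm : ∀ i, g ^ i = 1 → r ^ m ∣ i := fun i h => hm ▸ orderOf_dvd_of_pow_eq_one h
      have hm0 : m ≠ 0 := fun h => hg1 (orderOf_eq_one_iff.mp (by rw [hm, h, pow_zero]))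
      have hx2 : (g ^ 2) ^ p ≠ 1 := by
        intro h
        rw [← pow_mul] at h
        have h1 : r ∣ 2 * p := (dvd_pow_self r hm0).trans (hdvdm _ h)
        rcases hr.dvd_mul.mp h1 with h3 | h3
        · exact hr2 ((Nat.prime_dvd_prime_iff_eq hr Nat.prime_two).mp h3)
        · have hrp := (Nat.prime_dvd_prime_iff_eq hr hpr).mp h3
          subst hrp
          exact hr.ne_one (Nat.eq_one_of_dvd_coprimes hR hrd dvd_rfl)
      have hconj : a * g * a⁻¹ ∈ Sm :=
        (Subgroup.mem_normalizer_iff.mp (hS (Subgroup.mem_zpowers a)) g).mp x.2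
      have hc : g * (a * g * a⁻¹) = a * g * a⁻¹ * g := by
        obtain ⟨i, hi⟩ := Subgroup.mem_zpowers_iff.mp (hx ⟨_, hconj⟩)
        have : g ^ i = a * g * a⁻¹ := congrArg Subtype.val hi
        rw [← this]
        exact (Commute.zpow_right (Commute.refl g) i).eq
      have ha2 : Commute (a ^ 2) g := by
        rcases eq_self_or_inv h2 a g hx2 hc with h | h
        · exact (show Commute a g from mul_inv_eq_iff_eq_mul.mp h).pow_left 2
        · refine mul_inv_eq_iff_eq_mul.mp ?_
          calc a ^ 2 * g * (a ^ 2)⁻¹ = a * (a * g * a⁻¹) * a⁻¹ := by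
                simp only [sq, mul_inv_rev, mul_assoc]
            _ = (a * g * a⁻¹)⁻¹ := by
                conv_lhs => rw [h]
                simp only [mul_inv_rev, inv_inv, mul_assoc]
            _ = g := by rw [h, inv_inv]
      have hag : a * g = g * a := by
        obtain ⟨j, hj⟩ := hpodd
        have : (a ^ 2) ^ (j + 1) = a := by
          rw [← pow_mul, show 2 * (j + 1) = p + 1 by omega, pow_succ, hap, one_mul]
        exact (this ▸ ha2.pow_left (j + 1) : Commute a g).eq
      rcases hsmall g hxR hag with h | h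
      · exact hg1 h
      · refine hr2 ((Nat.prime_dvd_prime_iff_eq hr Nat.prime_two).mp ((dvd_pow_self r hm0).trans ?_))
        exact hdvdm 2 (by rw [h, neg_one_sq])
    exact IsPGroup.of_card he
  have huniq : ∀ x ∈ R, ∀ y ∈ R, orderOf x = 2 → orderOf y = 2 → x = y := by
    have key : ∀ x : Matrix.SpecialLinearGroup (Fin 2) F, orderOf x = 2 → x = -1 := by
      intro x hx
      refine (eq_one_or_neg_one h2 x (by have := pow_orderOf_eq_one x; rwa [hx] at this)).resolve_left fun h => ?_
      rw [h, orderOf_one] at hx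
      norm_num at hx
    exact fun x _ y _ hx hy => (key x hx).trans (key y hy).symm
  have hgo : Nat.Coprime (orderOf a) 2 := by
    rw [hao]; exact Nat.coprime_two_right.mpr hpodd
  have hgc : a ∉ Subgroup.centralizer (R : Set (Matrix.SpecialLinearGroup (Fin 2) F)) := by
    intro h
    refine hnt (Subgroup.commutator_eq_bot_iff_le_centralizer.mpr ?_)
    rw [Subgroup.le_centralizer_iff]
    exact Subgroup.zpowers_le.mpr h
  obtain ⟨e⟩ := Cfsg.Agent.H4.equiv_quaternion_two hR2 huniq haR hgo hgc
  have hp3 : p = 3 := by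
    set c : MulAut R := R.normalizerMonoidHom ⟨a, haR⟩ with hc
    have hc1 : c ≠ 1 := fun h => hgc (Subgroup.mem_centralizer_iff.mpr fun x hx =>
      (mul_inv_eq_iff_eq_mul.mp (congrArg (fun f : MulAut R => ((f ⟨x, hx⟩ : R) :
        Matrix.SpecialLinearGroup (Fin 2) F)) h)).symm)
    have hcp : c ^ p = 1 := by
      rw [hc, ← map_pow, show (⟨a, haR⟩ : Subgroup.normalizer (R : Set _)) ^ p = 1 from
        Subtype.ext (by simpa using hap), map_one]
    have h24 : Nat.card (MulAut R) = 24 := by
      obtain ⟨f⟩ := Cfsg.Agent.S3742.result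
      rw [Nat.card_congr (MulAut.congr e).toEquiv, Nat.card_congr f.toEquiv,
        Nat.card_eq_fintype_card, Fintype.card_perm, Fintype.card_fin]
      rfl
    have hd : p ∣ 2 ^ 3 * 3 := by
      have := orderOf_dvd_natCard c
      rwa [orderOf_eq_prime hcp hc1, h24] at this
    rcases hpr.dvd_mul.mp hd with h | h
    · exact absurd ((Nat.prime_dvd_prime_iff_eq hpr Nat.prime_two).mp (hpr.dvd_of_dvd_pow h)) hp
    · exact (Nat.prime_dvd_prime_iff_eq hpr Nat.prime_three).mp h
  refine ⟨hp3, ⟨e⟩, ?_⟩
  set G' := R ⊔ A with hG'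
  have hRle : R ≤ G' := le_sup_left
  set a' : G' := ⟨a, Subgroup.mem_sup_right (Subgroup.mem_zpowers a)⟩ with ha'
  have hn' : a' ∈ Subgroup.normalizer ((R.subgroupOf G' : Subgroup G') : Set G') :=
    Subgroup.mem_normalizer_iff.mpr fun y => Subgroup.mem_normalizer_iff.mp haR y
  obtain ⟨H, K, hKn, ⟨f⟩⟩ := Cfsg.Agent.H4.exists_section_of_quaternion
    ((Subgroup.subgroupOfEquivOfLe hRle).trans e) hn'
    (by rw [← Subgroup.orderOf_coe]; exact hgo)
    (fun h => hgc (Subgroup.mem_centralizer_iff.mpr fun x hx => congrArg Subtype.val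
      (Subgroup.mem_centralizer_iff.mp h ⟨x, hRle hx⟩ hx)))
  have hcard : Nat.card G' ≤ 24 := by
    have h : (G' : Set (Matrix.SpecialLinearGroup (Fin 2) F)) =
        (R : Set _) * (A : Set _) := Subgroup.coe_mul_of_right_le_normalizer_left R A hAR
    have h' := Set.natCard_mul_le (s := (R : Set (Matrix.SpecialLinearGroup (Fin 2) F))) (t := (A : Set _))
    rw [← h] at h'
    refine h'.trans ?_
    show Nat.card R * Nat.card A ≤ 24
    rw [Nat.card_congr e.toEquiv, Nat.card_eq_fintype_card, QuaternionGroup.card, Nat.card_zpowers,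
      hao, hp3]
  have hH : Nat.card (H ⧸ K.subgroupOf H) = 24 := by
    rw [Nat.card_congr f.toEquiv, Cfsg.Agent.Linear.card_SL_two, ZMod.card]
  have hHle := Subgroup.card_le_card_group H
  have hHK := Subgroup.card_eq_card_quotient_mul_card_subgroup (K.subgroupOf H)
  have hKpos : 0 < Nat.card (K.subgroupOf H) := Nat.card_pos
  rw [hH] at hHK
  have hK1 : Nat.card (K.subgroupOf H) = 1 := by nlinarith
  have hHtop : H = ⊤ := Subgroup.eq_top_of_le_card _ (by rw [hHK, hK1]; omega)
  haveI := hKn
  exact ⟨(Subgroup.topEquiv.symm.trans (MulEquiv.subgroupCongr hHtop.symm)).trans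
    (((QuotientGroup.quotientMulEquivOfEq (Subgroup.card_eq_one.mp hK1)).trans
      QuotientGroup.quotientBot).symm.trans f)⟩

end Cfsg.Agent.S3740
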