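import Cfsg.Statements.S3741
import Cfsg.Agent.PGroup.Extraspecial

set_option autoImplicit false
open Cfsg
open scoped commutatorElement
set_option linter.style.haveILetI false

namespace Cfsg.Agent.S3741

theorem _root_.Cfsg.Agent.PGroup.relIndex_centralizer_le {G : Type*} [Group G] [Finite G] {p : ℕ}
    [Fact p.Prime] (hG : IsPGroup p G) (A B : Subgroup G) (hAB : ⁅A, B⁆ ≤ A ⊓ B)
    (hcard : Nat.card ↥⁅A, B⁆ ≤ p) :
    (A ⊓ Subgroup.centralizer (B : Set G)).relIndex A ≤
      (B ⊓ Subgroup.centralizer (A : Set G)).relIndex B := by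
  classical
  set C := ⁅A, B⁆ with hC
  -- `C` is centralized by `A` and by `B`
  have hn : A ⊔ B ≤ Subgroup.normalizer (C : Set G) := by
    refine sup_le ?_ ?_
    · exact Subgroup.normalizer_commutator_ge_left ..
    · exact Subgroup.normalizer_commutator_ge_right ..
  have hcomm : ∀ g ∈ A ⊔ B, ∀ c ∈ C, g * c = c * g := by
    intro g hg c hc
    set K := A ⊔ B
    haveI : (C.subgroupOf K).Normal :=
      (Subgroup.normal_subgroupOf_iff_le_normalizer
        ((hAB.trans inf_le_left).trans le_sup_left)).mpr hn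
    have hK := hG.to_subgroup K
    have hcK : C ≤ K := (hAB.trans inf_le_left).trans le_sup_left
    have hle : C.subgroupOf K ≤ Subgroup.center K := by
      rcases ((hK.to_subgroup (C.subgroupOf K)).card_eq_or_dvd) with h1 | h1
      · rw [Subgroup.card_eq_one.mp h1]; exact bot_le
      · refine Cfsg.Agent.PGroup.le_center_of_card_eq hK (le_antisymm ?_ (Nat.le_of_dvd Nat.card_pos h1))
        rw [Nat.card_congr (Subgroup.subgroupOfEquivOfLe hcK).toEquiv]
        exact hcard
    exact congrArg Subtype.val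
      (Subgroup.mem_center_iff.mp (hle (Subgroup.mem_subgroupOf.mpr hc : (⟨c, hcK hc⟩ : K) ∈ _)) ⟨g, hg⟩)
  have hmulr : ∀ a ∈ A, ∀ b ∈ B, ∀ b' ∈ B, ⁅a, b * b'⁆ = ⁅a, b⁆ * ⁅a, b'⁆ := by
    intro a ha b hb b' hb'
    have h := hcomm b (Subgroup.mem_sup_right hb) _ (Subgroup.commutator_mem_commutator ha hb')
    calc ⁅a, b * b'⁆ = ⁅a, b⁆ * (b * ⁅a, b'⁆ * b⁻¹) := by
          simp [commutatorElement_def, mul_assoc]
      _ = _ := by rw [h, mul_inv_cancel_right]
  have hmull : ∀ a ∈ A, ∀ a' ∈ A, ∀ b ∈ B, ⁅a * a', b⁆ = ⁅a, b⁆ * ⁅a', b⁆ := by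
    intro a ha a' ha' b hb
    have h := hcomm a (Subgroup.mem_sup_left ha) _ (Subgroup.commutator_mem_commutator ha' hb)
    have h2 := hcomm _ ((hAB.trans inf_le_left).trans le_sup_left
      (Subgroup.commutator_mem_commutator ha hb)) _ (Subgroup.commutator_mem_commutator ha' hb)
    calc ⁅a * a', b⁆ = a * ⁅a', b⁆ * a⁻¹ * ⁅a, b⁆ := by simp [commutatorElement_def, mul_assoc]
      _ = ⁅a', b⁆ * ⁅a, b⁆ := by rw [h, mul_inv_cancel_right]
      _ = _ := h2.symm
  have hBhom : ∀ a ∈ A, ∃ φ : B →* C, ∀ b : B, (φ b : G) = ⁅a, (b : G)⁆ := fun a ha =>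
    ⟨MonoidHom.mk' (fun b => ⟨⁅a, (b : G)⁆, Subgroup.commutator_mem_commutator ha b.2⟩)
      (fun b b' => Subtype.ext (hmulr a ha b b.2 b' b'.2)), fun b => rfl⟩
  have hAhom : ∀ b ∈ B, ∃ φ : A →* C, ∀ a : A, (φ a : G) = ⁅(a : G), b⁆ := fun b hb =>
    ⟨MonoidHom.mk' (fun a => ⟨⁅(a : G), b⁆, Subgroup.commutator_mem_commutator a.2 hb⟩)
      (fun a a' => Subtype.ext (hmull a a.2 a' a'.2 b hb)), fun a => rfl⟩
  have hCp : ∀ c : C, c ^ p = 1 := by
    intro c
    rcases (hG.to_subgroup C).card_eq_or_dvd with h1 | h1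
    · have hc1 : c = 1 := Subtype.ext (Subgroup.mem_bot.mp (Subgroup.card_eq_one.mp h1 ▸ c.2))
      rw [hc1, one_pow]
    · rw [← le_antisymm hcard (Nat.le_of_dvd Nat.card_pos h1)]
      exact pow_card_eq_one'
  have hCcomm : ∀ c d : C, c * d = d * c := fun c d => Subtype.ext
    (hcomm c ((hAB.trans inf_le_left).trans le_sup_left c.2) d d.2)
  set D := (B ⊓ Subgroup.centralizer (A : Set G)).subgroupOf B with hD
  have hmemD : ∀ b : B, (∀ a ∈ A, ⁅a, (b : G)⁆ = 1) → b ∈ D := fun b h =>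
    Subgroup.mem_subgroupOf.mpr ⟨b.2, Subgroup.mem_centralizer_iff.mpr fun a ha =>
      commutatorElement_eq_one_iff_mul_comm.mp (h a ha)⟩
  have hDc : commutator B ≤ D := by
    rw [commutator_eq_closure, Subgroup.closure_le]
    rintro _ ⟨b, b', rfl⟩
    refine hmemD _ fun a ha => ?_
    obtain ⟨φ, hφ⟩ := hBhom a ha
    rw [← hφ, map_commutatorElement, commutatorElement_eq_one_iff_mul_comm.mpr (hCcomm _ _)]
    rfl
  have hDp : ∀ b : B, b ^ p ∈ D := fun b => hmemD _ fun a ha => by
    obtain ⟨φ, hφ⟩ := hBhom a ha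
    rw [← hφ, map_pow, hCp]
    rfl
  obtain ⟨T, hT, hTgen⟩ := Cfsg.Agent.PGroup.exists_generators_mod (hG.to_subgroup B) hDc hDp
  have hle : A ⊓ Subgroup.centralizer ((Subtype.val : B → G) '' (T : Set B)) ≤
      A ⊓ Subgroup.centralizer (B : Set G) := by
    rintro a ⟨ha, haT⟩
    refine ⟨ha, Subgroup.mem_centralizer_iff.mpr fun b hb => ?_⟩
    have : (⊤ : Subgroup B) ≤ (Subgroup.centralizer ({a} : Set G)).subgroupOf B := by
      rw [← hTgen, sup_le_iff, Subgroup.closure_le]
      exact ⟨fun d hd => Subgroup.mem_subgroupOf.mpr (Subgroup.mem_centralizer_singleton_iff.mpr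
          (Subgroup.mem_centralizer_iff.mp (Subgroup.mem_subgroupOf.mp hd).2 a ha).symm),
        fun t ht => Subgroup.mem_subgroupOf.mpr (Subgroup.mem_centralizer_singleton_iff.mpr
          (Subgroup.mem_centralizer_iff.mp haT (t : G) ⟨t, ht, rfl⟩))⟩
    exact Subgroup.mem_centralizer_singleton_iff.mp (this (Subgroup.mem_top (⟨b, hb⟩ : B)))
  have hone : ∀ b : B, (A ⊓ Subgroup.centralizer ({(b : G)} : Set G)).relIndex A ≤ p := by
    intro b
    obtain ⟨φ, hφ⟩ := hAhom b b.2
    have hker : φ.ker = (A ⊓ Subgroup.centralizer ({(b : G)} : Set G)).subgroupOf A := by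
      ext a
      rw [MonoidHom.mem_ker, Subgroup.mem_subgroupOf, Subtype.ext_iff, hφ, OneMemClass.coe_one,
        commutatorElement_eq_one_iff_mul_comm, Subgroup.mem_inf,
        Subgroup.mem_centralizer_singleton_iff]
      exact ⟨fun h => ⟨a.2, h⟩, fun h => h.2⟩
    rw [Subgroup.relIndex, ← hker, Subgroup.index_ker]
    exact (Subgroup.card_le_card_group _).trans hcard
  have hbound : ∀ S : Finset B,
      (A ⊓ Subgroup.centralizer ((Subtype.val : B → G) '' (S : Set B))).relIndex A ≤ p ^ S.card := by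
    intro S
    induction S using Finset.induction with
    | empty =>
      have : A ⊓ Subgroup.centralizer ((Subtype.val : B → G) '' ((∅ : Finset B) : Set B)) = A :=
        inf_eq_left.mpr fun a _ => Subgroup.mem_centralizer_iff.mpr fun y hy => by simp at hy
      rw [this, Subgroup.relIndex_self, Finset.card_empty, pow_zero]
    | @insert b S hb ih =>
      have : A ⊓ Subgroup.centralizer ((Subtype.val : B → G) '' ((insert b S : Finset B) : Set B)) =
          (A ⊓ Subgroup.centralizer ({(b : G)} : Set G)) ⊓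
            (A ⊓ Subgroup.centralizer ((Subtype.val : B → G) '' (S : Set B))) := by
        ext g
        simp only [Subgroup.mem_inf, Subgroup.mem_centralizer_iff, Finset.coe_insert,
          Set.image_insert_eq, Set.mem_insert_iff, forall_eq_or_imp, Set.mem_singleton_iff, forall_eq]
        tauto
      rw [this, Finset.card_insert_of_notMem hb, pow_succ, mul_comm]
      exact Subgroup.relIndex_inf_le.trans (Nat.mul_le_mul (hone b) ih)
  have hrhs : (B ⊓ Subgroup.centralizer (A : Set G)).relIndex B = p ^ T.card := hT.symm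
  rw [hrhs]
  exact (Subgroup.relIndex_le_of_le_left hle (Subgroup.FiniteIndex.index_ne_zero)).trans (hbound T)


/-- Let A and B be subgroups of a finite p-group with [A, B] ≤ A ∩ B and [A, B] of order at most p. Then |A : C_A(B)| = |B : C_B(A)|. -/
theorem result {G : Type*} [Group G] [Finite G] {p : ℕ} [Fact p.Prime] (hG : IsPGroup p G) (A B : Subgroup G) (hAB : ⁅A, B⁆ ≤ A ⊓ B) (hcard : Nat.card ↥⁅A, B⁆ ≤ p) : (A ⊓ Subgroup.centralizer (B : Set G)).relIndex A = (B ⊓ Subgroup.centralizer (A : Set G)).relIndex B := by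
  exact le_antisymm (Cfsg.Agent.PGroup.relIndex_centralizer_le hG A B hAB hcard)
    (Cfsg.Agent.PGroup.relIndex_centralizer_le hG B A
      (by rw [Subgroup.commutator_comm]; exact hAB.trans_eq (inf_comm A B))
      (by rw [Subgroup.commutator_comm]; exact hcard))

end Cfsg.Agent.S3741
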