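import Cfsg.Statements.S3743
import Cfsg.Agent.Cores.Fitting
import Cfsg.Agent.Cores.Pi

set_option autoImplicit false
open Cfsg

namespace Cfsg.Agent.S3743

/-- In a finite group G, every subnormal nilpotent subgroup lies in the Fitting subgroup F(G), and, for a set of primes π, every subnormal subgroup all of whose prime divisors lie in π lies in O_π(G). -/
theorem result {G : Type*} [Group G] [Finite G] (A : Subgroup G) (hA : A.IsSubnormal) : (Group.IsNilpotent A → A ≤ Cfsg.fittingSubgroup G) ∧ ∀ π : Set ℕ, (∀ p : ℕ, p.Prime → p ∣ Nat.card A → p ∈ π) → A ≤ Cfsg.piCore π G := by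
  refine ⟨fun h => Cfsg.Agent.Cores.le_fittingSubgroup_of_isSubnormal hA h, fun π h => ?_⟩
  have key : ∀ {S : Subgroup G}, S.IsSubnormal →
      (Cfsg.piCore π S).map S.subtype ≤ Cfsg.piCore π G := by
    intro S hS
    induction hS with
    | top =>
      exact (Cfsg.Agent.Cores.map_subtype_piCore_eq (N := (⊤ : Subgroup G))).trans_le inf_le_right
    | step H K hle hK hN ih =>
      refine le_trans ?_ ih
      haveI := hN
      set H' := H.subgroupOf K
      have h2 : (Cfsg.piCore π H').map H'.subtype ≤ Cfsg.piCore π K :=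
        Cfsg.Agent.Cores.map_subtype_piCore_eq.trans_le inf_le_right
      have h3 := Subgroup.map_mono (f := K.subtype) h2
      rw [Subgroup.map_map] at h3
      have h4 : (Cfsg.piCore π H).map H.subtype =
          (Cfsg.piCore π H').map (K.subtype.comp H'.subtype) := by
        rw [← Cfsg.Agent.Cores.map_piCore_equiv (Subgroup.subgroupOfEquivOfLe hle),
          Subgroup.map_map]
        rfl
      rw [h4]; exact h3
  refine le_trans ?_ (key hA)
  have htop : (⊤ : Subgroup A) ≤ Cfsg.piCore π A :=
    Cfsg.Agent.Cores.le_piCore inferInstance (by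
      rw [Subgroup.card_top]; exact h)
  intro a ha
  exact ⟨⟨a, ha⟩, htop (Subgroup.mem_top _), rfl⟩

end Cfsg.Agent.S3743
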