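import Cfsg.Statements.S3744
import Cfsg.Agent.FGS.PComplement

set_option autoImplicit false
open Cfsg

namespace Cfsg.Agent.S3744

/-- A finite p-soluble group has a p-complement, all its p-complements are conjugate, and every subgroup of order prime to p lies in one of them. Here a p-complement is a subgroup of order prime to p whose index is a power of p. -/
theorem result {G : Type*} [Group G] [Finite G] {p : ℕ} [Fact p.Prime] (hG : Cfsg.IsPSolvable p G) : (∃ H : Subgroup G, (Nat.card H).Coprime p ∧ ∃ n : ℕ, H.index = p ^ n) ∧ (∀ H₁ H₂ : Subgroup G, (Nat.card H₁).Coprime p → (∃ n : ℕ, H₁.index = p ^ n) → (Nat.card H₂).Coprime p → (∃ n : ℕ, H₂.index = p ^ n) → ∃ g : G, H₂ = H₁.map (MulAut.conj g).toMonoidHom) ∧ (∀ U : Subgroup G, (Nat.card U).Coprime p → ∃ H : Subgroup G, (Nat.card H).Coprime p ∧ (∃ n : ℕ, H.index = p ^ n) ∧ ∃ g : G, U.map (MulAut.conj g).toMonoidHom ≤ H) :=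 by
  obtain ⟨⟨H₀, hH₀⟩, hcont⟩ := Cfsg.Agent.FGS.pCompl_aux (p := p) _ le_rfl hG
  refine ⟨⟨H₀, hH₀⟩, fun H₁ H₂ h1 h1' h2 h2' => ?_, fun U hU => ?_⟩
  · obtain ⟨g, hg⟩ := hcont H₂ H₁ ⟨h2, h2'⟩ h1
    refine ⟨g, (Subgroup.eq_of_le_of_card_ge hg ?_).symm⟩
    rw [Cfsg.Agent.SZ.card_conj_smul]
    exact (Cfsg.Agent.FGS.IsPCompl.card_eq ⟨h2, h2'⟩ ⟨h1, h1'⟩).le
  · obtain ⟨g, hg⟩ := hcont H₀ U hH₀ hU
    exact ⟨H₀, hH₀.1, hH₀.2, g, hg⟩

end Cfsg.Agent.S3744
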