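import Cfsg.Statements.S3746
import Cfsg.Agent.Components.Basic

set_option autoImplicit false
open Cfsg
open scoped commutatorElement

namespace Cfsg.Agent.S3746

theorem isSubnormal_comap {G H : Type*} [Group G] [Group H] (f : G →* H) {S : Subgroup H}
    (hS : S.IsSubnormal) : (S.comap f).IsSubnormal := by
  induction hS with
  | top => rw [Subgroup.comap_top]; exact Subgroup.IsSubnormal.top
  | step A B hle _ hN ih =>
    refine Subgroup.IsSubnormal.step _ _ (Subgroup.comap_mono hle) ih ?_
    exact (hN.comap (f.subgroupComap B))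

/-- Let Z ≤ Z(G) be a central subgroup of a finite group G and E a subgroup of G containing Z whose image E/Z is a component of G/Z (subnormal and quasisimple). Then the derived subgroup [E, E] is a component of G. -/
theorem result {G : Type*} [Group G] [Finite G] (Z : Subgroup G) (hZ : Z ≤ Subgroup.center G) [Z.Normal] (E : Subgroup G) (hZE : Z ≤ E) (hE : Cfsg.IsComponent (E.map (QuotientGroup.mk' Z))) : Cfsg.IsComponent ⁅E, E⁆ := by
  set π := QuotientGroup.mk' Z
  have hπ : Function.Surjective π := QuotientGroup.mk'_surjective Z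
  have hcm : (E.map π).comap π = E := by
    rw [Subgroup.comap_map_eq, QuotientGroup.ker_mk', sup_eq_left.mpr hZE]
  have hEsub : E.IsSubnormal := hcm ▸ isSubnormal_comap π hE.1
  set K := ⁅E, E⁆ with hK
  have hKE : K ≤ E := Subgroup.commutator_le_self E
  have hKn : (K.subgroupOf E).Normal :=
    (Subgroup.normal_subgroupOf_iff_le_normalizer hKE).mpr (Subgroup.normalizer_commutator_ge_left ..)
  have hKmap : K.map π = E.map π := by
    rw [Subgroup.map_commutator]; exact Cfsg.Agent.Components.quasisimple_commutator_self hE.2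
  -- `E = K Z`
  have hEKZ : E = K ⊔ Z := by
    have := congrArg (Subgroup.comap π) hKmap
    rw [hcm, Subgroup.comap_map_eq, QuotientGroup.ker_mk'] at this
    exact this.symm
  have hperf : ⁅K, K⁆ = K := by
    refine le_antisymm (Subgroup.commutator_le_self K) ?_
    conv_lhs => rw [hK]
    rw [Subgroup.commutator_le]
    intro a ha b hb
    rw [hEKZ] at ha hb
    haveI : Z.Normal := inferInstance
    obtain ⟨k, hk, z, hz, rfl⟩ := Subgroup.mem_sup_of_normal_right.mp ha
    obtain ⟨l, hl, w, hw, rfl⟩ := Subgroup.mem_sup_of_normal_right.mp hb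
    have hzc := Subgroup.mem_center_iff.mp (hZ hz)
    have hwc := Subgroup.mem_center_iff.mp (hZ hw)
    have : ⁅k * z, l * w⁆ = ⁅k, l⁆ := by
      simp only [commutatorElement_def]
      calc k * z * (l * w) * (k * z)⁻¹ * (l * w)⁻¹
          = k * (z * (l * w)) * z⁻¹ * k⁻¹ * (w⁻¹ * l⁻¹) := by group
        _ = k * l * w * k⁻¹ * w⁻¹ * l⁻¹ := by rw [← hzc (l * w)]; group
        _ = k * l * (w * k⁻¹) * w⁻¹ * l⁻¹ := by group
        _ = k * l * k⁻¹ * l⁻¹ := by rw [← hwc k⁻¹]; group
    rw [this]
    exact Subgroup.commutator_mem_commutator hk hl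
  refine ⟨Subgroup.IsSubnormal.step _ E hKE hEsub hKn, ?_⟩
  -- `K` is quasisimple
  let f : K →* E.map π := (π.subgroupMap E).comp (Subgroup.inclusion hKE)
  have hfsurj : Function.Surjective f := by
    rintro ⟨y, hy⟩
    rw [← hKmap] at hy
    obtain ⟨k, hk, rfl⟩ := hy
    exact ⟨⟨k, hk⟩, rfl⟩
  have hker : ∀ k : K, f k = 1 → (k : G) ∈ Subgroup.center G := fun k hk =>
    hZ ((QuotientGroup.eq_one_iff (k : G)).mp (congrArg Subtype.val hk))
  haveI : Nontrivial K := by
    haveI := Cfsg.Agent.Components.quasisimple_nontrivial hE.2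
    exact hfsurj.nontrivial
  haveI : Group.IsPerfect K := ⟨by
    refine Subgroup.map_injective K.subtype_injective ?_
    show (commutator K).map K.subtype = _
    rw [commutator_def, Subgroup.map_commutator, ← MonoidHom.range_eq_map, Subgroup.range_subtype]
    exact hperf⟩
  refine Cfsg.Agent.Components.quasisimple_of_forall_normal fun N hN => ?_
  rcases Cfsg.Agent.Components.quasisimple_normal hE.2 (hN.map f hfsurj) with h | h
  · left
    have htop : N ⊔ f.ker = ⊤ := by
      rw [← Subgroup.comap_map_eq, h, Subgroup.comap_top]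
    have hkc : f.ker ≤ Subgroup.center K := fun k hk => Subgroup.mem_center_iff.mpr fun g =>
      Subtype.ext (Subgroup.mem_center_iff.mp (hker k (MonoidHom.mem_ker.mp hk)) g)
    refine eq_top_iff.mpr ?_
    rw [← Group.IsPerfect.commutator_eq_top, commutator_def, Subgroup.commutator_le]
    intro a _ b _
    rw [← htop] at *
    haveI := hN
    obtain ⟨n, hn, z, hz, rfl⟩ := Subgroup.mem_sup_of_normal_left.mp (show a ∈ N ⊔ f.ker by rw [htop]; trivial)
    have hzc := Subgroup.mem_center_iff.mp (hkc hz)
    have : ⁅n * z, b⁆ = ⁅n, b⁆ := by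
      simp only [commutatorElement_def]
      calc n * z * b * (n * z)⁻¹ * b⁻¹ = n * (z * b) * z⁻¹ * n⁻¹ * b⁻¹ := by group
        _ = n * b * n⁻¹ * b⁻¹ := by rw [← hzc b]; group
    rw [this]
    exact Subgroup.commutator_le_left N ⊤ (Subgroup.commutator_mem_commutator hn (Subgroup.mem_top b))
  · right
    have h1 : ∀ n ∈ N, ∀ g : K, ((⁅n, g⁆ : K) : G) ∈ Subgroup.center G := fun n hn g => by
      refine hker _ ?_
      rw [map_commutatorElement, commutatorElement_eq_one_iff_mul_comm]
      exact (Subgroup.mem_center_iff.mp (h ⟨n, hn, rfl⟩) (f g)).symm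
    have h2 : ⁅⁅N, (⊤ : Subgroup K)⁆, (⊤ : Subgroup K)⁆ = ⊥ := by
      rw [Subgroup.commutator_eq_bot_iff_le_centralizer, Subgroup.commutator_le]
      intro n hn g _
      exact Subgroup.mem_centralizer_iff.mpr fun x _ =>
        Subtype.ext (Subgroup.mem_center_iff.mp (h1 n hn g) x)
    have h3 : ⁅(⊤ : Subgroup K), N⁆ = ⊥ := Cfsg.Agent.Components.perfect_centralizes_of_commutator
      (Group.IsPerfect.commutator_eq_top) h2
    intro n hn
    exact Subgroup.mem_center_iff.mpr fun g => Subgroup.mem_centralizer_iff.mp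
      ((Subgroup.commutator_eq_bot_iff_le_centralizer.mp h3) (Subgroup.mem_top g)) n hn |>.symm

end Cfsg.Agent.S3746
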