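import Cfsg.Statements.S3747
import Cfsg.Agent.Components.Basic
import Cfsg.Agent.Primitive.Subgroup

set_option autoImplicit false
open Cfsg

namespace Cfsg.Agent.S3747

/-- Let G be a finite group. (a) If K is a component of G with trivial centre, then the normal closure of K in G is a minimal normal subgroup of G. (b) If the Fitting subgroup of G is trivial, then the layer E(G) is generated by the minimal normal subgroups of G. -/
theorem result {G : Type*} [Group G] [Finite G] : (∀ K : Subgroup G, Cfsg.IsComponent K → Subgroup.center ↥K = ⊥ → (Subgroup.normalClosure (K : Set G) ≠ ⊥ ∧ ∀ N : Subgroup G, N.Normal → N ≤ Subgroup.normalClosure (K : Set G) → N = ⊥ ∨ N = Subgroup.normalClosure (K : Set G))) ∧ (Cfsg.fittingSubgroup G = ⊥ → sSup {N : Subgroup G | N ≠ ⊥ ∧ N.Normal ∧ ∀ N' : Subgroup G, N'.Normal → N' ≤ N → N' = ⊥ ∨ N' = N} = Cfsg.layer G) := by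
  classical
  have hconjset : ∀ K : Subgroup G, Subgroup.normalClosure (K : Set G) ≤
      sSup (Set.range fun g : G => K.map (MulAut.conj g).toMonoidHom) := by
    intro K
    set S := sSup (Set.range fun g : G => K.map (MulAut.conj g).toMonoidHom)
    haveI : S.Normal := ⟨fun x hx h => by
      have : S.map (MulAut.conj h).toMonoidHom ≤ S := by
        simp only [S, sSup_range, Subgroup.map_iSup]
        refine iSup_le fun g => le_iSup_of_le (h * g) ?_
        rw [Subgroup.map_map]
        rintro _ ⟨k, hk, rfl⟩
        exact ⟨k, hk, by simp [mul_assoc]⟩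
      exact this ⟨x, hx, rfl⟩⟩
    refine Subgroup.normalClosure_le_normal fun k hk => ?_
    have h1 : K.map (MulAut.conj (1 : G)).toMonoidHom ≤ S := le_sSup ⟨1, rfl⟩
    exact h1 ⟨k, hk, by simp⟩
  have hmin : ∀ K : Subgroup G, Cfsg.IsComponent K → Subgroup.center ↥K = ⊥ →
      (Subgroup.normalClosure (K : Set G) ≠ ⊥ ∧ ∀ N : Subgroup G, N.Normal →
        N ≤ Subgroup.normalClosure (K : Set G) → N = ⊥ ∨ N = Subgroup.normalClosure (K : Set G)) := by
    intro K hK hZ
    refine ⟨fun h => Cfsg.Agent.Components.component_ne_bot hK
      (le_bot_iff.mp (h ▸ Subgroup.le_normalClosure)), fun N hN hNle => ?_⟩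
    by_cases hex : ∃ g : G, K.map (MulAut.conj g).toMonoidHom ≤ N
    · obtain ⟨g, hg⟩ := hex
      refine Or.inr (le_antisymm hNle (Subgroup.normalClosure_le_normal fun k hk => ?_))
      have := hN.conj_mem _ (hg ⟨k, hk, rfl⟩) g⁻¹
      simpa [mul_assoc] using this
    · push Not at hex
      left
      set S : Finset (Subgroup G) :=
        (Set.finite_range fun g : G => K.map (MulAut.conj g).toMonoidHom).toFinset
      have hS : ∀ C ∈ S, Cfsg.IsComponent C ∧ Subgroup.center ↥C = ⊥ := by
        intro C hC
        obtain ⟨g, rfl⟩ := (Set.Finite.mem_toFinset _).mp hC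
        refine ⟨Cfsg.Agent.Components.component_conj g hK, le_bot_iff.mp fun x hx => ?_⟩
        obtain ⟨k, hk, hkx⟩ := x.2
        have hkc : (⟨k, hk⟩ : K) ∈ Subgroup.center K := Subgroup.mem_center_iff.mpr fun l =>
          Subtype.ext ((MulAut.conj g).injective (by
            have := congrArg Subtype.val (Subgroup.mem_center_iff.mp hx
              ⟨MulAut.conj g (l : G), (l : G), l.2, rfl⟩)
            simp only [Subgroup.coe_mul, ← hkx, MulEquiv.coe_toMonoidHom] at this
            simpa [map_mul] using this))
        rw [hZ, Subgroup.mem_bot] at hkc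
        refine Subgroup.mem_bot.mpr (Subtype.ext ?_)
        rw [← hkx, show k = 1 from congrArg Subtype.val hkc, map_one]
        rfl
      have hNC : N ≤ sSup (S : Set (Subgroup G)) := by
        rw [Set.Finite.coe_toFinset]; exact hNle.trans (hconjset K)
      have hcent : ∀ C ∈ S, ∀ c ∈ C, ∀ n ∈ N, n * c = c * n := by
        intro C hC c hc n hn
        obtain ⟨g, rfl⟩ := (Set.Finite.mem_toFinset _).mp hC
        have := (Cfsg.Agent.Components.component_le_or_commute_normal (hS _ hC).1 hN).resolve_left (hex g)
        exact Subgroup.mem_centralizer_iff.mp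
          (Subgroup.commutator_eq_bot_iff_le_centralizer.mp this hc) n hn
      -- a central element of the product of centreless components is trivial
      have key : ∀ T : Finset (Subgroup G), T ⊆ S →
          ∀ z ∈ sSup (T : Set (Subgroup G)), (∀ C ∈ T, ∀ c ∈ C, z * c = c * z) → z = 1 := by
        intro T
        induction T using Finset.induction with
        | empty => intro _ z hz _; simpa using hz
        | @insert C T hCT ih =>
          intro hsub z hz hzc
          have hCS := hS C (hsub (Finset.mem_insert_self C T))
          have hcomm : ∀ r ∈ sSup (T : Set (Subgroup G)), ∀ c ∈ C, r * c = c * r := by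
            intro r hr c hc
            have : sSup (T : Set (Subgroup G)) ≤ Subgroup.centralizer ({c} : Set G) := by
              refine sSup_le fun D hD d hd => Subgroup.mem_centralizer_singleton_iff.mpr ?_
              have hne : D ≠ C := fun e => hCT (e ▸ hD)
              exact (Subgroup.mem_centralizer_iff.mp (Subgroup.commutator_eq_bot_iff_le_centralizer.mp
                (Cfsg.Agent.Components.component_commute (hS D (hsub (Finset.mem_insert_of_mem hD))).1
                  hCS.1 hne) hd) c hc).symm
            exact Subgroup.mem_centralizer_singleton_iff.mp (this hr)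
          rw [Finset.coe_insert, sSup_insert] at hz
          have hnorm : sSup (T : Set (Subgroup G)) ≤ Subgroup.normalizer (C : Set G) :=
            sSup_le fun D hD => Cfsg.Agent.Components.component_normalizes hCS.1
              (hS D (hsub (Finset.mem_insert_of_mem hD))).1
          have hz' : z ∈ ((C ⊔ sSup (T : Set (Subgroup G)) : Subgroup G) : Set G) := hz
          rw [Subgroup.coe_mul_of_right_le_normalizer_left C _ hnorm] at hz'
          obtain ⟨c, hc, r, hr, rfl⟩ := hz'
          have hc1 : c = 1 := by
            have : (⟨c, hc⟩ : C) ∈ Subgroup.center C := Subgroup.mem_center_iff.mpr fun d => by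
              refine Subtype.ext ?_
              show (d : G) * c = c * d
              have h1 := hzc C (Finset.mem_insert_self C T) d d.2
              have h2 := hcomm r hr d d.2
              refine mul_right_cancel (b := r) ?_
              calc (d : G) * c * r = c * r * d := by rw [mul_assoc]; exact h1.symm
                _ = c * d * r := by rw [mul_assoc, h2, mul_assoc]
            rw [hCS.2, Subgroup.mem_bot] at this
            exact congrArg Subtype.val this
          subst hc1
          simp only [one_mul] at hzc ⊢
          exact ih ((Finset.subset_insert C T).trans hsub) r hr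
            fun D hD => hzc D (Finset.mem_insert_of_mem hD)
      exact le_bot_iff.mp fun n hn => Subgroup.mem_bot.mpr
        (key S subset_rfl n (hNC hn) fun C hC c hc => hcent C hC c hc n hn)
  refine ⟨hmin, fun hF => le_antisymm (sSup_le ?_) (sSup_le ?_)⟩
  · rintro N ⟨hN1, hN, hNmin⟩
    haveI := hN
    obtain ⟨K, hKN, hK1, hKs, hsimple⟩ := Cfsg.Agent.Primitive.exists_simple_subnormal_le
      (Subgroup.IsSubnormal.step N ⊤ le_top Subgroup.IsSubnormal.top inferInstance) hN1
    haveI : Nontrivial K := (Subgroup.nontrivial_iff_ne_bot K).mpr hK1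
    have hK : Cfsg.IsComponent K := by
      by_cases hcomm : IsMulCommutative K
      · exfalso
        letI : CommGroup K := { (inferInstance : Group K) with mul_comm := hcomm.is_comm.comm }
        exact hK1 (le_bot_iff.mp (hF ▸ Cfsg.Agent.Cores.le_fittingSubgroup_of_isSubnormal hKs
          CommGroup.isNilpotent))
      · have hperf : commutator K = ⊤ := (hsimple _ inferInstance).resolve_left fun h => hcomm
          ⟨⟨fun a b => Subgroup.mem_center_iff.mp
            (((commutator_eq_bot_iff_center_eq_top K).mp h) ▸ Subgroup.mem_top b) a⟩⟩
        haveI : Group.IsPerfect K := ⟨hperf⟩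
        exact ⟨hKs, Cfsg.Agent.Components.quasisimple_of_forall_normal
          fun M hM => (hsimple M hM).symm.imp id fun h => h.le.trans bot_le⟩
    rcases hNmin _ Subgroup.normalClosure_normal (Subgroup.normalClosure_le_normal
      (SetLike.coe_subset_coe.mpr hKN)) with h | h
    · exact absurd (le_bot_iff.mp (h ▸ Subgroup.le_normalClosure)) hK1
    · haveI := (Cfsg.Agent.Components.layer_normal (G := G))
      rw [← h]
      exact Subgroup.normalClosure_le_normal
        (SetLike.coe_subset_coe.mpr (Cfsg.Agent.Components.component_le_layer hK))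
  · intro K hK
    have hZ : Subgroup.center ↥K = ⊥ := by
      letI : CommGroup (Subgroup.center ↥K) :=
        { (inferInstance : Group (Subgroup.center ↥K)) with
          mul_comm := fun a b => Subtype.ext (Subgroup.mem_center_iff.mp b.2 a) }
      have hsub : ((Subgroup.center ↥K).map K.subtype).IsSubnormal :=
        Subgroup.IsSubnormal.step _ K (Subgroup.map_subtype_le _) hK.1 (by
          rw [Subgroup.subgroupOf, Subgroup.comap_map_eq_self_of_injective K.subtype_injective]
          infer_instance)
      haveI : Group.IsNilpotent (Subgroup.center ↥K) := CommGroup.isNilpotent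
      have := Cfsg.Agent.Cores.le_fittingSubgroup_of_isSubnormal hsub
        (Group.nilpotent_of_mulEquiv (Subgroup.equivMapOfInjective _ _ K.subtype_injective))
      rw [hF, le_bot_iff] at this
      exact (Subgroup.map_eq_bot_iff_of_injective _ K.subtype_injective).mp this
    exact Subgroup.le_normalClosure.trans
      (le_sSup ⟨(hmin K hK hZ).1, Subgroup.normalClosure_normal, (hmin K hK hZ).2⟩)

end Cfsg.Agent.S3747
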