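import Cfsg.Statements.S3749
import Cfsg.Agent.Primitive.Subgroup

set_option autoImplicit false
open Cfsg

namespace Cfsg.Agent.S3749

/-- Call a proper subgroup M of G primitive when M = N_G(N) for every non-trivial normal subgroup N of M. Let M be a primitive subgroup of the finite group G, p a prime with O_p(M) ≠ 1, and N a normal subgroup of G with M ∩ N = 1. Then p does not divide the order of N; for every prime q there is exactly one Sylow q-subgroup of N normalized by M; and if the order of N has at least two prime divisors then M is not a maximal subgroup of G. -/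
theorem result {G : Type*} [Group G] [Finite G] (M : Subgroup G) (hM : M ≠ ⊤) (hprim : ∀ N : Subgroup G, N ≤ M → M ≤ Subgroup.normalizer (N : Set G) → N ≠ ⊥ → Subgroup.normalizer (N : Set G) = M) {p : ℕ} [Fact p.Prime] (hOp : Cfsg.pCore p ↥M ≠ ⊥) (N : Subgroup G) [N.Normal] (hMN : M ⊓ N = ⊥) : ¬ p ∣ Nat.card N ∧ (∀ q : ℕ, [Fact q.Prime] → ∃! Q : Sylow q ↥N, M ≤ Subgroup.normalizer ((Q : Subgroup ↥N).map N.subtype : Set G)) ∧ ((∃ q r : ℕ, q.Prime ∧ r.Prime ∧ q ≠ r ∧ q ∣ Nat.card N ∧ r ∣ Nat.card N) → ¬ IsCoatom M) := by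
  set P := (Cfsg.pCore p M).map M.subtype with hPdef
  have hP : IsPGroup p P := Cfsg.Agent.Primitive.map_pCore_isPGroup M
  have hP1 : P ≠ ⊥ := fun e =>
    hOp ((Subgroup.map_eq_bot_iff_of_injective _ M.subtype_injective).mp e)
  have hPM : P ≤ M := Subgroup.map_subtype_le _
  have hMP : M ≤ Subgroup.normalizer (P : Set G) :=
    Cfsg.Agent.Primitive.le_normalizer_map_char M _
  have hC : N ⊓ Subgroup.centralizer (P : Set G) = ⊥ := le_bot_iff.mp fun x hx =>
    hMN ▸ (⟨Cfsg.Agent.Primitive.centralizer_le hprim hPM hMP hP1 hx.2, hx.1⟩ : x ∈ M ⊓ N)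
  -- `P` acts on `N` by conjugation with one fixed point
  let act : MulAction P N :=
    { smul := fun g n => ⟨(g : G) * n * (g : G)⁻¹, (inferInstance : N.Normal).conj_mem n n.2 _⟩
      one_smul := fun n => Subtype.ext (show (1 : G) * n * (1 : G)⁻¹ = (n : G) by simp)
      mul_smul := fun g h n => Subtype.ext (show
        ((g : G) * h) * n * ((g : G) * h)⁻¹ = (g : G) * ((h : G) * n * (h : G)⁻¹) * (g : G)⁻¹ by
          group) }
  have hp : ¬ p ∣ Nat.card N := by
    intro hd
    obtain ⟨b, hb, hne⟩ := hP.exists_fixed_point_of_prime_dvd_card_of_fixed_point N hd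
      (a := (1 : N)) (fun g => Subtype.ext (show (g : G) * (1 : G) * (g : G)⁻¹ = 1 by simp))
    apply hne
    have hbc : (b : G) ∈ N ⊓ Subgroup.centralizer (P : Set G) :=
      ⟨b.2, Subgroup.mem_centralizer_iff.mpr fun g hg =>
        mul_inv_eq_iff_eq_mul.mp (congrArg Subtype.val (hb ⟨g, hg⟩))⟩
    rw [hC, Subgroup.mem_bot] at hbc
    exact Subtype.ext hbc.symm
  have hMN' : M ≤ Subgroup.normalizer (N : Set G) := by
    rw [Subgroup.normalizer_eq_top N]; exact le_top
  have hcop : (Nat.card P).Coprime (Nat.card N) := by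
    obtain ⟨k, hk⟩ := IsPGroup.iff_card.mp hP
    rw [hk]
    exact Nat.Coprime.pow_left k ((Fact.out : p.Prime).coprime_iff_not_dvd.mpr hp)
  have hsol : Group.IsSolvable P := haveI := hP.isNilpotent; inferInstance
  have huniq : ∀ q : ℕ, [Fact q.Prime] → ∃! Q : Sylow q ↥N,
      M ≤ Subgroup.normalizer ((Q : Subgroup ↥N).map N.subtype : Set G) := by
    intro q hq
    obtain ⟨Q, hQ⟩ := Cfsg.Agent.Coprime.exists_invariant_sylow q (hPM.trans hMN') hcop (Or.inl hsol)
    have hun : ∀ R : Sylow q N, P ≤ Subgroup.normalizer ((R : Subgroup N).map N.subtype : Set G) →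
        (R : Subgroup N).map N.subtype = (Q : Subgroup N).map N.subtype := by
      intro R hR
      obtain ⟨c, hc, hcQ⟩ := Cfsg.Agent.Coprime.exists_centralizer_conj_sylow (hPM.trans hMN') hcop
        (Or.inl hsol) R Q hR hQ
      rw [hC, Subgroup.mem_bot] at hc
      rw [hc, map_one, one_smul] at hcQ
      exact hcQ
    refine ⟨Q, fun m hm => ?_, fun R hR => Sylow.ext
      (Subgroup.map_injective N.subtype_injective (hun R (hPM.trans hR)))⟩
    -- the conjugate of `Q` is again `P`-invariant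
    set Qm := (Q : Subgroup N).map N.subtype with hQm
    have hle : Qm.map (MulAut.conj m).toMonoidHom ≤ N := by
      rintro _ ⟨y, hy, rfl⟩
      exact (inferInstance : N.Normal).conj_mem y (Subgroup.map_subtype_le _ hy) m
    have hcard : Nat.card ↥((Qm.map (MulAut.conj m).toMonoidHom).subgroupOf N) =
        q ^ (Nat.card N).factorization q := by
      rw [Nat.card_congr (Subgroup.subgroupOfEquivOfLe hle).toEquiv,
        Subgroup.card_map_of_injective (MulAut.conj m).injective,
        Subgroup.card_map_of_injective N.subtype_injective, Q.card_eq_multiplicity]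
    have hR := hun (Sylow.ofCard _ hcard) (by
      rw [Sylow.coe_ofCard, Subgroup.map_subgroupOf_eq_of_le hle]
      intro g hg
      have hg' : m⁻¹ * g * m ∈ P := by
        simpa using (Subgroup.mem_normalizer_iff.mp (inv_mem (hMP hm)) g).mp hg
      refine Subgroup.mem_normalizer_iff.mpr fun y => ?_
      simp only [Subgroup.mem_map_equiv, MulAut.conj_symm_apply]
      rw [Subgroup.mem_normalizer_iff.mp (hQ hg')]
      exact Iff.of_eq (congrArg (· ∈ Qm) (by group)))
    rw [Sylow.coe_ofCard, Subgroup.map_subgroupOf_eq_of_le hle] at hR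
    refine Subgroup.mem_normalizer_iff.mpr fun y => ⟨fun hy => hR.le ⟨y, hy, rfl⟩, fun hy => ?_⟩
    obtain ⟨z, hz, hzy⟩ := hR.ge hy
    simp only [MulEquiv.coe_toMonoidHom, MulAut.conj_apply, mul_left_inj, mul_right_inj] at hzy
    exact hzy ▸ hz
  refine ⟨hp, huniq, ?_⟩
  rintro ⟨q, r, hq, hr, hqr, hqd, hrd⟩ hmax
  haveI : Fact q.Prime := ⟨hq⟩
  obtain ⟨Q, hQ, -⟩ := huniq q
  set Qm := (Q : Subgroup N).map N.subtype with hQm
  have hQ1 : Qm ≠ ⊥ := fun e => (Sylow.ne_bot_of_dvd_card Q hqd)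
    ((Subgroup.map_eq_bot_iff_of_injective _ N.subtype_injective).mp e)
  have htop : Qm ⊔ M = ⊤ := hmax.2 _ (lt_of_le_of_ne le_sup_right fun e => hQ1 (le_bot_iff.mp
    (hMN ▸ le_inf (e ▸ le_sup_left) (Subgroup.map_subtype_le _))))
  have hQtop : (Q : Subgroup N) = ⊤ := eq_top_iff.mpr fun x _ => by
    have hx : (x : G) ∈ ((Qm ⊔ M : Subgroup G) : Set G) := by rw [htop]; trivial
    rw [Subgroup.coe_mul_of_right_le_normalizer_left Qm M hQ] at hx
    obtain ⟨y, ⟨y', hy', rfl⟩, m, hm, hym⟩ := hx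
    have hm1 : m ∈ M ⊓ N := ⟨hm, by
      have : m = (y' : G)⁻¹ * x := by rw [← hym]; simp
      rw [this]; exact N.mul_mem (N.inv_mem y'.2) x.2⟩
    rw [hMN, Subgroup.mem_bot] at hm1
    subst hm1
    have : y' = x := Subtype.ext (by simpa using hym)
    exact this ▸ hy'
  have hN : IsPGroup q N := (hQtop ▸ Q.2 : IsPGroup q (⊤ : Subgroup N)).of_equiv Subgroup.topEquiv
  obtain ⟨k, hk⟩ := IsPGroup.iff_card.mp hN
  exact hqr ((Nat.prime_dvd_prime_iff_eq hr hq).mp (hr.dvd_of_dvd_pow (hk ▸ hrd))).symm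

end Cfsg.Agent.S3749
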