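import Cfsg.Statements.S3750
import Cfsg.Agent.Primitive.Subgroup

set_option autoImplicit false
open Cfsg

namespace Cfsg.Agent.S3750

/-- Call a proper subgroup M of G primitive when M = N_G(N) for every non-trivial normal subgroup N of M. Let M be a primitive subgroup of the finite group G and N a normal subgroup of G with M ∩ F*(N) ≠ 1. Then F(G) = 1 and F*(N) = F*(G) = E(G); in particular every minimal normal subgroup of G is contained in N. -/
theorem result {G : Type*} [Group G] [Finite G] (M : Subgroup G) (hM : M ≠ ⊤) (hprim : ∀ N : Subgroup G, N ≤ M → M ≤ Subgroup.normalizer (N : Set G) → N ≠ ⊥ → Subgroup.normalizer (N : Set G) = M) (N : Subgroup G) [N.Normal] (hMF : M ⊓ (Cfsg.generalizedFittingSubgroup ↥N).map N.subtype ≠ ⊥) : Cfsg.fittingSubgroup G = ⊥ ∧ (Cfsg.generalizedFittingSubgroup ↥N).map N.subtype = Cfsg.generalizedFittingSubgroup G ∧ Cfsg.generalizedFittingSubgroup G = Cfsg.layer G ∧ ∀ K : Subgroup G, K.Normal → K ≠ ⊥ → (∀ K' : Subgroup G, K'.Normal → K' ≤ K → K' = ⊥ ∨ K' = K) → K ≤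 N := by
  classical
  haveI hchar : (Cfsg.fittingSubgroup ↥N).Characteristic := inferInstance
  haveI hlchar : (Cfsg.layer ↥N).Characteristic := Cfsg.Agent.Components.layer_characteristic
  set E := (Cfsg.layer ↥N).map N.subtype with hE
  set F := (Cfsg.fittingSubgroup ↥N).map N.subtype with hF
  haveI hEn : E.Normal := Cfsg.Agent.Cores.normal_map_subtype_of_characteristic _
  haveI hFn : F.Normal := Cfsg.Agent.Cores.normal_map_subtype_of_characteristic _
  have hX : (Cfsg.generalizedFittingSubgroup ↥N).map N.subtype = E ⊔ F := Subgroup.map_sup ..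
  rw [hX] at hMF ⊢
  have hEX : E ≤ Cfsg.layer G := Cfsg.Agent.Components.layer_map_subnormal_le
    (Subgroup.IsSubnormal.step N ⊤ le_top Subgroup.IsSubnormal.top inferInstance)
  -- the centraliser of `F*(N)` is trivial
  have hC : Subgroup.centralizer ((E ⊔ F : Subgroup G) : Set G) = ⊥ := by
    refine Cfsg.Agent.Primitive.not_normal_le hprim hM ?_
    refine le_trans (Subgroup.centralizer_le (SetLike.coe_subset_coe.mpr
      (inf_le_right : M ⊓ (E ⊔ F) ≤ E ⊔ F))) ?_
    refine Cfsg.Agent.Primitive.centralizer_le hprim inf_le_left (fun m hm => ?_) hMF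
    refine Subgroup.mem_normalizer_iff.mpr fun y => ?_
    rw [Subgroup.mem_inf, Subgroup.mem_inf, Subgroup.mem_normalizer_iff.mp (Subgroup.le_normalizer hm) y,
      Subgroup.mem_normalizer_iff.mp
        ((Subgroup.normalizer_eq_top (E ⊔ F)).ge (Subgroup.mem_top m)) y]
  have hlayerF : ∀ x ∈ Cfsg.layer ↥N, ∀ y ∈ Cfsg.fittingSubgroup ↥N, x * y = y * x := fun x hx y hy =>
    (Subgroup.mem_centralizer_iff.mp ((Subgroup.commutator_eq_bot_iff_le_centralizer.mp
      Cfsg.Agent.Components.layer_centralizes_fitting) hx) y hy).symm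
  -- hence `F(N) = 1`
  have hFbot : Cfsg.fittingSubgroup ↥N = ⊥ := by
    by_contra hne
    haveI : Group.IsNilpotent (Cfsg.fittingSubgroup ↥N) := Cfsg.Agent.Cores.fittingSubgroup_isNilpotent
    haveI : Nontrivial (Cfsg.fittingSubgroup ↥N) := (Subgroup.nontrivial_iff_ne_bot _).mpr hne
    haveI : Nontrivial (Subgroup.center (Cfsg.fittingSubgroup ↥N)) :=
      (Subgroup.nontrivial_iff_ne_bot _).mpr (Group.IsNilpotent.center_ne_bot _)
    obtain ⟨⟨z, hz⟩, hz1⟩ := exists_ne (1 : Subgroup.center (Cfsg.fittingSubgroup ↥N))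
    have hmem : ((z : ↥N) : G) ∈ Subgroup.centralizer ((E ⊔ F : Subgroup G) : Set G) := by
      have : E ⊔ F ≤ Subgroup.centralizer ({((z : ↥N) : G)} : Set G) := by
        refine sup_le ?_ ?_
        · rintro _ ⟨x, hx, rfl⟩
          exact Subgroup.mem_centralizer_singleton_iff.mpr
            (congrArg Subtype.val (hlayerF x hx z z.2))
        · rintro _ ⟨x, hx, rfl⟩
          exact Subgroup.mem_centralizer_singleton_iff.mpr
            (congrArg (fun w : Cfsg.fittingSubgroup ↥N => ((w : ↥N) : G))
              (Subgroup.mem_center_iff.mp hz ⟨x, hx⟩))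
      exact Subgroup.mem_centralizer_iff.mpr fun h hh =>
        Subgroup.mem_centralizer_singleton_iff.mp (this hh)
    rw [hC, Subgroup.mem_bot] at hmem
    exact hz1 (Subtype.ext (Subtype.ext (Subtype.ext hmem)))
  have hF0 : F = ⊥ := by rw [hF, hFbot, Subgroup.map_bot]
  rw [hF0, sup_bot_eq] at hC ⊢
  have hFG : Cfsg.fittingSubgroup G = ⊥ := le_bot_iff.mp fun y hy => hC ▸
    Subgroup.mem_centralizer_iff.mpr fun x hx => (Subgroup.mem_centralizer_iff.mp
      ((Subgroup.commutator_eq_bot_iff_le_centralizer.mp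
        Cfsg.Agent.Components.layer_centralizes_fitting) (hEX hx)) y hy).symm
  have hlayer : E = Cfsg.layer G := by
    refine le_antisymm hEX (sSup_le fun K (hK : Cfsg.IsComponent K) => ?_)
    rcases Cfsg.Agent.Components.component_le_or_commute_normal hK (N := N) inferInstance with h | h
    · intro k hk
      exact ⟨⟨k, h hk⟩, Cfsg.Agent.Components.component_le_layer
        (Cfsg.Agent.Components.component_subgroupOf hK h) (Subgroup.mem_subgroupOf.mpr hk), rfl⟩
    · exfalso
      refine Cfsg.Agent.Components.component_ne_bot hK (le_bot_iff.mp (hC ▸ ?_))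
      exact (Subgroup.commutator_eq_bot_iff_le_centralizer.mp h).trans
        (Subgroup.centralizer_le (SetLike.coe_subset_coe.mpr (Subgroup.map_subtype_le _)))
  have hgen : Cfsg.generalizedFittingSubgroup G = Cfsg.layer G := by
    show Cfsg.layer G ⊔ Cfsg.fittingSubgroup G = _
    rw [hFG, sup_bot_eq]
  refine ⟨hFG, hlayer.trans hgen.symm, hgen, fun K hK hK1 hKmin => ?_⟩
  haveI := hK
  rcases hKmin (K ⊓ N) inferInstance inf_le_left with h | h
  · exfalso
    refine hK1 (le_bot_iff.mp (hC ▸ fun k hk => Subgroup.mem_centralizer_iff.mpr fun x hx => ?_))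
    exact (Subgroup.commute_of_normal_of_disjoint K N inferInstance inferInstance
      (disjoint_iff.mpr h) k x hk (Subgroup.map_subtype_le _ hx)).eq.symm
  · exact inf_eq_left.mp h

end Cfsg.Agent.S3750
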