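import Cfsg.Statements.S3752
import Cfsg.Agent.Components.Bender

set_option linter.style.haveILetI false

set_option autoImplicit false
open Cfsg

namespace Cfsg.Agent.S3752

open Subgroup Cfsg.Agent.Components in
/-- One inclusion of the `p`-parts. -/
theorem pPartIn_le' {G : Type*} [Group G] [Finite G] {M N : Subgroup G}
    (hprim : ∀ A : Subgroup G, A ≠ ⊥ → A ≤ M ⊓ N → N ≤ normalizer (A : Set G) →
      M ⊓ normalizer (A : Set G) = M ⊓ N)
    (hEM : layer M = ⊥) (h1 : fstarIn M ≤ N) (h2 : fstarIn N ≤ M) (p q : Nat.Primes) (hqp : q ≠ p)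
    (hq : coreIn (q : ℕ) N ≠ ⊥) : pPartIn p M ≤ pPartIn p N := by
  haveI : Fact (q : ℕ).Prime := ⟨q.2⟩
  rw [pPartIn, pGen, closure_le]
  rintro x ⟨⟨hxM, hxC⟩, k, hk⟩
  have hx : ∀ r : Nat.Primes, r ≠ p → x ∈ centralizer (coreIn (r : ℕ) N : Set G) := fun r hr =>
    commute_coreIn hEM h1 h2 p r hr hxM hk fun s hs => mem_iInf.mp hxC ⟨s, hs⟩
  have hxN : x ∈ N := by
    have h := hprim _ hq (le_inf ((coreIn_le_fstarIn _ N).trans h2) (map_subtype_le _))
      (le_normalizer_map_subtype _)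
    exact (h.le ⟨hxM, centralizer_le_normalizer _ (hx q hqp)⟩).2
  exact mem_pGen ⟨hxN, mem_iInf.mpr fun s => hx s s.2⟩ hk

/-- Bender's Theorem on primitive pairs. Two distinct subgroups M₁, M₂ of G form a primitive pair when, for {i, j} = {1, 2}, every non-trivial normal subgroup A of M_i contained in M₁ ∩ M₂ satisfies N_{M_j}(A) = M₁ ∩ M₂; the pair has characteristic p when moreover C_{M_i}(O_p(M_i)) ≤ O_p(M_i) for both i and O_p(M₁)O_p(M₂) ≤ M₁ ∩ M₂. If (M₁, M₂) is a primitive pair of the finite group G with F*(M₁) ≤ M₂ and F*(M₂) ≤ M₁, then for some prime p the pair has characteristic p. -/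
theorem result {G : Type*} [Group G] [Finite G] (M₁ M₂ : Subgroup G) (hne : M₁ ≠ M₂) (hP : ∀ A : Subgroup G, A ≠ ⊥ → A ≤ M₁ ⊓ M₂ → (M₁ ≤ Subgroup.normalizer (A : Set G) → M₂ ⊓ Subgroup.normalizer (A : Set G) = M₁ ⊓ M₂) ∧ (M₂ ≤ Subgroup.normalizer (A : Set G) → M₁ ⊓ Subgroup.normalizer (A : Set G) = M₁ ⊓ M₂)) (h₁ : (Cfsg.generalizedFittingSubgroup ↥M₁).map M₁.subtype ≤ M₂) (h₂ : (Cfsg.generalizedFittingSubgroup ↥M₂).map M₂.subtype ≤ M₁) : ∃ p : ℕ, p.Prime ∧ Subgroup.centralizer (Cfsg.pCore p ↥M₁ : Set ↥M₁) ≤ Cfsg.pCore p ↥M₁ ∧ Subgroup.centralizer (Cfsg.pCore p ↥M₂ : Set ↥M₂) ≤ Cfsg.pCore p ↥M₂ ∧ (Cfsg.pCore p ↥M₁).map M₁.subtype ⊔ (Cfsg.pCore p ↥M₂).map M₂.subtype ≤ M₁ ⊓ M₂ := by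
  classical
  open Subgroup Cfsg.Agent.Components in
  -- nothing non-trivial in the intersection is normal in both
  have hboth : ∀ A : Subgroup G, A ≤ M₁ ⊓ M₂ → M₁ ≤ Subgroup.normalizer (A : Set G) →
      M₂ ≤ Subgroup.normalizer (A : Set G) → A = ⊥ := by
    intro A hA n1 n2
    by_contra hne0
    obtain ⟨e1, e2⟩ := hP A hne0 hA
    have l2 := e1 n1
    rw [inf_eq_left.mpr n2] at l2
    have l1 := e2 n2
    rw [inf_eq_left.mpr n1] at l1
    exact hne (l1.trans l2.symm)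
  open Subgroup Cfsg.Agent.Components in
  have hprim₁ : ∀ A : Subgroup G, A ≠ ⊥ → A ≤ M₁ ⊓ M₂ → M₂ ≤ normalizer (A : Set G) →
      M₁ ⊓ normalizer (A : Set G) = M₁ ⊓ M₂ := fun A a b c => (hP A a b).2 c
  open Subgroup Cfsg.Agent.Components in
  have hprim₂ : ∀ A : Subgroup G, A ≠ ⊥ → A ≤ M₂ ⊓ M₁ → M₁ ≤ normalizer (A : Set G) →
      M₂ ⊓ normalizer (A : Set G) = M₂ ⊓ M₁ := fun A a b c => by
    rw [inf_comm M₂ M₁] at b ⊢
    exact (hP A a b).1 c
  open Subgroup Cfsg.Agent.Components in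
  obtain ⟨p, hp, hpM, hpN⟩ : ∃ p : ℕ, p.Prime ∧ IsPGroup p (generalizedFittingSubgroup M₁) ∧
      IsPGroup p (generalizedFittingSubgroup M₂) := by
    -- the layers are trivial
    have hEE : (layer M₁).map M₁.subtype = (layer M₂).map M₂.subtype :=
      le_antisymm (layer_le_layer_of_fstar_le h₁ h₂) (layer_le_layer_of_fstar_le h₂ h₁)
    have hE0 : (layer M₁).map M₁.subtype = ⊥ := by
      have := layer_normal (G := M₁)
      have := layer_normal (G := M₂)
      refine hboth _ (le_inf (map_subtype_le _) ?_) (le_normalizer_map_subtype _) ?_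
      · rw [hEE]; exact map_subtype_le _
      · rw [hEE]; exact le_normalizer_map_subtype _
    have hEM : layer M₁ = ⊥ := (map_eq_bot_iff_of_injective _ M₁.subtype_injective).mp hE0
    have hEN : layer M₂ = ⊥ := (map_eq_bot_iff_of_injective _ M₂.subtype_injective).mp (hEE ▸ hE0)
    have huniq : ∀ p q : Nat.Primes, coreIn (p : ℕ) M₁ ≠ ⊥ → coreIn (q : ℕ) M₁ ≠ ⊥ → p = q := by
      intro p q hp hq
      by_contra hpq
      have : Fact (p : ℕ).Prime := ⟨p.2⟩
      have hqN : coreIn (q : ℕ) M₂ ≠ ⊥ := fun h => hq (coreIn_eq_bot_of_eq_bot hEN h₁ h₂ q h)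
      have heq : pPartIn p M₁ = pPartIn p M₂ :=
        le_antisymm (pPartIn_le' hprim₁ hEM h₁ h₂ p q (Ne.symm hpq) hqN)
          (pPartIn_le' hprim₂ hEN h₂ h₁ p q (Ne.symm hpq) hq)
      have hX : coreIn (p : ℕ) M₁ ≤ pPartIn p M₁ := by
        refine pGroup_le_pGen (coreIn_isPGroup _ M₁) (le_inf (map_subtype_le _) (le_iInf fun s => ?_))
        rw [← commutator_eq_bot_iff_le_centralizer, ← le_bot_iff]
        have : Fact ((s : Nat.Primes) : ℕ).Prime := ⟨(s : Nat.Primes).2⟩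
        refine le_trans (le_inf ?_ ?_) ((IsPGroup.disjoint_of_ne (p : ℕ) ((s : Nat.Primes) : ℕ)
          (fun h => s.2 (Subtype.ext h.symm)) _ _ (coreIn_isPGroup (p : ℕ) M₁)
          (coreIn_isPGroup ((s : Nat.Primes) : ℕ) M₁)).le_bot)
        · exact le_normalizer_iff_commutator_le_left.mp
            ((map_subtype_le _).trans (le_normalizer_map_subtype _))
        · exact le_normalizer_iff_commutator_le_right.mp
            ((map_subtype_le _).trans (le_normalizer_map_subtype _))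
      have hbot : pPartIn p M₁ = ⊥ := by
        refine hboth _ (le_inf ((pGen_le _).trans inf_le_left) ?_) (le_normalizer_pPartIn p M₁) ?_
        · rw [heq]; exact (pGen_le _).trans inf_le_left
        · rw [heq]; exact le_normalizer_pPartIn p M₂
      exact hp (le_bot_iff.mp (hX.trans hbot.le))
    have hbotF : ∀ M : Subgroup G, fstarIn M = ⊥ → M = ⊥ := by
      intro M h
      rw [fstarIn, map_eq_bot_iff_of_injective _ M.subtype_injective] at h
      refine eq_bot_iff.mpr fun m hm => ?_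
      have := centralizer_genFitting_le (G := M) (x := ⟨m, hm⟩)
        (fun y hy => by rw [h, SetLike.mem_coe, mem_bot] at hy; rw [hy, one_mul, mul_one])
      rw [h, mem_bot] at this
      exact congrArg Subtype.val this
    have hF1 : fstarIn M₁ ≠ ⊥ := fun h => hne ((hbotF M₁ h).trans
      (hbotF M₂ (le_bot_iff.mp (h₂.trans (hbotF M₁ h).le))).symm)
    obtain ⟨p, hp⟩ : ∃ p : Nat.Primes, coreIn (p : ℕ) M₁ ≠ ⊥ := by
      by_contra hcon
      push Not at hcon
      exact hF1 (by rw [fstarIn_eq hEM]; exact iSup_eq_bot.mpr hcon)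
    have : Fact (p : ℕ).Prime := ⟨p.2⟩
    have key : ∀ M' : Subgroup G, layer M' = ⊥ →
        (∀ q : Nat.Primes, q ≠ p → coreIn (q : ℕ) M' = ⊥) →
        IsPGroup (p : ℕ) (generalizedFittingSubgroup M') := by
      intro M' hE hc
      refine IsPGroup.to_le (Cores.pCore_isPGroup (p := (p : ℕ)) (G := M')) ?_
      rw [generalizedFittingSubgroup, hE, bot_sup_eq, Cores.fittingSubgroup_eq_iSup_pCore,
        iSup_le_iff]
      intro q
      rcases eq_or_ne q p with rfl | hne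
      · exact le_rfl
      · exact ((map_eq_bot_iff_of_injective _ M'.subtype_injective).mp (hc q hne)).le.trans bot_le
    refine ⟨p, p.2, key M₁ hEM fun q hq => ?_, key M₂ hEN fun q hq => ?_⟩
    · by_contra hne
      exact hq (huniq q p hne hp)
    · refine coreIn_eq_bot_of_eq_bot hEM h₂ h₁ q ?_
      by_contra hne
      exact hq (huniq q p hne hp)
  haveI : Fact p.Prime := ⟨hp⟩
  have hF : ∀ M : Subgroup G, IsPGroup p (Cfsg.generalizedFittingSubgroup M) →
      Cfsg.generalizedFittingSubgroup M = Cfsg.pCore p M := fun M h =>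
    le_antisymm (Cfsg.Agent.Cores.le_pCore (Cfsg.Agent.Components.genFitting_normal (G := M)) h)
      (Cfsg.Agent.Components.pCore_le_fitting.trans Cfsg.Agent.Components.fitting_le_genFitting)
  refine ⟨p, hp, Cfsg.Agent.Components.genFitting_eq_pCore_iff.mp (hF M₁ hpM),
    Cfsg.Agent.Components.genFitting_eq_pCore_iff.mp (hF M₂ hpN),
    sup_le (le_inf (Subgroup.map_subtype_le _) ?_) (le_inf ?_ (Subgroup.map_subtype_le _))⟩
  · exact (Cfsg.Agent.Components.coreIn_le_fstarIn p M₁).trans h₁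
  · exact (Cfsg.Agent.Components.coreIn_le_fstarIn p M₂).trans h₂

end Cfsg.Agent.S3752
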