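import Cfsg.Statements.S3754
import Cfsg.Agent.PSolv.HallHigmanDual
import Cfsg.Agent.Cores.Basic
import Cfsg.Agent.Cores.Residual
import Cfsg.Agent.Coprime.Generation
import Cfsg.Agent.PGroup.Frattini
import Cfsg.Agent.PGroup.Extraspecial

set_option autoImplicit false
open Cfsg
open scoped commutatorElement Pointwise
set_option linter.style.haveILetI false

namespace Cfsg.Agent.S3754

/-- An elementary abelian `p`-group acting non-trivially on a `p'`-group has a hyperplane whose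
centralizer is moved. -/
theorem exists_hyperplane {X : Type*} [Group X] [Finite X] {p : ℕ} [Fact p.Prime] (A K : Subgroup X)
    (hA : Cfsg.IsElementaryAbelian p A) (hAK : A ≤ Subgroup.normalizer (K : Set X))
    (hcop : (Nat.card A).Coprime (Nat.card K)) (hne : ¬ A ≤ Subgroup.centralizer (K : Set X)) :
    ∃ (B : Subgroup X) (a : X), B ≤ A ∧ a ∈ A ∧ A ≤ B ⊔ Subgroup.zpowers a ∧ a ∉ B ∧
      ¬ a ∈ Subgroup.centralizer ((K ⊓ Subgroup.centralizer (B : Set X) : Subgroup X) : Set X) := by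
  classical
  haveI := hA.1
  have hp := (Fact.out : p.Prime)
  obtain ⟨B, -, hBmax⟩ := Finite.exists_le_maximal
    (p := fun B : Subgroup X => B ≤ A ∧
      ¬ A ≤ Subgroup.centralizer ((K ⊓ Subgroup.centralizer (B : Set X) : Subgroup X) : Set X))
    (a := ⊥) ⟨bot_le, by
      rw [show K ⊓ Subgroup.centralizer ((⊥ : Subgroup X) : Set X) = K from
        inf_eq_left.mpr fun k _ => Subgroup.mem_centralizer_iff.mpr fun y hy => by
          rw [Subgroup.mem_bot.mp hy]; simp]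
      exact hne⟩
  obtain ⟨hBA, hB⟩ := hBmax.prop
  set K' := K ⊓ Subgroup.centralizer (B : Set X) with hK'
  obtain ⟨a, ha, haK⟩ := SetLike.not_le_iff_exists.mp hB
  have haB : a ∉ B := fun h => haK (Subgroup.mem_centralizer_iff.mpr fun k hk =>
    (Subgroup.mem_centralizer_iff.mp hk.2 a h).symm)
  by_cases hgen : A ≤ B ⊔ Subgroup.zpowers a
  · exact ⟨B, a, hBA, ha, hgen, haB, haK⟩
  exfalso
  obtain ⟨b, hb, hbB⟩ := SetLike.not_le_iff_exists.mp hgen
  have hcomm : ∀ x ∈ A, ∀ y ∈ A, Commute x y := fun x hx y hy =>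
    congrArg Subtype.val (hA.1.is_comm.comm ⟨x, hx⟩ ⟨y, hy⟩)
  set U := Subgroup.closure ({a, b} : Set X) with hUdef
  have hUA : U ≤ A := (Subgroup.closure_le _).mpr (by
    rintro y (rfl | rfl)
    · exact ha
    · exact hb)
  have haU : a ∈ U := Subgroup.subset_closure (Or.inl rfl)
  have hbU : b ∈ U := Subgroup.subset_closure (Or.inr rfl)
  have hmemU : ∀ y ∈ U, ∃ i j : ℤ, y = a ^ i * b ^ j := fun y hy => by
    induction hy using Subgroup.closure_induction with
    | mem y hy =>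
      rcases hy with rfl | rfl
      · exact ⟨1, 0, by simp⟩
      · exact ⟨0, 1, by simp⟩
    | one => exact ⟨0, 0, by simp⟩
    | mul y z _ _ hy hz =>
      obtain ⟨i, j, rfl⟩ := hy
      obtain ⟨k, l, rfl⟩ := hz
      refine ⟨i + k, j + l, ?_⟩
      rw [zpow_add, zpow_add, show a ^ i * b ^ j * (a ^ k * b ^ l) = a ^ i * (b ^ j * a ^ k) * b ^ l by group,
        ((hcomm b hb a ha).zpow_zpow j k).eq]
      group
    | inv y _ hy =>
      obtain ⟨i, j, rfl⟩ := hy
      refine ⟨-i, -j, ?_⟩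
      rw [mul_inv_rev, ← zpow_neg, ← zpow_neg, ((hcomm b hb a ha).zpow_zpow (-j) (-i)).eq]
  have hUB : ∀ y ∈ U, y ≠ 1 → y ∉ B := by
    intro y hy hy1 hyB
    obtain ⟨i, j, rfl⟩ := hmemU y hy
    have hpow : ∀ (g : X), g ∈ A → ∀ n : ℤ, (p : ℤ) ∣ n → g ^ n = 1 := by
      rintro g hg n ⟨k, rfl⟩
      rw [zpow_mul, zpow_natCast, hA.2 g hg, one_zpow]
    by_cases hj : (p : ℤ) ∣ j
    · rw [hpow b hb j hj, mul_one] at hyB hy1
      by_cases hi : (p : ℤ) ∣ i
      · exact hy1 (hpow a ha i hi)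
      · obtain ⟨u, v, huv⟩ := ((Nat.prime_iff_prime_int.mp hp).coprime_iff_not_dvd).mpr hi
        refine haB ?_
        have h1 : a = (a ^ (p : ℤ)) ^ u * (a ^ i) ^ v := by
          rw [← zpow_mul, ← zpow_mul, ← zpow_add,
            show (p : ℤ) * u + i * v = 1 by linear_combination huv, zpow_one]
        rw [h1, hpow a ha p dvd_rfl, one_zpow, one_mul]
        exact zpow_mem hyB v
    · obtain ⟨u, v, huv⟩ := ((Nat.prime_iff_prime_int.mp hp).coprime_iff_not_dvd).mpr hj
      refine hbB ?_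
      have hbj : b ^ j ∈ B ⊔ Subgroup.zpowers a := by
        have h1 : b ^ j = (a ^ i)⁻¹ * (a ^ i * b ^ j) := by group
        rw [h1]
        exact mul_mem (inv_mem (zpow_mem (Subgroup.mem_sup_right (Subgroup.mem_zpowers a)) i))
          (Subgroup.mem_sup_left hyB)
      have h1 : b = (b ^ (p : ℤ)) ^ u * (b ^ j) ^ v := by
        rw [← zpow_mul, ← zpow_mul, ← zpow_add,
          show (p : ℤ) * u + j * v = 1 by linear_combination huv, zpow_one]
      rw [h1, hpow b hb p dvd_rfl, one_zpow, one_mul]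
      exact zpow_mem hbj v
  haveI : IsMulCommutative U :=
    ⟨⟨fun x y => Subtype.ext (hcomm x (hUA x.2) y (hUA y.2)).eq⟩⟩
  have hUnc : ¬ IsCyclic U := by
    intro hc
    obtain ⟨t, ht⟩ := (Subgroup.isCyclic_iff_exists_zpowers_eq_top U).mp hc
    have ha1 : a ≠ 1 := fun h => haB (h ▸ one_mem B)
    have hcard : Nat.card U ≤ p := by
      rw [← ht, Nat.card_zpowers]
      exact orderOf_le_of_pow_eq_one hp.pos (hA.2 t (hUA (ht ▸ Subgroup.mem_zpowers t)))
    have : Subgroup.zpowers a = U := by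
      refine Subgroup.eq_of_le_of_card_ge (Subgroup.zpowers_le.mpr haU) ?_
      rw [Nat.card_zpowers, orderOf_eq_prime (hA.2 a ha) ha1]
      exact hcard
    exact hbB (Subgroup.mem_sup_right (this ▸ hbU))
  have hAnorm : A ≤ Subgroup.normalizer (K' : Set X) := by
    intro g hg
    rw [Subgroup.mem_normalizer_iff]
    intro k
    simp only [hK', Subgroup.mem_inf, Subgroup.mem_centralizer_iff, SetLike.mem_coe]
    refine and_congr (Subgroup.mem_normalizer_iff.mp (hAK hg) k) (forall_congr' fun c => ?_)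
    refine imp_congr_right fun hc => ?_
    have hgc : Commute g c := hcomm g hg c (hBA hc)
    constructor
    · intro h
      exact (((hgc.symm.mul_right (show Commute c k from h)).mul_right hgc.symm.inv_right)).eq
    · intro h
      have h2 := (hgc.symm.inv_right.mul_right (show Commute c (g * k * g⁻¹) from h)).mul_right
        hgc.symm
      rwa [show g⁻¹ * (g * k * g⁻¹) * g = k by group] at h2
  refine hB ?_
  rw [Subgroup.le_centralizer_iff]
  conv_lhs => rw [← Coprime.iSup_centralizer_eq hUnc (hUA.trans hAnorm)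
    ((hcop.coprime_dvd_left (Subgroup.card_dvd_of_le hUA)).coprime_dvd_right
      (Subgroup.card_dvd_of_le inf_le_left))]
  refine iSup₂_le fun u hu => Subgroup.le_centralizer_iff.mp ?_
  by_contra hne'
  have hle : B ⊔ Subgroup.zpowers u ≤ B := hBmax.le_of_ge ⟨sup_le hBA
      (Subgroup.zpowers_le.mpr (hUA hu.1)), fun h => hne' (h.trans (Subgroup.centralizer_le ?_))⟩
    le_sup_left
  · exact hUB u hu.1 hu.2 (hle (Subgroup.mem_sup_right (Subgroup.mem_zpowers u)))
  · rintro k ⟨⟨hk1, hk2⟩, hk3⟩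
    refine ⟨hk1, Subgroup.mem_centralizer_iff.mpr fun c hc => ?_⟩
    have hle' : B ⊔ Subgroup.zpowers u ≤ Subgroup.centralizer ({k} : Set X) :=
      sup_le (fun b hb => Subgroup.mem_centralizer_singleton_iff.mpr
          (Subgroup.mem_centralizer_iff.mp hk2 b hb))
        (Subgroup.zpowers_le.mpr (Subgroup.mem_centralizer_singleton_iff.mpr
          (Subgroup.mem_centralizer_singleton_iff.mp hk3).symm))
    exact Subgroup.mem_centralizer_singleton_iff.mp (hle' hc)

/-- Let M be a finite p-soluble group and A a p-subgroup of M with Φ(A) ≤ O_p(M) but A ≰ O_p(M). Then there is x ∈ O_{p,p'}(M) such that L = ⟨A, xAx⁻¹⟩ satisfies: x ∈ O^p(L) and O^p(L) ≤ O_{p,p'}(M); [O^p(L), A] = O^p(L); A ∩ O_p(L) has index p in A; and [A ∩ O_p(L), L] ≤ O_p(M). Here O^p(L) is the subgroup generated by the p'-elements of L and O_{p,p'}(M) the preimage of O_{p'}(M/O_p(M)). -/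
theorem result {M : Type*} [Group M] [Finite M] {p : ℕ} [Fact p.Prime] (hM : Cfsg.IsPSolvable p M) (A : Subgroup M) (hA : IsPGroup p A) (hΦ : (frattini ↥A).map A.subtype ≤ Cfsg.pCore p M) (hnot : ¬ A ≤ Cfsg.pCore p M) : ∃ x ∈ (Cfsg.pPrimeCore p (M ⧸ Cfsg.pCore p M)).comap (QuotientGroup.mk' (Cfsg.pCore p M)), x ∈ (Cfsg.pResidual p ↥(A ⊔ A.map (MulAut.conj x).toMonoidHom)).map (A ⊔ A.map (MulAut.conj x).toMonoidHom).subtype ∧ (Cfsg.pResidual p ↥(A ⊔ A.map (MulAut.conj x).toMonoidHom)).map (A ⊔ A.map (MulAut.conj x).toMonoidHom).subtype ≤ (Cfsg.pPrimeCore p (M ⧸ Cfsg.pCore p M)).comap (QuotientGroup.mk' (Cfsg.pCore p M)) ∧ ⁅(Cfsg.pResidual p ↥(A ⊔ A.map (MulAut.conj x).toMonoidHom)).map (A ⊔ A.map (MulAut.conj x).toMonoidHom).subtype, A⁆ = (Cfsg.pResidual p ↥(A ⊔ A.map (MulAut.conj x).toMonoidHom)).map (A ⊔ A.map (MulAut.conj x).toMonoidHom).subtype ∧ (A ⊓ (Cfsg.pCore p ↥(A ⊔ A.map (MulAut.conj x).toMonoidHom)).map (A ⊔ A.map (MulAut.conj x).toMonoidHom).subtype).relIndex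 A = p ∧ ⁅A ⊓ (Cfsg.pCore p ↥(A ⊔ A.map (MulAut.conj x).toMonoidHom)).map (A ⊔ A.map (MulAut.conj x).toMonoidHom).subtype, A ⊔ A.map (MulAut.conj x).toMonoidHom⁆ ≤ Cfsg.pCore p M := by

  classical
  have hp := (Fact.out : p.Prime)
  set P := Cfsg.pCore p M with hPdef
  haveI hPn : P.Normal := inferInstance
  have hPp : IsPGroup p P := PSolv.isPGroup_pCore p M
  set π := QuotientGroup.mk' P with hπdef
  have hπ1 : ∀ g : M, π g = 1 ↔ g ∈ P := fun g => QuotientGroup.eq_one_iff g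
  set K := Cfsg.pPrimeCore p (M ⧸ P) with hKdef
  haveI hKn : K.Normal := inferInstance
  have hKcop : (Nat.card K).Coprime p := PSolv.coprime_card_pPrimeCore p _
  have hCK : Subgroup.centralizer (K : Set (M ⧸ P)) ≤ K :=
    PSolv.centralizer_pPrimeCore_le (PSolv.isPSolvable_quotient hM P) (PSolv.pCore_quotient_eq_bot p M)
  have hKtriv : ∀ y ∈ K, ∀ n : ℕ, y ^ p ^ n = 1 → y = 1 := by
    intro y hy n hyn
    have h1 : orderOf y ∣ Nat.card K := by
      rw [← Subgroup.orderOf_mk y hy]; exact orderOf_dvd_natCard _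
    exact orderOf_eq_one_iff.mp (Nat.eq_one_of_dvd_coprimes (hKcop.pow_right n) h1
      (orderOf_dvd_of_pow_eq_one hyn))
  set Abar := A.map π with hAbar
  have hfr : ∀ v : A, v ∈ frattini ↥A → π (v : M) = 1 := fun v hv =>
    (hπ1 _).mpr (hΦ ⟨v, hv, rfl⟩)
  have hAe : Cfsg.IsElementaryAbelian p Abar := by
    refine ⟨⟨⟨fun x y => ?_⟩⟩, ?_⟩
    · obtain ⟨-, ⟨a, ha, rfl⟩⟩ := x
      obtain ⟨-, ⟨b, hb, rfl⟩⟩ := y
      refine Subtype.ext ?_
      show π a * π b = π b * π a
      rw [← commutatorElement_eq_one_iff_mul_comm, ← map_commutatorElement]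
      have hmem : ⁅(⟨a, ha⟩ : A), (⟨b, hb⟩ : A)⁆ ∈ frattini ↥A :=
        PGroup.commutator_le_frattini hA
          (Subgroup.commutator_mem_commutator (Subgroup.mem_top _) (Subgroup.mem_top _))
      exact hfr _ hmem
    · rintro - ⟨a, ha, rfl⟩
      rw [← map_pow]
      exact hfr ⟨a ^ p, pow_mem ha p⟩ (PGroup.pow_mem_frattini hA ⟨a, ha⟩)
  have hAcop : (Nat.card Abar).Coprime (Nat.card K) := by
    obtain ⟨j, hj⟩ := IsPGroup.iff_card.mp (hA.map π)
    rw [hj]
    exact (hKcop.pow_right j).symm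
  have hne : ¬ Abar ≤ Subgroup.centralizer (K : Set (M ⧸ P)) := by
    intro h
    refine hnot fun a ha => (hπ1 a).mp ?_
    exact hKtriv _ (hCK (h ⟨a, ha, rfl⟩)) 1 (by rw [pow_one]; exact hAe.2 _ ⟨a, ha, rfl⟩)
  obtain ⟨B, a, hBA, haA, hgen, haB, haC⟩ := exists_hyperplane Abar K hAe
    (by intro g _; rw [Subgroup.normalizer_eq_top K]; exact Subgroup.mem_top g) hAcop hne
  have hacomm : ∀ y ∈ Abar, ∀ z ∈ Abar, Commute y z := fun y hy z hz =>
    congrArg Subtype.val (hAe.1.is_comm.comm ⟨y, hy⟩ ⟨z, hz⟩)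
  set C := K ⊓ Subgroup.centralizer (B : Set (M ⧸ P)) with hCdef
  have hCinv : ∀ c ∈ C, a * c * a⁻¹ ∈ C := by
    intro c hc
    refine ⟨hKn.conj_mem c hc.1 a, Subgroup.mem_centralizer_iff.mpr fun b hb => ?_⟩
    have h1 := hacomm b (hBA hb) a haA
    have h2 : Commute b c := Subgroup.mem_centralizer_iff.mp hc.2 b hb
    exact ((h1.mul_right h2).mul_right h1.inv_right).eq
  obtain ⟨N, -, hNmin⟩ := Finite.exists_le_minimal
    (p := fun N : Subgroup (M ⧸ P) => N ≤ C ∧ (∀ y ∈ N, a * y * a⁻¹ ∈ N) ∧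
      ¬ a ∈ Subgroup.centralizer (N : Set (M ⧸ P)))
    (a := C) ⟨le_rfl, hCinv, haC⟩
  obtain ⟨hNC, hNinv, haN⟩ := hNmin.prop
  rw [Subgroup.mem_centralizer_iff] at haN
  simp only [not_forall] at haN
  obtain ⟨xb, hxb, hxa⟩ := haN
  have hap : a ^ p = 1 := hAe.2 a haA
  -- `xb` lies in the subgroup generated by `a` and its conjugate
  have hxgen : xb ∈ Subgroup.closure ({a, xb * a * xb⁻¹} : Set (M ⧸ P)) := by
    set D := Subgroup.closure ({a, xb * a * xb⁻¹} : Set (M ⧸ P)) with hD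
    have haD : a ∈ D := Subgroup.subset_closure (Or.inl rfl)
    have hcD : xb * a * xb⁻¹ * a⁻¹ ∈ D ⊓ N := by
      refine Subgroup.mem_inf.mpr ⟨mul_mem (Subgroup.subset_closure (Or.inr rfl)) (inv_mem haD), ?_⟩
      rw [show xb * a * xb⁻¹ * a⁻¹ = xb * (a * xb⁻¹ * a⁻¹) by group]
      exact mul_mem hxb (hNinv _ (inv_mem hxb))
    by_cases hcen : a ∈ Subgroup.centralizer ((D ⊓ N : Subgroup (M ⧸ P)) : Set (M ⧸ P))
    · exfalso
      have h1 : Commute (xb * a * xb⁻¹ * a⁻¹) a := Subgroup.mem_centralizer_iff.mp hcen _ hcD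
      set c := xb * a * xb⁻¹ * a⁻¹ with hc
      have h2 : c * a = xb * a * xb⁻¹ := by rw [hc]; group
      have h3 := congrArg (· ^ p) h2
      simp only [h1.mul_pow, conj_pow, hap, mul_one, mul_inv_cancel] at h3
      have hc1 := hKtriv c (hNC hcD.2).1 1 (by rw [pow_one]; exact h3)
      rw [hc, mul_inv_eq_one, mul_inv_eq_iff_eq_mul] at hc1
      exact hxa hc1
    · have hle : N ≤ D ⊓ N := hNmin.le_of_le ⟨inf_le_right.trans hNC, fun y hy =>
        Subgroup.mem_inf.mpr ⟨mul_mem (mul_mem haD hy.1) (inv_mem haD), hNinv y hy.2⟩, hcen⟩ inf_le_right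
      exact (hle hxb).1
  have hxK : xb ∈ K := (hNC hxb).1
  -- choose a lift with minimal generated subgroup
  let L : M → Subgroup M := fun x => A ⊔ A.map (MulAut.conj x).toMonoidHom
  obtain ⟨L₀, -, hL₀min⟩ := Finite.exists_le_minimal
    (p := fun S : Subgroup M => ∃ x, π x = xb ∧ S = L x)
    (a := L (Classical.choose (QuotientGroup.mk'_surjective P xb)))
    ⟨_, Classical.choose_spec (QuotientGroup.mk'_surjective P xb), rfl⟩
  obtain ⟨x₀, hx₀, hL₀⟩ := hL₀min.prop
  obtain ⟨a₀, ha₀, rfl⟩ := haA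
  have hπL : ∀ x, π x = xb → (L x).map π = Abar ⊔ Abar.map (MulAut.conj xb).toMonoidHom := by
    intro x hx
    show (A ⊔ A.map (MulAut.conj x).toMonoidHom).map π = _
    rw [Subgroup.map_sup, hAbar, Subgroup.map_map, Subgroup.map_map]
    congr 1
    refine congrArg (fun f => Subgroup.map f A) (MonoidHom.ext fun y => ?_)
    show π (x * y * x⁻¹) = xb * π y * xb⁻¹
    rw [map_mul, map_mul, map_inv, hx]
  have hxL : xb ∈ L₀.map π := by
    rw [hL₀, hπL x₀ hx₀]
    refine (Subgroup.closure_le _).mpr ?_ hxgen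
    rintro y (rfl | rfl)
    · exact Subgroup.mem_sup_left ⟨a₀, ha₀, rfl⟩
    · exact Subgroup.mem_sup_right ⟨π a₀, ⟨a₀, ha₀, rfl⟩, rfl⟩
  -- a `p'`-element of the minimal `L` above `xb`
  obtain ⟨g, hgL, hgx⟩ := hxL
  have hxcop : (orderOf xb).Coprime p := hKcop.coprime_dvd_left (by
    rw [← Subgroup.orderOf_mk xb hxK]; exact orderOf_dvd_natCard _)
  obtain ⟨x, hxR, hxx⟩ : ∃ x : L₀, x ∈ Cfsg.pResidual p ↥L₀ ∧ π (x : M) = xb := by
    set R := Cfsg.pResidual p ↥L₀ with hR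
    have hq : IsPGroup p (↥L₀ ⧸ R) := Cores.isPGroup_quotient_pResidual
    obtain ⟨j, hj⟩ := hq (QuotientGroup.mk ⟨g, hgL⟩)
    rw [← QuotientGroup.mk_pow, QuotientGroup.eq_one_iff] at hj
    obtain ⟨k, hk⟩ := exists_pow_eq_self_of_coprime (x := xb) (n := p ^ j) ((hxcop.pow_right j).symm)
    refine ⟨(⟨g, hgL⟩ : L₀) ^ (p ^ j) |> (· ^ k), pow_mem hj k, ?_⟩
    show π ((g ^ p ^ j) ^ k) = xb
    rw [map_pow, map_pow, hgx, hk]
  -- minimality: `x` generates the same subgroup
  have hAL0 : A ≤ L₀ := hL₀ ▸ le_sup_left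
  have hLx : L (x : M) = L₀ := by
    have hle : L (x : M) ≤ L₀ := by
      refine sup_le hAL0 ?_
      rintro - ⟨y, hy, rfl⟩
      exact mul_mem (mul_mem x.2 (hAL0 hy)) (inv_mem x.2)
    exact le_antisymm hle (hL₀min.le_of_le ⟨x, hxx, rfl⟩ hle)
  refine ⟨(x : M), ?_, ?_⟩
  · rw [Subgroup.mem_comap]
    show π (x : M) ∈ K
    rw [hxx]; exact hxK
  show _ ∈ (Cfsg.pResidual p ↥(L (x : M))).map (L (x : M)).subtype ∧
    (Cfsg.pResidual p ↥(L (x : M))).map (L (x : M)).subtype ≤ K.comap π ∧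
    ⁅(Cfsg.pResidual p ↥(L (x : M))).map (L (x : M)).subtype, A⁆ =
      (Cfsg.pResidual p ↥(L (x : M))).map (L (x : M)).subtype ∧
    (A ⊓ (Cfsg.pCore p ↥(L (x : M))).map (L (x : M)).subtype).relIndex A = p ∧
    ⁅A ⊓ (Cfsg.pCore p ↥(L (x : M))).map (L (x : M)).subtype, L (x : M)⁆ ≤ P
  have hxR0 : (x : M) ∈ (Cfsg.pResidual p ↥L₀).map L₀.subtype := ⟨x, hxR, rfl⟩
  rw [hLx]
  set R := (Cfsg.pResidual p ↥L₀).map L₀.subtype with hRdef
  have hRL : R ≤ L₀ := Subgroup.map_subtype_le _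
  have hAL : A ≤ L₀ := hAL0
  have hπL₀ : L₀.map π ≤ K ⊔ Abar := by
    rw [hL₀, hπL x₀ hx₀]
    refine sup_le le_sup_right ?_
    rintro - ⟨y, hy, rfl⟩
    show xb * y * xb⁻¹ ∈ K ⊔ Abar
    exact mul_mem (mul_mem (Subgroup.mem_sup_left hxK) (Subgroup.mem_sup_right hy))
      (inv_mem (Subgroup.mem_sup_left hxK))
  have hRK : R ≤ K.comap π := by
    rw [hRdef, Subgroup.map_le_iff_le_comap, Cfsg.pResidual, Subgroup.closure_le]
    intro y hy
    show π (y : M) ∈ K
    obtain ⟨k, hk, b, hb, hkb⟩ :=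
      Subgroup.mem_sup_of_normal_left.mp (hπL₀ ⟨(y : M), y.2, rfl⟩)
    set q := QuotientGroup.mk' K with hq
    have h1 : q (π (y : M)) = q b := by
      rw [← hkb, map_mul, (QuotientGroup.eq_one_iff k).mpr hk |> fun h => (show q k = 1 from h),
        one_mul]
    have h2 : orderOf (q (π (y : M))) ∣ orderOf y := by
      refine (orderOf_map_dvd q _).trans ((orderOf_map_dvd π _).trans ?_)
      rw [Subgroup.orderOf_coe]
    have h3 : orderOf (q (π (y : M))) ∣ p := by
      rw [h1]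
      refine orderOf_dvd_of_pow_eq_one ?_
      rw [← map_pow, hAe.2 b hb, map_one]
    exact (QuotientGroup.eq_one_iff _).mp
      (orderOf_eq_one_iff.mp (Nat.eq_one_of_dvd_coprimes hy h2 h3))
  refine ⟨hxR0, hRK, ?_, ?_⟩
  · -- `[R, A] = R`
    haveI hRn : (Cfsg.pResidual p ↥L₀).Normal := inferInstance
    have hA' : A.subgroupOf L₀ ⊔ Cfsg.pResidual p ↥L₀ = ⊤ := by
      refine Subgroup.map_injective L₀.subtype_injective ?_
      rw [Subgroup.map_sup, Subgroup.subgroupOf_map_subtype, inf_eq_left.mpr hAL,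
        ← MonoidHom.range_eq_map, Subgroup.range_subtype]
      refine le_antisymm (sup_le hAL hRL) ?_
      conv_lhs => rw [← hLx]
      refine sup_le le_sup_left ?_
      rintro - ⟨y, hy, rfl⟩
      exact mul_mem (mul_mem (Subgroup.mem_sup_right hxR0) (Subgroup.mem_sup_left hy))
        (inv_mem (Subgroup.mem_sup_right hxR0))
    set W := ⁅Cfsg.pResidual p ↥L₀, A.subgroupOf L₀⁆ with hW
    have hWR : W ≤ Cfsg.pResidual p ↥L₀ := Subgroup.commutator_le_left _ _
    haveI hWn : W.Normal := by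
      rw [← Subgroup.normalizer_eq_top_iff, eq_top_iff, ← hA']
      exact sup_le ((Subgroup.normalizer_commutator_ge_right (H₁ := Cfsg.pResidual p ↥L₀) (H₂ := A.subgroupOf L₀)))
        (Subgroup.normalizer_commutator_ge_left (H₁ := Cfsg.pResidual p ↥L₀) (H₂ := A.subgroupOf L₀))
    suffices hRW : Cfsg.pResidual p ↥L₀ ≤ W by
      have hmap : ⁅R, A⁆ = W.map L₀.subtype := by
        rw [hW, Subgroup.map_commutator, Subgroup.subgroupOf_map_subtype, inf_eq_left.mpr hAL]
      rw [hmap, le_antisymm hWR hRW]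
    refine Cores.pResidual_le_of_isPGroup_quotient ?_
    -- the quotient by `W` is covered by `A`
    set ρ := QuotientGroup.mk' W with hρ
    have hcomm' : ∀ y ∈ A.subgroupOf L₀, Commute (ρ y) (ρ x) := fun y hy => by
      rw [commute_iff_eq, ← commutatorElement_eq_one_iff_mul_comm, ← map_commutatorElement]
      refine (QuotientGroup.eq_one_iff _).mpr ?_
      rw [hW, Subgroup.commutator_comm]
      exact Subgroup.commutator_mem_commutator hy hxR
    have hmapA : (A.subgroupOf L₀).map ρ = ⊤ := by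
      have hgen' : (⊤ : Subgroup L₀) ≤ ((A.subgroupOf L₀).map ρ).comap ρ := by
        have hcl : L₀ ≤ (((A.subgroupOf L₀).map ρ).comap ρ).map L₀.subtype := by
          conv_lhs => rw [← hLx]
          refine sup_le ?_ ?_
          · intro y hy
            exact ⟨⟨y, hAL hy⟩, Subgroup.mem_comap.mpr ⟨⟨y, hAL hy⟩, hy, rfl⟩, rfl⟩
          · rintro - ⟨y, hy, rfl⟩
            refine ⟨x * ⟨y, hAL hy⟩ * x⁻¹, Subgroup.mem_comap.mpr ⟨⟨y, hAL hy⟩, hy, ?_⟩, rfl⟩
            rw [map_mul, map_mul, map_inv, ← (hcomm' ⟨y, hAL hy⟩ hy).eq, mul_inv_cancel_right]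
        intro y _
        obtain ⟨z, hz, hzy⟩ := hcl y.2
        rwa [L₀.subtype_injective hzy] at hz
      refine eq_top_iff.mpr fun v _ => ?_
      obtain ⟨y, rfl⟩ := QuotientGroup.mk'_surjective W v
      exact hgen' (Subgroup.mem_top y)
    have hAp : IsPGroup p (A.subgroupOf L₀) :=
      hA.of_equiv (Subgroup.subgroupOfEquivOfLe hAL).symm
    have := hAp.map ρ
    rw [hmapA] at this
    exact this.of_equiv Subgroup.topEquiv
  -- the intersection with `O_p(L)`
  have hBcent : ∀ b ∈ B, ∀ y ∈ L₀.map π, Commute b y := by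
    intro b hb y hy
    have hle : L₀.map π ≤ Subgroup.centralizer ({b} : Set (M ⧸ P)) := by
      rw [hL₀, hπL x₀ hx₀]
      have hbx : Commute b xb := Subgroup.mem_centralizer_iff.mp (hNC hxb).2 b hb
      refine sup_le (fun z hz => Subgroup.mem_centralizer_singleton_iff.mpr
        (hacomm z hz b (hBA hb)).eq) ?_
      rintro - ⟨z, hz, rfl⟩
      refine Subgroup.mem_centralizer_singleton_iff.mpr ?_
      exact (((hbx.mul_right (hacomm b (hBA hb) z hz)).mul_right hbx.inv_right)).symm.eq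
    exact (Subgroup.mem_centralizer_singleton_iff.mp (hle hy)).symm
  set A' := A ⊓ B.comap π with hA'def
  have hA'idx : A'.relIndex A = p := by
    rw [hA'def, Subgroup.inf_relIndex_left, Subgroup.relIndex_comap, ← hAbar]
    have hlt : ¬ Abar ≤ B := fun h => haB (h ⟨a₀, ha₀, rfl⟩)
    haveI : (B.subgroupOf Abar).Normal :=
      ⟨fun y hy g => by
        have := congrArg Subtype.val (hAe.1.is_comm.comm g y)
        rw [Subgroup.mem_subgroupOf] at hy ⊢
        push_cast
        rw [show ((g : M ⧸ P)) * y = y * g from this, mul_inv_cancel_right]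
        exact hy⟩
    have hle : B.relIndex Abar ≤ p := by
      have hmap : (Subgroup.zpowers (⟨π a₀, ⟨a₀, ha₀, rfl⟩⟩ : Abar)).map
          (QuotientGroup.mk' (B.subgroupOf Abar)) = ⊤ := by
        refine eq_top_iff.mpr fun v _ => ?_
        obtain ⟨⟨y, hy⟩, rfl⟩ := QuotientGroup.mk'_surjective _ v
        have hyB : y ∈ B ⊔ Subgroup.zpowers (π a₀) := hgen hy
        have hn : Abar ≤ Subgroup.normalizer (B : Set (M ⧸ P)) := by
          intro g hg
          rw [Subgroup.mem_normalizer_iff]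
          intro c
          constructor
          · intro hc
            rw [(hacomm g hg c (hBA hc)).eq, mul_inv_cancel_right]; exact hc
          · intro hc
            have h1 := (hacomm g hg _ (hBA hc)).inv_left.eq
            have h2 : c = g * c * g⁻¹ := by
              calc c = g⁻¹ * (g * c * g⁻¹) * g := by group
                _ = g * c * g⁻¹ * g⁻¹ * g := by rw [h1]
                _ = g * c * g⁻¹ := by group
            rwa [← h2] at hc
        have hmemmul : y ∈ ((B : Set (M ⧸ P)) * (Subgroup.zpowers (π a₀) : Set (M ⧸ P))) := by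
          rw [← Subgroup.coe_mul_of_right_le_normalizer_left]
          · exact hyB
          · exact Subgroup.zpowers_le.mpr (hn ⟨a₀, ha₀, rfl⟩)
        obtain ⟨c, hc, w, hw, rfl⟩ := hmemmul
        obtain ⟨i, rfl⟩ := Subgroup.mem_zpowers_iff.mp hw
        refine ⟨(⟨π a₀, ⟨a₀, ha₀, rfl⟩⟩ : Abar) ^ i, zpow_mem (Subgroup.mem_zpowers _) i, ?_⟩
        refine (QuotientGroup.eq.mpr ?_)
        rw [Subgroup.mem_subgroupOf]
        push_cast
        have := (hacomm c (hBA hc) (π a₀ ^ i) (zpow_mem (show π a₀ ∈ Abar from ⟨a₀, ha₀, rfl⟩) i)).eq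
        rw [this, inv_mul_cancel_left]
        exact hc
      rw [Subgroup.relIndex, Subgroup.index_eq_card, ← Subgroup.card_top (G := Abar ⧸ B.subgroupOf Abar),
        ← hmap]
      refine (Nat.le_of_dvd Nat.card_pos (Subgroup.card_map_dvd _ _)).trans ?_
      rw [Nat.card_zpowers]
      exact orderOf_le_of_pow_eq_one hp.pos (Subtype.ext (by simpa using hap))
    obtain ⟨j, hj⟩ : ∃ j, B.relIndex Abar = p ^ j := by
      obtain ⟨j, hj⟩ := IsPGroup.iff_card.mp (hA.map π)
      obtain ⟨i, -, hi⟩ := (Nat.dvd_prime_pow hp).mp (hj ▸ Subgroup.relIndex_dvd_card B Abar)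
      exact ⟨i, hi⟩
    have hj0 : j ≠ 0 := fun h => hlt (Subgroup.relIndex_eq_one.mp (by rw [hj, h, pow_zero]))
    refine le_antisymm hle ?_
    rw [hj]; exact Nat.le_self_pow hj0 p
  set O := (Cfsg.pCore p ↥L₀).map L₀.subtype with hOdef
  have hA'O : A' ≤ O := by
    set S := (B.comap π ⊓ L₀).subgroupOf L₀ with hS
    have hSn : S.Normal := ⟨fun y hy g => by
      rw [hS, Subgroup.mem_subgroupOf] at hy ⊢
      obtain ⟨hy1, hy2⟩ := hy
      refine ⟨?_, (g * y * g⁻¹).2⟩
      show π ((g : M) * y * (g : M)⁻¹) ∈ B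
      rw [map_mul, map_mul, map_inv, ← (hBcent _ hy1 _ ⟨g, g.2, rfl⟩).eq, mul_inv_cancel_right]
      exact hy1⟩
    have hSp : IsPGroup p S := by
      have h1 : IsPGroup p (B.comap π : Subgroup M) := by
        refine IsPGroup.comap_of_ker_isPGroup ((hA.map π).to_le hBA) π ?_
        rw [hπdef, QuotientGroup.ker_mk']; exact hPp
      exact (h1.to_le inf_le_left).of_equiv (Subgroup.subgroupOfEquivOfLe inf_le_right).symm
    intro y hy
    exact ⟨⟨y, hAL hy.1⟩, Cores.le_pCore hSn hSp (Subgroup.mem_subgroupOf.mpr ⟨hy.2, hAL hy.1⟩), rfl⟩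
  have hAnO : ¬ A ≤ O := by
    intro h
    have hconj : A.map (MulAut.conj (x : M)).toMonoidHom ≤ O := by
      rintro - ⟨y, hy, rfl⟩
      obtain ⟨o, ho, hoy⟩ := h hy
      refine ⟨x * o * x⁻¹, (inferInstance : (Cfsg.pCore p ↥L₀).Normal).conj_mem o ho x, ?_⟩
      show (x : M) * (o : M) * (x : M)⁻¹ = (x : M) * y * (x : M)⁻¹
      rw [show (o : M) = y from hoy]
    have hL₀O : L₀ ≤ O := by
      conv_lhs => rw [← hLx]
      exact sup_le h hconj
    have hLp : IsPGroup p L₀ :=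
      ((PSolv.isPGroup_pCore p ↥L₀).map L₀.subtype).to_le hL₀O
    obtain ⟨j, hj⟩ := hLp x
    have hxb1 : xb = 1 := by
      refine hKtriv xb hxK j ?_
      rw [← hxx, ← map_pow]
      exact (congrArg π (congrArg Subtype.val hj)).trans (map_one π)
    exact hxa (by rw [hxb1, one_mul, mul_one])
  have heq : A ⊓ O = A' := by
    refine le_antisymm ?_ (le_inf inf_le_left hA'O)
    have h1 := Subgroup.relIndex_mul_relIndex A' (A ⊓ O) A (le_inf inf_le_left hA'O) inf_le_left
    rw [hA'idx] at h1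
    rcases (Nat.dvd_prime hp).mp ⟨_, h1.symm⟩ with h | h
    · exact Subgroup.relIndex_eq_one.mp h
    · exfalso
      rw [h, Nat.mul_eq_left hp.ne_zero] at h1
      exact hAnO (Subgroup.relIndex_eq_one.mp (by rw [← Subgroup.inf_relIndex_left]; exact h1))
  refine ⟨by rw [heq, hA'idx], ?_⟩
  rw [heq, Subgroup.commutator_le]
  intro y hy z hz
  refine (hπ1 _).mp ?_
  rw [map_commutatorElement, commutatorElement_eq_one_iff_mul_comm]
  exact (hBcent _ hy.2 _ ⟨z, hz, rfl⟩).eq


end Cfsg.Agent.S3754
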