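import Cfsg.Statements.S3755
import Cfsg.Agent.PGroup.QuadraticSum
import Cfsg.Agent.Coprime.Generation
import Cfsg.Agent.TwoGroups.Recognition
import Cfsg.Agent.PSolv.Cores
import Cfsg.Agent.SporB.SymThree

set_option autoImplicit false
open Cfsg
set_option linter.style.haveILetI false

namespace Cfsg.Agent.S3755

/-- An elementary abelian 2-group acting non-trivially on a group of odd order has a hyperplane
centralizing an element inverted by the rest. -/
theorem exists_inverted {X : Type*} [Group X] [Finite X] : ∀ (m : ℕ) (A K : Subgroup X),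
    Nat.card A = m → Cfsg.IsElementaryAbelian 2 A → A ≤ Subgroup.normalizer (K : Set X) →
    Odd (Nat.card K) → ¬ A ≤ Subgroup.centralizer (K : Set X) →
    ∃ (B : Subgroup X) (a x : X), B ≤ A ∧ a ∈ A ∧ a ∉ B ∧ 2 * Nat.card B = Nat.card A ∧
      x ∈ K ∧ x ≠ 1 ∧ (∀ b ∈ B, Commute b x) ∧ a * x * a⁻¹ = x⁻¹ := by
  intro m
  induction m using Nat.strong_induction_on with
  | _ m ih =>
    intro A K hm hA hAK hK hne
    haveI := hA.1
    haveI : Fact (Nat.Prime 2) := ⟨Nat.prime_two⟩
    have hA2 : IsPGroup 2 A := fun a => ⟨1, Subtype.ext (by simpa using hA.2 a a.2)⟩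
    by_cases hcyc : IsCyclic A
    · obtain ⟨t, ht⟩ := (Subgroup.isCyclic_iff_exists_zpowers_eq_top A).mp hcyc
      have htA : t ∈ A := ht ▸ Subgroup.mem_zpowers t
      have ht2 : t * t = 1 := by rw [← sq]; exact hA.2 t htA
      have ht1 : t ≠ 1 := by
        rintro rfl
        refine hne ?_
        rw [← ht, Subgroup.zpowers_one_eq_bot]
        exact bot_le
      have hcard : Nat.card A = 2 := by
        rw [← ht, Nat.card_zpowers]
        exact orderOf_eq_prime (by rw [sq, ht2]) ht1
      obtain ⟨k, hk, hkt⟩ : ∃ k ∈ K, k * t ≠ t * k := by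
        by_contra hcon
        simp only [not_exists, not_and, not_not] at hcon
        refine hne (ht ▸ Subgroup.zpowers_le.mpr (Subgroup.mem_centralizer_iff.mpr hcon))
      have hti : t⁻¹ = t := inv_eq_of_mul_eq_one_right ht2
      refine ⟨⊥, t, k⁻¹ * (t * k * t⁻¹), bot_le, htA, fun h => ht1 (Subgroup.mem_bot.mp h), ?_,
        mul_mem (inv_mem hk) ((Subgroup.mem_normalizer_iff.mp (hAK htA) k).mp hk), fun h => hkt ?_,
        fun b hb => by rw [Subgroup.mem_bot.mp hb]; exact Commute.one_left _, ?_⟩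
      · rw [Subgroup.card_bot, hcard]
      · rw [inv_mul_eq_one, eq_mul_inv_iff_mul_eq] at h; exact h
      · rw [mul_inv_rev, mul_inv_rev, mul_inv_rev, inv_inv, inv_inv, hti,
          show t * (k⁻¹ * (t * k * t)) * t = t * k⁻¹ * t * k * (t * t) by group, ht2, mul_one]
        group
    · have hcop : (Nat.card A).Coprime (Nat.card K) := by
        obtain ⟨j, hj⟩ := IsPGroup.iff_card.mp hA2
        rw [hj]
        exact Nat.Coprime.pow_left j (Nat.coprime_two_left.mpr hK)
      obtain ⟨a₀, ⟨ha₀, ha₀1⟩, hK'⟩ : ∃ a₀ : X, (a₀ ∈ A ∧ a₀ ≠ 1) ∧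
          ¬ A ≤ Subgroup.centralizer ((K ⊓ Subgroup.centralizer {a₀} : Subgroup X) : Set X) := by
        by_contra hcon
        simp only [not_exists, not_and, not_not] at hcon
        refine hne ?_
        rw [Subgroup.le_centralizer_iff]
        conv_lhs => rw [← Coprime.iSup_centralizer_eq hcyc hAK hcop]
        exact iSup₂_le fun a ha => Subgroup.le_centralizer_iff.mp (hcon a ha)
      obtain ⟨U, hU, hUcard⟩ := PGroup.exists_complement_of_sq_eq_one (V := A)
        (fun v => Subtype.ext (by simpa using hA.2 v v.2)) (Subgroup.zpowers ⟨a₀, ha₀⟩)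
      set A' := U.map A.subtype with hA'def
      have hA'A : A' ≤ A := Subgroup.map_subtype_le U
      have ho : orderOf (⟨a₀, ha₀⟩ : A) = 2 := orderOf_eq_prime
        (Subtype.ext (by simpa using hA.2 a₀ ha₀)) fun h => ha₀1 (congrArg Subtype.val h)
      rw [Nat.card_zpowers, ho] at hUcard
      have hA'card : Nat.card A' * 2 = Nat.card A := by
        rw [hA'def, Subgroup.card_map_of_injective A.subtype_injective, hUcard]
      have ha₀A' : a₀ ∉ A' := by
        rintro ⟨v, hv, hva⟩
        have hv' : v = ⟨a₀, ha₀⟩ := Subtype.ext hva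
        have h1 : (⟨a₀, ha₀⟩ : A) ∈ U ⊓ Subgroup.zpowers ⟨a₀, ha₀⟩ :=
          ⟨hv' ▸ hv, Subgroup.mem_zpowers _⟩
        rw [hU, Subgroup.mem_bot] at h1
        exact ha₀1 (congrArg Subtype.val h1)
      have hA'e : Cfsg.IsElementaryAbelian 2 A' :=
        ⟨⟨⟨fun a b => Subtype.ext (congrArg Subtype.val
          (hA.1.is_comm.comm ⟨a, hA'A a.2⟩ ⟨b, hA'A b.2⟩) :)⟩⟩, fun a ha => hA.2 a (hA'A ha)⟩
      have hcommA : ∀ a ∈ A, ∀ b ∈ A, Commute a b := fun a ha b hb =>
        congrArg Subtype.val (hA.1.is_comm.comm ⟨a, ha⟩ ⟨b, hb⟩)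
      set K' := K ⊓ Subgroup.centralizer ({a₀} : Set X) with hK'def
      have hA'K' : A' ≤ Subgroup.normalizer (K' : Set X) := by
        intro a ha
        rw [Subgroup.mem_normalizer_iff]
        intro k
        simp only [hK'def, SetLike.mem_coe, Subgroup.mem_inf, Subgroup.mem_centralizer_singleton_iff]
        refine and_congr (Subgroup.mem_normalizer_iff.mp (hAK (hA'A ha)) k) ?_
        have hc := hcommA a (hA'A ha) a₀ ha₀
        constructor
        · intro h
          exact ((hc.mul_left (show Commute k a₀ from h)).mul_left hc.inv_left).eq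
        · intro h
          have h2 := (hc.inv_left.mul_left (show Commute (a * k * a⁻¹) a₀ from h)).mul_left hc
          rwa [show a⁻¹ * (a * k * a⁻¹) * a = k by group] at h2
      have hne' : ¬ A' ≤ Subgroup.centralizer (K' : Set X) := by
        intro hle
        refine hK' ?_
        have hsup : A ≤ A' ⊔ Subgroup.zpowers a₀ := by
          intro a ha
          have h1 : Nat.card A ≤ Nat.card ↥(A' ⊔ Subgroup.zpowers a₀) := by
            rw [← hA'card]
            have hlt : A' < A' ⊔ Subgroup.zpowers a₀ := lt_of_le_of_ne le_sup_left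
              fun h => ha₀A' (h ▸ Subgroup.mem_sup_right (Subgroup.mem_zpowers a₀))
            have hd := Subgroup.card_dvd_of_le hlt.le
            obtain ⟨q, hq⟩ := hd
            have hq2 : 2 ≤ q := by
              rcases Nat.lt_or_ge q 2 with h | h
              · exfalso
                interval_cases q
                · rw [mul_zero] at hq; exact (Nat.card_pos (α := ↥(A' ⊔ Subgroup.zpowers a₀))).ne' hq
                · rw [mul_one] at hq
                  exact hlt.ne (Subgroup.eq_of_le_of_card_ge hlt.le hq.le)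
              · exact h
            rw [hq]
            exact Nat.mul_le_mul_left _ hq2
          have h2 : A' ⊔ Subgroup.zpowers a₀ = A :=
            Subgroup.eq_of_le_of_card_ge (sup_le hA'A (Subgroup.zpowers_le.mpr ha₀)) h1
          rw [h2]; exact ha
        refine hsup.trans (sup_le hle (Subgroup.zpowers_le.mpr ?_))
        rw [Subgroup.mem_centralizer_iff]
        exact fun k hk => Subgroup.mem_centralizer_singleton_iff.mp hk.2
      have hlt : Nat.card A' < m := by
        have : 0 < Nat.card A' := Nat.card_pos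
        omega
      obtain ⟨B', a, x, hB'A', haA', haB', hB'card, hx, hx1, hBx, hax⟩ :=
        ih _ hlt A' K' rfl hA'e hA'K'
          (Odd.of_dvd_nat hK (Subgroup.card_dvd_of_le inf_le_left)) hne'
      -- adjoin `a₀`
      let B : Subgroup X :=
        { carrier := {b | b ∈ A ∧ (b ∈ B' ∨ a₀ * b ∈ B')}
          one_mem' := ⟨one_mem _, Or.inl (one_mem _)⟩
          mul_mem' := fun {b c} hb hc => ⟨mul_mem hb.1 hc.1, by
            have hcm := hcommA a₀ ha₀ b hb.1
            rcases hb.2 with h | h <;> rcases hc.2 with h' | h'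
            · exact Or.inl (mul_mem h h')
            · refine Or.inr ?_
              rw [← mul_assoc, hcm.eq, mul_assoc]
              exact mul_mem h h'
            · refine Or.inr ?_
              rw [← mul_assoc]
              exact mul_mem h h'
            · refine Or.inl ?_
              have h0 : b * c = (a₀ * b) * (a₀ * c) := by
                rw [show a₀ * b * (a₀ * c) = a₀ * (b * a₀) * c by group, ← hcm.eq,
                  show a₀ * (a₀ * b) * c = a₀ * a₀ * (b * c) by group, ← sq, hA.2 a₀ ha₀, one_mul]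
              rw [h0]
              exact mul_mem h h'⟩
          inv_mem' := fun {b} hb => by
            have hb2 : b⁻¹ = b := inv_eq_of_mul_eq_one_right (by rw [← sq, hA.2 b hb.1])
            rw [hb2]; exact hb }
      have ha₀B' : a₀ ∉ B' := fun h => ha₀A' (hB'A' h)
      have haB : a ∉ B := by
        rintro ⟨-, h | h⟩
        · exact haB' h
        · refine ha₀A' ?_
          have := mul_mem (hB'A' h) (inv_mem haA')
          rwa [mul_inv_cancel_right] at this
      have hBA : B ≤ A := fun b hb => hb.1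
      have hB'B : B' ≤ B := fun b hb => ⟨hA'A (hB'A' hb), Or.inl hb⟩
      have ha₀B : a₀ ∈ B := ⟨ha₀, Or.inr (by rw [← sq, hA.2 a₀ ha₀]; exact one_mem _)⟩
      refine ⟨B, a, x, hBA, hA'A haA', haB, ?_, hx.1, hx1, ?_, hax⟩
      · have hlt1 : B' < B := lt_of_le_of_ne hB'B fun h => ha₀B' (h ▸ ha₀B)
        have hlt2 : B < A := lt_of_le_of_ne hBA fun h => haB (h ▸ hA'A haA')
        obtain ⟨j, hj⟩ := IsPGroup.iff_card.mp hA2
        have hdB : Nat.card B ∣ 2 ^ j := hj ▸ Subgroup.card_dvd_of_le hBA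
        obtain ⟨i, -, hi⟩ := (Nat.dvd_prime_pow Nat.prime_two).mp hdB
        have hdB' : Nat.card B' ∣ 2 ^ j := hj ▸ Subgroup.card_dvd_of_le (hB'A'.trans hA'A)
        obtain ⟨l, -, hl⟩ := (Nat.dvd_prime_pow Nat.prime_two).mp hdB'
        have h1 : Nat.card B' < Nat.card B := lt_of_le_of_ne (Subgroup.card_le_of_le hlt1.le)
          fun h => hlt1.ne (Subgroup.eq_of_le_of_card_ge hlt1.le h.ge)
        have h2 : Nat.card B < Nat.card A := lt_of_le_of_ne (Subgroup.card_le_of_le hlt2.le)
          fun h => hlt2.ne (Subgroup.eq_of_le_of_card_ge hlt2.le h.ge)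
        rw [hi, hl] at h1
        rw [hi, hj] at h2
        have e1 := (Nat.pow_lt_pow_iff_right (by norm_num)).mp h1
        have e2 := (Nat.pow_lt_pow_iff_right (by norm_num)).mp h2
        have e3 : 2 ^ (l + 2) = 2 ^ j := by rw [← hj, ← hA'card, ← hB'card, hl]; ring
        have e4 := Nat.pow_right_injective (le_refl 2) e3
        rw [hi, hj, ← pow_succ', show i + 1 = j by omega]
      · rintro b ⟨-, hb | hb⟩
        · exact hBx b hb
        · have hc : Commute a₀ x := (show Commute x a₀ from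
            Subgroup.mem_centralizer_singleton_iff.mp hx.2).symm
          have := (hc.inv_left).mul_left (hBx _ hb)
          rwa [inv_mul_cancel_left] at this

/-- If a group element moves another by a fixed element of order two, and has odd order, it fixes it. -/
theorem commute_of_stable {X : Type*} [Group X] {y w : X} (hodd : Odd (orderOf y))
    (hfix : Commute y (y * w * y⁻¹ * w⁻¹)) (h2 : (y * w * y⁻¹ * w⁻¹) ^ 2 = 1) : Commute y w := by
  set h := y * w * y⁻¹ * w⁻¹ with hh
  have hiter : ∀ n : ℕ, y ^ n * w * (y ^ n)⁻¹ = h ^ n * w := by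
    intro n
    induction n with
    | zero => simp
    | succ n ih =>
      calc y ^ (n + 1) * w * (y ^ (n + 1))⁻¹ = y * (y ^ n * w * (y ^ n)⁻¹) * y⁻¹ := by
            rw [pow_succ']; group
        _ = (y * h ^ n) * w * y⁻¹ := by rw [ih]; group
        _ = h ^ n * (y * w * y⁻¹) := by rw [(hfix.pow_right n).eq]; group
        _ = h ^ (n + 1) * w := by rw [pow_succ, show y * w * y⁻¹ = h * w by rw [hh]; group]; group
  have h1 : h ^ orderOf y = 1 := by
    have := hiter (orderOf y)
    rw [pow_orderOf_eq_one, one_mul, inv_one, mul_one] at this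
    exact mul_eq_right.mp this.symm
  obtain ⟨k, hk⟩ := hodd
  rw [hk, pow_add, pow_mul, h2, one_pow, one_mul, pow_one] at h1
  rw [hh, mul_inv_eq_one, mul_inv_eq_iff_eq_mul] at h1
  exact h1

/-- An element of order prime to 6 fixing a subgroup of index at most 4 in a normalised elementary
abelian 2-group centralises it. -/
theorem commute_of_index_le_four {X : Type*} [Group X] [Finite X] {W H₀ : Subgroup X}
    (hW2 : ∀ w ∈ W, w ^ 2 = 1) (hH : H₀ ≤ W) (hidx : Nat.card W ≤ 4 * Nat.card H₀) {y : X}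
    (hy2 : Odd (orderOf y)) (hy3 : ¬ 3 ∣ orderOf y) (hyW : ∀ w ∈ W, y * w * y⁻¹ ∈ W)
    (hfix : ∀ h ∈ H₀, Commute y h) : ∀ w ∈ W, Commute y w := by
  have hiter : ∀ (n : ℕ), ∀ w ∈ W, y ^ n * w * (y ^ n)⁻¹ ∈ W := by
    intro n
    induction n with
    | zero => intro w hw; simpa using hw
    | succ n ih =>
      intro w hw
      rw [show y ^ (n + 1) * w * (y ^ (n + 1))⁻¹ = y * (y ^ n * w * (y ^ n)⁻¹) * y⁻¹ by
        rw [pow_succ']; group]
      exact hyW _ (ih w hw)
  intro w hw
  by_cases hwH : w ∈ H₀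
  · exact hfix w hwH
  -- among four translates of `w` outside `H₀`, two agree modulo `H₀`
  let v : Fin 4 → W := fun i => ⟨y ^ (i : ℕ) * w * (y ^ (i : ℕ))⁻¹, hiter i w hw⟩
  let q : Fin 4 → W ⧸ H₀.subgroupOf W := fun i => (v i : W ⧸ H₀.subgroupOf W)
  have hq1 : ∀ i, q i ≠ ((1 : W) : W ⧸ H₀.subgroupOf W) := by
    intro i h
    rw [QuotientGroup.eq, mul_one] at h
    have h' : y ^ (i : ℕ) * w * (y ^ (i : ℕ))⁻¹ ∈ H₀ := by
      have := inv_mem (Subgroup.mem_subgroupOf.mp h)
      simpa [v] using this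
    refine hwH ?_
    have hc : Commute (y ^ (i : ℕ)) (y ^ (i : ℕ) * w * (y ^ (i : ℕ))⁻¹) := (hfix _ h').pow_left _
    have h'' : y ^ (i : ℕ) * w * (y ^ (i : ℕ))⁻¹ = w := by
      calc y ^ (i : ℕ) * w * (y ^ (i : ℕ))⁻¹
          = (y ^ (i : ℕ))⁻¹ * (y ^ (i : ℕ) * (y ^ (i : ℕ) * w * (y ^ (i : ℕ))⁻¹)) := by group
        _ = (y ^ (i : ℕ))⁻¹ * ((y ^ (i : ℕ) * w * (y ^ (i : ℕ))⁻¹) * y ^ (i : ℕ)) := by rw [hc.eq]
        _ = w := by group
    rwa [h''] at h'
  have hcard : Nat.card (W ⧸ H₀.subgroupOf W) ≤ 4 := by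
    have h := Subgroup.card_eq_card_quotient_mul_card_subgroup (H₀.subgroupOf W)
    rw [Nat.card_congr (Subgroup.subgroupOfEquivOfLe hH).toEquiv] at h
    rw [h] at hidx
    exact Nat.le_of_mul_le_mul_right hidx Nat.card_pos
  obtain ⟨i, j, hij, hq⟩ : ∃ i j : Fin 4, i < j ∧ q i = q j := by
    by_contra hcon
    simp only [not_exists, not_and] at hcon
    let f : Option (Fin 4) → W ⧸ H₀.subgroupOf W := fun o => o.elim ((1 : W) : W ⧸ H₀.subgroupOf W) q
    have hf : Function.Injective f := by
      rintro (_ | i) (_ | j) h <;> simp only [f, Option.elim] at h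
      · rfl
      · exact absurd h.symm (hq1 j)
      · exact absurd h (hq1 i)
      · rcases lt_trichotomy i j with h' | rfl | h'
        · exact absurd h (hcon i j h')
        · rfl
        · exact absurd h.symm (hcon j i h')
    have h5 := Nat.card_le_card_of_injective f hf
    rw [Nat.card_eq_fintype_card, Fintype.card_option, Fintype.card_fin] at h5
    omega
  obtain ⟨d, hd⟩ : ∃ d : ℕ, (j : ℕ) = i + d := ⟨(j : ℕ) - i, by omega⟩
  have hd13 : 1 ≤ d ∧ d ≤ 3 := by omega
  rw [QuotientGroup.eq] at hq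
  have hq' : (y ^ (i : ℕ) * w * (y ^ (i : ℕ))⁻¹)⁻¹ * (y ^ (j : ℕ) * w * (y ^ (j : ℕ))⁻¹) ∈ H₀ :=
    Subgroup.mem_subgroupOf.mp hq
  have hh : w⁻¹ * (y ^ d * w * (y ^ d)⁻¹) ∈ H₀ := by
    set h := (y ^ (i : ℕ) * w * (y ^ (i : ℕ))⁻¹)⁻¹ * (y ^ (j : ℕ) * w * (y ^ (j : ℕ))⁻¹) with hh'
    have h1 : h = y ^ (i : ℕ) * (w⁻¹ * (y ^ d * w * (y ^ d)⁻¹)) * (y ^ (i : ℕ))⁻¹ := by
      rw [hh', hd, pow_add]; group
    have h2 : w⁻¹ * (y ^ d * w * (y ^ d)⁻¹) = (y ^ (i : ℕ))⁻¹ * h * y ^ (i : ℕ) := by
      rw [h1]; group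
    rw [h2, ((hfix h hq').pow_left _).inv_left.eq, inv_mul_cancel_right]
    exact hq'
  have hcomm2 : ∀ u ∈ W, ∀ v ∈ W, u * v = v * u := by
    intro u hu v hv
    have e1 := inv_eq_of_mul_eq_one_right (by rw [← sq]; exact hW2 u hu : u * u = 1)
    have e2 := inv_eq_of_mul_eq_one_right (by rw [← sq]; exact hW2 v hv : v * v = 1)
    have e3 := inv_eq_of_mul_eq_one_right (by rw [← sq]; exact hW2 _ (mul_mem hu hv) : u * v * (u * v) = 1)
    rw [← e3, mul_inv_rev, e1, e2]
  have hh' : y ^ d * w * (y ^ d)⁻¹ * w⁻¹ ∈ H₀ := by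
    rw [← hcomm2 _ (inv_mem hw) _ (hiter d w hw)]
    exact hh
  have hdc : Nat.Coprime (orderOf y) d := by
    have h3 : Nat.Coprime (orderOf y) 3 := ((Nat.Prime.coprime_iff_not_dvd (by norm_num)).mpr hy3).symm
    have h2 : Nat.Coprime (orderOf y) 2 := Nat.coprime_two_right.mpr hy2
    rcases (show d = 1 ∨ d = 2 ∨ d = 3 by omega) with rfl | rfl | rfl
    · exact Nat.coprime_one_right _
    · exact h2
    · exact h3
  have hord : orderOf (y ^ d) = orderOf y := by
    rw [orderOf_pow' y (by omega), Nat.Coprime.gcd_eq_one hdc, Nat.div_one]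
  have hcd : Commute (y ^ d) w := commute_of_stable (by rw [hord]; exact hy2)
    ((hfix _ hh').pow_left d) (hW2 _ (hH hh'))
  obtain ⟨k, hk⟩ := exists_pow_eq_self_of_coprime hdc.symm
  rw [← hk]
  exact hcd.pow_left k

theorem dihedral_three_perm : Nonempty (DihedralGroup 3 ≃* Equiv.Perm (Fin 3)) :=
  Cfsg.Agent.SporB.dih_perm_three

/-- Let M and V be subgroups of a finite group with V an elementary abelian 2-group, M normalizing V and acting faithfully on it (M ∩ C(V) = 1), and C_M(O_{2'}(M)) ≤ O_{2'}(M). If some elementary abelian 2-subgroup A of M satisfies |V : C_V(A)| < |A|², then M has a section isomorphic to the symmetric group of degree 3. -/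
theorem result {X : Type*} [Group X] [Finite X] (M V : Subgroup X) (hV : Cfsg.IsElementaryAbelian 2 V) (hMV : M ≤ Subgroup.normalizer (V : Set X)) (hfaith : M ⊓ Subgroup.centralizer (V : Set X) = ⊥) (hcon : Subgroup.centralizer (Cfsg.pPrimeCore 2 ↥M : Set ↥M) ≤ Cfsg.pPrimeCore 2 ↥M) (A : Subgroup X) (hAM : A ≤ M) (hA : Cfsg.IsElementaryAbelian 2 A) (hsmall : (V ⊓ Subgroup.centralizer (A : Set X)).relIndex V < Nat.card A ^ 2) : Cfsg.Involves (Equiv.Perm (Fin 3)) ↥M := by

  classical
  haveI : Fact (Nat.Prime 2) := ⟨Nat.prime_two⟩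
  by_contra hS3
  set O := (Cfsg.pPrimeCore 2 ↥M).map M.subtype with hOdef
  have hOM : O ≤ M := Subgroup.map_subtype_le _
  have hOodd : Odd (Nat.card O) := by
    rw [hOdef, Subgroup.card_map_of_injective M.subtype_injective]
    exact Nat.coprime_two_right.mp (PSolv.coprime_card_pPrimeCore 2 ↥M)
  have hMO : M ≤ Subgroup.normalizer (O : Set X) := by
    intro m hm
    rw [Subgroup.mem_normalizer_iff]
    intro k
    haveI : (Cfsg.pPrimeCore 2 ↥M).Normal := inferInstance
    constructor
    · rintro ⟨v, hv, rfl⟩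
      exact ⟨⟨m, hm⟩ * v * ⟨m, hm⟩⁻¹, this.conj_mem v hv _, rfl⟩
    · rintro ⟨v, hv, hvk⟩
      refine ⟨⟨m, hm⟩⁻¹ * v * ⟨m, hm⟩, ?_, ?_⟩
      · have := this.conj_mem v hv ⟨m, hm⟩⁻¹
        rwa [inv_inv] at this
      · show m⁻¹ * (v : X) * m = k
        rw [show (v : X) = m * k * m⁻¹ from hvk]; group
  have hfO : ∀ a ∈ A, (∀ k ∈ O, Commute a k) → a = 1 := by
    intro a ha hall
    have h1 : (⟨a, hAM ha⟩ : M) ∈ Cfsg.pPrimeCore 2 ↥M := hcon (Subgroup.mem_centralizer_iff.mpr
      fun k hk => Subtype.ext (hall k ⟨k, hk, rfl⟩).eq.symm)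
    have h2 : orderOf a ∣ Nat.card O := by
      rw [← Subgroup.orderOf_mk a (show a ∈ O from ⟨_, h1, rfl⟩)]
      exact orderOf_dvd_natCard _
    have h3 : orderOf a ∣ 2 := orderOf_dvd_of_pow_eq_one (hA.2 a ha)
    exact orderOf_eq_one_iff.mp
      (Nat.eq_one_of_dvd_coprimes (Nat.coprime_two_left.mpr hOodd) h3 h2)
  have hV2 : ∀ v ∈ V, v ^ 2 = 1 := hV.2
  have hVc : ∀ u ∈ V, ∀ v ∈ V, Commute u v := fun u hu v hv =>
    congrArg Subtype.val (hV.1.is_comm.comm ⟨u, hu⟩ ⟨v, hv⟩)
  have hnormV : ∀ g ∈ M, ∀ v ∈ V, g * v * g⁻¹ ∈ V := fun g hg v hv =>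
    (Subgroup.mem_normalizer_iff.mp (hMV hg) v).mp hv
  -- elements of `O` inverted by an involution of `M` have order prime to three
  have hthree : ∀ a ∈ A, ∀ x ∈ O, a * x * a⁻¹ = x⁻¹ → ¬ 3 ∣ orderOf x := by
    rintro a ha x hx hax ⟨k, hk⟩
    have hk0 : k ≠ 0 := by rintro rfl; exact (orderOf_pos x).ne' (by rw [hk, mul_zero])
    have hy : orderOf (x ^ k) = 3 := by
      rw [orderOf_pow' x hk0, hk, Nat.gcd_mul_left_left, Nat.mul_div_cancel _ (Nat.pos_of_ne_zero hk0)]
    have hay : a * x ^ k * a⁻¹ = (x ^ k)⁻¹ := by rw [← conj_pow, hax, inv_pow]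
    have hnm : a ∉ Subgroup.zpowers (x ^ k) := by
      intro h
      obtain ⟨i, hi⟩ := Subgroup.mem_zpowers_iff.mp h
      have hc : Commute a (x ^ k) := hi ▸ (Commute.refl (x ^ k)).zpow_left i
      rw [hc.eq, mul_inv_cancel_right] at hay
      have h2 : orderOf (x ^ k) ∣ 2 := orderOf_dvd_of_pow_eq_one (by
        rw [sq]; exact mul_eq_one_iff_eq_inv.mpr hay)
      rw [hy] at h2
      norm_num at h2
    obtain ⟨e⟩ := TwoGroups.closure_equiv_dihedral hy hnm (by rw [← sq]; exact hA.2 a ha) hay
    obtain ⟨e'⟩ := dihedral_three_perm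
    set D := Subgroup.closure ({x ^ k, a} : Set X)
    have hDM : D ≤ M := (Subgroup.closure_le _).mpr (by
      rintro y (rfl | rfl)
      · exact pow_mem (hOM hx) k
      · exact hAM ha)
    refine hS3 ⟨D.subgroupOf M, ⊥, ?_, ?_⟩
    · rw [Subgroup.bot_subgroupOf]; infer_instance
    · refine ⟨(QuotientGroup.quotientMulEquivOfEq (Subgroup.bot_subgroupOf _)).trans
        (QuotientGroup.quotientBot.trans
          ((Subgroup.subgroupOfEquivOfLe hDM).trans (e.trans e')))⟩
  -- the bound
  have key : ∀ (m : ℕ) (B : Subgroup X), Nat.card B = m → B ≤ A →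
      m ^ 2 * Nat.card ↥(V ⊓ Subgroup.centralizer (B : Set X)) ≤ Nat.card V := by
    intro m
    induction m using Nat.strong_induction_on with
    | _ m ih =>
      intro B hm hBA
      by_cases hB1 : B = ⊥
      · subst hB1
        rw [← hm, Subgroup.card_bot, one_pow, one_mul]
        exact Subgroup.card_le_of_le inf_le_left
      have hBe : Cfsg.IsElementaryAbelian 2 B :=
        ⟨⟨⟨fun a b => Subtype.ext (congrArg Subtype.val
          (hA.1.is_comm.comm ⟨a, hBA a.2⟩ ⟨b, hBA b.2⟩) :)⟩⟩, fun a ha => hA.2 a (hBA ha)⟩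
      have hne : ¬ B ≤ Subgroup.centralizer (O : Set X) := fun h => hB1 (by
        rw [eq_bot_iff]
        intro b hb
        exact Subgroup.mem_bot.mpr (hfO b (hBA hb) fun k hk =>
          (Subgroup.mem_centralizer_iff.mp (h hb) k hk).symm))
      obtain ⟨C, a, x, hCB, haB, haC, hCcard, hx, hx1, hCx, hax⟩ :=
        exists_inverted _ B O rfl hBe ((hBA.trans hAM).trans hMO) hOodd hne
      have hlt : Nat.card C < m := by
        have : 0 < Nat.card C := Nat.card_pos
        omega
      have hind := ih _ hlt C rfl (hCB.trans hBA)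
      set W := V ⊓ Subgroup.centralizer (C : Set X) with hWdef
      set U := V ⊓ Subgroup.centralizer (B : Set X) with hUdef
      have hUW : U ≤ W := inf_le_inf_left _ (Subgroup.centralizer_le hCB)
      suffices h4 : 4 * Nat.card U ≤ Nat.card W by
        rw [← hm, ← hCcard]
        calc (2 * Nat.card C) ^ 2 * Nat.card U = Nat.card C ^ 2 * (4 * Nat.card U) := by ring
          _ ≤ Nat.card C ^ 2 * Nat.card W := Nat.mul_le_mul_left _ h4
          _ ≤ Nat.card V := hind
      have hxM : x ∈ M := hOM hx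
      have haM : a ∈ M := hAM (hBA haB)
      have hxodd : Odd (orderOf x) := hOodd.of_dvd_nat (by
        rw [← Subgroup.orderOf_mk x hx]; exact orderOf_dvd_natCard _)
      have hxW : ∀ w ∈ W, x * w * x⁻¹ ∈ W := by
        intro w hw
        refine ⟨hnormV x hxM w hw.1, Subgroup.mem_centralizer_iff.mpr fun c hc => ?_⟩
        have h1 := hCx c hc
        have h2 : Commute c w := Subgroup.mem_centralizer_iff.mp hw.2 c hc
        exact ((h1.mul_right h2).mul_right h1.inv_right).eq
      -- `x` moves some element of `W`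
      have hmove : ∃ w ∈ W, ¬ Commute x w := by
        let φ : V →* V :=
          { toFun := fun v => ⟨x * v * x⁻¹ * (v : X)⁻¹, mul_mem (hnormV x hxM v v.2) (inv_mem v.2)⟩
            map_one' := Subtype.ext (by simp)
            map_mul' := fun v u => Subtype.ext (by
              show x * ((v : X) * u) * x⁻¹ * ((v : X) * u)⁻¹ =
                x * v * x⁻¹ * (v : X)⁻¹ * (x * u * x⁻¹ * (u : X)⁻¹)
              have h1 : Commute ((v : X)⁻¹) (x * u * x⁻¹ * (u : X)⁻¹) :=
                hVc _ (inv_mem v.2) _ (mul_mem (hnormV x hxM u u.2) (inv_mem u.2))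
              rw [show x * v * x⁻¹ * (v : X)⁻¹ * (x * u * x⁻¹ * (u : X)⁻¹) =
                x * v * x⁻¹ * ((v : X)⁻¹ * (x * u * x⁻¹ * (u : X)⁻¹)) by group, h1.eq]
              group) }
        set T := φ.range.map V.subtype with hTdef
        have hTV : T ≤ V := Subgroup.map_subtype_le _
        have hT1 : T ≠ ⊥ := by
          intro h
          refine hx1 ?_
          have : x ∈ M ⊓ Subgroup.centralizer (V : Set X) := ⟨hxM,
            Subgroup.mem_centralizer_iff.mpr fun v hv => by
              have h1 : x * v * x⁻¹ * v⁻¹ ∈ T := ⟨φ ⟨v, hv⟩, MonoidHom.mem_range.mpr ⟨_, rfl⟩, rfl⟩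
              rw [h, Subgroup.mem_bot, mul_inv_eq_one, mul_inv_eq_iff_eq_mul] at h1
              exact h1.symm⟩
          rw [hfaith, Subgroup.mem_bot] at this
          exact this
        have hTinv : ∀ c ∈ C, ∀ t ∈ T, c * t * c⁻¹ ∈ T := by
          rintro c hc - ⟨-, ⟨v, rfl⟩, rfl⟩
          refine ⟨φ ⟨c * v * c⁻¹, hnormV c (hAM (hBA (hCB hc))) v v.2⟩,
            MonoidHom.mem_range.mpr ⟨_, rfl⟩, ?_⟩
          show x * (c * (v : X) * c⁻¹) * x⁻¹ * (c * (v : X) * c⁻¹)⁻¹ =
            c * (x * v * x⁻¹ * (v : X)⁻¹) * c⁻¹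
          have h1 := hCx c hc
          rw [show x * (c * (v : X) * c⁻¹) * x⁻¹ = (x * c) * v * (x * c)⁻¹ by group, ← h1.eq]
          group
        have hC2 : IsPGroup 2 C := fun c => ⟨1, Subtype.ext (by
          simpa using hA.2 c (hBA (hCB c.2)))⟩
        let act : MulAction C T :=
          { smul := fun c t => ⟨(c : X) * t * (c : X)⁻¹, hTinv c c.2 t t.2⟩
            one_smul := fun t => Subtype.ext (show (1 : X) * t * (1 : X)⁻¹ = t by simp)
            mul_smul := fun c d t => Subtype.ext (show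
              ((c : X) * d) * t * ((c : X) * d)⁻¹ = c * ((d : X) * t * (d : X)⁻¹) * (c : X)⁻¹ by
                group) }
        have hdvd : 2 ∣ Nat.card T := by
          have hT2 : IsPGroup 2 T := fun t => ⟨1, Subtype.ext (by simpa using hV2 t (hTV t.2))⟩
          exact hT2.card_eq_or_dvd.resolve_left fun h => hT1 (Subgroup.card_eq_one.mp h)
        have h1 : (1 : T) ∈ MulAction.fixedPoints C T := fun c =>
          Subtype.ext (show (c : X) * (1 : X) * (c : X)⁻¹ = 1 by simp)
        obtain ⟨t, ht, hne⟩ := hC2.exists_fixed_point_of_prime_dvd_card_of_fixed_point T hdvd h1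
        refine ⟨t, ⟨hTV t.2, Subgroup.mem_centralizer_iff.mpr fun c hc => ?_⟩, fun hc => hne ?_⟩
        · have h := congrArg Subtype.val (ht ⟨c, hc⟩)
          exact mul_inv_eq_iff_eq_mul.mp h
        · obtain ⟨-, ⟨v, rfl⟩, hv⟩ := t.2
          refine Subtype.ext ?_
          show (1 : X) = t
          rw [← hv]
          have h0 : Commute x (x * (v : X) * x⁻¹ * (v : X)⁻¹) := by
            have : (t : X) = x * (v : X) * x⁻¹ * (v : X)⁻¹ := hv.symm
            rwa [this] at hc
          have h2 : (x * (v : X) * x⁻¹ * (v : X)⁻¹) ^ 2 = 1 := hV2 _ (φ v).2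
          have := commute_of_stable hxodd h0 h2
          show (1 : X) = x * (v : X) * x⁻¹ * (v : X)⁻¹
          rw [this.eq]; group
      by_contra h4
      rw [not_le] at h4
      -- `U` has index at most two in `W`, and is fixed by `x * x`
      have hW2 : Nat.card W ≤ 2 * Nat.card U := by
        obtain ⟨q, hq⟩ := Subgroup.card_dvd_of_le hUW
        have hq4 : q < 4 := by
          by_contra h
          rw [hq] at h4
          exact absurd h4 (not_lt.mpr (by rw [mul_comm 4]; exact Nat.mul_le_mul_left _ (not_lt.mp h)))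
        have hWp : IsPGroup 2 W := fun t => ⟨1, Subtype.ext (by simpa using hV2 t t.2.1)⟩
        obtain ⟨e, he⟩ := IsPGroup.iff_card.mp hWp
        have hqd : q ∣ 2 ^ e := he ▸ hq ▸ dvd_mul_left q _
        have hq3 : q ≠ 3 := by
          rintro rfl
          have := Nat.prime_three.dvd_of_dvd_pow hqd
          norm_num at this
        rw [hq, mul_comm 2]
        exact Nat.mul_le_mul_left _ (by omega)
      set H₀ := U ⊓ U.map (MulAut.conj x).toMonoidHom with hH₀
      have hH₀W : H₀ ≤ W := inf_le_left.trans hUW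
      have hidx : Nat.card W ≤ 4 * Nat.card H₀ := by
        have hxU : U.map (MulAut.conj x).toMonoidHom ≤ W := by
          rintro - ⟨u, hu, rfl⟩
          exact hxW u (hUW hu)
        have hrel : U.relIndex W ≤ 2 := by
          have h := Subgroup.relIndex_mul_relIndex ⊥ U W bot_le hUW
          rw [Subgroup.relIndex_bot_left, Subgroup.relIndex_bot_left] at h
          rw [← h, mul_comm 2] at hW2
          exact Nat.le_of_mul_le_mul_left hW2 Nat.card_pos
        have hrel' : (U.map (MulAut.conj x).toMonoidHom).relIndex W ≤ 2 := by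
          have h := Subgroup.relIndex_mul_relIndex ⊥ (U.map (MulAut.conj x).toMonoidHom) W bot_le hxU
          rw [Subgroup.relIndex_bot_left, Subgroup.relIndex_bot_left,
            Subgroup.card_map_of_injective (MulAut.conj x).injective] at h
          rw [← h, mul_comm 2] at hW2
          exact Nat.le_of_mul_le_mul_left hW2 Nat.card_pos
        have h0 : H₀.relIndex W ≤ 4 := (Subgroup.relIndex_inf_le (L := W)).trans
          (Nat.mul_le_mul hrel hrel')
        have h := Subgroup.relIndex_mul_relIndex ⊥ H₀ W bot_le hH₀W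
        rw [Subgroup.relIndex_bot_left, Subgroup.relIndex_bot_left] at h
        rw [← h, mul_comm 4]
        exact Nat.mul_le_mul_left _ h0
      have hx3 := hthree a (hBA haB) x hx hax
      have hord : orderOf (x * x) = orderOf x := by
        rw [← sq, orderOf_pow' x two_ne_zero,
          Nat.Coprime.gcd_eq_one (Nat.coprime_two_right.mpr hxodd), Nat.div_one]
      have hfix : ∀ h ∈ H₀, Commute (x * x) h := by
        rintro h ⟨hh, u, hu, huh⟩
        have h1 : Commute a h := Subgroup.mem_centralizer_iff.mp hh.2 a haB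
        have h2 : Commute a u := Subgroup.mem_centralizer_iff.mp hu.2 a haB
        have huh' : x * u * x⁻¹ = h := huh
        have h3 : Commute (x * a * x⁻¹) h := by
          rw [← huh']
          show x * a * x⁻¹ * (x * u * x⁻¹) = x * u * x⁻¹ * (x * a * x⁻¹)
          rw [show x * a * x⁻¹ * (x * u * x⁻¹) = x * (a * u) * x⁻¹ by group, h2.eq]
          group
        have h4 : x * x = (x * a * x⁻¹) * a := by
          have e1 : x⁻¹ * a = a * x := by rw [← hax]; group
          have e2 : a * a = 1 := by rw [← sq]; exact hA.2 a (hBA haB)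
          rw [show x * a * x⁻¹ * a = x * a * (x⁻¹ * a) by group, e1,
            show x * a * (a * x) = x * (a * a) * x by group, e2, mul_one]
        rw [h4]
        exact h3.mul_left h1
      have hall := commute_of_index_le_four (W := W) (fun w hw => hV2 w hw.1) hH₀W hidx
        (y := x * x) (by rw [hord]; exact hxodd) (by rw [hord]; exact hx3)
        (fun w hw => by
          rw [show x * x * w * (x * x)⁻¹ = x * (x * w * x⁻¹) * x⁻¹ by group]
          exact hxW _ (hxW w hw)) hfix
      obtain ⟨w, hw, hxw⟩ := hmove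
      obtain ⟨k, hk⟩ := hxodd
      refine hxw ?_
      have h1 : x = (x * x) ^ (k + 1) := by
        rw [← sq, ← pow_mul, show 2 * (k + 1) = orderOf x + 1 by omega, pow_succ, pow_orderOf_eq_one,
          one_mul]
      rw [h1]
      exact (hall w hw).pow_left _
  have h := key _ A rfl le_rfl
  have h2 := Subgroup.relIndex_mul_relIndex ⊥ (V ⊓ Subgroup.centralizer (A : Set X)) V bot_le
    inf_le_left
  rw [Subgroup.relIndex_bot_left, Subgroup.relIndex_bot_left] at h2
  rw [← h2, mul_comm (Nat.card ↥(V ⊓ Subgroup.centralizer (A : Set X)))] at h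
  have := Nat.le_of_mul_le_mul_right h Nat.card_pos
  omega


end Cfsg.Agent.S3755
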