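import Cfsg.Statements.S3756
import Cfsg.Agent.LAE60.WStrong
-- import your own Cfsg.Agent.* helpers here

set_option autoImplicit false
open Cfsg
set_option linter.unusedVariables false

namespace Cfsg.Agent.S3756

/-- Let G be a finite group of even order with O₂(G) = 1 such that every 2-local subgroup of G is solvable, of characteristic 2, and has no section isomorphic to the symmetric group of degree 4. Then every maximal 2-local subgroup of G is strongly embedded in G. -/
theorem result {G : Type*} [Group G] [Finite G] (heven : Even (Nat.card G)) (hO : Cfsg.pCore 2 G = ⊥) (hloc : ∀ M : Subgroup G, Cfsg.IsTwoLocal M → Group.IsSolvable M ∧ Cfsg.IsOfCharacteristicTwo ↥M ∧ ¬ Cfsg.Involves (Equiv.Perm (Fin 4)) ↥M) (M : Subgroup G) (hM : Cfsg.IsMaximalTwoLocal M) : Cfsg.IsStronglyEmbedded M := by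
  exact Cfsg.Agent.LAE60.W.stronglyEmbedded hO hloc hM

end Cfsg.Agent.S3756
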