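import Cfsg.Statements.S3760

set_option autoImplicit false
open Cfsg

namespace Cfsg.Agent.S3760

/-- Let the group G act transitively on a set X, let x ∈ X with stabilizer H = G_x, and let K ≤ H. Then N_G(K) acts transitively on the set of fixed points of K if and only if every G-conjugate of K contained in H is already an H-conjugate of K. -/
theorem result {G : Type*} [Group G] {X : Type*} [MulAction G X] (htrans : ∀ a b : X, ∃ g : G, g • a = b) (x : X) (K : Subgroup G) (hK : K ≤ MulAction.stabilizer G x) : (∀ a b : X, (∀ k ∈ K, k • a = a) → (∀ k ∈ K, k • b = b) → ∃ g ∈ Subgroup.normalizer (K : Set G), g • a = b) ↔ ∀ g : G, K.map (MulAut.conj g).toMonoidHom ≤ MulAction.stabilizer G x → ∃ h ∈ MulAction.stabilizer G x, K.map (MulAut.conj g).toMonoidHom = K.map (MulAut.conj h).toMonoidHom := by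
  have hconj : ∀ (g k : G), (∀ z, z ∈ K → z • x = x) → k ∈ K → (g * k * g⁻¹) • (g • x) = g • x := by
    intro g k h hk
    rw [mul_smul, mul_smul, inv_smul_smul, h k hk]
  constructor
  · intro h g hg
    have hfix : ∀ k ∈ K, k • (g⁻¹ • x) = g⁻¹ • x := by
      intro k hk
      have := MulAction.mem_stabilizer_iff.mp (hg ⟨k, hk, rfl⟩)
      simp only [MulEquiv.coe_toMonoidHom, MulAut.conj_apply, mul_smul] at this
      exact (eq_inv_smul_iff).mpr this
    obtain ⟨n, hn, hnx⟩ := h x (g⁻¹ • x) (fun k hk => MulAction.mem_stabilizer_iff.mp (hK hk)) hfix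
    refine ⟨g * n, MulAction.mem_stabilizer_iff.mpr (by rw [mul_smul, hnx, smul_inv_smul]), ?_⟩
    ext y
    simp only [Subgroup.mem_map, MulEquiv.coe_toMonoidHom, MulAut.conj_apply]
    constructor
    · rintro ⟨k, hk, rfl⟩
      refine ⟨n⁻¹ * k * n, ?_, by group⟩
      simpa using (Subgroup.mem_normalizer_iff.mp (inv_mem hn) k).mp hk
    · rintro ⟨k, hk, rfl⟩
      exact ⟨n * k * n⁻¹, (Subgroup.mem_normalizer_iff.mp hn k).mp hk, by group⟩
  · intro h a b ha hb
    have key : ∀ a : X, (∀ k ∈ K, k • a = a) →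
        ∃ n ∈ Subgroup.normalizer (K : Set G), n • x = a := by
      intro a ha
      obtain ⟨u, rfl⟩ := htrans x a
      have hle : K.map (MulAut.conj u⁻¹).toMonoidHom ≤ MulAction.stabilizer G x := by
        rintro _ ⟨k, hk, rfl⟩
        simp [MulAut.conj_apply, mul_smul, ha k hk]
      obtain ⟨c, hc, heq⟩ := h u⁻¹ hle
      refine ⟨u * c, Subgroup.mem_normalizer_iff.mpr fun y => ?_,
        by rw [mul_smul, MulAction.mem_stabilizer_iff.mp hc]⟩
      constructor
      · intro hy
        obtain ⟨k, hk, hk'⟩ := heq.ge ⟨y, hy, rfl⟩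
        simp only [MulEquiv.coe_toMonoidHom, MulAut.conj_apply] at hk'
        have : u * c * y * (u * c)⁻¹ = k := by
          calc u * c * y * (u * c)⁻¹ = u * (c * y * c⁻¹) * u⁻¹ := by group
            _ = k := by rw [← hk']; group
        exact this ▸ hk
      · intro hy
        obtain ⟨k, hk, hk'⟩ := heq.le ⟨_, hy, rfl⟩
        simp only [MulEquiv.coe_toMonoidHom, MulAut.conj_apply] at hk'
        have : k = y := by
          calc k = c⁻¹ * (c * k * c⁻¹) * c := by group
            _ = y := by rw [hk']; group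
        exact this ▸ hk
    obtain ⟨n, hn, hna⟩ := key a ha
    obtain ⟨m, hm, hmb⟩ := key b hb
    exact ⟨m * n⁻¹, mul_mem hm (inv_mem hn), by rw [mul_smul, ← hna, inv_smul_smul, hmb]⟩

end Cfsg.Agent.S3760
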