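import Cfsg.Statements.S3761
import Mathlib.NumberTheory.Multiplicity
import Cfsg.Agent.PGroup.Basic
import Cfsg.Agent.PGroup.ClassTwo
import Cfsg.Agent.TwoGroups.Classification

set_option autoImplicit false
open Cfsg
open scoped commutatorElement
set_option linter.style.haveILetI false

namespace Cfsg.Agent.S3761

/-- A congruence: a `p`-th root of unity modulo `p ^ n` is `1` modulo `p ^ (n - 1)`, `p` odd. -/
theorem dvd_sub_one {p : ℕ} (hp : p.Prime) (hodd : p ≠ 2) {n : ℕ} (hn : 1 ≤ n) {r : ℤ}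
    (h : (p : ℤ) ^ n ∣ r ^ p - 1) : (p : ℤ) ^ (n - 1) ∣ r - 1 := by
  haveI : Fact p.Prime := ⟨hp⟩
  have hp' : Prime (p : ℤ) := Nat.prime_iff_prime_int.mp hp
  have h1 : (p : ℤ) ∣ r ^ p - 1 := (dvd_pow_self _ (by omega)).trans h
  have hr1 : (p : ℤ) ∣ r - 1 := by
    rw [← ZMod.intCast_zmod_eq_zero_iff_dvd] at h1 ⊢
    push_cast at h1 ⊢
    rwa [ZMod.pow_card] at h1
  have hr : ¬ (p : ℤ) ∣ r := fun hd => hp'.not_dvd_one (by
    have := dvd_sub hd hr1
    rwa [sub_sub_cancel] at this)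
  have he := emultiplicity_pow_prime_sub_pow_prime (x := r) (y := (1 : ℤ)) hp'
    (hp.odd_of_ne_two hodd) hr1 hr
  rw [one_pow] at he
  rw [pow_dvd_iff_le_emultiplicity] at h ⊢
  rw [he, show n = (n - 1) + 1 by omega, Nat.cast_succ] at h
  exact (ENat.add_le_add_iff_right ENat.one_ne_top).mp h

/-- Square roots of one modulo `2 ^ n`. -/
theorem two_cases {n : ℕ} (hn : 1 ≤ n) {r : ℤ} (h : (2 : ℤ) ^ n ∣ r * r - 1) :
    (2 : ℤ) ^ (n - 1) ∣ r - 1 ∨ (2 : ℤ) ^ (n - 1) ∣ r + 1 := by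
  obtain ⟨k, rfl | rfl⟩ := Int.even_or_odd' r
  · exfalso
    have h2 : (2 : ℤ) ∣ 2 * k * (2 * k) - 1 := (dvd_pow_self _ (by omega)).trans h
    rw [show 2 * k * (2 * k) = 2 * (k * (2 * k)) by ring] at h2
    omega
  · rw [show (2 * k + 1) * (2 * k + 1) - 1 = (2 * 2) * (k * (k + 1)) by ring] at h
    rcases Int.even_or_odd k with hk | hk
    · left
      rw [show 2 * k + 1 - 1 = 2 * k by ring]
      have hcop : IsCoprime ((2 : ℤ) ^ n) (k + 1) := by
        refine IsCoprime.pow_left ((Int.prime_two.coprime_iff_not_dvd).mpr ?_)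
        obtain ⟨j, rfl⟩ := hk
        omega
      have h4 : (2 : ℤ) ^ n ∣ 4 * k := hcop.dvd_of_dvd_mul_right (by
        rw [show 4 * k * (k + 1) = (2 * 2) * (k * (k + 1)) by ring]; exact h)
      rw [show n = (n - 1) + 1 by omega, pow_succ', show (4 : ℤ) * k = 2 * (2 * k) by ring] at h4
      exact (mul_dvd_mul_iff_left two_ne_zero).mp h4
    · right
      rw [show 2 * k + 1 + 1 = 2 * (k + 1) by ring]
      have hcop : IsCoprime ((2 : ℤ) ^ n) k := by
        refine IsCoprime.pow_left ((Int.prime_two.coprime_iff_not_dvd).mpr ?_)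
        obtain ⟨j, rfl⟩ := hk
        omega
      have h4 : (2 : ℤ) ^ n ∣ 4 * (k + 1) := hcop.dvd_of_dvd_mul_left (by
        rw [show k * (4 * (k + 1)) = (2 * 2) * (k * (k + 1)) by ring]; exact h)
      rw [show n = (n - 1) + 1 by omega, pow_succ',
        show (4 : ℤ) * (k + 1) = 2 * (2 * (k + 1)) by ring] at h4
      exact (mul_dvd_mul_iff_left two_ne_zero).mp h4

/-- Let G be a finite non-abelian p-group with a cyclic normal subgroup U of order p^n such that C_G(U) = U. Then either p = 2 and G is dihedral, generalized quaternion or semidihedral of order 2^(n+1); or, writing U₁ for the subgroup generated by the p-th powers of elements of U and M = C_G(U₁), the subgroup U has index p in M and the subgroup Ω₁(M) generated by the elements of M of order dividing p is elementary abelian of order p² and characteristic in G. -/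
theorem result {G : Type*} [Group G] [Finite G] {p : ℕ} [Fact p.Prime] (hG : IsPGroup p G) (hna : ¬ IsMulCommutative G) (U : Subgroup G) [U.Normal] (hU : IsCyclic U) (n : ℕ) (hUn : Nat.card U = p ^ n) (hC : Subgroup.centralizer (U : Set G) = U) : (p = 2 ∧ Nat.card G = 2 ^ (n + 1) ∧ ((∃ m : ℕ, Nonempty (G ≃* DihedralGroup m)) ∨ (∃ m : ℕ, Nonempty (G ≃* QuaternionGroup m)) ∨ Cfsg.IsQuasiDihedral G)) ∨ (U.relIndex (Subgroup.centralizer (Cfsg.powerClosure p 1 U : Set G)) = p ∧ Cfsg.IsElementaryAbelian p (Cfsg.omegaOne p (Subgroup.centralizer (Cfsg.powerClosure p 1 U : Set G))) ∧ Nat.card ↥(Cfsg.omegaOne p (Subgroup.centralizer (Cfsg.powerClosure p 1 U : Set G))) = p ^ 2 ∧ (Cfsg.omegaOne p (Subgroup.centralizer (Cfsg.powerClosure p 1 U : Set G))).Characteristic) := by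

  classical
  have hp := (Fact.out : p.Prime)
  obtain ⟨u, rfl⟩ := (Subgroup.isCyclic_iff_exists_zpowers_eq_top U).mp hU
  rw [Nat.card_zpowers] at hUn
  set U := Subgroup.zpowers u with hUdef
  have huU : u ∈ U := Subgroup.mem_zpowers u
  have hUc : ∀ v ∈ U, Commute v u := fun v hv => by
    obtain ⟨i, rfl⟩ := Subgroup.mem_zpowers_iff.mp hv
    exact (Commute.refl u).zpow_left i
  have hCu : ∀ g : G, Commute g u → g ∈ U := fun g hg => by
    rw [← hC, Subgroup.mem_centralizer_iff]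
    rintro v hv
    obtain ⟨i, rfl⟩ := Subgroup.mem_zpowers_iff.mp hv
    exact (hg.symm.zpow_left i).eq
  have hconjU : ∀ g : G, ∃ r : ℤ, u ^ r = g * u * g⁻¹ := fun g =>
    Subgroup.mem_zpowers_iff.mp ((inferInstance : U.Normal).conj_mem u huU g)
  have hzp : ∀ i : ℤ, u ^ i = 1 ↔ (p : ℤ) ^ n ∣ i := fun i => by
    rw [← orderOf_dvd_iff_zpow_eq_one, hUn, Nat.cast_pow]
  have hzz : ∀ i j : ℤ, u ^ i = u ^ j ↔ (p : ℤ) ^ n ∣ i - j := fun i j => by
    rw [← hzp, zpow_sub, mul_inv_eq_one]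
  have hn2 : 2 ≤ n := by
    by_contra hn
    apply hna
    have hUle : Nat.card U ≤ p := by
      rw [hUdef, Nat.card_zpowers, hUn]
      calc p ^ n ≤ p ^ 1 := Nat.pow_le_pow_right hp.pos (by omega)
        _ = p := pow_one p
    have hUcen : U ≤ Subgroup.center G := by
      rcases eq_or_ne U ⊥ with h | h
      · rw [h]; exact bot_le
      · refine PGroup.le_center_of_card_eq hG ?_
        rcases (hG.to_subgroup U).card_eq_or_dvd with h1 | h1
        · exact absurd (Subgroup.card_eq_one.mp h1) h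
        · exact le_antisymm hUle (Nat.le_of_dvd Nat.card_pos h1)
    refine ⟨⟨fun a b => ?_⟩⟩
    have hall : ∀ g : G, g ∈ U := fun g => hCu g (Subgroup.mem_center_iff.mp (hUcen huU) g)
    obtain ⟨i, rfl⟩ := Subgroup.mem_zpowers_iff.mp (hall a)
    obtain ⟨j, rfl⟩ := Subgroup.mem_zpowers_iff.mp (hall b)
    rw [← zpow_add, ← zpow_add, add_comm]
  have hpcl : Cfsg.powerClosure p 1 U = Subgroup.zpowers (u ^ p) := by
    refine le_antisymm ((Subgroup.closure_le _).mpr ?_) (Subgroup.zpowers_le.mpr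
      (Subgroup.subset_closure ⟨u, huU, by rw [pow_one]⟩))
    rintro y ⟨x, hx, rfl⟩
    obtain ⟨i, rfl⟩ := Subgroup.mem_zpowers_iff.mp hx
    exact ⟨i, by show (u ^ p) ^ i = _; rw [pow_one, ← zpow_natCast, ← zpow_natCast, ← zpow_mul,
      ← zpow_mul, mul_comm]⟩
  rw [hpcl]
  set M := Subgroup.centralizer (Subgroup.zpowers (u ^ p) : Set G) with hMdef
  have hM : ∀ g : G, g ∈ M ↔ Commute g (u ^ p) := fun g => by
    rw [hMdef, Subgroup.mem_centralizer_iff]
    constructor
    · exact fun h => (h _ (Subgroup.mem_zpowers _)).symm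
    · rintro h v hv
      obtain ⟨i, rfl⟩ := Subgroup.mem_zpowers_iff.mp hv
      exact (h.symm.zpow_left i).eq
  have hUM : U ≤ M := fun v hv => (hM v).mpr ((hUc v hv).pow_right p)
  have hpdvd : ∀ i : ℤ, (p : ℤ) ∣ i → u ^ i ∈ Subgroup.zpowers (u ^ p) := by
    rintro i ⟨k, rfl⟩
    exact ⟨k, by show (u ^ p) ^ k = _; rw [zpow_mul, zpow_natCast]⟩
  -- congruences for conjugating exponents
  have hcongr : ∀ (g : G) (r : ℤ), u ^ r = g * u * g⁻¹ → (p : ℤ) ^ (n - 1) ∣ r - 1 → g ∈ M := by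
    intro g r hr hd
    have h1 : g * u ^ p * g⁻¹ = u ^ p := by
      rw [← conj_pow, ← hr, ← zpow_natCast, ← zpow_natCast, ← zpow_mul, hzz,
        show r * (p : ℤ) - p = p * (r - 1) by ring, show n = (n - 1) + 1 by omega, pow_succ']
      exact mul_dvd_mul_left _ hd
    exact (hM g).mpr (mul_inv_eq_iff_eq_mul.mp h1)
  have hiter : ∀ (g : G) (r : ℤ), u ^ r = g * u * g⁻¹ →
      ∀ k : ℕ, g ^ k * u * (g ^ k)⁻¹ = u ^ (r ^ k) := by
    intro g r hr k
    induction k with
    | zero => simp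
    | succ k ih =>
      rw [pow_succ' g, mul_inv_rev,
        show g * g ^ k * u * ((g ^ k)⁻¹ * g⁻¹) = g * (g ^ k * u * (g ^ k)⁻¹) * g⁻¹ by group, ih,
        ← conj_zpow, ← hr, ← zpow_mul, pow_succ' r]
  have hroot : ∀ (g : G) (r : ℤ), u ^ r = g * u * g⁻¹ → g ^ p ∈ U → (p : ℤ) ^ n ∣ r ^ p - 1 := by
    intro g r hr hgp
    have h1 := hiter g r hr p
    rw [(hUc _ hgp).eq, mul_inv_cancel_right] at h1
    rw [← hzz, zpow_one]
    exact h1.symm
  -- the homomorphism measuring the action of `M` on `U`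
  let c : G → G := fun g => g * u * g⁻¹ * u⁻¹
  have hcU : ∀ g : G, c g ∈ U := fun g =>
    mul_mem ((inferInstance : U.Normal).conj_mem u huU g) (inv_mem huU)
  have hcp : ∀ g ∈ M, c g ^ p = 1 := fun g hg => by
    have hcomm : Commute (g * u * g⁻¹) u⁻¹ :=
      (hUc _ ((inferInstance : U.Normal).conj_mem u huU g)).inv_right
    show (g * u * g⁻¹ * u⁻¹) ^ p = 1
    rw [hcomm.mul_pow, conj_pow, ((hM g).mp hg).eq, mul_inv_cancel_right, inv_pow, mul_inv_cancel]
  have htor : ∀ v ∈ U, v ^ p = 1 → v ∈ Subgroup.zpowers (u ^ p) := by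
    intro v hv hvp
    obtain ⟨i, rfl⟩ := Subgroup.mem_zpowers_iff.mp hv
    refine hpdvd i ?_
    rw [← zpow_natCast, ← zpow_mul, hzp, show n = (n - 1) + 1 by omega, pow_succ] at hvp
    exact (dvd_pow_self _ (by omega)).trans
      (Int.dvd_of_mul_dvd_mul_right (by exact_mod_cast hp.ne_zero) hvp)
  have hMcen : ∀ v ∈ Subgroup.zpowers (u ^ p), ∀ g ∈ M, Commute g v := by
    intro v hv g hg
    obtain ⟨i, rfl⟩ := Subgroup.mem_zpowers_iff.mp hv
    exact ((hM g).mp hg).zpow_right i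
  let f : M →* U :=
    { toFun := fun g => ⟨c g, hcU g⟩
      map_one' := Subtype.ext (by simp [c])
      map_mul' := fun a b => Subtype.ext (by
        have h1 : Commute (a : G) (c b) := hMcen _ (htor _ (hcU _) (hcp _ b.2)) _ a.2
        show c ((a : G) * b) = c a * c b
        calc c ((a : G) * b) = (a : G) * (c b) * u * (a : G)⁻¹ * u⁻¹ := by simp only [c]; group
          _ = c b * c a := by rw [h1.eq]; simp only [c]; group
          _ = c a * c b := by
            obtain ⟨i, hi⟩ := Subgroup.mem_zpowers_iff.mp (hcU a)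
            obtain ⟨j, hj⟩ := Subgroup.mem_zpowers_iff.mp (hcU b)
            rw [← hi, ← hj, ← zpow_add, ← zpow_add, add_comm]) }
  have hker : f.ker = U.subgroupOf M := by
    ext g
    rw [MonoidHom.mem_ker, Subgroup.mem_subgroupOf]
    constructor
    · intro h
      have h1 : c g = 1 := congrArg Subtype.val h
      rw [mul_inv_eq_one, mul_inv_eq_iff_eq_mul] at h1
      exact hCu _ h1
    · intro h
      exact Subtype.ext (show c g = 1 by
        simp only [c]; rw [(hUc _ h).eq, mul_inv_cancel_right, mul_inv_cancel])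
  set w := u ^ p ^ (n - 1) with hw
  have hw1 : orderOf w = p := by
    refine orderOf_eq_prime ?_ ?_
    · rw [hw, ← pow_mul, ← pow_succ, show n - 1 + 1 = n by omega, ← hUn, pow_orderOf_eq_one]
    · intro h
      have h1 := orderOf_dvd_of_pow_eq_one h
      rw [hUn, Nat.pow_dvd_pow_iff_le_right hp.one_lt] at h1
      omega
  have htor' : ∀ v : G, v ∈ Subgroup.zpowers w ↔ v ∈ U ∧ v ^ p = 1 := by
    intro v
    constructor
    · intro hv
      obtain ⟨i, rfl⟩ := Subgroup.mem_zpowers_iff.mp hv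
      refine ⟨zpow_mem (pow_mem huU _) i, ?_⟩
      rw [← zpow_natCast (w ^ i), ← zpow_mul, mul_comm, zpow_mul, zpow_natCast, ← hw1,
        pow_orderOf_eq_one, one_zpow]
    · rintro ⟨hv, hvp⟩
      obtain ⟨i, rfl⟩ := Subgroup.mem_zpowers_iff.mp hv
      rw [← zpow_natCast, ← zpow_mul, hzp, show n = (n - 1) + 1 by omega, pow_succ] at hvp
      obtain ⟨k, hk⟩ := Int.dvd_of_mul_dvd_mul_right (by exact_mod_cast hp.ne_zero) hvp
      refine ⟨k, ?_⟩
      show w ^ k = _
      rw [hw, ← zpow_natCast, ← zpow_mul, hk, Nat.cast_pow]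
  have hrange : Nat.card f.range ≤ p := by
    rw [← hw1, ← Nat.card_zpowers, ← Subgroup.card_map_of_injective U.subtype_injective (K := f.range)]
    refine Subgroup.card_le_of_le ?_
    rintro - ⟨-, ⟨g, rfl⟩, rfl⟩
    exact (htor' _).mpr ⟨hcU _, hcp _ g.2⟩
  have hrel : U.relIndex M ≤ p := by
    rw [Subgroup.relIndex, ← hker, Subgroup.index_ker]
    exact hrange
  by_cases hMU : M = U
  · -- the maximal class case
    left
    have hp2 : p = 2 := by
      by_contra hp2
      obtain ⟨g, hgp, hg⟩ : ∃ g : G, g ^ p ∈ U ∧ g ∉ U := by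
        by_contra hcon
        simp only [not_exists, not_and, not_not] at hcon
        apply hna
        have hall : ∀ g : G, g ∈ U := by
          intro g
          obtain ⟨k, hk⟩ := hG g
          have key : ∀ j ≤ k, g ^ p ^ (k - j) ∈ U := by
            intro j
            induction j with
            | zero => intro _; rw [Nat.sub_zero, hk]; exact one_mem _
            | succ j ih =>
              intro hj
              refine hcon _ ?_
              rw [← pow_mul, ← pow_succ, show k - (j + 1) + 1 = k - j by omega]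
              exact ih (by omega)
          simpa using key k le_rfl
        refine ⟨⟨fun a b => ?_⟩⟩
        obtain ⟨i, rfl⟩ := Subgroup.mem_zpowers_iff.mp (hall a)
        obtain ⟨j, rfl⟩ := Subgroup.mem_zpowers_iff.mp (hall b)
        rw [← zpow_add, ← zpow_add, add_comm]
      obtain ⟨r, hr⟩ := hconjU g
      exact hg (hMU ▸ hcongr g r hr (dvd_sub_one hp hp2 (by omega) (hroot g r hr hgp)))
    subst hp2
    have hn3 : 3 ≤ n := by
      by_contra hn3
      apply hna
      have hn : n = 2 := by omega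
      have hsq : u ^ 2 ∈ Subgroup.center G := by
        refine Subgroup.mem_center_iff.mpr fun g => ?_
        obtain ⟨r, hr⟩ := hconjU g
        have hodd : ¬ (2 : ℤ) ∣ r := by
          rintro ⟨j, rfl⟩
          have h1 : (g * u * g⁻¹) ^ 2 = 1 := by
            rw [← hr, ← zpow_natCast, ← zpow_mul, hzp, hn]
            exact ⟨j, by push_cast; ring⟩
          rw [conj_pow, mul_inv_eq_one, mul_eq_left] at h1
          have h2 := orderOf_dvd_of_pow_eq_one h1
          rw [hUn, hn] at h2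
          norm_num at h2
        have h1 : g * u ^ 2 * g⁻¹ = u ^ 2 := by
          rw [← conj_pow, ← hr, ← zpow_natCast, ← zpow_natCast, ← zpow_mul, hzz, hn]
          push_cast
          omega
        exact mul_inv_eq_iff_eq_mul.mp h1
      have hall : ∀ g : G, g ∈ U := fun g =>
        hMU ▸ (hM g).mpr (Subgroup.mem_center_iff.mp hsq g)
      refine ⟨⟨fun a b => ?_⟩⟩
      obtain ⟨i, rfl⟩ := Subgroup.mem_zpowers_iff.mp (hall a)
      obtain ⟨j, rfl⟩ := Subgroup.mem_zpowers_iff.mp (hall b)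
      rw [← zpow_add, ← zpow_add, add_comm]
    have hneg : ∀ g : G, g ^ 2 ∈ U → g ∉ U → ∀ r : ℤ, u ^ r = g * u * g⁻¹ →
        (2 : ℤ) ^ (n - 1) ∣ r + 1 := by
      intro g hg2 hg r hr
      have h1 := hroot g r hr hg2
      rw [sq] at h1
      rcases two_cases (n := n) (r := r) (by omega) (by exact_mod_cast h1) with h | h
      · exact absurd (hMU ▸ hcongr g r hr (by exact_mod_cast h)) hg
      · exact h
    have hinv : ∀ g : G, g ^ 2 ∈ U → g ∉ U → g * u ^ 2 * g⁻¹ = (u ^ 2)⁻¹ := by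
      intro g hg2 hg
      obtain ⟨r, hr⟩ := hconjU g
      rw [← conj_pow, ← hr, ← zpow_natCast, ← zpow_natCast, ← zpow_mul, ← zpow_neg, hzz,
        show r * ((2 : ℕ) : ℤ) - -((2 : ℕ) : ℤ) = ((2 : ℕ) : ℤ) * (r + 1) by ring,
        show n = (n - 1) + 1 by omega, pow_succ']
      exact mul_dvd_mul_left _ (by exact_mod_cast hneg g hg2 hg r hr)
    have hsqU : ∀ g : G, g ^ 2 ∈ U := by
      intro g
      by_contra hcon
      obtain ⟨k, hk⟩ := hG g
      have hex : ∃ j, g ^ 2 ^ j ∈ U := ⟨k, by rw [hk]; exact one_mem _⟩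
      obtain ⟨m, hm⟩ : ∃ m, Nat.find hex = m + 2 := ⟨Nat.find hex - 2, by
        have : 2 ≤ Nat.find hex := by
          rw [Nat.le_find_iff]
          intro j hj hj'
          interval_cases j
          · rw [pow_zero, pow_one] at hj'; exact hcon (pow_mem hj' 2)
          · rw [pow_one] at hj'; exact hcon hj'
        omega⟩
      set y := g ^ 2 ^ m with hy
      have hy2 : y ^ 2 ∉ U := by
        rw [hy, ← pow_mul, ← pow_succ]
        exact Nat.find_min hex (by omega)
      have hy4 : (y ^ 2) ^ 2 ∈ U := by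
        rw [hy, ← pow_mul, ← pow_mul, ← sq, ← pow_add, ← hm]
        exact Nat.find_spec hex
      obtain ⟨s, hs⟩ := hconjU y
      have h1 := hneg _ hy4 hy2 (s ^ 2) (hiter y s hs 2).symm
      have h2 : (4 : ℤ) ∣ s ^ 2 + 1 := by
        refine Dvd.dvd.trans ?_ h1
        rw [show (4 : ℤ) = 2 ^ 2 by norm_num]
        exact pow_dvd_pow _ (by omega)
      rcases Int.even_or_odd' s with ⟨j, rfl | rfl⟩
      · rw [show (2 * j) ^ 2 + 1 = 4 * (j * j) + 1 by ring] at h2; omega
      · rw [show (2 * j + 1) ^ 2 + 1 = 4 * (j * j + j) + 2 by ring] at h2; omega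
    obtain ⟨g₀, hg₀⟩ : ∃ g₀ : G, g₀ ∉ U := by
      by_contra hcon
      simp only [not_exists, not_not] at hcon
      apply hna
      refine ⟨⟨fun a b => ?_⟩⟩
      obtain ⟨i, rfl⟩ := Subgroup.mem_zpowers_iff.mp (hcon a)
      obtain ⟨j, rfl⟩ := Subgroup.mem_zpowers_iff.mp (hcon b)
      rw [← zpow_add, ← zpow_add, add_comm]
    have hidx : U.index = 2 := by
      rw [Subgroup.index_eq_two_iff]
      refine ⟨g₀, fun b => ?_⟩
      by_cases hb : b ∈ U
      · refine Or.inr ⟨hb, fun h => hg₀ ?_⟩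
        have := mul_mem (inv_mem hb) h
        rwa [inv_mul_cancel_left] at this
      · refine Or.inl ⟨hMU ▸ (hM _).mpr ?_, hb⟩
        have e1 := hinv b (hsqU b) hb
        have e2 := hinv g₀ (hsqU g₀) hg₀
        refine mul_inv_eq_iff_eq_mul.mp ?_
        calc b * g₀ * u ^ 2 * (b * g₀)⁻¹ = b * (g₀ * u ^ 2 * g₀⁻¹) * b⁻¹ := by group
          _ = (b * u ^ 2 * b⁻¹)⁻¹ := by rw [e2]; group
          _ = u ^ 2 := by rw [e1, inv_inv]
    have hcard : Nat.card G = 2 ^ (n + 1) := by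
      rw [← U.card_mul_index, hidx, hUdef, Nat.card_zpowers, hUn, pow_succ]
    refine ⟨rfl, hcard, ?_⟩
    have hna' : ∃ x y : G, x * y ≠ y * x := by
      by_contra hcon
      simp only [not_exists, not_not] at hcon
      exact hna ⟨⟨hcon⟩⟩
    rcases Cfsg.Agent.TwoGroups.equiv_of_cyclic_index_two hcard hUn hna' with h | h | h |
      ⟨-, b, hb, -, hba⟩
    · exact Or.inl ⟨_, h⟩
    · exact Or.inr (Or.inl ⟨_, h⟩)
    · exact Or.inr (Or.inr h)
    · refine absurd ?_ hb
      have hbM : b ∈ M := hcongr b ((1 + 2 ^ (n - 1) : ℕ) : ℤ) (by rw [zpow_natCast, hba])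
        (by push_cast; simp)
      rwa [hMU] at hbM
  -- now `M` covers `U` with index `p`
  have hrelp : U.relIndex M = p := by
    obtain ⟨k, hk⟩ : ∃ k, U.relIndex M = p ^ k := by
      obtain ⟨a, ha⟩ := IsPGroup.iff_card.mp (hG.to_subgroup M)
      obtain ⟨k, -, hk⟩ := (Nat.dvd_prime_pow hp).mp (ha ▸ Subgroup.relIndex_dvd_card U M)
      exact ⟨k, hk⟩
    have hk0 : k ≠ 0 := fun h => hMU (le_antisymm
      (Subgroup.relIndex_eq_one.mp (by rw [hk, h, pow_zero])) hUM)
    refine le_antisymm hrel ?_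
    rw [hk]
    exact Nat.le_self_pow hk0 p
  by_cases hexc : p = 2 ∧ n = 2
  · left
    obtain ⟨rfl, rfl⟩ := hexc
    have hMtop : M = ⊤ := by
      refine eq_top_iff.mpr fun g _ => (hM g).mpr ?_
      obtain ⟨r, hr⟩ := hconjU g
      have hodd : ¬ (2 : ℤ) ∣ r := by
        rintro ⟨j, rfl⟩
        have h1 : (g * u * g⁻¹) ^ 2 = 1 := by
          rw [← hr, ← zpow_natCast, ← zpow_mul, hzp]
          exact ⟨j, by push_cast; ring⟩
        rw [conj_pow, mul_inv_eq_one, mul_eq_left] at h1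
        have h2 := orderOf_dvd_of_pow_eq_one h1
        rw [hUn] at h2
        norm_num at h2
      refine mul_inv_eq_iff_eq_mul.mp ?_
      rw [← conj_pow, ← hr, ← zpow_natCast, ← zpow_natCast, ← zpow_mul, hzz]
      push_cast
      omega
    have hcard : Nat.card G = 2 ^ (2 + 1) := by
      rw [← U.card_mul_index, ← Subgroup.relIndex_top_right U, ← hMtop, hrelp, hUdef,
        Nat.card_zpowers, hUn]
      norm_num
    refine ⟨rfl, hcard, ?_⟩
    have hna' : ∃ x y : G, x * y ≠ y * x := by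
      by_contra hcon
      simp only [not_exists, not_not] at hcon
      exact hna ⟨⟨hcon⟩⟩
    rcases Cfsg.Agent.TwoGroups.equiv_of_cyclic_index_two hcard hUn hna' with h | h | h | ⟨h, -⟩
    · exact Or.inl ⟨_, h⟩
    · exact Or.inr (Or.inl ⟨_, h⟩)
    · exact Or.inr (Or.inr h)
    · omega
  right
  refine ⟨hrelp, ?_⟩
  -- power formula in `M`
  have hpow : ∀ x ∈ M, ∀ v ∈ U, (x * v) ^ p = x ^ p * v ^ p * ⁅v, x⁆ ^ p.choose 2 ∧
      ⁅v, x⁆ ∈ U ∧ ⁅v, x⁆ ^ p = 1 := by
    intro x hx v hv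
    have hmem : ⁅v, x⁆ ∈ U := by
      rw [commutatorElement_def, mul_assoc, mul_assoc, ← mul_assoc x]
      exact mul_mem hv ((inferInstance : U.Normal).conj_mem _ (inv_mem hv) x)
    have hp1 : ⁅v, x⁆ ^ p = 1 := by
      have hcm : Commute v (x * v⁻¹ * x⁻¹) := by
        obtain ⟨i, hi⟩ := Subgroup.mem_zpowers_iff.mp
          ((inferInstance : U.Normal).conj_mem _ (inv_mem hv) x)
        rw [← hi]
        exact ((hUc v hv).zpow_right i)
      have hxp : Commute x (v ^ p) := by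
        obtain ⟨i, rfl⟩ := Subgroup.mem_zpowers_iff.mp hv
        rw [← zpow_natCast, ← zpow_mul, mul_comm, zpow_mul, zpow_natCast]
        exact ((hM x).mp hx).zpow_right i
      rw [commutatorElement_def, show v * x * v⁻¹ * x⁻¹ = v * (x * v⁻¹ * x⁻¹) by group,
        hcm.mul_pow, conj_pow, inv_pow, hxp.inv_right.eq, mul_inv_cancel_right, mul_inv_cancel]
    have hcen : (⁅(⟨v, hUM hv⟩ : M), (⟨x, hx⟩ : M)⁆) ∈ Subgroup.center M :=
      Subgroup.mem_center_iff.mpr fun g => Subtype.ext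
        (hMcen _ (htor _ hmem hp1) _ g.2).eq
    refine ⟨?_, hmem, hp1⟩
    exact congrArg Subtype.val
      (PGroup.mul_pow_of_commutatorElement (x := (⟨x, hx⟩ : M)) (y := ⟨v, hUM hv⟩) hcen p)
  have hchoose : p ≠ 2 → ∀ d : G, d ^ p = 1 → d ^ p.choose 2 = 1 := by
    intro h d hd
    obtain ⟨k, hk⟩ := hp.dvd_choose_self two_ne_zero
      (lt_of_le_of_ne hp.two_le (Ne.symm h))
    rw [hk, pow_mul, hd, one_pow]
  obtain ⟨m, hm, hmU⟩ := SetLike.exists_of_lt (lt_of_le_of_ne hUM (Ne.symm hMU))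
  -- an element of order `p` outside `U`
  obtain ⟨b, hb, hbU, hbp⟩ : ∃ b ∈ M, b ∉ U ∧ b ^ p = 1 := by
    have hmp : m ^ p ∈ U := by
      haveI : (U.subgroupOf M).Normal := Subgroup.Normal.subgroupOf inferInstance M
      have h := Subgroup.pow_index_mem (U.subgroupOf M) (⟨m, hm⟩ : M)
      rw [show (U.subgroupOf M).index = p from hrelp] at h
      exact h
    obtain ⟨i, hi⟩ := Subgroup.mem_zpowers_iff.mp hmp
    obtain ⟨k, rfl⟩ : (p : ℤ) ∣ i := by
      by_contra hdi
      refine hmU (hCu m ?_)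
      have hcop : IsCoprime i ((p : ℤ) ^ n) :=
        (((Nat.prime_iff_prime_int.mp hp).coprime_iff_not_dvd).mpr hdi).symm.pow_right
      obtain ⟨s, t, hst⟩ := hcop
      have hu : u = (u ^ i) ^ s := by
        rw [← zpow_mul]
        conv_lhs => rw [← zpow_one u]
        rw [hzz]
        exact ⟨t, by linear_combination -hst⟩
      rw [hu, hi]
      exact (Commute.self_pow m p).zpow_right s
    obtain ⟨hform, hd, hdp⟩ := hpow m hm (u ^ (-k)) (zpow_mem huU _)
    have hb₁ : (m * u ^ (-k)) ^ p = ⁅u ^ (-k), m⁆ ^ p.choose 2 := by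
      rw [hform, ← hi, ← zpow_natCast (u ^ (-k)), ← zpow_mul, ← zpow_add,
        show (p : ℤ) * k + -k * (p : ℤ) = 0 by ring, zpow_zero, one_mul]
    have hb₁M : m * u ^ (-k) ∈ M := mul_mem hm (hUM (zpow_mem huU _))
    have hb₁U : m * u ^ (-k) ∉ U := fun h => hmU (by
      have := mul_mem h (inv_mem (zpow_mem huU (-k)))
      rwa [mul_inv_cancel_right] at this)
    by_cases hp2 : p = 2
    · subst hp2
      rw [Nat.choose_self, pow_one] at hb₁
      have hn3 : 3 ≤ n := by
        rcases Nat.lt_or_ge n 3 with h | h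
        · exact absurd ⟨rfl, by omega⟩ hexc
        · exact h
      by_cases hd1 : ⁅u ^ (-k), m⁆ = 1
      · exact ⟨_, hb₁M, hb₁U, hb₁.trans hd1⟩
      · have hwU : u ^ (2 ^ (n - 2) : ℕ) ∈ U := pow_mem huU _
        obtain ⟨hf2, -, -⟩ := hpow _ hb₁M _ hwU
        have hcw : ⁅u ^ (2 ^ (n - 2) : ℕ), m * u ^ (-k)⁆ = 1 := by
          rw [commutatorElement_eq_one_iff_mul_comm]
          have hz : u ^ (2 ^ (n - 2) : ℕ) ∈ Subgroup.zpowers (u ^ 2) := by
            have h' := hpdvd ((2 ^ (n - 2) : ℕ) : ℤ)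
              (by push_cast; exact dvd_pow_self _ (by omega))
            rwa [zpow_natCast] at h'
          exact ((hMcen _ hz _ hb₁M).eq).symm
        refine ⟨m * u ^ (-k) * u ^ (2 ^ (n - 2) : ℕ), mul_mem hb₁M (hUM hwU), fun h => hb₁U (by
          have := mul_mem h (inv_mem hwU)
          rwa [mul_inv_cancel_right] at this), ?_⟩
        rw [hf2, hcw, one_pow, mul_one, hb₁, ← pow_mul, ← pow_succ,
          show n - 2 + 1 = n - 1 by omega]
        obtain ⟨j, hj⟩ := Subgroup.mem_zpowers_iff.mp hd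
        rw [← hj, ← zpow_natCast, ← zpow_mul, hzp] at hdp
        rw [← hj, hzp] at hd1
        rw [← hj, ← zpow_natCast, ← zpow_add, hzp]
        push_cast at hdp hd1 ⊢
        rw [show (2 : ℤ) ^ n = 2 ^ (n - 1) * 2 by rw [← pow_succ]; congr 1; omega] at hdp hd1 ⊢
        obtain ⟨q, hq⟩ := Int.dvd_of_mul_dvd_mul_right (two_ne_zero) hdp
        rcases Int.even_or_odd' q with ⟨q', rfl | rfl⟩
        · exact absurd ⟨q', by rw [hq]; ring⟩ hd1
        · exact ⟨q' + 1, by rw [hq]; ring⟩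
    · exact ⟨_, hb₁M, hb₁U, by rw [hb₁, hchoose hp2 _ hdp]⟩
  -- every solution of `x ^ p = 1` in `M`
  have hform : ∀ x ∈ M, x ^ p = 1 → ∃ (j : ℤ) (v : G), x = b ^ j * v ∧ v ∈ U ∧ v ^ p = 1 := by
    intro x hx hxp
    have hfb : f ⟨b, hb⟩ ≠ 1 := fun h => hbU (by
      have h1 : (⟨b, hb⟩ : M) ∈ f.ker := h
      rw [hker] at h1; exact h1)
    have hgen : f.range = Subgroup.zpowers (f ⟨b, hb⟩) := by
      refine (Subgroup.eq_of_le_of_card_ge (Subgroup.zpowers_le.mpr (MonoidHom.mem_range.mpr ⟨_, rfl⟩)) ?_).symm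
      rw [Nat.card_zpowers, orderOf_eq_prime (p := p) (Subtype.ext (hcp _ hb)) hfb]
      exact hrange
    obtain ⟨j, hj⟩ := Subgroup.mem_zpowers_iff.mp (hgen ▸ MonoidHom.mem_range.mpr ⟨⟨x, hx⟩, rfl⟩ :
      f ⟨x, hx⟩ ∈ Subgroup.zpowers (f ⟨b, hb⟩))
    have hv : (b ^ j)⁻¹ * x ∈ U := by
      have h1 : (⟨b, hb⟩ : M) ^ (-j) * ⟨x, hx⟩ ∈ f.ker := by
        rw [MonoidHom.mem_ker, map_mul, map_zpow, ← hj, ← zpow_add, neg_add_cancel, zpow_zero]
      rw [hker, Subgroup.mem_subgroupOf] at h1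
      simpa using h1
    refine ⟨j, (b ^ j)⁻¹ * x, by group, hv, ?_⟩
    have hbj : b ^ j ∈ M := zpow_mem hb j
    obtain ⟨h1, h2, h3⟩ := hpow _ hbj _ hv
    rw [mul_inv_cancel_left, hxp, ← zpow_natCast (b ^ j), ← zpow_mul, mul_comm, zpow_mul,
      zpow_natCast, hbp, one_zpow, one_mul] at h1
    by_cases hp2 : p = 2
    · subst hp2
      rw [Nat.choose_self, pow_one] at h1
      suffices hd : ⁅(b ^ j)⁻¹ * x, b ^ j⁆ = 1 by rw [hd, mul_one] at h1; exact h1.symm
      rw [commutatorElement_eq_one_iff_mul_comm]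
      refine ((hMcen _ ?_ _ hbj).eq).symm
      obtain ⟨i, hi⟩ := Subgroup.mem_zpowers_iff.mp hv
      have h4 : ((b ^ j)⁻¹ * x) ^ 4 = 1 := by
        rw [show (4 : ℕ) = 2 * 2 by norm_num, pow_mul, eq_inv_of_mul_eq_one_left h1.symm, inv_pow,
          h3, inv_one]
      rw [← hi] at h4 ⊢
      refine hpdvd i ?_
      rw [← zpow_natCast, ← zpow_mul, hzp] at h4
      push_cast at h4
      have hn3 : 3 ≤ n := by
        rcases Nat.lt_or_ge n 3 with h | h
        · exact absurd ⟨rfl, by omega⟩ hexc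
        · exact h
      have h8 : (8 : ℤ) ∣ i * 4 := by
        refine Dvd.dvd.trans ?_ h4
        rw [show (8 : ℤ) = 2 ^ 3 by norm_num]
        exact pow_dvd_pow _ hn3
      omega
    · rw [hchoose hp2 _ h3, mul_one] at h1
      exact h1.symm
  have hbv : ∀ v ∈ U, v ^ p = 1 → ∀ i : ℤ, Commute (b ^ i) v := fun v hv hvp i =>
    (hMcen v (htor v hv hvp) b hb).zpow_left i
  let E : Subgroup G :=
    { carrier := {x | x ∈ M ∧ x ^ p = 1}
      one_mem' := ⟨one_mem _, one_pow p⟩
      mul_mem' := by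
        rintro x y ⟨hx, hxp⟩ ⟨hy, hyp⟩
        refine ⟨mul_mem hx hy, ?_⟩
        obtain ⟨j, v, rfl, hv, hvp⟩ := hform x hx hxp
        obtain ⟨i, w, rfl, hw, hwp⟩ := hform y hy hyp
        have hvw : Commute v w := by
          obtain ⟨s, rfl⟩ := Subgroup.mem_zpowers_iff.mp hv
          obtain ⟨t, rfl⟩ := Subgroup.mem_zpowers_iff.mp hw
          exact (Commute.refl u).zpow_zpow s t
        have : Commute (b ^ j * v) (b ^ i * w) :=
          (((Commute.refl b).zpow_zpow j i).mul_right (hbv w hw hwp j)).mul_left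
            (((hbv v hv hvp i).symm).mul_right hvw)
        rw [this.mul_pow, hxp, hyp, mul_one]
      inv_mem' := fun {x} ⟨hx, hxp⟩ => ⟨inv_mem hx, by rw [inv_pow, hxp, inv_one]⟩ }
  have hom : Cfsg.omegaOne p M = E :=
    le_antisymm ((Subgroup.closure_le _).mpr fun x hx => hx)
      fun x hx => Subgroup.subset_closure hx
  rw [hom]
  have hEab : IsMulCommutative E := by
    refine ⟨⟨fun x y => Subtype.ext ?_⟩⟩
    obtain ⟨j, v, hxe, hv, hvp⟩ := hform x x.2.1 x.2.2
    obtain ⟨i, w, hye, hw, hwp⟩ := hform y y.2.1 y.2.2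
    have hvw : Commute v w := by
      obtain ⟨s, rfl⟩ := Subgroup.mem_zpowers_iff.mp hv
      obtain ⟨t, rfl⟩ := Subgroup.mem_zpowers_iff.mp hw
      exact (Commute.refl u).zpow_zpow s t
    show (x : G) * y = y * x
    rw [hxe, hye]
    exact ((((Commute.refl b).zpow_zpow j i).mul_right (hbv w hw hwp j)).mul_left
      (((hbv v hv hvp i).symm).mul_right hvw)).eq
  have hEcard : Nat.card E = p ^ 2 := by
    have hEM : E ≤ M := fun x hx => hx.1
    let ψ : E →* U := f.comp (Subgroup.inclusion hEM)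
    have h1 := Subgroup.card_mul_index (MonoidHom.ker ψ)
    rw [Subgroup.index_ker] at h1
    have hran : Nat.card ψ.range = p := by
      have hψb : ψ ⟨b, hb, hbp⟩ ≠ 1 := fun h => hbU (by
        have h1 : (⟨b, hb⟩ : M) ∈ f.ker := h
        rw [hker] at h1; exact h1)
      refine le_antisymm ((Subgroup.card_le_of_le (by rintro - ⟨x, rfl⟩; exact MonoidHom.mem_range.mpr ⟨_, rfl⟩ : ψ.range ≤ f.range)).trans
        hrange) ?_
      calc p = Nat.card (Subgroup.zpowers (ψ ⟨b, hb, hbp⟩)) := by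
            rw [Nat.card_zpowers, orderOf_eq_prime (p := p) (Subtype.ext (hcp _ hb)) hψb]
        _ ≤ _ := Subgroup.card_le_of_le (Subgroup.zpowers_le.mpr (MonoidHom.mem_range.mpr ⟨_, rfl⟩))
    have hkc : Nat.card ψ.ker = p := by
      have hk : ψ.ker = (Subgroup.zpowers w).subgroupOf E := by
        ext x
        rw [MonoidHom.mem_ker, Subgroup.mem_subgroupOf, htor']
        have h1 : ψ x = 1 ↔ (Subgroup.inclusion hEM x : M) ∈ f.ker := Iff.rfl
        rw [h1, hker, Subgroup.mem_subgroupOf]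
        exact ⟨fun h => ⟨h, x.2.2⟩, fun h => h.1⟩
      rw [hk, Nat.card_congr (Subgroup.subgroupOfEquivOfLe ?_).toEquiv, Nat.card_zpowers, hw1]
      intro v hv
      exact ⟨hUM ((htor' v).mp hv).1, ((htor' v).mp hv).2⟩
    rw [hkc, hran] at h1
    rw [← h1, sq]
  refine ⟨⟨hEab, fun x hx => hx.2⟩, hEcard, Subgroup.characteristic_iff_map_le.mpr fun φ => ?_⟩
  rintro - ⟨x, ⟨hx, hxp⟩, rfl⟩
  have hyp : (φ x) ^ p = 1 := by rw [← map_pow, hxp, map_one]
  refine ⟨?_, hyp⟩
  haveI hUp : (Subgroup.zpowers (u ^ p)).Normal := ⟨fun v hv g => by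
    obtain ⟨i, rfl⟩ := Subgroup.mem_zpowers_iff.mp hv
    obtain ⟨r, hr⟩ := hconjU g
    rw [← conj_zpow, ← conj_pow, ← hr, ← zpow_natCast (u ^ r), ← zpow_mul, ← zpow_mul]
    exact hpdvd _ ⟨r * i, by ring⟩⟩
  have hMn : M.Normal := inferInstance
  -- `φ u` moves into the conjugate fourgroup
  set y := φ x with hy
  have hE' : y * u * y⁻¹ * u⁻¹ ∈ E.map φ.toMonoidHom := by
    refine ⟨x * (φ.symm u * x⁻¹ * (φ.symm u)⁻¹), ?_, ?_⟩
    · exact mul_mem (show x ∈ E from ⟨hx, hxp⟩)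
        ⟨hMn.conj_mem _ (inv_mem hx) _, by rw [conj_pow, inv_pow, hxp, inv_one, mul_one,
          mul_inv_cancel]⟩
    · show φ (x * (φ.symm u * x⁻¹ * (φ.symm u)⁻¹)) = _
      simp only [map_mul, map_inv, MulEquiv.apply_symm_apply, ← hy]
      group
  obtain ⟨e, he, hee⟩ := hE'
  have hc1 : (y * u * y⁻¹ * u⁻¹) ^ p = 1 := by
    rw [← hee]
    show φ e ^ p = 1
    rw [← map_pow, he.2, map_one]
  have hcomm : Commute (y * u * y⁻¹) u⁻¹ :=
    (hUc _ ((inferInstance : U.Normal).conj_mem u huU y)).inv_right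
  rw [hcomm.mul_pow, conj_pow, inv_pow, mul_inv_eq_one] at hc1
  exact (hM y).mpr (mul_inv_eq_iff_eq_mul.mp hc1)


end Cfsg.Agent.S3761
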