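import Cfsg.Statements.S3762
import Cfsg.Agent.S3761
import Cfsg.Agent.PGroup.SymplecticType

set_option autoImplicit false
open Cfsg
open scoped commutatorElement
set_option linter.style.haveILetI false

namespace Cfsg.Agent.S3762

/-- Let G be a finite p-group of symplectic type: every characteristic abelian subgroup of G is cyclic. Then G = E ∗ R is a central product of subgroups E and R (they commute elementwise and generate G) where E is extraspecial or trivial, and R is cyclic, or p = 2 and R is dihedral, semidihedral or generalized quaternion of order at least 16. -/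
theorem result {G : Type*} [Group G] [Finite G] {p : ℕ} [Fact p.Prime] (hG : IsPGroup p G) (hsymp : ∀ A : Subgroup G, A.Characteristic → IsMulCommutative A → IsCyclic A) : ∃ E R : Subgroup G, (∀ e ∈ E, ∀ r ∈ R, e * r = r * e) ∧ E ⊔ R = ⊤ ∧ (E = ⊥ ∨ Cfsg.IsExtraspecial p ↥E) ∧ (IsCyclic R ∨ (p = 2 ∧ 16 ≤ Nat.card R ∧ ((∃ m : ℕ, Nonempty (↥R ≃* DihedralGroup m)) ∨ (∃ m : ℕ, Nonempty (↥R ≃* QuaternionGroup m)) ∨ Cfsg.IsQuasiDihedral ↥R))) := by

  classical
  have hp := (Fact.out : p.Prime)
  obtain ⟨E, u, hE, huchar, hEn, hER, hRu, hEu, hgE, hEp⟩ :=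
    PGroup.Symp.exists_decomposition hG hsymp
  set R := Subgroup.centralizer (E : Set G) with hRdef
  have hcomm : ∀ e ∈ E, ∀ r ∈ R, e * r = r * e := fun e he r hr =>
    Subgroup.mem_centralizer_iff.mp hr e he
  have hRmem : ∀ r ∈ R, Commute r u → r ∈ Subgroup.zpowers u := fun r hr h =>
    hRu.le ⟨hr, Subgroup.mem_centralizer_singleton_iff.mpr h.eq⟩
  have huR : u ∈ R := (hRu.ge (Subgroup.mem_zpowers u)).1
  by_cases hRc : IsCyclic R
  · exact ⟨E, R, hcomm, hER, hE, Or.inl hRc⟩
  have hRU : ∃ r ∈ R, r ∉ Subgroup.zpowers u := by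
    by_contra hcon
    simp only [not_exists, not_and, not_not] at hcon
    have heq : R = Subgroup.zpowers u := le_antisymm hcon (Subgroup.zpowers_le.mpr huR)
    rw [heq] at hRc
    exact hRc (Subgroup.isCyclic_zpowers u)
  obtain ⟨r₀, hr₀, hr₀u⟩ := hRU
  obtain ⟨n, hn⟩ : ∃ n, orderOf u = p ^ n := by
    obtain ⟨n, hn⟩ := IsPGroup.iff_card.mp (hG.to_subgroup (Subgroup.zpowers u))
    exact ⟨n, by rw [← hn, Nat.card_zpowers]⟩
  haveI : (Subgroup.zpowers u).Normal := Subgroup.normal_of_characteristic _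
  have hn2 : 2 ≤ n := by
    by_contra hlt
    refine hr₀u (hRmem r₀ hr₀ ?_)
    interval_cases n
    · rw [show u = 1 from orderOf_eq_one_iff.mp (by rw [hn, pow_zero])]
      exact Commute.one_right r₀
    · exact Subgroup.mem_center_iff.mp (PGroup.le_center_of_card_eq hG
        (by rw [Nat.card_zpowers, hn, pow_one]) (Subgroup.mem_zpowers u)) r₀
  set z := u ^ p ^ (n - 1) with hzdef
  have hzo : orderOf z = p := PGroup.Symp.orderOf_top_pow (by omega) hn
  haveI hzchar : (Subgroup.zpowers z).Characteristic := PGroup.Symp.char_zpowers_pow huchar _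
  have hzc : ∀ c ∈ Subgroup.zpowers z, ∀ g : G, Commute g c := fun c hc g =>
    Subgroup.mem_center_iff.mp (PGroup.le_center_of_card_eq hG
      (by rw [Nat.card_zpowers, hzo]) hc) g
  have hzu1 : Subgroup.zpowers z ≤ Subgroup.zpowers (u ^ p) := Subgroup.zpowers_le.mpr
    ⟨(p : ℤ) ^ (n - 2), by
      show (u ^ p) ^ ((p : ℤ) ^ (n - 2)) = z
      rw [← zpow_natCast, ← zpow_mul, hzdef, ← zpow_natCast, Nat.cast_pow, ← pow_succ']
      congr 2; omega⟩
  -- facts from an element of `R` acting as a non-trivial transvection on `⟨u⟩`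
  have hN : ∀ b ∈ R, b ∉ Subgroup.zpowers u → Commute b (u ^ p) →
      (∀ x y : G, Commute x (u ^ p) → Commute y (u ^ p) → ⁅x, y⁆ ∈ Subgroup.zpowers z) ∧
      (∀ x : G, Commute x (u ^ p) → x ^ p ∈ Subgroup.zpowers (u ^ p)) ∧
      (∀ x : G, Commute x (u ^ p) → (∀ y : G, Commute y (u ^ p) → Commute x y) →
        x ∈ Subgroup.zpowers (u ^ p)) := by
    intro b hb hbu hbp
    have hcmem : ∀ x : G, Commute x (u ^ p) → ⁅x, u⁆ ∈ Subgroup.zpowers z := by
      intro x hx
      have h1 : x * u * x⁻¹ ∈ Subgroup.zpowers u :=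
        (inferInstance : (Subgroup.zpowers u).Normal).conj_mem u (Subgroup.mem_zpowers u) x
      refine PGroup.Symp.mem_zpowers_of_pow_eq_one (by omega) hn
        (mul_mem h1 (inv_mem (Subgroup.mem_zpowers u))) ?_
      obtain ⟨i, hi⟩ := Subgroup.mem_zpowers_iff.mp h1
      have h2 : Commute (x * u * x⁻¹) u⁻¹ := hi ▸ ((Commute.refl u).zpow_left i).inv_right
      rw [commutatorElement_def, h2.mul_pow, conj_pow, hx.eq, mul_inv_cancel_right, inv_pow,
        mul_inv_cancel]
    set c := ⁅b, u⁆ with hcdef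
    have hc : c ∈ Subgroup.zpowers z := hcmem b hbp
    have hc1 : c ≠ 1 := fun h => hbu (hRmem b hb (commutatorElement_eq_one_iff_mul_comm.mp h))
    have hcgen : Subgroup.zpowers c = Subgroup.zpowers z := by
      refine Subgroup.eq_of_le_of_card_ge (Subgroup.zpowers_le.mpr hc) ?_
      obtain ⟨i, hi⟩ := Subgroup.mem_zpowers_iff.mp hc
      rw [Nat.card_zpowers, Nat.card_zpowers, hzo]
      exact le_of_eq (orderOf_eq_prime (by
        rw [← hi, ← zpow_natCast (z ^ i), ← zpow_mul, mul_comm, zpow_mul, zpow_natCast, ← hzo,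
          pow_orderOf_eq_one, one_zpow]) hc1).symm
    have hbu' : b * u * b⁻¹ = c * u := by rw [hcdef]; group
    have hiter : ∀ k : ℕ, b ^ k * u * (b ^ k)⁻¹ = c ^ k * u := by
      intro k
      induction k with
      | zero => simp
      | succ k ih =>
        calc b ^ (k + 1) * u * (b ^ (k + 1))⁻¹ = b * (b ^ k * u * (b ^ k)⁻¹) * b⁻¹ := by
              rw [pow_succ']; group
          _ = b * c ^ k * u * b⁻¹ := by rw [ih]; group
          _ = c ^ k * (b * u * b⁻¹) := by rw [(hzc _ (pow_mem hc k) b).eq]; group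
          _ = c ^ (k + 1) * u := by rw [hbu', ← mul_assoc, pow_succ]
    have hbpu : b ^ p ∈ Subgroup.zpowers (u ^ p) := by
      have hcp : c ^ p = 1 := by
        obtain ⟨i, hi⟩ := Subgroup.mem_zpowers_iff.mp hc
        rw [← hi, ← zpow_natCast (z ^ i), ← zpow_mul, mul_comm, zpow_mul, zpow_natCast, ← hzo,
          pow_orderOf_eq_one, one_zpow]
      have h1 := hiter p
      rw [hcp, one_mul, mul_inv_eq_iff_eq_mul] at h1
      obtain ⟨i, hi⟩ := Subgroup.mem_zpowers_iff.mp (hRmem _ (pow_mem hb p) h1)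
      by_cases hpi : (p : ℤ) ∣ i
      · obtain ⟨k, rfl⟩ := hpi
        exact ⟨k, by show (u ^ p) ^ k = _; rw [← hi, zpow_mul, zpow_natCast]⟩
      · exfalso
        have hcop : IsCoprime i ((p : ℤ) ^ n) :=
          (((Nat.prime_iff_prime_int.mp hp).coprime_iff_not_dvd).mpr hpi).symm.pow_right
        obtain ⟨s, t, hst⟩ := hcop
        refine hbu (hRmem b hb ?_)
        have hu : u = (u ^ i) ^ s := by
          have h0 : u ^ ((p : ℤ) ^ n) = 1 := by
            rw [← Nat.cast_pow, zpow_natCast, ← hn, pow_orderOf_eq_one]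
          calc u = u ^ (s * i + t * (p : ℤ) ^ n) := by rw [hst, zpow_one]
            _ = (u ^ i) ^ s := by
              rw [zpow_add, mul_comm t, zpow_mul u ((p : ℤ) ^ n), h0, one_zpow, mul_one,
                mul_comm, zpow_mul]
        rw [hu, hi]
        exact (Commute.self_pow b p).zpow_right s
    set N := Subgroup.centralizer ({u ^ p} : Set G) with hNdef
    have hNmem : ∀ x, x ∈ N ↔ Commute x (u ^ p) := fun x =>
      Subgroup.mem_centralizer_singleton_iff
    have hbN : b ∈ N := (hNmem b).mpr hbp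
    have hEN : E ≤ N := fun e he => (hNmem e).mpr ((hEu e he).pow_right p)
    have huN : u ∈ N := (hNmem u).mpr ((Commute.refl u).pow_right p)
    set S := Subgroup.closure ((E : Set G) ∪ {b, u}) with hSdef
    have hES : E ≤ S := fun e he => Subgroup.subset_closure (Or.inl he)
    have hbS : b ∈ S := Subgroup.subset_closure (Or.inr (Or.inl rfl))
    have huS : u ∈ S := Subgroup.subset_closure (Or.inr (Or.inr rfl))
    have hNS : N ≤ S := by
      intro x hx
      have hxtop : x ∈ E ⊔ R := hER ▸ Subgroup.mem_top x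
      obtain ⟨e, he, r, hr, rfl⟩ := Subgroup.mem_sup_of_normal_left.mp hxtop
      have hrN : r ∈ N := by
        have := mul_mem (inv_mem (hEN he)) hx
        rwa [inv_mul_cancel_left] at this
      obtain ⟨j, hj⟩ := Subgroup.mem_zpowers_iff.mp
        (show ⁅r, u⁆ ∈ Subgroup.zpowers c from hcgen ▸ hcmem r ((hNmem r).mp hrN))
      obtain ⟨k, hk⟩ : ∃ k : ℕ, c ^ k = c ^ j := mem_powers_iff_mem_zpowers.mpr ⟨j, rfl⟩
      have h2 : (b ^ k)⁻¹ * r ∈ Subgroup.zpowers u := by
        refine hRmem _ (mul_mem (inv_mem (pow_mem hb k)) hr) ?_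
        have e1 : r * u * r⁻¹ = b ^ k * u * (b ^ k)⁻¹ := by
          rw [hiter k, hk, hj]; group
        show (b ^ k)⁻¹ * r * u = u * ((b ^ k)⁻¹ * r)
        calc (b ^ k)⁻¹ * r * u = (b ^ k)⁻¹ * (r * u * r⁻¹) * r := by group
          _ = u * ((b ^ k)⁻¹ * r) := by rw [e1]; group
      obtain ⟨i, hi⟩ := Subgroup.mem_zpowers_iff.mp h2
      have h3 : r = b ^ k * u ^ i := by rw [hi]; group
      rw [h3]
      exact mul_mem (hES he) (mul_mem (pow_mem hbS k) (zpow_mem huS i))
    haveI : (Subgroup.zpowers z).Normal := Subgroup.normal_of_characteristic _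
    set π := QuotientGroup.mk' (Subgroup.zpowers z) with hπdef
    have hπ : ∀ x y : G, π x * π y = π y * π x ↔ ⁅x, y⁆ ∈ Subgroup.zpowers z := fun x y => by
      rw [← commutatorElement_eq_one_iff_mul_comm, ← map_commutatorElement]
      exact QuotientGroup.eq_one_iff _
    haveI hSab : IsMulCommutative (Subgroup.closure (π '' ((E : Set G) ∪ {b, u}))) := by
      refine Subgroup.isMulCommutative_closure ?_
      have h1 : ∀ x ∈ (E : Set G) ∪ {b, u}, ∀ e ∈ E, π x * π e = π e * π x := fun x _ e he =>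
        (hπ x e).mpr (hgE x e he n (by omega) hn)
      rintro - ⟨x, hx, rfl⟩ - ⟨y, hy, rfl⟩
      rcases hy with hy | rfl | rfl
      · exact h1 x hx y hy
      · rcases hx with hx | rfl | rfl
        · exact (h1 _ (Or.inr (Or.inl rfl)) x hx).symm
        · rfl
        · exact ((hπ _ _).mpr hc).symm
      · rcases hx with hx | rfl | rfl
        · exact (h1 _ (Or.inr (Or.inr rfl)) x hx).symm
        · exact (hπ _ _).mpr hc
        · rfl
    have hcom : ∀ x ∈ N, ∀ y ∈ N, ⁅x, y⁆ ∈ Subgroup.zpowers z := by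
      intro x hx y hy
      have hx' : π x ∈ Subgroup.closure (π '' ((E : Set G) ∪ {b, u})) := by
        rw [← MonoidHom.map_closure]; exact ⟨x, hNS hx, rfl⟩
      have hy' : π y ∈ Subgroup.closure (π '' ((E : Set G) ∪ {b, u})) := by
        rw [← MonoidHom.map_closure]; exact ⟨y, hNS hy, rfl⟩
      exact (hπ x y).mp (congrArg Subtype.val (hSab.is_comm.comm ⟨_, hx'⟩ ⟨_, hy'⟩))
    refine ⟨fun x y hx hy => hcom x ((hNmem x).mpr hx) y ((hNmem y).mpr hy), ?_, ?_⟩
    · intro x hx
      have hSN : S ≤ N := (Subgroup.closure_le _).mpr (Set.union_subset hEN (by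
        rintro y (rfl | rfl)
        · exact hbN
        · exact huN))
      have hx' := hNS ((hNmem x).mpr hx)
      clear hx
      induction hx' using Subgroup.closure_induction with
      | mem y hy =>
        rcases hy with hy | rfl | rfl
        · exact hzu1 (hEp y hy n (by omega) hn)
        · exact hbpu
        · exact Subgroup.mem_zpowers _
      | one => rw [one_pow]; exact one_mem _
      | mul y w hy hw ihy ihw =>
        rw [PGroup.Symp.mul_pow_within N (hSN hy) (hSN hw)
          (fun h _ => hzc _ (hcom w (hSN hw) y (hSN hy)) h) p]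
        exact mul_mem (mul_mem ihy ihw) (pow_mem (hzu1 (hcom w (hSN hw) y (hSN hy))) _)
      | inv y hy ihy => rw [inv_pow]; exact inv_mem ihy
    · intro x hx hall
      have hxR : x ∈ R := Subgroup.mem_centralizer_iff.mpr fun e he =>
        (hall e ((hEu e he).pow_right p)).eq.symm
      obtain ⟨i, hi⟩ := Subgroup.mem_zpowers_iff.mp
        (hRmem x hxR (hall u ((Commute.refl u).pow_right p)))
      have h1 : Commute x b := hall b hbp
      have h2 : c ^ i = 1 := by
        have h3 : (c * u) ^ i = c ^ i * u ^ i := ((hzc c hc u).symm).mul_zpow i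
        rw [← hbu', conj_zpow, hi, h1.symm.eq, mul_inv_cancel_right] at h3
        exact mul_eq_right.mp h3.symm
      have h4 : ((orderOf c : ℕ) : ℤ) ∣ i := orderOf_dvd_iff_zpow_eq_one.mpr h2
      rw [show orderOf c = p by
        rw [← Nat.card_zpowers, hcgen, Nat.card_zpowers, hzo]] at h4
      obtain ⟨k, rfl⟩ := h4
      exact ⟨k, by show (u ^ p) ^ k = x; rw [← hi, zpow_mul, zpow_natCast]⟩
  by_cases hn3 : n = 2
  · -- `G` itself is extraspecial
    have hup : u ^ p = z := by rw [hzdef, hn3, show (2 : ℕ) - 1 = 1 from rfl, pow_one]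
    have hallp : ∀ g : G, Commute g (u ^ p) := fun g =>
      hzc _ (hup ▸ Subgroup.mem_zpowers z) g
    obtain ⟨h1, h2, h3⟩ := hN r₀ hr₀ hr₀u (hallp r₀)
    have hcen : Subgroup.center G = Subgroup.zpowers z := by
      refine le_antisymm (fun x hx => hup ▸ h3 x (hallp x) fun y _ =>
        (Subgroup.mem_center_iff.mp hx y).symm) fun x hx => Subgroup.mem_center_iff.mpr fun g => ?_
      exact hzc x hx g
    refine ⟨⊤, ⊥, fun e _ r hr => by rw [Subgroup.mem_bot.mp hr, one_mul, mul_one],
      top_sup_eq _, Or.inr ?_, Or.inl inferInstance⟩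
    have hpt : IsPGroup p ↥(⊤ : Subgroup G) := hG.to_subgroup ⊤
    have hct : ∀ x : ↥(⊤ : Subgroup G),
        x ∈ Subgroup.center ↥(⊤ : Subgroup G) ↔ (x : G) ∈ Subgroup.center G := fun x => by
      rw [Subgroup.mem_center_iff, Subgroup.mem_center_iff]
      exact ⟨fun h g => congrArg Subtype.val (h ⟨g, Subgroup.mem_top g⟩),
        fun h g => Subtype.ext (h g)⟩
    refine PGroup.isExtraspecial_of_center hpt ?_ ?_ ?_ fun x => ?_
    · rw [show Subgroup.center ↥(⊤ : Subgroup G) = (Subgroup.center G).subgroupOf ⊤ from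
        Subgroup.ext hct, Nat.card_congr (Subgroup.subgroupOfEquivOfLe le_top).toEquiv, hcen,
        Nat.card_zpowers, hzo]
    · intro h
      exact hr₀u (hRmem r₀ hr₀ (congrArg Subtype.val
        (h.is_comm.comm ⟨r₀, Subgroup.mem_top _⟩ ⟨u, Subgroup.mem_top _⟩)))
    · rw [commutator_eq_closure, Subgroup.closure_le]
      rintro _ ⟨a, b, rfl⟩
      rw [SetLike.mem_coe, hct, hcen]
      exact h1 a b (hallp _) (hallp _)
    · rw [hct, hcen, ← hup]
      exact h2 x (hallp _)
  -- the remaining case: `R` has maximal class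
  have hn3' : 3 ≤ n := by omega
  set U := (Subgroup.zpowers u).subgroupOf R with hUdef
  haveI : U.Normal := Subgroup.Normal.subgroupOf inferInstance R
  have hUcyc : IsCyclic U := by
    haveI : IsCyclic (Subgroup.zpowers u) := Subgroup.isCyclic_zpowers u
    exact (Subgroup.subgroupOfEquivOfLe (Subgroup.zpowers_le.mpr huR)).isCyclic.mpr inferInstance
  have hCU : Subgroup.centralizer (U : Set R) = U := by
    ext x
    rw [Subgroup.mem_centralizer_iff]
    constructor
    · intro h
      refine Subgroup.mem_subgroupOf.mpr (hRmem x x.2 ?_)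
      exact (congrArg Subtype.val (h ⟨u, huR⟩ (Subgroup.mem_subgroupOf.mpr
        (Subgroup.mem_zpowers u)))).symm
    · intro hx y hy
      obtain ⟨i, hi⟩ := Subgroup.mem_zpowers_iff.mp (Subgroup.mem_subgroupOf.mp hx)
      obtain ⟨j, hj⟩ := Subgroup.mem_zpowers_iff.mp (Subgroup.mem_subgroupOf.mp hy)
      refine Subtype.ext ?_
      show (y : G) * x = x * y
      rw [← hi, ← hj, ← zpow_add, ← zpow_add, add_comm]
  have hUn : Nat.card U = p ^ n := by
    rw [Nat.card_congr (Subgroup.subgroupOfEquivOfLe (Subgroup.zpowers_le.mpr huR)).toEquiv,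
      Nat.card_zpowers, hn]
  have hRna : ¬ IsMulCommutative R := fun h => hr₀u (hRmem r₀ hr₀
    (congrArg Subtype.val (h.is_comm.comm ⟨r₀, hr₀⟩ ⟨u, huR⟩)))
  rcases Cfsg.Agent.S3761.result (hG.to_subgroup R) hRna U hUcyc n hUn hCU with
    ⟨hp2, hcard, hshape⟩ | ⟨hrel, -⟩
  · refine ⟨E, R, hcomm, hER, hE, Or.inr ⟨hp2, ?_, hshape⟩⟩
    rw [hcard]
    calc 16 = 2 ^ 4 := by norm_num
      _ ≤ 2 ^ (n + 1) := Nat.pow_le_pow_right (by norm_num) (by omega)
  exfalso
  set M := Subgroup.centralizer (Cfsg.powerClosure p 1 U : Set R) with hMdef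
  obtain ⟨b, hbM, hbU⟩ : ∃ b ∈ M, b ∉ U := by
    by_contra hcon
    simp only [not_exists, not_and, not_not] at hcon
    rw [Subgroup.relIndex_eq_one.mpr hcon] at hrel
    exact hp.ne_one hrel.symm
  have hbp : Commute (b : G) (u ^ p) := by
    have h1 : (⟨u, huR⟩ : R) ^ p ∈ Cfsg.powerClosure p 1 U := Subgroup.subset_closure
      ⟨⟨u, huR⟩, Subgroup.mem_subgroupOf.mpr (Subgroup.mem_zpowers u), by rw [pow_one]⟩
    exact (congrArg Subtype.val (Subgroup.mem_centralizer_iff.mp hbM _ h1)).symm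
  obtain ⟨h1, h2, h3⟩ := hN b b.2 (fun h => hbU (Subgroup.mem_subgroupOf.mpr h)) hbp
  set N := Subgroup.centralizer ({u ^ p} : Set G) with hNdef
  have hNmem : ∀ x, x ∈ N ↔ Commute x (u ^ p) := fun x =>
    Subgroup.mem_centralizer_singleton_iff
  haveI : (Subgroup.zpowers (u ^ p)).Characteristic := PGroup.Symp.char_zpowers_pow huchar p
  haveI : N.Characteristic := by
    have : N = Subgroup.centralizer (Subgroup.zpowers (u ^ p) : Set G) := by
      rw [hNdef, Subgroup.zpowers_eq_closure, Subgroup.centralizer_closure]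
    rw [this]; infer_instance
  have hord : orderOf (u ^ p) = p ^ (n - 1) := by
    have h0 : p ^ n = p * p ^ (n - 1) := by rw [← pow_succ', show n - 1 + 1 = n by omega]
    rw [orderOf_pow' u hp.ne_zero, hn, h0, Nat.gcd_mul_right_left, Nat.mul_div_cancel_left _ hp.pos]
  have hz' : (u ^ p) ^ p ^ (n - 1 - 1) = z := by
    rw [hzdef, ← pow_mul, ← pow_succ', show n - 1 - 1 + 1 = n - 1 by omega]
  have key := PGroup.Symp.powers_mem hG hsymp N hord (by omega) (fun x => ?_)
    (fun x hx y hy => by rw [hz']; exact h1 x y ((hNmem x).mp hx) ((hNmem y).mp hy))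
    (fun x hx => h2 x ((hNmem x).mp hx)) u ((hNmem u).mpr ((Commute.refl u).pow_right p))
  · obtain ⟨k, hk⟩ := Subgroup.mem_zpowers_iff.mp key
    have h4 : u ^ ((p : ℤ) * p * k - p) = 1 := by
      rw [zpow_sub, zpow_mul, zpow_mul, zpow_natCast, zpow_natCast, hk, mul_inv_cancel]
    rw [← orderOf_dvd_iff_zpow_eq_one, hn, Nat.cast_pow] at h4
    have h5 : (p : ℤ) ^ 2 ∣ (p : ℤ) * p * k - p := (pow_dvd_pow _ (by omega)).trans h4
    have h6 : (p : ℤ) ∣ (p : ℤ) * k - 1 := by
      rw [sq, show (p : ℤ) * p * k - p = p * (p * k - 1) by ring] at h5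
      exact (mul_dvd_mul_iff_left (by exact_mod_cast hp.ne_zero)).mp h5
    have h7 : (p : ℤ) ∣ 1 := by
      have := dvd_sub (dvd_mul_right (p : ℤ) k) h6
      rwa [sub_sub_cancel] at this
    exact (Nat.prime_iff_prime_int.mp hp).not_dvd_one h7
  · constructor
    · intro hx
      obtain ⟨i, rfl⟩ := Subgroup.mem_zpowers_iff.mp hx
      exact ⟨(hNmem _).mpr ((Commute.refl (u ^ p)).zpow_left i),
        fun h hh => ((hNmem h).mp hh).symm.zpow_left i⟩
    · exact fun hx => h3 x ((hNmem x).mp hx.1) fun y hy => hx.2 y ((hNmem y).mpr hy)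


end Cfsg.Agent.S3762
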