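import Cfsg.Statements.S3763
import Cfsg.Agent.PGroup.ExtraspecialTwo

set_option linter.style.haveILetI false

set_option autoImplicit false
open Cfsg

namespace Cfsg.Agent.S3763

theorem plus_iff {F : Type*} [Group F] [Finite F] (hF : Cfsg.IsExtraspecial 2 F) {n : ℕ}
    (hFc : Nat.card F = 2 ^ (2 * n + 1)) :
    Cfsg.Agent.PGroup.IsPlusTwo F ↔ ¬ Cfsg.PRankLE 2 n F := by
  haveI : Fact (Nat.Prime 2) := ⟨Nat.prime_two⟩
  have hsq : 2 * Nat.card F = (2 ^ (n + 1)) ^ 2 := by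
    rw [hFc, ← pow_succ', ← pow_mul]; ring_nf
  constructor
  · rintro ⟨A, hA, hA'⟩ hle
    rw [hsq, Nat.pow_le_pow_iff_left two_ne_zero] at hA'
    have := (Nat.pow_le_pow_iff_right (by norm_num)).mp (hA'.trans (hle A hA.1 hA.2))
    omega
  · intro hnle
    simp only [Cfsg.PRankLE, not_forall, not_le] at hnle
    obtain ⟨A, hc, h2, hlt⟩ := hnle
    refine ⟨A, ⟨hc, h2⟩, ?_⟩
    obtain ⟨k, hk⟩ := IsPGroup.iff_card.mp (hF.1.1.to_subgroup A)
    rw [hk] at hlt ⊢
    have := (Nat.pow_lt_pow_iff_right (by norm_num)).mp hlt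
    rw [hsq]
    exact Nat.pow_le_pow_left (Nat.pow_le_pow_right two_pos (by omega)) 2

/-- Let E be an extraspecial 2-group of order 2^(2n+1). Then the largest elementary abelian subgroups of E have order 2^n or 2^(n+1); and two extraspecial 2-groups of the same order whose largest elementary abelian subgroups have the same order are isomorphic. -/
theorem result {E : Type*} [Group E] [Finite E] (hE : Cfsg.IsExtraspecial 2 E) (n : ℕ) (hn : Nat.card E = 2 ^ (2 * n + 1)) : ((Cfsg.PRankLE 2 n E ∧ ¬ Cfsg.PRankLE 2 (n - 1) E) ∨ (Cfsg.PRankLE 2 (n + 1) E ∧ ¬ Cfsg.PRankLE 2 n E)) ∧ ∀ (E' : Type*) [Group E'] [Finite E'], Cfsg.IsExtraspecial 2 E' → Nat.card E' = Nat.card E → (∀ k : ℕ, Cfsg.PRankLE 2 k E ↔ Cfsg.PRankLE 2 k E') → Nonempty (E ≃* E') := by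
  classical
  haveI : Fact (Nat.Prime 2) := ⟨Nat.prime_two⟩
  have hn0 : n ≠ 0 := by
    rintro rfl
    have := Cfsg.Agent.PGroup.eight_le_card hE
    rw [hn] at this
    norm_num at this
  have hub : Cfsg.PRankLE 2 (n + 1) E := fun A hc _ => by
    have h := Cfsg.Agent.PGroup.extraspecial_card_abelian_sq_le hE hc
    rw [hn, ← pow_succ, show 2 * n + 1 + 1 = (n + 1) * 2 by ring, pow_mul, ← sq] at h
    exact (Nat.pow_le_pow_iff_left two_ne_zero).mp h
  have hlb : ¬ Cfsg.PRankLE 2 (n - 1) E := fun hle => by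
    obtain ⟨A, hA, hA'⟩ := Cfsg.Agent.PGroup.exists_elemAb_large _ E hE rfl
    have h := hA'.trans (Nat.mul_le_mul_left 2 (Nat.pow_le_pow_left (hle A hA.1 hA.2) 2))
    rw [hn, ← pow_mul, ← pow_succ'] at h
    have := (Nat.pow_le_pow_iff_right (by norm_num)).mp h
    omega
  refine ⟨?_, fun E' _ _ hE' hcard hk => ?_⟩
  · by_cases h : Cfsg.PRankLE 2 n E
    · exact Or.inl ⟨h, hlb⟩
    · exact Or.inr ⟨hub, h⟩
  · exact Cfsg.Agent.PGroup.iso_of_type _ E E' hE hE' rfl hcard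
      ((plus_iff hE hn).trans ((not_congr (hk n)).trans (plus_iff hE' (hcard.trans hn)).symm))

end Cfsg.Agent.S3763
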