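import Cfsg.Statements.S3764
import Cfsg.Agent.PrimeFPF.Group
import Cfsg.Agent.PrimeFPF.Extraspecial
import Cfsg.Agent.PGroup.Extraspecial
-- import your own Cfsg.Agent.* helpers here

set_option autoImplicit false
open scoped IsMulCommutative
open Cfsg

namespace Cfsg.Agent.S3764

/-- Let p, q, r be distinct primes and let X, Q, V be subgroups of a finite group with X of order r, Q an extraspecial q-group normalized by X with C_Q(X) = Z(Q), and V an elementary abelian p-group normalized by X and Q on which XQ acts faithfully ((X ⊔ Q) ∩ C(V) = 1). If C_V(X) = 1, then q = 2, r = 2^n + 1 for some n, and Q has order 2^(2n+1). -/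
theorem result {G : Type*} [Group G] [Finite G] {p q r : ℕ} (hp : p.Prime) (hq : q.Prime) (hr : r.Prime) (hpq : p ≠ q) (hpr : p ≠ r) (hqr : q ≠ r) (X Q V : Subgroup G) (hX : Nat.card X = r) (hQ : Cfsg.IsExtraspecial q ↥Q) (hXQ : X ≤ Subgroup.normalizer (Q : Set G)) (hCQ : Q ⊓ Subgroup.centralizer (X : Set G) = (Subgroup.center ↥Q).map Q.subtype) (hV : Cfsg.IsElementaryAbelian p V) (hXV : X ≤ Subgroup.normalizer (V : Set G)) (hQV : Q ≤ Subgroup.normalizer (V : Set G)) (hfaith : (X ⊔ Q) ⊓ Subgroup.centralizer (V : Set G) = ⊥) (hCV : V ⊓ Subgroup.centralizer (X : Set G) = ⊥) : q = 2 ∧ ∃ n : ℕ, r = 2 ^ n + 1 ∧ Nat.card Q = 2 ^ (2 * n + 1) := by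
  by_contra hno
  haveI := Fact.mk hp
  haveI := Fact.mk hq
  haveI := Fact.mk hr
  obtain ⟨t, ht⟩ := isCyclic_iff_exists_zpowers_eq_top.mp (isCyclic_of_prime_card hX)
  have htr : (t : G) ^ r = 1 := by
    rw [← hX, ← SubmonoidClass.coe_pow, pow_card_eq_one']
    rfl
  have hgen : ∀ g, Commute (t : G) g → g ∈ Subgroup.centralizer (X : Set G) := by
    intro g hg x hx
    obtain ⟨i, hi⟩ := (ht ▸ Subgroup.mem_top (⟨x, hx⟩ : X) : (⟨x, hx⟩ : X) ∈ Subgroup.zpowers t)
    have hxi : ((t : G)) ^ i = x := by simpa using congrArg Subtype.val hi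
    rw [← hxi]
    exact (hg.zpow_left i).eq
  let φ : Subgroup.normalizer (Q : Set G) →* MulAut Q :=
    MonoidHom.mk' (fun g => MulEquiv.mk
      { toFun := fun y => ⟨g * y * (g : G)⁻¹, Cfsg.Agent.PrimeFPF.conj_mem_normalizer g.2 y.2⟩
        invFun := fun y => ⟨(g : G)⁻¹ * y * g, by
          simpa using Cfsg.Agent.PrimeFPF.conj_mem_normalizer (Subgroup.inv_mem _ g.2) y.2⟩
        left_inv := fun y => Subtype.ext (by simp [mul_assoc])
        right_inv := fun y => Subtype.ext (by simp [mul_assoc]) }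
      (fun a b => Subtype.ext (by simp [mul_assoc])))
      (fun g h => MulEquiv.ext fun y => Subtype.ext (by simp [MulAut.mul_apply, mul_assoc]))
  let σ : MulAut Q := φ ⟨t, hXQ t.2⟩
  have hσapp : ∀ y : Q, (σ y : G) = (t : G) * y * (t : G)⁻¹ := fun y => rfl
  have hσr : σ ^ r = 1 := by
    rw [← map_pow, show (⟨t, hXQ t.2⟩ : Subgroup.normalizer (Q : Set G)) ^ r = 1 from Subtype.ext htr,
      map_one]
  have hσfix : ∀ y : Q, σ y * y⁻¹ ∈ Subgroup.center ↥Q → y ∈ Subgroup.center ↥Q := by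
    intro y hy
    have hzfix : ∀ z ∈ Subgroup.center ↥Q, σ z = z := by
      intro z hz
      have : (z : G) ∈ Q ⊓ Subgroup.centralizer (X : Set G) := by
        rw [hCQ]; exact ⟨z, hz, rfl⟩
      refine Subtype.ext ?_
      rw [hσapp, mul_inv_eq_iff_eq_mul]
      exact this.2 _ t.2
    have h := Cfsg.Agent.PrimeFPF.fixed_of_fixed_quotient hq hr hqr
      (Cfsg.Agent.PGroup.extraspecial_isPGroup hQ) σ hσr (hzfix _ hy)
    have h' : (t : G) * y * (t : G)⁻¹ = y := congrArg Subtype.val h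
    rw [mul_inv_eq_iff_eq_mul] at h'
    have hm : (y : G) ∈ Q ⊓ Subgroup.centralizer (X : Set G) := ⟨y.2, hgen _ h'⟩
    rw [hCQ] at hm
    obtain ⟨z, hz, hzy⟩ := hm
    exact (Subtype.ext hzy : z = y) ▸ hz
  haveI : IsMulCommutative V := hV.1
  haveI : Module (ZMod p) (Additive V) := Cfsg.Agent.PrimeFPF.modV (V := V) hV.2
  haveI : Finite (Additive V) := Finite.of_equiv V Additive.ofMul
  obtain ⟨ρ, hρ⟩ := Cfsg.Agent.PrimeFPF.exists_rep (ℓ := p) (V := V)
  set L := AlgebraicClosure (ZMod p)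
  set B := Module.End.baseChangeHom (ZMod p) L (Additive V)
  have hne : ∀ n : ℕ, n.Prime → p ≠ n → (n : L) ≠ 0 := by
    intro n hn hpn h
    have h' : (n : ZMod p) = 0 :=
      (algebraMap (ZMod p) L).injective (by rw [map_natCast, map_zero, h])
    exact hpn ((Nat.prime_dvd_prime_iff_eq hp hn).mp ((ZMod.natCast_eq_zero_iff _ _).mp h'))
  set T := ρ ⟨t, hXV t.2⟩
  have hTr : T ^ r = 1 := by
    rw [← map_pow, show (⟨t, hXV t.2⟩ : Subgroup.normalizer (V : Set G)) ^ r = 1 from Subtype.ext htr,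
      map_one]
  have hrk : (r : L) ≠ 0 := hne r hr hpr
  have hker : LinearMap.ker (T - 1) = ⊥ := by
    rw [LinearMap.ker_eq_bot']
    intro v hv
    have h1 := hρ ⟨t, hXV t.2⟩ (Additive.toMul v)
    rw [ofMul_toMul, sub_eq_zero.mp hv, Module.End.one_apply, eq_comm, mul_inv_eq_iff_eq_mul] at h1
    have hm : ((Additive.toMul v : V) : G) ∈ V ⊓ Subgroup.centralizer (X : Set G) :=
      ⟨(Additive.toMul v).2, hgen _ h1⟩
    rw [hCV, Subgroup.mem_bot] at hm
    exact Additive.toMul.injective (Subtype.ext hm)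
  have hfix : ∀ v, B T v = v → v = 0 := by
    have h0 := Cfsg.Agent.PrimeFPF.finrank_fixed_baseChange_le (L := L) T hrk hTr
    rw [hker, finrank_bot, Nat.le_zero, Submodule.finrank_eq_zero] at h0
    intro v hv
    exact (Submodule.mem_bot L).mp (h0 ▸ LinearMap.mem_ker.mpr (sub_eq_zero.mpr hv))
  obtain ⟨⟨z, hz⟩, hz1⟩ := (Subgroup.center ↥Q).ne_bot_iff_exists_ne_one.mp (fun h => by
    have := hQ.2
    rw [h, Subgroup.card_bot] at this
    exact hq.ne_one this.symm)
  have h := Cfsg.Agent.PrimeFPF.extraspecial_center_trivial (K := L) hq hr (hne q hq hpq) hrk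
    (Cfsg.Agent.PGroup.extraspecial_isPGroup hQ) hQ.2
    (Cfsg.Agent.PGroup.extraspecial_center_ne_top hQ)
    (fun a b => hQ.1.2.2 ▸ Subgroup.commutator_mem_commutator (Subgroup.mem_top a) (Subgroup.mem_top b))
    (fun N hN hN1 => Cfsg.Agent.PGroup.extraspecial_center_le_normal hQ N hN1) σ hσfix hno
    (B.toMonoidHom.comp (ρ.comp (Subgroup.inclusion hQV))) (B T) (by rw [← map_pow, hTr, map_one])
    (fun y => by
      show B T * B (ρ (Subgroup.inclusion hQV y)) = B (ρ (Subgroup.inclusion hQV (σ y))) * B T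
      rw [← map_mul, ← map_mul, ← map_mul, ← map_mul]
      congr 2
      refine Subtype.ext ?_
      show (t : G) * y = (t : G) * y * (t : G)⁻¹ * t
      group) hfix z hz
  have h' : ρ (Subgroup.inclusion hQV z) = 1 :=
    Cfsg.Agent.PrimeFPF.baseChange_inj (L := L) (h.trans (map_one B).symm)
  have hm : (z : G) ∈ (X ⊔ Q) ⊓ Subgroup.centralizer (V : Set G) := by
    refine ⟨Subgroup.mem_sup_right z.2, fun v hv => ?_⟩
    have hv' := hρ (Subgroup.inclusion hQV z) ⟨v, hv⟩
    rw [h', Module.End.one_apply, toMul_ofMul, eq_comm, mul_inv_eq_iff_eq_mul] at hv'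
    exact hv'.symm
  rw [hfaith, Subgroup.mem_bot] at hm
  exact hz1 (Subtype.ext (Subtype.ext hm))

end Cfsg.Agent.S3764
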