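import Cfsg.Statements.S3765
import Cfsg.Agent.PrimeFPF.Group
-- import your own Cfsg.Agent.* helpers here

set_option autoImplicit false
open Cfsg

namespace Cfsg.Agent.S3765

/-- Let p, q, r be distinct primes and let X, Q, V be subgroups of a finite group with X of order r normalizing the q-group Q and acting faithfully on it (X ∩ C(Q) = 1), and V a nontrivial elementary abelian p-group normalized by X and Q on which XQ acts faithfully. If q = 2 and r has the form 2^n + 1, assume in addition that Q is abelian. Then C_V(X) ≠ 1. -/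
theorem result {G : Type*} [Group G] [Finite G] {p q r : ℕ} (hp : p.Prime) (hq : q.Prime) (hr : r.Prime) (hpq : p ≠ q) (hpr : p ≠ r) (hqr : q ≠ r) (X Q V : Subgroup G) (hX : Nat.card X = r) (hQ : IsPGroup q Q) (hXQ : X ≤ Subgroup.normalizer (Q : Set G)) (hXfaith : X ⊓ Subgroup.centralizer (Q : Set G) = ⊥) (hV : Cfsg.IsElementaryAbelian p V) (hV1 : V ≠ ⊥) (hXV : X ≤ Subgroup.normalizer (V : Set G)) (hQV : Q ≤ Subgroup.normalizer (V : Set G)) (hfaith : (X ⊔ Q) ⊓ Subgroup.centralizer (V : Set G) = ⊥) (hexc : q = 2 → (∃ n : ℕ, r = 2 ^ n + 1) → IsMulCommutative Q) : V ⊓ Subgroup.centralizer (X : Set G) ≠ ⊥ := by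
  intro h
  haveI := Fact.mk hr
  obtain ⟨t, ht⟩ := isCyclic_iff_exists_zpowers_eq_top.mp (isCyclic_of_prime_card hX)
  have htr : (t : G) ^ r = 1 := by
    rw [← hX, ← SubmonoidClass.coe_pow, pow_card_eq_one']
    rfl
  have hgen : ∀ g, Commute (t : G) g → g ∈ Subgroup.centralizer (X : Set G) := by
    intro g hg x hx
    obtain ⟨i, hi⟩ := (ht ▸ Subgroup.mem_top (⟨x, hx⟩ : X) : (⟨x, hx⟩ : X) ∈ Subgroup.zpowers t)
    have hxi : ((t : G)) ^ i = x := by simpa using congrArg Subtype.val hi
    rw [← hxi]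
    exact (hg.zpow_left i).eq
  have hcent : ∀ x ∈ Q, (t : G) ∈ Subgroup.centralizer ({x} : Set G) := by
    intro x hx
    have hc := Cfsg.Agent.PrimeFPF.commutator_mem_centralizer hp hq hr hqr hpq.symm hpr.symm hV htr hQ
      (hXQ t.2) (hXV t.2) hQV
      (fun v hv hc => by
        have : v ∈ V ⊓ Subgroup.centralizer (X : Set G) := ⟨hv, hgen v hc⟩
        rw [h] at this
        exact Subgroup.mem_bot.mp this)
      (fun h1 h2 a ha b hb => by
        haveI := hexc h1 h2
        exact congrArg Subtype.val (mul_comm' (⟨a, ha⟩ : Q) ⟨b, hb⟩))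
      hx
    have hmem : (t : G) * x * (t : G)⁻¹ * x⁻¹ ∈ (X ⊔ Q) ⊓ Subgroup.centralizer (V : Set G) := by
      refine ⟨Subgroup.mul_mem _ (Subgroup.mul_mem _ (Subgroup.mul_mem _
        (Subgroup.mem_sup_left t.2) (Subgroup.mem_sup_right hx))
        (Subgroup.inv_mem _ (Subgroup.mem_sup_left t.2))) (Subgroup.inv_mem _ (Subgroup.mem_sup_right hx)), hc⟩
    rw [hfaith, Subgroup.mem_bot, mul_inv_eq_one, mul_inv_eq_iff_eq_mul] at hmem
    exact Subgroup.mem_centralizer_singleton_iff.mpr (by first | exact hmem | exact hmem.symm)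
  have hmem : (t : G) ∈ X ⊓ Subgroup.centralizer (Q : Set G) := by
    refine ⟨t.2, fun x hx => ?_⟩
    have := Subgroup.mem_centralizer_singleton_iff.mp (hcent x hx)
    first | exact this | exact this.symm
  rw [hXfaith, Subgroup.mem_bot] at hmem
  have ht1 : t = 1 := Subtype.ext hmem
  rw [ht1, Subgroup.zpowers_one_eq_bot] at ht
  have := hr.one_lt
  rw [← hX, ← Subgroup.card_top (G := X), ← ht, Subgroup.card_bot] at this
  exact lt_irrefl 1 this

end Cfsg.Agent.S3765
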