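import Cfsg.Statements.S3766
import Cfsg.Agent.Cores.Fitting

set_option linter.style.haveILetI false

set_option autoImplicit false
open Cfsg
open scoped commutatorElement

namespace Cfsg.Agent.S3766

/-- Let G be a finite solvable group and N a normal subgroup of G. Call a pair V < U of normal subgroups of G a chief factor of G when no normal subgroup of G lies strictly between them; an element g centralizes the chief factor U/V when u g u⁻¹ g⁻¹ ∈ V for all u ∈ U. Then an element of G lies in the Fitting subgroup F(N) if and only if it lies in N and centralizes every chief factor of G; and also if and only if it lies in N and centralizes every chief factor U/V of G with U ≤ F(N). -/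
theorem result {G : Type*} [Group G] [Finite G] (hG : Group.IsSolvable G) (N : Subgroup G) [N.Normal] (g : G) : (g ∈ (Cfsg.fittingSubgroup ↥N).map N.subtype ↔ g ∈ N ∧ ∀ U V : Subgroup G, (U.Normal ∧ V.Normal ∧ V < U ∧ ∀ W : Subgroup G, W.Normal → V ≤ W → W ≤ U → W = V ∨ W = U) → ∀ u ∈ U, u * g * u⁻¹ * g⁻¹ ∈ V) ∧ (g ∈ (Cfsg.fittingSubgroup ↥N).map N.subtype ↔ g ∈ N ∧ ∀ U V : Subgroup G, (U.Normal ∧ V.Normal ∧ V < U ∧ ∀ W : Subgroup G, W.Normal → V ≤ W → W ≤ U → W = V ∨ W = U) → U ≤ (Cfsg.fittingSubgroup ↥N).map N.subtype → ∀ u ∈ U, u * g * u⁻¹ * g⁻¹ ∈ V) := by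
  classical
  set F := (Cfsg.fittingSubgroup ↥N).map N.subtype with hF
  haveI : F.Normal := by rw [hF]; exact ConjAct.normal_of_characteristic_of_normal
  have hFN : F ≤ N := Subgroup.map_subtype_le _
  obtain ⟨m, hm⟩ : ∃ m, F.lowerCentralSeries m = ⊥ := by
    obtain ⟨m, hm⟩ := (Subgroup.isNilpotent_iff_lowerCentralSeries _).mp
      (Cfsg.Agent.Cores.fittingSubgroup_isNilpotent (G := N))
    exact ⟨m, by rw [hF, ← Subgroup.map_lowerCentralSeries, hm, Subgroup.map_bot]⟩
  have hnorm : ∀ (S : Subgroup G), S.Normal → ∀ i, (S.lowerCentralSeries i).Normal := by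
    intro S hS i
    induction i with
    | zero => exact hS
    | succ i ih => rw [Subgroup.lowerCentralSeries_succ]; exact Subgroup.commutator_normal _ _
  have fwd : ∀ g, g ∈ F → ∀ U V : Subgroup G, (U.Normal ∧ V.Normal ∧ V < U ∧
      ∀ W : Subgroup G, W.Normal → V ≤ W → W ≤ U → W = V ∨ W = U) →
      ∀ u ∈ U, u * g * u⁻¹ * g⁻¹ ∈ V := by
    rintro g hg U V ⟨hU, hV, hVU, hmin⟩ u hu
    have hcU : ⁅U, F⁆ ≤ U := Subgroup.commutator_le_left U F
    haveI : (⁅U, F⁆ ⊔ V).Normal := Subgroup.sup_normal _ _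
    rcases hmin (⁅U, F⁆ ⊔ V) inferInstance le_sup_right (sup_le hcU hVU.le) with h | h
    · exact h.le (Subgroup.mem_sup_left (Subgroup.commutator_mem_commutator hu hg))
    exfalso
    have hall : ∀ k, U ≤ F.lowerCentralSeries k ⊔ V := by
      intro k
      induction k with
      | zero => exact h.ge.trans (sup_le_sup_right (Subgroup.commutator_le_right U F) _)
      | succ k ih =>
        haveI := hnorm F inferInstance k
        haveI := hnorm F inferInstance (k + 1)
        refine h.ge.trans (sup_le ?_ le_sup_right)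
        refine Subgroup.commutator_le.mpr fun x hx f hf => ?_
        obtain ⟨a, ha, v, hv, rfl⟩ := Subgroup.mem_sup_of_normal_right.mp (ih hx)
        have e : ⁅a * v, f⁆ = a * ⁅v, f⁆ * a⁻¹ * ⁅a, f⁆ := by
          simp only [commutatorElement_def]; group
        rw [e]
        refine mul_mem (Subgroup.mem_sup_right (hV.conj_mem _ ?_ a))
          (Subgroup.mem_sup_left (Subgroup.commutator_mem_commutator ha hf))
        exact Subgroup.commutator_le_left V F (Subgroup.commutator_mem_commutator hv hf)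
    exact hVU.not_ge (by simpa [hm] using hall m)
  -- elements of `N` centralizing the chief factors below `F`
  have bwd : ∀ g, g ∈ N → (∀ U V : Subgroup G, (U.Normal ∧ V.Normal ∧ V < U ∧
      ∀ W : Subgroup G, W.Normal → V ≤ W → W ≤ U → W = V ∨ W = U) → U ≤ F →
      ∀ u ∈ U, u * g * u⁻¹ * g⁻¹ ∈ V) → g ∈ F := by
    let P : Subgroup G → Subgroup G → Prop := fun U V => U.Normal ∧ V.Normal ∧ V < U ∧
      ∀ W : Subgroup G, W.Normal → V ≤ W → W ≤ U → W = V ∨ W = U
    let K : Subgroup G :=
      { carrier := {g | g ∈ N ∧ ∀ U V, P U V → U ≤ F → ∀ u ∈ U, ⁅u, g⁆ ∈ V}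
        one_mem' := ⟨one_mem N, fun U V _ _ u _ => by rw [commutatorElement_one_right]; exact one_mem V⟩
        mul_mem' := by
          rintro a b ⟨haN, ha⟩ ⟨hbN, hb⟩
          refine ⟨mul_mem haN hbN, fun U V hP hle u hu => ?_⟩
          rw [show ⁅u, a * b⁆ = ⁅u, a⁆ * (a * ⁅u, b⁆ * a⁻¹) by simp only [commutatorElement_def]; group]
          exact mul_mem (ha U V hP hle u hu) (hP.2.1.conj_mem _ (hb U V hP hle u hu) a)
        inv_mem' := by
          rintro a ⟨haN, ha⟩
          refine ⟨inv_mem haN, fun U V hP hle u hu => ?_⟩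
          rw [show ⁅u, a⁻¹⁆ = a⁻¹ * ⁅u, a⁆⁻¹ * a⁻¹⁻¹ by simp only [commutatorElement_def]; group]
          exact hP.2.1.conj_mem _ (inv_mem (ha U V hP hle u hu)) a⁻¹ }
    haveI hKn : K.Normal := ⟨fun a ha g => ⟨(inferInstance : N.Normal).conj_mem a ha.1 g,
      fun U V hP hle u hu => by
        rw [show ⁅u, g * a * g⁻¹⁆ = g * ⁅g⁻¹ * u * g⁻¹⁻¹, a⁆ * g⁻¹ by
          simp only [commutatorElement_def]; group]
        exact hP.2.1.conj_mem _ (ha.2 U V hP hle _ (hP.1.conj_mem u hu g⁻¹)) g⟩⟩
    suffices hKF : K ≤ F by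
      intro g hgN hg
      exact hKF ⟨hgN, hg⟩
    by_contra hKF
    obtain ⟨n, hn⟩ := hG.solvable
    have hex : ∃ i, K ⊓ derivedSeries G i ≤ F := ⟨n, by rw [hn, inf_bot_eq]; exact bot_le⟩
    have hpos : Nat.find hex ≠ 0 := by
      intro h0
      have := Nat.find_spec hex
      rw [h0, derivedSeries_zero, inf_top_eq] at this
      exact hKF this
    obtain ⟨j, hj⟩ := Nat.exists_eq_succ_of_ne_zero hpos
    set S := K ⊓ derivedSeries G j with hS
    haveI : (derivedSeries G j).Normal := derivedSeries_normal G j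
    haveI : S.Normal := by rw [hS]; exact Subgroup.normal_inf_normal _ _
    have hSF : ¬ S ≤ F := Nat.find_min hex (by omega)
    have hS1 : ⁅S, S⁆ ≤ F := by
      have := Nat.find_spec hex
      rw [hj, derivedSeries_succ] at this
      exact le_trans (le_inf (Subgroup.commutator_le_left S S |>.trans inf_le_left)
        (Subgroup.commutator_mono inf_le_right inf_le_right)) this
    have hdesc : ∀ i, S.lowerCentralSeries (i + 1) ≠ ⊥ →
        S.lowerCentralSeries (i + 2) < S.lowerCentralSeries (i + 1) := by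
      intro i hne
      set U := S.lowerCentralSeries (i + 1) with hUdef
      haveI hUn : U.Normal := hnorm S inferInstance (i + 1)
      have hUF : U ≤ F := (S.lowerCentralSeries_antitone (show 1 ≤ i + 1 by omega)).trans hS1
      obtain ⟨V, ⟨hV, hVU⟩, hmax⟩ := Set.Finite.exists_maximal
        (s := {V : Subgroup G | V.Normal ∧ V < U}) (Set.toFinite _)
        ⟨⊥, inferInstance, bot_lt_iff_ne_bot.mpr hne⟩
      have hP : P U V := ⟨hUn, hV, hVU, fun W hW hVW hWU => by
        by_contra hcon
        push Not at hcon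
        exact hcon.1 (le_antisymm (hmax ⟨hW, lt_of_le_of_ne hWU hcon.2⟩ hVW) hVW)⟩
      refine lt_of_le_of_lt ?_ hVU
      rw [Subgroup.lowerCentralSeries_succ, ← hUdef]
      exact Subgroup.commutator_le.mpr fun u hu s hs => hs.1.2 U V hP hUF u hu
    have hnil : Group.IsNilpotent S := by
      rw [Subgroup.isNilpotent_iff_lowerCentralSeries]
      by_contra hcon
      push Not at hcon
      have key : ∀ i, Nat.card (S.lowerCentralSeries (i + 1)) + i ≤
          Nat.card (S.lowerCentralSeries 1) := by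
        intro i
        induction i with
        | zero => simp
        | succ i ih =>
          have := (Set.ncard_lt_ncard (SetLike.coe_ssubset_coe.mpr (hdesc i (hcon _))) (Set.toFinite _))
          rw [← Nat.card_coe_set_eq, ← Nat.card_coe_set_eq] at this
          change Nat.card (S.lowerCentralSeries (i + 2)) < Nat.card (S.lowerCentralSeries (i + 1)) at this
          show Nat.card (S.lowerCentralSeries (i + 2)) + (i + 1) ≤ _
          omega
      have := key (Nat.card (S.lowerCentralSeries 1))
      have hp := Nat.card_pos (α := S.lowerCentralSeries (Nat.card (S.lowerCentralSeries 1) + 1))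
      omega
    have hSN : S ≤ N := fun s hs => hs.1.1
    have hle : S.subgroupOf N ≤ Cfsg.fittingSubgroup N := Cfsg.Agent.Cores.le_fittingSubgroup
      inferInstance (Group.nilpotent_of_surjective (Subgroup.subgroupOfEquivOfLe hSN).symm.toMonoidHom
        (Subgroup.subgroupOfEquivOfLe hSN).symm.surjective)
    exact hSF fun s hs => ⟨⟨s, hSN hs⟩, hle (Subgroup.mem_subgroupOf.mpr hs), rfl⟩
  refine ⟨⟨fun h => ⟨hFN h, fwd g h⟩, fun h => bwd g h.1 fun U V hUV _ => h.2 U V hUV⟩,
    ⟨fun h => ⟨hFN h, fun U V hUV _ => fwd g h U V hUV⟩, fun h => bwd g h.1 h.2⟩⟩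

end Cfsg.Agent.S3766
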