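import Cfsg.Statements.S3767
import Cfsg.Agent.PGroup.Extraspecial

set_option linter.style.haveILetI false

set_option autoImplicit false
open Cfsg
open scoped commutatorElement

namespace Cfsg.Agent.S3767

/-- An irreducible isometry of order `h` of a non-degenerate form forces `h ∣ p ^ i + 1`. -/
theorem exists_dvd_pow_add_one {p : ℕ} [Fact p.Prime] {M N : Type*} [AddCommGroup M]
    [Module (ZMod p) M] [Finite M] [Nontrivial M] [AddCommGroup N] (B : M →+ M →+ N)
    (X : Module.End (ZMod p) M) {h : ℕ} (hh : 0 < h) (hXh : X ^ h = 1)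
    (hord : ∀ k, 0 < k → k < h → X ^ k ≠ 1)
    (hirr : ∀ L : Submodule (ZMod p) M, (∀ m ∈ L, X m ∈ L) → L = ⊥ ∨ L = ⊤)
    (hB : ∀ u v, B (X u) (X v) = B u v) (hnd : ∀ v, (∀ u, B u v = 0) → v = 0) :
    ∃ i : ℕ, h ∣ p ^ i + 1 := by
  classical
  haveI : Module.Finite (ZMod p) M := Module.Finite.of_finite
  set μ := minpoly (ZMod p) X with hμdef
  have hint : IsIntegral (ZMod p) X := Algebra.IsIntegral.isIntegral X
  have hμm : μ.Monic := minpoly.monic hint
  have hμX : Polynomial.aeval X μ = 0 := minpoly.aeval _ _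
  have hμ : Irreducible μ := by
    have h1 : μ ≠ 1 := minpoly.ne_one _ _
    rw [Polynomial.irreducible_of_monic hμm h1]
    intro f g hf hg hfg
    have hker : ∀ m ∈ LinearMap.ker (Polynomial.aeval X f), X m ∈ LinearMap.ker (Polynomial.aeval X f) := by
      intro m hm
      rw [LinearMap.mem_ker] at hm ⊢
      rw [← Module.End.mul_apply]
      have hcm : Commute (Polynomial.aeval X f) X := by
        have := (Commute.all f Polynomial.X).map (Polynomial.aeval X)
        rwa [Polynomial.aeval_X] at this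
      rw [hcm.eq]
      rw [Module.End.mul_apply, hm, map_zero]
    rcases hirr _ hker with h0 | h0
    · left
      have hg0 : Polynomial.aeval X g = 0 := LinearMap.ext fun m => by
        have : Polynomial.aeval X f (Polynomial.aeval X g m) = 0 := by
          rw [← Module.End.mul_apply, ← map_mul, hfg, hμX, LinearMap.zero_apply]
        exact (LinearMap.ker_eq_bot.mp h0) (this.trans (map_zero _).symm)
      have hle := Polynomial.natDegree_le_natDegree (minpoly.min (ZMod p) X hg hg0)
      rw [← hμdef, ← hfg, hf.natDegree_mul hg] at hle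
      exact hf.natDegree_eq_zero.mp (by omega)
    · right
      have hf0 : Polynomial.aeval X f = 0 := LinearMap.ker_eq_top.mp h0
      have hle := Polynomial.natDegree_le_natDegree (minpoly.min (ZMod p) X hf hf0)
      rw [← hμdef, ← hfg, hf.natDegree_mul hg] at hle
      exact hg.natDegree_eq_zero.mp (by omega)
  -- the adjoint
  have hXY : ∀ w, X ((X ^ (h - 1)) w) = w := fun w => by
    rw [← Module.End.mul_apply, ← pow_succ', Nat.sub_add_cancel hh, hXh, Module.End.one_apply]
  have hadj : ∀ (f : Polynomial (ZMod p)) (u v : M),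
      B (Polynomial.aeval X f u) v = B u (Polynomial.aeval (X ^ (h - 1)) f v) := by
    intro f
    induction f using Polynomial.induction_on' with
    | add f g hf hg =>
      intro u v
      simp only [map_add, LinearMap.add_apply, AddMonoidHom.add_apply, hf, hg]
    | monomial n c =>
      induction n with
      | zero =>
        intro u v
        simp only [Polynomial.monomial_zero_left, Polynomial.aeval_C, Module.algebraMap_end_apply]
        rw [← ZMod.natCast_zmod_val c, Nat.cast_smul_eq_nsmul, Nat.cast_smul_eq_nsmul, map_nsmul,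
          map_nsmul]
        rfl
      | succ n ih =>
        intro u v
        rw [← Polynomial.monomial_mul_X, map_mul, map_mul, Polynomial.aeval_X, Polynomial.aeval_X,
          Module.End.mul_apply, ih (X u) v,
          (show Commute (Polynomial.aeval (X ^ (h - 1)) (Polynomial.monomial n c)) (X ^ (h - 1)) from
            by nth_rw 2 [← Polynomial.aeval_X (R := ZMod p) (X ^ (h - 1))]
               exact (Commute.all _ _).map _).eq, Module.End.mul_apply]
        conv_lhs => rw [← hXY (Polynomial.aeval (X ^ (h - 1)) (Polynomial.monomial n c) v), hB]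
  have hμY : Polynomial.aeval (X ^ (h - 1)) μ = 0 := LinearMap.ext fun v => hnd _ fun u => by
    rw [← hadj μ u v, hμX, LinearMap.zero_apply, map_zero, AddMonoidHom.zero_apply]
  haveI : Fact (Irreducible μ) := ⟨hμ⟩
  haveI : Module.Finite (ZMod p) (AdjoinRoot μ) := (AdjoinRoot.powerBasis hμ.ne_zero).finite
  haveI : Finite (AdjoinRoot μ) := Module.finite_of_finite (ZMod p)
  haveI : Fintype (AdjoinRoot μ) := Fintype.ofFinite _
  set r := AdjoinRoot.root μ with hr
  have hr' : Polynomial.aeval (r ^ (h - 1)) μ = 0 := by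
    obtain ⟨c, hc⟩ : μ ∣ μ.comp (Polynomial.X ^ (h - 1)) :=
      minpoly.dvd _ _ (by rw [Polynomial.aeval_comp, map_pow, Polynomial.aeval_X, hμY])
    have e : Polynomial.aeval r (μ.comp (Polynomial.X ^ (h - 1))) = Polynomial.aeval (r ^ (h - 1)) μ := by
      rw [Polynomial.aeval_comp, map_pow, Polynomial.aeval_X]
    rw [← e, hc, map_mul, AdjoinRoot.aeval_eq, AdjoinRoot.mk_self, zero_mul]
  obtain ⟨σ, hσ⟩ : ∃ σ : AdjoinRoot μ →ₐ[ZMod p] AdjoinRoot μ, σ r = r ^ (h - 1) :=
    ⟨(AdjoinRoot.powerBasis hμ.ne_zero).lift (r ^ (h - 1)) (by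
        rw [AdjoinRoot.minpoly_powerBasis_gen hμ.ne_zero, hμm.leadingCoeff, inv_one,
          Polynomial.C_1, mul_one]
        exact hr'),
      (AdjoinRoot.powerBasis hμ.ne_zero).lift_gen _ _⟩
  obtain ⟨⟨i, hi⟩, hσi⟩ := (FiniteField.bijective_frobeniusAlgHom_pow (ZMod p) (AdjoinRoot μ)).2 σ
  refine ⟨i, ?_⟩
  have hσr : r ^ (h - 1) = r ^ p ^ i := by
    rw [← hσ, ← hσi]
    simp [AlgHom.coe_pow, FiniteField.coe_frobeniusAlgHom, pow_iterate]
  have hrh : r ^ h = 1 := by
    obtain ⟨c, hc⟩ : μ ∣ Polynomial.X ^ h - 1 :=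
      minpoly.dvd _ _ (by simp [hXh])
    have := congrArg (Polynomial.aeval r) hc
    rw [map_mul, AdjoinRoot.aeval_eq μ, AdjoinRoot.mk_self, zero_mul] at this
    simpa [sub_eq_zero] using this
  have hk : X ^ (p ^ i + 1) = 1 := by
    have h0 : Polynomial.aeval r (Polynomial.X ^ (p ^ i + 1) - 1 : Polynomial (ZMod p)) = 0 := by
      rw [map_sub, map_pow, Polynomial.aeval_X, map_one, pow_succ, ← hσr, ← pow_succ,
        Nat.sub_add_cancel hh, hrh, sub_self]
    rw [AdjoinRoot.aeval_eq, AdjoinRoot.mk_eq_zero] at h0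
    obtain ⟨c, hc⟩ := h0
    have := congrArg (Polynomial.aeval X) hc
    rw [map_mul, hμX, zero_mul] at this
    simpa [sub_eq_zero] using this
  by_contra hnd'
  refine hord ((p ^ i + 1) % h) (Nat.pos_of_ne_zero fun h0 => hnd' (Nat.dvd_of_mod_eq_zero h0))
    (Nat.mod_lt _ hh) ?_
  rw [← hk, pow_eq_pow_mod (p ^ i + 1) hXh]

/-- If `a ^ i = -1` and `a ^ (2n) = 1` then `a ^ n = ± 1`. -/
theorem dvd_add_or_sub {p h i n : ℕ} (hh : 0 < h) (hcop : p.Coprime h) (hi : h ∣ p ^ i + 1)
    (hn : h ∣ p ^ (2 * n) - 1) (hp : 0 < p) : h ∣ p ^ n + 1 ∨ h ∣ p ^ n - 1 := by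
  set a : (ZMod h)ˣ := ZMod.unitOfCoprime p hcop with ha
  have hai : a ^ i = -1 := Units.ext (by
    have := (ZMod.natCast_eq_zero_iff _ _).mpr hi
    push_cast at this ⊢
    rw [ha, ZMod.coe_unitOfCoprime]
    exact eq_neg_of_add_eq_zero_left this)
  have han : a ^ (2 * n) = 1 := Units.ext (by
    have := (ZMod.natCast_eq_zero_iff _ _).mpr hn
    rw [Nat.cast_sub (Nat.one_le_pow _ _ hp)] at this
    push_cast at this ⊢
    rw [ha, ZMod.coe_unitOfCoprime]
    exact sub_eq_zero.mp this)
  have hcases : a ^ n = 1 ∨ a ^ n = -1 := by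
    by_cases hn1 : a ^ n = 1
    · exact Or.inl hn1
    right
    by_cases hi1 : a ^ i = 1
    · exfalso
      rw [hi1] at hai
      -- `-1 = 1`: the group of exponent `i`
      have h2 : (2 : ZMod h) = 0 := by
        have := congrArg (fun u : (ZMod h)ˣ => (u : ZMod h) + 1) hai
        simpa [one_add_one_eq_two] using this
      have hh2 : h ∣ 2 := (ZMod.natCast_eq_zero_iff 2 h).mp (by exact_mod_cast h2)
      refine hn1 (Units.ext ?_)
      rcases (Nat.dvd_prime Nat.prime_two).mp hh2 with rfl | rfl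
      · exact Subsingleton.elim _ _
      · exact (by decide : ∀ u : (ZMod 2)ˣ, (u : ZMod 2) = 1) _
    · obtain ⟨k, hk⟩ : ∃ k, orderOf a = 2 * k := by
        have h1 : orderOf a ∣ 2 * n := orderOf_dvd_of_pow_eq_one han
        rcases Nat.even_or_odd (orderOf a) with ⟨k, hk⟩ | ho
        · exact ⟨k, by omega⟩
        · exact absurd (orderOf_dvd_iff_pow_eq_one.mp
            ((Nat.Coprime.dvd_mul_left (Nat.coprime_two_right.mpr ho)).mp h1)) hn1
      have hak : (a ^ k) ^ 2 = 1 := by rw [← pow_mul, mul_comm, ← hk, pow_orderOf_eq_one]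
      have key : ∀ m, a ^ (2 * m) = 1 → a ^ m ≠ 1 → a ^ m = a ^ k := by
        intro m hm hm1
        obtain ⟨c, hc⟩ := orderOf_dvd_of_pow_eq_one hm
        have hmc : m = k * c := by
          rw [hk, mul_assoc] at hc; omega
        rcases Nat.even_or_odd' c with ⟨d, rfl | rfl⟩
        · rw [hmc, pow_mul, pow_mul, hak, one_pow] at hm1
          exact absurd rfl hm1
        · rw [hmc, pow_mul, pow_succ, pow_mul, hak, one_pow, one_mul]
      rw [← hai, key n han hn1, key i (by rw [mul_comm, pow_mul, hai]; simp) hi1]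
  rcases hcases with h1 | h1
  · right
    rw [← ZMod.natCast_eq_zero_iff, Nat.cast_sub (Nat.one_le_pow _ _ hp)]
    have := congrArg (fun u : (ZMod h)ˣ => (u : ZMod h)) h1
    push_cast at this ⊢
    rw [ha, ZMod.coe_unitOfCoprime] at this
    rw [this, sub_self]
  · left
    rw [← ZMod.natCast_eq_zero_iff]
    have := congrArg (fun u : (ZMod h)ˣ => (u : ZMod h)) h1
    push_cast at this ⊢
    rw [ha, ZMod.coe_unitOfCoprime] at this
    rw [this, neg_add_cancel]

/-- A free action of a cyclic group. -/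
theorem dvd_card_sub_one {V : Type*} [Group V] [Finite V] (g : MulAut V) {h : ℕ} (hh : 0 < h)
    (hg : g ^ h = 1) (hfree : ∀ j, 0 < j → j < h → ∀ v : V, (g ^ j) v = v → v = 1) :
    h ∣ Nat.card V - 1 := by
  classical
  rcases subsingleton_or_nontrivial V with hV | hV
  · rw [Nat.card_of_subsingleton (1 : V), Nat.sub_self]
    exact dvd_zero h
  obtain ⟨v₀, hv₀⟩ := exists_ne (1 : V)
  have hord : orderOf g = h := by
    refine Nat.le_antisymm (Nat.le_of_dvd hh (orderOf_dvd_of_pow_eq_one hg)) ?_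
    by_contra hlt
    refine hv₀ (hfree _ (orderOf_pos_iff.mpr (isOfFinOrder_iff_pow_eq_one.mpr ⟨h, hh, hg⟩))
      (not_le.mp hlt) v₀ ?_)
    rw [pow_orderOf_eq_one]; rfl
  let α := {v : V // v ≠ 1}
  letI : MulAction (Subgroup.zpowers g) α :=
    { smul := fun u v => ⟨(u : MulAut V) v, fun h => v.2 ((map_eq_one_iff _ (MulEquiv.injective _)).mp h)⟩
      one_smul := fun v => Subtype.ext rfl
      mul_smul := fun u w v => Subtype.ext rfl }
  have hstab : ∀ v : α, MulAction.stabilizer (Subgroup.zpowers g) v = ⊥ := by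
    intro v
    rw [Subgroup.eq_bot_iff_forall]
    rintro ⟨u, hu⟩ huv
    obtain ⟨j, hj, rfl⟩ : ∃ j, j < h ∧ g ^ j = u := by
      obtain ⟨j, rfl⟩ := ((isOfFinOrder_iff_pow_eq_one.mpr ⟨h, hh, hg⟩).mem_powers_iff_mem_zpowers.mpr hu)
      exact ⟨j % h, Nat.mod_lt _ hh, (pow_eq_pow_mod j hg).symm⟩
    rcases Nat.eq_zero_or_pos j with rfl | hj0
    · exact Subtype.ext (pow_zero g)
    · exact absurd (hfree j hj0 hj v.1 (congrArg Subtype.val huv)) v.2
  have e := MulAction.selfEquivSigmaOrbitsQuotientStabilizer (Subgroup.zpowers g) α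
  have hc : ∀ q : MulAction.orbitRel.Quotient (Subgroup.zpowers g) α,
      Nat.card (Subgroup.zpowers g ⧸ MulAction.stabilizer (Subgroup.zpowers g) q.out) = h := by
    intro q
    rw [hstab, ← Subgroup.index_eq_card, Subgroup.index_bot, Nat.card_zpowers, hord]
  haveI : Fintype (MulAction.orbitRel.Quotient (Subgroup.zpowers g) α) := Fintype.ofFinite _
  have hα : Nat.card α = Nat.card V - 1 := by
    haveI : Fintype V := Fintype.ofFinite V
    rw [Nat.card_eq_fintype_card, Nat.card_eq_fintype_card, Fintype.card_subtype_compl,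
      Fintype.card_subtype_eq]
  rw [← hα, Nat.card_congr e, Nat.card_sigma, Finset.sum_congr rfl fun q _ => hc q,
    Finset.sum_const, smul_eq_mul]
  exact dvd_mul_left h _

/-- Let P be an extraspecial p-group of order p^(2n+1) and H a cyclic group of order h prime to p acting on P (inside a common finite group: H normalizes P) so that C_P(x) = Z(P) for every non-identity x ∈ H. Then h divides p^n + 1 or h divides p^n − 1. -/
theorem result {G : Type*} [Group G] [Finite G] {p : ℕ} [Fact p.Prime] (P H : Subgroup G) (hP : Cfsg.IsExtraspecial p ↥P) (n : ℕ) (hn : Nat.card P = p ^ (2 * n + 1)) (hH : IsCyclic H) (hcop : (Nat.card H).Coprime p) (hHP : H ≤ Subgroup.normalizer (P : Set G)) (hfix : ∀ x ∈ H, x ≠ 1 → P ⊓ Subgroup.centralizer {x} = (Subgroup.center ↥P).map P.subtype) : Nat.card H ∣ p ^ n + 1 ∨ Nat.card H ∣ p ^ n - 1 := by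
  classical
  have hp : p.Prime := Fact.out
  haveI : IsCyclic H := hH
  obtain ⟨x, hx⟩ := IsCyclic.exists_generator (α := H)
  set h := Nat.card H with hh
  have hh0 : 0 < h := Nat.card_pos
  have hxo : orderOf x = h := (orderOf_eq_card_of_forall_mem_zpowers hx)
  have hxN : (x : G) ∈ Subgroup.normalizer (P : Set G) := hHP x.2
  set σ : MulAut P := P.normalizerMonoidHom ⟨x, hxN⟩ with hσ
  have hσpow : ∀ (j : ℕ) (e : P), (((σ ^ j) e : P) : G) = (x : G) ^ j * e * ((x : G) ^ j)⁻¹ := by
    intro j e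
    rw [hσ, ← map_pow]
    rfl
  have hσh : σ ^ h = 1 := by
    refine MulEquiv.ext fun e => Subtype.ext ?_
    rw [hσpow, ← Subgroup.coe_pow, ← hxo, pow_orderOf_eq_one]
    simp
  set Z := Subgroup.center P with hZ
  have hxne : ∀ j, 0 < j → j < h → (x : G) ^ j ≠ 1 := by
    intro j hj hjh h1
    have h2 : x ^ j = 1 := Subtype.ext (by rw [Subgroup.coe_pow, Subgroup.coe_one]; exact h1)
    exact pow_ne_one_of_lt_orderOf (x := x) hj.ne' (by rw [hxo]; exact hjh) h2
  have hfixZ : ∀ (j : ℕ) (z : P), z ∈ Z → (σ ^ j) z = z := by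
    intro j z hz
    rw [pow_eq_pow_mod j hσh]
    rcases Nat.eq_zero_or_pos (j % h) with h0 | h0
    · rw [h0, pow_zero]; rfl
    refine Subtype.ext ?_
    rw [hσpow]
    have hm : (z : G) ∈ P ⊓ Subgroup.centralizer {(x : G) ^ (j % h)} :=
      (hfix _ (pow_mem x.2 _) (hxne _ h0 (Nat.mod_lt _ hh0))).ge ⟨z, hz, rfl⟩
    have hzc : (z : G) * (x : G) ^ (j % h) = (x : G) ^ (j % h) * z :=
      Subgroup.mem_centralizer_singleton_iff.mp hm.2
    rw [← hzc, mul_inv_cancel_right]
  have hZp : ∀ z ∈ Z, z ^ p = 1 := fun z hz => Cfsg.Agent.PGroup.special_center_pow hP.1 hz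
  -- fixed cosets
  have hfree : ∀ j, 0 < j → j < h → ∀ e : P, e⁻¹ * (σ ^ j) e ∈ Z → e ∈ Z := by
    intro j hj hjh e he
    set z := e⁻¹ * (σ ^ j) e with hzdef
    have he' : (σ ^ j) e = e * z := (mul_inv_cancel_left e _).symm
    have hm : ∀ m, ((σ ^ j) ^ m) e = e * z ^ m := by
      intro m
      induction m with
      | zero => simp
      | succ m ih =>
        rw [pow_succ', MulAut.mul_apply, ih, map_mul, map_pow, he', hfixZ j z he, pow_succ',
          mul_assoc]
    have hzh : z ^ h = 1 := by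
      have := hm h
      rw [← pow_mul, mul_comm, pow_mul, hσh, one_pow, MulAut.one_apply] at this
      exact mul_left_cancel (this.symm.trans (mul_one e).symm)
    have hz1 : z = 1 := by
      rw [← orderOf_eq_one_iff]
      exact Nat.eq_one_of_dvd_coprimes hcop (orderOf_dvd_of_pow_eq_one hzh)
        (orderOf_dvd_of_pow_eq_one (hZp z he))
    rw [hz1, mul_one] at he'
    have hc : (e : G) ∈ P ⊓ Subgroup.centralizer {(x : G) ^ j} := by
      refine ⟨e.2, Subgroup.mem_centralizer_singleton_iff.mpr ?_⟩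
      have := congrArg Subtype.val he'
      rw [hσpow] at this
      exact (mul_inv_eq_iff_eq_mul.mp this).symm
    rw [hfix _ (pow_mem x.2 _) (hxne _ hj hjh)] at hc
    obtain ⟨c, hc1, hc2⟩ := hc
    exact (show c = e from Subtype.ext hc2) ▸ hc1
  have hcomm : ∀ a b : P, ⁅a, b⁆ ∈ Z := Cfsg.Agent.PGroup.special_commutatorElement_mem hP.1
  have hpZ : ∀ a : P, a ^ p ∈ Z := Cfsg.Agent.PGroup.special_pow_mem_center hP.1
  have hnormal : ∀ A : Subgroup P, Z ≤ A → A.Normal := fun A hA => ⟨fun a ha g => by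
    have : g * a * g⁻¹ = ⁅g, a⁆ * a := by simp [commutatorElement_def, mul_assoc]
    rw [this]
    exact mul_mem (hA (hcomm g a)) ha⟩
  have hinvpow : ∀ (A : Subgroup P), (∀ a ∈ A, σ a ∈ A) → ∀ j : ℕ, ∀ a ∈ A, (σ ^ j) a ∈ A := by
    intro A hA j
    induction j with
    | zero => intro a ha; simpa using ha
    | succ j ih => intro a ha; rw [pow_succ', MulAut.mul_apply]; exact hA _ (ih a ha)
  have hinv' : ∀ (A : Subgroup P), (∀ a ∈ A, σ a ∈ A) → ∀ a, σ a ∈ A → a ∈ A := by
    intro A hA a ha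
    have := hinvpow A hA (h - 1) _ ha
    rwa [← MulAut.mul_apply, ← pow_succ, Nat.sub_add_cancel hh0, hσh, MulAut.one_apply] at this
  -- divisibility for invariant sections above the centre
  have hsec : ∀ (A : Subgroup P), Z ≤ A → (∀ a ∈ A, σ a ∈ A) →
      h ∣ Nat.card (A.map (QuotientGroup.mk' Z)) - 1 := by
    intro A hZA hA
    let τ : MulAut (A.map (QuotientGroup.mk' Z)) :=
      { toFun := fun v => ⟨QuotientGroup.congr Z Z σ (Subgroup.characteristic_iff_map_eq.mp inferInstance σ) v, by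
          obtain ⟨a, ha, hav⟩ := v.2
          exact ⟨σ a, hA a ha, hav ▸ rfl⟩⟩
        invFun := fun v => ⟨(QuotientGroup.congr Z Z σ (Subgroup.characteristic_iff_map_eq.mp inferInstance σ)).symm v, by
          obtain ⟨a, ha, hav⟩ := v.2
          refine ⟨σ.symm a, hinv' A hA _ (by rw [MulEquiv.apply_symm_apply]; exact ha), ?_⟩
          rw [MulEquiv.eq_symm_apply, ← hav]
          show (QuotientGroup.mk (σ (σ.symm a)) : P ⧸ Z) = QuotientGroup.mk a
          rw [MulEquiv.apply_symm_apply]⟩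
        left_inv := fun v => Subtype.ext (by simp)
        right_inv := fun v => Subtype.ext (by simp)
        map_mul' := fun v w => Subtype.ext (by simp) }
    have hτ : ∀ (j : ℕ) (v : A.map (QuotientGroup.mk' Z)) (a : P), (QuotientGroup.mk a : P ⧸ Z) = v →
        (((τ ^ j) v : A.map (QuotientGroup.mk' Z)) : P ⧸ Z) = QuotientGroup.mk ((σ ^ j) a) := by
      intro j
      induction j with
      | zero => intro v a ha; simpa using ha.symm
      | succ j ih =>
        intro v a ha
        rw [pow_succ', pow_succ', MulAut.mul_apply, MulAut.mul_apply]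
        show QuotientGroup.congr Z Z σ _ ((τ ^ j) v : P ⧸ Z) = _
        rw [ih v a ha]; rfl
    refine dvd_card_sub_one τ hh0 (MulEquiv.ext fun v => Subtype.ext ?_) (fun j hj hjh v hv => ?_)
    · obtain ⟨a, ha⟩ := QuotientGroup.mk_surjective (v : P ⧸ Z)
      rw [hτ h v a ha, hσh]
      exact ha
    · obtain ⟨a, ha⟩ := QuotientGroup.mk_surjective (v : P ⧸ Z)
      have := hτ j v a ha
      rw [hv, ← ha, QuotientGroup.eq] at this
      refine Subtype.ext (ha.symm.trans ((QuotientGroup.eq_one_iff a).mpr (hfree j hj hjh a this)))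
  have hcardmap : ∀ (A : Subgroup P), Z ≤ A →
      Nat.card (A.map (QuotientGroup.mk' Z)) * p = Nat.card A := by
    intro A hA
    rw [← hP.2, ← (QuotientGroup.mk' Z).domRestrict_range A, ← Subgroup.index_ker,
      MonoidHom.ker_domRestrict, QuotientGroup.ker_mk', mul_comm,
      ← Nat.card_congr (Subgroup.subgroupOfEquivOfLe hA).toEquiv, Subgroup.card_mul_index]
  -- a maximal invariant abelian subgroup
  obtain ⟨A, ⟨hZA, hAinv, hAab⟩, hAmax⟩ := Set.Finite.exists_maximal
    (s := {A : Subgroup P | Z ≤ A ∧ (∀ a ∈ A, σ a ∈ A) ∧ IsMulCommutative A}) (Set.toFinite _)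
    ⟨Z, le_rfl, fun a ha => by
      have := hfixZ 1 a ha
      rw [pow_one] at this
      rw [this]; exact ha,
      ⟨⟨fun a b => Subtype.ext (Subgroup.mem_center_iff.mp b.2 a)⟩⟩⟩
  set C := Subgroup.centralizer (A : Set P) with hC
  have hAC : A ≤ C := fun a ha => Subgroup.mem_centralizer_iff.mpr fun b hb =>
    congrArg Subtype.val (hAab.is_comm.comm ⟨b, hb⟩ ⟨a, ha⟩)
  rcases eq_or_lt_of_le hAC with hCA | hCA
  · right
    have hc := Cfsg.Agent.PGroup.extraspecial_card_self_centralizing hP hn hCA.symm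
    have := hsec A hZA hAinv
    rwa [Nat.eq_of_mul_eq_mul_right hp.pos ((hcardmap A hZA).trans (hc.trans (pow_succ p n)))] at this
  -- a non-degenerate irreducible section
  have hCinv : ∀ c ∈ C, σ c ∈ C := by
    intro c hc
    refine Subgroup.mem_centralizer_iff.mpr fun a ha => ?_
    obtain ⟨b, rfl⟩ := σ.surjective a
    rw [← map_mul, ← map_mul, Subgroup.mem_centralizer_iff.mp hc b (hinv' A hAinv b ha)]
  obtain ⟨W, ⟨hAW, hWC, hWinv⟩, hWmin⟩ := Set.Finite.exists_minimal
    (s := {W : Subgroup P | A < W ∧ W ≤ C ∧ ∀ a ∈ W, σ a ∈ W}) (Set.toFinite _)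
    ⟨C, hCA, le_rfl, hCinv⟩
  have hAWc : ∀ a ∈ A, ∀ w ∈ W, a * w = w * a := fun a ha w hw =>
    Subgroup.mem_centralizer_iff.mp (hWC hw) a ha
  set R := W ⊓ Subgroup.centralizer (W : Set P) with hR
  have hRA : R ≤ A := by
    by_contra hne
    have hAR : A ≤ R := le_inf hAW.le fun a ha =>
      Subgroup.mem_centralizer_iff.mpr fun w hw => (hAWc a ha w hw).symm
    have hRinv : ∀ a ∈ R, σ a ∈ R := by
      rintro a ⟨ha1, ha2⟩
      refine ⟨hWinv a ha1, Subgroup.mem_centralizer_iff.mpr fun w hw => ?_⟩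
      obtain ⟨b, rfl⟩ := σ.surjective w
      rw [← map_mul, ← map_mul, Subgroup.mem_centralizer_iff.mp ha2 b (hinv' W hWinv b hw)]
    have hRW := hWmin ⟨lt_of_le_not_ge hAR hne, inf_le_left.trans hWC, hRinv⟩ inf_le_left
    exact hAW.not_ge (hAmax ⟨hZA.trans hAW.le, hWinv, ⟨⟨fun u v => Subtype.ext
      (Subgroup.mem_centralizer_iff.mp (hRW v.2).2 u u.2)⟩⟩⟩ hAW.le)
  -- the module `W / A`
  set A' := A.subgroupOf W with hA'
  haveI : A.Normal := hnormal A hZA
  haveI : A'.Normal := by rw [hA']; infer_instance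
  letI : CommGroup (W ⧸ A') := { (inferInstance : Group (W ⧸ A')) with
    mul_comm := fun u v => by
      induction u using QuotientGroup.induction_on with | _ u =>
      induction v using QuotientGroup.induction_on with | _ v =>
      show ((u * v : W) : W ⧸ A') = ((v * u : W) : W ⧸ A')
      rw [QuotientGroup.eq, hA', Subgroup.mem_subgroupOf]
      have : (((u * v)⁻¹ * (v * u) : W) : P) = ⁅(v : P)⁻¹, (u : P)⁻¹⁆ := by
        simp [commutatorElement_def, mul_assoc]
      rw [this]
      exact hZA (hcomm _ _) }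
  have hmod : ∀ w : Additive (W ⧸ A'), p • w = 0 := fun w => by
    obtain ⟨u, hu⟩ := QuotientGroup.mk_surjective w.toMul
    show w.toMul ^ p = 1
    rw [← hu, ← QuotientGroup.mk_pow, QuotientGroup.eq_one_iff, hA', Subgroup.mem_subgroupOf]
    exact hZA (hpZ _)
  have hmodule : Module (ZMod p) (Additive (W ⧸ A')) := AddCommGroup.zmodModule hmod
  haveI : Nontrivial (Additive (W ⧸ A')) := by
    obtain ⟨w, hw, hwA⟩ := SetLike.exists_of_lt hAW
    refine ⟨⟨Additive.ofMul (QuotientGroup.mk ⟨w, hw⟩), 0, fun h0 => hwA ?_⟩⟩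
    exact (QuotientGroup.eq_one_iff (⟨w, hw⟩ : W)).mp (Additive.ofMul.injective h0)
  let σW : W →* W := (σ.toMonoidHom.comp W.subtype).codRestrict W fun w => hWinv w w.2
  let X : Module.End (ZMod p) (Additive (W ⧸ A')) :=
    AddMonoidHom.toZModLinearMap p (MonoidHom.toAdditive (QuotientGroup.map A' A' σW fun a ha => hAinv _ ha))
  have hXpow : ∀ (j : ℕ) (u : W), (X ^ j) (Additive.ofMul (QuotientGroup.mk u)) =
      Additive.ofMul (QuotientGroup.mk (⟨(σ ^ j) u, hinvpow W hWinv j u u.2⟩ : W)) := by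
    intro j
    induction j with
    | zero => intro u; rfl
    | succ j ih =>
      intro u
      rw [pow_succ', Module.End.mul_apply, ih]
      refine congrArg Additive.ofMul (congrArg QuotientGroup.mk (Subtype.ext ?_))
      show σ ((σ ^ j) (u : P)) = (σ ^ (j + 1)) (u : P)
      rw [pow_succ', MulAut.mul_apply]
  have hXh : X ^ h = 1 := LinearMap.ext fun m => by
    obtain ⟨u, hu⟩ := QuotientGroup.mk_surjective m.toMul
    rw [show m = Additive.ofMul (QuotientGroup.mk u) from hu.symm ▸ rfl, hXpow]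
    refine congrArg Additive.ofMul (congrArg QuotientGroup.mk (Subtype.ext ?_))
    show (σ ^ h) (u : P) = u
    rw [hσh, MulAut.one_apply]
  have hord : ∀ k, 0 < k → k < h → X ^ k ≠ 1 := by
    intro k hk hkh hX
    -- a fixed point of `σ ^ k` on `W / A` gives one on `P / Z`
    obtain ⟨w, hw, hwA⟩ := SetLike.exists_of_lt hAW
    have hwfix : ∀ u ∈ W, u⁻¹ * (σ ^ k) u ∈ A := fun u hu => by
      have := LinearMap.congr_fun hX (Additive.ofMul (QuotientGroup.mk (⟨u, hu⟩ : W)))
      rw [hXpow] at this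
      have h2 := QuotientGroup.eq.mp (Additive.ofMul.injective this)
      have h3 : ((σ ^ k) u)⁻¹ * u ∈ A := h2
      have := inv_mem h3
      rwa [mul_inv_rev, inv_inv] at this
    -- `σ ^ k` moves `a ↦ a⁻¹ σ^k a` bijectively on `A / Z`
    let D : A → A.map (QuotientGroup.mk' Z) := fun a =>
      ⟨QuotientGroup.mk' Z ((a : P)⁻¹ * (σ ^ k) a),
        Subgroup.mem_map_of_mem _ (mul_mem (inv_mem a.2) (hinvpow A hAinv k a a.2))⟩
    have hD : Function.Surjective D := by
      let D' : A.map (QuotientGroup.mk' Z) → A.map (QuotientGroup.mk' Z) := fun v =>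
        D ⟨v.2.choose, v.2.choose_spec.1⟩
      have hinj : Function.Injective D' := by
        intro v v' hvv
        have e : ((v.2.choose)⁻¹ * (σ ^ k) v.2.choose)⁻¹ * ((v'.2.choose)⁻¹ * (σ ^ k) v'.2.choose) ∈ Z :=
          QuotientGroup.eq.mp (congrArg Subtype.val hvv)
        have key : v'.2.choose * (v.2.choose)⁻¹ ∈ Z := by
          refine hfree k hk hkh _ ?_
          set a := v.2.choose
          set b := v'.2.choose
          set z := (a⁻¹ * (σ ^ k) a)⁻¹ * (b⁻¹ * (σ ^ k) b) with hz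
          have hb : (σ ^ k) b = b * (a⁻¹ * (σ ^ k) a) * z := by rw [hz]; group
          rw [map_mul, map_inv, hb, mul_assoc (b * _) z, ← Subgroup.mem_center_iff.mp e _,
            ← mul_assoc]
          refine (congrArg (fun t => t ∈ Z) ?_).mpr e
          group
        refine Subtype.ext (v.2.choose_spec.2.symm.trans (Eq.trans ?_ v'.2.choose_spec.2))
        show (QuotientGroup.mk v.2.choose : P ⧸ Z) = QuotientGroup.mk v'.2.choose
        rw [QuotientGroup.eq, Subgroup.Normal.mem_comm_iff (inferInstance : Z.Normal)]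
        exact key
      intro v
      obtain ⟨u, hu⟩ := Finite.injective_iff_surjective.mp hinj v
      exact ⟨_, hu⟩
    obtain ⟨a, ha⟩ := hD ⟨QuotientGroup.mk' Z (w⁻¹ * (σ ^ k) w), Subgroup.mem_map_of_mem _ (hwfix w hw)⟩
    have he : ((a : P)⁻¹ * (σ ^ k) a)⁻¹ * (w⁻¹ * (σ ^ k) w) ∈ Z :=
      QuotientGroup.eq.mp (congrArg Subtype.val ha)
    have key : w * (a : P)⁻¹ ∈ Z := by
      refine hfree k hk hkh _ ?_
      set z := ((a : P)⁻¹ * (σ ^ k) a)⁻¹ * (w⁻¹ * (σ ^ k) w) with hz
      have hb : (σ ^ k) w = w * ((a : P)⁻¹ * (σ ^ k) a) * z := by rw [hz]; group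
      rw [map_mul, map_inv, hb, mul_assoc (w * _) z, ← Subgroup.mem_center_iff.mp he _, ← mul_assoc]
      refine (congrArg (fun t => t ∈ Z) ?_).mpr he
      group
    have := mul_mem (hZA key) a.2
    rw [inv_mul_cancel_right] at this
    exact hwA this
  have hmk : ∀ m : Additive (W ⧸ A'), ∃ u : W, Additive.ofMul (QuotientGroup.mk u) = m := fun m => by
    obtain ⟨u, hu⟩ := QuotientGroup.mk_surjective m.toMul
    exact ⟨u, congrArg Additive.ofMul hu⟩
  have hcw : ∀ a ∈ A, ∀ w ∈ W, ⁅a, w⁆ = 1 := fun a ha w hw =>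
    commutatorElement_eq_one_iff_mul_comm.mpr (hAWc a ha w hw)
  letI : CommGroup Z := { (inferInstance : Group Z) with
    mul_comm := fun a b => Subtype.ext (Subgroup.mem_center_iff.mp b.2 a) }
  let β : W →* W →* Z := MonoidHom.mk' (fun u => MonoidHom.mk' (fun v => ⟨⁅(u : P), (v : P)⁆, hcomm _ _⟩)
      fun v v' => Subtype.ext (Cfsg.Agent.PGroup.commutatorElement_mul_right (hcomm _ _)))
    fun u u' => MonoidHom.ext fun v => Subtype.ext
      (Cfsg.Agent.PGroup.commutatorElement_mul_left (hcomm _ _))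
  let β' : W →* (W ⧸ A') →* Z := MonoidHom.mk' (fun u => QuotientGroup.lift A' (β u) fun a ha =>
      MonoidHom.mem_ker.mpr (Subtype.ext (by
        show ⁅(u : P), (a : P)⁆ = 1
        rw [← commutatorElement_inv]
        exact inv_eq_one.mpr (hcw _ ha _ u.2))))
    fun u u' => MonoidHom.ext fun v => by
      induction v using QuotientGroup.induction_on with | _ v =>
      exact congrArg (fun f => f v) (β.map_mul u u')
  let β'' : (W ⧸ A') →* (W ⧸ A') →* Z := QuotientGroup.lift A' β' fun a ha =>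
    MonoidHom.mem_ker.mpr (MonoidHom.ext fun v => by
      induction v using QuotientGroup.induction_on with | _ v =>
      exact Subtype.ext (hcw _ ha _ v.2))
  let B : Additive (W ⧸ A') →+ Additive (W ⧸ A') →+ Additive Z :=
    AddMonoidHom.mk' (fun u => MonoidHom.toAdditive (β'' u.toMul))
      fun u u' => AddMonoidHom.ext fun v => congrArg (fun f => Additive.ofMul (f v.toMul))
        (β''.map_mul u.toMul u'.toMul)
  obtain ⟨i, hi⟩ := exists_dvd_pow_add_one B X hh0 hXh hord (fun L hL => by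
      let W₁ : Subgroup P :=
        { carrier := {u | ∃ hu : u ∈ W, Additive.ofMul (QuotientGroup.mk (⟨u, hu⟩ : W)) ∈ L}
          one_mem' := ⟨one_mem W, L.zero_mem⟩
          mul_mem' := fun h1 h2 => Exists.intro (mul_mem h1.choose h2.choose)
            (L.add_mem h1.choose_spec h2.choose_spec)
          inv_mem' := fun h1 => Exists.intro (inv_mem h1.choose) (L.neg_mem h1.choose_spec) }
      have hAW₁ : A ≤ W₁ := fun a ha => ⟨hAW.le ha, by
        rw [show ((⟨a, hAW.le ha⟩ : W) : W ⧸ A') = 1 from (QuotientGroup.eq_one_iff _).mpr ha]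
        exact L.zero_mem⟩
      have hW₁inv : ∀ u ∈ W₁, σ u ∈ W₁ := fun u h1 => ⟨hWinv u h1.choose, hL _ h1.choose_spec⟩
      have hW₁W : W₁ ≤ W := fun u h1 => h1.choose
      by_cases hne : A = W₁
      · left
        rw [Submodule.eq_bot_iff]
        intro m hm
        obtain ⟨u, rfl⟩ := hmk m
        have : (u : P) ∈ A := hne.ge ⟨u.2, hm⟩
        rw [show (u : W ⧸ A') = 1 from (QuotientGroup.eq_one_iff _).mpr this]; rfl
      · right
        rw [Submodule.eq_top_iff']
        intro m
        obtain ⟨u, rfl⟩ := hmk m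
        exact (hWmin ⟨lt_of_le_of_ne hAW₁ hne, hW₁W.trans hWC, hW₁inv⟩ hW₁W u.2).2)
    (fun u v => by
      obtain ⟨u, rfl⟩ := hmk u
      obtain ⟨v, rfl⟩ := hmk v
      refine congrArg Additive.ofMul (Subtype.ext ?_)
      show ⁅σ (u : P), σ (v : P)⁆ = ⁅(u : P), (v : P)⁆
      rw [← map_commutatorElement]
      simpa using hfixZ 1 _ (hcomm _ _))
    (fun v hv => by
      obtain ⟨v, rfl⟩ := hmk v
      have : (v : P) ∈ A := hRA ⟨v.2, Subgroup.mem_centralizer_iff.mpr fun w hw =>
        commutatorElement_eq_one_iff_mul_comm.mp (congrArg Subtype.val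
          (Additive.ofMul.injective (hv (Additive.ofMul (QuotientGroup.mk (⟨w, hw⟩ : W))))))⟩
      rw [show (v : W ⧸ A') = 1 from (QuotientGroup.eq_one_iff _).mpr this]; rfl)
  have h2n := hsec ⊤ le_top fun a _ => Subgroup.mem_top _
  rw [Nat.eq_of_mul_eq_mul_right hp.pos ((hcardmap ⊤ le_top).trans
    (Subgroup.card_top.trans (hn.trans (pow_succ p (2 * n)))))] at h2n
  exact dvd_add_or_sub hh0 hcop.symm hi h2n hp.pos

end Cfsg.Agent.S3767
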