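import Cfsg.Prelude.Def_Solvable
import Cfsg.Agent.Lib.FrobeniusGroup

/-! Quotients of Frobenius groups. -/

set_option autoImplicit false

open scoped Pointwise

namespace Cfsg.Agent.S3768

open Subgroup

variable {G : Type*} [Group G] [Finite G]

/-- A normal subgroup either contains the Frobenius kernel or lies in it. -/
theorem normal_le_kernel {R K N : Subgroup G} (hR : Cfsg.IsFrobeniusComplement R) [N.Normal]
    [K.Normal] (hK : (K : Set G) = Cfsg.frobeniusKernel R) (hc : IsComplement' K R)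
    (hKN : ¬ K ≤ N) : N ≤ K := by
  intro x hx
  by_contra hxK
  apply hKN
  rw [← SetLike.mem_coe, hK, Cfsg.Agent.Frobenius.mem_frobeniusKernel] at hxK
  push Not at hxK
  obtain ⟨hx1, g, hg⟩ := hxK
  have hfpf := Cfsg.Agent.Frobenius.fpf_of_disjoint
    (Cfsg.Agent.Frobenius.isFrobeniusComplement_conj hR g)
    (SZ.isComplement'_conj hc g).disjoint (SZ.mem_conj_smul.mpr hg) hx1
  let f : K → K := fun k => ⟨x⁻¹ * (k : G)⁻¹ * x * k, by
    have := (inferInstance : K.Normal).conj_mem _ (K.inv_mem k.2) x⁻¹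
    simpa using mul_mem this k.2⟩
  have hinj : Function.Injective f := by
    intro a b hab
    have h : x⁻¹ * (a : G)⁻¹ * x * a = x⁻¹ * (b : G)⁻¹ * x * b := congrArg Subtype.val hab
    have h2 : (b : G) * (a : G)⁻¹ ∈ K ⊓ Subgroup.centralizer {x} := by
      refine ⟨K.mul_mem b.2 (K.inv_mem a.2), mem_centralizer_singleton_iff.mpr ?_⟩
      have h3 : (b : G) * (a : G)⁻¹ * x = x * ((b : G) * (a : G)⁻¹) := by
        calc (b : G) * (a : G)⁻¹ * x = b * x * (x⁻¹ * (a : G)⁻¹ * x * a) * (a : G)⁻¹ := by group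
          _ = b * x * (x⁻¹ * (b : G)⁻¹ * x * b) * (a : G)⁻¹ := by rw [h]
          _ = x * ((b : G) * (a : G)⁻¹) := by group
      first | exact h3 | exact h3.symm
    rw [hfpf, mem_bot, mul_inv_eq_one] at h2
    exact Subtype.ext h2.symm
  intro k hk
  obtain ⟨a, ha⟩ := (Finite.injective_iff_surjective.mp hinj) ⟨k, hk⟩
  have h : x⁻¹ * (a : G)⁻¹ * x * a = k := congrArg Subtype.val ha
  rw [← h]
  have := mul_mem (inv_mem hx) ((inferInstance : N.Normal).conj_mem _ hx (a : G)⁻¹)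
  simpa [mul_assoc] using this

/-- Centralisers in the quotient by a subgroup of the kernel. -/
theorem mem_of_comm_mem {R K N : Subgroup G} (hR : Cfsg.IsFrobeniusComplement R) [N.Normal]
    (hd : Disjoint K R) (hNK : N ≤ K) {k r : G} (hk : k ∈ K) (hr : r ∈ R) (hr1 : r ≠ 1)
    (h : k * r * k⁻¹ * r⁻¹ ∈ N) : k ∈ N := by
  have hfpf := Cfsg.Agent.Frobenius.fpf_of_disjoint hR hd hr hr1
  let f : N → N := fun n => ⟨(n : G) * r * (n : G)⁻¹ * r⁻¹, by
    have := mul_mem n.2 ((inferInstance : N.Normal).conj_mem _ (N.inv_mem n.2) r)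
    simpa [mul_assoc] using this⟩
  have key : ∀ a b : G, a ∈ K → b ∈ K → a * r * a⁻¹ * r⁻¹ = b * r * b⁻¹ * r⁻¹ → a = b := by
    intro a b ha hb hab
    have h2 : a⁻¹ * b ∈ K ⊓ Subgroup.centralizer {r} := by
      refine ⟨K.mul_mem (K.inv_mem ha) hb, mem_centralizer_singleton_iff.mpr ?_⟩
      have h3 : a⁻¹ * b * r = r * (a⁻¹ * b) := by
        calc a⁻¹ * b * r = a⁻¹ * (b * r * b⁻¹ * r⁻¹) * r * b := by group
          _ = a⁻¹ * (a * r * a⁻¹ * r⁻¹) * r * b := by rw [hab]
          _ = r * (a⁻¹ * b) := by group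
      first | exact h3 | exact h3.symm
    rw [hfpf, mem_bot, inv_mul_eq_one] at h2
    exact h2
  have hinj : Function.Injective f := fun a b hab =>
    Subtype.ext (key a b (hNK a.2) (hNK b.2) (congrArg Subtype.val hab))
  obtain ⟨n, hn⟩ := (Finite.injective_iff_surjective.mp hinj) ⟨_, h⟩
  have := key n k (hNK n.2) hk (congrArg Subtype.val hn)
  rw [← this]; exact n.2

theorem result {G : Type*} [Group G] [Finite G] (R : Subgroup G) (hR : Cfsg.IsFrobeniusComplement R) (N : Subgroup G) [N.Normal] (hKN : ¬ Cfsg.frobeniusKernel R ⊆ N) : Cfsg.IsFrobeniusComplement (R.map (QuotientGroup.mk' N)) ∧ Cfsg.frobeniusKernel (R.map (QuotientGroup.mk' N)) = QuotientGroup.mk' N '' Cfsg.frobeniusKernel R := by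
  obtain ⟨K, hK, hKn, hc⟩ := Cfsg.Agent.Frobenius.exists_kernel hR
  have hKN' : ¬ K ≤ N := fun h => hKN (hK ▸ h)
  have hNK : N ≤ K := normal_le_kernel hR hK hc hKN'
  set π := QuotientGroup.mk' N with hπ
  have hπs : Function.Surjective π := QuotientGroup.mk'_surjective N
  haveI : (K.map π).Normal := hKn.map π hπs
  have hmem : ∀ y, π y = 1 ↔ y ∈ N := fun y => by rw [hπ]; exact QuotientGroup.eq_one_iff y
  have hdis : Disjoint (K.map π) (R.map π) := by
    rw [disjoint_def]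
    rintro _ ⟨k, hk, rfl⟩ ⟨r, hr, hrk⟩
    have : k⁻¹ * r ∈ N := by rw [← hmem, map_mul, map_inv, hrk, inv_mul_cancel]
    have hrK : r ∈ K := by simpa using mul_mem hk (hNK this)
    rw [← hrk, disjoint_def.mp hc.disjoint hrK hr, map_one]
  have hc' : IsComplement' (K.map π) (R.map π) := by
    apply isComplement'_of_disjoint_and_mul_eq_univ hdis
    refine Set.eq_univ_of_forall fun y => ?_
    obtain ⟨g, rfl⟩ := hπs y
    have hg : g ∈ (K : Set G) * R := by rw [hc.mul_eq]; exact Set.mem_univ _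
    obtain ⟨k, hk, r, hr, rfl⟩ := hg
    exact ⟨π k, ⟨k, hk, rfl⟩, π r, ⟨r, hr, rfl⟩, (map_mul π k r).symm⟩
  have hK' : K.map π ≠ ⊥ := by
    intro h
    rw [Subgroup.map_eq_bot_iff, hπ, QuotientGroup.ker_mk'] at h
    exact hKN' h
  have hR' : R.map π ≠ ⊥ := by
    intro h
    rw [Subgroup.map_eq_bot_iff, hπ, QuotientGroup.ker_mk'] at h
    exact hR.1 (eq_bot_iff.mpr fun r hr => mem_bot.mpr
      (disjoint_def.mp hc.disjoint (hNK (h hr)) hr))
  have hFC : Cfsg.IsFrobeniusComplement (R.map π) := by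
    refine Cfsg.Agent.Frobenius.isFrobeniusComplement_of_fpf hc' hK' hR' ?_
    rintro _ ⟨r, hr, rfl⟩ hr1
    rw [eq_bot_iff]
    rintro _ ⟨⟨k, hk, rfl⟩, hc1⟩
    have hcomm : π k * π r = π r * π k := by
      have := mem_centralizer_singleton_iff.mp hc1
      first | exact this | exact this.symm
    refine mem_bot.mpr ((hmem k).mpr (mem_of_comm_mem hR hc.disjoint hNK hk hr
      (fun e => hr1 (by rw [e, map_one])) ?_))
    rw [← hmem]; simp only [map_mul, map_inv]; rw [hcomm]; group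
  refine ⟨hFC, ?_⟩
  obtain ⟨K₀, hK₀, hK₀n, hc₀⟩ := Cfsg.Agent.Frobenius.exists_kernel hFC
  rw [← hK₀, ← hK, ← coe_map]
  congr 1
  refine (eq_of_le_of_card_ge ?_ ?_).symm
  · intro y hy
    rw [← SetLike.mem_coe, hK₀, Cfsg.Agent.Frobenius.mem_frobeniusKernel]
    by_cases hy1 : y = 1
    · exact Or.inl hy1
    · refine Or.inr fun g hg => hy1 ?_
      have h1 : g⁻¹ * y * g ∈ K.map π := by
        simpa using (inferInstance : (K.map π).Normal).conj_mem y hy g⁻¹
      have := disjoint_def.mp hdis h1 hg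
      calc y = g * (g⁻¹ * y * g) * g⁻¹ := by group
        _ = 1 := by rw [this]; group
  · rw [← hc₀.index_eq_card, ← hc'.index_eq_card]

end Cfsg.Agent.S3768
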