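import Cfsg.Statements.S3769
import Cfsg.Agent.PrimeFPF.Group
import Cfsg.Agent.FGS.InvariantHall
-- import your own Cfsg.Agent.* helpers here

set_option autoImplicit false
open Cfsg

namespace Cfsg.Agent.S3769

/-- Let G and V be subgroups of a finite group with G solvable of odd order normalizing V, V an elementary abelian ℓ-group for a prime ℓ not dividing the order of G, and suppose G has a normal Hall subgroup K with a complement R of prime order. If C_V(R) = 1, then [R, K] centralizes V. -/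
theorem result {X : Type*} [Group X] [Finite X] (G : Subgroup X) (hsolv : Group.IsSolvable G) (hodd : Odd (Nat.card G)) (V : Subgroup X) {ℓ : ℕ} (hℓ : ℓ.Prime) (hV : Cfsg.IsElementaryAbelian ℓ V) (hℓG : ¬ ℓ ∣ Nat.card G) (hGV : G ≤ Subgroup.normalizer (V : Set X)) (K R : Subgroup X) (hKG : K ≤ G) (hKn : G ≤ Subgroup.normalizer (K : Set X)) (hHall : (Nat.card K).Coprime (K.relIndex G)) (hRG : R ≤ G) (hR : (Nat.card R).Prime) (hKR : K ⊓ R = ⊥) (hKRG : K ⊔ R = G) (hCV : V ⊓ Subgroup.centralizer (R : Set X) = ⊥) : ⁅R, K⁆ ≤ Subgroup.centralizer (V : Set X) := by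
  haveI := Fact.mk hR
  obtain ⟨t, ht⟩ := isCyclic_iff_exists_zpowers_eq_top.mp (isCyclic_of_prime_card (α := R) rfl)
  have htr : (t : X) ^ Nat.card R = 1 := by
    rw [← SubmonoidClass.coe_pow, pow_card_eq_one']
    rfl
  have hRn : R ≤ Subgroup.normalizer (K : Set X) := hRG.trans hKn
  have hgen : ∀ g, Commute (t : X) g → g ∈ Subgroup.centralizer (R : Set X) := by
    intro g hg x hx
    obtain ⟨i, hi⟩ := (ht ▸ Subgroup.mem_top (⟨x, hx⟩ : R) : (⟨x, hx⟩ : R) ∈ Subgroup.zpowers t)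
    have hxi : ((t : X)) ^ i = x := by simpa using congrArg Subtype.val hi
    rw [← hxi]
    exact (hg.zpow_left i).eq
  have hcop : (Nat.card R).Coprime (Nat.card K) := by
    have h : K.relIndex G = Nat.card R := by
      haveI : (K.subgroupOf G).Normal := Subgroup.normal_subgroupOf_of_le_normalizer hKn
      have hsup : R.subgroupOf G ⊔ K.subgroupOf G = ⊤ := by
        rw [← Subgroup.subgroupOf_sup hRG hKG, sup_comm, hKRG, Subgroup.subgroupOf_self]
      have h1 := Subgroup.relIndex_sup_right (R.subgroupOf G) (K.subgroupOf G)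
      have hbot : K.subgroupOf G ⊓ R.subgroupOf G = ⊥ := le_bot_iff.mp fun x hx =>
        Subgroup.mem_bot.mpr (Subtype.ext (Subgroup.mem_bot.mp (hKR ▸ (⟨hx.1, hx.2⟩ : (x : X) ∈ K ⊓ R))))
      rw [hsup, Subgroup.relIndex_top_right, ← Subgroup.inf_relIndex_right, hbot,
        Subgroup.relIndex_bot_left, Nat.card_congr (Subgroup.subgroupOfEquivOfLe hRG).toEquiv] at h1
      exact h1
    rw [h] at hHall
    exact hHall.symm
  have hsolvK : Group.IsSolvable K := solvable_of_solvable_injective (Subgroup.inclusion_injective hKG)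
  have key : ∀ g ∈ Subgroup.normalizer (V : Set X), ∀ c ∈ Subgroup.centralizer (V : Set X),
      g * c * g⁻¹ ∈ Subgroup.centralizer (V : Set X) := by
    intro g hg c hc v hv
    have hv' : g⁻¹ * v * g ∈ V := by
      simpa using (Subgroup.mem_normalizer_iff.mp (Subgroup.inv_mem _ hg) v).mp hv
    calc v * (g * c * g⁻¹) = g * ((g⁻¹ * v * g) * c) * g⁻¹ := by group
      _ = g * (c * (g⁻¹ * v * g)) * g⁻¹ := by rw [hc _ hv']
      _ = g * c * g⁻¹ * v := by group
  have hta : ∀ a ∈ K, (t : X) * a * (t : X)⁻¹ ∈ Subgroup.normalizer (V : Set X) := fun a ha =>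
    hGV (G.mul_mem (G.mul_mem (hRG t.2) (hKG ha)) (G.inv_mem (hRG t.2)))
  let S : Subgroup X :=
    { carrier := {k | k ∈ K ∧ (t : X) * k * (t : X)⁻¹ * k⁻¹ ∈ Subgroup.centralizer (V : Set X)}
      one_mem' := ⟨K.one_mem, by simp [Subgroup.one_mem]⟩
      mul_mem' := fun {a b} ha hb => ⟨K.mul_mem ha.1 hb.1, by
        have e : (t : X) * (a * b) * (t : X)⁻¹ * (a * b)⁻¹
            = ((t : X) * a * (t : X)⁻¹) * ((t : X) * b * (t : X)⁻¹ * b⁻¹) * ((t : X) * a * (t : X)⁻¹)⁻¹
              * ((t : X) * a * (t : X)⁻¹ * a⁻¹) := by group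
        rw [e]
        exact Subgroup.mul_mem _ (key _ (hta a ha.1) _ hb.2) ha.2⟩
      inv_mem' := fun {a} ha => ⟨K.inv_mem ha.1, by
        have e : (t : X) * a⁻¹ * (t : X)⁻¹ * a⁻¹⁻¹
            = ((t : X) * a * (t : X)⁻¹)⁻¹ * ((t : X) * a * (t : X)⁻¹ * a⁻¹)⁻¹ * (((t : X) * a * (t : X)⁻¹)⁻¹)⁻¹ := by
          group
        rw [e]
        exact key _ (Subgroup.inv_mem _ (hta a ha.1)) _ (Subgroup.inv_mem _ ha.2)⟩ }
  have hSK : S ≤ K := fun k hk => hk.1
  have hKS : K ≤ S := by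
    have hdvd : Nat.card K ∣ Nat.card S := by
      rw [Nat.dvd_iff_prime_pow_dvd_dvd]
      intro q n hq hn
      rcases Nat.eq_zero_or_pos n with rfl | hn0
      · simp
      have hqK : q ∣ Nat.card K := (dvd_pow_self q hn0.ne').trans hn
      obtain ⟨Q, hQ, hRQ⟩ := Cfsg.Agent.FGS.exists_invariant_hall (π := {q}) R K hRn hcop hsolvK
      obtain ⟨hQK, hQq, hQi⟩ := hQ
      haveI := Fact.mk hq
      have hQp : IsPGroup q Q := by
        obtain ⟨m, hm⟩ : ∃ m, Nat.card Q = q ^ m :=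
          ⟨(Nat.card Q).primeFactorsList.length,
            Nat.eq_prime_pow_of_unique_prime_dvd Nat.card_pos.ne' fun {d} hd hdQ => hQq d hd hdQ⟩
        exact IsPGroup.of_card hm
      have hcard : Nat.card Q * Q.relIndex K = Nat.card K := by
        rw [← Nat.card_congr (Subgroup.subgroupOfEquivOfLe hQK).toEquiv, Subgroup.relIndex,
          Subgroup.card_mul_index]
      have hqn : q ^ n ∣ Nat.card Q := by
        refine ((hq.coprime_iff_not_dvd.mpr (hQi q hq rfl)).pow_left n).dvd_of_dvd_mul_right ?_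
        rw [hcard]; exact hn
      refine hqn.trans (Subgroup.card_dvd_of_le fun x hx => ⟨hQK hx, ?_⟩)
      have hqG : q ∣ Nat.card G := hqK.trans (Subgroup.card_dvd_of_le hKG)
      refine Cfsg.Agent.PrimeFPF.commutator_mem_centralizer hℓ hq hR ?_ ?_ ?_ hV htr hQp (hRQ t.2)
        (hGV (hRG t.2)) (hQK.trans (hKG.trans hGV)) ?_ ?_ hx
      · rintro rfl
        exact hR.ne_one (Nat.Coprime.eq_one_of_dvd hcop hqK)
      · rintro rfl; exact hℓG hqG
      · intro h; exact hℓG (h ▸ Subgroup.card_dvd_of_le hRG)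
      · intro v hv hc
        have : v ∈ V ⊓ Subgroup.centralizer (R : Set X) := ⟨hv, hgen v hc⟩
        rw [hCV] at this
        exact Subgroup.mem_bot.mp this
      · intro h2
        subst h2
        exact absurd hodd (Nat.not_odd_iff_even.mpr (even_iff_two_dvd.mpr hqG))
    exact (Subgroup.eq_of_le_of_card_ge hSK (Nat.le_of_dvd Nat.card_pos hdvd)).ge
  have hnat : ∀ (i : ℕ), ∀ k ∈ K,
      (t : X) ^ i * k * ((t : X) ^ i)⁻¹ * k⁻¹ ∈ Subgroup.centralizer (V : Set X) := by
    intro i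
    induction i with
    | zero => intro k _; simp [Subgroup.one_mem]
    | succ i ih =>
      intro k hk
      have hk' : (t : X) ^ i * k * ((t : X) ^ i)⁻¹ ∈ K :=
        (Subgroup.mem_normalizer_iff.mp (hRn (R.pow_mem t.2 i)) k).mp hk
      have e : (t : X) ^ (i + 1) * k * ((t : X) ^ (i + 1))⁻¹ * k⁻¹
          = ((t : X) * ((t : X) ^ i * k * ((t : X) ^ i)⁻¹) * (t : X)⁻¹
              * ((t : X) ^ i * k * ((t : X) ^ i)⁻¹)⁻¹) * ((t : X) ^ i * k * ((t : X) ^ i)⁻¹ * k⁻¹) := by
        rw [pow_succ']; group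
      rw [e]
      exact Subgroup.mul_mem _ (hKS hk').2 (ih k hk)
  rw [Subgroup.commutator_le]
  intro g hg k hk
  have hg' : (⟨g, hg⟩ : R) ∈ Submonoid.powers t :=
    mem_powers_iff_mem_zpowers.mpr (ht ▸ Subgroup.mem_top _)
  obtain ⟨i, hi⟩ := hg'
  have hgi : (t : X) ^ i = g := by simpa using congrArg Subtype.val hi
  rw [commutatorElement_def, ← hgi]
  exact hnat i k hk

end Cfsg.Agent.S3769
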