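import Cfsg.Statements.S3771
import Cfsg.Agent.PGroup.Rank
import Cfsg.Agent.PGroup.Frattini

set_option autoImplicit false
open Cfsg
open scoped commutatorElement

namespace Cfsg.Agent.S3771

/-- Let p be a prime and R a finite p-group of p-rank at most 2 (no elementary abelian subgroup of order p³) in which every element has order dividing p. Then R has order at most p³. -/
theorem result {R : Type*} [Group R] [Finite R] {p : ℕ} [Fact p.Prime] (hR : IsPGroup p R) (hrank : Cfsg.PRankLE p 2 R) (hexp : ∀ x : R, x ^ p = 1) : Nat.card R ≤ p ^ 3 := by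
  classical
  have hp := (Fact.out : p.Prime)
  obtain ⟨A, hAn, hAc, -, hCA⟩ := Cfsg.Agent.PGroup.exists_self_centralizing_normal_abelian
    (A := (⊥ : Subgroup R)) hR inferInstance
  have hA2 : Nat.card A ≤ p ^ 2 := Cfsg.Agent.PGroup.card_le_of_exponent_of_pRankLE hexp hrank A hAc
  by_cases hcent : A ≤ Subgroup.center R
  · have htop : A = ⊤ := by
      rw [← hCA, eq_top_iff]
      exact fun g _ => Subgroup.mem_centralizer_iff.mpr fun a ha =>
        (Subgroup.mem_center_iff.mp (hcent ha) g).symm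
    rw [htop, Subgroup.card_top] at hA2
    exact hA2.trans (Nat.pow_le_pow_right hp.pos (by norm_num))
  have hA1 : A ≠ ⊥ := fun h => hcent (h ▸ bot_le)
  -- `Z₀ = A ∩ Z(R)` has index `p` in `A`
  have hZne := Cfsg.Agent.PGroup.inf_center_ne_bot hR A hA1
  obtain ⟨z, hz⟩ := exists_prime_orderOf_dvd_card' (G := ↥(A ⊓ Subgroup.center R)) p
    ((hR.to_subgroup _).card_eq_or_dvd.resolve_left fun h => hZne (Subgroup.card_eq_one.mp h))
  obtain ⟨a₀, ha₀, ha₀'⟩ := SetLike.not_le_iff_exists.mp hcent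
  have hgen : A ≤ (A ⊓ Subgroup.center R) ⊔ Subgroup.zpowers a₀ := by
    set B := (A ⊓ Subgroup.center R) ⊔ Subgroup.zpowers a₀
    have hBA : B ≤ A := sup_le inf_le_left (Subgroup.zpowers_le.mpr ha₀)
    refine (Subgroup.eq_of_le_of_card_ge hBA (hA2.trans ?_)).ge
    obtain ⟨k, hk⟩ := IsPGroup.iff_card.mp (hR.to_subgroup B)
    rw [hk]
    refine Nat.pow_le_pow_right hp.pos ?_
    by_contra hlt
    have hlt' : A ⊓ Subgroup.center R < B := lt_of_le_of_ne le_sup_left fun h =>
      ha₀' (h.ge (Subgroup.mem_sup_right (Subgroup.mem_zpowers a₀)) : a₀ ∈ A ⊓ Subgroup.center R).2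
    obtain ⟨j, hj⟩ := IsPGroup.iff_card.mp (hR.to_subgroup (A ⊓ Subgroup.center R))
    have h1 : p ^ j < p ^ k := by
      rw [← hj, ← hk]
      exact lt_of_le_of_ne (Subgroup.card_le_of_le hlt'.le) fun h =>
        hlt'.ne (Subgroup.eq_of_le_of_card_ge hlt'.le h.ge)
    have hj1 : 1 ≤ j := by
      by_contra h0
      rw [show j = 0 by omega, pow_zero] at hj
      exact hZne (Subgroup.card_eq_one.mp hj)
    have := (Nat.pow_lt_pow_iff_right hp.one_lt).mp h1
    omega
  set C := Subgroup.centralizer ({a₀} : Set R) with hC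
  have hCle : C ≤ A := by
    rw [← hCA]
    intro g hg
    refine Subgroup.mem_centralizer_iff.mpr fun a ha => ?_
    have hle : A ≤ Subgroup.centralizer ({g} : Set R) := by
      refine hgen.trans (sup_le (inf_le_right.trans (Subgroup.center_le_centralizer _))
        (Subgroup.zpowers_le.mpr (Subgroup.mem_centralizer_singleton_iff.mpr ?_)))
      exact (Subgroup.mem_centralizer_singleton_iff.mp hg).symm
    exact Subgroup.mem_centralizer_singleton_iff.mp (hle ha)
  have hmem : ∀ x : R, ⁅a₀, x⁆ ∈ ⁅A, (⊤ : Subgroup R)⁆ := fun x =>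
    Subgroup.commutator_mem_commutator ha₀ (Subgroup.mem_top x)
  let f : R ⧸ C → ↥⁅A, (⊤ : Subgroup R)⁆ := fun q => ⟨_, hmem q.out⟩
  have hf : Function.Injective f := by
    intro q r h
    rw [← QuotientGroup.out_eq' q, ← QuotientGroup.out_eq' r, QuotientGroup.eq,
      Subgroup.mem_centralizer_singleton_iff]
    have h' := congrArg Subtype.val h
    simp only [f, commutatorElement_def] at h'
    have h2 : q.out * a₀⁻¹ * q.out⁻¹ = r.out * a₀⁻¹ * r.out⁻¹ :=
      mul_left_cancel (a := a₀) (by simpa [mul_assoc] using h')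
    have h3 : q.out * a₀ * q.out⁻¹ = r.out * a₀ * r.out⁻¹ := by
      simpa [mul_assoc] using congrArg (fun y => y⁻¹) h2
    calc q.out⁻¹ * r.out * a₀ = q.out⁻¹ * (r.out * a₀ * r.out⁻¹) * r.out := by group
      _ = a₀ * (q.out⁻¹ * r.out) := by rw [← h3]; group
  have hlt := Cfsg.Agent.PGroup.commutator_top_lt hR hA1
  have hcomm : Nat.card ↥⁅A, (⊤ : Subgroup R)⁆ ≤ p := by
    obtain ⟨k, hk⟩ := IsPGroup.iff_card.mp (hR.to_subgroup ⁅A, (⊤ : Subgroup R)⁆)
    have : p ^ k < p ^ 2 := by
      rw [← hk]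
      exact (lt_of_le_of_ne (Subgroup.card_le_of_le hlt.le) fun h =>
        hlt.ne (Subgroup.eq_of_le_of_card_ge hlt.le h.ge)).trans_le hA2
    have := (Nat.pow_lt_pow_iff_right hp.one_lt).mp this
    rw [hk]
    exact (Nat.pow_le_pow_right hp.pos (show k ≤ 1 by omega)).trans (pow_one p).le
  rw [← C.card_mul_index, pow_succ]
  refine Nat.mul_le_mul ((Subgroup.card_le_of_le hCle).trans hA2) ?_
  rw [Subgroup.index_eq_card]
  exact (Nat.card_le_card_of_injective f hf).trans hcomm

end Cfsg.Agent.S3771
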