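import Cfsg.Statements.S3772
import Cfsg.Agent.PGroup.Frattini
import Cfsg.Agent.PGroup.SquareMap

set_option linter.style.haveILetI false
open scoped commutatorElement
set_option maxHeartbeats 1000000

set_option autoImplicit false
open Cfsg

namespace Cfsg.Agent.S3772

/-- Let G be a finite 2-group whose Frattini subgroup Φ(G) has order 2, with |G : Φ(G)| = 2^d, and let j be the number of elements x of G with x² = 1. Then j = 2^d, or j = 2^d + 2^(d−r) or j = 2^d − 2^(d−r) for some positive integer r with 2r ≤ d. Moreover if d = 2r and j is 2^d + 2^r or 2^d − 2^r, then G is extraspecial. -/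
theorem result {G : Type*} [Group G] [Finite G] (hG : IsPGroup 2 G) (hΦ : Nat.card (frattini G) = 2) (d : ℕ) (hd : (frattini G).index = 2 ^ d) : (Nat.card {x : G // x ^ 2 = 1} = 2 ^ d ∨ ∃ r : ℕ, 1 ≤ r ∧ 2 * r ≤ d ∧ (Nat.card {x : G // x ^ 2 = 1} = 2 ^ d + 2 ^ (d - r) ∨ Nat.card {x : G // x ^ 2 = 1} + 2 ^ (d - r) = 2 ^ d)) ∧ (∀ r : ℕ, d = 2 * r → (Nat.card {x : G // x ^ 2 = 1} = 2 ^ d + 2 ^ r ∨ Nat.card {x : G // x ^ 2 = 1} + 2 ^ r = 2 ^ d) → Cfsg.IsExtraspecial 2 G) := by
  classical
  haveI : Fact (Nat.Prime 2) := ⟨Nat.prime_two⟩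
  set M := frattini G with hMdef
  haveI : M.Normal := by rw [hMdef]; infer_instance
  have hMc : M ≤ Subgroup.center G := by
    intro m hm
    refine Subgroup.mem_center_iff.mpr fun g => ?_
    have hconj : g * m * g⁻¹ ∈ M := (inferInstance : M.Normal).conj_mem m hm g
    obtain ⟨a, b, hab, huniv⟩ := Nat.card_eq_two_iff.mp hΦ
    by_cases hm1 : m = 1
    · subst hm1; simp
    have h1 : g * m * g⁻¹ ≠ 1 := fun h => hm1 (by
      have := congrArg (fun x => g⁻¹ * x * g) h
      simpa [mul_assoc] using this)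
    have key : ∀ u v : M, u ≠ 1 → v ≠ 1 → u = v := by
      intro u v hu hv
      have hu' := Set.eq_univ_iff_forall.mp huniv u
      have hv' := Set.eq_univ_iff_forall.mp huniv v
      have h1' := Set.eq_univ_iff_forall.mp huniv 1
      simp only [Set.mem_insert_iff, Set.mem_singleton_iff] at hu' hv' h1'
      rcases hu' with rfl | rfl <;> rcases hv' with rfl | rfl <;> rcases h1' with h | h <;>
        first | rfl | exact absurd h.symm hu | exact absurd h.symm hv
    have := congrArg Subtype.val (key ⟨_, hconj⟩ ⟨m, hm⟩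
      (fun h => h1 (congrArg Subtype.val h)) (fun h => hm1 (congrArg Subtype.val h)))
    exact mul_inv_eq_iff_eq_mul.mp this
  have hM2 : ∀ m ∈ M, m ^ 2 = 1 := fun m hm => by
    have h := pow_card_eq_one' (x := (⟨m, hm⟩ : M))
    rw [hΦ] at h
    simpa using congrArg Subtype.val h
  have hsq : ∀ x : G, x ^ 2 ∈ M := fun x => Cfsg.Agent.PGroup.pow_mem_frattini hG x
  have hcM : ∀ x y : G, ⁅x, y⁆ ∈ M :=
    fun x y => Cfsg.Agent.PGroup.commutatorElement_mem_frattini hG x y
  -- the sign of a square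
  have hsgn : ∀ u v : M, (if u * v = 1 then (1 : ℤˣ) else -1) =
      (if u = 1 then 1 else -1) * (if v = 1 then 1 else -1) := by
    intro u v
    obtain ⟨a, b, hab, huniv⟩ := Nat.card_eq_two_iff.mp hΦ
    have key : ∀ u v : M, u ≠ 1 → v ≠ 1 → u = v := by
      intro u v hu hv
      have hu' := Set.eq_univ_iff_forall.mp huniv u
      have hv' := Set.eq_univ_iff_forall.mp huniv v
      have h1' := Set.eq_univ_iff_forall.mp huniv 1
      simp only [Set.mem_insert_iff, Set.mem_singleton_iff] at hu' hv' h1'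
      rcases hu' with rfl | rfl <;> rcases hv' with rfl | rfl <;> rcases h1' with h | h <;>
        first | rfl | exact absurd h.symm hu | exact absurd h.symm hv
    by_cases hu : u = 1
    · simp [hu]
    by_cases hv : v = 1
    · simp [hv]
    have huu : u * u = 1 := Subtype.ext (by simpa [sq] using hM2 u u.2)
    rw [← key u v hu hv, if_pos huu, if_neg hu]; rfl
  let π : M →* ℤˣ := MonoidHom.mk' (fun m => if m = 1 then 1 else -1) hsgn
  let q := fun v : G ⧸ M => π ⟨v.out ^ 2, hsq _⟩
  let f : G ⧸ M → ℤ := Units.coeHom ℤ ∘ q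
  have hf : Cfsg.Agent.PGroup.IsQuad f :=
    (Cfsg.Agent.PGroup.isQuad_sq hMc hM2 hsq hcM π).comp _
  have hfmk : ∀ x : G, f (QuotientGroup.mk x) = if x ^ 2 = 1 then 1 else -1 := by
    intro x
    show ((if (⟨(QuotientGroup.mk x : G ⧸ M).out ^ 2, hsq _⟩ : M) = 1 then 1 else -1 : ℤˣ) : ℤ) = _
    have h : (⟨(QuotientGroup.mk x : G ⧸ M).out ^ 2, hsq _⟩ : M) = 1 ↔ x ^ 2 = 1 := by
      rw [Subtype.ext_iff]
      simp [Cfsg.Agent.PGroup.sq_out_eq hMc hM2 x]
    split_ifs <;> simp_all
  haveI : Fintype G := Fintype.ofFinite G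
  haveI : Fintype (G ⧸ M) := Fintype.ofFinite _
  haveI : Fintype M := Fintype.ofFinite _
  have hV : Nat.card (G ⧸ M) = 2 ^ d := hd
  have hG' : Nat.card G = 2 * 2 ^ d := by
    rw [Subgroup.card_eq_card_quotient_mul_card_subgroup M, hV, hΦ, mul_comm]
  -- counting
  have hN : (Nat.card {x : G // x ^ 2 = 1} : ℤ) = 2 ^ d + ∑ v, f v := by
    have h1 : ∑ x : G, f (QuotientGroup.mk x) = 2 * ∑ v, f v := by
      rw [Fintype.sum_equiv (Subgroup.groupEquivQuotientProdSubgroup (s := M))
        (fun x : G => f (QuotientGroup.mk x)) (fun p => f p.1) (fun x => rfl),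
        Fintype.sum_prod_type, Finset.mul_sum]
      refine Finset.sum_congr rfl fun v _ => ?_
      show ∑ _y : M, f v = 2 * f v
      rw [Finset.sum_const, Finset.card_univ, ← Nat.card_eq_fintype_card, hΦ, two_nsmul, two_mul]
    have h2 : ∑ x : G, f (QuotientGroup.mk x) =
        2 * (Nat.card {x : G // x ^ 2 = 1} : ℤ) - (Nat.card G : ℤ) := by
      have hc := Finset.card_filter_add_card_filter_not (s := (Finset.univ : Finset G))
        (fun x : G => x ^ 2 = 1)
      rw [Finset.card_univ] at hc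
      rw [Finset.sum_congr rfl fun x _ => hfmk x, Finset.sum_ite, Finset.sum_const, Finset.sum_const,
        Nat.card_eq_fintype_card, Nat.card_eq_fintype_card, Fintype.card_subtype, ← hc,
        nsmul_eq_mul, nsmul_eq_mul]
      push_cast
      ring
    have h3 : (Nat.card G : ℤ) = 2 * 2 ^ d := by exact_mod_cast hG'
    omega
  obtain ⟨R, hR, ⟨hR1, hS⟩ | hS⟩ := Cfsg.Agent.PGroup.gauss_sum_sq hf
  swap
  · rw [hS, add_zero] at hN
    have hN' : Nat.card {x : G // x ^ 2 = 1} = 2 ^ d := by exact_mod_cast hN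
    refine ⟨Or.inl hN', fun r _ hc => ?_⟩
    have : 0 < 2 ^ r := pow_pos two_pos r
    omega
  obtain ⟨k, hk⟩ := IsPGroup.iff_card.mp ((hG.to_quotient M).to_subgroup R)
  have hkd : k < d := by
    have hle : 2 ^ k ≤ 2 ^ d := by rw [← hk, ← hV]; exact Subgroup.card_le_card_group R
    refine ((Nat.pow_le_pow_iff_right (by norm_num)).mp hle).lt_of_ne fun hkd => ?_
    have htop : R = ⊤ := Subgroup.eq_top_of_card_eq _ (by rw [hk, hV, hkd])
    have hbot : M = ⊥ := by
      rw [hMdef, Cfsg.Agent.PGroup.frattini_eq_closure_sq hG, Subgroup.closure_eq_bot_iff]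
      rintro _ ⟨x, rfl⟩
      have h := hfmk x
      rw [hR1 _ (htop ▸ Subgroup.mem_top _)] at h
      show x ^ 2 = 1
      by_contra hx
      rw [if_neg hx] at h
      norm_num at h
    rw [hbot, Subgroup.card_bot] at hΦ
    norm_num at hΦ
  have hS' : (∑ v, f v).natAbs ^ 2 = 2 ^ (d + k) := by
    rw [← Int.natAbs_pow, hS, hV, hk, pow_add, Int.natAbs_mul, Int.natAbs_natCast, Int.natAbs_natCast]
  obtain ⟨a, -, ha⟩ := (Nat.dvd_prime_pow Nat.prime_two).mp (hS' ▸ dvd_pow_self _ two_ne_zero :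
    (∑ v, f v).natAbs ∣ 2 ^ (d + k))
  have h2a : a * 2 = d + k := by
    rw [ha, ← pow_mul] at hS'
    exact Nat.pow_right_injective le_rfl hS'
  have hN' : Nat.card {x : G // x ^ 2 = 1} = 2 ^ d + 2 ^ a ∨
      Nat.card {x : G // x ^ 2 = 1} + 2 ^ a = 2 ^ d := by
    rcases Int.natAbs_eq (∑ v, f v) with h | h <;> rw [ha] at h <;> rw [h] at hN
    · left; exact_mod_cast hN
    · right
      have : ((Nat.card {x : G // x ^ 2 = 1} : ℕ) : ℤ) + ((2 ^ a : ℕ) : ℤ) = ((2 ^ d : ℕ) : ℤ) := by
        push_cast at hN ⊢; omega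
      exact_mod_cast this
  refine ⟨Or.inr ⟨d - a, by omega, by omega, by rwa [Nat.sub_sub_self (by omega : a ≤ d)]⟩,
    fun r hr hN'' => ?_⟩
  -- the nondegenerate case
  have har : a = r := by
    have hp : 0 < 2 ^ a := pow_pos two_pos a
    have hq : 0 < 2 ^ r := pow_pos two_pos r
    exact Nat.pow_right_injective le_rfl (show 2 ^ a = 2 ^ r by omega)
  have hk0 : k = 0 := by omega
  have hRbot : R = ⊥ := Subgroup.card_eq_one.mp (by rw [hk, hk0, pow_zero])
  have hZ : Subgroup.center G ≤ M := by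
    intro z hz
    refine (QuotientGroup.eq_one_iff z).mp (Subgroup.mem_bot.mp (hRbot ▸ (hR _).mpr fun v => ?_))
    induction v using QuotientGroup.induction_on with | _ x =>
    rw [← QuotientGroup.mk_mul, hfmk, hfmk, hfmk,
      (show Commute x z from Subgroup.mem_center_iff.mp hz x).mul_pow]
    have hs := congrArg (fun u : ℤˣ => (u : ℤ)) (hsgn ⟨x ^ 2, hsq x⟩ ⟨z ^ 2, hsq z⟩)
    simp only [Units.val_mul, apply_ite (fun u : ℤˣ => (u : ℤ)), Units.val_one, Units.val_neg] at hs
    simpa only [Subtype.ext_iff, Subgroup.coe_mul, Subgroup.coe_one] using hs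
  have hMZ : M = Subgroup.center G := le_antisymm hMc hZ
  have hD : commutator G ≠ ⊥ := by
    intro h
    have := (Cfsg.Agent.PGroup.commutator_le_frattini hG)
    have hab : Subgroup.center G = ⊤ := by
      rw [eq_top_iff]; intro x _
      refine Subgroup.mem_center_iff.mpr fun y => commutatorElement_eq_one_iff_mul_comm.mp ?_
      rw [← Subgroup.mem_bot, ← h]
      exact Subgroup.commutator_mem_commutator (Subgroup.mem_top y) (Subgroup.mem_top x)
    have : M.index = 1 := by rw [hMZ, hab, Subgroup.index_top]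
    rw [hd] at this
    have := Nat.pow_right_injective le_rfl (this.trans (pow_zero 2).symm)
    omega
  have hDM : commutator G = M := by
    refine Subgroup.eq_of_le_of_card_ge (Cfsg.Agent.PGroup.commutator_le_frattini hG) ?_
    rw [hΦ]
    exact (Subgroup.one_lt_card_iff_ne_bot (H := commutator G)).mpr hD
  exact ⟨⟨hG, hMZ, hDM.trans hMZ⟩, by rw [← hMZ]; exact hΦ⟩

end Cfsg.Agent.S3772
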