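import Cfsg.Statements.S3773
import Cfsg.Agent.PGroup.Frattini
import Cfsg.Agent.PGroup.SquareMap

set_option linter.style.haveILetI false

set_option autoImplicit false
open Cfsg
open scoped commutatorElement

namespace Cfsg.Agent.S3773

/-- Let G be a finite 2-group of nilpotency class at most 2 and exponent dividing 4 in which the elements x with x² = 1 form a subgroup N. Then |G| ≤ |N|³, and |G| < |N|³ unless G is special. -/
theorem result {G : Type*} [Group G] [Finite G] (hG : IsPGroup 2 G) (hcl : (⊤ : Subgroup G).lowerCentralSeries 2 = ⊥) (hexp : ∀ x : G, x ^ 4 = 1) (hN : ∀ x y : G, x ^ 2 = 1 → y ^ 2 = 1 → (x * y) ^ 2 = 1) : Nat.card G ≤ Nat.card {x : G // x ^ 2 = 1} ^ 3 ∧ (¬ Cfsg.IsSpecial 2 G → Nat.card G < Nat.card {x : G // x ^ 2 = 1} ^ 3) := by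
  classical
  haveI : Fact (Nat.Prime 2) := ⟨Nat.prime_two⟩
  have hcl' : commutator G ≤ Subgroup.center G :=
    (Cfsg.Agent.PGroup.commutator_le_center_iff_lowerCentralSeries (G := G)).mpr hcl
  let N : Subgroup G :=
    { carrier := {x | x ^ 2 = 1}
      one_mem' := one_pow 2
      mul_mem' := fun ha hb => hN _ _ ha hb
      inv_mem' := fun {a} ha => by
        show a⁻¹ ^ 2 = 1
        rw [inv_pow, show a ^ 2 = 1 from ha, inv_one] }
  have hNc : Nat.card {x : G // x ^ 2 = 1} = Nat.card N := rfl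
  rw [hNc]
  set M := frattini G with hMdef
  have hMN : M ≤ N := by
    rw [hMdef, Cfsg.Agent.PGroup.frattini_eq_closure_sq hG, Subgroup.closure_le]
    rintro _ ⟨x, rfl⟩
    show (x ^ 2) ^ 2 = 1
    rw [← pow_mul, hexp]
  have hM2 : ∀ m ∈ M, m ^ 2 = 1 := fun m hm => hMN hm
  have hcM : ∀ x y : G, ⁅x, y⁆ ∈ M :=
    fun x y => Cfsg.Agent.PGroup.commutatorElement_mem_frattini hG x y
  have hc : ∀ x y : G, ⁅x, y⁆ ∈ Subgroup.center G := fun x y => hcl'
    (Subgroup.commutator_mem_commutator (Subgroup.mem_top x) (Subgroup.mem_top y))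
  have hMc : M ≤ Subgroup.center G := by
    rw [hMdef, Cfsg.Agent.PGroup.frattini_eq_closure_sq hG, Subgroup.closure_le]
    rintro _ ⟨x, rfl⟩
    refine Subgroup.mem_center_iff.mpr fun y => ?_
    show Commute y (x ^ 2)
    rw [← commutatorElement_eq_one_iff_commute, Cfsg.Agent.PGroup.commutatorElement_pow_right (hc y x)]
    exact hM2 _ (hcM y x)
  have hsq : ∀ x : G, x ^ 2 ∈ M := fun x => Cfsg.Agent.PGroup.pow_mem_frattini hG x
  haveI : M.Normal := by rw [hMdef]; infer_instance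
  have hV2 : ∀ v : G ⧸ M, v ^ 2 = 1 := by
    intro v
    induction v using QuotientGroup.induction_on with | _ x =>
    rw [← QuotientGroup.mk_pow, QuotientGroup.eq_one_iff]
    exact hsq x
  letI : CommGroup M := { (inferInstance : Group M) with
    mul_comm := fun a b => Subtype.ext (Subgroup.mem_center_iff.mp (hMc b.2) a) }
  have hMexp : ∀ m : M, m ^ 2 = 1 := fun m => Subtype.ext (by
    simpa using hM2 m m.2)
  obtain ⟨U, hU, hUc⟩ := Cfsg.Agent.PGroup.exists_complement_of_sq_eq_one hV2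
    (N.map (QuotientGroup.mk' M))
  have hNM : Nat.card (N.map (QuotientGroup.mk' M)) * Nat.card M = Nat.card N := by
    have h1 := Subgroup.card_mul_index (M.subgroupOf N)
    have h2 : Nat.card (N.map (QuotientGroup.mk' M)) = (M.subgroupOf N).index := by
      rw [← (QuotientGroup.mk' M).domRestrict_range N, ← Subgroup.index_ker, MonoidHom.ker_domRestrict,
        QuotientGroup.ker_mk']
    rw [h2, mul_comm, ← h1, Nat.card_congr (Subgroup.subgroupOfEquivOfLe hMN).toEquiv]
  have hGc : Nat.card G = Nat.card U * Nat.card N := by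
    rw [← hNM, ← mul_assoc, hUc, Subgroup.card_eq_card_quotient_mul_card_subgroup M]
  have hUle : Nat.card U ≤ Nat.card M ^ 2 := by
    by_contra hlt
    obtain ⟨x, hxU, hxM, hx⟩ := Cfsg.Agent.PGroup.exists_sq_zero hG hMc hM2 hsq hcM U hMexp
      (MonoidHom.id M) (not_le.mp hlt)
    exact hxM ((QuotientGroup.eq_one_iff x).mp (Subgroup.mem_bot.mp
      (hU.le ⟨hxU, x, congrArg Subtype.val hx, rfl⟩)))
  have hMle : Nat.card M ≤ Nat.card N := Subgroup.card_le_of_le hMN
  have hbound : Nat.card G ≤ Nat.card M ^ 2 * Nat.card N :=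
    hGc ▸ Nat.mul_le_mul_right _ hUle
  have hbound' : Nat.card M ^ 2 * Nat.card N ≤ Nat.card N ^ 3 := by
    rw [pow_succ (Nat.card N) 2]
    exact Nat.mul_le_mul_right _ (Nat.pow_le_pow_left hMle 2)
  refine ⟨hbound.trans hbound', fun hns => (hbound.trans hbound').lt_of_ne fun heq => hns ?_⟩
  -- the case of equality
  have hMN' : M = N := by
    refine Subgroup.eq_of_le_of_card_ge hMN (le_of_not_gt fun hlt => ?_)
    have h := Nat.mul_lt_mul_of_lt_of_le (Nat.pow_lt_pow_left hlt two_ne_zero) le_rfl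
      (Nat.card_pos (α := N))
    rw [← pow_succ] at h
    exact absurd (hbound.trans_lt h) (heq.symm ▸ lt_irrefl _)
  have hinv : ∀ x : G, x ^ 2 = 1 → x ∈ M := fun x hx => hMN'.ge hx
  have hVc : Nat.card (G ⧸ M) = Nat.card M ^ 2 := by
    have h := Subgroup.card_eq_card_quotient_mul_card_subgroup M
    rw [heq, ← hMN', pow_succ] at h
    exact (Nat.eq_of_mul_eq_mul_right Nat.card_pos h).symm
  -- the basic contradiction
  have key : ∀ (U' : Subgroup (G ⧸ M)) (t : M), t ≠ 1 → Nat.card (G ⧸ M) ≤ 2 * Nat.card U' →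
      ∃ x : G, (QuotientGroup.mk x : G ⧸ M) ∈ U' ∧ x ∉ M ∧ x ^ 2 = (t : G) := by
    intro U' t ht hU'
    have ht2 : orderOf t = 2 := orderOf_eq_prime (hMexp t) ht
    have hWc : Nat.card (M ⧸ Subgroup.zpowers t) * 2 = Nat.card M := by
      rw [Subgroup.card_eq_card_quotient_mul_card_subgroup (Subgroup.zpowers t), Nat.card_zpowers, ht2]
    have hlt : Nat.card (M ⧸ Subgroup.zpowers t) ^ 2 < Nat.card U' := by
      rw [hVc, ← hWc, mul_pow] at hU'
      have hp : 0 < Nat.card (M ⧸ Subgroup.zpowers t) ^ 2 := pow_pos Nat.card_pos 2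
      omega
    obtain ⟨x, hxU, hxM, hx⟩ := Cfsg.Agent.PGroup.exists_sq_zero hG hMc hM2 hsq hcM U'
      (fun w => by
        induction w using QuotientGroup.induction_on with | _ m =>
        rw [← QuotientGroup.mk_pow, hMexp]; rfl)
      (QuotientGroup.mk' (Subgroup.zpowers t)) hlt
    refine ⟨x, hxU, hxM, ?_⟩
    obtain ⟨i, hi⟩ := Subgroup.mem_zpowers_iff.mp ((QuotientGroup.eq_one_iff _).mp hx)
    rcases Int.even_or_odd' i with ⟨j, rfl | rfl⟩
    · rw [zpow_mul, zpow_ofNat, hMexp, one_zpow] at hi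
      exact absurd (hinv x (congrArg Subtype.val hi).symm) hxM
    · rw [zpow_add_one, zpow_mul, zpow_ofNat, hMexp, one_zpow, one_mul] at hi
      exact (congrArg Subtype.val hi).symm
  have hZ : Subgroup.center G ≤ M := by
    intro z hz
    by_contra hzM
    have hzv : (QuotientGroup.mk z : G ⧸ M) ≠ 1 := fun h => hzM ((QuotientGroup.eq_one_iff z).mp h)
    obtain ⟨U', hU', hU'c⟩ := Cfsg.Agent.PGroup.exists_complement_of_sq_eq_one hV2
      (Subgroup.zpowers (QuotientGroup.mk z : G ⧸ M))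
    rw [Nat.card_zpowers, orderOf_eq_prime (hV2 _) hzv] at hU'c
    obtain ⟨x, hxU, hxM, hx⟩ := key U' ⟨z ^ 2, hsq z⟩
      (fun h => hzM (hinv z (congrArg Subtype.val h))) (by omega)
    have hxz : x * z ∈ M := hinv _ (by
      rw [(show Commute x z from Subgroup.mem_center_iff.mp hz x).mul_pow, hx]
      exact (pow_two (z ^ 2)).symm.trans (hM2 _ (hsq z)))
    have h1 : (QuotientGroup.mk x : G ⧸ M) = (QuotientGroup.mk z)⁻¹ := by
      rw [eq_inv_iff_mul_eq_one, ← QuotientGroup.mk_mul, QuotientGroup.eq_one_iff]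
      exact hxz
    exact hxM ((QuotientGroup.eq_one_iff x).mp (Subgroup.mem_bot.mp
      (hU'.le (Subgroup.mem_inf.mpr ⟨hxU, by rw [h1]; exact (Subgroup.zpowers _).inv_mem (Subgroup.mem_zpowers _)⟩))))
  have hMZ : M = Subgroup.center G := le_antisymm hMc hZ
  have hD : M ≤ commutator G := by
    by_contra hD
    obtain ⟨K, hK, hDK⟩ := (eq_top_or_exists_le_coatom ((commutator G).subgroupOf M)).resolve_left
      (fun h => hD (Subgroup.subgroupOf_eq_top.mp h))
    have hK2 := Cfsg.Agent.PGroup.index_of_isCoatom (hG.to_subgroup M) hK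
    obtain ⟨t, htK⟩ : ∃ t : M, t ∉ K := by
      by_contra h
      push Not at h
      exact hK.1 (eq_top_iff.mpr fun t _ => h t)
    let σ : G →* M ⧸ K := MonoidHom.mk' (fun x => QuotientGroup.mk ⟨x ^ 2, hsq x⟩) fun x y => by
      rw [← QuotientGroup.mk_mul, QuotientGroup.eq]
      have h : (⟨(x * y) ^ 2, hsq _⟩ : M) =
          ⟨x ^ 2, hsq x⟩ * ⟨y ^ 2, hsq y⟩ * ⟨⁅y, x⁆, hcM y x⟩ :=
        Subtype.ext (Cfsg.Agent.PGroup.sq_mul_of_central hMc hcM x y)
      rw [h, mul_inv_rev, inv_mul_cancel_right]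
      exact inv_mem (hDK (Subgroup.mem_subgroupOf.mpr
        (Subgroup.commutator_mem_commutator (Subgroup.mem_top y) (Subgroup.mem_top x))))
    have hMker : M ≤ σ.ker := fun m hm => by
      show QuotientGroup.mk (⟨m ^ 2, hsq m⟩ : M) = (1 : M ⧸ K)
      rw [show (⟨m ^ 2, hsq m⟩ : M) = 1 from Subtype.ext (hM2 m hm)]; rfl
    have hidx : (σ.ker.map (QuotientGroup.mk' M)).index ≤ 2 := by
      rw [Subgroup.index_map_eq _ (QuotientGroup.mk'_surjective M)
        (by rwa [QuotientGroup.ker_mk']), Subgroup.index_ker]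
      exact (Subgroup.card_le_card_group _).trans (Subgroup.index_eq_card K ▸ hK2).le
    obtain ⟨x, hxU, hxM, hx⟩ := key (σ.ker.map (QuotientGroup.mk' M)) t
      (fun h => htK (h ▸ one_mem K))
      (by rw [← Subgroup.card_mul_index (σ.ker.map (QuotientGroup.mk' M)), mul_comm]
          exact Nat.mul_le_mul_right _ hidx)
    obtain ⟨y, hy, hyx⟩ := hxU
    obtain ⟨c, hc', rfl⟩ : ∃ c ∈ M, x = y * c :=
      ⟨y⁻¹ * x, QuotientGroup.eq.mp hyx, (mul_inv_cancel_left y x).symm⟩
    rw [Cfsg.Agent.PGroup.sq_mul_of_mem hMc hM2 y hc'] at hx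
    have hyK : (⟨y ^ 2, hsq y⟩ : M) ∈ K := (QuotientGroup.eq_one_iff _).mp hy
    exact htK ((show (⟨y ^ 2, hsq y⟩ : M) = t from Subtype.ext hx) ▸ hyK)
  exact ⟨hG, hMZ, le_antisymm hcl' (hMZ ▸ hD)⟩

end Cfsg.Agent.S3773
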