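import Cfsg.Statements.S3774
import Cfsg.Agent.PGroup.Basic

set_option autoImplicit false
open Cfsg

namespace Cfsg.Agent.S3774

/-- Let G be a nontrivial finite 2-group whose automorphism group permutes the involutions of G transitively. Then every involution of G is central, so that the involutions together with 1 form the subgroup Ω₁(Z(G)), and if this subgroup has order q then |G| is a power of q. -/
theorem result {G : Type*} [Group G] [Finite G] [Nontrivial G] (hG : IsPGroup 2 G) (htrans : ∀ x y : G, x ≠ 1 → x ^ 2 = 1 → y ≠ 1 → y ^ 2 = 1 → ∃ a : MulAut G, a x = y) : (∀ x : G, x ^ 2 = 1 → x ∈ Subgroup.center G) ∧ ∃ m : ℕ, Nat.card G = Nat.card {z : G // z ^ 2 = 1} ^ m := by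
  classical
  haveI : Fact (Nat.Prime 2) := ⟨Nat.prime_two⟩
  haveI := hG.center_nontrivial
  obtain ⟨z, hz⟩ := exists_prime_orderOf_dvd_card' (G := Subgroup.center G) 2
    ((hG.to_subgroup _).card_eq_or_dvd.resolve_left fun h =>
      (Subgroup.nontrivial_iff_ne_bot _).mp inferInstance (Subgroup.card_eq_one.mp h))
  have hz2 : (z : G) ^ 2 = 1 := by
    rw [← hz, ← Subgroup.orderOf_coe, pow_orderOf_eq_one]
  have hz1 : (z : G) ≠ 1 := fun h => by
    rw [← Subgroup.orderOf_coe, h, orderOf_one] at hz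
    norm_num at hz
  have hcent : ∀ x : G, x ^ 2 = 1 → x ∈ Subgroup.center G := by
    intro x hx
    by_cases hx1 : x = 1
    · exact hx1 ▸ one_mem _
    obtain ⟨a, ha⟩ := htrans z x hz1 hz2 hx1 hx
    rw [← ha]
    exact (Subgroup.characteristic_iff_le_comap.mp inferInstance a) z.2
  refine ⟨hcent, ?_⟩
  let K : Subgroup G :=
    { carrier := {x | x ^ 2 = 1}
      one_mem' := one_pow 2
      mul_mem' := fun {a b} (ha : a ^ 2 = 1) (hb : b ^ 2 = 1) => by
        show (a * b) ^ 2 = 1
        rw [(show Commute a b from Subgroup.mem_center_iff.mp (hcent b hb) a).mul_pow, ha, hb, one_mul]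
      inv_mem' := fun {a} (ha : a ^ 2 = 1) => by
        show a⁻¹ ^ 2 = 1
        rw [inv_pow, ha, inv_one] }
  obtain ⟨k, hk⟩ := IsPGroup.iff_card.mp (hG.to_subgroup K)
  obtain ⟨e, he⟩ := IsPGroup.iff_card.mp hG
  have hkcard : Nat.card {z : G // z ^ 2 = 1} = 2 ^ k := hk
  suffices h : k ∣ e by
    obtain ⟨m, rfl⟩ := h
    exact ⟨m, by rw [he, hkcard, pow_mul]⟩
  -- the map `x ↦` its involution is equivariant, so all fibres have the same size
  let inv : G → G := fun x => x ^ (orderOf x / 2)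
  have hinv : ∀ x : G, x ≠ 1 → inv x ≠ 1 ∧ inv x ^ 2 = 1 := by
    intro x hx
    have ho : orderOf (inv x) = 2 := orderOf_pow_orderOf_div (orderOf_pos x).ne' (hG.dvd_orderOf hx)
    exact ⟨fun h => by rw [h, orderOf_one] at ho; norm_num at ho,
      by rw [← ho, pow_orderOf_eq_one]⟩
  have hequiv : ∀ (a : MulAut G) (x : G), inv (a x) = a (inv x) := fun a x => by
    show a x ^ (orderOf (a x) / 2) = a (x ^ (orderOf x / 2))
    rw [MulEquiv.orderOf_eq, map_pow]
  let α := {x : G // x ≠ 1}
  let β := {y : G // y ≠ 1 ∧ y ^ 2 = 1}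
  let f : α → β := fun x => ⟨inv x.1, hinv x.1 x.2⟩
  have hfib : ∀ y : β, Nat.card {x : α // f x = y} = Nat.card {x : α // f x = ⟨z, hz1, hz2⟩} := by
    intro y
    obtain ⟨a, ha⟩ := htrans z y.1 hz1 hz2 y.2.1 y.2.2
    refine (Nat.card_congr (α := {x : α // f x = ⟨z, hz1, hz2⟩}) (β := {x : α // f x = y})
      { toFun := fun x => ⟨⟨a x.1.1, fun h => x.1.2 ((map_eq_one_iff a a.injective).mp h)⟩,
          Subtype.ext (show inv (a x.1.1) = y.1 by
            rw [hequiv, show inv x.1.1 = z from congrArg Subtype.val x.2, ha])⟩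
        invFun := fun x => ⟨⟨a.symm x.1.1, fun h => x.1.2 ((map_eq_one_iff a.symm a.symm.injective).mp h)⟩,
          Subtype.ext (show inv (a.symm x.1.1) = z by
            rw [hequiv, show inv x.1.1 = y.1 from congrArg Subtype.val x.2, ← ha,
              MulEquiv.symm_apply_apply])⟩
        left_inv := fun x => Subtype.ext (Subtype.ext (a.symm_apply_apply _))
        right_inv := fun x => Subtype.ext (Subtype.ext (a.apply_symm_apply _)) }).symm
  haveI : Fintype β := Fintype.ofFinite _
  have hα : Nat.card α = Nat.card β * Nat.card {x : α // f x = ⟨z, hz1, hz2⟩} := by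
    rw [← Nat.card_congr (Equiv.sigmaFiberEquiv f), Nat.card_sigma,
      Finset.sum_congr rfl fun y _ => hfib y, Finset.sum_const, Finset.card_univ, smul_eq_mul,
      Nat.card_eq_fintype_card (α := β)]
  have hαc : Nat.card α = 2 ^ e - 1 := by
    haveI : Fintype G := Fintype.ofFinite G
    rw [← he, Nat.card_eq_fintype_card, Nat.card_eq_fintype_card, Fintype.card_subtype_compl,
      Fintype.card_subtype_eq]
  have hβc : Nat.card β = 2 ^ k - 1 := by
    haveI : Fintype G := Fintype.ofFinite G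
    rw [← hkcard, Nat.card_eq_fintype_card, Nat.card_eq_fintype_card, Fintype.card_subtype,
      Fintype.card_subtype]
    have : (Finset.univ.filter fun y : G => y ≠ 1 ∧ y ^ 2 = 1) =
        (Finset.univ.filter fun y : G => y ^ 2 = 1).erase 1 := by
      ext y; simp
    rw [this, Finset.card_erase_of_mem (by simp)]
  have hdvd : 2 ^ k - 1 ∣ 2 ^ e - 1 := ⟨_, hαc ▸ hβc ▸ hα⟩
  have hgcd := Nat.pow_sub_one_gcd_pow_sub_one 2 k e
  rw [Nat.gcd_eq_left hdvd] at hgcd
  have h2 : (2 : ℕ) ^ k = 2 ^ Nat.gcd k e := by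
    have h1 := Nat.one_le_two_pow (n := k)
    have h2 := Nat.one_le_two_pow (n := Nat.gcd k e)
    omega
  exact (Nat.pow_right_injective le_rfl h2) ▸ Nat.gcd_dvd_right k e

end Cfsg.Agent.S3774
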