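import Cfsg.Statements.S3775
import Mathlib

set_option linter.style.haveILetI false

set_option autoImplicit false
open Cfsg

namespace Cfsg.Agent.S3775

variable {A : Type*} [CommGroup A] {Y : Type*} [Group Y]

/-- Invariance under an action. -/
def Inv (ψ : Y →* MulAut A) (B : Subgroup A) : Prop := ∀ y, ∀ b ∈ B, ψ y b ∈ B

/-- The induced action on a quotient. -/
def quotAct (ψ : Y →* MulAut A) (C : Subgroup A) (hC : Inv ψ C) : Y →* MulAut (A ⧸ C) :=
  MonoidHom.mk' (fun y =>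
    { toFun := QuotientGroup.map C C (ψ y).toMonoidHom fun c hc => hC y c hc
      invFun := QuotientGroup.map C C (ψ y⁻¹).toMonoidHom fun c hc => hC y⁻¹ c hc
      left_inv := fun q => by
        induction q using QuotientGroup.induction_on with | _ a => ?_
        show ((ψ y⁻¹ (ψ y a) : A) : A ⧸ C) = a
        rw [← MulAut.mul_apply, ← map_mul, inv_mul_cancel, map_one]; rfl
      right_inv := fun q => by
        induction q using QuotientGroup.induction_on with | _ a => ?_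
        show ((ψ y (ψ y⁻¹ a) : A) : A ⧸ C) = a
        rw [← MulAut.mul_apply, ← map_mul, mul_inv_cancel, map_one]; rfl
      map_mul' := map_mul _ })
    fun y z => MulEquiv.ext fun q => by
      induction q using QuotientGroup.induction_on with | _ a => ?_
      show ((ψ (y * z) a : A) : A ⧸ C) = ((ψ y (ψ z a) : A) : A ⧸ C)
      rw [map_mul, MulAut.mul_apply]

theorem quotAct_mk (ψ : Y →* MulAut A) (C : Subgroup A) (hC : Inv ψ C) (y : Y) (a : A) :
    quotAct ψ C hC y (a : A ⧸ C) = ((ψ y a : A) : A ⧸ C) := rfl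

/-- The induced action on an invariant subgroup. -/
def restrictAct (ψ : Y →* MulAut A) (T : Subgroup A) (hT : Inv ψ T) : Y →* MulAut T :=
  MonoidHom.mk' (fun y =>
    { toFun := fun t => ⟨ψ y t, hT y t t.2⟩
      invFun := fun t => ⟨ψ y⁻¹ t, hT y⁻¹ t t.2⟩
      left_inv := fun t => Subtype.ext (show ψ y⁻¹ (ψ y (t : A)) = t by
        rw [← MulAut.mul_apply, ← map_mul, inv_mul_cancel, map_one]; rfl)
      right_inv := fun t => Subtype.ext (show ψ y (ψ y⁻¹ (t : A)) = t by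
        rw [← MulAut.mul_apply, ← map_mul, mul_inv_cancel, map_one]; rfl)
      map_mul' := fun s t => Subtype.ext (map_mul (ψ y) (s : A) t) })
    fun y z => MulEquiv.ext fun t => Subtype.ext (show ψ (y * z) (t : A) = ψ y (ψ z t) by
      rw [map_mul, MulAut.mul_apply])

/-- A surjection onto a quotient in which small torsion elements are high powers splits. -/
theorem exists_section [Finite A] {p e : ℕ} [Fact p.Prime] (C : Subgroup A)
    (hexp : ∀ a : A, a ^ p ^ e = 1)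
    (hpure : ∀ k ≤ e, ∀ q : A ⧸ C, q ^ p ^ k = 1 → ∃ h, h ^ p ^ (e - k) = q) :
    ∃ σ : A ⧸ C →* A, ∀ q, QuotientGroup.mk (σ q) = q := by
  classical
  obtain ⟨ι, _, n, hn, ⟨f⟩⟩ := CommGroup.equiv_prod_multiplicative_zmod_of_finite (A ⧸ C)
  have hgen : ∀ i, ∃ a : A, (QuotientGroup.mk a : A ⧸ C) =
      f.symm (Pi.mulSingle i (Multiplicative.ofAdd 1)) ∧ a ^ n i = 1 := by
    intro i
    set g := f.symm (Pi.mulSingle i (Multiplicative.ofAdd (1 : ZMod (n i)))) with hg
    have hgn : orderOf g = n i := by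
      rw [hg, MulEquiv.orderOf_eq, orderOf_piMulSingle, orderOf_ofAdd_eq_addOrderOf,
        ZMod.addOrderOf_one]
    have hgp : g ^ p ^ e = 1 := by
      obtain ⟨a, ha⟩ := QuotientGroup.mk_surjective g
      rw [← ha, ← QuotientGroup.mk_pow, hexp]; rfl
    obtain ⟨k, hk, hnk⟩ := (Nat.dvd_prime_pow (Fact.out : p.Prime)).mp
      (hgn ▸ orderOf_dvd_of_pow_eq_one hgp : n i ∣ p ^ e)
    obtain ⟨h, hh⟩ := hpure k hk g (by rw [← hnk, ← hgn, pow_orderOf_eq_one])
    obtain ⟨a, rfl⟩ := QuotientGroup.mk_surjective h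
    refine ⟨a ^ p ^ (e - k), by rw [QuotientGroup.mk_pow, hh], ?_⟩
    rw [hnk, ← pow_mul, ← pow_add, Nat.sub_add_cancel hk, hexp]
  choose a ha han using hgen
  haveI : ∀ i, NeZero (n i) := fun i => ⟨(Nat.zero_lt_of_lt (hn i)).ne'⟩
  let τ : (∀ i, Multiplicative (ZMod (n i))) →* A := MonoidHom.mk'
    (fun v => ∏ i, a i ^ (Multiplicative.toAdd (v i)).val) fun v w => by
      rw [← Finset.prod_mul_distrib]
      refine Finset.prod_congr rfl fun i _ => ?_
      show a i ^ (Multiplicative.toAdd (v i) + Multiplicative.toAdd (w i)).val = _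
      rw [ZMod.val_add, ← pow_eq_pow_mod _ (han i), pow_add]
  refine ⟨τ.comp f.toMonoidHom, fun q => ?_⟩
  show QuotientGroup.mk' C (∏ i, a i ^ (Multiplicative.toAdd (f q i)).val) = q
  apply f.injective
  rw [map_prod, map_prod]
  conv_rhs => rw [← Finset.univ_prod_mulSingle (f q)]
  refine Finset.prod_congr rfl fun i _ => ?_
  rw [map_pow, map_pow, QuotientGroup.mk'_apply, ha, MulEquiv.apply_symm_apply, ← Pi.mulSingle_pow]
  congr 1
  exact Multiplicative.toAdd.injective (by simp)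

/-- An invariant subgroup with split quotient has an invariant complement. -/
theorem exists_inv_complement [Finite A] [Finite Y] {p e : ℕ} [Fact p.Prime] (ψ : Y →* MulAut A)
    (hY : (Nat.card Y).Coprime p) (C : Subgroup A) (hC : Inv ψ C) (hexp : ∀ a : A, a ^ p ^ e = 1)
    (hpure : ∀ k ≤ e, ∀ q : A ⧸ C, q ^ p ^ k = 1 → ∃ h, h ^ p ^ (e - k) = q) :
    ∃ D : Subgroup A, Inv ψ D ∧ C ⊓ D = ⊥ ∧ C ⊔ D = ⊤ := by
  classical
  haveI : Fintype Y := Fintype.ofFinite Y
  obtain ⟨σ, hσ⟩ := exists_section C hexp hpure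
  set θ := quotAct ψ C hC
  let S : A ⧸ C →* A := MonoidHom.mk' (fun q => ∏ y : Y, ψ y (σ (θ y⁻¹ q))) fun q r => by
    rw [← Finset.prod_mul_distrib]
    exact Finset.prod_congr rfl fun y _ => by rw [map_mul, map_mul, map_mul]
  have hS : ∀ q, QuotientGroup.mk (S q) = q ^ Nat.card Y := by
    intro q
    show QuotientGroup.mk' C (∏ y : Y, ψ y (σ (θ y⁻¹ q))) = _
    rw [map_prod, Finset.prod_eq_pow_card (b := q), Finset.card_univ, Nat.card_eq_fintype_card]
    intro y _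
    rw [QuotientGroup.mk'_apply, ← quotAct_mk ψ C hC, hσ, ← MulAut.mul_apply, ← map_mul,
      mul_inv_cancel, map_one]
    rfl
  have hequiv : ∀ z q, ψ z (S q) = S (θ z q) := by
    intro z q
    show ψ z (∏ y : Y, ψ y (σ (θ y⁻¹ q))) = ∏ y : Y, ψ y (σ (θ y⁻¹ (θ z q)))
    rw [map_prod]
    refine Fintype.prod_equiv (Equiv.mulLeft z) _ _ fun y => ?_
    rw [Equiv.coe_mulLeft, ← MulAut.mul_apply, ← map_mul]
    rw [show θ (z * y)⁻¹ (θ z q) = θ y⁻¹ q by
      rw [← MulAut.mul_apply, ← map_mul, mul_inv_rev, inv_mul_cancel_right]]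
  obtain ⟨k, hk⟩ : ∃ k, ∀ q : A ⧸ C, (q ^ Nat.card Y) ^ k = q := by
    obtain ⟨k, hk⟩ := Nat.exists_mul_mod_eq_one_of_coprime (n := Nat.card Y) (k := p ^ (e + 1))
      (hY.pow_right _) (Nat.one_lt_pow (by omega) (Fact.out : p.Prime).one_lt)
    refine ⟨k, fun q => ?_⟩
    have h : q ^ p ^ (e + 1) = 1 := by
      induction q using QuotientGroup.induction_on with | _ a => ?_
      rw [← QuotientGroup.mk_pow, pow_succ, pow_mul, hexp, one_pow]; rfl
    rw [← pow_mul, pow_eq_pow_mod _ h, hk.2, pow_one]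
  refine ⟨((powMonoidHom k).comp S).range, ?_, ?_, ?_⟩
  · rintro z _ ⟨q, rfl⟩
    refine ⟨θ z q, ?_⟩
    show S (θ z q) ^ k = ψ z (S q ^ k)
    rw [map_pow, hequiv]
  · rw [eq_bot_iff]
    rintro _ ⟨hc, q, rfl⟩
    have h : ((S q ^ k : A) : A ⧸ C) = 1 := (QuotientGroup.eq_one_iff _).mpr hc
    rw [QuotientGroup.mk_pow, hS, hk] at h
    show S q ^ k = 1
    rw [h, map_one, one_pow]
  · rw [eq_top_iff]
    intro a _
    have h : a / S (a : A ⧸ C) ^ k ∈ C := by
      rw [← QuotientGroup.eq_one_iff, QuotientGroup.mk_div, QuotientGroup.mk_pow, hS, hk, div_self']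
    rw [← div_mul_cancel a (S (a : A ⧸ C) ^ k)]
    exact mul_mem (Subgroup.mem_sup_left h) (Subgroup.mem_sup_right ⟨_, rfl⟩)

/-- If the elements of order `p` form an irreducible subgroup then every invariant subgroup is a
torsion subgroup. -/
theorem torsion_of_irreducible {p : ℕ} [Fact p.Prime] (ψ : Y →* MulAut A)
    (hirr : ∀ B, Inv ψ B → (∀ b ∈ B, b ^ p = 1) → B = ⊥ ∨ ∀ a : A, a ∈ B ↔ a ^ p = 1) :
    ∀ i (B : Subgroup A), Inv ψ B → (∀ b ∈ B, b ^ p ^ i = 1) →
      ∃ j ≤ i, ∀ a : A, a ∈ B ↔ a ^ p ^ j = 1 := by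
  intro i
  induction i with
  | zero =>
    intro B _ hB
    refine ⟨0, le_rfl, fun a => ⟨hB a, fun ha => ?_⟩⟩
    rw [pow_zero, pow_one] at ha
    exact ha ▸ one_mem B
  | succ i ih =>
    intro B hBi hB
    by_cases hsmall : ∀ b ∈ B, b ^ p ^ i = 1
    · obtain ⟨j, hj, h⟩ := ih B hBi hsmall
      exact ⟨j, hj.trans i.le_succ, h⟩
    push Not at hsmall
    obtain ⟨b₀, hb₀, hb₀'⟩ := hsmall
    -- the elements of order `p` lie in `B`
    set T := B ⊓ (powMonoidHom p : A →* A).ker with hT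
    have hΩ : ∀ a : A, a ^ p = 1 → a ∈ B := by
      have hTi : Inv ψ T := fun y t ht => ⟨hBi y t ht.1, by
        show ψ y t ^ p = 1
        rw [← map_pow, show t ^ p = 1 from ht.2, map_one]⟩
      rcases hirr T hTi (fun t ht => ht.2) with h | h
      · have hm : b₀ ^ p ^ i ∈ T := ⟨pow_mem hb₀ _, by
          show (b₀ ^ p ^ i) ^ p = 1
          rw [← pow_mul, ← pow_succ, hB b₀ hb₀]⟩
        rw [h, Subgroup.mem_bot] at hm
        exact absurd hm hb₀'
      · exact fun a ha => ((h a).mpr ha).1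
    set B' := B.map (powMonoidHom p : A →* A) with hB'
    have hB'i : Inv ψ B' := by
      rintro y _ ⟨b, hb, rfl⟩
      exact ⟨ψ y b, hBi y b hb, (map_pow (ψ y) b p).symm⟩
    obtain ⟨j, hj, hB'j⟩ := ih B' hB'i (by
      rintro _ ⟨b, hb, rfl⟩
      show (b ^ p) ^ p ^ i = 1
      rw [← pow_mul, ← pow_succ', hB b hb])
    have hji : i ≤ j := by
      by_contra hlt
      have h := (hB'j (b₀ ^ p)).mp ⟨b₀, hb₀, rfl⟩
      rw [← pow_mul, ← pow_succ'] at h
      exact hb₀' (pow_eq_one_of_dvd' h (pow_dvd_pow p (by omega)))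
    refine ⟨i + 1, le_rfl, fun a => ⟨hB a, fun ha => ?_⟩⟩
    obtain ⟨b, hb, hba⟩ := (hB'j (a ^ p)).mpr (by
      rw [show j = i by omega, ← pow_mul, ← pow_succ', ha])
    have hbp : (a / b) ^ p = 1 := by
      rw [div_pow, div_eq_one]; exact hba.symm
    rw [← div_mul_cancel a b]
    exact mul_mem (hΩ _ hbp) hb
where
  pow_eq_one_of_dvd' {x : A} {m n : ℕ} (h : x ^ m = 1) (hd : m ∣ n) : x ^ n = 1 := by
    obtain ⟨c, rfl⟩ := hd
    rw [pow_mul, h, one_pow]

/-- Let A be a finite abelian p-group and X a group of automorphisms of A of order prime to p. Call a subgroup of A invariant when every element of X maps it onto itself. Then the following are equivalent: (i) A is not the direct product of two nontrivial invariant subgroups; (ii) every invariant subgroup of A is one of the subgroups Ω_i(A) = {a : a^(p^i) = 1}; (iii) the subgroup Ω₁(A) of elements of order dividing p has no invariant subgroups other than 1 and itself. -/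
theorem result {A : Type*} [CommGroup A] [Finite A] {p : ℕ} [Fact p.Prime] (hA : IsPGroup p A) (X : Subgroup (MulAut A)) (hX : (Nat.card X).Coprime p) : ((¬ ∃ B C : Subgroup A, B ≠ ⊥ ∧ C ≠ ⊥ ∧ (∀ x ∈ X, B.map x.toMonoidHom = B) ∧ (∀ x ∈ X, C.map x.toMonoidHom = C) ∧ B ⊓ C = ⊥ ∧ B ⊔ C = ⊤) ↔ (∀ B : Subgroup A, (∀ x ∈ X, B.map x.toMonoidHom = B) → ∃ i : ℕ, ∀ a : A, a ∈ B ↔ a ^ p ^ i = 1)) ∧ ((∀ B : Subgroup A, (∀ x ∈ X, B.map x.toMonoidHom = B) → ∃ i : ℕ, ∀ a : A, a ∈ B ↔ a ^ p ^ i = 1) ↔ (∀ B : Subgroup A, (∀ x ∈ X, B.map x.toMonoidHom = B) → (∀ b ∈ B, b ^ p = 1) → B = ⊥ ∨ ∀ a : A, a ∈ B ↔ a ^ p = 1)) := by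
  classical
  have hp : p.Prime := Fact.out
  let ψ : X →* MulAut A := X.subtype
  have hiff : ∀ B : Subgroup A, (∀ x ∈ X, B.map x.toMonoidHom = B) ↔ Inv ψ B := by
    intro B
    refine ⟨fun h y b hb => ?_, fun h x hx => ?_⟩
    · exact (h y y.2).le (Subgroup.mem_map_of_mem _ hb)
    · refine Subgroup.eq_of_le_of_card_ge (Subgroup.map_le_iff_le_comap.mpr fun b hb => h ⟨x, hx⟩ b hb) ?_
      rw [Subgroup.card_map_of_injective (show Function.Injective x.toMonoidHom from x.injective)]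
  obtain ⟨e₀, he₀⟩ := IsPGroup.iff_card.mp hA
  have hexp₀ : ∀ a : A, a ^ p ^ e₀ = 1 := fun a => he₀ ▸ pow_card_eq_one'
  have h23 : (∀ B : Subgroup A, (∀ x ∈ X, B.map x.toMonoidHom = B) → ∃ i : ℕ, ∀ a : A, a ∈ B ↔ a ^ p ^ i = 1) ↔
      (∀ B : Subgroup A, (∀ x ∈ X, B.map x.toMonoidHom = B) → (∀ b ∈ B, b ^ p = 1) →
        B = ⊥ ∨ ∀ a : A, a ∈ B ↔ a ^ p = 1) := by
    refine ⟨fun h B hB hBp => ?_, fun h B hB => ?_⟩
    · obtain ⟨i, hi⟩ := h B hB
      rcases Nat.eq_zero_or_pos i with rfl | hi0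
      · left
        rw [eq_bot_iff]
        intro b hb
        simpa using (hi b).mp hb
      · right
        intro a
        refine ⟨hBp a, fun ha => (hi a).mpr ?_⟩
        obtain ⟨i', rfl⟩ := Nat.exists_eq_add_of_le' hi0
        rw [pow_succ', pow_mul, ha, one_pow]
    · obtain ⟨j, -, hj⟩ := torsion_of_irreducible ψ (fun B' hB' => h B' ((hiff B').mpr hB')) e₀ B
        ((hiff B).mp hB) (fun b _ => hexp₀ b)
      exact ⟨j, hj⟩
  refine ⟨⟨fun hind => h23.mpr ?_, fun h => ?_⟩, h23⟩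
  · intro B₀ hB₀ hB₀p
    rw [hiff] at hB₀
    rcases subsingleton_or_nontrivial A with hsub | hnt
    · exact Or.inl (Subgroup.eq_bot_of_subsingleton B₀)
    -- the exact exponent
    have hex : ∃ e, ∀ a : A, a ^ p ^ e = 1 := ⟨e₀, hexp₀⟩
    obtain ⟨e, hexp, hmin⟩ : ∃ e, (∀ a : A, a ^ p ^ e = 1) ∧ ∀ m < e, ¬ ∀ a : A, a ^ p ^ m = 1 :=
      ⟨Nat.find hex, Nat.find_spec hex, fun m hm => Nat.find_min hex hm⟩
    have he : 1 ≤ e := by
      by_contra h
      obtain ⟨a, ha⟩ := exists_ne (1 : A)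
      exact ha (by simpa [show e = 0 by omega] using hexp a)
    set P := (powMonoidHom (p ^ (e - 1)) : A →* A).range with hP
    have hPi : Inv ψ P := by
      rintro y _ ⟨a, rfl⟩
      exact ⟨ψ y a, (map_pow (ψ y) a _).symm⟩
    have hP1 : P ≠ ⊥ := fun h => hmin (e - 1) (by omega) fun a => Subgroup.mem_bot.mp (h ▸ ⟨a, rfl⟩)
    obtain ⟨S, ⟨hSi, hS1, hSP⟩, hSmin⟩ := Set.Finite.exists_minimal
      (s := {S : Subgroup A | Inv ψ S ∧ S ≠ ⊥ ∧ S ≤ P}) (Set.toFinite _) ⟨P, hPi, hP1, le_rfl⟩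
    obtain ⟨C, ⟨hCi, hCS⟩, hCmax⟩ := Set.Finite.exists_maximal
      (s := {C : Subgroup A | Inv ψ C ∧ C ⊓ S = ⊥}) (Set.toFinite _)
      ⟨⊥, fun y b hb => by rw [Subgroup.mem_bot.mp hb, map_one]; exact one_mem _, bot_inf_eq _⟩
    set θ := quotAct ψ C hCi with hθ
    set S' := S.map (QuotientGroup.mk' C) with hS'
    have hS'1 : S' ≠ ⊥ := by
      intro h
      rw [hS', Subgroup.map_eq_bot_iff, QuotientGroup.ker_mk'] at h
      exact hS1 (le_bot_iff.mp (hCS ▸ le_inf h le_rfl))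
    have hcont : ∀ V : Subgroup (A ⧸ C), Inv θ V → V ≠ ⊥ → S' ≤ V := by
      intro V hV hV1
      set V' := V.comap (QuotientGroup.mk' C) with hV'
      have hV'i : Inv ψ V' := fun y b hb => hV y _ hb
      have hCV : C ≤ V' := fun c hc => by
        show (c : A ⧸ C) ∈ V
        rw [(QuotientGroup.eq_one_iff c).mpr hc]; exact one_mem V
      have hne : V' ⊓ S ≠ ⊥ := by
        intro h
        refine hV1 ((Subgroup.eq_bot_iff_forall V).mpr fun q hq => ?_)
        induction q using QuotientGroup.induction_on with | _ a => ?_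
        exact (QuotientGroup.eq_one_iff a).mpr (hCmax ⟨hV'i, h⟩ hCV hq)
      have hVS : Inv ψ (V' ⊓ S) := fun y b hb =>
        Subgroup.mem_inf.mpr ⟨hV'i y b hb.1, hSi y b hb.2⟩
      have := hSmin ⟨hVS, hne, inf_le_right.trans hSP⟩ inf_le_right
      exact Subgroup.map_le_iff_le_comap.mpr fun s hs => (this hs).1
    have hexpQ : ∀ q : A ⧸ C, q ^ p ^ e = 1 := fun q => by
      induction q using QuotientGroup.induction_on with | _ a => ?_
      rw [← QuotientGroup.mk_pow, hexp]; rfl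
    -- irreducibility on the quotient
    have hirr : ∀ B, Inv θ B → (∀ b ∈ B, b ^ p = 1) → B = ⊥ ∨ ∀ a, a ∈ B ↔ a ^ p = 1 := by
      intro B hB hBp
      rcases eq_or_ne B ⊥ with h | h
      · exact Or.inl h
      right
      set T := (powMonoidHom p : A ⧸ C →* A ⧸ C).ker with hT
      have hTi : Inv θ T := fun y t ht => by
        show θ y t ^ p = 1
        rw [← map_pow, show t ^ p = 1 from ht, map_one]
      have hS'T : S' ≤ T := (hcont B hB h).trans fun b hb => hBp b hb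
      have hS'i : Inv θ S' := by
        rintro y _ ⟨s, hs, rfl⟩
        exact ⟨ψ y s, hSi y s hs, (quotAct_mk ψ C hCi y s).symm⟩
      obtain ⟨D, hDi, hD1, hD2⟩ := exists_inv_complement (p := p) (e := 1) (restrictAct θ T hTi)
        hX (S'.subgroupOf T) (fun y t ht => hS'i y t ht) (fun t => Subtype.ext (by
          rw [pow_one, Subgroup.coe_pow, Subgroup.coe_one]; exact t.2)) (fun k hk q hq => by
          rcases Nat.le_one_iff_eq_zero_or_eq_one.mp hk with rfl | rfl
          · exact ⟨1, by rw [one_pow]; simpa using hq.symm⟩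
          · exact ⟨q, by simp⟩)
      have hDbot : D.map T.subtype = ⊥ := by
        by_contra hne
        have hle := hcont (D.map T.subtype) (by
          rintro y _ ⟨d, hd, rfl⟩
          exact ⟨_, hDi y d hd, rfl⟩) hne
        obtain ⟨⟨s, hs⟩, hs1⟩ := S'.ne_bot_iff_exists_ne_one.mp hS'1
        obtain ⟨d, hd, hds⟩ := hle hs
        have hdm : d ∈ S'.subgroupOf T ⊓ D :=
          ⟨by show (d : A ⧸ C) ∈ S'; rw [show (d : A ⧸ C) = s from hds]; exact hs, hd⟩
        rw [hD1, Subgroup.mem_bot] at hdm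
        exact hs1 (Subtype.ext (hds.symm.trans (by rw [hdm]; rfl)))
      rw [(Subgroup.map_eq_bot_iff_of_injective _ T.subtype_injective).mp hDbot, sup_bot_eq,
        Subgroup.subgroupOf_eq_top] at hD2
      exact fun a => ⟨hBp a, fun ha => hcont B hB h (hD2 (show a ∈ T from ha))⟩
    -- the quotient is homogeneous
    have hpure : ∀ k ≤ e, ∀ q : A ⧸ C, q ^ p ^ k = 1 → ∃ h, h ^ p ^ (e - k) = q := by
      intro k hk q hq
      set R := (powMonoidHom (p ^ (e - k)) : A ⧸ C →* A ⧸ C).range with hR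
      obtain ⟨j, hjk, hj⟩ := torsion_of_irreducible θ hirr k R (by
        rintro y _ ⟨a, rfl⟩
        exact ⟨θ y a, (map_pow (θ y) a _).symm⟩) (by
        rintro _ ⟨a, rfl⟩
        show (a ^ p ^ (e - k)) ^ p ^ k = 1
        rw [← pow_mul, ← pow_add, Nat.sub_add_cancel hk, hexpQ])
      rcases eq_or_lt_of_le hjk with rfl | hlt
      · exact (hj q).mpr hq
      exfalso
      refine hS'1 ((Subgroup.eq_bot_iff_forall S').mpr ?_)
      rintro _ ⟨s, hs, rfl⟩
      obtain ⟨a, rfl⟩ := hSP hs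
      show ((a ^ p ^ (e - 1) : A) : A ⧸ C) = 1
      rw [show e - 1 = (e - k + j) + (e - 1 - (e - k + j)) by omega, pow_add, pow_mul,
        QuotientGroup.mk_pow]
      have := (hj ((a : A ⧸ C) ^ p ^ (e - k))).mp ⟨a, rfl⟩
      rw [← pow_mul, ← pow_add] at this
      rw [QuotientGroup.mk_pow, this, one_pow]
    obtain ⟨D, hDi, hD1, hD2⟩ := exists_inv_complement ψ hX C hCi hexp hpure
    have hCbot : C = ⊥ := by
      by_contra hne
      refine hind ⟨C, D, hne, fun h => ?_, (hiff C).mpr hCi, (hiff D).mpr hDi, hD1, hD2⟩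
      rw [h, sup_bot_eq] at hD2
      rw [hD2, top_inf_eq] at hCS
      exact hS1 hCS
    rcases hirr (B₀.map (QuotientGroup.mk' C)) (by
        rintro y _ ⟨b, hb, rfl⟩
        exact ⟨ψ y b, hB₀ y b hb, (quotAct_mk ψ C hCi y b).symm⟩) (by
        rintro _ ⟨b, hb, rfl⟩
        rw [← map_pow, hB₀p b hb, map_one]) with h | h
    · left
      rw [Subgroup.map_eq_bot_iff, QuotientGroup.ker_mk', hCbot, le_bot_iff] at h
      exact h
    · right
      intro a
      refine ⟨hB₀p a, fun ha => ?_⟩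
      obtain ⟨b, hb, hba⟩ := (h (a : A ⧸ C)).mpr (by rw [← QuotientGroup.mk_pow, ha]; rfl)
      have hmem : b⁻¹ * a ∈ C := QuotientGroup.eq.mp hba
      rw [hCbot, Subgroup.mem_bot, inv_mul_eq_one] at hmem
      exact hmem ▸ hb
  · rintro ⟨B, C, hB1, hC1, hB, hC, hBC, -⟩
    obtain ⟨i, hi⟩ := h B hB
    obtain ⟨j, hj⟩ := h C hC
    rcases le_total i j with hle | hle
    · refine hB1 (le_bot_iff.mp (hBC ▸ le_inf le_rfl fun b hb => (hj b).mpr ?_))
      obtain ⟨d, rfl⟩ := Nat.exists_eq_add_of_le hle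
      rw [pow_add, pow_mul, (hi b).mp hb, one_pow]
    · refine hC1 (le_bot_iff.mp (hBC ▸ le_inf (fun b hb => (hi b).mpr ?_) le_rfl))
      obtain ⟨d, rfl⟩ := Nat.exists_eq_add_of_le hle
      rw [pow_add, pow_mul, (hj b).mp hb, one_pow]

end Cfsg.Agent.S3775
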