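import Cfsg.Statements.S3776
import Cfsg.Agent.Suzuki2S.Higman
import Cfsg.Agent.PGroup.Frattini

set_option autoImplicit false
open Cfsg

namespace Cfsg.Agent.S3776

/-- Let G be a finite non-abelian 2-group with more than one involution admitting a solvable group of automorphisms that permutes its involutions transitively. Then the derived subgroup, the Frattini subgroup and the centre of G coincide and consist exactly of the elements x with x² = 1. -/
theorem result {G : Type*} [Group G] [Finite G] (hG : IsPGroup 2 G) (hna : ¬ IsMulCommutative G) (htwo : ∃ x y : G, x ≠ y ∧ x ≠ 1 ∧ x ^ 2 = 1 ∧ y ≠ 1 ∧ y ^ 2 = 1) (hY : ∃ Y : Subgroup (MulAut G), Group.IsSolvable Y ∧ ∀ x y : G, x ≠ 1 → x ^ 2 = 1 → y ≠ 1 → y ^ 2 = 1 → ∃ a ∈ Y, a x = y) : commutator G = frattini G ∧ frattini G = Subgroup.center G ∧ ∀ x : G, x ∈ Subgroup.center G ↔ x ^ 2 = 1 := by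
  haveI : Fact (Nat.Prime 2) := ⟨Nat.prime_two⟩
  obtain ⟨Y, hsolv, htrans⟩ := hY
  obtain ⟨x₀, y₀, hxy, hx1, hx2, hy1, hy2⟩ := htwo
  have hd : Suzuki2S.Data Y := by
    refine ⟨inferInstance, hG, ?_, ⟨x₀, y₀, hxy, hx1, by rwa [← pow_two], hy1, by rwa [← pow_two]⟩,
      hsolv, fun x y hx hx' hy hy' => htrans x y hx (by rwa [pow_two]) hy (by rwa [pow_two])⟩
    by_contra h
    push Not at h
    exact hna ⟨⟨h⟩⟩
  obtain ⟨hsq, hcom⟩ := Suzuki2S.sq_comm_central hd
  have hZ : ∀ x : G, x ∈ Subgroup.center G ↔ x ^ 2 = 1 := by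
    intro x
    rw [pow_two]
    refine ⟨Suzuki2S.center_sq hd x, fun h => ?_⟩
    exact Subgroup.mem_center_iff.2 fun y => (Suzuki2S.invol_central hd h y).symm
  -- the derived group is the centre
  have hCle : commutator G ≤ Subgroup.center G := by
    rw [commutator_def, Subgroup.commutator_le]
    intro a _ b _
    have h := hcom a⁻¹ b⁻¹
    simpa [commutatorElement_def] using h
  have hCge : Subgroup.center G ≤ commutator G := by
    obtain ⟨a, b, hab⟩ := hd.noncomm
    set c := a⁻¹ * b⁻¹ * a * b with hc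
    have hc1 : c ≠ 1 := fun h => hab (by
      calc a * b = b * a * c := by rw [hc]; group
        _ = _ := by rw [h, mul_one])
    have hcm : c ∈ commutator G := by
      have h := Subgroup.commutator_mem_commutator (Subgroup.mem_top a⁻¹) (Subgroup.mem_top b⁻¹)
      simpa [hc, commutator_def, commutatorElement_def] using h
    intro z hz
    by_cases hz1 : z = 1
    · rw [hz1]; exact one_mem _
    obtain ⟨g, -, hg⟩ := htrans c z hc1 ((hZ c).1 (hCle hcm)) hz1 ((hZ z).1 hz)
    rw [← hg]
    have hchar : (commutator G).map g.toMonoidHom = commutator G := by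
      rw [commutator_def, Subgroup.map_commutator, Subgroup.map_top_of_surjective _ g.surjective]
    rw [← hchar]
    exact Subgroup.mem_map_of_mem _ hcm
  have hC := le_antisymm hCle hCge
  have hFle : frattini G ≤ Subgroup.center G :=
    Cfsg.Agent.PGroup.frattini_le_of_commutator_le_of_pow_mem Nat.prime_two hCle
      fun x => by rw [pow_two]; exact hsq x
  have hFge : commutator G ≤ frattini G := Cfsg.Agent.PGroup.commutator_le_frattini hG
  refine ⟨le_antisymm hFge (hC ▸ hFle), le_antisymm hFle (hC ▸ hFge), hZ⟩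

end Cfsg.Agent.S3776
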