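import Cfsg.Statements.S3778
import Cfsg.Agent.PGroup.Basic

set_option autoImplicit false
open Cfsg
open scoped commutatorElement
set_option linter.style.haveILetI false

namespace Cfsg.Agent.S3778

/-- If G is a finite p-group in which every conjugacy class has at most p^b elements (every element has centralizer of index at most p^b), then G is abelian when b = 0, and when b ≥ 1 its nilpotency class c satisfies (c − 1)(p − 1) < bp, that is c < bp/(p − 1) + 1, and hence c ≤ 2b. -/
theorem result {G : Type*} [Group G] [Finite G] {p : ℕ} [Fact p.Prime] (hG : IsPGroup p G) (b : ℕ) (hb : ∀ x : G, (Subgroup.centralizer ({x} : Set G)).index ≤ p ^ b) : ∃ c : ℕ, (⊤ : Subgroup G).lowerCentralSeries c = ⊥ ∧ (b ≠ 0 → (c - 1) * (p - 1) < b * p ∧ c ≤ 2 * b) ∧ (b = 0 → c ≤ 1) := by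

  classical
  have hp := (Fact.out : p.Prime)
  haveI hnil := hG.isNilpotent
  set c := Group.nilpotencyClass G with hcdef
  set L := (⊤ : Subgroup G).lowerCentralSeries with hLdef
  refine ⟨c, Subgroup.lowerCentralSeries_nilpotencyClass, fun hb0 => ?_, fun hb0 => ?_⟩
  swap
  · rw [hcdef, ← Subgroup.lowerCentralSeries_eq_bot_iff_nilpotencyClass_le,
      Subgroup.top_lowerCentralSeries_one, commutator_eq_bot_iff_center_eq_top, eq_top_iff]
    intro x _
    have h1 := hb x
    rw [hb0, pow_zero] at h1
    have h2 : (Subgroup.centralizer ({x} : Set G)).index = 1 :=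
      le_antisymm h1 (Nat.one_le_iff_ne_zero.mpr Subgroup.index_ne_zero_of_finite)
    rw [Subgroup.index_eq_one] at h2
    refine Subgroup.mem_center_iff.mpr fun g => ?_
    exact Subgroup.mem_centralizer_singleton_iff.mp (h2 ▸ Subgroup.mem_top g)
  suffices hkey : (c - 1) * (p - 1) < b * p by
    refine ⟨hkey, ?_⟩
    have h2 : b * p ≤ 2 * b * (p - 1) := by
      calc b * p ≤ b * (2 * (p - 1)) := Nat.mul_le_mul_left _ (by have := hp.two_le; omega)
        _ = 2 * b * (p - 1) := by ring
    have h3 : c - 1 < 2 * b := Nat.lt_of_mul_lt_mul_right (hkey.trans_le h2)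
    omega
  by_cases hc2 : c ≤ 1
  · rw [show c - 1 = 0 by omega, zero_mul]
    exact Nat.mul_pos (Nat.pos_of_ne_zero hb0) hp.pos
  have hLn : ∀ j, (L j).Normal := fun j => inferInstance
  have hLne : ∀ j, j < c → L j ≠ ⊥ := fun j hj h => by
    have := Subgroup.lowerCentralSeries_eq_bot_iff_nilpotencyClass_le.mp h
    omega
  have hLs : ∀ j, L (j + 1) = ⁅L j, (⊤ : Subgroup G)⁆ := fun j =>
    Subgroup.lowerCentralSeries_succ _ j
  -- two-step centralisers
  let C : ℕ → Subgroup G := fun j =>
    haveI := hLn (j + 2)
    (Subgroup.centralizer (((L j).map (QuotientGroup.mk' (L (j + 2)))) : Set _)).comap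
      (QuotientGroup.mk' (L (j + 2)))
  have hCmem : ∀ j x, x ∈ C j ↔ ∀ y ∈ L j, ⁅y, x⁆ ∈ L (j + 2) := by
    intro j x
    haveI := hLn (j + 2)
    simp only [C, Subgroup.mem_comap, Subgroup.mem_centralizer_iff]
    constructor
    · intro h y hy
      rw [← QuotientGroup.eq_one_iff]
      show QuotientGroup.mk' (L (j + 2)) ⁅y, x⁆ = 1
      rw [map_commutatorElement, commutatorElement_eq_one_iff_mul_comm]
      exact h _ ⟨y, hy, rfl⟩
    · rintro h - ⟨y, hy, rfl⟩
      rw [← commutatorElement_eq_one_iff_mul_comm, ← map_commutatorElement]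
      exact (QuotientGroup.eq_one_iff _).mpr (h y hy)
  have hpdvd : ∀ X Y : Subgroup G, X < Y → p * Nat.card X ≤ Nat.card Y := by
    intro X Y hXY
    obtain ⟨a, ha⟩ := IsPGroup.iff_card.mp (hG.to_subgroup X)
    obtain ⟨d, hd⟩ := IsPGroup.iff_card.mp (hG.to_subgroup Y)
    have hlt : Nat.card X < Nat.card Y := by
      refine lt_of_le_of_ne (Subgroup.card_le_of_le hXY.le) fun h => hXY.ne ?_
      exact Subgroup.eq_of_le_of_card_ge hXY.le h.ge
    rw [ha, hd] at hlt ⊢
    rw [← pow_succ']
    exact Nat.pow_le_pow_right hp.pos (by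
      have := (Nat.pow_lt_pow_iff_right hp.one_lt).mp hlt; omega)
  have hprop : ∀ j, j + 1 < c → p * Nat.card (C j) ≤ Nat.card G := by
    intro j hj
    have hlt : C j < ⊤ := lt_top_iff_ne_top.mpr fun h => by
      haveI := hLn (j + 1)
      refine (PGroup.commutator_top_lt hG (hLne (j + 1) hj)).not_ge ?_
      rw [← hLs]
      conv_lhs => rw [hLs j]
      exact Subgroup.commutator_le.mpr fun y hy x _ => (hCmem j x).mp (h ▸ Subgroup.mem_top x) y hy
    have := hpdvd _ _ hlt
    rwa [Subgroup.card_top] at this
  -- the indices outside whose centraliser a given element lies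
  let S : G → Finset ℕ := fun x => (Finset.range (c - 1)).filter fun j => x ∉ C j
  have hbound : ∀ x, (S x).card ≤ b := by
    intro x
    set Z := Subgroup.centralizer ({x} : Set G) with hZ
    have hchain : ∀ k, p ^ ((S x).filter (· < k)).card * Nat.card ↥(L k ⊔ Z) ≤ Nat.card G := by
      intro k
      induction k with
      | zero =>
        rw [Finset.filter_false_of_mem (by simp), Finset.card_empty, pow_zero, one_mul]
        exact Subgroup.card_le_card_group _
      | succ k ih =>
        have hanti : L (k + 1) ≤ L k := Subgroup.lowerCentralSeries_antitone _ (Nat.le_succ k)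
        by_cases hk : k ∈ S x
        · have hlt : L (k + 1) ⊔ Z < L k ⊔ Z := by
            refine lt_of_le_of_ne (sup_le_sup_right hanti _) fun h => ?_
            refine (Finset.mem_filter.mp hk).2 ((hCmem k x).mpr fun y hy => ?_)
            haveI := hLn (k + 1)
            obtain ⟨y', hy', g, hg, rfl⟩ := Subgroup.mem_sup_of_normal_left.mp
              (h ▸ Subgroup.mem_sup_left hy : y ∈ L (k + 1) ⊔ Z)
            have hgx : ⁅g, x⁆ = 1 := commutatorElement_eq_one_iff_mul_comm.mpr
              (Subgroup.mem_centralizer_singleton_iff.mp hg)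
            rw [show ⁅y' * g, x⁆ = y' * ⁅g, x⁆ * y'⁻¹ * ⁅y', x⁆ by group, hgx, mul_one,
              mul_inv_cancel, one_mul, hLs (k + 1)]
            exact Subgroup.commutator_mem_commutator hy' (Subgroup.mem_top x)
          have h1 := hpdvd _ _ hlt
          have h2 : (S x).filter (· < k + 1) = insert k ((S x).filter (· < k)) := by
            ext j
            simp only [Finset.mem_filter, Finset.mem_insert]
            constructor
            · rintro ⟨hj, hj'⟩
              rcases Nat.lt_succ_iff_lt_or_eq.mp hj' with h | h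
              · exact Or.inr ⟨hj, h⟩
              · exact Or.inl h
            · rintro (rfl | ⟨hj, hj'⟩)
              · exact ⟨hk, Nat.lt_succ_self _⟩
              · exact ⟨hj, by omega⟩
          rw [h2, Finset.card_insert_of_notMem (by simp), pow_succ, mul_assoc]
          exact (Nat.mul_le_mul_left _ h1).trans ih
        · have h2 : (S x).filter (· < k + 1) = (S x).filter (· < k) := by
            refine Finset.filter_congr fun j hj => ⟨fun h => ?_, fun h => by omega⟩
            rcases Nat.lt_succ_iff_lt_or_eq.mp h with h' | h'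
            · exact h'
            · exact absurd (h' ▸ hj) hk
          rw [h2]
          exact (Nat.mul_le_mul_left _ (Subgroup.card_le_of_le (sup_le_sup_right hanti _))).trans ih
    have h1 := hchain c
    rw [Finset.filter_true_of_mem (fun j hj => by
      have := Finset.mem_range.mp (Finset.mem_filter.mp hj).1; omega), ← Z.card_mul_index] at h1
    have h2 : Nat.card Z * p ^ (S x).card ≤ Nat.card Z * Z.index := by
      refine le_trans ?_ h1
      rw [mul_comm]
      exact Nat.mul_le_mul_left _ (Subgroup.card_le_of_le le_sup_right)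
    exact (Nat.pow_le_pow_iff_right hp.one_lt).mp
      ((Nat.le_of_mul_le_mul_left h2 Nat.card_pos).trans (hb x))
  by_contra hcon
  rw [not_lt] at hcon
  haveI : Fintype G := Fintype.ofFinite G
  have hsum1 : p * ∑ x : G, (S x).card < Fintype.card G * ((c - 1) * (p - 1)) := by
    have h1 : (S 1).card = 0 := by
      rw [Finset.card_eq_zero, Finset.filter_eq_empty_iff]
      exact fun j _ h => h (one_mem _)
    rw [Finset.mul_sum, ← smul_eq_mul (Fintype.card G), ← Finset.card_univ, ← Finset.sum_const]
    refine Finset.sum_lt_sum (fun x _ => ?_) ⟨1, Finset.mem_univ 1, ?_⟩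
    · calc p * (S x).card ≤ p * b := Nat.mul_le_mul_left _ (hbound x)
        _ = b * p := mul_comm _ _
        _ ≤ _ := hcon
    · rw [h1, mul_zero]
      exact Nat.mul_pos (by omega) (by have := hp.two_le; omega)
  have hsum2 : ∑ x : G, (S x).card =
      ∑ j ∈ Finset.range (c - 1), (Finset.univ.filter fun x => x ∉ C j).card := by
    simp only [S, Finset.card_filter]
    exact Finset.sum_comm
  have hsum3 : Fintype.card G * ((c - 1) * (p - 1)) ≤ p * ∑ x : G, (S x).card := by
    rw [hsum2, Finset.mul_sum,
      show Fintype.card G * ((c - 1) * (p - 1)) = (c - 1) * (Fintype.card G * (p - 1)) by ring]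
    calc (c - 1) * (Fintype.card G * (p - 1))
        = ∑ j ∈ Finset.range (c - 1), Fintype.card G * (p - 1) := by
          rw [Finset.sum_const, Finset.card_range, smul_eq_mul]
      _ ≤ _ := Finset.sum_le_sum fun j hj => ?_
    have hj' := hprop j (by have := Finset.mem_range.mp hj; omega)
    rw [Nat.card_eq_fintype_card (α := G)] at hj'
    have h1 : (Finset.univ.filter fun x => x ∈ C j).card +
        (Finset.univ.filter fun x => x ∉ C j).card = Fintype.card G :=
      Finset.card_filter_add_card_filter_not (s := Finset.univ) _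
    have h2 : Nat.card (C j) = (Finset.univ.filter fun x => x ∈ C j).card := by
      rw [Nat.card_eq_fintype_card]; exact Fintype.card_subtype _
    rw [h2] at hj'
    have h3 : Fintype.card G * (p - 1) + Fintype.card G = Fintype.card G * p := by
      rw [← Nat.mul_succ, Nat.succ_eq_add_one, show p - 1 + 1 = p by have := hp.two_le; omega]
    nlinarith
  omega


end Cfsg.Agent.S3778
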