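import Cfsg.Statements.S3779
import Cfsg.Agent.PGroup.AssocLie
import Cfsg.Agent.S0033

set_option autoImplicit false
open Cfsg

namespace Cfsg.Agent.S3779

/-- Let G be a finite group with an automorphism of prime order p fixing only the identity. Then G is nilpotent; if p = 2 then G is abelian, if p = 3 then G has class at most 2, and in general the class of G is at most ξ = 1 + (p−1) + (p−1)² + ⋯ + (p−1)^(n−1) with n = 2^(p−1) − 1 (the Higman–Kreknin–Kostrikin bound). -/
theorem result {G : Type*} [Group G] [Finite G] {p : ℕ} (hp : p.Prime) (α : MulAut G) (hα : orderOf α = p) (hfpf : ∀ g : G, α g = g → g = 1) : (p = 2 → (⊤ : Subgroup G).lowerCentralSeries 1 = ⊥) ∧ (p = 3 → (⊤ : Subgroup G).lowerCentralSeries 2 = ⊥) ∧ (⊤ : Subgroup G).lowerCentralSeries (Finset.sum (Finset.range (2 ^ (p - 1) - 1)) (fun i => (p - 1) ^ i)) = ⊥ := by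
  haveI : Fact p.Prime := ⟨hp⟩
  have hnil : Group.IsNilpotent G := Cfsg.Agent.S0033.result α (fun x hx => hfpf x hx) p hp hα
  have hord : ∀ g, α^[p] g = g := by
    intro g
    have h : ∀ n : ℕ, (⇑α)^[n] g = (α ^ n : MulAut G) g := by
      intro n
      induction n with
      | zero => rfl
      | succ n ih => rw [Function.iterate_succ_apply', ih, pow_succ']; rfl
    rw [h, ← hα, pow_orderOf_eq_one]
    rfl
  obtain ⟨D⟩ := Cfsg.Agent.PGroup.AssocLie.traceZero α hfpf hord
    (Cfsg.Agent.PGroup.AssocLie.coprime_card α hα hfpf)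
  have hgen := Cfsg.Agent.PGroup.AssocLie.γ_eq_bot D.lcs_eq_bot
  refine ⟨?_, ?_, hgen⟩
  · rintro rfl
    simpa using hgen
  · rintro rfl
    exact Cfsg.Agent.PGroup.AssocLie.γ_eq_bot
      (Cfsg.Agent.PGroup.Kreknin.TraceZero.lcs_two_eq_bot D)

end Cfsg.Agent.S3779
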