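import Cfsg.Statements.S3780
import Cfsg.Agent.PGroup.Frattini
import Mathlib.Algebra.CharP.Lemmas

set_option autoImplicit false
open Cfsg

namespace Cfsg.Agent.S3780

/-- Let V be a finite abelian p-group and α an automorphism of V of order p whose fixed-point subgroup has order p^n. Then V can be generated by pn elements: some subset of V with at most pn elements generates V. -/
theorem result {V : Type*} [CommGroup V] [Finite V] {p : ℕ} [Fact p.Prime] (hV : IsPGroup p V) (α : MulAut V) (hα : orderOf α = p) (n : ℕ) (hfix : Nat.card {v : V // α v = v} = p ^ n) : ∃ S : Finset V, S.card ≤ p * n ∧ Subgroup.closure (S : Set V) = ⊤ := by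
  classical
  have hp := (Fact.out : p.Prime)
  let φ : V →* V := powMonoidHom p
  let Ω := φ.ker
  have hΦ : frattini V = φ.range := by
    refine le_antisymm ((Cfsg.Agent.PGroup.frattini_le_iff hV).mpr ⟨?_, fun x => ⟨x, rfl⟩⟩) ?_
    · rw [(commutator_eq_bot_iff_center_eq_top V).mpr (CommGroup.center_eq_top)]
      exact bot_le
    · rintro _ ⟨x, rfl⟩
      exact Cfsg.Agent.PGroup.pow_mem_frattini hV x
  have hidx : (frattini V).index = Nat.card Ω := by
    have h1 := φ.range.card_mul_index
    have h2 := φ.ker.card_mul_index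
    rw [Subgroup.index_ker, mul_comm] at h2
    rw [hΦ]
    exact Nat.eq_of_mul_eq_mul_left Nat.card_pos (h1.trans h2.symm)
  -- `T = α - 1` on `Ω`
  have hαΩ : ∀ x : Ω, α x.1 ∈ Ω := fun x => by
    show (α x.1) ^ p = 1
    rw [← map_pow, show x.1 ^ p = 1 from x.2, map_one]
  let T : Ω →* Ω :=
    { toFun := fun x => ⟨x.1⁻¹ * α x.1, mul_mem (inv_mem x.2) (hαΩ x)⟩
      map_one' := Subtype.ext (by simp)
      map_mul' := fun x y => Subtype.ext (by
        show (x.1 * y.1)⁻¹ * α (x.1 * y.1) = x.1⁻¹ * α x.1 * (y.1⁻¹ * α y.1)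
        rw [map_mul, mul_inv, mul_mul_mul_comm]) }
  -- `(α - 1)^p = α^p - 1 = 0` in characteristic `p`
  have hnil : ∀ x : Ω, T^[p] x = 1 := by
    let a : AddMonoid.End (Additive Ω) :=
      MonoidHom.toAdditive (MonoidHom.mk' (fun x : Ω => (⟨α x.1, hαΩ x⟩ : Ω))
        (fun x y => Subtype.ext (map_mul α x.1 y.1)))
    have hap : ∀ (n : ℕ) (x : Additive Ω), ((a ^ n) x).toMul.1 = (α ^ n) x.toMul.1 := by
      intro n
      induction n with
      | zero => intro x; rfl
      | succ n ih =>
        intro x
        rw [pow_succ', pow_succ']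
        show α ((a ^ n) x).toMul.1 = α ((α ^ n) x.toMul.1)
        rw [ih]
    rcases subsingleton_or_nontrivial Ω with hs | hs
    · exact fun x => Subsingleton.elim _ _
    haveI : Nontrivial (AddMonoid.End (Additive Ω)) := ⟨0, 1, fun h => by
      obtain ⟨x, hx⟩ := exists_ne (1 : Ω)
      exact hx (Additive.ofMul.injective (DFunLike.congr_fun h (Additive.ofMul x))).symm⟩
    haveI : CharP (AddMonoid.End (Additive Ω)) p := by
      have h0 : (p : AddMonoid.End (Additive Ω)) = 0 := by
        refine DFunLike.ext _ _ fun x => ?_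
        rw [AddMonoid.End.natCast_apply]
        show Additive.ofMul (x.toMul ^ p) = 0
        rw [show x.toMul ^ p = 1 from Subtype.ext x.toMul.2]
        rfl
      exact ringChar.of_eq (((Nat.dvd_prime hp).mp (ringChar.dvd h0)).resolve_left
        CharP.ringChar_ne_one)
    have hsub : (a - 1) ^ p = 0 := by
      rw [sub_pow_char_of_commute p (Commute.one_right a), one_pow, sub_eq_zero]
      refine DFunLike.ext _ _ fun x => ?_
      apply Additive.toMul.injective
      apply Subtype.ext
      rw [hap, ← hα, pow_orderOf_eq_one]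
      rfl
    have hT : ∀ (n : ℕ) (x : Ω), Additive.ofMul (T^[n] x) = ((a - 1) ^ n) (Additive.ofMul x) := by
      intro n
      induction n with
      | zero => intro x; rfl
      | succ n ih =>
        intro x
        rw [Function.iterate_succ_apply', pow_succ', AddMonoid.End.coe_mul, Function.comp_apply,
          ← ih x]
        apply Additive.toMul.injective
        apply Subtype.ext
        show (T^[n] x).1⁻¹ * α (T^[n] x).1 = α (T^[n] x).1 / (T^[n] x).1
        rw [div_eq_mul_inv, mul_comm]
    intro x
    have := hT p x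
    rw [hsub] at this
    exact Additive.ofMul.injective this
  have hker : Nat.card T.ker ≤ p ^ n := by
    rw [← hfix]
    refine Nat.card_le_card_of_injective
      (fun x : T.ker => (⟨x.1.1, (inv_mul_eq_one.mp
        (congrArg Subtype.val (MonoidHom.mem_ker.mp x.2))).symm⟩ : {v : V // α v = v})) ?_
    exact fun x y h => Subtype.ext (Subtype.ext (congrArg (fun w : {v : V // α v = v} => w.1) h))
  have hiter : ∀ k, Nat.card {x : Ω // T^[k] x = 1} ≤ Nat.card T.ker ^ k := by
    intro k
    induction k with
    | zero =>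
      rw [pow_zero]
      refine le_of_eq (Nat.card_eq_one_iff_unique.mpr ⟨⟨fun a b => Subtype.ext ?_⟩, ⟨⟨1, rfl⟩⟩⟩)
      exact a.2.trans b.2.symm
    | succ k ih =>
      let S : Subgroup Ω :=
        { carrier := {x | T^[k + 1] x = 1}
          one_mem' := iterate_map_one T _
          mul_mem' := fun {x y} (hx : T^[k + 1] x = 1) (hy : T^[k + 1] y = 1) => by
            show T^[k + 1] (x * y) = 1
            rw [iterate_map_mul, hx, hy, one_mul]
          inv_mem' := fun {x} (hx : T^[k + 1] x = 1) => by
            show T^[k + 1] x⁻¹ = 1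
            rw [iterate_map_inv, hx, inv_one] }
      let g : S →* Ω := T.comp S.subtype
      have h1 : Nat.card g.range ≤ Nat.card T.ker ^ k := by
        refine le_trans ?_ ih
        refine Nat.card_le_card_of_injective
          (fun y : g.range => (⟨y.1, ?_⟩ : {x : Ω // T^[k] x = 1})) ?_
        · obtain ⟨x, hx⟩ := y.2
          rw [← hx]
          exact (Function.iterate_succ_apply T k x.1).symm.trans x.2
        · exact fun y y' h => Subtype.ext (congrArg (fun w : {x : Ω // T^[k] x = 1} => w.1) h)
      have h2 : Nat.card g.ker ≤ Nat.card T.ker := by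
        refine Nat.card_le_card_of_injective (fun x : g.ker => (⟨x.1.1, x.2⟩ : T.ker)) ?_
        exact fun x y h => Subtype.ext (Subtype.ext (congrArg (fun w : T.ker => w.1) h))
      calc Nat.card S = Nat.card g.ker * Nat.card g.range := by
            rw [← g.ker.card_mul_index, Subgroup.index_ker]
        _ ≤ Nat.card T.ker * Nat.card T.ker ^ k := Nat.mul_le_mul h2 h1
        _ = _ := (pow_succ' _ _).symm
  obtain ⟨d, hd⟩ := hV.index (frattini V)
  obtain ⟨S, hS, hgen⟩ := Cfsg.Agent.PGroup.exists_generators hV hd
  refine ⟨S, ?_, hgen⟩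
  rw [hS]
  refine (Nat.pow_le_pow_iff_right hp.one_lt).mp ?_
  rw [← hd, hidx]
  calc Nat.card Ω ≤ Nat.card {x : Ω // T^[p] x = 1} :=
        Nat.card_le_card_of_injective (fun x => ⟨x, hnil x⟩) fun x y h => congrArg Subtype.val h
    _ ≤ (p ^ n) ^ p := (hiter p).trans (Nat.pow_le_pow_left hker p)
    _ = p ^ (p * n) := by rw [← pow_mul, mul_comm]

end Cfsg.Agent.S3780
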