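import Cfsg.Statements.S3781
import Cfsg.Agent.PGroup.Basic
import Cfsg.Agent.S4206

set_option autoImplicit false
open Cfsg

namespace Cfsg.Agent.S3781

/-- Let G be a finite p-group and n ≥ 1, and write γ_1(G) = G, γ_{k+1}(G) = [γ_k(G), G], and likewise γ_k(N) for a subgroup N. Let N be a normal subgroup of G contained in γ_n(G). If i > 1 and γ_{i+1}(N) ≠ 1, then |γ_i(N) : γ_{i+1}(N)| ≥ p^n. -/
theorem result {G : Type*} [Group G] [Finite G] {p : ℕ} [Fact p.Prime] (hG : IsPGroup p G) (n : ℕ) (hn : 1 ≤ n) (N : Subgroup G) [N.Normal] (hN : N ≤ (⊤ : Subgroup G).lowerCentralSeries (n - 1)) (i : ℕ) (hi : 1 < i) (hne : N.lowerCentralSeries i ≠ ⊥) : p ^ n ≤ (N.lowerCentralSeries i).relIndex (N.lowerCentralSeries (i - 1)) := by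

  classical
  have hp := (Fact.out : p.Prime)
  obtain ⟨j, rfl⟩ : ∃ j, i = j + 1 := ⟨i - 1, by omega⟩
  rw [show j + 1 - 1 = j by omega]
  by_contra hlt
  rw [not_le] at hlt
  have hnorm : ∀ m, (N.lowerCentralSeries m).Normal := by
    intro m
    induction m with
    | zero => exact (inferInstance : N.Normal)
    | succ m ih =>
      haveI := ih
      rw [Subgroup.lowerCentralSeries_succ]
      infer_instance
  set A := N.lowerCentralSeries j with hA
  set B := N.lowerCentralSeries (j + 1) with hB
  haveI hAn : A.Normal := hnorm j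
  haveI hBn : B.Normal := hnorm (j + 1)
  have hBA : B ≤ A := N.lowerCentralSeries_antitone (Nat.le_succ j)
  let D : ℕ → Subgroup G := fun k => (fun X : Subgroup G => ⁅X, (⊤ : Subgroup G)⁆ ⊔ B)^[k] A
  have hD0 : D 0 = A := rfl
  have hDs : ∀ k, D (k + 1) = ⁅D k, (⊤ : Subgroup G)⁆ ⊔ B := fun k =>
    Function.iterate_succ_apply' _ _ _
  have hDn : ∀ k, (D k).Normal ∧ B ≤ D k := by
    intro k
    induction k with
    | zero => exact ⟨hAn, hBA⟩
    | succ k ih =>
      haveI := ih.1
      rw [hDs]
      exact ⟨@Subgroup.sup_normal _ _ _ _ (Subgroup.commutator_normal (D k) ⊤) hBn, le_sup_right⟩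
  have hDle : ∀ k, D (k + 1) ≤ D k := by
    intro k
    haveI := (hDn k).1
    rw [hDs]
    exact sup_le (Subgroup.commutator_le_left _ _) (hDn k).2
  have hpow : ∀ X Y : Subgroup G, ∃ c, X.relIndex Y = p ^ c := by
    intro X Y
    obtain ⟨a, ha⟩ := IsPGroup.iff_card.mp (hG.to_subgroup Y)
    have hd : X.relIndex Y ∣ p ^ a := ha ▸ Subgroup.index_dvd_card _
    obtain ⟨c, -, hc⟩ := (Nat.dvd_prime_pow hp).mp hd
    exact ⟨c, hc⟩
  have hfix : ∀ k, D (k + 1) = D k → D k = B := by
    intro k hk
    haveI := (hDn k).1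
    have hsurj := QuotientGroup.mk'_surjective B
    haveI : ((D k).map (QuotientGroup.mk' B)).Normal := Subgroup.Normal.map inferInstance _ hsurj
    have hX : (D k).map (QuotientGroup.mk' B) = ⊥ := by
      by_contra hX
      refine (PGroup.commutator_top_lt (hG.to_quotient B)
        (N := (D k).map (QuotientGroup.mk' B)) hX).ne ?_
      have hBbot : B.map (QuotientGroup.mk' B) = ⊥ := by
        rw [Subgroup.map_eq_bot_iff, QuotientGroup.ker_mk']
      conv_rhs => rw [← hk, hDs, Subgroup.map_sup, Subgroup.map_commutator, hBbot, sup_bot_eq,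
        Subgroup.map_top_of_surjective _ hsurj]
    rw [Subgroup.map_eq_bot_iff, QuotientGroup.ker_mk'] at hX
    exact le_antisymm hX (hDn k).2
  have hbound : ∀ k, D k = B ∨ B.relIndex (D k) * p ^ k ≤ B.relIndex A := by
    intro k
    induction k with
    | zero => right; simp [hD0]
    | succ k ih =>
      by_cases hk : D k = B
      · exact Or.inl (le_antisymm ((hDle k).trans hk.le) (hDn (k + 1)).2)
      · right
        have h1 := ih.resolve_left hk
        have h2 := Subgroup.relIndex_mul_relIndex B (D (k + 1)) (D k) (hDn (k + 1)).2 (hDle k)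
        obtain ⟨c, hc⟩ := hpow (D (k + 1)) (D k)
        have hc1 : c ≠ 0 := fun h0 => hk (hfix k (le_antisymm (hDle k)
          (Subgroup.relIndex_eq_one.mp (by rw [hc, h0, pow_zero]))))
        have h3 : p ≤ p ^ c := Nat.le_self_pow hc1 p
        calc B.relIndex (D (k + 1)) * p ^ (k + 1)
            = B.relIndex (D (k + 1)) * p * p ^ k := by rw [pow_succ]; ring
          _ ≤ B.relIndex (D (k + 1)) * p ^ c * p ^ k := by gcongr
          _ = B.relIndex (D k) * p ^ k := by rw [← hc, h2]
          _ ≤ B.relIndex A := h1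
  have hend : D (n - 1) = B := by
    rcases hbound (n - 1) with h | h
    · exact h
    · obtain ⟨c, hc⟩ := hpow B (D (n - 1))
      have h1 : p ^ c * p ^ (n - 1) < p ^ n := by rw [← hc]; exact lt_of_le_of_lt h hlt
      rw [← pow_add] at h1
      have h2 := (Nat.pow_lt_pow_iff_right hp.one_lt).mp h1
      have hc0 : c = 0 := by omega
      exact le_antisymm (Subgroup.relIndex_eq_one.mp (by rw [hc, hc0, pow_zero])) (hDn (n - 1)).2
  let H : ℕ → Subgroup G := fun k => if k ≤ n - 1 then D k else ⁅B, (⊤ : Subgroup G)⁆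
  have hHn : ∀ k, (H k).Normal := by
    intro k
    simp only [H]
    split_ifs with hk
    · exact (hDn k).1
    · infer_instance
  have hHL : ∀ k, ⁅H k, (⊤ : Subgroup G)⁆ ≤ H (k + 1) := by
    intro k
    simp only [H]
    split_ifs with h1 h2 h2
    · rw [hDs]; exact le_sup_left
    · rw [show k = n - 1 by omega, hend]
    · omega
    · exact Subgroup.commutator_le_left _ _
  have hHd : ∀ k, H (k + 1) ≤ H k := by
    intro k
    simp only [H]
    split_ifs with h1 h2 h2
    · exact hDle k
    · omega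
    · rw [show k = n - 1 by omega, hend]; exact Subgroup.commutator_le_left _ _
    · exact le_rfl
  have hfin := Cfsg.Agent.S4206.result H hHn hHd ⊤ hHL 0 (n - 1)
  simp only [H, Nat.zero_le, if_true, hD0, show ¬ (0 + (n - 1) + 1 ≤ n - 1) by omega, if_false] at hfin
  have hBle : B ≤ ⁅B, (⊤ : Subgroup G)⁆ := by
    refine le_trans ?_ hfin
    rw [hB, Subgroup.lowerCentralSeries_succ]
    exact Subgroup.commutator_mono le_rfl hN
  exact (PGroup.commutator_top_lt hG hne).not_ge hBle


end Cfsg.Agent.S3781
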