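import Cfsg.Statements.S3782
import Cfsg.Agent.AlmostFixed.Solvable
import Cfsg.Agent.S3779

set_option autoImplicit false
open Cfsg

namespace Cfsg.Agent.S3782

/-- Alperin's Theorem: for each prime p and each n ≥ 0 there is an integer l such that every finite solvable group admitting an automorphism of order p with exactly p^n fixed points has derived length at most l. -/
theorem result (p : ℕ) (hp : p.Prime) (n : ℕ) : ∃ l : ℕ, ∀ (G : Type) [Group G] [Finite G], Group.IsSolvable G → ∀ α : MulAut G, orderOf α = p → Nat.card {g : G // α g = g} = p ^ n → derivedSeries G l = ⊥ := by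
  haveI : Fact p.Prime := ⟨hp⟩
  refine ⟨(AlmostFixed.eBnd p n).factorial + AlmostFixed.pBound p n + AlmostFixed.higman p, ?_⟩
  intro G _ _ hG α hα hfix
  have hord : ∀ g, α^[p] g = g := by
    intro g
    have h : ∀ m : ℕ, (⇑α)^[m] g = (α ^ m : MulAut G) g := by
      intro m
      induction m with
      | zero => rfl
      | succ m ih => rw [Function.iterate_succ_apply', ih, pow_succ']; rfl
    rw [h, ← hα, pow_orderOf_eq_one]
    rfl
  set N := Cfsg.pPrimeCore p G with hNdef
  haveI : N.Characteristic := PSolv.pPrimeCore_characteristic p G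
  have hNα : ∀ x, x ∈ N → α x ∈ N := fun x hx =>
    Subgroup.characteristic_iff_map_le.mp inferInstance α ⟨x, hx, rfl⟩
  have hfpf : ∀ x ∈ N, α x = x → x = 1 := by
    intro x hx hxx
    have h1 : orderOf x ∣ Nat.card ((α : G ≃* G).toMonoidHom.eqLocus (MonoidHom.id G)) :=
      Subgroup.orderOf_dvd_natCard _ hxx
    have h2 : Nat.card ((α : G ≃* G).toMonoidHom.eqLocus (MonoidHom.id G)) = p ^ n := hfix
    rw [h2] at h1
    have h3 : orderOf x ∣ Nat.card N := Subgroup.orderOf_dvd_natCard _ hx
    exact orderOf_eq_one_iff.mp (Nat.eq_one_of_dvd_coprimes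
      ((PSolv.coprime_card_pPrimeCore p G).pow_right n) h3 h1)
  let αN : MulAut N := MulEquiv.ofBijective
    (((α : G ≃* G).toMonoidHom.comp N.subtype).codRestrict N fun x => hNα x x.2)
    (Finite.injective_iff_bijective.mp fun a b h => Subtype.ext (α.injective (congrArg Subtype.val h)))
  have hNbot : derivedSeries N (AlmostFixed.higman p) = ⊥ := by
    have hpow : ∀ (m : ℕ) (x : N), (((αN ^ m) x : N) : G) = α^[m] (x : G) := by
      intro m
      induction m with
      | zero => intro x; rfl
      | succ m ih =>
        intro x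
        rw [pow_succ', Function.iterate_succ_apply', ← ih]
        rfl
    have hdvd : orderOf αN ∣ p := orderOf_dvd_of_pow_eq_one
      (MulEquiv.ext fun x => Subtype.ext ((hpow p x).trans (hord _)))
    rcases (Nat.dvd_prime hp).mp hdvd with h | h
    · refine le_bot_iff.mp ((derivedSeries_antitone N (Nat.zero_le _)).trans ?_)
      intro x _
      rw [Subgroup.mem_bot]
      refine Subtype.ext (hfpf x x.2 ?_)
      have := congrArg (fun z : MulAut N => ((z x : N) : G)) (orderOf_eq_one_iff.mp h)
      exact this
    · have h3 := (S3779.result hp αN h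
        (fun x hx => Subtype.ext (hfpf x x.2 (congrArg Subtype.val hx)))).2.2
      exact le_bot_iff.mp ((Subgroup.derived_le_lower_central _).trans h3.le)
  let ψ : G ⧸ N →* G ⧸ N := QuotientGroup.map N N (α : G ≃* G).toMonoidHom fun x hx => hNα x hx
  have hψsurj : Function.Surjective ψ := by
    intro q
    obtain ⟨g, rfl⟩ := QuotientGroup.mk_surjective q
    exact ⟨((α⁻¹ : MulAut G) g : G), congrArg QuotientGroup.mk (MulEquiv.apply_symm_apply α g)⟩
  let ψe : G ⧸ N ≃* G ⧸ N := MulEquiv.ofBijective ψ
    ⟨Finite.injective_iff_surjective.mpr hψsurj, hψsurj⟩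
  have hψit : ∀ (m : ℕ) (g : G), (ψe)^[m] (g : G ⧸ N) = ((α^[m] g : G) : G ⧸ N) := by
    intro m
    induction m with
    | zero => intro g; rfl
    | succ m ih =>
      intro g
      rw [Function.iterate_succ_apply', Function.iterate_succ_apply', ih]
      rfl
  have hq := AlmostFixed.solvable_core_bound (n := n) (by haveI := hG; infer_instance) ψe
    (fun q => by
      obtain ⟨g, rfl⟩ := QuotientGroup.mk_surjective q
      rw [hψit, hord])
    ((AlmostFixed.card_fixed_quotient (α : G ≃* G) N ψ fun g => rfl).trans hfix.le)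
    (PSolv.pPrimeCore_quotient_eq_bot p G)
  have hle : derivedSeries G ((AlmostFixed.eBnd p n).factorial + AlmostFixed.pBound p n) ≤ N := by
    have h := map_derivedSeries_le_derivedSeries (QuotientGroup.mk' N)
      ((AlmostFixed.eBnd p n).factorial + AlmostFixed.pBound p n)
    rwa [hq, le_bot_iff, Subgroup.map_eq_bot_iff, QuotientGroup.ker_mk'] at h
  refine le_bot_iff.mp ((AlmostFixed.derivedSeries_add_le hle _).trans ?_)
  rw [hNbot, Subgroup.map_bot]

end Cfsg.Agent.S3782
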