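import Cfsg.Statements.S3783
import Cfsg.Agent.Lib.HHExponent
-- import your own Cfsg.Agent.* helpers here

set_option autoImplicit false
open Cfsg

namespace Cfsg.Agent.S3783

/-- Let G be a finite p-soluble group in which, for every prime q ≠ p, the Sylow q-subgroups are abelian. If the Sylow p-subgroups of G have exponent dividing p^n, then G has p-length at most n. -/
theorem result {G : Type*} [Group G] [Finite G] {p : ℕ} [Fact p.Prime] (hG : Cfsg.IsPSolvable p G) (hab : ∀ (q : ℕ) [Fact q.Prime], q ≠ p → ∀ Q : Sylow q G, IsMulCommutative (Q : Subgroup G)) (n : ℕ) (hexp : ∀ (P : Sylow p G), ∀ x ∈ (P : Subgroup G), x ^ p ^ n = 1) : Cfsg.PLengthLE p n G := by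
  have hp : p.Prime := Fact.out
  refine Cfsg.Agent.HH.pLengthLE_of_exponent n G hG (fun n₀ q m h1 hq h2 h3 => ?_) fun x hx => ?_
  · have := Fact.mk hq
    refine ⟨default, hab q ?_ _⟩
    rintro rfl
    have hd : q ∣ q ^ n₀ - 1 := h3 ▸ dvd_pow_self q (by omega)
    have hd' : q ∣ q ^ n₀ := dvd_pow_self q (by omega)
    have := Nat.dvd_sub hd' hd
    rw [Nat.sub_sub_self (Nat.one_le_pow _ _ hq.pos)] at this
    exact hq.one_lt.ne' (Nat.dvd_one.mp this)
  · obtain ⟨j, hj⟩ := hx
    obtain ⟨P, hP⟩ := (IsPGroup.of_card (G := Subgroup.zpowers x) (n := j) (by rw [Nat.card_zpowers, hj])).exists_le_sylow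
    exact hexp P x (hP (Subgroup.mem_zpowers x))

end Cfsg.Agent.S3783
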