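import Mathlib
import Cfsg.Statements.S3784


set_option autoImplicit false
open Cfsg

namespace Cfsg.Agent.S3784

/-- Let p, q be primes and a, b positive integers with p^a = q^b + 1. Then either p = 2, b = 1, a is prime and q = 2^a − 1; or q = 2, a = 1, b is a power of 2 and p = 2^b + 1; or p^a = 9 and q^b = 8. -/
theorem result (p q a b : ℕ) (hp : p.Prime) (hq : q.Prime) (ha : 1 ≤ a) (hb : 1 ≤ b) (h : p ^ a = q ^ b + 1) : (p = 2 ∧ b = 1 ∧ a.Prime ∧ q + 1 = 2 ^ a) ∨ (q = 2 ∧ a = 1 ∧ (∃ m : ℕ, b = 2 ^ m) ∧ p = 2 ^ b + 1) ∨ (p ^ a = 9 ∧ q ^ b = 8) := by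
  have key : ∀ x n : ℕ, Odd x → 1 < n → ¬ 2 ∣ n → ∀ k, x ^ n ≠ 2 ^ k + 1 := by
    intro x n hx hn1 hn k he
    have hx3 : 3 ≤ x := by
      obtain ⟨t, rfl⟩ := hx
      rcases Nat.eq_zero_or_pos t with rfl | ht
      · simp at he
      · omega
    -- x ^ n ≡ x modulo 2 (x - 1)
    have hsq : x ^ 2 ≡ 1 [MOD 2 * (x - 1)] := by
      refine ((Nat.modEq_iff_dvd' (Nat.one_le_pow _ _ (by omega))).mpr ?_).symm
      obtain ⟨t, rfl⟩ := hx
      refine ⟨t + 1, ?_⟩
      rw [Nat.add_sub_cancel, show (2 * t + 1) ^ 2 = 2 * (2 * t) * (t + 1) + 1 by ring,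
        Nat.add_sub_cancel]
    obtain ⟨t, rfl⟩ : ∃ t, n = 2 * t + 1 := ⟨n / 2, by omega⟩
    have hm : x ^ (2 * t + 1) ≡ x [MOD 2 * (x - 1)] := by
      rw [pow_succ, pow_mul]
      simpa using (hsq.pow t).mul_right x
    have hlt : x < x ^ (2 * t + 1) := by
      simpa using Nat.pow_lt_pow_right (by omega : 1 < x) (by omega : 1 < 2 * t + 1)
    have hd : 2 * (x - 1) ∣ 2 ^ k + 1 - x := (Nat.modEq_iff_dvd' (by omega)).mp (he ▸ hm).symm
    obtain ⟨i, hi, hxi⟩ := (Nat.dvd_prime_pow Nat.prime_two).mp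
      (show x - 1 ∣ 2 ^ k by
        have h1 : x - 1 ∣ 2 ^ k + 1 - x := (dvd_mul_left _ _).trans hd
        have := Nat.dvd_add h1 (dvd_refl (x - 1))
        rwa [show 2 ^ k + 1 - x + (x - 1) = 2 ^ k by omega] at this)
    rw [hxi] at hd
    have hik : i < k := by
      rcases hi.lt_or_eq with h' | rfl
      · exact h'
      · omega
    have h3 : 2 * 2 ^ i ∣ 2 ^ k := by rw [← pow_succ']; exact pow_dvd_pow 2 hik
    rw [show 2 ^ k + 1 - x = 2 ^ k - 2 ^ i by omega] at hd
    have h4 := Nat.dvd_sub h3 hd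
    rw [show 2 ^ k - (2 ^ k - 2 ^ i) = 2 ^ i by omega] at h4
    have := Nat.le_of_dvd (by positivity) h4
    have : 0 < 2 ^ i := by positivity
    omega
  have h2 : p = 2 ∨ q = 2 := by
    by_contra hne
    push Not at hne
    have hpo : Odd (p ^ a) := (hp.odd_of_ne_two hne.1).pow
    rw [h] at hpo
    have := (hq.odd_of_ne_two hne.2).pow (n := b)
    exact (Nat.not_even_iff_odd.mpr hpo) (this.add_one)
  rcases h2 with rfl | rfl
  · -- q ^ b + 1 = 2 ^ a
    have hqo : Odd q := by
      refine hq.odd_of_ne_two ?_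
      rintro rfl
      have h1 : 2 ∣ 2 ^ a := dvd_pow_self 2 (by omega)
      have h2' : 2 ∣ 2 ^ b := dvd_pow_self 2 (by omega)
      omega
    have hb1 : b = 1 := by
      by_contra hb1
      by_cases hbe : 2 ∣ b
      · obtain ⟨c, rfl⟩ := hbe
        have h4 : q ^ (2 * c) % 4 = 1 := by
          rw [pow_mul, Nat.pow_mod]
          have : q ^ 2 % 4 = 1 := by
            rw [Nat.pow_mod]
            rcases Nat.odd_mod_four_iff.mp (Nat.odd_iff.mp hqo) with h' | h' <;> simp [h']
          simp [this]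
        have hq2 : 3 ≤ q := by
          have := hq.two_le; obtain ⟨t, rfl⟩ := hqo; omega
        have : 3 ≤ q ^ (2 * c) := hq2.trans (Nat.le_self_pow (by omega) q)
        rcases Nat.lt_or_ge a 2 with ha2 | ha2
        · have ha1 : a = 1 := by omega
          rw [ha1] at h; omega
        · obtain ⟨t, rfl⟩ := Nat.exists_eq_add_of_le ha2
          rw [pow_add] at h
          omega
      · have hq3 : 3 ≤ q := by
          have := hq.two_le; obtain ⟨t, rfl⟩ := hqo; omega
        have hsq : q ^ 2 ≡ 1 [MOD 2 * (q + 1)] := by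
          refine ((Nat.modEq_iff_dvd' (Nat.one_le_pow _ _ (by omega))).mpr ?_).symm
          obtain ⟨t, rfl⟩ := hqo
          refine ⟨t, ?_⟩
          rw [show (2 * t + 1) ^ 2 = 2 * (2 * t + 1 + 1) * t + 1 by ring, Nat.add_sub_cancel]
        obtain ⟨t, rfl⟩ : ∃ t, b = 2 * t + 1 := ⟨b / 2, by omega⟩
        have hm : q ^ (2 * t + 1) + 1 ≡ q + 1 [MOD 2 * (q + 1)] := by
          refine Nat.ModEq.add_right 1 ?_
          rw [pow_succ, pow_mul]
          simpa using (hsq.pow t).mul_right q
        rw [← h] at hm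
        have hlt : q < q ^ (2 * t + 1) := by
          simpa using Nat.pow_lt_pow_right hq.one_lt (by omega : 1 < 2 * t + 1)
        have hd : 2 * (q + 1) ∣ 2 ^ a - (q + 1) := (Nat.modEq_iff_dvd' (by omega)).mp hm.symm
        obtain ⟨i, hi, hqi⟩ := (Nat.dvd_prime_pow Nat.prime_two).mp
          (show q + 1 ∣ 2 ^ a by
            have := Nat.dvd_add ((dvd_mul_left _ _).trans hd) (dvd_refl (q + 1))
            rwa [Nat.sub_add_cancel (by omega)] at this)
        rw [hqi] at hd
        have hia : i < a := by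
          rcases hi.lt_or_eq with h' | rfl
          · exact h'
          · omega
        have h3 : 2 * 2 ^ i ∣ 2 ^ a := by rw [← pow_succ']; exact pow_dvd_pow 2 hia
        have h4 := Nat.dvd_sub h3 hd
        rw [show 2 ^ a - (2 ^ a - 2 ^ i) = 2 ^ i by omega] at h4
        have := Nat.le_of_dvd (by positivity) h4
        have : 0 < 2 ^ i := by positivity
        omega
    subst hb1
    refine Or.inl ⟨rfl, rfl, ?_, by simpa using h.symm⟩
    have hq' : (2 ^ a - 1).Prime := by
      rw [h]; simpa using hq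
    exact Nat.prime_of_pow_sub_one_prime (by
      rintro rfl; norm_num at hq') hq' |>.2
  · -- p ^ a = 2 ^ b + 1
    have hpo : Odd p := by
      refine hp.odd_of_ne_two ?_
      rintro rfl
      have h1 : 2 ∣ 2 ^ a := dvd_pow_self 2 (by omega)
      have h2' : 2 ∣ 2 ^ b := dvd_pow_self 2 (by omega)
      omega
    by_cases ha1 : a = 1
    · subst ha1
      rw [pow_one] at h
      refine Or.inr (Or.inl ⟨rfl, rfl, ?_, h⟩)
      exact Nat.pow_of_pow_add_prime (a := 2) (by norm_num) (by omega) (h ▸ hp)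
    · by_cases hae : 2 ∣ a
      · obtain ⟨c, rfl⟩ := hae
        set x := p ^ c with hx
        have hx2 : p ^ (2 * c) = x * x := by rw [hx, ← pow_add]; congr 1; omega
        rw [hx2] at h
        have hx3 : 3 ≤ x := by
          have : 3 ≤ p := by have := hp.two_le; obtain ⟨t, rfl⟩ := hpo; omega
          exact this.trans (Nat.le_self_pow (by omega) p)
        have hm : (x - 1) * (x + 1) = 2 ^ b := by
          obtain ⟨t, ht⟩ := Nat.exists_eq_add_of_le (show 1 ≤ x by omega)
          rw [ht] at h ⊢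
          rw [Nat.add_sub_cancel_left]
          ring_nf at h ⊢
          omega
        obtain ⟨i, -, hi⟩ := (Nat.dvd_prime_pow Nat.prime_two).mp (Dvd.intro _ hm)
        obtain ⟨j, -, hj⟩ := (Nat.dvd_prime_pow Nat.prime_two).mp (Dvd.intro_left _ hm)
        have hi1 : i = 1 := by
          rcases Nat.lt_or_ge i 2 with hi2 | hi2
          · interval_cases i <;> simp at hi <;> omega
          · have : 4 ∣ x - 1 := hi ▸ pow_dvd_pow 2 hi2
            have hij : 2 ≤ j := by
              by_contra hj2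
              interval_cases j <;> simp at hj <;> omega
            have : 4 ∣ x + 1 := hj ▸ pow_dvd_pow 2 hij
            omega
        subst hi1
        have hx' : x = 3 := by simp at hi; omega
        refine Or.inr (Or.inr ⟨by rw [hx2, hx'], ?_⟩)
        rw [hx'] at h; omega
      · exact absurd h (key p a hpo (by omega) hae b)

end Cfsg.Agent.S3784
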