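import Cfsg.Statements.S3785
import Cfsg.Agent.Lib.Element
import Cfsg.Agent.Cores.Fitting
import Cfsg.Agent.PGroup.Critical

set_option autoImplicit false
open Cfsg

namespace Cfsg.Agent.S3785

/-- Let G be a finite solvable group whose Fitting subgroup F(G) has odd order. If an element g of G commutes with every element of prime order of F(G), then g ∈ F(G). -/
theorem result {G : Type*} [Group G] [Finite G] (hG : Group.IsSolvable G) (hodd : Odd (Nat.card (Cfsg.fittingSubgroup G))) (g : G) (hg : ∀ x ∈ Cfsg.fittingSubgroup G, (orderOf x).Prime → g * x = x * g) : g ∈ Cfsg.fittingSubgroup G := by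
  classical
  set F := Cfsg.fittingSubgroup G with hF
  haveI : F.Normal := inferInstance
  set S : Set G := {x | x ∈ F ∧ (orderOf x).Prime} with hS
  set K := Subgroup.centralizer S with hK
  have hgK : g ∈ K := Subgroup.mem_centralizer_iff.mpr fun x hx => (hg x hx.1 hx.2).symm
  have hKn : K.Normal := by
    refine ⟨fun k hk c => Subgroup.mem_centralizer_iff.mpr fun x hx => ?_⟩
    have ho : orderOf (c⁻¹ * x * c) = orderOf x := by
      have := orderOf_injective (MulAut.conj c⁻¹).toMonoidHom (MulAut.conj c⁻¹).injective x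
      simpa using this
    have hx' : c⁻¹ * x * c ∈ S :=
      ⟨by simpa using ‹F.Normal›.conj_mem x hx.1 c⁻¹, by rw [ho]; exact hx.2⟩
    have h1 := Subgroup.mem_centralizer_iff.mp hk _ hx'
    calc x * (c * k * c⁻¹) = c * (c⁻¹ * x * c * k) * c⁻¹ := by group
      _ = c * (k * (c⁻¹ * x * c)) * c⁻¹ := by rw [h1]
      _ = c * k * c⁻¹ * x := by group
  -- elements of `K` of order prime to `q` centralize `O_q(G)`
  have hcent : ∀ q : ℕ, q.Prime → ∀ x ∈ K, (orderOf x).Coprime q →
      ∀ y ∈ Cfsg.pCore q G, Commute x y := by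
    intro q hq x hx hcop y hy
    haveI := Fact.mk hq
    have hle : Cfsg.pCore q G ≤ F := Cfsg.Agent.Cores.pCore_le_fittingSubgroup
    have hP : IsPGroup q (Cfsg.pCore q G) := Cfsg.Agent.Cores.pCore_isPGroup
    rcases eq_or_ne q 2 with rfl | hq2
    · obtain ⟨k, hk⟩ := IsPGroup.iff_card.mp hP
      have hdvd : 2 ^ k ∣ Nat.card F := hk ▸ Subgroup.card_dvd_of_le hle
      rcases Nat.eq_zero_or_pos k with rfl | hkpos
      · have hbot : Cfsg.pCore 2 G = ⊥ := Subgroup.card_eq_one.mp (by rw [hk, pow_zero])
        rw [hbot, Subgroup.mem_bot] at hy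
        rw [hy]; exact Commute.one_right x
      · exact absurd ((dvd_pow_self 2 (by omega)).trans hdvd) (Nat.not_even_iff_odd.mpr hodd ∘ even_iff_two_dvd.mpr)
    obtain ⟨D, _, _, hDpow, hDfaith⟩ := Cfsg.Agent.PGroup.exists_characteristic_exponent_prime hq2 hP
    let α : MulAut (Cfsg.pCore q G) := MulAut.conjNormal x
    have hα : (orderOf α).Coprime q := hcop.coprime_dvd_left (orderOf_map_dvd MulAut.conjNormal x)
    have h1 : α = 1 := hDfaith α hα fun d hd => by
      apply Subtype.ext
      show ((MulAut.conjNormal x d : Cfsg.pCore q G) : G) = d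
      rw [MulAut.conjNormal_apply]
      rcases eq_or_ne d 1 with rfl | hd1
      · simp
      have hord : orderOf (d : G) = q := by
        rw [Subgroup.orderOf_coe]; exact orderOf_eq_prime (hDpow d hd) hd1
      have h2 := Subgroup.mem_centralizer_iff.mp hx (d : G) ⟨hle d.2, by rw [hord]; exact hq⟩
      rw [← h2, mul_inv_cancel_right]
    have h3 : ((α ⟨y, hy⟩ : Cfsg.pCore q G) : G) = y := by rw [h1]; rfl
    rw [MulAut.conjNormal_apply] at h3
    exact mul_inv_eq_iff_eq_mul.mp h3
  have hCF : Subgroup.centralizer (F : Set G) ≤ F := by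
    haveI := hG
    exact Cfsg.Agent.Cores.centralizer_fittingSubgroup_le_of_isSolvable inferInstance
  have hFsup : F = ⨆ q : Nat.Primes, Cfsg.pCore (q : ℕ) G :=
    Cfsg.Agent.Cores.fittingSubgroup_eq_iSup_pCore
  -- elements of coprime prime power order in `K` commute
  have hcomm : ∀ s t m n : ℕ, s.Prime → t.Prime → s ≠ t → ∀ x ∈ K, ∀ y ∈ K,
      orderOf x = s ^ m → orderOf y = t ^ n → Commute x y := by
    intro s t m n hs ht hst x hx y hy hox hoy
    haveI := Fact.mk hs
    haveI := Fact.mk ht
    have hxc : ∀ q : ℕ, q.Prime → q ≠ s → ∀ z ∈ Cfsg.pCore q G, Commute x z := fun q hq hqs =>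
      hcent q hq x hx (hox ▸ ((Nat.coprime_primes hs hq).mpr (Ne.symm hqs)).pow_left m)
    have hyc : ∀ q : ℕ, q.Prime → q ≠ t → ∀ z ∈ Cfsg.pCore q G, Commute y z := fun q hq hqs =>
      hcent q hq y hy (hoy ▸ ((Nat.coprime_primes ht hq).mpr (Ne.symm hqs)).pow_left n)
    set c := x * y * x⁻¹ * y⁻¹ with hc
    have hcF : c ∈ Subgroup.centralizer (F : Set G) := by
      rw [hFsup]
      intro z hz
      suffices h : Commute c z from h.symm
      refine Subgroup.iSup_induction (C := fun w => Commute c w)
        (fun q : Nat.Primes => Cfsg.pCore (q : ℕ) G) hz ?_ (Commute.one_right c)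
        (fun a b ha hb => ha.mul_right hb)
      intro q z hz
      by_cases hqs : (q : ℕ) = s
      · have hqt : (q : ℕ) ≠ t := hqs ▸ hst
        have hxz : x⁻¹ * z * x ∈ Cfsg.pCore (q : ℕ) G := by
          simpa using (inferInstance : (Cfsg.pCore (q : ℕ) G).Normal).conj_mem z hz x⁻¹
        have h5 := hyc q q.2 hqt z hz
        have h6 := hyc q q.2 hqt _ hxz
        show c * z = z * c
        calc c * z = x * y * x⁻¹ * (y⁻¹ * z) := by rw [hc]; group
          _ = x * y * x⁻¹ * (z * y⁻¹) := by rw [h5.inv_left.eq]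
          _ = x * (y * (x⁻¹ * z * x)) * x⁻¹ * y⁻¹ := by group
          _ = x * ((x⁻¹ * z * x) * y) * x⁻¹ * y⁻¹ := by rw [h6.eq]
          _ = z * c := by rw [hc]; group
      · have hyz : y⁻¹ * z * y ∈ Cfsg.pCore (q : ℕ) G := by
          simpa using (inferInstance : (Cfsg.pCore (q : ℕ) G).Normal).conj_mem z hz y⁻¹
        have h5 := hxc q q.2 hqs z hz
        have h6 := hxc q q.2 hqs _ hyz
        show c * z = z * c
        calc c * z = x * y * (x⁻¹ * (y⁻¹ * z * y)) * y⁻¹ := by rw [hc]; group
          _ = x * y * ((y⁻¹ * z * y) * x⁻¹) * y⁻¹ := by rw [h6.inv_left.eq]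
          _ = (x * z) * (y * x⁻¹ * y⁻¹) := by group
          _ = z * c := by rw [h5.eq, hc]; group
    have hcF' : c ∈ F := hCF hcF
    have hnil : Group.IsNilpotent F := Cfsg.Agent.Cores.fittingSubgroup_isNilpotent
    -- prime-power parts of `c` lie in the corresponding cores
    have hpart : ∀ q : ℕ, q.Prime → Cfsg.Agent.Element.pPart q c ∈ Cfsg.pCore q G := by
      intro q hq
      haveI := Fact.mk hq
      set z := Cfsg.Agent.Element.pPart q c
      obtain ⟨Q⟩ : Nonempty (Sylow q F) := inferInstance
      have hQn : (Q : Subgroup F).Normal :=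
        (Group.isNilpotent_of_finite_tfae.out 0 3 rfl rfl).1 hnil q ⟨hq⟩ Q
      haveI := Q.characteristic_of_normal hQn
      have hzF : z ∈ F := Subgroup.zpowers_le.mpr hcF' (Cfsg.Agent.Element.pPart_mem_zpowers q c)
      haveI := Sylow.unique_of_normal Q hQn
      obtain ⟨R, hR⟩ := Cfsg.Agent.Element.exists_sylow_mem (g := (⟨z, hzF⟩ : F))
        (by rw [← Subgroup.orderOf_coe]; exact Cfsg.Agent.Element.orderOf_pPart_eq_pow hq c)
      have hzQ : (⟨z, hzF⟩ : F) ∈ (Q : Subgroup F) := Subsingleton.elim R Q ▸ hR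
      exact Cfsg.Agent.Cores.le_pCore (N := (Q : Subgroup F).map F.subtype) inferInstance
        (Q.isPGroup'.map _) ⟨_, hzQ, rfl⟩
    have hco : ∀ (w : G) (r : ℕ) (hr : r.Prime) (e : ℕ), orderOf w = r ^ e →
        (∀ u : ℕ, u.Prime → u ≠ r → Commute w (Cfsg.Agent.Element.pPart u c)) →
        Commute w (Cfsg.Agent.Element.pComplPart r c) := by
      intro w r hr e _ hw
      refine Subgroup.mem_centralizer_singleton_iff.mp (?_ : Cfsg.Agent.Element.pComplPart r c ∈
        Subgroup.centralizer ({w} : Set G)) |>.symm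
      set z := Cfsg.Agent.Element.pComplPart r c with hzdef
      have hgen : ∀ v : G, v ∈ Subgroup.zpowers c → (orderOf v).Coprime r →
          v ∈ Subgroup.centralizer ({w} : Set G) := by
        intro v
        induction hv : orderOf v using Nat.strong_induction_on generalizing v with
        | _ k ih =>
          intro hvc hvr
          by_cases hk : k = 1
          · rw [hk, orderOf_eq_one_iff] at hv
            rw [hv]; exact one_mem _
          obtain ⟨u, hu, huk⟩ := Nat.exists_prime_and_dvd hk
          have hur : u ≠ r := fun h => by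
            subst h
            exact (Nat.Prime.coprime_iff_not_dvd hu).mp hvr.symm huk
          rw [← Cfsg.Agent.Element.pPart_mul_pComplPart u v]
          refine mul_mem ?_ ?_
          · obtain ⟨i, rfl⟩ := hvc
            have hp : Cfsg.Agent.Element.pPart u (c ^ i) = Cfsg.Agent.Element.pPart u c ^ i := by
              obtain ⟨e', he'⟩ : ∃ e', orderOf (Cfsg.Agent.Element.pPart u c ^ i) = u ^ e' := by
                haveI := Fact.mk hu
                exact Cfsg.Agent.Element.orderOf_eq_pow_of_mem_isPGroup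
                  Cfsg.Agent.Cores.pCore_isPGroup (Subgroup.zpow_mem _ (hpart u hu) i)
              exact ((Cfsg.Agent.Element.eq_pPart hu
                ((Cfsg.Agent.Element.commute_pPart_pComplPart u c).zpow_zpow i i)
                (by rw [← (Cfsg.Agent.Element.commute_pPart_pComplPart u c).mul_zpow,
                  Cfsg.Agent.Element.pPart_mul_pComplPart]) he'
                ((Cfsg.Agent.Element.coprime_orderOf_pComplPart hu c).coprime_dvd_left
                  (orderOf_dvd_of_mem_zpowers ⟨i, rfl⟩))).1).symm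
            rw [hp, Subgroup.mem_centralizer_singleton_iff]
            exact ((hw u hu hur).zpow_right i).symm
          · have hlt : orderOf (Cfsg.Agent.Element.pComplPart u v) < k := by
              rw [← hv, (Cfsg.Agent.Element.orderOf_pPart hu v (orderOf_pos v).ne').2]
              refine Nat.div_lt_self (orderOf_pos v) (Nat.one_lt_pow ?_ hu.one_lt)
              have := hu.factorization_pos_of_dvd (orderOf_pos v).ne' (hv ▸ huk)
              omega
            exact ih _ hlt _ rfl
              (Subgroup.zpowers_le.mpr hvc (Cfsg.Agent.Element.pComplPart_mem_zpowers u v))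
              (hvr.coprime_dvd_left (hv ▸ orderOf_dvd_of_mem_zpowers
                (Cfsg.Agent.Element.pComplPart_mem_zpowers u v)))
      exact hgen z (Cfsg.Agent.Element.pComplPart_mem_zpowers r c)
        (Cfsg.Agent.Element.coprime_orderOf_pComplPart hr c)
    -- the part of `c` prime to `t` is trivial, and the part prime to `s` as well
    have hprod : ∀ (a b : G) (r : ℕ) (hr : r.Prime), (∃ e, orderOf a = r ^ e) →
        (∃ e, orderOf b = r ^ e) → (∀ u : ℕ, u.Prime → u ≠ r → Commute b (Cfsg.Agent.Element.pPart u c)) →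
        a = c * b → Cfsg.Agent.Element.pComplPart r c = 1 := by
      intro a b r hr ha hb hbc hab
      haveI := Fact.mk hr
      obtain ⟨e, he⟩ := ha
      obtain ⟨e', he'⟩ := hb
      set d := Cfsg.Agent.Element.pPart r c with hd
      set z := Cfsg.Agent.Element.pComplPart r c with hz
      have hbz : Commute b z := hco b r hr e' he' hbc
      have hdb : IsPGroup r ↥(Cfsg.pCore r G ⊔ Subgroup.zpowers b) :=
        Cfsg.Agent.Cores.pCore_isPGroup.to_sup_of_normal_left
          (Cfsg.Agent.Element.isPGroup_zpowers_iff.mpr ⟨e', he'⟩)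
      obtain ⟨e'', he''⟩ := Cfsg.Agent.Element.orderOf_eq_pow_of_mem_isPGroup hdb
        (Subgroup.mul_mem_sup (hpart r hr) (Subgroup.mem_zpowers b) : d * b ∈ _)
      have hcz : Commute z d := (Cfsg.Agent.Element.commute_pPart_pComplPart r c).symm
      obtain ⟨-, h2⟩ := Cfsg.Agent.Element.eq_pPart hr (g := a)
        ((hcz.mul_right hbz.symm).symm) (by
          rw [hab, ← Cfsg.Agent.Element.pPart_mul_pComplPart r c, ← hd, ← hz, mul_assoc d z b,
            ← hbz.eq, mul_assoc])
        he'' (Cfsg.Agent.Element.coprime_orderOf_pComplPart hr c)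
      rw [h2, (Cfsg.Agent.Element.pPart_eq_self hr he).2]
    have hconj : ∀ u v : G, orderOf (u * v * u⁻¹) = orderOf v := fun u v =>
      orderOf_injective (MulAut.conj u).toMonoidHom (MulAut.conj u).injective v
    have h1 := hprod (x * y * x⁻¹) y t ht ⟨n, by rw [hconj, hoy]⟩ ⟨n, hoy⟩
      (fun u hu hut => hyc u hu hut _ (hpart u hu)) (by rw [hc]; group)
    have h2 := hprod (y * x⁻¹ * y⁻¹) x⁻¹ s hs ⟨m, by rw [hconj, orderOf_inv, hox]⟩
      ⟨m, by rw [orderOf_inv, hox]⟩ (fun u hu hus => (hxc u hu hus _ (hpart u hu)).inv_left)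
      (by
        -- `y x⁻¹ y⁻¹ = c * x⁻¹` once `c` commutes with `x` and `x⁻¹`
        have hcx : Commute x c := by
          rw [← Cfsg.Agent.Element.pPart_mul_pComplPart t c, h1, mul_one]
          exact hxc t ht hst.symm _ (hpart t ht)
        rw [← (hcx.inv_left).eq, hc]; group)
    have hct : c = Cfsg.Agent.Element.pPart t c := by
      conv_lhs => rw [← Cfsg.Agent.Element.pPart_mul_pComplPart t c, h1, mul_one]
    have hcs : c = Cfsg.Agent.Element.pPart s c := by
      conv_lhs => rw [← Cfsg.Agent.Element.pPart_mul_pComplPart s c, h2, mul_one]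
    have hc1 : c = 1 := by
      have e1 := Cfsg.Agent.Element.orderOf_pPart_eq_pow hs c
      have e2 := Cfsg.Agent.Element.orderOf_pPart_eq_pow ht c
      rw [← hcs] at e1
      rw [← hct] at e2
      rw [← orderOf_eq_one_iff]
      exact Nat.eq_one_of_dvd_coprimes
        (Nat.Coprime.pow ((orderOf c).factorization s) ((orderOf c).factorization t)
          ((Nat.coprime_primes hs ht).mpr hst)) e1.dvd e2.dvd
    rw [hc] at hc1
    exact mul_inv_eq_iff_eq_mul.mp (by rw [← mul_inv_eq_one]; exact hc1)
  have hKnil : Group.IsNilpotent K := by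
    refine (Group.isNilpotent_of_finite_tfae.out 0 3 rfl rfl).2 fun s hs P => ?_
    haveI := hs
    rw [← Subgroup.normalizer_eq_top_iff]
    refine Cfsg.Agent.Cores.eq_top_of_forall_sylow_le _ fun t ht => ?_
    haveI := Fact.mk ht
    by_cases hst : t = s
    · subst hst
      exact ⟨P, Subgroup.le_normalizer⟩
    · obtain ⟨R⟩ : Nonempty (Sylow t K) := inferInstance
      refine ⟨R, fun y hy => Subgroup.centralizer_le_normalizer _ ?_⟩
      intro z hz
      obtain ⟨m, hm⟩ := Cfsg.Agent.Element.orderOf_eq_pow_of_mem_isPGroup P.isPGroup' hz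
      obtain ⟨n, hn⟩ := Cfsg.Agent.Element.orderOf_eq_pow_of_mem_isPGroup R.isPGroup' hy
      exact Subtype.ext (hcomm s t m n hs.out ht (Ne.symm hst) z z.2 y y.2
        (by rw [Subgroup.orderOf_coe, hm]) (by rw [Subgroup.orderOf_coe, hn]))
  exact Cfsg.Agent.Cores.le_fittingSubgroup hKn hKnil hgK

end Cfsg.Agent.S3785
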