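import Cfsg.Statements.S3786
import Cfsg.Agent.HHTwo.Length

set_option autoImplicit false
open Cfsg

namespace Cfsg.Agent.S3786

/-- The Hall–Higman bound on p-length. Let p be an odd prime and G a finite p-soluble group whose Sylow p-subgroups have exponent dividing p^e. (a) If p is not of the form 2^k + 1, or if the Sylow 2-subgroups of G are abelian, then G has p-length at most e. (b) In every case G has p-length at most 2e. -/
theorem result {G : Type*} [Group G] [Finite G] {p : ℕ} [Fact p.Prime] (hp : p ≠ 2) (hG : Cfsg.IsPSolvable p G) (e : ℕ) (hexp : ∀ (P : Sylow p G), ∀ x ∈ (P : Subgroup G), x ^ p ^ e = 1) : (((¬ ∃ k : ℕ, p = 2 ^ k + 1) ∨ ∀ S : Sylow 2 G, IsMulCommutative (S : Subgroup G)) → Cfsg.PLengthLE p e G) ∧ Cfsg.PLengthLE p (2 * e) G := by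
  have hp2 := hp
  have hpp : p.Prime := Fact.out
  have hexp' : ∀ x : G, (∃ j, orderOf x = p ^ j) → x ^ p ^ e = 1 := by
    rintro x ⟨j, hj⟩
    obtain ⟨P, hP⟩ := Cfsg.Agent.Element.exists_sylow_mem (p := p) hj
    exact hexp P x hP
  refine ⟨fun h => ?_, Cfsg.Agent.HHTwo.pLengthLE_two_mul hp e G hG hexp'⟩
  refine Cfsg.Agent.HH.pLengthLE_of_exponent e G hG ?_ hexp'
  rcases h with h | h
  · exact Cfsg.Agent.HH.noExceptional_of_not_fermat hp h G
  · intro n₀ q m _ hq hm hqm
    have hq2 : q = 2 := by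
      have he : Even (q ^ m) := hqm ▸ Nat.Odd.sub_odd (hpp.odd_of_ne_two hp2).pow odd_one
      exact ((Nat.prime_dvd_prime_iff_eq Nat.prime_two hq).mp
        (Nat.prime_two.dvd_of_dvd_pow (even_iff_two_dvd.mp he))).symm
    subst hq2
    obtain ⟨S⟩ := (inferInstance : Nonempty (Sylow 2 G))
    exact ⟨S, h S⟩

end Cfsg.Agent.S3786
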