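import Cfsg.Statements.S3787
import Cfsg.Agent.Lib.HHExponent
import Cfsg.Agent.EvenLocal.Involved
-- import your own Cfsg.Agent.* helpers here

set_option autoImplicit false
open Cfsg

namespace Cfsg.Agent.S3787

open Cfsg Cfsg.Agent.HH

variable {p : ℕ} [Fact p.Prime]

/-- A finite type without operations. -/
def FinCopy (n : ℕ) : Type := Fin n

/-- The defining property of `C_p ≀ C_p`. -/
def IsWreath (p : ℕ) (W : Type*) [Group W] : Prop :=
  ∃ (B : Subgroup W) (t : W), B.Normal ∧ IsMulCommutative B ∧ (∀ b ∈ B, b ^ p = 1) ∧ Nat.card B = p ^ p ∧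
    orderOf t = p ∧ t ∉ B ∧ Nat.card W = p ^ (p + 1) ∧ Nat.card ↥(B ⊓ Subgroup.centralizer ({t} : Set W)) = p

theorem isWreath_congr {W W' : Type*} [Group W] [Group W'] (e : W ≃* W') (h : IsWreath p W) : IsWreath p W' := by
  obtain ⟨B, t, hn, hab, hexp, hcard, hto, htB, hW, hC⟩ := h
  refine ⟨B.map e.toMonoidHom, e t, hn.map _ e.surjective, ⟨⟨?_⟩⟩, ?_, ?_, ?_, ?_, ?_, ?_⟩
  · rintro ⟨_, a, ha, rfl⟩ ⟨_, b, hb, rfl⟩
    apply Subtype.ext
    show e a * e b = e b * e a
    rw [← map_mul, ← map_mul, show a * b = b * a from congrArg Subtype.val (hab.is_comm.comm (⟨a, ha⟩ : B) ⟨b, hb⟩)]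
  · rintro _ ⟨a, ha, rfl⟩
    show e a ^ p = 1
    rw [← map_pow, hexp a ha, map_one]
  · rw [Subgroup.card_map_of_injective e.injective, hcard]
  · rw [MulEquiv.orderOf_eq, hto]
  · rintro ⟨b, hb, hbe⟩; exact htB (e.injective hbe ▸ hb)
  · rw [← Nat.card_congr e.toEquiv, hW]
  · have he : B.map e.toMonoidHom ⊓ Subgroup.centralizer ({e t} : Set W') =
        (B ⊓ Subgroup.centralizer ({t} : Set W)).map e.toMonoidHom := by
      ext y
      obtain ⟨y, rfl⟩ := e.surjective y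
      simp only [Subgroup.mem_inf, Subgroup.mem_centralizer_singleton_iff]
      constructor
      · rintro ⟨⟨b, hb, hbe⟩, hy⟩
        refine ⟨y, Subgroup.mem_inf.mpr ⟨e.injective hbe ▸ hb, Subgroup.mem_centralizer_singleton_iff.mpr (e.injective ?_)⟩, rfl⟩
        rw [map_mul, map_mul]; exact hy
      · rintro ⟨b, hb, hbe⟩
        obtain rfl := e.injective hbe
        obtain ⟨hb1, hb2⟩ := Subgroup.mem_inf.mp hb
        refine ⟨⟨b, hb1, rfl⟩, ?_⟩
        rw [← map_mul, ← map_mul, Subgroup.mem_centralizer_singleton_iff.mp hb2]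
    rw [he, Subgroup.card_map_of_injective e.injective, hC]

/-- A full block gives a wreath product section. -/
theorem exists_wreath {X : Type*} [Group X] [Finite X] {V : Subgroup X} [V.Normal] (hV : IsModuleSubgroup p V)
    {S : Subgroup X} (hVS : V ≤ S) {x : X} (hxS : x ∈ S) (hxV : x ∉ V) (hxp : x ^ p ∈ V)
    (ρ : (X ⧸ V) →* Module.End (ZMod p) (Mod hV))
    (hρ : ∀ (x : X) (v : Mod hV), (ρ (x : X ⧸ V) v).val = x * v.val * x⁻¹)
    (hne : (ρ (x : X ⧸ V) - 1) ^ (p - 1) ≠ 0) :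
    ∃ (W : Type) (_ : Group W) (_ : Finite W), IsWreath p W ∧ Cfsg.Involves W S := by
  classical
  have hp : p.Prime := Fact.out
  haveI : Module.Finite (ZMod p) (Mod hV) := Module.Finite.of_finite
  set N := ρ (x : X ⧸ V) - 1 with hN
  obtain ⟨v, hv⟩ : ∃ v, (N ^ (p - 1)) v ≠ 0 := by
    by_contra hall; push_neg at hall; exact hne (LinearMap.ext hall)
  obtain ⟨φ, hφ⟩ : ∃ φ : Module.Dual (ZMod p) (Mod hV), φ ((N ^ (p - 1)) v) = 1 := by
    obtain ⟨φ, hφ⟩ : ∃ φ : Module.Dual (ZMod p) (Mod hV), φ ((N ^ (p - 1)) v) ≠ 0 := by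
      by_contra hall; push_neg at hall
      exact hv ((Module.forall_dual_apply_eq_zero_iff (ZMod p) _).mp hall)
    exact ⟨(φ ((N ^ (p - 1)) v))⁻¹ • φ, by simp [inv_mul_cancel₀ hφ]⟩
  have hNp : N ^ p = 0 := by
    have := sub_one_pow_eq_zero ρ (y := (x : X ⧸ V)) (p := p) (n := 1)
      (by rw [pow_one, ← QuotientGroup.mk_pow]; exact (QuotientGroup.eq_one_iff _).mpr hxp)
    rwa [pow_one] at this
  let ψ : Mod hV →ₗ[ZMod p] (Fin p → ZMod p) := LinearMap.pi fun i => φ.comp (N ^ (i : ℕ))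
  have hψa : ∀ w (i : Fin p), ψ w i = φ ((N ^ (i : ℕ)) w) := fun w i => rfl
  have hψs : Function.Surjective ψ := by
    rw [← LinearMap.range_eq_top, eq_top_iff]
    intro f _
    have hsingle : ∀ j : ℕ, ∀ hj : j < p, (Pi.single (⟨j, hj⟩ : Fin p) (1 : ZMod p) : Fin p → ZMod p) ∈ LinearMap.range ψ := by
      intro j
      induction j using Nat.strong_induction_on with
      | _ j ih =>
        intro hj
        set w := (N ^ (p - 1 - j)) v with hw
        have he : ψ w = Pi.single (⟨j, hj⟩ : Fin p) (1 : ZMod p) +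
            ∑ i ∈ Finset.univ.filter (fun i : Fin p => (i : ℕ) < j), ψ w i • Pi.single i (1 : ZMod p) := by
          funext l
          simp only [Pi.add_apply, Finset.sum_apply, Pi.smul_apply, Pi.single_apply, smul_eq_mul, mul_ite, mul_one, mul_zero,
            Finset.sum_ite_eq, Finset.mem_filter, Finset.mem_univ, true_and]
          rcases Nat.lt_trichotomy (l : ℕ) j with h | h | h
          · rw [if_neg (fun he => absurd (congrArg Fin.val he) (Nat.ne_of_lt h)), if_pos h, zero_add]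
          · rw [if_pos (Fin.ext h), if_neg (by omega), add_zero, hψa, hw, ← Module.End.mul_apply, ← pow_add,
              show (l : ℕ) + (p - 1 - j) = p - 1 by omega, hφ]
          · rw [if_neg (fun he => absurd (congrArg Fin.val he) (Nat.ne_of_gt h)), if_neg (by omega), add_zero, hψa, hw,
              ← Module.End.mul_apply, ← pow_add, pow_eq_zero_of_le (show p ≤ (l : ℕ) + (p - 1 - j) by omega) hNp]
            simp
        have e := eq_sub_of_add_eq he.symm
        rw [e]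
        refine Submodule.sub_mem _ ⟨w, rfl⟩ (Submodule.sum_mem _ fun i hi => Submodule.smul_mem _ _ ?_)
        exact ih i (Finset.mem_filter.mp hi).2 i.2
    rw [show f = ∑ i, f i • Pi.single i (1 : ZMod p) by funext l; simp [Finset.sum_apply, Pi.single_apply]]
    exact Submodule.sum_mem _ fun i _ => Submodule.smul_mem _ _ (hsingle i i.2)
  have hfix : ∀ w : Mod hV, N w = 0 → ψ w = φ w • ψ ((N ^ (p - 1)) v) := by
    intro w hw
    funext i
    rw [Pi.smul_apply, hψa, hψa, smul_eq_mul, ← Module.End.mul_apply, ← pow_add]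
    rcases Nat.eq_zero_or_pos (i : ℕ) with h0 | h0
    · rw [h0, pow_zero, Module.End.one_apply, zero_add, hφ, mul_one]
    · obtain ⟨k, hk⟩ := Nat.exists_eq_succ_of_ne_zero h0.ne'
      rw [pow_eq_zero_of_le (show p ≤ (i : ℕ) + (p - 1) by omega) hNp]
      simp [hk, pow_succ, hw]
  -- adjust `x`
  have hρx : ∀ w : Mod hV, (ρ (x : X ⧸ V) w).val = x * w.val * x⁻¹ := hρ x
  set u := HH.Mod.mk hV (x ^ p) hxp with hu
  have hNu : N u = 0 := by
    rw [hN, LinearMap.sub_apply, Module.End.one_apply, sub_eq_zero]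
    refine HH.Mod.ext ?_
    rw [hρx, hu, HH.Mod.val_mk]; group
  set k := (-φ u).val with hk
  set x' := (k • v).val * x with hx'
  have hsum : (∑ i ∈ Finset.range p, (ρ (x : X ⧸ V) ^ i) (k • v)).val =
      ((List.range p).map fun i => x ^ i * (k • v).val * (x ^ i)⁻¹).prod := by
    rw [HH.Mod.val_sum]
    congr 1
    refine List.map_congr_left fun i _ => ?_
    rw [← map_pow, ← QuotientGroup.mk_pow, hρ]
  have hx'p : ∃ w : Mod hV, x' ^ p = w.val ∧ ψ w = 0 := by
    refine ⟨(∑ i ∈ Finset.range p, (ρ (x : X ⧸ V) ^ i) (k • v)) + u, ?_, ?_⟩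
    · rw [HH.Mod.val_add, hsum, hx', mul_pow_eq_norm, hu, HH.Mod.val_mk]
    · have hpoly := congrArg (Polynomial.aeval (ρ (x : X ⧸ V))) (sub_one_pow_pred (F := ZMod p) p 1)
      simp only [pow_one, map_pow, map_sub, Polynomial.aeval_X, map_one, map_sum] at hpoly
      rw [← LinearMap.sum_apply, ← hpoly, map_nsmul, map_add, map_nsmul, hfix u hNu, ← hN,
        ← Nat.cast_smul_eq_nsmul (ZMod p), ← add_smul, hk, ZMod.natCast_zmod_val, neg_add_cancel, zero_smul]
  have hx'S : x' ∈ S := mul_mem (hVS (HH.Mod.val_mem _)) hxS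
  have hx'q : (x' : X ⧸ V) = (x : X ⧸ V) := by
    rw [hx', QuotientGroup.mk_mul, (QuotientGroup.eq_one_iff _).mpr (HH.Mod.val_mem _), one_mul]
  have hx'V : x' ∉ V := fun h => hxV ((QuotientGroup.eq_one_iff x).mp (hx'q ▸ (QuotientGroup.eq_one_iff x').mpr h))
  -- the section
  set Y := V ⊔ Subgroup.zpowers x' with hY
  have hVY : V ≤ Y := le_sup_left
  have hYS : Y ≤ S := sup_le hVS (Subgroup.zpowers_le.mpr hx'S)
  have hx'Y : x' ∈ Y := Subgroup.mem_sup_right (Subgroup.mem_zpowers x')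
  let C : Subgroup X :=
    { carrier := {y | ∃ w : Mod hV, y = w.val ∧ ψ w = 0}
      one_mem' := ⟨0, rfl, map_zero ψ⟩
      mul_mem' := by
        rintro a b ⟨wa, rfl, ha⟩ ⟨wb, rfl, hb⟩
        exact ⟨wa + wb, (HH.Mod.val_add wa wb).symm, by rw [map_add, ha, hb, add_zero]⟩
      inv_mem' := by
        rintro a ⟨wa, rfl, ha⟩
        refine ⟨-wa, (eq_inv_of_mul_eq_one_left ?_).symm, by rw [map_neg, ha, neg_zero]⟩
        rw [← HH.Mod.val_add, neg_add_cancel, HH.Mod.val_zero] }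
  have hCV : C ≤ V := by rintro _ ⟨w, rfl, -⟩; exact HH.Mod.val_mem w
  have hker : ∀ w : Mod hV, ψ w = 0 → ψ (ρ (x : X ⧸ V) w) = 0 := by
    intro w hw
    funext i
    rw [hψa, show ρ (x : X ⧸ V) w = N w + w by rw [hN]; simp, map_add, ← Module.End.mul_apply, ← pow_succ, map_add]
    have h2 : φ ((N ^ (i : ℕ)) w) = 0 := congrFun hw i
    rw [h2, add_zero]
    by_cases hi : (i : ℕ) + 1 < p
    · exact congrFun hw ⟨i + 1, hi⟩
    · rw [pow_eq_zero_of_le (by omega) hNp]; simp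
  have hCn : Y ≤ Subgroup.normalizer (C : Set X) := by
    refine sup_le (fun z hz => ?_) (Subgroup.zpowers_le.mpr ?_)
    · refine Subgroup.centralizer_le_normalizer _ (Subgroup.mem_centralizer_iff.mpr fun c hc => ?_)
      exact congrArg Subtype.val (hV.comm.is_comm.comm (⟨c, hCV hc⟩ : V) ⟨z, hz⟩)
    · have : (C.map (MulAut.conj x').toMonoidHom) ≤ C := by
        rintro _ ⟨_, ⟨w, rfl, hw⟩, rfl⟩
        refine ⟨ρ (x : X ⧸ V) w, ?_, hker w hw⟩
        show x' * w.val * x'⁻¹ = _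
        rw [← hρ x' w, hx'q]
      rw [Subgroup.mem_normalizer_iff_map_conj_eq]
      exact Subgroup.eq_of_le_of_card_ge this (Subgroup.card_map_of_injective (MulEquiv.injective _)).ge
  haveI hCn' : (C.subgroupOf Y).Normal := (Subgroup.normal_subgroupOf_iff_le_normalizer (hCV.trans hVY)).mpr hCn
  set W₀ := Y ⧸ C.subgroupOf Y with hW₀
  let π : Y →* W₀ := QuotientGroup.mk' _
  have hπs : Function.Surjective π := QuotientGroup.mk'_surjective _
  set B := (V.subgroupOf Y).map π with hB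
  have hπ1 : ∀ y : Y, π y = 1 ↔ (y : X) ∈ C := fun y => QuotientGroup.eq_one_iff y
  have hindex : (V.subgroupOf Y).index = p := by
    show V.relIndex Y = p
    have hm : Y.map (QuotientGroup.mk' V) = Subgroup.zpowers (x' : X ⧸ V) := by
      rw [hY, Subgroup.map_sup, MonoidHom.map_zpowers, QuotientGroup.map_mk'_self, bot_sup_eq]; rfl
    rw [← PSolv.card_map_mk_eq_relIndex, hm, Nat.card_zpowers]
    refine orderOf_eq_prime ?_ (fun h => hx'V ((QuotientGroup.eq_one_iff x').mp h))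
    rw [hx'q, ← QuotientGroup.mk_pow]; exact (QuotientGroup.eq_one_iff _).mpr hxp
  haveI hBn : B.Normal := ((inferInstance : V.Normal).subgroupOf Y).map _ hπs
  let ι : Multiplicative (Mod hV) →* Y :=
    { toFun := fun w => ⟨(Multiplicative.toAdd w).val, hVY (HH.Mod.val_mem _)⟩
      map_one' := Subtype.ext (HH.Mod.val_zero (hV := hV))
      map_mul' := fun a b => Subtype.ext (HH.Mod.val_add _ _) }
  have hBr : B = (π.comp ι).range := by
    ext y
    constructor
    · rintro ⟨z, hz, rfl⟩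
      exact ⟨Multiplicative.ofAdd (HH.Mod.mk hV z hz), rfl⟩
    · rintro ⟨w, rfl⟩
      exact ⟨ι w, HH.Mod.val_mem _, rfl⟩
  let ψ' : Multiplicative (Mod hV) →* Multiplicative (Fin p → ZMod p) := AddMonoidHom.toMultiplicative ψ.toAddMonoidHom
  have hkereq : (π.comp ι).ker = ψ'.ker := by
    ext w
    rw [MonoidHom.mem_ker, MonoidHom.mem_ker, MonoidHom.comp_apply, hπ1]
    constructor
    · rintro ⟨w', hw', hψ⟩
      obtain rfl : Multiplicative.toAdd w = w' := HH.Mod.ext hw'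
      exact congrArg Multiplicative.ofAdd hψ
    · intro h; exact ⟨Multiplicative.toAdd w, rfl, congrArg Multiplicative.toAdd h⟩
  have hBcard : Nat.card B = p ^ p := by
    rw [hBr, ← Subgroup.index_ker, hkereq, Subgroup.index_ker,
      MonoidHom.range_eq_top.mpr (show Function.Surjective ψ' from hψs), Subgroup.card_top]
    simp [Nat.card_eq_fintype_card, ZMod.card]
  set t := π ⟨x', hx'Y⟩ with ht
  have htp : t ^ p = 1 := by
    rw [ht, ← map_pow, hπ1]
    obtain ⟨w, hw, hψw⟩ := hx'p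
    exact ⟨w, by rw [Subgroup.coe_pow]; exact hw, hψw⟩
  have htB : t ∉ B := by
    rintro ⟨z, hz, hzt⟩
    have h1 : ((z⁻¹ * ⟨x', hx'Y⟩ : Y) : X) ∈ C := (hπ1 _).mp (by rw [map_mul, map_inv, hzt, ← ht, inv_mul_cancel])
    refine hx'V ?_
    have h2 := mul_mem (show (z : X) ∈ V from hz) (hCV h1)
    simpa using h2
  have hWcard : Nat.card W₀ = p ^ (p + 1) := by
    rw [← Subgroup.card_mul_index B, hBcard, pow_succ, hB, Subgroup.index_map_eq _ hπs, hindex]
    intro y hy
    exact hCV ((hπ1 y).mp hy)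
  have hCcard : Nat.card ↥(B ⊓ Subgroup.centralizer ({t} : Set W₀)) = p := by
    set e₀ := π (ι (Multiplicative.ofAdd ((N ^ (p - 1)) v))) with he₀
    have hcent : ∀ w : Mod hV, π (ι (Multiplicative.ofAdd w)) ∈ Subgroup.centralizer ({t} : Set W₀) ↔ ψ (N w) = 0 := by
      intro w
      rw [Subgroup.mem_centralizer_singleton_iff, ht, ← map_mul, ← map_mul, eq_comm, ← mul_inv_eq_one, ← map_inv, ← map_mul, hπ1]
      have hNw : (N w).val = x' * w.val * x'⁻¹ * w.val⁻¹ := by
        have h2 : N w = ρ (x : X ⧸ V) w + -w := by rw [hN, LinearMap.sub_apply, Module.End.one_apply, sub_eq_add_neg]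
        rw [h2, HH.Mod.val_add, ← hx'q, hρ]
        congr 1
      show (x' * w.val) * (w.val * x')⁻¹ ∈ C ↔ _
      rw [mul_inv_rev, ← mul_assoc, ← hNw]
      exact ⟨fun ⟨w', hw', hψ⟩ => (HH.Mod.ext hw' : N w = w') ▸ hψ, fun h => ⟨N w, rfl, h⟩⟩
    have he₀o : orderOf e₀ = p := by
      refine orderOf_eq_prime ?_ ?_
      · rw [he₀, ← map_pow, ← map_pow, ← ofAdd_nsmul]
        have h0 : p • (N ^ (p - 1)) v = 0 := by rw [← Nat.cast_smul_eq_nsmul (ZMod p), ZMod.natCast_self, zero_smul]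
        rw [h0, ofAdd_zero, map_one, map_one]
      · intro h
        rw [he₀, hπ1] at h
        obtain ⟨w', hw', hψ⟩ := h
        rw [← (HH.Mod.ext hw' : (N ^ (p - 1)) v = w')] at hψ
        have := congrFun hψ ⟨0, hp.pos⟩
        rw [hψa] at this
        simp [hφ] at this
    rw [← he₀o, ← Nat.card_zpowers]
    congr 1
    refine congrArg (fun H : Subgroup W₀ => (↥H : Type _)) (le_antisymm ?_ ?_)
    · intro y hy
      obtain ⟨hyB, hyC⟩ := Subgroup.mem_inf.mp hy
      rw [hBr] at hyB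
      obtain ⟨w, rfl⟩ := hyB
      have hw := (hcent (Multiplicative.toAdd w)).mp hyC
      set w' := Multiplicative.toAdd w with hw'
      have hwψ : ψ w' = φ w' • ψ ((N ^ (p - 1)) v) := by
        funext i
        rw [Pi.smul_apply, hψa, hψa, smul_eq_mul, ← Module.End.mul_apply, ← pow_add]
        rcases Nat.eq_zero_or_pos (i : ℕ) with h0 | h0
        · rw [h0, pow_zero, Module.End.one_apply, zero_add, hφ, mul_one]
        · rw [pow_eq_zero_of_le (show p ≤ (i : ℕ) + (p - 1) by omega) hNp]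
          have h1 : φ ((N ^ ((i : ℕ) - 1)) (N w')) = 0 := congrFun hw ⟨(i : ℕ) - 1, by omega⟩
          rw [← Module.End.mul_apply, ← pow_succ, Nat.sub_add_cancel h0] at h1
          simp [h1]
      refine ⟨(φ w').val, ?_⟩
      show e₀ ^ ((φ w').val : ℤ) = (π.comp ι) w
      rw [zpow_natCast, he₀]
      show (π.comp ι) (Multiplicative.ofAdd ((N ^ (p - 1)) v)) ^ (φ w').val = _
      rw [← map_pow, ← inv_mul_eq_one, ← map_inv, ← map_mul, ← MonoidHom.mem_ker, hkereq, MonoidHom.mem_ker,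
        map_mul, map_inv, map_pow, inv_mul_eq_one]
      show Multiplicative.ofAdd (ψ ((N ^ (p - 1)) v)) ^ (φ w').val = Multiplicative.ofAdd (ψ w')
      rw [← ofAdd_nsmul, ← Nat.cast_smul_eq_nsmul (ZMod p), ZMod.natCast_zmod_val, hwψ]
    · rw [Subgroup.zpowers_le]
      refine Subgroup.mem_inf.mpr ⟨hBr ▸ ⟨_, rfl⟩, (hcent _).mpr ?_⟩
      rw [← Module.End.mul_apply, ← pow_succ', Nat.sub_add_cancel hp.pos, hNp]
      simp
  have hwr : IsWreath p W₀ := by
    refine ⟨B, t, hBn, ⟨⟨?_⟩⟩, ?_, hBcard, orderOf_eq_prime htp (fun h => htB (h ▸ one_mem B)), htB, hWcard, hCcard⟩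
    · rintro ⟨_, a, ha, rfl⟩ ⟨_, b, hb, rfl⟩
      apply Subtype.ext
      show π a * π b = π b * π a
      rw [← map_mul, ← map_mul]
      congr 1
      exact Subtype.ext (congrArg Subtype.val (hV.comm.is_comm.comm (⟨a, ha⟩ : V) ⟨b, hb⟩) :)
    · rintro _ ⟨a, ha, rfl⟩
      rw [← map_pow, hπ1, Subgroup.coe_pow, show (a : X) ^ p = 1 from hV.exp _ ha]
      exact C.one_mem
  haveI : Finite W₀ := Finite.of_surjective _ hπs
  let eW : FinCopy (Nat.card W₀) ≃ W₀ := (Finite.equivFin W₀).symm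
  letI : Group (FinCopy (Nat.card W₀)) := eW.group
  let eW' : FinCopy (Nat.card W₀) ≃* W₀ := eW.mulEquiv
  refine ⟨FinCopy (Nat.card W₀), inferInstance, inferInstanceAs (Finite (Fin _)), isWreath_congr eW'.symm hwr, ?_⟩
  exact EvenLocal.involves_of_surjective (A := Y.subgroupOf S)
    ((eW'.symm.toMonoidHom.comp π).comp (Subgroup.subgroupOfEquivOfLe hYS).toMonoidHom)
    ((eW'.symm.surjective.comp hπs).comp (Subgroup.subgroupOfEquivOfLe hYS).surjective)

end Cfsg.Agent.S3787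

namespace Cfsg.Agent.S3787

/-- Let G be a finite p-soluble group, p an odd prime not of the form 2^k + 1, and suppose the wreath product C_p ≀ C_p (of order p^(p+1)) is not involved in a Sylow p-subgroup of G: no section of a Sylow p-subgroup is isomorphic to it. Then G has p-length at most 1. -/
theorem result {G : Type*} [Group G] [Finite G] {p : ℕ} [Fact p.Prime] (hp2 : p ≠ 2) (hnf : (¬ ∃ k : ℕ, p = 2 ^ k + 1)) (hG : Cfsg.IsPSolvable p G) (P : Sylow p G) (hwr : ∀ (W : Type) [Group W] [Finite W], (∃ (B : Subgroup W) (t : W), B.Normal ∧ IsMulCommutative B ∧ (∀ b ∈ B, b ^ p = 1) ∧ Nat.card B = p ^ p ∧ orderOf t = p ∧ t ∉ B ∧ Nat.card W = p ^ (p + 1) ∧ Nat.card ↥(B ⊓ Subgroup.centralizer ({t} : Set W)) = p) → ¬ Cfsg.Involves W ↥(P : Subgroup G)) : Cfsg.PLengthLE p 1 G := by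
  classical
  have hp : p.Prime := Fact.out
  set N := Cfsg.pPrimeCore p G with hN
  have hG' := PSolv.isPSolvable_quotient hG N
  obtain ⟨F, hFn, hFP, hVexp, hVcomm, hC, hcore⟩ := S3788.exists_reduction hG' (PSolv.pPrimeCore_quotient_eq_bot p G)
  set P₀ := Cfsg.pCore p (G ⧸ N) with hP₀
  set π₁ := QuotientGroup.mk' N
  set π₂ := QuotientGroup.mk' F
  let π : G →* ((G ⧸ N) ⧸ F) := π₂.comp π₁
  have hπ : Function.Surjective π := (QuotientGroup.mk'_surjective F).comp (QuotientGroup.mk'_surjective N)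
  set V := P₀.map π₂ with hV
  haveI : V.Normal := by rw [hcore]; exact pCore_normal p _
  have hMod : Cfsg.Agent.HH.IsModuleSubgroup p V := ⟨⟨⟨fun a b => Subtype.ext (hVcomm a a.2 b b.2)⟩⟩, hVexp⟩
  have hO : Cfsg.pCore p (((G ⧸ N) ⧸ F) ⧸ V) = ⊥ := by
    have key : ∀ W : Subgroup ((G ⧸ N) ⧸ F), W = Cfsg.pCore p ((G ⧸ N) ⧸ F) → ∀ [W.Normal],
        Cfsg.pCore p (((G ⧸ N) ⧸ F) ⧸ W) = ⊥ := by
      rintro W rfl _; exact PSolv.pCore_quotient_eq_bot p _
    exact key V hcore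
  have h0 : (Nat.card ((G ⧸ N) ⧸ P₀)).Coprime p := by
    by_contra hc
    have hd : p ∣ Nat.card ((G ⧸ N) ⧸ P₀) := by
      by_contra h; exact hc ((hp.coprime_iff_not_dvd.mpr h).symm)
    let π₃ : G →* ((G ⧸ N) ⧸ P₀) := (QuotientGroup.mk' P₀).comp π₁
    have hπ₃ : Function.Surjective π₃ := (QuotientGroup.mk'_surjective P₀).comp (QuotientGroup.mk'_surjective N)
    let Q := P.mapSurjective hπ₃
    obtain ⟨h, hh⟩ := exists_prime_orderOf_dvd_card' (G := (Q : Subgroup ((G ⧸ N) ⧸ P₀))) p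
      (Sylow.dvd_card_of_dvd_card Q hd)
    obtain ⟨g, hg, hgh⟩ : ∃ g ∈ (P : Subgroup G), π₃ g = (h : (G ⧸ N) ⧸ P₀) := h.2
    have hgV : π g ∉ V := by
      rintro ⟨w, hw, hwg⟩
      have h1 : π₁ g ∈ P₀ := by
        rw [show π₁ g = w * (w⁻¹ * π₁ g) by group]
        exact mul_mem hw (hFP (QuotientGroup.eq.mp hwg))
      have h2 : (h : (G ⧸ N) ⧸ P₀) = 1 := hgh ▸ (QuotientGroup.eq_one_iff _).mpr h1
      rw [← Subgroup.orderOf_coe, h2, orderOf_one] at hh
      exact hp.one_lt.ne hh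
    have hgp : π g ^ p ∈ V := by
      have h1 : π₁ (g ^ p) ∈ P₀ := (QuotientGroup.eq_one_iff _).mp (by
        show π₃ (g ^ p) = 1
        rw [map_pow, hgh]
        exact orderOf_dvd_iff_pow_eq_one.mp ((Subgroup.orderOf_coe _).trans hh).dvd)
      rw [← map_pow]
      exact ⟨_, h1, rfl⟩
    obtain ⟨ρ, hρ⟩ := Cfsg.Agent.HH.exists_conjRep hMod
    haveI : Module.Finite (ZMod p) (Cfsg.Agent.HH.Mod hMod) := Module.Finite.of_finite
    have hne : (ρ ((π g : (G ⧸ N) ⧸ F) : ((G ⧸ N) ⧸ F) ⧸ V) - 1) ^ (p - 1) ≠ 0 := by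
      intro h0
      have ho : orderOf ((π g : (G ⧸ N) ⧸ F) : ((G ⧸ N) ⧸ F) ⧸ V) = p ^ 1 := by
        rw [pow_one]
        refine orderOf_eq_prime ?_ (fun h => hgV ((QuotientGroup.eq_one_iff _).mp h))
        rw [← QuotientGroup.mk_pow]; exact (QuotientGroup.eq_one_iff _).mpr hgp
      rcases Cfsg.Agent.HH.theoremB_of_pCore_eq_bot (PSolv.isPSolvable_quotient (PSolv.isPSolvable_quotient hG' F) V) hO ρ
        (Cfsg.Agent.HH.conjRep_injective hC hρ) le_rfl ho h0 with hle | ⟨n₀, q, m, h1, -, hq, h2, h3, h4, -⟩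
      · rw [pow_one] at hle; have := hp.two_le; omega
      · obtain ⟨S, hS⟩ := Cfsg.Agent.HH.noExceptional_of_not_fermat hp2 hnf (((G ⧸ N) ⧸ F) ⧸ V) n₀ q m h1 hq h2 h3
        exact h4 S hS
    let S := (P : Subgroup G).map π
    have hVS : V ≤ S := by
      rw [hcore]; exact PSolv.pCore_le_sylow (P.mapSurjective hπ)
    obtain ⟨W, iW, iF, hW, hinv⟩ := exists_wreath hMod hVS (Subgroup.mem_map_of_mem π hg) hgV hgp ρ hρ hne
    refine hwr W hW ?_
    exact EvenLocal.involves_of_involves_image (A := (⊤ : Subgroup ↥(P : Subgroup G)))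
      ((π.subgroupMap (P : Subgroup G)).comp (⊤ : Subgroup ↥(P : Subgroup G)).subtype)
      ((π.subgroupMap_surjective (P : Subgroup G)).comp fun y => ⟨⟨y, Subgroup.mem_top y⟩, rfl⟩) hinv
  have h1 : Cfsg.PLengthLE p (1 + 0) (G ⧸ N) := PLength.pLengthLE_add P₀
    (PLength.pLengthLE_of_isPGroup (PSolv.isPGroup_pCore p _)) (PLength.pLengthLE_zero_of_coprime h0)
  exact PLength.pLengthLE_add N (a := 0) (PLength.pLengthLE_zero_of_coprime (PSolv.coprime_card_pPrimeCore p G)) h1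

end Cfsg.Agent.S3787
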