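import Cfsg.Statements.S3789
import Cfsg.Agent.Lib.HHExponent
import Cfsg.Agent.Lib.HHQuadraticThree
import Cfsg.Agent.Coprime.Action
import Cfsg.Agent.Cores.Fitting
import Cfsg.Agent.PrimeFPF.Group

set_option autoImplicit false
open Cfsg

namespace Cfsg.Agent.S3789

open scoped commutatorElement
open Cfsg.Agent Cfsg.Agent.HH

theorem val_sub_one {p : ℕ} [Fact p.Prime] {X : Type*} [Group X] {V : Subgroup X} [V.Normal]
    {hV : IsModuleSubgroup p V} {ρ : (X ⧸ V) →* Module.End (ZMod p) (Mod hV)}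
    (hρ : ∀ (x : X) (v : Mod hV), (ρ (x : X ⧸ V) v).val = x * v.val * x⁻¹) (x : X) (v : Mod hV) :
    ((ρ (x : X ⧸ V) - 1) v).val = ⁅x, v.val⁆ := by
  have h1 : ((ρ (x : X ⧸ V) - 1) v) + v = ρ (x : X ⧸ V) v := by
    rw [LinearMap.sub_apply, Module.End.one_apply, sub_add_cancel]
  have h2 := congrArg Mod.val h1
  rw [Mod.val_add, hρ, ← eq_mul_inv_iff_mul_eq] at h2
  rw [h2, commutatorElement_def]

theorem map_derived_succ {G : Type*} [Group G] (S : Subgroup G) (i : ℕ) :
    (derivedSeries S (i + 1)).map S.subtype =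
      ⁅(derivedSeries S i).map S.subtype, (derivedSeries S i).map S.subtype⁆ := by
  rw [derivedSeries_succ, Subgroup.map_commutator]

theorem le_normalizer_derived {G : Type*} [Group G] (S : Subgroup G) : ∀ i : ℕ,
    S ≤ Subgroup.normalizer (((derivedSeries S i).map S.subtype : Subgroup G) : Set G) := by
  intro i
  induction i with
  | zero => rw [derivedSeries_zero, ← MonoidHom.range_eq_map, Subgroup.range_subtype]; exact Subgroup.le_normalizer
  | succ i ih =>
    rw [map_derived_succ]
    exact fun s hs => Coprime.normalizer_inf_le_normalizer_commutator _ _ ⟨ih hs, ih hs⟩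

theorem map_derived_map {G H : Type*} [Group G] [Group H] (f : G →* H) (S : Subgroup G) : ∀ i : ℕ,
    (derivedSeries (S.map f : Subgroup H) i).map (S.map f).subtype = ((derivedSeries S i).map S.subtype).map f := by
  intro i
  induction i with
  | zero =>
    simp only [derivedSeries_zero, ← MonoidHom.range_eq_map, Subgroup.range_subtype]
  | succ i ih => rw [map_derived_succ, map_derived_succ, ih, ← Subgroup.map_commutator]

theorem pow_three_eq_one {F : Type*} [Field F] [CharP F 3] {W : Type*} [AddCommGroup W] [Module F W]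
    (x : Module.End F W) (h : (x - 1) ^ 2 = 0) : x ^ 3 = 1 := by
  haveI : Fact (Nat.Prime 3) := ⟨Nat.prime_three⟩
  rcases subsingleton_or_nontrivial (Module.End F W) with h' | h'
  · exact Subsingleton.elim _ _
  · haveI : CharP (Module.End F W) 3 := charP_of_injective_algebraMap (algebraMap F (Module.End F W)).injective 3
    rw [← sub_eq_zero, ← pow_eq_zero_of_le (by norm_num : 2 ≤ 3) h,
      sub_pow_char_of_commute 3 (Commute.one_right x), one_pow]

/-- The last derived term of a Sylow subgroup lies in the self-centralizing module. -/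
theorem derived_le_module {p : ℕ} [Fact p.Prime] (hp : p ≠ 2) {X : Type*} [Group X] [Finite X] {V : Subgroup X}
    [V.Normal] (hX : IsPSolvable p X) (hV : IsModuleSubgroup p V) (hC : Subgroup.centralizer (V : Set X) ≤ V)
    (hO : pCore p (X ⧸ V) = ⊥) (S : Sylow p X) (d : ℕ) (hd : derivedSeries (S : Subgroup X) (d + 1) = ⊥) :
    (derivedSeries (S : Subgroup X) d).map (S : Subgroup X).subtype ≤ V := by
  classical
  have hpp : p.Prime := Fact.out
  set D : ℕ → Subgroup X := fun i => (derivedSeries (S : Subgroup X) i).map (S : Subgroup X).subtype with hD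
  have hVS : V ≤ (S : Subgroup X) := by
    have hVp : IsPGroup p V := fun v => ⟨1, Subtype.ext (by rw [Subgroup.coe_pow, pow_one, hV.exp _ v.2]; rfl)⟩
    exact hVp.le_sylow_of_normal S
  have hDS : ∀ i, D i ≤ (S : Subgroup X) := fun i => Subgroup.map_subtype_le _
  have hlast : D (d + 1) = ⊥ := by rw [hD]; simp only [hd, Subgroup.map_bot]
  have hab : ∀ a ∈ D d, ∀ a' ∈ D d, Commute a a' := by
    intro a ha a' ha'
    rw [← commutatorElement_eq_one_iff_commute, ← Subgroup.mem_bot, ← hlast]
    exact (map_derived_succ _ d).ge (Subgroup.commutator_mem_commutator ha ha')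
  have hnormD : ∀ i, ∀ s ∈ (S : Subgroup X), ∀ a ∈ D i, ⁅a, s⁆ ∈ D i := by
    intro i s hs a ha
    rw [commutatorElement_def, show a * s * a⁻¹ * s⁻¹ = a * (s * a⁻¹ * s⁻¹) by group]
    exact mul_mem ha ((Subgroup.mem_normalizer_iff.mp (le_normalizer_derived _ i hs) a⁻¹).mp (inv_mem ha))
  cases d with
  | zero =>
    intro a ha
    refine hC (Subgroup.mem_centralizer_iff.mpr fun v hv => ?_)
    have hv' : v ∈ D 0 := ⟨⟨v, hVS hv⟩, by simp, rfl⟩
    exact hab v hv' a ha
  | succ e =>
  obtain ⟨ρ, hρ⟩ := exists_conjRep hV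
  haveI : Module.Finite (ZMod p) (Mod hV) := Module.Finite.of_finite
  set π := QuotientGroup.mk' V
  have hquad : ∀ a ∈ D (e + 1), (ρ (a : X ⧸ V) - 1) ^ 2 = 0 := by
    intro a ha
    refine LinearMap.ext fun v => Mod.ext ?_
    rw [pow_two, Module.End.mul_apply, val_sub_one hρ, val_sub_one hρ, LinearMap.zero_apply, Mod.val_zero,
      commutatorElement_eq_one_iff_commute]
    exact hab a ha _ (hnormD _ _ (hVS v.val_mem) a ha)
  have hcub : ∀ a ∈ D (e + 1), ∀ b ∈ D e, (ρ (a : X ⧸ V) - 1) * (ρ (b : X ⧸ V) - 1) ^ 2 = 0 := by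
    intro a ha b hb
    refine LinearMap.ext fun v => Mod.ext ?_
    rw [pow_two, Module.End.mul_apply, Module.End.mul_apply, val_sub_one hρ, val_sub_one hρ, val_sub_one hρ,
      LinearMap.zero_apply, Mod.val_zero, commutatorElement_eq_one_iff_commute]
    exact hab a ha _ ((map_derived_succ _ e).ge
      (Subgroup.commutator_mem_commutator hb (hnormD _ _ (hVS v.val_mem) b hb)))
  have hinj := conjRep_injective hC hρ
  have hXV := PSolv.isPSolvable_quotient hX V
  intro a ha
  rw [← QuotientGroup.eq_one_iff]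
  by_contra hne
  set g : X ⧸ V := (a : X ⧸ V) with hg
  obtain ⟨k, hk⟩ := S.isPGroup' ⟨a, hDS _ ha⟩
  obtain ⟨m, -, hm⟩ := (Nat.dvd_prime_pow hpp).mp (show orderOf g ∣ p ^ k by
    refine orderOf_dvd_of_pow_eq_one ?_
    rw [hg, ← QuotientGroup.mk_pow, show a ^ p ^ k = 1 from congrArg Subtype.val hk, QuotientGroup.mk_one])
  have hm1 : 1 ≤ m := by
    by_contra h
    rw [show m = 0 by omega, pow_zero, orderOf_eq_one_iff] at hm
    exact hne hm
  -- only `p = 3` is possible
  have hp3 : p = 3 := by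
    rcases theoremB_of_pCore_eq_bot hXV hO ρ hinj hm1 hm (hquad a ha) with h | ⟨n₀, q, m', h1, e1, e2, e3, e4, e5, h2⟩
    · have := Nat.le_self_pow (show m ≠ 0 by omega) p
      have := hpp.two_le
      omega
    · by_contra h3
      have h4 : p ≠ 4 := fun h => absurd (h ▸ hpp) (by norm_num)
      have := hpp.two_le
      have := Nat.le_self_pow (show n₀ ≠ 0 by omega) p
      have := Nat.one_le_pow (m - n₀) p hpp.pos
      have h6 := Nat.le_mul_of_pos_left (p ^ n₀ - 1) (pow_pos hpp.pos (m - n₀))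
      omega
  subst hp3
  set K := pPrimeCore 3 (X ⧸ V) with hK
  set SH : Subgroup (X ⧸ V) := (S : Subgroup X).map π with hSH
  have hSH3 : IsPGroup 3 SH := S.isPGroup'.map π
  have hgS : g ∈ SH := ⟨a, hDS _ ha, rfl⟩
  haveI : K.Characteristic := PSolv.pPrimeCore_characteristic 3 _
  have hcopK : (Nat.card K).Coprime 3 := PSolv.coprime_card_pPrimeCore 3 _
  suffices hcent : g ∈ Subgroup.centralizer (K : Set (X ⧸ V)) by
    have h1 := Subgroup.orderOf_dvd_natCard K (PSolv.centralizer_pPrimeCore_le hXV hO hcent)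
    rw [hm] at h1
    exact hpp.coprime_iff_not_dvd.mp hcopK.symm ((dvd_pow_self 3 (by omega)).trans h1)
  have hcopS : (Nat.card SH).Coprime (Nat.card K) := by
    obtain ⟨i, hi⟩ := IsPGroup.iff_card.mp hSH3
    rw [hi]
    exact Nat.Coprime.pow_left i hcopK.symm
  have hSK : SH ≤ Subgroup.normalizer (K : Set (X ⧸ V)) := by
    rw [Subgroup.normalizer_eq_top_iff.mpr inferInstance]; exact le_top
  -- the base change
  let L := AlgebraicClosure (ZMod 3)
  haveI : CharP L 3 := charP_of_injective_algebraMap (algebraMap (ZMod 3) L).injective 3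
  let Bc := Module.End.baseChangeHom (ZMod 3) L (Mod hV)
  let ρL : (X ⧸ V) →* Module.End L (TensorProduct (ZMod 3) L (Mod hV)) := Bc.toRingHom.toMonoidHom.comp ρ
  have hinjL : Function.Injective ρL := fun u w h => hinj (PrimeFPF.baseChange_inj (L := L) h)
  suffices htop : (Subgroup.centralizer ({g} : Set (X ⧸ V))).subgroupOf K = ⊤ by
    refine Subgroup.mem_centralizer_iff.mpr fun y hy => ?_
    exact Subgroup.mem_centralizer_singleton_iff.mp
      (Subgroup.mem_subgroupOf.mp (htop.ge (Subgroup.mem_top (⟨y, hy⟩ : K))))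
  refine Cores.eq_top_of_forall_sylow_le _ fun q hq => ?_
  haveI := Fact.mk hq
  haveI := hSH3.isNilpotent
  obtain ⟨P, hP⟩ := Coprime.exists_invariant_sylow q hSK hcopS (Or.inl inferInstance)
  refine ⟨P, fun y hy => Subgroup.mem_subgroupOf.mpr ?_⟩
  set R := (P : Subgroup K).map K.subtype with hR
  suffices hgR : g ∈ Subgroup.centralizer (R : Set (X ⧸ V)) from
    Subgroup.mem_centralizer_singleton_iff.mpr (Subgroup.mem_centralizer_iff.mp hgR _ ⟨y, hy, rfl⟩)
  have hRK : R ≤ K := Subgroup.map_subtype_le _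
  by_cases hq2 : q = 2
  · subst hq2
    have hA : ⁅(D e).map π, (D e).map π⁆ = (D (e + 1)).map π := by
      rw [← Subgroup.map_commutator, hD]; simp only [map_derived_succ]
    have := centralizes_of_quadratic_three ρL hinjL R ((D e).map π) (P.isPGroup'.map _)
      (hSH3.to_le (Subgroup.map_mono (hDS e))) ((Subgroup.map_mono (hDS e)).trans hP)
      (by
        rw [hA]
        rintro _ ⟨c, hc, rfl⟩ _ ⟨c', hc', rfl⟩
        exact (hab c hc c' hc').map π)
      (by
        rw [hA]
        rintro _ ⟨c, hc, rfl⟩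
        show (Bc (ρ (c : X ⧸ V)) - 1) ^ 2 = 0
        simpa using congrArg Bc (hquad c hc))
      (by
        rw [hA]
        rintro _ ⟨c, hc, rfl⟩ _ ⟨b, hb, rfl⟩
        show (Bc (ρ (c : X ⧸ V)) - 1) * (Bc (ρ (b : X ⧸ V)) - 1) ^ 2 = 0
        simpa using congrArg Bc (hcub c hc b hb))
    exact this (hA.ge ⟨a, ha, rfl⟩)
  · by_contra hgR
    have hg3 : g ^ 3 ^ 1 = 1 := by
      refine hinjL ?_
      rw [map_pow, map_one, pow_one]
      exact pow_three_eq_one _ (show (Bc (ρ (a : X ⧸ V)) - 1) ^ 2 = 0 by simpa using congrArg Bc (hquad a ha))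
    obtain ⟨q', Q, hq', -, hQR, hQq, hQne, hpair⟩ := exists_isPair
      (hcopK.coprime_dvd_left (Subgroup.card_dvd_of_le hRK)) (le_refl 1) hg3 (hP hgS)
      (by simpa using hgR)
    obtain ⟨y', hy', hy1⟩ := (Subgroup.bot_or_exists_ne_one Q).resolve_left hQne
    rcases theoremB ρ hpair ⟨y', hy', fun h => hy1 (hinj (h.trans (map_one ρ).symm))⟩ (hquad a ha) with
      h | ⟨n₀, h1, h2, h3, -, -⟩
    · norm_num at h
    · obtain rfl : n₀ = 1 := by omega
      obtain ⟨i, hi⟩ := IsPGroup.iff_card.mp (P.isPGroup'.map K.subtype)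
      have h4 : 2 ∣ q ^ i := hi ▸ ((Dvd.intro 2 (by norm_num)).trans h3).trans (Subgroup.card_dvd_of_le hQR)
      exact hq2 ((Nat.prime_dvd_prime_iff_eq Nat.prime_two hq).mp (Nat.prime_two.dvd_of_dvd_pow h4)).symm

theorem pLengthLE_of_derived {p : ℕ} [Fact p.Prime] (hp : p ≠ 2) : ∀ (d : ℕ) (G : Type*) [Group G] [Finite G],
    IsPSolvable p G → (∀ P : Sylow p G, derivedSeries (P : Subgroup G) d = ⊥) → PLengthLE p d G := by
  have hpp : p.Prime := Fact.out
  intro d
  induction d with
  | zero =>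
    intro G _ _ _ hd
    refine PLength.pLengthLE_zero_of_coprime ?_
    by_contra hc
    obtain ⟨P⟩ := (inferInstance : Nonempty (Sylow p G))
    have hdvd : p ∣ Nat.card G := by
      by_contra h; exact hc ((hpp.coprime_iff_not_dvd.mpr h).symm)
    have h0 := hd P
    rw [derivedSeries_zero] at h0
    refine P.ne_bot_of_dvd_card hdvd ((Subgroup.eq_bot_iff_forall _).mpr fun x hx => ?_)
    have : (⟨x, hx⟩ : (P : Subgroup G)) ∈ (⊥ : Subgroup (P : Subgroup G)) := h0 ▸ Subgroup.mem_top _
    exact congrArg Subtype.val (Subgroup.mem_bot.mp this)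
  | succ d ih =>
    intro G _ _ hG hd
    have hquot : ∀ {G H : Type _} [Group G] [Finite G] [Group H] (f : G →* H), Function.Surjective f →
        (∀ P : Sylow p G, derivedSeries (P : Subgroup G) (d + 1) = ⊥) →
        ∀ Q : Sylow p H, derivedSeries (Q : Subgroup H) (d + 1) = ⊥ := by
      intro G H _ _ _ f hf h Q
      obtain ⟨P, rfl⟩ := Sylow.mapSurjective_surjective hf p Q
      refine (Subgroup.map_eq_bot_iff_of_injective _ (Subgroup.subtype_injective _)).mp ?_
      rw [Sylow.coe_mapSurjective, map_derived_map, h P, Subgroup.map_bot, Subgroup.map_bot]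
    set N := pPrimeCore p G with hN
    have hG' := PSolv.isPSolvable_quotient hG N
    have hd' := hquot (QuotientGroup.mk' N) (QuotientGroup.mk'_surjective N) hd
    obtain ⟨F, hFn, hFP, hVexp, hVcomm, hC, hcore⟩ := S3788.exists_reduction hG' (PSolv.pPrimeCore_quotient_eq_bot p G)
    set P := pCore p (G ⧸ N) with hP
    set π := QuotientGroup.mk' F with hπ
    have hπs : Function.Surjective π := QuotientGroup.mk'_surjective F
    set V := P.map π with hV
    haveI : V.Normal := by rw [hcore]; exact pCore_normal p _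
    have hO : pCore p (((G ⧸ N) ⧸ F) ⧸ V) = ⊥ := by
      have key : ∀ W : Subgroup ((G ⧸ N) ⧸ F), W = pCore p ((G ⧸ N) ⧸ F) → ∀ [W.Normal],
          pCore p (((G ⧸ N) ⧸ F) ⧸ W) = ⊥ := by
        rintro W rfl _; exact PSolv.pCore_quotient_eq_bot p _
      exact key V hcore
    have hMod : IsModuleSubgroup p V := ⟨⟨⟨fun a b => Subtype.ext (hVcomm a a.2 b b.2)⟩⟩, hVexp⟩
    have hdrop : ∀ Q : Sylow p ((G ⧸ N) ⧸ P), derivedSeries (Q : Subgroup ((G ⧸ N) ⧸ P)) d = ⊥ := by
      intro Q
      obtain ⟨S, rfl⟩ := Sylow.mapSurjective_surjective (QuotientGroup.mk'_surjective P) p Q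
      have hle := derived_le_module hp (PSolv.isPSolvable_quotient hG' F) hMod hC hO (S.mapSurjective hπs) d
        (hquot π hπs hd' _)
      rw [Sylow.coe_mapSurjective, map_derived_map] at hle
      refine (Subgroup.map_eq_bot_iff_of_injective _ (Subgroup.subtype_injective _)).mp ?_
      rw [Sylow.coe_mapSurjective, map_derived_map, Subgroup.map_eq_bot_iff, QuotientGroup.ker_mk']
      intro z hz
      obtain ⟨w, hw, hwz⟩ := hle ⟨z, hz, rfl⟩
      rw [show z = w * (w⁻¹ * z) by group]
      exact mul_mem hw (hFP (QuotientGroup.eq.mp hwz))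
    have hrec := ih ((G ⧸ N) ⧸ P) (PSolv.isPSolvable_quotient hG' P) hdrop
    have h1 : PLengthLE p (1 + d) (G ⧸ N) :=
      PLength.pLengthLE_add P (PLength.pLengthLE_of_isPGroup (PSolv.isPGroup_pCore p _)) hrec
    have h2 := PLength.pLengthLE_add N (a := 0) (PLength.pLengthLE_zero_of_coprime (PSolv.coprime_card_pPrimeCore p G)) h1
    rwa [zero_add, add_comm] at h2

/-- Let p be an odd prime and G a finite p-soluble group whose Sylow p-subgroups have derived length at most d. Then G has p-length at most d. -/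
theorem result {G : Type*} [Group G] [Finite G] {p : ℕ} [Fact p.Prime] (hp : p ≠ 2) (hG : Cfsg.IsPSolvable p G) (d : ℕ) (hd : ∀ P : Sylow p G, derivedSeries ↥(P : Subgroup G) d = ⊥) : Cfsg.PLengthLE p d G := by
  exact pLengthLE_of_derived hp d G hG hd

end Cfsg.Agent.S3789
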