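import Cfsg.Statements.S3790
import Cfsg.Agent.Lib.PLength
import Cfsg.Agent.Cores.Basic

set_option autoImplicit false
open Cfsg

namespace Cfsg.Agent.S3790

universe u

open Cfsg.Agent in
theorem aux : ∀ (n : ℕ) (G : Type u) [Group G] [Finite G] (p : ℕ) [Fact p.Prime] (r : ℕ)
    (q : Fin r → ℕ), (∀ i, (q i).Prime ∧ q i ≠ p) →
    (∀ s : ℕ, s.Prime → s ∣ Nat.card G → s ≠ p → ∃ i, q i = s) →
    ∀ l : Fin r → ℕ, (∀ i, PLengthLE (q i) (l i) G) → (∑ i, l i) ≤ n →
    PLengthLE p (Finset.univ.prod fun i => 1 + l i) G := by
  classical
  intro n
  induction n with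
  | zero =>
    intro G _ _ p _ r q hq hcover l hl hsum
    have hl0 : ∀ i, l i = 0 := fun i => by
      have := Finset.single_le_sum (f := l) (fun j _ => Nat.zero_le (l j)) (Finset.mem_univ i)
      omega
    refine PSolv.pLengthLE_mono (G := G) (k := 1) (Nat.one_le_iff_ne_zero.mpr
      (Finset.prod_ne_zero_iff.mpr fun i _ => by omega)) (PLength.pLengthLE_of_isPGroup ?_)
    refine IsPGroup.of_card (n := (Nat.card G).primeFactorsList.length) ?_
    refine Nat.eq_prime_pow_of_unique_prime_dvd (Nat.card_pos (α := G)).ne' fun {s} hs hsd => ?_
    by_contra hsp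
    obtain ⟨i, rfl⟩ := hcover s hs hsd hsp
    haveI := Fact.mk (hq i).1
    have := hl i
    rw [hl0] at this
    exact ((hq i).1.coprime_iff_not_dvd.mp (PLength.coprime_of_pLengthLE_zero this).symm) hsd
  | succ n ih =>
    intro G _ _ p _ r q hq hcover l hl hsum
    by_cases hz : ∀ i, l i = 0
    · exact ih G p r q hq hcover l hl (by simp [hz])
    push Not at hz
    obtain ⟨i, hi⟩ := hz
    haveI := Fact.mk (hq i).1
    set N := PSolv.useries (q i) G 1 with hN
    set M := PSolv.useries (q i) G 2 with hM
    have hNM : N ≤ M := PSolv.useries_mono (by omega)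
    have hNcop : (Nat.card N).Coprime (q i) := by
      rw [hN, PLength.useries_one]; exact Cores.pPrimeCore_coprime
    set P := ∏ j ∈ Finset.univ.erase i, (1 + l j) with hP
    have hsplit : ∀ l' : Fin r → ℕ, (∀ j, j ≠ i → l' j = l j) →
        ∏ j, (1 + l' j) = (1 + l' i) * P := by
      intro l' hl'
      rw [← Finset.mul_prod_erase _ _ (Finset.mem_univ i)]
      congr 1
      exact Finset.prod_congr rfl fun j hj => by rw [hl' j (Finset.ne_of_mem_erase hj)]
    have hsumlt : ∀ l' : Fin r → ℕ, (∀ j, l' j ≤ l j) → l' i < l i → ∑ j, l' j ≤ n := by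
      intro l' hle hlt
      have := Finset.sum_lt_sum (s := Finset.univ) (fun j _ => hle j) ⟨i, Finset.mem_univ _, hlt⟩
      omega
    -- the subgroup M
    have hMlen : PLengthLE p P M := by
      set N' := N.subgroupOf M with hN'
      have hN'len : PLengthLE p P N' := by
        have h1 := ih N p r q hq (fun s hs hd hne => hcover s hs (hd.trans (Subgroup.card_subgroup_dvd_card N)) hne)
          (Function.update l i 0)
          (fun j => by
            rcases eq_or_ne j i with rfl | hji
            · rw [Function.update_self]; exact PLength.pLengthLE_zero_of_coprime hNcop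
            · rw [Function.update_of_ne hji]
              haveI := Fact.mk (hq j).1
              exact PSolv.pLengthLE_subgroup (hl j) N)
          (hsumlt _ (fun j => by
              rcases eq_or_ne j i with rfl | hji
              · simp
              · rw [Function.update_of_ne hji]) (by simp; omega))
        rw [hsplit _ (fun j hj => Function.update_of_ne hj _ _), Function.update_self, add_zero,
          one_mul] at h1
        exact PSolv.pLengthLE_of_surjective (Subgroup.subgroupOfEquivOfLe hNM).symm.toMonoidHom
          (Subgroup.subgroupOfEquivOfLe hNM).symm.surjective h1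
      refine PLength.pLengthLE_add N' hN'len (b := 0) (PLength.pLengthLE_zero_of_coprime ?_)
      obtain ⟨m, hm⟩ := PSolv.useries_relIndex_odd (p := q i) (G := G) (n := 1) (by decide)
      rw [← Subgroup.index_eq_card]
      show (N.relIndex M).Coprime p
      rw [hm]
      exact ((Nat.coprime_primes (hq i).1 Fact.out).mpr (hq i).2).pow_left _
    -- the quotient
    have hQlen : PLengthLE p (l i * P) (G ⧸ M) := by
      have h1 := ih (G ⧸ M) p r q hq
        (fun s hs hd hne => hcover s hs (hd.trans (Subgroup.card_quotient_dvd_card M)) hne)
        (Function.update l i (l i - 1))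
        (fun j => by
          rcases eq_or_ne j i with rfl | hji
          · rw [Function.update_self]
            exact PLength.pLengthLE_quotient_of_succ
              (by rw [Nat.sub_add_cancel (Nat.one_le_iff_ne_zero.mpr hi)]; exact hl j)
          · rw [Function.update_of_ne hji]
            haveI := Fact.mk (hq j).1
            exact PSolv.pLengthLE_of_surjective _ (QuotientGroup.mk'_surjective M) (hl j))
        (hsumlt _ (fun j => by
              rcases eq_or_ne j i with rfl | hji
              · simp
              · rw [Function.update_of_ne hji]) (by simp; omega))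
      rwa [hsplit _ (fun j hj => Function.update_of_ne hj _ _), Function.update_self,
        show 1 + (l i - 1) = l i by omega] at h1
    have := PLength.pLengthLE_add M hMlen hQlen
    rwa [hsplit l (fun _ _ => rfl), add_mul, one_mul]

/-- Let G be a finite solvable group and p a prime. Suppose p₁, …, p_r are distinct primes, all different from p, that include every prime dividing the order of G other than p, and that G has p_i-length at most l_i for each i. Then G has p-length at most the product of the numbers 1 + l_i. -/
theorem result {G : Type*} [Group G] [Finite G] (hG : Group.IsSolvable G) (p : ℕ) [Fact p.Prime] (r : ℕ) (q : Fin r → ℕ) (hq : ∀ i, (q i).Prime ∧ q i ≠ p) (hinj : Function.Injective q) (hcover : ∀ s : ℕ, s.Prime → s ∣ Nat.card G → s ≠ p → ∃ i, q i = s) (l : Fin r → ℕ) (hl : ∀ i, Cfsg.PLengthLE (q i) (l i) G) : Cfsg.PLengthLE p (Finset.univ.prod fun i => 1 + l i) G := by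
  exact aux _ G p r q hq hcover l hl le_rfl

end Cfsg.Agent.S3790
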