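import Cfsg.Statements.S3791
import Cfsg.Agent.Lib.PLength
import Cfsg.Agent.Cores.Basic

set_option autoImplicit false
open Cfsg

namespace Cfsg.Agent.S3791

universe u

theorem derivedSeries_add_le {G : Type*} [Group G] {M : Subgroup G} {a : ℕ}
    (ha : derivedSeries G a ≤ M) : ∀ b, derivedSeries G (a + b) ≤ (derivedSeries M b).map M.subtype
  | 0 => by rw [derivedSeries_zero, ← MonoidHom.range_eq_map, Subgroup.range_subtype]; exact ha
  | b + 1 => by
    rw [← Nat.add_assoc, derivedSeries_succ, derivedSeries_succ, Subgroup.map_commutator]
    exact Subgroup.commutator_mono (derivedSeries_add_le ha b) (derivedSeries_add_le ha b)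

open Cfsg.Agent in
theorem aux : ∀ (n : ℕ) (G : Type u) [Group G] [Finite G], Nat.card G ≤ n → ∀ (r : ℕ) (q : Fin r → ℕ),
    (∀ i, (q i).Prime) → (∀ s : ℕ, s.Prime → s ∣ Nat.card G → ∃ i, q i = s) →
    ∀ d l : Fin r → ℕ, (∀ i, ∀ S : Sylow (q i) G, derivedSeries ↥(S : Subgroup G) (d i) = ⊥) →
    (∀ i, PLengthLE (q i) (l i) G) →
    derivedSeries G (Finset.univ.sum fun i => d i * l i) = ⊥ := by
  classical
  intro n
  induction n with
  | zero =>
    intro G _ _ hn
    have := Nat.card_pos (α := G)
    omega
  | succ n ih =>
    intro G _ _ hn r q hq hcover d l hd hl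
    have hstep : ∀ (Q : Type u) [Group Q] [Finite Q] (f : G →* Q), Function.Surjective f →
        Nat.card Q ≤ n → ∀ l' : Fin r → ℕ, (∀ i, PLengthLE (q i) (l' i) Q) →
        derivedSeries Q (Finset.univ.sum fun i => d i * l' i) = ⊥ := by
      intro Q _ _ f hf hQ l' hl'
      refine ih Q hQ r q hq (fun s hs hsd => hcover s hs
        (hsd.trans (Subgroup.card_dvd_of_surjective f hf))) d l' (fun i S => ?_) hl'
      haveI := Fact.mk (hq i)
      obtain ⟨S₀, rfl⟩ := Sylow.mapSurjective_surjective hf (q i) S
      have hsurj := f.subgroupMap_surjective (S₀ : Subgroup G)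
      rw [eq_bot_iff]
      refine le_trans ?_ (le_of_eq (congrArg (Subgroup.map (f.subgroupMap (S₀ : Subgroup G))) (hd i S₀)
        |>.trans (Subgroup.map_bot _)))
      rw [map_derivedSeries_eq hsurj]
      exact le_rfl
    by_cases hcase : ∀ i, Cfsg.pPrimeCore (q i) G ≠ ⊥
    · set D := derivedSeries G (Finset.univ.sum fun i => d i * l i)
      have hle : ∀ i, D ≤ Cfsg.pPrimeCore (q i) G := by
        intro i
        
        haveI := Fact.mk (hq i)
        set f := QuotientGroup.mk' (Cfsg.pPrimeCore (q i) G)
        have hlt : Nat.card (G ⧸ Cfsg.pPrimeCore (q i) G) < Nat.card G := by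
          rw [Subgroup.card_eq_card_quotient_mul_card_subgroup (Cfsg.pPrimeCore (q i) G)]
          exact lt_mul_of_one_lt_right Nat.card_pos
            ((Subgroup.one_lt_card_iff_ne_bot _).mpr (hcase i))
        have h0 := hstep _ f (QuotientGroup.mk'_surjective _) (by omega) l
          fun j => by
            haveI := Fact.mk (hq j)
            exact PSolv.pLengthLE_of_surjective _ (QuotientGroup.mk'_surjective _) (hl j)
        have h1 : D.map f = ⊥ := by
          rw [map_derivedSeries_eq (QuotientGroup.mk'_surjective _), h0]
        rwa [Subgroup.map_eq_bot_iff, QuotientGroup.ker_mk'] at h1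
      rw [← Subgroup.card_eq_one]
      by_contra hne
      obtain ⟨s, hs, hsd⟩ := Nat.exists_prime_and_dvd hne
      obtain ⟨i, rfl⟩ := hcover s hs (hsd.trans (Subgroup.card_subgroup_dvd_card D))
      haveI := Fact.mk hs
      exact Cores.not_dvd_card_pPrimeCore (hsd.trans (Subgroup.card_dvd_of_le (hle i)))
    push Not at hcase
    obtain ⟨i, hi⟩ := hcase
    haveI := Fact.mk (hq i)
    rcases Nat.eq_zero_or_pos (l i) with hli | hli
    · have htop : PSolv.useries (q i) G 1 = ⊤ := by
        have := hl i
        rw [hli] at this
        exact this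
      rw [PLength.useries_one, hi] at htop
      rw [eq_bot_iff, htop]
      exact le_top
    rcases eq_or_ne (PSolv.useries (q i) G 2) ⊥ with hM | hM
    · have htop : PSolv.useries (q i) G (2 * l i + 1) = ⊤ := hl i
      have hall : ∀ k, PSolv.useries (q i) G k = ⊥ := by
        have h1 : PSolv.useries (q i) G 1 = ⊥ := by rw [PLength.useries_one, hi]
        intro k
        induction k with
        | zero => rfl
        | succ k ihk =>
          haveI : (PSolv.useries (q i) G k).Normal := inferInstance
          by_cases he : Even k
          · refine le_antisymm (le_trans (PSolv.le_useries_succ_even Even.zero inferInstance ?_) h1.le) bot_le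
            have h5 := PSolv.useries_relIndex_even (p := q i) (G := G) he
            rw [ihk] at h5
            rw [PSolv.useries_zero]
            exact h5
          · obtain ⟨m, h5⟩ := PSolv.useries_relIndex_odd (p := q i) (G := G) he
            rw [ihk] at h5
            exact le_antisymm (le_trans (PSolv.le_useries_succ_odd (n := 1) (by decide) inferInstance
              (m := m) (by rw [h1]; exact h5)) hM.le) bot_le
      rw [hall] at htop
      rw [eq_bot_iff, htop]
      exact le_top
    set M := PSolv.useries (q i) G 2 with hMdef
    have hlt : Nat.card (G ⧸ M) < Nat.card G := by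
      rw [Subgroup.card_eq_card_quotient_mul_card_subgroup M]
      exact lt_mul_of_one_lt_right Nat.card_pos ((Subgroup.one_lt_card_iff_ne_bot _).mpr hM)
    have h0 := hstep _ (QuotientGroup.mk' M) (QuotientGroup.mk'_surjective _) (by omega)
      (Function.update l i (l i - 1)) fun j => by
        rcases eq_or_ne j i with rfl | hji
        · rw [Function.update_self]
          exact PLength.pLengthLE_quotient_of_succ (by rw [Nat.sub_add_cancel hli]; exact hl j)
        · rw [Function.update_of_ne hji]
          haveI := Fact.mk (hq j)
          exact PSolv.pLengthLE_of_surjective _ (QuotientGroup.mk'_surjective M) (hl j)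
    set a := Finset.univ.sum fun j => d j * Function.update l i (l i - 1) j with ha
    have hsum : Finset.univ.sum (fun j => d j * l j) = a + d i := by
      have hcongr : ∑ j ∈ Finset.univ.erase i, d j * Function.update l i (l i - 1) j =
          ∑ j ∈ Finset.univ.erase i, d j * l j :=
        Finset.sum_congr rfl fun j hj => by
          rw [Function.update_of_ne (Finset.ne_of_mem_erase hj)]
      rw [ha, ← Finset.add_sum_erase _ _ (Finset.mem_univ i),
        ← Finset.add_sum_erase _ _ (Finset.mem_univ i), Function.update_self, hcongr]
      have : d i * l i = d i * (l i - 1) + d i := by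
        conv_lhs => rw [← Nat.sub_add_cancel hli, Nat.mul_succ]
      omega
    have haM : derivedSeries G a ≤ M := by
      have h1 : (derivedSeries G a).map (QuotientGroup.mk' M) = ⊥ := by
        rw [map_derivedSeries_eq (QuotientGroup.mk'_surjective _), h0]
      rwa [Subgroup.map_eq_bot_iff, QuotientGroup.ker_mk'] at h1
    obtain ⟨S, hS⟩ := (PLength.useries_two_isPGroup hi).exists_le_sylow
    have hMd : derivedSeries M (d i) = ⊥ := by
      have h2 := map_derivedSeries_le_derivedSeries (Subgroup.inclusion hS) (d i)
      rw [hd i S, le_bot_iff] at h2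
      exact (Subgroup.map_eq_bot_iff_of_injective _ (Subgroup.inclusion_injective hS)).mp h2
    rw [eq_bot_iff, hsum]
    exact (derivedSeries_add_le haM (d i)).trans (by rw [hMd, Subgroup.map_bot])

/-- The Hall–Higman bound on derived length: let G be a finite solvable group, let p₁, …, p_r be distinct primes that include every prime dividing the order of G, and suppose that for each i the Sylow p_i-subgroups of G have derived length at most d_i and G has p_i-length at most l_i. Then G has derived length at most Σ d_i l_i. -/
theorem result {G : Type*} [Group G] [Finite G] (hG : Group.IsSolvable G) (r : ℕ) (q : Fin r → ℕ) (hq : ∀ i, (q i).Prime) (hinj : Function.Injective q) (hcover : ∀ s : ℕ, s.Prime → s ∣ Nat.card G → ∃ i, q i = s) (d l : Fin r → ℕ) (hd : ∀ i, ∀ P : Subgroup G, (haveI := Fact.mk (hq i); ∃ S : Sylow (q i) G, (S : Subgroup G) = P) → derivedSeries ↥P (d i) = ⊥) (hl : ∀ i, Cfsg.PLengthLE (q i) (l i) G) : derivedSeries G (Finset.univ.sum fun i => d i * l i) = ⊥ := by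
  exact aux _ G le_rfl r q hq hcover d l (fun i S => hd i S ⟨S, rfl⟩) hl

end Cfsg.Agent.S3791
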