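import Cfsg.Statements.S3796
import Cfsg.Agent.Lib.WardMain

set_option autoImplicit false
open Cfsg

namespace Cfsg.Agent.S3796

/-- Ward's Theorem: let G be a finite solvable group and A an elementary abelian group of automorphisms of G of order p² (p a prime) with no non-identity common fixed point. Then G has Fitting height at most 2: G has Fitting height at most m when there is a chain of normal subgroups 1 = F₀ ≤ F₁ ≤ ⋯ ≤ F_m = G with each F_{i+1}/F_i nilpotent. -/
theorem result {G : Type*} [Group G] [Finite G] (hG : Group.IsSolvable G) {p : ℕ} (hp : p.Prime) (A : Subgroup (MulAut G)) (hA : Cfsg.IsElementaryAbelian p A) (hcard : Nat.card A = p ^ 2) (hfpf : ∀ g : G, (∀ a ∈ A, a g = g) → g = 1) : ∃ F : Fin (2 + 1) → Subgroup G, F 0 = ⊥ ∧ F (Fin.last 2) = ⊤ ∧ Monotone F ∧ (∀ i, (F i).Normal) ∧ ∀ i : Fin 2, ∃ k : ℕ, (F i.succ).lowerCentralSeries k ≤ F i.castSucc := by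
  classical
  haveI := hG
  haveI := Fact.mk hp
  haveI : Fintype G := Fintype.ofFinite G
  -- the order of `G` is prime to `p`
  have hAp : IsPGroup p A := IsPGroup.of_card hcard
  letI : MulAction A G := MulAction.compHom G A.subtype
  have hfixed : MulAction.fixedPoints A G = {1} := by
    ext g
    rw [MulAction.mem_fixedPoints, Set.mem_singleton_iff]
    exact ⟨fun h => hfpf g fun a ha => h ⟨a, ha⟩, fun h a => by rw [h]; exact map_one (a : MulAut G)⟩
  have hmod := hAp.card_modEq_card_fixedPoints G
  rw [hfixed, show Nat.card ({1} : Set G) = 1 by simp] at hmod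
  have hcop : (Nat.card G).Coprime p := by
    refine (hp.coprime_iff_not_dvd.mpr fun hd => ?_).symm
    have h0 : Nat.card G % p = 0 := Nat.dvd_iff_mod_eq_zero.mp hd
    rw [Nat.ModEq, h0, Nat.one_mod_eq_one.mpr hp.one_lt.ne'] at hmod
    exact zero_ne_one hmod
  -- the semidirect product
  let Γ := G ⋊[A.subtype] A
  haveI : Finite Γ := Finite.of_equiv _ SemidirectProduct.equivProd.symm
  let G' : Subgroup Γ := (SemidirectProduct.inl : G →* Γ).range
  let A' : Subgroup Γ := (SemidirectProduct.inr : A →* Γ).range
  have hGn : G'.Normal := by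
    show ((SemidirectProduct.inl : G →* Γ).range).Normal
    rw [SemidirectProduct.range_inl_eq_ker_rightHom]; infer_instance
  let eG : G ≃* G' := MonoidHom.ofInjective SemidirectProduct.inl_injective
  haveI := hA.1
  have hpair : Cfsg.Agent.Ward.IsPairAction p G' A' :=
    { comm := ⟨⟨by
        rintro ⟨_, a, rfl⟩ ⟨_, b, rfl⟩
        apply Subtype.ext
        show SemidirectProduct.inr a * SemidirectProduct.inr b = SemidirectProduct.inr b * SemidirectProduct.inr a
        rw [← map_mul, ← map_mul]
        exact congrArg _ (hA.1.is_comm.comm a b)⟩⟩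
      card_eq := by
        show Nat.card ↥((SemidirectProduct.inr : A →* Γ).range) = p ^ 2
        rw [← Nat.card_congr (MonoidHom.ofInjective SemidirectProduct.inr_injective).toEquiv]
        exact hcard
      pow_eq := by
        rintro _ ⟨a, rfl⟩
        rw [← map_pow, show a ^ p = 1 from Subtype.ext (by
          rw [Subgroup.coe_pow, hA.2 a a.2]; rfl), map_one]
      normal := hGn
      coprime := by rw [← Nat.card_congr eG.toEquiv]; exact hcop
      fix := by
        rw [eq_bot_iff]
        rintro x ⟨⟨g, rfl⟩, hx⟩
        rw [Subgroup.mem_bot, map_eq_one_iff _ SemidirectProduct.inl_injective]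
        refine hfpf g fun a ha => ?_
        have h := Subgroup.mem_centralizer_iff.mp hx (SemidirectProduct.inr ⟨a, ha⟩) ⟨⟨a, ha⟩, rfl⟩
        apply SemidirectProduct.inl_injective (φ := A.subtype)
        rw [show a g = A.subtype ⟨a, ha⟩ g from rfl, SemidirectProduct.inl_aut, h, map_inv,
          mul_inv_cancel_right] }
  haveI : Group.IsSolvable G' := Group.isSolvable_of_surjective (f := eG.toMonoidHom) eG.surjective
  obtain ⟨m, hm⟩ := Cfsg.Agent.Ward.exists_lowerCentralSeries_le_fitting hpair
  refine Cfsg.Agent.Ward.exists_chain (m := m) ?_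
  have h1 := Subgroup.map_mono (f := eG.symm.toMonoidHom) hm
  rw [Subgroup.map_lowerCentralSeries, Subgroup.map_top_of_surjective eG.symm.toMonoidHom eG.symm.surjective] at h1
  exact h1.trans (Cfsg.Agent.Cores.map_fittingSubgroup_le_of_surjective _ eG.symm.surjective)

end Cfsg.Agent.S3796
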