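import Cfsg.Statements.S3797
import Cfsg.Agent.OneInvClass.Main

set_option autoImplicit false
open Cfsg

namespace Cfsg.Agent.S3797

open Subgroup

/-- An abelian 2-group whose involutions are permuted transitively by automorphisms is homocyclic. -/
theorem homocyclic {A : Type*} [CommGroup A] [Finite A] (hA : IsPGroup 2 A)
    (h : ∀ x y : A, x ≠ 1 → x ^ 2 = 1 → y ≠ 1 → y ^ 2 = 1 → ∃ a : MulAut A, a x = y) :
    ∃ m r : ℕ, Nonempty (A ≃* (Fin r → Multiplicative (ZMod (2 ^ m)))) := by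
  classical
  haveI : Fact (Nat.Prime 2) := ⟨Nat.prime_two⟩
  obtain ⟨ι, hι, n, hn1, ⟨e⟩⟩ := CommGroup.equiv_prod_multiplicative_zmod_of_finite A
  let g : ι → (∀ i, Multiplicative (ZMod (n i))) := fun i => Pi.mulSingle i (Multiplicative.ofAdd 1)
  have hgo : ∀ i, orderOf (g i) = n i := fun i => by
    haveI : NeZero (n i) := ⟨by have := hn1 i; omega⟩
    show orderOf (MonoidHom.mulSingle (fun j => Multiplicative (ZMod (n j))) i (Multiplicative.ofAdd 1)) = n i
    rw [orderOf_injective (MonoidHom.mulSingle (fun j => Multiplicative (ZMod (n j))) i) (fun a b hab => Pi.mulSingle_injective i hab), orderOf_ofAdd_eq_addOrderOf, ZMod.addOrderOf_one]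
  have hpow : ∀ i, ∃ m, n i = 2 ^ (m + 1) := fun i => by
    obtain ⟨m, hm⟩ := IsPGroup.iff_orderOf.mp hA (e.symm (g i))
    rw [MulEquiv.orderOf_eq, hgo] at hm
    rcases m with _ | m
    · have := hn1 i; rw [hm] at this; norm_num at this
    · exact ⟨m, hm⟩
  choose m hm using hpow
  have hinv : ∀ i, g i ^ 2 ^ m i ≠ 1 ∧ (g i ^ 2 ^ m i) ^ 2 = 1 := fun i => by
    refine ⟨fun h1 => ?_, ?_⟩
    · have := Nat.le_of_dvd (Nat.two_pow_pos _) (orderOf_dvd_of_pow_eq_one h1)
      rw [hgo, hm, pow_succ] at this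
      have := Nat.two_pow_pos (m i)
      omega
    · rw [← pow_mul, ← pow_succ, ← hm, ← hgo, pow_orderOf_eq_one]
  have hle : ∀ i j, m i ≤ m j := by
    intro i j
    by_contra hlt
    push Not at hlt
    obtain ⟨a, ha⟩ := h (e.symm (g i ^ 2 ^ m i)) (e.symm (g j ^ 2 ^ m j))
      (fun h1 => (hinv i).1 (e.symm.injective (h1.trans (map_one _).symm)))
      (by rw [← map_pow, (hinv i).2, map_one])
      (fun h1 => (hinv j).1 (e.symm.injective (h1.trans (map_one _).symm)))
      (by rw [← map_pow, (hinv j).2, map_one])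
    have h2 := congrArg e ha
    rw [map_pow, map_pow, map_pow, e.apply_symm_apply] at h2
    have h3 : (e (a (e.symm (g i)))) j ^ 2 ^ m i = 1 := by
      refine orderOf_dvd_iff_pow_eq_one.mp ((_root_.orderOf_dvd_natCard _).trans ?_)
      rw [Nat.card_congr (Multiplicative.toAdd), Nat.card_zmod, hm]
      exact pow_dvd_pow 2 hlt
    refine (hinv j).1 (funext fun k => ?_)
    rcases eq_or_ne k j with rfl | hk
    · rw [← h2, Pi.pow_apply, h3]; rfl
    · rw [Pi.pow_apply, show g j k = 1 from Pi.mulSingle_eq_of_ne hk _, one_pow]; rfl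
  rcases isEmpty_or_nonempty ι with hem | ⟨⟨i₀⟩⟩
  · exact ⟨0, 0, ⟨e.trans
      { toFun := fun _ k => k.elim0
        invFun := fun _ i => (hem.false i).elim
        left_inv := fun f => funext fun i => (hem.false i).elim
        right_inv := fun f => funext fun k => k.elim0
        map_mul' := fun f f' => funext fun k => k.elim0 }⟩⟩
  have hn : n = fun _ => 2 ^ (m i₀ + 1) := funext fun i => by
    rw [hm, le_antisymm (hle i i₀) (hle i₀ i)]
  subst hn
  refine ⟨m i₀ + 1, Fintype.card ι, ⟨e.trans ?_⟩⟩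
  exact
    { toFun := fun f k => f ((Fintype.equivFin ι).symm k)
      invFun := fun f i => f (Fintype.equivFin ι i)
      left_inv := fun f => funext fun i => congrArg f (Equiv.symm_apply_apply _ i)
      right_inv := fun f => funext fun k => congrArg f (Equiv.apply_symm_apply _ k)
      map_mul' := fun _ _ => rfl }

/-- Let G be a finite solvable group of even order whose Sylow 2-subgroups contain more than one involution, and suppose all involutions of G are conjugate. Then G has 2-length at most 1, and a Sylow 2-subgroup S of G is either homocyclic (a direct product of cyclic groups of one common order) or a non-abelian 2-group with more than one involution admitting a solvable group of automorphisms transitive on its involutions. -/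
theorem result {G : Type*} [Group G] [Finite G] (hG : Group.IsSolvable G) (heven : Even (Nat.card G)) (S : Sylow 2 G) (htwo : ∃ x y : G, x ∈ (S : Subgroup G) ∧ y ∈ (S : Subgroup G) ∧ x ≠ y ∧ x ≠ 1 ∧ x ^ 2 = 1 ∧ y ≠ 1 ∧ y ^ 2 = 1) (hconj : ∀ x y : G, x ≠ 1 → x ^ 2 = 1 → y ≠ 1 → y ^ 2 = 1 → IsConj x y) : Cfsg.PLengthLE 2 1 G ∧ ((∃ m r : ℕ, Nonempty (↥(S : Subgroup G) ≃* (Fin r → Multiplicative (ZMod (2 ^ m))))) ∨ (¬ IsMulCommutative (S : Subgroup G) ∧ ∃ Y : Subgroup (MulAut ↥(S : Subgroup G)), Group.IsSolvable Y ∧ ∀ x y : ↥(S : Subgroup G), x ≠ 1 → x ^ 2 = 1 → y ≠ 1 → y ^ 2 = 1 → ∃ a ∈ Y, a x = y)) := by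
  haveI : Fact (Nat.Prime 2) := ⟨Nat.prime_two⟩
  haveI := hG
  obtain ⟨x, y, hxS, hyS, hne, hx, hx2, hy, hy2⟩ := htwo
  have hSp : IsPGroup 2 (S : Subgroup G) := S.isPGroup'
  haveI : Nontrivial (S : Subgroup G) := ⟨⟨⟨x, hxS⟩, 1, fun h => hx (congrArg Subtype.val h)⟩⟩
  -- two commuting involutions
  have htwo' : ∃ u v : G, u * v = v * u ∧ u ≠ v ∧ u ≠ 1 ∧ u ^ 2 = 1 ∧ v ≠ 1 ∧ v ^ 2 = 1 := by
    haveI := hSp.center_nontrivial
    obtain ⟨k, hk⟩ := (hSp.to_subgroup (center (S : Subgroup G))).exists_card_eq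
    have h1 : 1 < Nat.card (center (S : Subgroup G)) := Finite.one_lt_card
    obtain ⟨⟨⟨z, hzS⟩, hzc⟩, hzo⟩ := exists_prime_orderOf_dvd_card' 2
      (show 2 ∣ Nat.card (center (S : Subgroup G)) by
        rw [hk] at h1 ⊢; exact dvd_pow_self 2 (by rintro rfl; norm_num at h1))
    rw [← Subgroup.orderOf_coe, ← Subgroup.orderOf_coe] at hzo
    change orderOf z = 2 at hzo
    have hz2 : z ^ 2 = 1 := orderOf_dvd_iff_pow_eq_one.mp hzo.dvd
    have hz1 : z ≠ 1 := fun h => by rw [h, orderOf_one] at hzo; norm_num at hzo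
    have hc : ∀ w ∈ (S : Subgroup G), w * z = z * w := fun w hw =>
      congrArg Subtype.val (mem_center_iff.mp hzc ⟨w, hw⟩)
    rcases eq_or_ne x z with rfl | hxz
    · exact ⟨y, x, hc y hyS, hne.symm, hy, hy2, hz1, hz2⟩
    · exact ⟨x, z, hc x hxS, hxz, hx, hx2, hz1, hz2⟩
  have hl := OneInvClass.pLength ⟨hG, hconj, htwo'⟩
  refine ⟨hl, ?_⟩
  set Nm := normalizer ((S : Subgroup G) : Set G)
  let act : Nm →* MulAut (S : Subgroup G) := (S : Subgroup G).normalizerMonoidHom
  have htrans : ∀ u v : (S : Subgroup G), u ≠ 1 → u ^ 2 = 1 → v ≠ 1 → v ^ 2 = 1 →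
      ∃ a ∈ act.range, a u = v := by
    intro u v hu hu2 hv hv2
    obtain ⟨g, hg⟩ := isConj_iff.mp (hconj u v (fun h => hu (Subtype.ext h))
      (congrArg Subtype.val hu2) (fun h => hv (Subtype.ext h)) (congrArg Subtype.val hv2))
    obtain ⟨n, hn, c, hc, hnc⟩ := (OddPre.PLengthOne.fusion hl S).2.1 {(u : G)} g
      (fun w hw => by rw [Set.mem_singleton_iff] at hw; rw [hw]; exact u.2)
      (by rintro _ ⟨w, hw, rfl⟩
          rw [Set.mem_singleton_iff] at hw
          subst hw
          simp only [hg]; exact v.2)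
    refine ⟨act ⟨n, hn⟩, ⟨_, rfl⟩, Subtype.ext ?_⟩
    show n * (u : G) * n⁻¹ = v
    rw [← hg, ← hnc]
    have hcu := mem_centralizer_iff.mp hc (u : G) rfl
    calc n * (u : G) * n⁻¹ = n * ((u : G) * c) * c⁻¹ * n⁻¹ := by group
      _ = n * (c * u) * c⁻¹ * n⁻¹ := by rw [hcu]
      _ = n * c * u * (n * c)⁻¹ := by group
  by_cases hab : IsMulCommutative (S : Subgroup G)
  · letI : CommGroup (S : Subgroup G) :=
      { (inferInstance : Group (S : Subgroup G)) with mul_comm := isMulCommutative_iff.mp hab }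
    refine Or.inl (homocyclic hSp fun u v hu hu2 hv hv2 => ?_)
    obtain ⟨a, -, ha⟩ := htrans u v hu hu2 hv hv2
    exact ⟨a, ha⟩
  · refine Or.inr ⟨hab, act.range, ?_, htrans⟩
    exact Group.isSolvable_of_surjective act.rangeRestrict_surjective

end Cfsg.Agent.S3797
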