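import Cfsg.Statements.S3798
import Cfsg.Agent.Lib.PLength
import Cfsg.Agent.Lib.Element
import Cfsg.Agent.PSolv.Cores
import Cfsg.Agent.PSolv.HallHigman
import Cfsg.Agent.Coprime.Conj
import Cfsg.Agent.Lib.SchurZassenhaus
import Cfsg.Agent.LocEven.CoprimeOmega
-- import your own Cfsg.Agent.* helpers here

set_option autoImplicit false
open Cfsg

open scoped commutatorElement Pointwise

namespace Cfsg.Agent.S3798

open Cfsg Cfsg.Agent.PSolv

variable {G : Type*} [Group G] [Finite G] {p : ℕ} [Fact p.Prime]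

/-- A characteristic subgroup with an element of order `p` contains all of them. -/
theorem mem_of_characteristic
    (htrans : ∀ U V : Subgroup G, Nat.card U = p → Nat.card V = p → ∃ a : MulAut G, U.map a.toMonoidHom = V)
    (C : Subgroup G) [hC : C.Characteristic] {z u : G} (hz : z ∈ C) (hzo : orderOf z = p) (hu : orderOf u = p) :
    u ∈ C := by
  obtain ⟨a, ha⟩ := htrans (Subgroup.zpowers z) (Subgroup.zpowers u) (by rw [Nat.card_zpowers, hzo]) (by rw [Nat.card_zpowers, hu])
  have hle : (Subgroup.zpowers z).map a.toMonoidHom ≤ C :=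
    (Subgroup.map_mono (Subgroup.zpowers_le.mpr hz)).trans (le_of_eq (Subgroup.characteristic_iff_map_eq.mp hC a))
  exact hle (ha ▸ Subgroup.mem_zpowers u)

theorem exists_orderOf_eq {H : Subgroup G} (hH : IsPGroup p H) (hne : H ≠ ⊥) : ∃ z ∈ H, orderOf z = p := by
  obtain ⟨n, hn⟩ := IsPGroup.iff_card.mp hH
  have hd : p ∣ Nat.card H := by
    rw [hn]
    refine dvd_pow_self p fun h0 => hne (Subgroup.eq_bot_of_card_eq _ ?_)
    rw [hn, h0, pow_zero]
  obtain ⟨z, hz⟩ := exists_prime_orderOf_dvd_card' p hd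
  exact ⟨z, z.2, by rw [Subgroup.orderOf_coe]; exact hz⟩

/-- The quotient by the `p`-core has order prime to `p`, when `O_{p'}(G) = 1`. -/
theorem coprime_quotient (hp : p ≠ 2) (hG : IsPSolvable p G) (hO : pPrimeCore p G = ⊥)
    (htrans : ∀ U V : Subgroup G, Nat.card U = p → Nat.card V = p → ∃ a : MulAut G, U.map a.toMonoidHom = V) :
    (Nat.card (G ⧸ pCore p G)).Coprime p := by
  have hp' : p.Prime := Fact.out
  by_contra hcop
  have hdvd : p ∣ Nat.card (G ⧸ pCore p G) := by
    by_contra h; exact hcop ((hp'.coprime_iff_not_dvd.mpr h).symm)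
  set P := pCore p G with hP
  have hPp : IsPGroup p P := isPGroup_pCore p G
  haveI hPc : P.Characteristic := pCore_characteristic p G
  have : Nontrivial (G ⧸ P) := Finite.one_lt_card_iff_nontrivial.mp (lt_of_lt_of_le hp'.one_lt (Nat.le_of_dvd Nat.card_pos hdvd))
  have : Nontrivial G := (QuotientGroup.mk'_surjective P).nontrivial
  have hPne : P ≠ ⊥ := (pCore_ne_bot_or_pPrimeCore_ne_bot hG).resolve_right (not_not.mpr hO)
  -- all elements of order `p` lie in `Z(P)`
  obtain ⟨z₀, hz₀, hz₀o⟩ : ∃ z ∈ P ⊓ Subgroup.centralizer (P : Set G), orderOf z = p := by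
    refine exists_orderOf_eq (hPp.to_le inf_le_left) ?_
    have : Nontrivial P := (Subgroup.nontrivial_iff_ne_bot P).mpr hPne
    have hc := hPp.center_nontrivial
    obtain ⟨c, hc, hc1⟩ := (Subgroup.nontrivial_iff_exists_ne_one (Subgroup.center P)).mp hc
    intro he
    have hcm : (c : G) ∈ P ⊓ Subgroup.centralizer (P : Set G) :=
      ⟨c.2, Subgroup.mem_centralizer_iff.mpr fun y hy => congrArg Subtype.val (Subgroup.mem_center_iff.mp hc ⟨y, hy⟩)⟩
    rw [he, Subgroup.mem_bot] at hcm
    exact hc1 (Subtype.ext hcm)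
  have hcent : ∀ u : G, orderOf u = p → u ∈ P ∧ u ∈ Subgroup.centralizer (P : Set G) := fun u hu =>
    Subgroup.mem_inf.mp (mem_of_characteristic htrans (P ⊓ Subgroup.centralizer (P : Set G)) hz₀ hz₀o hu)
  -- the subgroup `M` over `P`
  set K := pPrimeCore p (G ⧸ P) with hK
  haveI hKc : K.Characteristic := pPrimeCore_characteristic p (G ⧸ P)
  have hKne : K ≠ ⊥ := (pCore_ne_bot_or_pPrimeCore_ne_bot (isPSolvable_quotient hG P)).resolve_left
    (not_not.mpr (pCore_quotient_eq_bot p G))
  set M := K.comap (QuotientGroup.mk' P) with hM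
  have hPM : P ≤ M := QuotientGroup.le_comap_mk' P K
  haveI : M.Normal := (inferInstance : K.Normal).comap _
  haveI hMc : M.Characteristic := by
    refine Subgroup.characteristic_iff_le_comap.mpr fun a x hx => ?_
    let b : MulAut (G ⧸ P) := QuotientGroup.congr P P a (Subgroup.characteristic_iff_map_eq.mp hPc a)
    have := Subgroup.characteristic_iff_le_comap.mp hKc b hx
    exact this
  obtain ⟨n, hn⟩ := IsPGroup.iff_card.mp hPp
  have hidx : (P.subgroupOf M).index = Nat.card K := by
    show P.relIndex M = _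
    rw [← card_map_mk_eq_relIndex, Subgroup.map_comap_eq_self_of_surjective (QuotientGroup.mk'_surjective P)]
  have hcopK : (Nat.card K).Coprime p := coprime_card_pPrimeCore p _
  have hcop' : (Nat.card (P.subgroupOf M)).Coprime (P.subgroupOf M).index := by
    rw [hidx, Nat.card_congr (Subgroup.subgroupOfEquivOfLe hPM).toEquiv, hn]
    exact (hcopK.pow_right n).symm
  obtain ⟨H, hH⟩ := Subgroup.exists_right_complement'_of_coprime hcop'
  set Q := H.map M.subtype with hQ
  have hQM : Q ≤ M := Subgroup.map_subtype_le H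
  have hQK : Nat.card Q = Nat.card K := by
    rw [Subgroup.card_map_of_injective M.subtype_injective, ← hidx, hH.symm.index_eq_card]
  have hQP : Q ⊔ P = M := by
    refine le_antisymm (sup_le hQM hPM) fun x hx => ?_
    obtain ⟨a, ha, b, hb, hab⟩ : ∃ a ∈ P.subgroupOf M, ∃ b ∈ H, a * b = (⟨x, hx⟩ : M) := by
      obtain ⟨⟨a, b⟩, hab⟩ := hH.2 ⟨x, hx⟩
      exact ⟨a, a.2, b, b.2, hab⟩
    rw [show x = (a : G) * b from (congrArg Subtype.val hab).symm]
    exact mul_mem (Subgroup.mem_sup_right ha) (Subgroup.mem_sup_left ⟨b, hb, rfl⟩)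
  have hQcop : (Nat.card Q).Coprime (Nat.card P) := by rw [hQK, hn]; exact hcopK.pow_right n
  have hQne : Q ≠ ⊥ := by
    intro h
    rw [h, Subgroup.card_bot] at hQK
    exact hKne (Subgroup.eq_bot_of_card_eq _ hQK.symm)
  have hPQ : P ⊓ Q = ⊥ := inf_eq_bot_of_coprime_card hQcop.symm
  by_cases hC : P ⊓ Subgroup.centralizer (Q : Set G) = ⊥
  · -- the normalizer of `Q` has an element of order `p`
    have hcover : ∀ g : G, ∃ x ∈ Subgroup.normalizer (Q : Set G), (x : G ⧸ P) = g := by
      intro g
      have hB : (MulAut.conj g • Q) ⊔ P = Q ⊔ P := by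
        rw [hQP]
        have h1 : MulAut.conj g • (Q ⊔ P) = MulAut.conj g • M := by rw [hQP]
        rw [Subgroup.smul_sup, Cfsg.Agent.SZ.conj_smul_of_normal g P, Cfsg.Agent.SZ.conj_smul_of_normal g M] at h1
        exact h1
      have : Group.IsNilpotent P := hPp.isNilpotent
      obtain ⟨k, hk, hkQ⟩ := Coprime.complement_conj (K := P) (A := Q) (B := MulAut.conj g • Q)
        (fun q _ => by rw [Subgroup.normalizer_eq_top]; trivial) hQcop (by rw [SZ.card_conj_smul]; exact hQcop) hB
        (Or.inr inferInstance)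
      refine ⟨k⁻¹ * g, ?_, ?_⟩
      · rw [Subgroup.mem_normalizer_iff_map_conj_eq]
        show MulAut.conj (k⁻¹ * g) • Q = Q
        rw [← SZ.conj_smul_smul, hkQ,
          SZ.conj_smul_smul, inv_mul_cancel, map_one, one_smul]
      · rw [QuotientGroup.mk_mul, QuotientGroup.mk_inv, (QuotientGroup.eq_one_iff k).mpr hk, inv_one, one_mul]
    have hN : p ∣ Nat.card (Subgroup.normalizer (Q : Set G)) := by
      refine hdvd.trans (Subgroup.card_dvd_of_surjective ((QuotientGroup.mk' P).comp (Subgroup.normalizer (Q : Set G)).subtype) ?_)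
      intro y
      induction y using QuotientGroup.induction_on with
      | H g => obtain ⟨x, hx, hxg⟩ := hcover g; exact ⟨⟨x, hx⟩, hxg⟩
    obtain ⟨z, hz⟩ := exists_prime_orderOf_dvd_card' p hN
    rw [← Subgroup.orderOf_coe] at hz
    have hzP := (hcent z hz).1
    have hzC : (z : G) ∈ P ⊓ Subgroup.centralizer (Q : Set G) := by
      refine ⟨hzP, Subgroup.mem_centralizer_iff.mpr fun q hq => ?_⟩
      have h1 : ⁅(z : G), q⁆ ∈ P ⊓ Q := by
        refine ⟨?_, ?_⟩
        · rw [commutatorElement_def, mul_assoc, mul_assoc, ← mul_assoc q]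
          exact mul_mem hzP ((inferInstance : P.Normal).conj_mem _ (inv_mem hzP) q)
        · rw [commutatorElement_def]
          exact mul_mem ((Subgroup.mem_normalizer_iff.mp z.2 q).mp hq) (Q.inv_mem hq)
      rw [hPQ, Subgroup.mem_bot, commutatorElement_eq_one_iff_mul_comm] at h1
      exact h1.symm
    rw [hC, Subgroup.mem_bot] at hzC
    rw [hzC, orderOf_one] at hz
    exact hp'.one_lt.ne hz
  · -- some element of order `p` is central in `M`
    obtain ⟨z, hz, hzo⟩ := exists_orderOf_eq (hPp.to_le inf_le_left) hC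
    have hzM : z ∈ M ⊓ Subgroup.centralizer (M : Set G) := by
      refine ⟨hPM hz.1, ?_⟩
      show z ∈ Subgroup.centralizer (M : Set G)
      rw [← hQP, Subgroup.mem_centralizer_iff]
      intro m hm
      have hle : Q ⊔ P ≤ Subgroup.centralizer {z} := sup_le
        (fun q hq => Subgroup.mem_centralizer_singleton_iff.mpr (Subgroup.mem_centralizer_iff.mp hz.2 q hq))
        (fun x hx => Subgroup.mem_centralizer_singleton_iff.mpr (Subgroup.mem_centralizer_iff.mp (hcent z hzo).2 x hx))
      exact Subgroup.mem_centralizer_singleton_iff.mp (hle hm)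
    have hall : ∀ u : G, orderOf u = p → u ∈ Subgroup.centralizer (M : Set G) := fun u hu =>
      (Subgroup.mem_inf.mp (mem_of_characteristic htrans (M ⊓ Subgroup.centralizer (M : Set G)) hzM hzo hu)).2
    apply hQne
    rw [Subgroup.eq_bot_iff_forall]
    intro q hq
    have hqc : (orderOf q).Coprime p :=
      Nat.Coprime.coprime_dvd_left (Subgroup.orderOf_dvd_natCard Q hq) (hQK ▸ hcopK)
    have hqC : q ∈ Subgroup.centralizer (P : Set G) := by
      refine LocEven.centralizes_of_fix_small hqc P hPp (by rw [Subgroup.normalizer_eq_top]; trivial) fun u _ hup => ?_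
      rw [LocEven.smallExp, if_neg hp] at hup
      by_cases hu1 : u = 1
      · simp [hu1]
      exact Subgroup.mem_centralizer_iff.mp (hall u (orderOf_eq_prime hup hu1)) q (hQM hq)
    have : q ∈ P ⊓ Q := ⟨centralizer_pCore_le hG hO hqC, hq⟩
    rwa [hPQ, Subgroup.mem_bot] at this

end Cfsg.Agent.S3798

namespace Cfsg.Agent.S3798

/-- The Gaschütz–Yen Theorem: let G be a finite p-soluble group, p an odd prime dividing its order, such that the automorphism group of G permutes the subgroups of G of order p transitively. Then G has p-length at most 1. -/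
theorem result {G : Type*} [Group G] [Finite G] {p : ℕ} [Fact p.Prime] (hp : p ≠ 2) (hdvd : p ∣ Nat.card G) (hG : Cfsg.IsPSolvable p G) (htrans : ∀ U V : Subgroup G, Nat.card U = p → Nat.card V = p → ∃ a : MulAut G, U.map a.toMonoidHom = V) : Cfsg.PLengthLE p 1 G := by
  have hp' : p.Prime := Fact.out
  set N := Cfsg.pPrimeCore p G with hN
  haveI hNc : N.Characteristic := PSolv.pPrimeCore_characteristic p G
  have hcopN : (Nat.card N).Coprime p := PSolv.coprime_card_pPrimeCore p G
  have htrans' : ∀ U V : Subgroup (G ⧸ N), Nat.card U = p → Nat.card V = p →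
      ∃ a : MulAut (G ⧸ N), U.map a.toMonoidHom = V := by
    intro U V hU hV
    have lift : ∀ W : Subgroup (G ⧸ N), Nat.card W = p →
        ∃ W' : Subgroup G, Nat.card W' = p ∧ W'.map (QuotientGroup.mk' N) = W := by
      intro W hW
      obtain ⟨w, hw⟩ := exists_prime_orderOf_dvd_card' (G := W) p (dvd_of_eq hW.symm)
      rw [← Subgroup.orderOf_coe] at hw
      obtain ⟨x, hx, j, hj⟩ := Element.exists_pElement_preimage hp' (QuotientGroup.mk' N)
        (QuotientGroup.mk'_surjective N) (k := 1) (y := (w : G ⧸ N)) (by rw [hw, pow_one])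
      have hxp : x ^ p = 1 := by
        have h1 : x ^ p ∈ N := (QuotientGroup.eq_one_iff _).mp (by
          rw [← QuotientGroup.mk'_apply, map_pow, hx]; exact orderOf_dvd_iff_pow_eq_one.mp hw.dvd)
        have h2 : orderOf (x ^ p) ∣ p ^ j := hj ▸ orderOf_pow_dvd p
        have h3 := (Nat.Coprime.coprime_dvd_left (Subgroup.orderOf_dvd_natCard N h1) hcopN).pow_right j
        exact orderOf_eq_one_iff.mp (Nat.eq_one_of_dvd_coprimes h3 dvd_rfl h2)
      have hx1 : x ≠ 1 := by
        intro h; rw [h, map_one] at hx; rw [← hx, orderOf_one] at hw; exact hp'.one_lt.ne hw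
      refine ⟨Subgroup.zpowers x, by rw [Nat.card_zpowers, orderOf_eq_prime hxp hx1], ?_⟩
      rw [MonoidHom.map_zpowers, hx]
      exact Subgroup.eq_of_le_of_card_ge (Subgroup.zpowers_le.mpr w.2) (by rw [Nat.card_zpowers, hw, hW])
    obtain ⟨U', hU', rfl⟩ := lift U hU
    obtain ⟨V', hV', rfl⟩ := lift V hV
    obtain ⟨a, ha⟩ := htrans U' V' hU' hV'
    refine ⟨QuotientGroup.congr N N a (Subgroup.characteristic_iff_map_eq.mp hNc a), ?_⟩
    rw [← ha, Subgroup.map_map, Subgroup.map_map]
    rfl
  have hG' := PSolv.isPSolvable_quotient hG N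
  have h0 := coprime_quotient hp hG' (PSolv.pPrimeCore_quotient_eq_bot p G) htrans'
  have h1 : Cfsg.PLengthLE p (1 + 0) (G ⧸ N) := PLength.pLengthLE_add (Cfsg.pCore p (G ⧸ N))
    (PLength.pLengthLE_of_isPGroup (PSolv.isPGroup_pCore p _)) (PLength.pLengthLE_zero_of_coprime h0)
  exact PLength.pLengthLE_add N (a := 0) (PLength.pLengthLE_zero_of_coprime hcopN) h1

end Cfsg.Agent.S3798
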