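import Cfsg.Statements.S3799
import Mathlib
import Cfsg.Agent.PGroup.Extraspecial

set_option autoImplicit false
open Cfsg
open scoped commutatorElement

namespace Cfsg.Agent.S3799

/-- Triples representing upper unitriangular Heisenberg matrices. -/
@[ext] structure Heis (p n : ℕ) where
  /-- first row -/
  x : Fin n → ZMod p
  /-- last column -/
  y : Fin n → ZMod p
  /-- corner -/
  z : ZMod p

namespace Heis

variable {p n : ℕ}

instance instMulHeis : Mul (Heis p n) :=
  ⟨fun a b => ⟨a.x + b.x, a.y + b.y, a.z + b.z + a.x ⬝ᵥ b.y⟩⟩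
instance instOneHeis : One (Heis p n) := ⟨⟨0, 0, 0⟩⟩
instance instInvHeis : Inv (Heis p n) :=
  ⟨fun a => ⟨-a.x, -a.y, -a.z + a.x ⬝ᵥ a.y⟩⟩

theorem mul_def (a b : Heis p n) :
    a * b = ⟨a.x + b.x, a.y + b.y, a.z + b.z + a.x ⬝ᵥ b.y⟩ := rfl
theorem one_def : (1 : Heis p n) = ⟨0, 0, 0⟩ := rfl
theorem inv_def (a : Heis p n) : a⁻¹ = ⟨-a.x, -a.y, -a.z + a.x ⬝ᵥ a.y⟩ := rfl

instance instGroupHeis : Group (Heis p n) where
  mul_assoc a b c := by
    simp only [mul_def]
    refine Heis.ext (add_assoc _ _ _) (add_assoc _ _ _) ?_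
    simp only [dotProduct_add, add_dotProduct]
    abel
  one_mul a := by ext <;> simp [mul_def, one_def]
  mul_one a := by ext <;> simp [mul_def, one_def]
  inv_mul_cancel a := by ext <;> simp [mul_def, one_def, inv_def]

theorem mem_center_iff (a : Heis p n) :
    a ∈ Subgroup.center (Heis p n) ↔ a.x = 0 ∧ a.y = 0 := by
  rw [Subgroup.mem_center_iff]
  constructor
  · intro h
    refine ⟨funext fun k => ?_, funext fun k => ?_⟩
    · have h1 := congrArg Heis.z (h ⟨0, Pi.single k 1, 0⟩)
      simpa [mul_def, dotProduct_single] using h1.symm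
    · have h1 := congrArg Heis.z (h ⟨Pi.single k 1, 0, 0⟩)
      simpa [mul_def, single_dotProduct] using h1
  · rintro ⟨hx, hy⟩ b
    simp only [mul_def, hx, hy]
    refine Heis.ext (add_comm _ _) (add_comm _ _) ?_
    simp [add_comm]

theorem card_center [NeZero p] : Nat.card (Subgroup.center (Heis p n)) = p := by
  let e : Subgroup.center (Heis p n) ≃ ZMod p :=
    { toFun := fun a => (a : Heis p n).z
      invFun := fun z => ⟨⟨0, 0, z⟩, (mem_center_iff _).mpr ⟨rfl, rfl⟩⟩
      left_inv := fun a => Subtype.ext (by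
        obtain ⟨hx, hy⟩ := (mem_center_iff _).mp a.2
        exact Heis.ext hx.symm hy.symm rfl)
      right_inv := fun z => rfl }
  rw [Nat.card_congr e, Nat.card_zmod]

theorem card_heis [NeZero p] : Nat.card (Heis p n) = p ^ (1 + 2 * n) := by
  rw [Nat.card_congr (show Heis p n ≃ (Fin n → ZMod p) × (Fin n → ZMod p) × ZMod p from
      { toFun := fun a => (a.x, a.y, a.z), invFun := fun t => ⟨t.1, t.2.1, t.2.2⟩,
        left_inv := fun _ => rfl, right_inv := fun _ => rfl }),
    Nat.card_prod, Nat.card_prod, Nat.card_fun, Nat.card_zmod, Nat.card_eq_fintype_card,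
    Fintype.card_fin, ← pow_succ, ← pow_add]
  congr 1
  omega

theorem pow_eq (a : Heis p n) (m : ℕ) : a ^ m =
    ⟨(m : ZMod p) • a.x, (m : ZMod p) • a.y,
      (m : ZMod p) * a.z + (m.choose 2 : ZMod p) * (a.x ⬝ᵥ a.y)⟩ := by
  induction m with
  | zero => rw [pow_zero, one_def]; ext <;> simp
  | succ m ih =>
    rw [pow_succ, ih, mul_def]
    refine Heis.ext ?_ ?_ ?_
    · simp [add_smul]
    · simp [add_smul]
    · simp only [Nat.cast_add, Nat.cast_one, smul_dotProduct, smul_eq_mul,
        Nat.choose_succ_succ', Nat.choose_one_right]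
      ring

theorem pow_eq_one [hp : Fact p.Prime] (h2 : p ≠ 2) (a : Heis p n) : a ^ p = 1 := by
  rw [pow_eq, one_def]
  have hc : ((p.choose 2 : ℕ) : ZMod p) = 0 :=
    (CharP.cast_eq_zero_iff (ZMod p) p _).mpr
      (hp.out.dvd_choose_self (by omega) (by have := hp.out.two_le; omega))
  ext <;> simp [hc]

theorem commutator_le : commutator (Heis p n) ≤ Subgroup.center (Heis p n) := by
  rw [commutator_def, Subgroup.commutator_le]
  intro a _ b _
  rw [mem_center_iff, commutatorElement_def]
  constructor <;> simp [mul_def, inv_def]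

/-- The matrix of a triple. -/
def mat (a : Heis p n) : Matrix (Unit ⊕ (Fin n ⊕ Unit)) (Unit ⊕ (Fin n ⊕ Unit)) (ZMod p) :=
  fun i j => match i, j with
    | .inl _, .inl _ => 1
    | .inl _, .inr (.inl k) => a.x k
    | .inl _, .inr (.inr _) => a.z
    | .inr (.inl k), .inr (.inl l) => if k = l then 1 else 0
    | .inr (.inl k), .inr (.inr _) => a.y k
    | .inr (.inr _), .inr (.inr _) => 1
    | _, _ => 0

/-- The matrix representation. -/
def matHom : Heis p n →* Matrix (Unit ⊕ (Fin n ⊕ Unit)) (Unit ⊕ (Fin n ⊕ Unit)) (ZMod p) where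
  toFun := mat
  map_one' := by
    ext (i | i | i) (j | j | j) <;> simp [mat, one_def, Matrix.one_apply]
  map_mul' a b := by
    ext (i | i | i) (j | j | j) <;>
      simp [mat, mul_def, Matrix.mul_apply, Fintype.sum_sum_type, dotProduct, Finset.sum_ite_eq']
    all_goals ring

theorem matHom_injective : Function.Injective (matHom (p := p) (n := n)) := by
  intro a b h
  refine Heis.ext (funext fun k => ?_) (funext fun k => ?_) ?_
  · exact congrFun (congrFun h (.inl ())) (.inr (.inl k))
  · exact congrFun (congrFun h (.inr (.inl k))) (.inr (.inr ()))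
  · exact congrFun (congrFun h (.inl ())) (.inr (.inr ()))

end Heis

/-- For every odd prime p and every n ≥ 1 there is an extraspecial p-group of order p^(1+2n) and exponent p; concretely, the general linear group of degree n + 2 over the field with p elements contains such a subgroup. -/
theorem result (p : ℕ) [Fact p.Prime] (hp : p ≠ 2) (n : ℕ) (hn : 1 ≤ n) : ∃ E : Subgroup (Matrix.GeneralLinearGroup (Fin (n + 2)) (ZMod p)), Cfsg.IsExtraspecial p ↥E ∧ Nat.card E = p ^ (1 + 2 * n) ∧ ∀ x ∈ E, x ^ p = 1 := by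
  have hcard : Fintype.card (Unit ⊕ (Fin n ⊕ Unit)) = Fintype.card (Fin (n + 2)) := by
    simp only [Fintype.card_sum, Fintype.card_unit, Fintype.card_fin]; omega
  let e := Fintype.equivOfCardEq hcard
  let f : Heis p n →* Matrix.GeneralLinearGroup (Fin (n + 2)) (ZMod p) :=
    MonoidHom.toHomUnits (((Matrix.reindexAlgEquiv (ZMod p) (ZMod p) e).toMulEquiv.toMonoidHom).comp
      Heis.matHom)
  have hf : Function.Injective f := fun a b h =>
    Heis.matHom_injective ((Matrix.reindexAlgEquiv (ZMod p) (ZMod p) e).injective (congrArg Units.val h))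
  let g := MonoidHom.ofInjective hf
  have hE : Nat.card f.range = p ^ (1 + 2 * n) := by
    rw [← Nat.card_congr g.toEquiv, Heis.card_heis]
  have hpow : ∀ x : f.range, x ^ p = 1 := fun x => by
    obtain ⟨a, rfl⟩ := g.surjective x
    rw [← map_pow, Heis.pow_eq_one hp, map_one]
  refine ⟨f.range, ?_, hE, fun x hx => congrArg Subtype.val (hpow ⟨x, hx⟩)⟩
  refine Cfsg.Agent.PGroup.isExtraspecial_of_center (IsPGroup.of_card hE) ?_ ?_ ?_
    (fun x => by rw [hpow]; exact one_mem _)
  · rw [← Nat.card_congr (Subgroup.centerCongr g).toEquiv, Heis.card_center]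
  · intro h
    have hc : (⟨Pi.single (⟨0, hn⟩ : Fin n) (1 : ZMod p), 0, 0⟩ : Heis p n) ∈ Subgroup.center (Heis p n) :=
      Subgroup.mem_center_iff.mpr fun b => g.injective (by
        rw [map_mul, map_mul]; exact h.is_comm.comm _ _)
    have := congrFun ((Heis.mem_center_iff _).mp hc).1 (⟨0, hn⟩ : Fin n)
    simp at this
  · rw [commutator_def, Subgroup.commutator_le]
    intro x _ y _
    obtain ⟨a, rfl⟩ := g.surjective x
    obtain ⟨b, rfl⟩ := g.surjective y
    have hab : ⁅a, b⁆ ∈ Subgroup.center (Heis p n) :=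
      Heis.commutator_le (Subgroup.commutator_mem_commutator (Subgroup.mem_top a) (Subgroup.mem_top b))
    refine Subgroup.mem_center_iff.mpr fun z => ?_
    obtain ⟨c, rfl⟩ := g.surjective z
    rw [show ⁅g a, g b⁆ = g ⁅a, b⁆ from (map_commutatorElement g.toMonoidHom a b).symm,
      ← map_mul, ← map_mul, Subgroup.mem_center_iff.mp hab c]

end Cfsg.Agent.S3799
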