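-- statement Cfsg.CfsgFrozen.S3950 (Cfsg/Statements/S3950.lean; the theorem Cfsg.fg6_abelian_trivial_multiplier_iff_cyclic);
import Cfsg.Statements.S3950
import Cfsg.Agent.SchurMul.BilExt
import Cfsg.Agent.CentralExt.Bounds

set_option autoImplicit false
open Cfsg

namespace Cfsg.Agent.S3950

/-- A finite abelian group has trivial Schur multiplier if and only if it is cyclic. -/
theorem result {G : Type*} [CommGroup G] [Finite G] : Cfsg.HasCyclicSchurMultiplier G 1 ↔ IsCyclic G := by
  refine ⟨fun h => ?_, fun h => CentralExt.hasCyclicSchurMultiplier_one_of_isCyclic⟩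
  rcases SchurMul.isCyclic_or_dual_pair G with hc | ⟨p, φ, ψ, x, y, hp, h1, h2, h3⟩
  · exact hc
  · haveI : NeZero p := ⟨hp.ne_zero⟩
    obtain ⟨W, iW, fW, σ, hσ, ⟨e⟩⟩ :=
      SchurMul.exists_stem_of_dual_pair φ ψ x y (Commute.all x y) h1 h2 h3
    have hbot := CentralExt.ker_eq_bot_of_trivial h hσ
    have := Nat.card_congr e.toEquiv
    rw [hbot, Subgroup.card_bot, Nat.card_congr Multiplicative.toAdd, Nat.card_zmod] at this
    exact absurd this.symm hp.ne_one

end Cfsg.Agent.S3950
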