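-- statement Cfsg.CfsgFrozen.S3951 (Cfsg/Statements/S3951.lean; the theorem Cfsg.fg6_multiplier_of_two_generator_abelian_group);
import Cfsg.Statements.S3951
import Cfsg.Agent.SchurMul.BilExt
import Cfsg.Agent.CentralExt.Bounds

set_option autoImplicit false
open Cfsg

namespace Cfsg.Agent.S3951

/-- For positive integers `m` and `n` with `n` dividing `m`, the Schur multiplier of the abelian group `ZMod m × ZMod n` (written multiplicatively) is cyclic of order `n`. In particular the elementary abelian group of order `p ^ 2` has multiplier of order `p`. -/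
theorem result (m n : ℕ) [NeZero m] [NeZero n] (hnm : n ∣ m) : Cfsg.HasCyclicSchurMultiplier (Multiplicative (ZMod m × ZMod n)) n := by
  let φ : Multiplicative (ZMod m × ZMod n) →* Multiplicative (ZMod n) :=
    AddMonoidHom.toMultiplicative
      ((ZMod.castHom hnm (ZMod n)).toAddMonoidHom.comp (AddMonoidHom.fst _ _))
  let ψ : Multiplicative (ZMod m × ZMod n) →* Multiplicative (ZMod n) :=
    AddMonoidHom.toMultiplicative (AddMonoidHom.snd _ _)
  obtain ⟨W, iW, fW, σ, hσ, ⟨e⟩⟩ := SchurMul.exists_stem_of_dual_pair φ ψ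
    (Multiplicative.ofAdd ((1 : ZMod m), (0 : ZMod n)))
    (Multiplicative.ofAdd ((0 : ZMod m), (1 : ZMod n))) (Commute.all _ _)
    (by simp [φ, AddMonoidHom.toMultiplicative, ZMod.cast_one hnm])
    (by simp [ψ, AddMonoidHom.toMultiplicative])
    (by simp [φ, AddMonoidHom.toMultiplicative])
  refine CentralExt.hasSchurMultiplier_of_stem hσ ?_ e
  obtain ⟨V, iV, fV, θ, hθ, ⟨i⟩⟩ :=
    CentralExt.exists_schurCover (Multiplicative (ZMod m × ZMod n))
  obtain ⟨a₀, ha⟩ := hθ.1 (Multiplicative.ofAdd ((0 : ZMod m), (1 : ZMod n)))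
  obtain ⟨b₀, hb⟩ := hθ.1 (Multiplicative.ofAdd ((1 : ZMod m), (0 : ZMod n)))
  have h := (CentralExt.metacyclic_card_ker_dvd hθ a₀ b₀ 1 ?_ ?_).2
  · rw [Nat.card_congr i.toEquiv, ha, orderOf_ofAdd_eq_addOrderOf, Prod.addOrderOf] at h
    simp only [addOrderOf_zero, ZMod.addOrderOf_one, Nat.lcm_one_left, sub_self] at h
    rw [Nat.card_congr e.toEquiv, Nat.card_congr Multiplicative.toAdd, Nat.card_zmod]
    exact Nat.le_of_dvd (NeZero.pos n) (by simpa using h)
  · rw [ha, hb, eq_top_iff]
    intro x _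
    obtain ⟨i, hi⟩ := ZMod.intCast_surjective x.toAdd.1
    obtain ⟨j, hj⟩ := ZMod.intCast_surjective x.toAdd.2
    have hx : x = Multiplicative.ofAdd ((0 : ZMod m), (1 : ZMod n)) ^ j *
        Multiplicative.ofAdd ((1 : ZMod m), (0 : ZMod n)) ^ i := by
      apply Multiplicative.toAdd.injective
      ext <;> simp [hi, hj]
    rw [hx]
    exact mul_mem (Subgroup.mem_sup_left (zpow_mem (Subgroup.mem_zpowers _) _))
      (Subgroup.mem_sup_right (zpow_mem (Subgroup.mem_zpowers _) _))
  · rw [ha, hb]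
    simp [mul_comm]

end Cfsg.Agent.S3951
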