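-- statement Cfsg.CfsgFrozen.S3962 (Cfsg/Statements/S3962.lean; the theorem Cfsg.fg6_perfect_central_extension_maps_center_onto_center);
import Cfsg.Statements.S3962

set_option autoImplicit false
open Cfsg

namespace Cfsg.Agent.S3962

/-- Let `G` be a perfect group and `π : G →* Q` a surjective homomorphism whose kernel is central. Then `π` maps the centre of `G` onto the centre of `Q`. Taking `π` to be the map to `G ⧸ Z(G)` shows that the central quotient of a perfect group has trivial centre. -/
theorem result {G Q : Type*} [Group G] [Group Q] (hG : Group.IsPerfect G) (π : G →* Q) (hπ : Function.Surjective π) (hker : π.ker ≤ Subgroup.center G) : (Subgroup.center G).map π = Subgroup.center Q := by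
  ext q
  constructor
  · rintro ⟨z, hz, rfl⟩
    replace hz : z ∈ Subgroup.center G := hz
    rw [Subgroup.mem_center_iff]
    intro y
    obtain ⟨x, rfl⟩ := hπ y
    rw [← map_mul, ← map_mul, Subgroup.mem_center_iff.mp hz x]
  · intro hq
    obtain ⟨g, rfl⟩ := hπ q
    refine ⟨g, ?_, rfl⟩
    show g ∈ Subgroup.center G
    have hc : ∀ x : G, x * g * x⁻¹ * g⁻¹ ∈ Subgroup.center G := by
      intro x
      refine hker ?_
      rw [MonoidHom.mem_ker]
      simp only [map_mul, map_inv, Subgroup.mem_center_iff.mp hq (π x)]
      group
    let φ : G →* Subgroup.center G :=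
      { toFun := fun x => ⟨_, hc x⟩
        map_one' := by ext; simp
        map_mul' := fun x y => by
          ext
          have hy := Subgroup.mem_center_iff.mp (hc y) x
          calc (x * y) * g * (x * y)⁻¹ * g⁻¹ = x * (y * g * y⁻¹ * g⁻¹) * (g * x⁻¹ * g⁻¹) := by group
            _ = (y * g * y⁻¹ * g⁻¹) * x * (g * x⁻¹ * g⁻¹) := by rw [hy]
            _ = (y * g * y⁻¹ * g⁻¹) * (x * g * x⁻¹ * g⁻¹) := by group
            _ = _ := (Subgroup.mem_center_iff.mp (hc x) _) }
    rw [Subgroup.mem_center_iff]
    intro x
    have : commutator G ≤ φ.ker := by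
      rw [commutator_def, Subgroup.commutator_le]
      intro a _ b _
      rw [MonoidHom.mem_ker, map_commutatorElement, commutatorElement_eq_one_iff_mul_comm]
      exact Subtype.ext (Subgroup.mem_center_iff.mp (φ b).2 _)
    have htop : commutator G = ⊤ := Group.IsPerfect.commutator_eq_top (G := G)
    have hx : φ x = 1 := this (htop ▸ Subgroup.mem_top x)
    have : x * g * x⁻¹ * g⁻¹ = 1 := congrArg Subtype.val hx
    calc x * g = (x * g * x⁻¹ * g⁻¹) * g * x := by group
      _ = g * x := by rw [this, one_mul]

end Cfsg.Agent.S3962
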