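-- statement Cfsg.CfsgFrozen.S3964 (Cfsg/Statements/S3964.lean; the theorem Cfsg.fg6_dihedral_trivial_multiplier_of_odd);
import Cfsg.Statements.S3964
import Cfsg.Agent.SchurMul.Dihedral

set_option autoImplicit false
open Cfsg

namespace Cfsg.Agent.S3964

/-- For odd `n` the dihedral group of order `2 n` has trivial Schur multiplier. -/
theorem result (n : ℕ) (hn : Odd n) : Cfsg.HasCyclicSchurMultiplier (DihedralGroup n) 1 := by
  haveI : NeZero n := ⟨fun h => by subst h; simp at hn⟩
  refine CentralExt.hasCyclicSchurMultiplier_one_of fun Δ _ _ τ hτ => ?_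
  have h := (SchurMul.dihedral_ker_dvd hτ).2
  rw [(Nat.coprime_two_left.mpr hn : Nat.gcd 2 n = 1), Nat.dvd_one] at h
  exact Subgroup.card_eq_one.1 h

end Cfsg.Agent.S3964
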