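-- statement Cfsg.CfsgFrozen.S3965 (Cfsg/Statements/S3965.lean; the theorem Cfsg.fg6_dihedral_multiplier_of_even);
import Cfsg.Statements.S3965
import Cfsg.Agent.SchurMul.Dihedral

set_option autoImplicit false
open Cfsg

namespace Cfsg.Agent.S3965

/-- For even `n ≥ 2` the dihedral group of order `2 n` has Schur multiplier cyclic of order `2`. -/
theorem result (n : ℕ) [NeZero n] (hn : Even n) : Cfsg.HasCyclicSchurMultiplier (DihedralGroup n) 2 := by
  haveI : Fact (Nat.Prime 2) := ⟨Nat.prime_two⟩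
  obtain ⟨W, iW, fW, θ, hθ, ⟨e⟩⟩ := CentralExt.exists_schurCover (DihedralGroup n)
  have h := (SchurMul.dihedral_ker_dvd hθ).2
  rw [Nat.gcd_eq_left hn.two_dvd, Nat.card_congr e.toEquiv] at h
  refine CentralExt.hasSchurMultiplier_of_stem (SchurMul.quaternionToDihedral_stem n hn) ?_
    (mulEquivOfPrimeCardEq (p := 2) (SchurMul.quaternionToDihedral_ker n) (by simp))
  rw [SchurMul.quaternionToDihedral_ker]
  exact Nat.le_of_dvd two_pos h

end Cfsg.Agent.S3965
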