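-- statement Cfsg.CfsgFrozen.S3966 (Cfsg/Statements/S3966.lean; the theorem Cfsg.fg6_dicyclic_group_is_stem_extension_of_dihedral);
import Cfsg.Statements.S3966
import Cfsg.Agent.SchurMul.Dihedral

set_option autoImplicit false
open Cfsg

namespace Cfsg.Agent.S3966

/-- For even `n ≥ 2` the dicyclic group of order `4 n` is a stem extension of the dihedral group of order `2 n` with kernel of order `2`: there is a surjective homomorphism `QuaternionGroup n →* DihedralGroup n` whose kernel is central, lies in the commutator subgroup and has two elements. Together with the order of the multiplier this exhibits the dicyclic group as a Schur covering group of the dihedral group. -/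
theorem result (n : ℕ) [NeZero n] (hn : Even n) : ∃ σ : QuaternionGroup n →* DihedralGroup n, Cfsg.IsStemExtension σ ∧ Nat.card σ.ker = 2 := by
  exact ⟨_, SchurMul.quaternionToDihedral_stem n hn, SchurMul.quaternionToDihedral_ker n⟩

end Cfsg.Agent.S3966
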