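-- statement Cfsg.CfsgFrozen.S3968 (Cfsg/Statements/S3968.lean; the theorem Cfsg.fg6_prime_degree_faithful_irreducible_center_nontrivial);
import Cfsg.Statements.S3968
import Cfsg.Agent.Char.Burnside
import Cfsg.Agent.Char.Kernel
import Cfsg.Agent.Char.Virtual

set_option autoImplicit false
open Cfsg

namespace Cfsg.Agent.S3968

open scoped ComplexConjugate

/-- Let `p` be a prime and `G` a finite group with a faithful irreducible complex character of degree `p` (so `G` is an irreducible linear group in `p` variables). If `p ^ 2` divides the order of `G`, then the centre of `G` is nontrivial. -/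
theorem result {G : Type*} [Group G] [Finite G] (p : ℕ) (hp : p.Prime) (χ : Cfsg.IrrCharacter G) (hdeg : χ.1 1 = p) (hfaith : ∀ g : G, χ.1 g = χ.1 1 → g = 1) (hdiv : p ^ 2 ∣ Nat.card G) : Subgroup.center G ≠ ⊥ := by
  classical
  intro hZ
  obtain ⟨χ, hχ⟩ := χ
  obtain ⟨n, ρ, hρ, rfl⟩ := hχ
  haveI := hρ
  haveI : Fact p.Prime := ⟨hp⟩
  simp only [Representation.char_one, Nat.cast_inj] at hdeg
  have hfin : Module.finrank ℂ (Fin n → ℂ) = p := hdeg
  have hinj : ∀ g, ρ g = 1 → g = 1 := fun g hg =>
    hfaith g (by simp [Representation.character, hg])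
  obtain ⟨P⟩ : Nonempty (Sylow p G) := inferInstance
  -- characters vanish on central elements of a Sylow subgroup
  have hzero : ∀ x : G, x ∈ (P : Subgroup G) → (∀ y ∈ (P : Subgroup G), y * x = x * y) → x ≠ 1 →
      ρ.character x = 0 := by
    intro x hx hc hne
    have hle : (P : Subgroup G) ≤ Subgroup.centralizer ({x} : Set G) := fun y hy =>
      Subgroup.mem_centralizer_singleton_iff.2 (hc y hy)
    have hcop : Nat.Coprime (Module.finrank ℂ (Fin n → ℂ))
        (Subgroup.centralizer ({x} : Set G)).index := by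
      rw [hfin, hp.coprime_iff_not_dvd]
      exact fun h => P.not_dvd_index (h.trans (Subgroup.index_dvd_of_le hle))
    refine (Char.character_eq_zero_or_norm_eq ρ x hcop).resolve_right fun h => hne ?_
    obtain ⟨ω, hω⟩ := (Char.norm_character_eq_iff ρ x).1 h
    have hx' : x ∈ Subgroup.center G := by
      rw [Subgroup.mem_center_iff]
      intro g
      rw [← commutatorElement_eq_one_iff_mul_comm]
      apply hinj
      have hcomm : ρ (g * x) = ρ (x * g) := by
        rw [map_mul, map_mul, hω]
        refine LinearMap.ext fun v => ?_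
        simp
      rw [commutatorElement_def, show g * x * g⁻¹ * x⁻¹ = (g * x) * (x * g)⁻¹ by group, map_mul,
        hcomm, ← map_mul, mul_inv_cancel, map_one]
    rwa [hZ, Subgroup.mem_bot] at hx'
  obtain ⟨k, hk⟩ := IsPGroup.iff_card.1 P.isPGroup'
  have hk2 : 2 ≤ k := by
    have h := P.card_eq_multiplicity
    rw [hk] at h
    rw [Nat.pow_right_injective hp.two_le h]
    exact (hp.pow_dvd_iff_le_factorization Nat.card_pos.ne').1 hdiv
  haveI : Nontrivial P := by
    rw [← Finite.one_lt_card_iff_nontrivial, hk]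
    exact Nat.one_lt_pow (by omega) hp.one_lt
  haveI := P.isPGroup'.center_nontrivial
  obtain ⟨z₀, hz₀⟩ := exists_prime_orderOf_dvd_card' (G := Subgroup.center P) p
    ((P.isPGroup'.to_subgroup _).exists_card_eq.elim fun j hj => by
      rw [hj]
      refine dvd_pow_self p fun h0 => ?_
      rw [h0, pow_zero] at hj
      exact (Finite.one_lt_card (α := Subgroup.center P)).ne' hj)
  set z : G := ((z₀ : P) : G) with hz
  have hzord : orderOf z = p := by
    rw [hz, Subgroup.orderOf_coe, Subgroup.orderOf_coe, hz₀]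
  have hzc : ∀ y ∈ (P : Subgroup G), y * z = z * y := fun y hy =>
    congrArg Subtype.val (Subgroup.mem_center_iff.1 z₀.2 ⟨y, hy⟩)
  have hzP : z ∈ (P : Subgroup G) := (z₀ : P).2
  have hzj : ∀ j : ℕ, j < p → j ≠ 0 → ρ.character (z ^ j) = 0 := fun j hj hj0 =>
    hzero _ (pow_mem hzP j) (fun y hy => (show Commute y z from hzc y hy).pow_right j) (fun h => by
      have := Nat.le_of_dvd (Nat.pos_of_ne_zero hj0) (hzord ▸ orderOf_dvd_of_pow_eq_one h)
      omega)
  obtain ⟨b, ε, hb, hε⟩ := Char.exists_eigenbasis ρ z
  rw [hzord] at hε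
  have hsimple : Function.Injective ε := by
    intro i i' hii
    by_contra hne
    set lam := ε i
    have hl0 : lam ≠ 0 := fun h0 => by
      have := hε i
      rw [show ε i = 0 from h0, zero_pow hp.ne_zero] at this
      exact zero_ne_one this
    have hsum : ∑ j ∈ Finset.range p, (lam⁻¹) ^ j * ρ.character (z ^ j) = (p : ℂ) := by
      rw [Finset.sum_eq_single 0]
      · simp [hdeg]
      · intro j hj hj0
        rw [hzj j (Finset.mem_range.1 hj) hj0, mul_zero]
      · simp [hp.ne_zero]
    have hgeo : ∀ l, ∑ j ∈ Finset.range p, (lam⁻¹ * ε l) ^ j = if ε l = lam then (p : ℂ) else 0 := by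
      intro l
      split_ifs with h
      · simp [h, hl0]
      · rw [geom_sum_eq (fun h1 => h (eq_of_inv_mul_eq_one h1).symm), mul_pow, inv_pow, hε l,
          show lam ^ p = 1 from hε i]
        simp
    simp_rw [Char.character_pow_eq_sum ρ hb, Finset.mul_sum] at hsum
    rw [Finset.sum_comm] at hsum
    simp_rw [← mul_pow, hgeo] at hsum
    rw [← Finset.sum_filter, Finset.sum_const, nsmul_eq_mul] at hsum
    have hc1 : (Finset.univ.filter fun l => ε l = lam).card = 1 := by
      have h2 := mul_right_cancel₀ (Nat.cast_ne_zero.2 hp.ne_zero) (hsum.trans (one_mul (p : ℂ)).symm)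
      exact_mod_cast h2
    refine hne (Finset.card_le_one.1 hc1.le i ?_ i' ?_)
    · simp [lam]
    · simp [lam, hii]
  -- so `P` is abelian
  have hdiag : ∀ y ∈ (P : Subgroup G), ∀ i, ∃ c : ℂ, ρ y (b i) = c • b i := by
    intro y hy i
    refine ⟨b.repr (ρ y (b i)) i, ?_⟩
    have h1 : ρ z (ρ y (b i)) = ε i • ρ y (b i) := by
      rw [← Module.End.mul_apply, ← map_mul, ← hzc y hy, map_mul, Module.End.mul_apply, hb,
        map_smul]
    apply b.repr.injective
    refine Finsupp.ext fun l => ?_
    rw [map_smul, Finsupp.smul_apply, b.repr_self, smul_eq_mul, Finsupp.single_apply]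
    split_ifs with hli
    · rw [hli, mul_one]
    · rw [mul_zero]
      have h3 : b.repr (ρ z (ρ y (b i))) l = ε l * b.repr (ρ y (b i)) l := by
        conv_lhs => rw [← b.sum_repr (ρ y (b i))]
        simp only [map_sum, map_smul, hb, Finsupp.coe_finsetSum, Finset.sum_apply]
        rw [Finset.sum_eq_single l]
        · simp; ring
        · intro m _ hm; simp [hm]
        · simp
      rw [h1, map_smul, Finsupp.smul_apply, smul_eq_mul] at h3
      have h4 : ε i ≠ ε l := fun h => hli (hsimple h)
      exact (mul_eq_zero.1 (show (ε i - ε l) * b.repr (ρ y (b i)) l = 0 by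
        rw [sub_mul, h3, sub_self])).resolve_left (sub_ne_zero.2 h4)
  have habel : ∀ x ∈ (P : Subgroup G), ∀ y ∈ (P : Subgroup G), x * y = y * x := by
    intro x hx y hy
    rw [← commutatorElement_eq_one_iff_mul_comm]
    apply hinj
    have hcomm : ρ (x * y) = ρ (y * x) := by
      refine b.ext fun i => ?_
      obtain ⟨c, hc⟩ := hdiag x hx i
      obtain ⟨d, hd⟩ := hdiag y hy i
      simp only [map_mul, Module.End.mul_apply, hd, hc, map_smul, smul_smul, mul_comm c d]
    rw [commutatorElement_def, show x * y * x⁻¹ * y⁻¹ = (x * y) * (y * x)⁻¹ by group, map_mul,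
      hcomm, ← map_mul, mul_inv_cancel, map_one]
  -- the restriction is then a multiple of the regular character
  haveI : Fintype G := Fintype.ofFinite G
  haveI : Fintype P := Fintype.ofFinite _
  obtain ⟨m, hm⟩ := Char.isCharacter_classInner_nat
    (Char.isCharacter_restrict (Char.isCharacter_character ρ) (P : Subgroup G))
    ⟨_, Char.isIrrCharacter_const_one⟩
  rw [classInner, Finset.sum_eq_single 1] at hm
  · simp only [map_one, mul_one, OneMemClass.coe_one, Representation.char_one, hdeg] at hm
    rw [inv_mul_eq_iff_eq_mul₀ (Nat.cast_ne_zero.2 Nat.card_pos.ne'), hk] at hm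
    have hm' : p ^ k * m = p := by exact_mod_cast hm.symm
    have hle : p ^ k ≤ p ^ 1 := by
      rw [pow_one]; exact Nat.le_of_dvd hp.pos (Dvd.intro m hm')
    have := (Nat.pow_le_pow_iff_right hp.one_lt).1 hle
    omega
  · intro y _ hy
    simp only [map_one, mul_one]
    exact hzero y y.2 (fun w hw => habel w hw y y.2) (fun h => hy (Subtype.ext h))
  · simp

end Cfsg.Agent.S3968
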