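import Cfsg.Statements.S3976
import Cfsg.Agent.S3975

set_option autoImplicit false
open Cfsg

open Subgroup
open scoped Pointwise
namespace Cfsg.Agent.S3976

/-- Let `p` be a prime and `G` a group of order `p ^ m`. For every `s ≤ m` the number of normal subgroups of `G` of order `p ^ s` is congruent to `1` modulo `p`. -/
theorem result {G : Type*} [Group G] [Finite G] (p m s : ℕ) (hp : p.Prime) (hG : Nat.card G = p ^ m) (hs : s ≤ m) : Nat.card {H : Subgroup G // H.Normal ∧ Nat.card H = p ^ s} ≡ 1 [MOD p] := by
  have : Fact p.Prime := ⟨hp⟩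
  let Y : SubMulAction (ConjAct G) (Subgroup G) :=
    { carrier := {H | Nat.card H = p ^ s}
      smul_mem' := fun g H hH => by
        show Nat.card (g • H : Subgroup G) = p ^ s
        rw [← hH]
        exact Nat.card_congr (Subgroup.equivSMul g H).toEquiv.symm }
  have hP : IsPGroup p (ConjAct G) := IsPGroup.of_card (n := m) hG
  have h1 := hP.card_modEq_card_fixedPoints Y
  have h2 : Nat.card (MulAction.fixedPoints (ConjAct G) Y) =
      Nat.card {H : Subgroup G // H.Normal ∧ Nat.card H = p ^ s} := by
    refine Nat.card_congr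
      { toFun := fun H => ⟨H.1.1, Subgroup.Normal.of_conjugate_fixed (fun g => ?_), H.1.2⟩
        invFun := fun H => ⟨⟨H.1, H.2.2⟩, fun g => Subtype.ext ?_⟩
        left_inv := fun _ => rfl
        right_inv := fun _ => rfl }
    · exact congrArg Subtype.val (H.2 (ConjAct.toConjAct g))
    · exact Subgroup.Normal.conjAct H.2.1 g
  have h3 : Nat.card {H : Subgroup G // Nat.card H = p ^ s} ≡ 1 [MOD p] :=
    Cfsg.Agent.S3975.result p s hp (hG ▸ Nat.pow_dvd_pow p hs)
  rw [← h2]
  exact h1.symm.trans h3

end Cfsg.Agent.S3976
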