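-- statement Cfsg.CfsgFrozen.S3978 (Cfsg/Statements/S3978.lean; the theorem Cfsg.fg6_trivial_multiplier_iff_projective_representations_lift);
import Cfsg.Statements.S3978
import Cfsg.Agent.SchurMul.Projective

set_option autoImplicit false
open Cfsg

namespace Cfsg.Agent.S3978

/-- A finite group `Q` has trivial Schur multiplier if and only if, for every `n`, every homomorphism from `Q` to the projective general linear group (the quotient of `GL n ℂ` by its centre) lifts to a homomorphism into `GL n ℂ`. -/
theorem result {Q : Type*} [Group Q] [Finite Q] : Cfsg.HasCyclicSchurMultiplier Q 1 ↔ ∀ (n : ℕ) (γ : Q →* (GL (Fin n) ℂ ⧸ Subgroup.center (GL (Fin n) ℂ))), ∃ ρ : Q →* GL (Fin n) ℂ, (QuotientGroup.mk' (Subgroup.center (GL (Fin n) ℂ))).comp ρ = γ := by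
  have hid : IsStemExtension (MonoidHom.id Q) :=
    ⟨Function.surjective_id, by rw [MonoidHom.ker_id]; exact bot_le,
      by rw [MonoidHom.ker_id]; exact bot_le⟩
  constructor
  · intro h n γ
    have hk : Nonempty ((MonoidHom.id Q).ker ≃* Multiplicative (ZMod 1)) := by
      haveI : Subsingleton (MonoidHom.id Q).ker := by rw [MonoidHom.ker_id]; infer_instance
      haveI : Unique (MonoidHom.id Q).ker := uniqueOfSubsingleton 1
      haveI : Unique (Multiplicative (ZMod 1)) := uniqueOfSubsingleton 1
      exact ⟨MulEquiv.ofUnique⟩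
    obtain ⟨ρ, hρ⟩ := SchurMul.exists_lift h hid hk n γ
    exact ⟨ρ, by rw [hρ, MonoidHom.comp_id]⟩
  · intro h
    refine CentralExt.hasCyclicSchurMultiplier_one_of fun Δ _ _ τ hτ => ?_
    obtain ⟨π, hπ⟩ := SchurMul.exists_surjective_of_lift hid
      (fun n γ => (h n γ).imp fun ρ hρ => by rw [hρ, MonoidHom.comp_id]) hτ
    rw [← Subgroup.card_eq_one]
    refine Nat.dvd_one.1 ?_
    have := Subgroup.card_dvd_of_surjective π hπ
    rwa [MonoidHom.ker_id, Subgroup.card_bot] at this

end Cfsg.Agent.S3978
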