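-- statement Cfsg.CfsgFrozen.S3979 (Cfsg/Statements/S3979.lean; the theorem Cfsg.fg6_cyclic_group_trivial_multiplier);
import Cfsg.Statements.S3979
import Cfsg.Agent.CentralExt.Bounds

set_option autoImplicit false
open Cfsg

namespace Cfsg.Agent.S3979

/-- A finite cyclic group has trivial Schur multiplier: every finite stem extension of it is an isomorphism, said through `HasCyclicSchurMultiplier G 1`. -/
theorem result {G : Type*} [Group G] [Finite G] [IsCyclic G] : Cfsg.HasCyclicSchurMultiplier G 1 := by
  exact CentralExt.hasCyclicSchurMultiplier_one_of_isCyclic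

end Cfsg.Agent.S3979
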