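import Cfsg.Statements.S3994
import Cfsg.Agent.Lib.FrobeniusCount

set_option autoImplicit false
open Cfsg

namespace Cfsg.Agent.S3994

/-- Let G be a finite group and n a positive integer. The number of elements of G whose order is divisible by n is either 0 or divisible by the largest divisor of the order of G that is coprime to n. -/
theorem result {G : Type*} [Group G] [Finite G] (n : ℕ) (hn : 0 < n) :
    Nat.card {g : G // n ∣ orderOf g} = 0 ∨
      (Nat.card G / Nat.gcd (Nat.card G) (n ^ Nat.card G)) ∣ Nat.card {g : G // n ∣ orderOf g} := by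
  right
  set N := Nat.card G with hN
  set M := Nat.gcd N (n ^ N) with hM
  set r := N / M with hr
  have hN0 : 0 < N := Nat.card_pos
  have hMr : M * r = N := Nat.mul_div_cancel' (Nat.gcd_dvd_left _ _)
  have hM0 : M ≠ 0 := Nat.gcd_ne_zero_left hN0.ne'
  have hcopn : ∀ q : ℕ, q.Prime → q ∣ n → ¬ q ∣ r := by
    intro q hq hqn hqr
    have h1 : q ^ N.factorization q ∣ M := Nat.dvd_gcd (Nat.ordProj_dvd N q)
      ((pow_dvd_pow_of_dvd hqn _).trans (Nat.pow_dvd_pow n (by
        have h2 : q ^ N.factorization q ≤ N := Nat.le_of_dvd hN0 (Nat.ordProj_dvd N q)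
        exact (Nat.lt_pow_self hq.one_lt).le.trans h2)))
    have h3 : q ^ (N.factorization q + 1) ∣ N := by
      rw [pow_succ]; exact (mul_dvd_mul h1 hqr).trans (dvd_of_eq hMr)
    exact Nat.pow_succ_factorization_not_dvd hN0.ne' hq h3
  have hcop : M.Coprime r := Nat.coprime_of_dvd fun q hq hqM hqr =>
    hcopn q hq (hq.dvd_of_dvd_pow (hqM.trans (Nat.gcd_dvd_right _ _))) hqr
  have hnr : n.Coprime r := Nat.coprime_of_dvd fun q hq hqn hqr => hcopn q hq hqn hqr
  obtain ⟨e, he1, he0⟩ := Nat.chineseRemainder hcop 1 0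
  have hset : ∀ g : G, n ∣ orderOf g ↔ g ^ (M * r) = 1 ∧ (g ^ e) ^ M = 1 ∧ n ∣ orderOf (g ^ e) := by
    intro g
    have hg : g ^ (M * r) = 1 := by rw [hMr, hN]; exact pow_card_eq_one'
    have hu : (g ^ e) ^ M = 1 := by
      obtain ⟨t, ht⟩ := Nat.modEq_zero_iff_dvd.mp he0
      rw [← pow_mul, ht, show r * t * M = M * r * t by ring, pow_mul, hg, one_pow]
    refine ⟨fun h => ⟨hg, hu, ?_⟩, fun h => h.2.2.trans (orderOf_pow_dvd e)⟩
    have h2 : g ^ (orderOf (g ^ e) * r) = 1 := by
      have key : g ^ r = (g ^ e) ^ r := by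
        rw [← pow_mul]
        refine pow_eq_pow_iff_modEq.mpr (Nat.ModEq.of_dvd (orderOf_dvd_of_pow_eq_one hg) ?_)
        simpa using (he1.mul_right' r).symm
      rw [mul_comm, pow_mul, key, ← pow_mul, mul_comm, pow_mul, pow_orderOf_eq_one, one_pow]
    exact hnr.dvd_of_dvd_mul_right (h.trans (orderOf_dvd_of_pow_eq_one h2))
  rw [Nat.card_congr (Equiv.subtypeEquivRight hset),
    Cfsg.Agent.FrobeniusCount.card_split M r hcop (fun u => u ^ M = 1 ∧ n ∣ orderOf u) (fun u hu => hu.1) e he1 he0]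
  refine Cfsg.Agent.FrobeniusCount.dvd_card_sigma _ (fun c u hu => ?_) r (Nat.div_dvd_of_dvd (Nat.gcd_dvd_left _ _)) fun u _ => ?_
  · refine ⟨by rw [conj_pow, hu.1, mul_one, mul_inv_cancel], ?_⟩
    have := orderOf_injective (MulAut.conj c).toMonoidHom (MulAut.conj c).injective u
    simp only [MulEquiv.coe_toMonoidHom, MulAut.conj_apply] at this
    rw [this]
    exact hu.2
  · refine (Cfsg.Agent.FrobeniusCount.frobenius_gcd (G := Subgroup.centralizer ({u} : Set G)) r).trans
      (dvd_of_eq (Nat.card_congr ?_))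
    refine
      { toFun := fun y => ⟨y.1.1, (Subgroup.mem_centralizer_singleton_iff.mp y.1.2).symm,
          by rw [← Subgroup.coe_pow, y.2, Subgroup.coe_one]⟩
        invFun := fun y => ⟨⟨y.1, Subgroup.mem_centralizer_singleton_iff.mpr y.2.1.symm⟩,
          Subtype.ext (by simpa using y.2.2)⟩
        left_inv := fun _ => rfl
        right_inv := fun _ => rfl }

end Cfsg.Agent.S3994
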