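import Cfsg.Statements.S3995
import Cfsg.Agent.Lib.FrobeniusCount
import Cfsg.Agent.S0016

set_option autoImplicit false
open Cfsg

open Subgroup
open scoped Pointwise
namespace Cfsg.Agent.S3995

variable {G : Type*} [Group G] [Finite G]

/-- Number of elements of order `m`. -/
noncomputable def cnt (G : Type*) [Group G] (m : ℕ) : ℕ := Nat.card {g : G // orderOf g = m}

theorem cnt_one : cnt G 1 = 1 := by
  unfold cnt
  rw [Nat.card_congr (Equiv.subtypeEquivRight fun g : G => orderOf_eq_one_iff)]
  exact Nat.card_unique (α := {g : G // g = 1})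

theorem cnt_eq_zero {m : ℕ} (h : ∀ g : G, orderOf g ≠ m) : cnt G m = 0 :=
  Nat.card_eq_zero.mpr (Or.inl ⟨fun g => h g.1 g.2⟩)

theorem dvd_sum_cnt {d : ℕ} (hd : d ∣ Nat.card G) :
    d ∣ ∑ m ∈ d.divisors, cnt G m := by
  classical
  have := Fintype.ofFinite G
  have hd0 : d ≠ 0 := (Nat.pos_of_dvd_of_pos hd Nat.card_pos).ne'
  have h := FrobeniusCount.frobenius (G := G) hd
  rw [Nat.card_eq_fintype_card, Fintype.card_subtype] at h
  refine h.trans (dvd_of_eq ?_)
  rw [Finset.card_eq_sum_card_fiberwise (f := orderOf) (t := d.divisors) fun g hg =>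
    Nat.mem_divisors.mpr ⟨orderOf_dvd_of_pow_eq_one (Finset.mem_filter.mp hg).2, hd0⟩]
  refine Finset.sum_congr rfl fun m hm => ?_
  rw [cnt, Nat.card_eq_fintype_card, Fintype.card_subtype]
  congr 1
  ext g
  simp only [Finset.mem_filter, Finset.mem_univ, true_and, and_iff_right_iff_imp]
  intro hg
  exact orderOf_dvd_iff_pow_eq_one.mp (hg ▸ (Nat.mem_divisors.mp hm).1)

theorem card_eq_sum_cnt (s : Finset ℕ) (hs : ∀ g : G, orderOf g ∈ s) : Nat.card G = ∑ m ∈ s, cnt G m := by
  classical
  have := Fintype.ofFinite G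
  rw [Nat.card_eq_fintype_card, ← Finset.card_univ, Finset.card_eq_sum_card_fiberwise (fun g _ => hs g)]
  exact Finset.sum_congr rfl fun m _ => by rw [cnt, Nat.card_eq_fintype_card, Fintype.card_subtype]

theorem divisors_mul_primes {p q : ℕ} (hp : p.Prime) (hq : q.Prime) (hpq : p ≠ q) :
    (p * q).divisors = {1, p, q, p * q} := by
  ext m
  rw [Nat.mem_divisors, Finset.mem_insert, Finset.mem_insert, Finset.mem_insert, Finset.mem_singleton]
  constructor
  · rintro ⟨h, -⟩
    obtain ⟨a, b, ha, hb, rfl⟩ := exists_dvd_and_dvd_of_dvd_mul h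
    rcases (Nat.dvd_prime hp).mp ha with rfl | rfl <;> rcases (Nat.dvd_prime hq).mp hb with rfl | rfl <;> simp
  · rintro (rfl | rfl | rfl | rfl) <;>
      refine ⟨?_, Nat.mul_ne_zero hp.ne_zero hq.ne_zero⟩
    · exact one_dvd _
    · exact dvd_mul_right _ _
    · exact dvd_mul_left _ _
    · exact dvd_rfl

theorem divisors_four_mul {p : ℕ} (hp : p.Prime) :
    (4 * p).divisors = {1, 2, 4, p, 2 * p, 4 * p} := by
  ext m
  simp only [Nat.mem_divisors, Finset.mem_insert, Finset.mem_singleton]
  constructor
  · rintro ⟨h, -⟩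
    obtain ⟨a, b, ha, hb, rfl⟩ := exists_dvd_and_dvd_of_dvd_mul h
    have ha4 : a ≤ 4 := Nat.le_of_dvd (by norm_num) ha
    rcases (Nat.dvd_prime hp).mp hb with hb1 | hb1 <;> subst b <;> interval_cases a <;> simp_all
  · rintro (rfl | rfl | rfl | rfl | rfl | rfl) <;>
      refine ⟨?_, Nat.mul_ne_zero (by norm_num) hp.ne_zero⟩
    · exact one_dvd _
    · exact Dvd.intro (2 * p) (by ring)
    · exact dvd_mul_right _ _
    · exact dvd_mul_left _ _
    · exact Dvd.intro 2 (by ring)
    · exact dvd_rfl

theorem exists_orderOf_of_dvd_orderOf {g : G} {m : ℕ} (h : m ∣ orderOf g) : ∃ x : G, orderOf x = m := by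
  refine ⟨g ^ (orderOf g / m), ?_⟩
  have hm0 : m ≠ 0 := fun e => (orderOf_pos g).ne' (Nat.zero_dvd.mp (e ▸ h))
  rw [orderOf_pow_of_dvd (Nat.div_ne_zero_iff_of_dvd h |>.mpr ⟨(orderOf_pos g).ne', hm0⟩) (Nat.div_dvd_of_dvd h),
    Nat.div_div_self h (orderOf_pos g).ne']

theorem main (n : ℕ) (hn : n ≠ 1)
    (h : ((fun m : ℕ => Nat.card {g : G // orderOf g = m}) '' Set.range (orderOf : G → ℕ)) = {1, n}) :
    (∃ p : ℕ, p.Prime ∧ IsPGroup p G ∧ 3 ≤ Nat.card G ∧ Monoid.exponent G = p) ∨
      Nonempty (G ≃* QuaternionGroup 2) ∨ (IsCyclic G ∧ Nat.card G = 4) ∨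
      (∃ (p : ℕ) (P : Type) (_ : Group P) (_ : Finite P), p.Prime ∧ p ≠ 2 ∧ IsPGroup p P ∧ Monoid.exponent P = p ∧
        Nonempty (G ≃* Multiplicative (ZMod 2) × P)) := by
  classical
  have hN : ∀ g : G, cnt G (orderOf g) = 1 ∨ cnt G (orderOf g) = n := fun g => by
    have : cnt G (orderOf g) ∈ ({1, n} : Set ℕ) := h ▸ ⟨_, ⟨g, rfl⟩, rfl⟩
    simpa using this
  have hone : ∀ g : G, cnt G (orderOf g) = 1 → orderOf g ∣ 2 := fun g hg => by
    have := (Nat.card_eq_one_iff_unique.mp hg).1
    have e : g⁻¹ = g := congrArg Subtype.val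
      (Subsingleton.elim (⟨g⁻¹, orderOf_inv g⟩ : {x : G // orderOf x = orderOf g}) ⟨g, rfl⟩)
    refine orderOf_dvd_of_pow_eq_one ?_
    rw [pow_two, ← mul_inv_cancel g, e]
  have hbig : ∀ g : G, 2 < orderOf g → cnt G (orderOf g) = n := fun g hg =>
    (hN g).resolve_left fun e => absurd (Nat.le_of_dvd two_pos (hone g e)) (not_le.mpr hg)
  obtain ⟨g₀, hg₀⟩ : ∃ g : G, cnt G (orderOf g) = n := by
    have : n ∈ ({1, n} : Set ℕ) := by simp
    rw [← h] at this
    obtain ⟨_, ⟨g, rfl⟩, hg⟩ := this
    exact ⟨g, hg⟩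
  have hn0 : n ≠ 0 := hg₀ ▸ (Nat.card_ne_zero.mpr ⟨⟨⟨g₀, rfl⟩⟩, inferInstance⟩)
  -- primes
  have hexp : ∀ p : ℕ, p.Prime → p ∣ Nat.card G → ∃ g : G, orderOf g = p := fun p hp hd =>
    have : Fact p.Prime := ⟨hp⟩
    exists_prime_orderOf_dvd_card' p hd
  by_cases h2 : cnt G 2 = 1
  · -- unique involution
    obtain ⟨z, hz⟩ : ∃ z : G, orderOf z = 2 := by
      obtain ⟨⟨z, hz⟩⟩ := (Nat.card_eq_one_iff_unique.mp h2).2
      exact ⟨z, hz⟩
    have huniq : ∀ u : G, orderOf u = 2 → u = z := fun u hu =>
      congrArg Subtype.val ((Nat.card_eq_one_iff_unique.mp h2).1.elim (⟨u, hu⟩ : {x : G // orderOf x = 2}) ⟨z, hz⟩)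
    have hzc : ∀ g : G, Commute g z := fun g => by
      have := huniq (g * z * g⁻¹) (by
        rw [← hz]; exact orderOf_injective (MulAut.conj g).toMonoidHom (MulAut.conj g).injective z)
      exact mul_inv_eq_iff_eq_mul.mp this
    have h2G : 2 ∣ Nat.card G := hz ▸ orderOf_dvd_natCard z
    have hP : ∀ p : ℕ, p.Prime → p ≠ 2 → p ∣ Nat.card G →
        cnt G p = n ∧ cnt G (2 * p) = n ∧ p ∣ 1 + n := by
      intro p hp hp2 hd
      obtain ⟨x, hx⟩ := hexp p hp hd
      have h1 : cnt G p = n := hx ▸ hbig x (hx.symm ▸ lt_of_le_of_ne hp.two_le hp2.symm)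
      have hxz : orderOf (z * x) = 2 * p := by
        rw [(hzc x).symm.orderOf_mul_eq_mul_orderOf_of_coprime (by rw [hz, hx]; exact (Nat.coprime_primes Nat.prime_two hp).mpr hp2.symm), hz, hx]
      refine ⟨h1, hxz ▸ hbig _ (by rw [hxz]; have := hp.two_le; omega), ?_⟩
      have h3 := dvd_sum_cnt (G := G) hd
      rw [hp.divisors, Finset.sum_pair hp.ne_one.symm, cnt_one, h1] at h3
      exact h3
    by_cases h4 : ∃ x : G, orderOf x = 4
    · obtain ⟨x, hx⟩ := h4
      have hc4 : cnt G 4 = n := hx ▸ hbig x (by omega)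
      have h4G : 4 ∣ Nat.card G := hx ▸ orderOf_dvd_natCard x
      have hmod : 4 ∣ 2 + n := by
        have h3 := dvd_sum_cnt (G := G) h4G
        have e : (4 : ℕ).divisors = {1, 2, 4} := by decide
        rw [e, Finset.sum_insert (by decide), Finset.sum_pair (by decide), cnt_one, h2, hc4] at h3
        omega
      have hno8 : ∀ g : G, ¬ 8 ∣ orderOf g := by
        intro g hg
        obtain ⟨w, hw⟩ := exists_orderOf_of_dvd_orderOf hg
        have hc8 : cnt G 8 = n := hw ▸ hbig w (by omega)
        have h3 := dvd_sum_cnt (G := G) (hw ▸ orderOf_dvd_natCard w : 8 ∣ Nat.card G)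
        have e : (8 : ℕ).divisors = {1, 2, 4, 8} := by decide
        rw [e, Finset.sum_insert (by decide), Finset.sum_insert (by decide), Finset.sum_pair (by decide),
          cnt_one, h2, hc4, hc8] at h3
        omega
      have hodd : ∀ p : ℕ, p.Prime → p ∣ Nat.card G → p = 2 := by
        intro p hp hd
        by_contra hp2
        obtain ⟨h1, h1', h1''⟩ := hP p hp hp2 hd
        have hcop : Nat.Coprime 4 p := (Nat.Coprime.pow_left 2 ((Nat.coprime_primes Nat.prime_two hp).mpr (Ne.symm hp2)) : Nat.Coprime (2 ^ 2) p)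
        have h3 := dvd_sum_cnt (G := G) (hcop.mul_dvd_of_dvd_of_dvd h4G hd)
        have hp3 : 3 ≤ p := lt_of_le_of_ne hp.two_le (Ne.symm hp2)
        rw [divisors_four_mul hp, Finset.sum_insert (by simp; omega), Finset.sum_insert (by simp; omega),
          Finset.sum_insert (by simp; refine ⟨?_, ?_, ?_⟩ <;> intro e <;> first | omega | exact absurd (e ▸ hp) (by norm_num)),
          Finset.sum_insert (by simp; omega), Finset.sum_pair (by omega),
          cnt_one, h2, hc4, h1, h1'] at h3
        have h4' : p ∣ 4 * p := dvd_mul_left p 4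
        rcases (em (∃ g : G, orderOf g = 4 * p)) with ⟨g, hg⟩ | hno
        · rw [show cnt G (4 * p) = n from hg ▸ hbig g (by omega)] at h3
          obtain ⟨a, ha⟩ := h4'.trans h3
          obtain ⟨b, hb⟩ := h1''
          have : p ∣ 2 := (Nat.dvd_add_iff_left (show p ∣ 1 + (n + (n + (n + n))) + 1 from ⟨a, by omega⟩)).mpr ⟨4 * b, by nlinarith⟩
          exact hp2 ((Nat.prime_dvd_prime_iff_eq hp Nat.prime_two).mp this)
        · rw [cnt_eq_zero (fun g hg => hno ⟨g, hg⟩)] at h3
          obtain ⟨a, ha⟩ := h4'.trans h3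
          obtain ⟨b, hb⟩ := h1''
          have hb' : 3 * (p * b) = 3 + 3 * n := by omega
          have : p ∣ 1 := ⟨3 * b - a, by
            rw [Nat.mul_sub, mul_left_comm p 3 b]; omega⟩
          exact hp.not_dvd_one this
      have : Fact (Nat.Prime 2) := ⟨Nat.prime_two⟩
      have hG2 : IsPGroup 2 G := IsPGroup.of_card (n := (Nat.card G).primeFactorsList.length)
        (Nat.eq_prime_pow_of_unique_prime_dvd Nat.card_pos.ne' fun {d} hd hdd => hodd d hd hdd)
      have huH : ∀ A B : Subgroup G, Nat.card A = 2 → Nat.card B = 2 → A = B := by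
        have key : ∀ A : Subgroup G, Nat.card A = 2 → A = zpowers z := by
          intro A hA
          obtain ⟨a, ha⟩ := exists_prime_orderOf_dvd_card' (G := A) 2 (dvd_of_eq hA.symm)
          rw [← Subgroup.orderOf_coe] at ha
          refine (eq_of_le_of_card_ge (zpowers_le.mpr (huniq _ ha ▸ a.2)) ?_).symm
          rw [hA, Nat.card_zpowers, hz]
        exact fun A B hA hB => (key A hA).trans (key B hB).symm
      rcases Cfsg.Agent.S0016.result 2 hG2 huH with hcyc | ⟨-, k, ⟨e⟩⟩
      · refine Or.inr (Or.inr (Or.inl ⟨hcyc, ?_⟩))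
        obtain ⟨g, hg⟩ := IsCyclic.exists_ofOrder_eq_natCard (α := G)
        obtain ⟨j, hj⟩ := IsPGroup.iff_card.mp hG2
        rw [hj] at h4G hg ⊢
        have hj2 : 2 ≤ j := (Nat.pow_dvd_pow_iff_le_right (le_refl 2)).mp h4G
        have hj3 : ¬ 3 ≤ j := fun h3 => hno8 g (hg ▸ Nat.pow_dvd_pow 2 h3)
        rw [show j = 2 by omega]; norm_num
      · have : NeZero (2 ^ k) := ⟨by positivity⟩
        have ho : orderOf (e.symm (QuaternionGroup.a 1)) = 2 * 2 ^ k := by
          rw [MulEquiv.orderOf_eq, QuaternionGroup.orderOf_a_one]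
        have hk : k ≤ 1 := by
          by_contra hk
          apply hno8 (e.symm (QuaternionGroup.a 1))
          rw [ho, ← pow_succ']
          exact Nat.pow_dvd_pow 2 (by omega : 3 ≤ k + 1)
        have hk' : k = 0 ∨ k = 1 := by omega
        rcases hk' with rfl | rfl
        · have hc : Nat.card G = 4 := by
            rw [Nat.card_congr e.toEquiv, Nat.card_eq_fintype_card, QuaternionGroup.card]
            norm_num
          exact Or.inr (Or.inr (Or.inl ⟨isCyclic_of_orderOf_eq_card x (hx.trans hc.symm), hc⟩))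
        · exact Or.inr (Or.inl ⟨e.trans (by rw [pow_one])⟩)
    · -- `G = Z₂ × P`
      push Not at h4
      have hsq : ∀ g : G, ¬ 4 ∣ orderOf g := fun g hg => by
        obtain ⟨w, hw⟩ := exists_orderOf_of_dvd_orderOf hg
        exact h4 w hw
      set π := (Nat.card G).primeFactors.erase 2 with hπ
      have hπp : ∀ p ∈ π, p.Prime ∧ p ≠ 2 ∧ p ∣ Nat.card G := fun p hp => by
        rw [hπ, Finset.mem_erase] at hp
        exact ⟨Nat.prime_of_mem_primeFactors hp.2, hp.1, Nat.dvd_of_mem_primeFactors hp.2⟩
      have hnop2 : ∀ p ∈ π, ∀ g : G, ¬ p ^ 2 ∣ orderOf g := by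
        intro p hp g hg
        obtain ⟨hpp, hp2, hd⟩ := hπp p hp
        obtain ⟨w, hw⟩ := exists_orderOf_of_dvd_orderOf hg
        have hc : cnt G (p ^ 2) = n := hw ▸ hbig w (by have := hpp.two_le; rw [hw, sq]; nlinarith)
        have h3 := dvd_sum_cnt (G := G) (hw ▸ orderOf_dvd_natCard w : p ^ 2 ∣ Nat.card G)
        rw [Nat.divisors_prime_pow hpp, Finset.sum_map] at h3
        simp only [Finset.sum_range_succ, Finset.sum_range_zero, Function.Embedding.coeFn_mk, pow_zero, pow_one,
          cnt_one, (hP p hpp hp2 hd).1, hc, zero_add] at h3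
        have h4' : p ∣ 1 + n + n := (dvd_pow_self p two_ne_zero).trans h3
        have h5 : p ∣ n := (Nat.dvd_add_right (hP p hpp hp2 hd).2.2).mp h4'
        exact hpp.not_dvd_one ((Nat.dvd_add_left h5).mp (hP p hpp hp2 hd).2.2)
      have hnopq : ∀ p ∈ π, ∀ q ∈ π, p ≠ q → ∀ g : G, ¬ p * q ∣ orderOf g := by
        intro p hp q hq hpq g hg
        obtain ⟨hpp, hp2, hdp⟩ := hπp p hp
        obtain ⟨hqq, hq2, hdq⟩ := hπp q hq
        obtain ⟨w, hw⟩ := exists_orderOf_of_dvd_orderOf hg
        have hc : cnt G (p * q) = n := hw ▸ hbig w (by rw [hw]; have := hpp.two_le; have := hqq.two_le; nlinarith)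
        have h3 := dvd_sum_cnt (G := G) (hw ▸ orderOf_dvd_natCard w : p * q ∣ Nat.card G)
        rw [divisors_mul_primes hpp hqq hpq,
          Finset.sum_insert (by
            simp only [Finset.mem_insert, Finset.mem_singleton, not_or]
            exact ⟨hpp.ne_one.symm, hqq.ne_one.symm, fun e => hpp.ne_one (Nat.eq_one_of_mul_eq_one_right e.symm)⟩),
          Finset.sum_insert (by
            simp only [Finset.mem_insert, Finset.mem_singleton, not_or]
            exact ⟨hpq, fun e => hqq.ne_one ((mul_eq_left₀ hpp.ne_zero).mp e.symm)⟩),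
          Finset.sum_pair (fun e => hpp.ne_one ((mul_eq_right₀ hqq.ne_zero).mp e.symm)),
          cnt_one, (hP p hpp hp2 hdp).1, (hP q hqq hq2 hdq).1, hc] at h3
        obtain ⟨a, ha⟩ := (dvd_mul_right p q).trans h3
        obtain ⟨b, hb⟩ := (hP p hpp hp2 hdp).2.2
        have : p ∣ 2 := ⟨3 * b - a, by rw [Nat.mul_sub, mul_left_comm p 3 b]; omega⟩
        exact hp2 ((Nat.prime_dvd_prime_iff_eq hpp Nat.prime_two).mp this)
      have hords : ∀ g : G, orderOf g ∈ ({1, 2} : Finset ℕ) ∪ π ∪ π.image (2 * ·) := by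
        intro g
        set m := orderOf g with hm
        have hm0 : m ≠ 0 := (orderOf_pos g).ne'
        simp only [Finset.mem_union, Finset.mem_insert, Finset.mem_singleton, Finset.mem_image]
        by_cases hodd : ∃ p, p.Prime ∧ p ≠ 2 ∧ p ∣ m
        · obtain ⟨p, hp, hp2, hpd⟩ := hodd
          have hpπ : p ∈ π := Finset.mem_erase.mpr ⟨hp2, Nat.mem_primeFactors.mpr ⟨hp, hpd.trans (hm ▸ orderOf_dvd_natCard g), Nat.card_pos.ne'⟩⟩
          obtain ⟨r, hr⟩ := hpd
          have hr2 : r ∣ 2 := by
            rw [Nat.dvd_iff_prime_pow_dvd_dvd]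
            intro q k hq hqk
            rcases k with _ | k
            · simp
            have hqr : q ∣ r := (dvd_pow_self q k.succ_ne_zero).trans hqk
            have hqm : q ∣ m := (hqr.mul_left p).trans (dvd_of_eq hr.symm)
            by_cases hq2 : q = 2
            · subst hq2
              rcases k with _ | k
              · simp
              · exact absurd ((Nat.pow_dvd_pow 2 (by omega : 2 ≤ k + 2)).trans (hqk.trans ((dvd_mul_left r p).trans (dvd_of_eq hr.symm)))) (hsq g)
            · have hqπ : q ∈ π := Finset.mem_erase.mpr ⟨hq2, Nat.mem_primeFactors.mpr ⟨hq, hqm.trans (hm ▸ orderOf_dvd_natCard g), Nat.card_pos.ne'⟩⟩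
              by_cases hqp : q = p
              · refine absurd ?_ (hnop2 p hpπ g)
                rw [sq, ← hm, hr]
                exact mul_dvd_mul_left p (hqp ▸ hqr)
              · refine absurd ?_ (hnopq p hpπ q hqπ (Ne.symm hqp) g)
                rw [← hm, hr]
                exact mul_dvd_mul_left p hqr
          rcases (Nat.dvd_prime Nat.prime_two).mp hr2 with rfl | rfl
          · exact Or.inl (Or.inr (by rwa [hr, mul_one]))
          · exact Or.inr ⟨p, hpπ, by rw [hr, mul_comm]⟩
        · push Not at hodd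
          have : m ∣ 2 := by
            rw [Nat.dvd_iff_prime_pow_dvd_dvd]
            intro q k hq hqk
            rcases k with _ | k
            · simp
            have := hodd q hq
            have hq2 : q = 2 := by_contra fun h => this h ((dvd_pow_self q k.succ_ne_zero).trans hqk)
            subst hq2
            rcases k with _ | k
            · simp
            · exact absurd ((Nat.pow_dvd_pow 2 (by omega : 2 ≤ k + 2)).trans hqk) (hsq g)
          rcases (Nat.dvd_prime Nat.prime_two).mp this with e | e <;> simp [e]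
      have hcard := card_eq_sum_cnt _ hords
      have hd1 : Disjoint ({1, 2} : Finset ℕ) π := Finset.disjoint_left.mpr fun a ha hπa => by
        obtain ⟨hp, hp2, -⟩ := hπp a hπa
        simp only [Finset.mem_insert, Finset.mem_singleton] at ha
        exact ha.elim hp.ne_one hp2
      have hd2 : Disjoint (({1, 2} : Finset ℕ) ∪ π) (π.image (2 * ·)) := Finset.disjoint_left.mpr fun a ha hb => by
        obtain ⟨b, hbπ, hba⟩ := Finset.mem_image.mp hb
        subst hba
        obtain ⟨hp, hp2, -⟩ := hπp b hbπ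
        simp only [Finset.mem_union, Finset.mem_insert, Finset.mem_singleton] at ha
        have := hp.two_le
        rcases ha with (ha | ha) | ha
        · omega
        · omega
        · obtain ⟨hq, hq2, -⟩ := hπp _ ha
          exact hq2 ((Nat.prime_dvd_prime_iff_eq Nat.prime_two hq).mp (dvd_mul_right 2 b)).symm
      rw [Finset.sum_union hd2, Finset.sum_union hd1, Finset.sum_pair (by norm_num), cnt_one, h2,
        Finset.sum_eq_card_nsmul (b := n) (fun p hp => (hP p (hπp p hp).1 (hπp p hp).2.1 (hπp p hp).2.2).1),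
        Finset.sum_image (fun a _ b _ e => Nat.eq_of_mul_eq_mul_left two_pos e),
        Finset.sum_eq_card_nsmul (b := n) (fun p hp => (hP p (hπp p hp).1 (hπp p hp).2.1 (hπp p hp).2.2).2.1),
        smul_eq_mul] at hcard
      have hk1 : π.card = 1 := by
        rcases Nat.eq_zero_or_pos π.card with h0 | hpos
        · exfalso
          have hc2 : Nat.card G = 2 := by rw [hcard, h0]; simp
          rcases (Nat.dvd_prime Nat.prime_two).mp (hc2 ▸ orderOf_dvd_natCard g₀) with e | e
          · rw [e, cnt_one] at hg₀; exact hn hg₀.symm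
          · rw [e, h2] at hg₀; exact hn hg₀.symm
        by_contra hne
        have hprod : (∏ p ∈ π, p) ∣ π.card - 1 := by
          refine Finset.prod_primes_dvd _ (fun p hp => (hπp p hp).1.prime) fun p hp => ?_
          obtain ⟨hpp, hp2, hd⟩ := hπp p hp
          obtain ⟨b, hb⟩ := (hP p hpp hp2 hd).2.2
          rw [hcard] at hd
          obtain ⟨a, ha⟩ := hd
          have hc2 : p.Coprime 2 := (Nat.coprime_primes hpp Nat.prime_two).mpr hp2
          refine hc2.dvd_of_dvd_mul_left (⟨2 * π.card * b - a, ?_⟩ : p ∣ 2 * (π.card - 1))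
          rw [Nat.mul_sub, Nat.mul_sub]
          have hexp2 : p * (2 * π.card * b) = 2 * π.card + 2 * (π.card * n) := by
            have : 2 * π.card * (p * b) = 2 * π.card * (1 + n) := by rw [hb]
            linarith
          omega
        have h3 : 3 ^ π.card ≤ ∏ p ∈ π, p := Finset.pow_card_le_prod _ _ _ fun p hp => by
          obtain ⟨hpp, hp2, -⟩ := hπp p hp
          have := hpp.two_le; omega
        have h4' := Nat.le_of_dvd (by omega) hprod
        have h5 := Nat.lt_pow_self (n := π.card) (by norm_num : 1 < 3)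
        omega
      obtain ⟨p, hp⟩ := Finset.card_eq_one.mp hk1
      have hpπ : p ∈ π := hp ▸ Finset.mem_singleton_self p
      obtain ⟨hpp, hp2, hpd⟩ := hπp p hpπ
      have : Fact p.Prime := ⟨hpp⟩
      obtain ⟨P⟩ : Nonempty (Sylow p G) := inferInstance
      have hz2 : Nat.card (zpowers z) = 2 := by rw [Nat.card_zpowers, hz]
      have hdisj : Disjoint (zpowers z) (P : Subgroup G) := by
        rw [disjoint_iff]
        obtain ⟨j, hj⟩ := IsPGroup.iff_card.mp P.2
        refine inf_eq_bot_of_coprime ?_
        rw [hz2, hj]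
        exact Nat.Coprime.pow_right j ((Nat.coprime_primes Nat.prime_two hpp).mpr hp2.symm)
      have hPexp : ∀ x : (P : Subgroup G), x ^ p = 1 := by
        intro x
        obtain ⟨j, hj⟩ := P.2 x
        obtain ⟨i, -, hi⟩ := (Nat.dvd_prime_pow hpp).mp (orderOf_dvd_of_pow_eq_one hj)
        have hi1 : i ≤ 1 := by
          by_contra hi1
          exact hnop2 p hpπ (x : G) (Subgroup.orderOf_coe x ▸ hi ▸ Nat.pow_dvd_pow p (by omega))
        exact orderOf_dvd_iff_pow_eq_one.mp (hi ▸ (Nat.pow_dvd_pow p hi1).trans (dvd_of_eq (pow_one p)))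
      have htop : ∀ g : G, g ∈ zpowers z ⊔ (P : Subgroup G) := by
        have hle : Nat.card G ≤ Nat.card (zpowers z ⊔ (P : Subgroup G) : Subgroup G) := by
          refine Nat.le_of_dvd Nat.card_pos ?_
          rw [Nat.dvd_iff_prime_pow_dvd_dvd]
          intro q k hq hqk
          rcases Nat.eq_zero_or_pos k with rfl | hk0
          · simp
          by_cases hq2 : q = 2
          · subst hq2
            have : k ≤ 1 := by
              by_contra hk
              have : Fact (Nat.Prime 2) := ⟨Nat.prime_two⟩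
              obtain ⟨U, hU⟩ := Sylow.exists_subgroup_card_pow_prime (G := G) 2 (n := 2)
                ((Nat.pow_dvd_pow 2 (by omega : 2 ≤ k)).trans hqk)
              have hex : ∀ u : U, u = 1 ∨ (u : G) = z := by
                intro u
                have hd : orderOf (u : G) ∣ 2 ^ 2 := by rw [← hU]; exact U.orderOf_dvd_natCard u.2
                obtain ⟨i, hi, hie⟩ := (Nat.dvd_prime_pow Nat.prime_two).mp hd
                interval_cases i
                · exact Or.inl (Subtype.ext (orderOf_eq_one_iff.mp hie))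
                · exact Or.inr (huniq _ hie)
                · exact absurd (dvd_of_eq hie.symm) (hsq _)
              have : Nat.card U ≤ Nat.card (zpowers z) :=
                Nat.card_le_card_of_injective (fun u : U => (⟨(u : G), by
                  rcases hex u with e | e
                  · rw [e]; exact one_mem (zpowers z)
                  · rw [e]; exact mem_zpowers z⟩ : zpowers z)) fun a b e => Subtype.ext (congrArg (fun w : zpowers z => (w : G)) e)
              omega
            exact ((Nat.pow_dvd_pow 2 this).trans (by rw [pow_one, hz2])).trans (card_dvd_of_le le_sup_left)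
          · have hqπ : q ∈ π := Finset.mem_erase.mpr ⟨hq2, Nat.mem_primeFactors.mpr ⟨hq, (dvd_pow_self q hk0.ne').trans hqk, Nat.card_pos.ne'⟩⟩
            rw [hp, Finset.mem_singleton] at hqπ
            subst hqπ
            refine dvd_trans ?_ (card_dvd_of_le le_sup_right)
            rw [P.card_eq_multiplicity]
            exact Nat.pow_dvd_pow q ((hq.pow_dvd_iff_le_factorization Nat.card_pos.ne').mp hqk)
        intro g
        rw [eq_top_of_card_eq _ (le_antisymm (Nat.card_le_card_of_injective _ Subtype.val_injective) hle)]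
        trivial
      let e2 : Multiplicative (ZMod 2) ≃* zpowers z := mulEquivOfCyclicCardEq (by simp [hz, Nat.card_zpowers])
      let φ : zpowers z × (P : Subgroup G) →* G :=
        { toFun := fun ab => (ab.1 : G) * ab.2
          map_one' := by simp
          map_mul' := fun a b => by
            have hc : Commute (a.2 : G) (b.1 : G) := by
              obtain ⟨i, hi⟩ := mem_zpowers_iff.mp b.1.2
              rw [← hi]; exact (hzc _).zpow_right i
            show ((a.1 : G) * b.1) * ((a.2 : G) * b.2) = (a.1 : G) * a.2 * ((b.1 : G) * b.2)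
            rw [mul_assoc, ← mul_assoc (b.1 : G), ← hc.eq]
            group }
      have hφ : Function.Bijective φ := by
        constructor
        · rw [injective_iff_map_eq_one]
          rintro ⟨a, b⟩ hab
          have h' : (a : G) = (b : G)⁻¹ := eq_inv_of_mul_eq_one_left hab
          have hmem : (a : G) ∈ zpowers z ⊓ (P : Subgroup G) := ⟨a.2, h' ▸ (P : Subgroup G).inv_mem b.2⟩
          rw [hdisj.eq_bot, mem_bot] at hmem
          rw [hmem] at h'
          exact Prod.ext (Subtype.ext hmem) (Subtype.ext (inv_eq_one.mp h'.symm))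
        · intro g
          have hg := htop g
          rw [← SetLike.mem_coe, coe_mul_of_left_le_normalizer_right] at hg
          · obtain ⟨a, ha, b, hb, rfl⟩ := hg
            exact ⟨(⟨a, ha⟩, ⟨b, hb⟩), rfl⟩
          · refine (zpowers_le.mpr ?_)
            refine centralizer_le_normalizer _ ?_
            exact fun y _ => hzc y
      let fP : (P : Subgroup G) →* Equiv.Perm (Fin (Nat.card (P : Subgroup G))) :=
        (Finite.equivFin (P : Subgroup G)).permCongrHom.toMonoidHom.comp (MulAction.toPermHom _ _)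
      have hfP : Function.Injective fP := fun a b e =>
        MulAction.toPerm_injective ((Finite.equivFin (P : Subgroup G)).permCongrHom.injective e)
      let ePm : fP.range ≃* (P : Subgroup G) := (MonoidHom.ofInjective hfP).symm
      refine Or.inr (Or.inr (Or.inr ⟨p, fP.range, inferInstance, inferInstance, hpp, hp2,
        P.2.of_equiv ePm.symm, ?_, ⟨(MulEquiv.ofBijective φ hφ).symm.trans (e2.symm.prodCongr ePm.symm)⟩⟩))
      rw [Monoid.exponent_eq_of_mulEquiv ePm]
      refine ((Nat.dvd_prime hpp).mp (Monoid.exponent_dvd_of_forall_pow_eq_one hPexp)).resolve_left fun e1 => ?_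
      obtain ⟨x, hx⟩ := exists_prime_orderOf_dvd_card' (G := (P : Subgroup G)) p (P.dvd_card_of_dvd_card hpd)
      exact hpp.ne_one (Nat.dvd_one.mp (hx ▸ e1 ▸ Monoid.order_dvd_exponent x))
  · -- every nontrivial order occurs `n` times
    have hall : ∀ g : G, orderOf g ≠ 1 → cnt G (orderOf g) = n := fun g hg =>
      (hN g).resolve_left fun e => by
        rcases (Nat.dvd_prime Nat.prime_two).mp (hone g e) with e' | e'
        · exact hg e'
        · exact h2 (e' ▸ e)
    have hP : ∀ p : ℕ, p.Prime → p ∣ Nat.card G → cnt G p = n ∧ p ∣ 1 + n := by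
      intro p hp hd
      obtain ⟨x, hx⟩ := hexp p hp hd
      have h1 : cnt G p = n := hx ▸ hall x (hx.symm ▸ hp.ne_one)
      have h3 := dvd_sum_cnt (G := G) hd
      rw [hp.divisors, Finset.sum_pair hp.ne_one.symm, cnt_one, h1] at h3
      exact ⟨h1, h3⟩
    have hprime : ∀ g : G, orderOf g ≠ 1 → (orderOf g).Prime := by
      intro g hg
      obtain ⟨p, hp, hpd⟩ := Nat.exists_prime_and_dvd hg
      obtain ⟨r, hr⟩ := hpd
      have hpG : p ∣ Nat.card G := (hr ▸ dvd_mul_right p r).trans (orderOf_dvd_natCard g)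
      by_cases hr1 : r = 1
      · rw [hr, hr1, mul_one]; exact hp
      obtain ⟨q, hq, hqd⟩ := Nat.exists_prime_and_dvd hr1
      exfalso
      obtain ⟨w, hw⟩ := exists_orderOf_of_dvd_orderOf (hr ▸ mul_dvd_mul_left p hqd : p * q ∣ orderOf g)
      have hc : cnt G (p * q) = n := hw ▸ hall w (fun e => hp.ne_one (Nat.eq_one_of_mul_eq_one_right (hw.symm.trans e)))
      have hqG : q ∣ Nat.card G := (dvd_mul_left q p).trans (hw ▸ orderOf_dvd_natCard w)
      have h3 := dvd_sum_cnt (G := G) (hw ▸ orderOf_dvd_natCard w : p * q ∣ Nat.card G)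
      by_cases hpq : p = q
      · subst hpq
        rw [← sq, Nat.divisors_prime_pow hp, Finset.sum_map] at h3
        simp only [Finset.sum_range_succ, Finset.sum_range_zero, Function.Embedding.coeFn_mk, pow_zero, pow_one,
          cnt_one, (hP p hp hpG).1, sq, hc, zero_add] at h3
        have h4' : p ∣ 1 + n + n := (dvd_mul_right p p).trans h3
        have h5 : p ∣ n := (Nat.dvd_add_right (hP p hp hpG).2).mp h4'
        exact hp.not_dvd_one ((Nat.dvd_add_left h5).mp (hP p hp hpG).2)
      · rw [divisors_mul_primes hp hq hpq,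
          Finset.sum_insert (by
            simp only [Finset.mem_insert, Finset.mem_singleton, not_or]
            exact ⟨hp.ne_one.symm, hq.ne_one.symm, fun e => hp.ne_one (Nat.eq_one_of_mul_eq_one_right e.symm)⟩),
          Finset.sum_insert (by
            simp only [Finset.mem_insert, Finset.mem_singleton, not_or]
            exact ⟨hpq, fun e => hq.ne_one ((mul_eq_left₀ hp.ne_zero).mp e.symm)⟩),
          Finset.sum_pair (fun e => hp.ne_one ((mul_eq_right₀ hq.ne_zero).mp e.symm)),
          cnt_one, (hP p hp hpG).1, (hP q hq hqG).1, hc] at h3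
        have aux : ∀ r : ℕ, r.Prime → r ∣ Nat.card G → r ∣ 1 + (n + (n + n)) → r = 2 := by
          intro r hr hd hr3
          obtain ⟨a, ha⟩ := hr3
          obtain ⟨b, hb⟩ := (hP r hr hd).2
          have : r ∣ 2 := ⟨3 * b - a, by rw [Nat.mul_sub, mul_left_comm r 3 b]; omega⟩
          exact (Nat.prime_dvd_prime_iff_eq hr Nat.prime_two).mp this
        exact hpq ((aux p hp hpG ((dvd_mul_right p q).trans h3)).trans (aux q hq hqG ((dvd_mul_left q p).trans h3)).symm)
    set π := (Nat.card G).primeFactors with hπ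
    have hords : ∀ g : G, orderOf g ∈ insert 1 π := by
      intro g
      by_cases hg : orderOf g = 1
      · simp [hg]
      · exact Finset.mem_insert_of_mem (Nat.mem_primeFactors.mpr ⟨hprime g hg, orderOf_dvd_natCard g, Nat.card_pos.ne'⟩)
    have hcard := card_eq_sum_cnt _ hords
    rw [Finset.sum_insert (fun e => Nat.not_prime_one (Nat.prime_of_mem_primeFactors e)), cnt_one,
      Finset.sum_eq_card_nsmul (b := n) (fun p hp => (hP p (Nat.prime_of_mem_primeFactors hp) (Nat.dvd_of_mem_primeFactors hp)).1),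
      smul_eq_mul] at hcard
    have hk1 : π.card = 1 := by
      rcases Nat.eq_zero_or_pos π.card with h0 | hpos
      · exfalso
        have hc1 : Nat.card G = 1 := by rw [hcard, h0]; simp
        have e1 : orderOf g₀ = 1 := Nat.dvd_one.mp (hc1 ▸ orderOf_dvd_natCard g₀)
        rw [e1, cnt_one] at hg₀
        exact hn hg₀.symm
      by_contra hne
      have hprod : (∏ p ∈ π, p) ∣ π.card - 1 := by
        refine Finset.prod_primes_dvd _ (fun p hp => (Nat.prime_of_mem_primeFactors hp).prime) fun p hp => ?_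
        have hd := Nat.dvd_of_mem_primeFactors hp
        obtain ⟨b, hb⟩ := (hP p (Nat.prime_of_mem_primeFactors hp) hd).2
        rw [hcard] at hd
        obtain ⟨a, ha⟩ := hd
        refine ⟨π.card * b - a, ?_⟩
        rw [Nat.mul_sub]
        have hexp2 : p * (π.card * b) = π.card + π.card * n := by rw [mul_left_comm, ← hb]; ring
        rw [← hπ] at ha
        generalize p * (π.card * b) = X at hexp2 ⊢
        generalize p * a = Y at ha ⊢
        omega
      have h3 : 2 ^ π.card ≤ ∏ p ∈ π, p := Finset.pow_card_le_prod _ _ _ fun p hp =>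
        (Nat.prime_of_mem_primeFactors hp).two_le
      have h4' := Nat.le_of_dvd (by omega) hprod
      have h5 := Nat.lt_pow_self (n := π.card) (le_refl 2)
      omega
    obtain ⟨p, hp⟩ := Finset.card_eq_one.mp hk1
    have hpπ : p ∈ π := hp ▸ Finset.mem_singleton_self p
    have hpp := Nat.prime_of_mem_primeFactors hpπ
    refine Or.inl ⟨p, hpp, ?_, ?_, ?_⟩
    · intro g
      refine ⟨1, ?_⟩
      have hg := hords g
      rw [hp] at hg
      simp only [Finset.mem_insert, Finset.mem_singleton] at hg
      rw [pow_one, ← orderOf_dvd_iff_pow_eq_one]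
      rcases hg with e | e <;> simp [e]
    · rw [hcard, hk1]; omega
    · refine ((Nat.dvd_prime hpp).mp (Monoid.exponent_dvd_of_forall_pow_eq_one fun g => ?_)).resolve_left fun e1 => ?_
      · have hg := hords g
        rw [hp] at hg
        simp only [Finset.mem_insert, Finset.mem_singleton] at hg
        rw [← orderOf_dvd_iff_pow_eq_one]
        rcases hg with e | e <;> simp [e]
      · obtain ⟨x, hx⟩ := hexp p hpp (Nat.dvd_of_mem_primeFactors hpπ)
        exact hpp.ne_one (Nat.dvd_one.mp (hx ▸ e1 ▸ Monoid.order_dvd_exponent x))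

/-- Let G be a finite group such that the numbers of elements of each order that occurs in G (the numbers #{g : o(g) = m}, m ranging over the element orders of G) take exactly two values, 1 and some n ≠ 1. Then either G is a p-group of exponent p and order at least 3 for some prime p, or G is the quaternion group of order 8, or G is cyclic of order 4, or G ≅ Z₂ × P for a p-group P of exponent p with p an odd prime. -/
theorem result {G : Type*} [Group G] [Finite G] (n : ℕ) (hn : n ≠ 1) (h : ((fun m : ℕ => Nat.card {g : G // orderOf g = m}) '' Set.range (orderOf : G → ℕ)) = {1, n}) :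
    (∃ p : ℕ, p.Prime ∧ IsPGroup p G ∧ 3 ≤ Nat.card G ∧ Monoid.exponent G = p) ∨
      Nonempty (G ≃* QuaternionGroup 2) ∨ (IsCyclic G ∧ Nat.card G = 4) ∨
      (∃ (p : ℕ) (P : Type) (_ : Group P) (_ : Finite P), p.Prime ∧ p ≠ 2 ∧ IsPGroup p P ∧ Monoid.exponent P = p ∧
        Nonempty (G ≃* Multiplicative (ZMod 2) × P)) := by
  exact main n hn h

end Cfsg.Agent.S3995
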