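import Cfsg.Statements.S3996
import Cfsg.Agent.S3995
import Cfsg.Agent.S0144
import Cfsg.Agent.S0218
import Cfsg.Agent.H4.QuaternionSection
import Cfsg.Agent.Transfer.Frobenius
import Cfsg.Agent.Coprime.Action
import Mathlib.GroupTheory.Perm.Cycle.Type

set_option autoImplicit false
open Cfsg

namespace Cfsg.Agent.S3996

open Subgroup

open Cfsg.Agent.S3995 (cnt cnt_one cnt_eq_zero dvd_sum_cnt)

variable {G : Type*} [Group G] [Finite G]

theorem cnt_pos {m : ℕ} {g : G} (hg : orderOf g = m) : cnt G m ≠ 0 :=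
  Nat.card_ne_zero.mpr ⟨⟨⟨g, hg⟩⟩, inferInstance⟩

theorem exists_of_cnt_ne_zero {m : ℕ} (h : cnt G m ≠ 0) : ∃ g : G, orderOf g = m := by
  obtain ⟨⟨g, hg⟩⟩ := (Nat.card_ne_zero.mp h).1
  exact ⟨g, hg⟩

theorem cnt_prime_ne_zero {p : ℕ} (hp : p.Prime) (hd : p ∣ Nat.card G) : cnt G p ≠ 0 := by
  have : Fact p.Prime := ⟨hp⟩
  obtain ⟨g, hg⟩ := exists_prime_orderOf_dvd_card' (G := G) p hd
  exact cnt_pos hg

theorem dvd_two_of_cnt_eq_one {m : ℕ} (h : cnt G m = 1) : m ∣ 2 := by
  obtain ⟨hs, ⟨g, hg⟩⟩ := Nat.card_eq_one_iff_unique.mp h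
  have e : g⁻¹ = g := congrArg Subtype.val
    (hs.elim (⟨g⁻¹, (orderOf_inv g).trans hg⟩ : {x : G // orderOf x = m}) ⟨g, hg⟩)
  rw [← hg]
  refine orderOf_dvd_of_pow_eq_one ?_
  rw [pow_two, ← mul_inv_cancel g, e]

theorem even_cnt {m : ℕ} (hm : 3 ≤ m) : Even (cnt G m) := by
  classical
  have := Fintype.ofFinite G
  rw [cnt, Nat.card_eq_fintype_card, Fintype.card_subtype, even_iff_two_dvd,
    ← ZMod.natCast_eq_zero_iff, ← nsmul_one, ← Finset.sum_const]
  refine Finset.sum_involution (fun g _ => g⁻¹) (fun g _ => by decide) ?_ (fun g hg => ?_) (fun g _ => inv_inv g)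
  · intro g hg _ he
    simp only [Finset.mem_filter, Finset.mem_univ, true_and] at hg
    have : orderOf g ∣ 2 := orderOf_dvd_of_pow_eq_one (by rw [pow_two]; nth_rw 1 [← he]; rw [inv_mul_cancel])
    have := Nat.le_of_dvd two_pos this
    omega
  · simpa using hg

/-- If no element of order `m` commutes with one of order `p` then `p` divides their number. -/
theorem dvd_cnt_of_mul_eq_zero {p m : ℕ} (hp : p.Prime) (hd : p ∣ Nat.card G) (hc : m.Coprime p)
    (h : cnt G (m * p) = 0) : p ∣ cnt G m := by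
  classical
  have : Fact p.Prime := ⟨hp⟩
  have := Fintype.ofFinite G
  obtain ⟨y, hy⟩ := exists_prime_orderOf_dvd_card' (G := G) p hd
  let f : Function.End {g : G // orderOf g = m} := fun g =>
    ⟨y * g.1 * y⁻¹, by
      rw [← MulAut.conj_apply]
      exact (orderOf_injective (MulAut.conj y).toMonoidHom (MulAut.conj y).injective g.1).trans g.2⟩
  have hpow : ∀ (k : ℕ) (g : {g : G // orderOf g = m}), ((f ^ k) g).1 = y ^ k * g.1 * (y ^ k)⁻¹ := by
    intro k
    induction k with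
    | zero => intro g; show g.1 = _; simp
    | succ k ih =>
      intro g
      rw [pow_succ]
      show ((f ^ k) (f g)).1 = _
      rw [ih, pow_succ]
      show y ^ k * (y * g.1 * y⁻¹) * (y ^ k)⁻¹ = _
      group
  have hf : f ^ p ^ 1 = 1 := by
    funext g
    apply Subtype.ext
    rw [hpow, pow_one, ← hy, pow_orderOf_eq_one]
    show (1 : G) * g.1 * (1 : G)⁻¹ = g.1
    simp
  have hmod := Equiv.Perm.card_fixedPoints_modEq hf
  have h0 : Fintype.card f.fixedPoints = 0 := by
    rw [Fintype.card_eq_zero_iff]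
    refine ⟨fun ⟨⟨g, hg⟩, hfix⟩ => ?_⟩
    have hcom : Commute g y := (mul_inv_eq_iff_eq_mul.mp (congrArg Subtype.val hfix)).symm
    refine cnt_pos (g := g * y) ?_ h
    rw [hcom.orderOf_mul_eq_mul_orderOf_of_coprime (by rw [hg, hy]; exact hc), hg, hy]
  rw [h0, Nat.modEq_zero_iff_dvd, ← Nat.card_eq_fintype_card] at hmod
  exact hmod

theorem sum_divisors_mul_prime {M : Type*} [AddCommMonoid M] {d r : ℕ} (hd : d ≠ 0) (hr : r.Prime) (h : ¬ r ∣ d)
    (f : ℕ → M) : ∑ m ∈ (d * r).divisors, f m = ∑ m ∈ d.divisors, f m + ∑ m ∈ d.divisors, f (m * r) := by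
  classical
  have hu : (d * r).divisors = d.divisors ∪ d.divisors.image (· * r) := by
    ext m
    simp only [Nat.mem_divisors, Finset.mem_union, Finset.mem_image]
    constructor
    · rintro ⟨hm, -⟩
      obtain ⟨x, y, hx, hy, rfl⟩ := exists_dvd_and_dvd_of_dvd_mul hm
      rcases (Nat.dvd_prime hr).mp hy with rfl | rfl
      · exact Or.inl ⟨by simpa using hx, hd⟩
      · exact Or.inr ⟨x, ⟨hx, hd⟩, rfl⟩
    · rintro (⟨hm, -⟩ | ⟨x, ⟨hx, -⟩, rfl⟩)
      · exact ⟨hm.trans (dvd_mul_right _ _), Nat.mul_ne_zero hd hr.ne_zero⟩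
      · exact ⟨mul_dvd_mul_right hx r, Nat.mul_ne_zero hd hr.ne_zero⟩
  rw [hu, Finset.sum_union, Finset.sum_image]
  · intro x _ y _ e; exact Nat.eq_of_mul_eq_mul_right hr.pos e
  · rw [Finset.disjoint_left]
    intro m hm hm'
    obtain ⟨x, -, rfl⟩ := Finset.mem_image.mp hm'
    exact h ((dvd_mul_left r x).trans (Nat.mem_divisors.mp hm).1)

theorem cast_sum_prime (n : ℕ) {p : ℕ} (hp : p.Prime) (hd : p ∣ Nat.card G) (hn : n ∣ p) :
    ((1 : ℕ) + cnt G p : ZMod n) = 0 := by
  have h := dvd_sum_cnt (G := G) hd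
  rw [hp.divisors, Finset.sum_pair hp.ne_one.symm, cnt_one] at h
  rw [← Nat.cast_add, ZMod.natCast_eq_zero_iff]
  exact hn.trans h

theorem cast_sum_two (n : ℕ) {p q : ℕ} (hp : p.Prime) (hq : q.Prime) (hpq : p ≠ q)
    (hd : p ∣ Nat.card G) (hd' : q ∣ Nat.card G) (hn : n ∣ p * q) :
    (1 + cnt G p + cnt G q + cnt G (p * q) : ZMod n) = 0 := by
  have h := dvd_sum_cnt (G := G) (((Nat.coprime_primes hp hq).mpr hpq).mul_dvd_of_dvd_of_dvd hd hd')
  rw [sum_divisors_mul_prime hp.ne_zero hq (fun e => hpq ((Nat.prime_dvd_prime_iff_eq hq hp).mp e).symm),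
    hp.divisors, Finset.sum_pair hp.ne_one.symm, Finset.sum_pair hp.ne_one.symm, cnt_one, one_mul] at h
  have h' := (ZMod.natCast_eq_zero_iff _ _).mpr (hn.trans h)
  push_cast at h'
  rw [← h']; ring

theorem cast_sum_three (n : ℕ) {p q r : ℕ} (hp : p.Prime) (hq : q.Prime) (hr : r.Prime)
    (hpq : p ≠ q) (hpr : p ≠ r) (hqr : q ≠ r)
    (hdp : p ∣ Nat.card G) (hdq : q ∣ Nat.card G) (hdr : r ∣ Nat.card G) (hn : n ∣ p * q * r) :
    (1 + cnt G p + cnt G q + cnt G (p * q) + cnt G r + cnt G (p * r) + cnt G (q * r) + cnt G (p * q * r) : ZMod n)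
      = 0 := by
  have hnd : ¬ r ∣ p * q := fun e => (hr.dvd_mul.mp e).elim
    (fun e => hpr ((Nat.prime_dvd_prime_iff_eq hr hp).mp e).symm)
    (fun e => hqr ((Nat.prime_dvd_prime_iff_eq hr hq).mp e).symm)
  have hcop : (p * q).Coprime r := (hr.coprime_iff_not_dvd.mpr hnd).symm
  have h := dvd_sum_cnt (G := G)
    (hcop.mul_dvd_of_dvd_of_dvd (((Nat.coprime_primes hp hq).mpr hpq).mul_dvd_of_dvd_of_dvd hdp hdq) hdr)
  have hnq : ¬ q ∣ p := fun e => hpq ((Nat.prime_dvd_prime_iff_eq hq hp).mp e).symm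
  rw [sum_divisors_mul_prime (Nat.mul_ne_zero hp.ne_zero hq.ne_zero) hr hnd,
    sum_divisors_mul_prime hp.ne_zero hq hnq, sum_divisors_mul_prime hp.ne_zero hq hnq,
    hp.divisors, Finset.sum_pair hp.ne_one.symm, Finset.sum_pair hp.ne_one.symm,
    Finset.sum_pair hp.ne_one.symm, Finset.sum_pair hp.ne_one.symm, cnt_one, one_mul, one_mul] at h
  have h' := (ZMod.natCast_eq_zero_iff _ _).mpr (hn.trans h)
  push_cast at h'
  rw [← h']; ring

/-- The element counts of orders other than `1` and `2` take at most the values `a` and `b`. -/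
def Two (G : Type*) [Group G] (a b : ℕ) : Prop :=
  ∀ m, 3 ≤ m → cnt G m = 0 ∨ cnt G m = a ∨ cnt G m = b

theorem Two.symm {a b : ℕ} (h : Two G a b) : Two G b a := fun m hm => (h m hm).imp id Or.symm

theorem Two.prime {a b p : ℕ} (h : Two G a b) (hp : p.Prime) (hp2 : p ≠ 2) (hd : p ∣ Nat.card G) :
    cnt G p = a ∨ cnt G p = b :=
  (h p (lt_of_le_of_ne hp.two_le (Ne.symm hp2))).resolve_left (cnt_prime_ne_zero hp hd)

theorem neg_one_ne_one {p : ℕ} [Fact p.Prime] (hp2 : p ≠ 2) : (-1 : ZMod p) ≠ 1 := by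
  have : Fact (2 < p) := ⟨lt_of_le_of_ne (Fact.out : p.Prime).two_le (Ne.symm hp2)⟩
  exact ZMod.neg_one_ne_one

theorem three_le_mul {p q : ℕ} (hp : p.Prime) (hq : q.Prime) : 3 ≤ p * q := by
  have := Nat.mul_le_mul hp.two_le hq.two_le
  omega

theorem same {a b p q : ℕ} (h : Two G a b) (hp : p.Prime) (hq : q.Prime) (hpq : p ≠ q) (hp2 : p ≠ 2)
    (hdp : p ∣ Nat.card G) (hdq : q ∣ Nat.card G) (ha : cnt G p = a) (ha' : cnt G q = a) :
    cnt G (p * q) = b ∧ (a : ZMod p) = -1 ∧ (b : ZMod p) = 1 := by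
  have : Fact p.Prime := ⟨hp⟩
  have h1 := cast_sum_prime p hp hdp dvd_rfl
  rw [ha] at h1; push_cast at h1
  have hap : (a : ZMod p) = -1 := by linear_combination h1
  have h2 := cast_sum_two p hp hq hpq hdp hdq (dvd_mul_right p q)
  rw [ha, ha', hap] at h2
  have hn : (cnt G (p * q) : ZMod p) = 1 := by linear_combination h2
  rcases h _ (three_le_mul hp hq) with e | e | e
  · rw [e, Nat.cast_zero] at hn; exact absurd hn zero_ne_one
  · rw [e, hap] at hn; exact absurd hn (neg_one_ne_one hp2)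
  · exact ⟨e, hap, e ▸ hn⟩

theorem mixed {a b p q r : ℕ} (h : Two G a b) (hp : p.Prime) (hq : q.Prime) (hr : r.Prime)
    (hpq : p ≠ q) (hpr : p ≠ r) (hqr : q ≠ r) (hp2 : p ≠ 2) (hq2 : q ≠ 2) (hr2 : r ≠ 2)
    (hdp : p ∣ Nat.card G) (hdq : q ∣ Nat.card G) (hdr : r ∣ Nat.card G)
    (ha : cnt G p = a) (ha' : cnt G q = a) (hb : cnt G r = b) : False := by
  have : Fact r.Prime := ⟨hr⟩
  have h1 := cast_sum_prime r hr hdr dvd_rfl
  rw [hb] at h1; push_cast at h1
  have hbr : (b : ZMod r) = -1 := by linear_combination h1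
  obtain ⟨hpqv, -, -⟩ := same h hp hq hpq hp2 hdp hdq ha ha'
  have key : ∀ s t : ℕ, s.Prime → t.Prime → s ≠ t → s ≠ r → s ≠ 2 → s ∣ Nat.card G → t ∣ Nat.card G →
      cnt G s = a → cnt G t = a → cnt G (s * r) = a := by
    intro s t hs ht hst hsr hs2 hds hdt has hat
    have : Fact s.Prime := ⟨hs⟩
    obtain ⟨-, hsa, hsb⟩ := same h hs ht hst hs2 hds hdt has hat
    have h2 := cast_sum_two s hs hr hsr hds hdr (dvd_mul_right s r)
    rw [has, hb, hsa, hsb] at h2
    have hn : (cnt G (s * r) : ZMod s) = -1 := by linear_combination h2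
    rcases h _ (three_le_mul hs hr) with e | e | e
    · rw [e, Nat.cast_zero] at hn; exact absurd hn.symm (by simp)
    · exact e
    · rw [e, hsb] at hn; exact absurd hn.symm (neg_one_ne_one hs2)
  have hprv := key p q hp hq hpq hpr hp2 hdp hdq ha ha'
  have hqrv := key q p hq hp hpq.symm hqr hq2 hdq hdp ha' ha
  have h2 := cast_sum_two r hp hr hpr hdp hdr (dvd_mul_left r p)
  rw [ha, hb, hprv, hbr] at h2
  have har : (a : ZMod r) = 0 := by
    have h3 : (2 : ZMod r) * a = 0 := by linear_combination h2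
    refine (mul_eq_zero.mp h3).resolve_left fun h4 => hr2 ?_
    have h5 : ((2 : ℕ) : ZMod r) = 0 := by exact_mod_cast h4
    exact (Nat.prime_dvd_prime_iff_eq hr Nat.prime_two).mp ((ZMod.natCast_eq_zero_iff _ _).mp h5)
  have h3 := cast_sum_three r hp hq hr hpq hpr hqr hdp hdq hdr (dvd_mul_left r (p * q))
  rw [ha, ha', hb, hpqv, hprv, hqrv, har, hbr] at h3
  have hn : (cnt G (p * q * r) : ZMod r) = 1 := by linear_combination h3
  have h6 : 3 ≤ p * q * r := (three_le_mul hp hq).trans (Nat.le_mul_of_pos_right _ hr.pos)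
  rcases h _ h6 with e | e | e
  · rw [e, Nat.cast_zero] at hn; exact zero_ne_one hn
  · rw [e, har] at hn; exact zero_ne_one hn
  · rw [e, hbr] at hn; exact neg_one_ne_one hr2 hn

/-- Elements of order `m * j` correspond to pairs of commuting elements of orders `m` and `j`. -/
theorem cnt_mul {m j : ℕ} (hm : 1 < m) (hj : 1 < j) (hc : m.Coprime j) (u₀ : G) (hu₀ : orderOf u₀ = m)
    (hconj : ∀ u : G, orderOf u = m → ∃ c : G, c * u₀ * c⁻¹ ∈ zpowers u) :
    cnt G (m * j) = cnt G m * cnt (centralizer ({u₀} : Set G)) j := by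
  classical
  have := Fintype.ofFinite G
  let F : (Σ u : {u : G // orderOf u = m}, {x : G // Commute u.1 x ∧ orderOf x = j}) →
      {g : G // orderOf g = m * j} := fun z =>
    ⟨z.1.1 * z.2.1, by
      rw [z.2.2.1.orderOf_mul_eq_mul_orderOf_of_coprime (by rw [z.1.2, z.2.2.2]; exact hc), z.1.2, z.2.2.2]⟩
  obtain ⟨e, he1, he2⟩ := Nat.chineseRemainder hc 1 0
  obtain ⟨e', he1', he2'⟩ := Nat.chineseRemainder hc 0 1
  have hF : Function.Bijective F := by
    constructor
    · rintro ⟨⟨u, hu⟩, x, hx, hxj⟩ ⟨⟨u', hu'⟩, x', hx', hxj'⟩ heq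
      have h1 : u * x = u' * x' := congrArg Subtype.val heq
      have hu1 : ∀ v w : G, orderOf v = m → orderOf w = j → Commute v w → (v * w) ^ e = v := by
        intro v w hv hw hvw
        rw [hvw.mul_pow, pow_eq_pow_iff_modEq.mpr (hv.symm ▸ he1 : e ≡ 1 [MOD orderOf v]),
          pow_eq_pow_iff_modEq.mpr (hw.symm ▸ he2 : e ≡ 0 [MOD orderOf w]), pow_one, pow_zero, mul_one]
      have h2 : u = u' := by rw [← hu1 u x hu hxj hx, h1, hu1 u' x' hu' hxj' hx']
      subst h2
      have h3 : x = x' := mul_left_cancel h1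
      subst h3
      rfl
    · rintro ⟨g, hg⟩
      have ho : ∀ (k d d' : ℕ), orderOf g = d * d' → d.Coprime d' → k ≡ 1 [MOD d] → k ≡ 0 [MOD d'] →
          orderOf (g ^ k) = d := by
        intro k d d' hgd hdd hk1 hk0
        have hdpos : 0 < d := Nat.pos_of_ne_zero fun h0 => (orderOf_pos g).ne' (by rw [hgd, h0, zero_mul])
        obtain ⟨t, ht⟩ := Nat.modEq_zero_iff_dvd.mp hk0
        have hgk : Nat.gcd (orderOf g) k = d' := by
          rw [hgd, ht, mul_comm d d', Nat.gcd_mul_left]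
          have hdk : d.Coprime k := (Nat.coprime_comm.mp (by
            rw [Nat.coprime_iff_gcd_eq_one, hk1.gcd_eq, Nat.gcd_one_left]))
          rw [(hdk.coprime_dvd_right (ht ▸ dvd_mul_left t d')).gcd_eq_one, mul_one]
        rw [orderOf_pow, hgk, hgd, Nat.mul_div_cancel]
        exact Nat.pos_of_ne_zero fun h0 => (orderOf_pos g).ne' (by rw [hgd, h0, mul_zero])
      refine ⟨⟨⟨g ^ e, ho e m j hg hc he1 he2⟩,
        ⟨g ^ e', Commute.pow_pow_self g e e', ho e' j m (by rw [hg, mul_comm]) hc.symm he2' he1'⟩⟩, Subtype.ext ?_⟩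
      show g ^ e * g ^ e' = g
      rw [← pow_add]
      conv_rhs => rw [← pow_one g]
      refine pow_eq_pow_iff_modEq.mpr (hg.symm ▸ ?_)
      exact (Nat.modEq_and_modEq_iff_modEq_mul hc).mp ⟨he1.add he1', he2.add he2'⟩
  rw [cnt, ← Nat.card_congr (Equiv.ofBijective F hF), Nat.card_sigma,
    Finset.sum_eq_card_nsmul (b := cnt (centralizer ({u₀} : Set G)) j) ?_, smul_eq_mul,
    Finset.card_univ, ← Nat.card_eq_fintype_card]
  · rfl
  rintro ⟨u, hu⟩ -
  obtain ⟨c, hcu⟩ := hconj u hu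
  have hgen : zpowers (c * u₀ * c⁻¹) = zpowers u := by
    refine Subgroup.eq_of_le_of_card_ge (zpowers_le.mpr hcu) (le_of_eq ?_)
    rw [Nat.card_zpowers, Nat.card_zpowers, hu, ← hu₀, ← MulAut.conj_apply]
    exact (orderOf_injective (MulAut.conj c).toMonoidHom (MulAut.conj c).injective u₀).symm
  have hcomm : ∀ x, Commute u x ↔ Commute (c * u₀ * c⁻¹) x := by
    intro x
    constructor
    · intro hux
      obtain ⟨k, hk⟩ := mem_zpowers_iff.mp hcu
      rw [← hk]; exact hux.zpow_left k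
    · intro hux
      obtain ⟨k, hk⟩ := mem_zpowers_iff.mp (hgen ▸ mem_zpowers u : u ∈ zpowers (c * u₀ * c⁻¹))
      rw [← hk]; exact hux.zpow_left k
  calc Nat.card {x : G // Commute u x ∧ orderOf x = j}
      = Nat.card {x : G // Commute u₀ x ∧ orderOf x = j} := by
        refine Nat.card_congr ((MulAut.conj c).toEquiv.subtypeEquiv fun x => ?_).symm
        show Commute u₀ x ∧ orderOf x = j ↔ Commute u (c * x * c⁻¹) ∧ orderOf (c * x * c⁻¹) = j
        rw [hcomm, Commute.conj_iff, ← MulAut.conj_apply c x]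
        rw [show orderOf ((MulAut.conj c) x) = orderOf x from
          orderOf_injective (MulAut.conj c).toMonoidHom (MulAut.conj c).injective x]
    _ = cnt (centralizer ({u₀} : Set G)) j := by
        refine Nat.card_congr
          { toFun := fun x => ⟨⟨x.1, mem_centralizer_singleton_iff.mpr x.2.1.eq.symm⟩,
              (Subgroup.orderOf_mk _ _).trans x.2.2⟩
            invFun := fun x => ⟨x.1.1, (show Commute x.1.1 u₀ from mem_centralizer_singleton_iff.mp x.1.2).symm,
              (Subgroup.orderOf_coe x.1).trans x.2⟩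
            left_inv := fun x => rfl
            right_inv := fun x => rfl }

/-- An element order `m` all of whose cyclic subgroups are conjugate. -/
def Conj (G : Type*) [Group G] (u₀ : G) : Prop :=
  ∃ k : ℕ, 2 ≤ k ∧ orderOf u₀ = 2 ^ k ∧ ∀ u : G, orderOf u = 2 ^ k → ∃ c : G, c * u₀ * c⁻¹ ∈ zpowers u

theorem coprime_two_pow {p : ℕ} (hp : p.Prime) (hp2 : p ≠ 2) (k : ℕ) : Nat.Coprime (2 ^ k) p :=
  Nat.Coprime.pow_left k ((Nat.coprime_primes Nat.prime_two hp).mpr (Ne.symm hp2))

theorem pair_false {a b p q : ℕ} (h : Two G a b) (hp : p.Prime) (hq : q.Prime) (hpq : p ≠ q) (hp2 : p ≠ 2)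
    (hq2 : q ≠ 2) (hdp : p ∣ Nat.card G) (hdq : q ∣ Nat.card G) (ha : cnt G p = a) (hb : cnt G q = b)
    (u₀ : G) {k : ℕ} (hk : 2 ≤ k) (hu₀ : orderOf u₀ = 2 ^ k)
    (hconj : ∀ u : G, orderOf u = 2 ^ k → ∃ c : G, c * u₀ * c⁻¹ ∈ zpowers u)
    (hc : cnt G (2 ^ k) = a) : False := by
  have : Fact p.Prime := ⟨hp⟩
  have : Fact q.Prime := ⟨hq⟩
  have h1 := cast_sum_prime p hp hdp dvd_rfl
  rw [ha] at h1; push_cast at h1
  have hap : (a : ZMod p) = -1 := by linear_combination h1
  have h1' := cast_sum_prime q hq hdq dvd_rfl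
  rw [hb] at h1'; push_cast at h1'
  have hbq : (b : ZMod q) = -1 := by linear_combination h1'
  have hm3 : 3 ≤ 2 ^ k := le_trans (by norm_num) (Nat.pow_le_pow_right two_pos hk)
  have hcop := coprime_two_pow hp hp2 k
  have hne : cnt G (2 ^ k * p) ≠ 0 := fun e => by
    have := (ZMod.natCast_eq_zero_iff _ _).mpr (dvd_cnt_of_mul_eq_zero hp hdp hcop e)
    rw [hc, hap] at this
    exact neg_ne_zero.mpr one_ne_zero this
  have hmul := cnt_mul (by omega) hp.one_lt hcop u₀ hu₀ hconj
  set D := centralizer ({u₀} : Set G)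
  rw [hc] at hmul
  have hf0 : cnt D p ≠ 0 := fun e => hne (by rw [hmul, e, mul_zero])
  obtain ⟨x, hx⟩ := exists_of_cnt_ne_zero hf0
  have h2 := cast_sum_prime (G := D) p hp (hx ▸ orderOf_dvd_natCard x) dvd_rfl
  push_cast at h2
  have hfp : (cnt D p : ZMod p) = -1 := by linear_combination h2
  have hprod : (cnt G (2 ^ k * p) : ZMod p) = 1 := by rw [hmul, Nat.cast_mul, hap, hfp]; ring
  rcases h _ (hm3.trans (Nat.le_mul_of_pos_right _ hp.pos)) with e | e | e
  · exact hne e
  · rw [e, hap] at hprod; exact neg_one_ne_one hp2 hprod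
  rw [e] at hprod hmul
  have h3 := cast_sum_two p hp hq hpq hdp hdq (dvd_mul_right p q)
  have h3' := cast_sum_two q hp hq hpq hdp hdq (dvd_mul_left q p)
  rw [ha, hb, hap, hprod] at h3
  rw [ha, hb, hbq] at h3'
  have hn : (cnt G (p * q) : ZMod p) = -1 := by linear_combination h3
  rcases h _ (three_le_mul hp hq) with e' | e' | e'
  · rw [e', Nat.cast_zero] at hn; exact one_ne_zero (neg_eq_zero.mp hn.symm)
  · rw [e'] at h3'
    have h4 : (2 : ZMod q) * a = 0 := by linear_combination h3'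
    have haq : (a : ZMod q) = 0 := by
      refine (mul_eq_zero.mp h4).resolve_left fun h5 => hq2 ?_
      have h6 : ((2 : ℕ) : ZMod q) = 0 := by exact_mod_cast h5
      exact (Nat.prime_dvd_prime_iff_eq hq Nat.prime_two).mp ((ZMod.natCast_eq_zero_iff _ _).mp h6)
    have h7 : (b : ZMod q) = 0 := by rw [hmul, Nat.cast_mul, haq, zero_mul]
    rw [hbq] at h7
    exact one_ne_zero (neg_eq_zero.mp h7)
  · rw [e', hprod] at hn; exact neg_one_ne_one hp2 hn.symm

theorem all_same_false {a b p q : ℕ} (h : Two G a b) (hp : p.Prime) (hq : q.Prime) (hpq : p ≠ q) (hp2 : p ≠ 2)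
    (hq2 : q ≠ 2) (hdp : p ∣ Nat.card G) (hdq : q ∣ Nat.card G) (ha : cnt G p = a) (ha' : cnt G q = a)
    (u₀ : G) {k : ℕ} (hk : 2 ≤ k) (hu₀ : orderOf u₀ = 2 ^ k)
    (hconj : ∀ u : G, orderOf u = 2 ^ k → ∃ c : G, c * u₀ * c⁻¹ ∈ zpowers u) : False := by
  have : Fact p.Prime := ⟨hp⟩
  have hm3 : 3 ≤ 2 ^ k := le_trans (by norm_num) (Nat.pow_le_pow_right two_pos hk)
  set c := cnt G (2 ^ k) with hcdef
  have hc0 : c ≠ 0 := cnt_pos hu₀
  have hc : c = a ∨ c = b := (h _ hm3).resolve_left hc0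
  set D := centralizer ({u₀} : Set G)
  have hmain : ∀ s t : ℕ, s.Prime → t.Prime → s ≠ t → s ≠ 2 → s ∣ Nat.card G → t ∣ Nat.card G →
      cnt G s = a → cnt G t = a →
      s ∣ Nat.card D ∧ (cnt D s : ZMod s) = -1 ∧
        ((c = a ∧ c * cnt D s = b) ∨ (c = b ∧ c * cnt D s = a)) := by
    intro s t hs ht hst hs2 hds hdt has hat
    have : Fact s.Prime := ⟨hs⟩
    obtain ⟨-, hsa, hsb⟩ := same h hs ht hst hs2 hds hdt has hat
    have hcop := coprime_two_pow hs hs2 k
    have hne : cnt G (2 ^ k * s) ≠ 0 := fun e => by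
      have h0 := (ZMod.natCast_eq_zero_iff _ _).mpr (dvd_cnt_of_mul_eq_zero hs hds hcop e)
      rw [← hcdef] at h0
      rcases hc with e' | e' <;> rw [e'] at h0
      · rw [hsa] at h0; exact neg_ne_zero.mpr one_ne_zero h0
      · rw [hsb] at h0; exact one_ne_zero h0
    have hmul := cnt_mul (by omega) hs.one_lt hcop u₀ hu₀ hconj
    rw [← hcdef] at hmul
    have hf0 : cnt D s ≠ 0 := fun e => hne (by rw [hmul, e, mul_zero])
    obtain ⟨x, hx⟩ := exists_of_cnt_ne_zero hf0
    have hsD : s ∣ Nat.card D := hx ▸ orderOf_dvd_natCard x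
    have h2 := cast_sum_prime (G := D) s hs hsD dvd_rfl
    push_cast at h2
    have hfs : (cnt D s : ZMod s) = -1 := by linear_combination h2
    refine ⟨hsD, hfs, ?_⟩
    have hne1 : c * cnt D s ≠ c := fun e => by
      have : cnt D s = 1 := (Nat.mul_eq_left hc0).mp e
      rw [this, Nat.cast_one] at hfs
      exact neg_one_ne_one hs2 hfs.symm
    have h3 : c * cnt D s = a ∨ c * cnt D s = b := by
      rw [← hmul]; exact (h _ (hm3.trans (Nat.le_mul_of_pos_right _ hs.pos))).resolve_left hne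
    rcases hc with e | e <;> rcases h3 with e' | e'
    · exact absurd (e'.trans e.symm) hne1
    · exact Or.inl ⟨e, e'⟩
    · exact Or.inr ⟨e, e'⟩
    · exact absurd (e'.trans e.symm) hne1
  obtain ⟨hpD, hfp, hcasep⟩ := hmain p q hp hq hpq hp2 hdp hdq ha ha'
  obtain ⟨hqD, -, hcaseq⟩ := hmain q p hq hp hpq.symm hq2 hdq hdp ha' ha
  obtain ⟨-, hpa, hpb⟩ := same h hp hq hpq hp2 hdp hdq ha ha'
  have hab : a ≠ b := fun e => neg_one_ne_one hp2 (by rw [← hpa, ← hpb, e])
  have hfe : cnt D q = cnt D p := by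
    rcases hcasep with ⟨e, h1⟩ | ⟨e, h1⟩ <;> rcases hcaseq with ⟨e', h2⟩ | ⟨e', h2⟩
    · exact Nat.eq_of_mul_eq_mul_left (Nat.pos_of_ne_zero hc0) (h2.trans h1.symm)
    · exact absurd (e.symm.trans e') hab
    · exact absurd (e'.symm.trans e) hab
    · exact Nat.eq_of_mul_eq_mul_left (Nat.pos_of_ne_zero hc0) (h2.trans h1.symm)
  have h4 := cast_sum_two (G := D) p hp hq hpq hpD hqD (dvd_mul_right p q)
  rw [hfe, hfp] at h4
  have hn : (cnt D (p * q) : ZMod p) = 1 := by linear_combination h4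
  have hcop2 : (2 ^ k).Coprime (p * q) := (coprime_two_pow hp hp2 k).mul_right (coprime_two_pow hq hq2 k)
  have h5 : 1 < p * q := by have := three_le_mul hp hq; omega
  have hmul := cnt_mul (by omega) h5 hcop2 u₀ hu₀ hconj
  rw [← hcdef] at hmul
  rcases h _ (hm3.trans (Nat.le_mul_of_pos_right _ (by omega : 0 < p * q))) with e | e
  · rw [hmul, mul_eq_zero] at e
    rw [e.resolve_left hc0, Nat.cast_zero] at hn
    exact zero_ne_one hn
  have hne1 : c * cnt D (p * q) ≠ c := fun e' => by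
    have := dvd_two_of_cnt_eq_one ((Nat.mul_eq_left hc0).mp e')
    have h6 := Nat.le_of_dvd two_pos this
    have := three_le_mul hp hq
    omega
  have hsame : cnt D (p * q) = cnt D p := by
    refine Nat.eq_of_mul_eq_mul_left (Nat.pos_of_ne_zero hc0) ?_
    rw [hmul] at e
    rcases hcasep with ⟨e1, h1⟩ | ⟨e1, h1⟩ <;> rcases e with e | e
    · exact absurd (e.trans e1.symm) hne1
    · exact e.trans h1.symm
    · exact e.trans h1.symm
    · exact absurd (e.trans e1.symm) hne1
  rw [hsame, hfp] at hn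
  exact neg_one_ne_one hp2 hn

set_option synthInstance.maxSize 4000 in
set_option maxRecDepth 4000 in
theorem quaternion_two_six : ∀ x y z w : QuaternionGroup 2, x * x ≠ 1 → y * y ≠ 1 → z * z ≠ 1 → w * w ≠ 1 →
    y ≠ x → y ≠ x⁻¹ → z ≠ x → z ≠ x⁻¹ → z ≠ y → z ≠ y⁻¹ →
    w = x ∨ w = x⁻¹ ∨ w = y ∨ w = y⁻¹ ∨ w = z ∨ w = z⁻¹ := by
  unfold Ne; decide

theorem dichotomy (h2 : cnt G 2 ≤ 1) :
    (∃ N : Subgroup G, N.Normal ∧ ¬ 2 ∣ Nat.card N ∧ ∃ s, N.index = 2 ^ s) ∨ ∃ u₀ : G, Conj G u₀ := by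
  classical
  have : Fact (Nat.Prime 2) := ⟨Nat.prime_two⟩
  by_cases hnpc : Cfsg.HasNormalPComplement 2 G
  · left
    obtain ⟨P, N, hN, hNP⟩ := hnpc
    obtain ⟨k, hk⟩ := IsPGroup.iff_card.mp P.2
    have hi : N.index = 2 ^ k := hk ▸ hNP.symm.index_eq_card
    refine ⟨N, hN, ?_, k, hi⟩
    rw [← hNP.index_eq_card]
    exact P.not_dvd_index
  right
  obtain ⟨S⟩ : Nonempty (Sylow 2 G) := inferInstance
  have huniq : ∀ x y : G, orderOf x = 2 → orderOf y = 2 → x = y := by
    intro x y hx hy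
    have h1 : cnt G 2 = 1 := le_antisymm h2 (Nat.pos_of_ne_zero (cnt_pos hx))
    exact congrArg Subtype.val ((Nat.card_eq_one_iff_unique.mp h1).1.elim
      (⟨x, hx⟩ : {g : G // orderOf g = 2}) ⟨y, hy⟩)
  have hconjS : ∀ (u : G) (k : ℕ), orderOf u = 2 ^ k → ∃ c : G, c * u * c⁻¹ ∈ (S : Subgroup G) := by
    intro u k hu
    have hp : IsPGroup 2 (zpowers u) := IsPGroup.of_card (n := k) (by rw [Nat.card_zpowers, hu])
    obtain ⟨P, hP⟩ := hp.exists_le_sylow
    obtain ⟨c, hc⟩ := MulAction.exists_smul_eq G P S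
    refine ⟨c, ?_⟩
    rw [← hc, Sylow.smul_def]
    exact ⟨u, hP (mem_zpowers u), rfl⟩
  -- it suffices to check conjugacy inside `S`
  suffices key : ∃ (k : ℕ) (u₀ : G), 2 ≤ k ∧ u₀ ∈ (S : Subgroup G) ∧ orderOf u₀ = 2 ^ k ∧
      ∀ w ∈ (S : Subgroup G), orderOf w = 2 ^ k → ∃ c : G, c * u₀ * c⁻¹ ∈ zpowers w by
    obtain ⟨k, u₀, hk, -, hu₀, hall⟩ := key
    refine ⟨u₀, k, hk, hu₀, fun u hu => ?_⟩
    obtain ⟨c, hc⟩ := hconjS u k hu
    obtain ⟨d, hd⟩ := hall _ hc (by
      rw [← hu, ← MulAut.conj_apply]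
      exact orderOf_injective (MulAut.conj c).toMonoidHom (MulAut.conj c).injective u)
    refine ⟨c⁻¹ * d, ?_⟩
    obtain ⟨i, hi⟩ := mem_zpowers_iff.mp hd
    rw [mem_zpowers_iff]
    refine ⟨i, ?_⟩
    rw [conj_zpow] at hi
    calc u ^ i = c⁻¹ * (c * u ^ i * c⁻¹) * c := by group
      _ = c⁻¹ * d * u₀ * (c⁻¹ * d)⁻¹ := by rw [hi]; group
  rcases TwoGroups.cyclic_or_quaternion_of_unique_involution S.2 (fun x y hx hy => Subtype.ext
      (huniq x y ((orderOf_coe x).trans hx) ((orderOf_coe y).trans hy))) with hcyc | ⟨n, hn, hcard, ⟨e⟩⟩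
  · obtain ⟨g, hg⟩ := IsCyclic.exists_ofOrder_eq_natCard (α := (S : Subgroup G))
    obtain ⟨k, hk⟩ := IsPGroup.iff_card.mp S.2
    by_cases hk2 : 2 ≤ k
    · refine ⟨k, g, hk2, g.2, by rw [orderOf_coe, hg, hk], fun w hw hwo => ⟨1, ?_⟩⟩
      have : zpowers w = (S : Subgroup G) := Subgroup.eq_of_le_of_card_ge (zpowers_le.mpr hw)
        (by rw [Nat.card_zpowers, hwo, hk])
      rw [this]; simp
    · exfalso
      apply hnpc
      refine Transfer.hasNormalPComplement_of_coprime_centralize fun Q hQ hQne g hg hgo => ?_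
      obtain ⟨P, hP⟩ := hQ.exists_le_sylow
      have hQ2 : Nat.card Q ∣ 2 := by
        refine (card_dvd_of_le hP).trans ?_
        rw [Nat.card_congr (Sylow.equiv P S).toEquiv, hk]
        exact (Nat.pow_dvd_pow 2 (by omega : k ≤ 1)).trans (by rw [pow_one])
      rw [mem_centralizer_iff]
      intro x hx
      by_cases hx1 : x = 1
      · rw [hx1, one_mul, mul_one]
      have ho : ∀ y ∈ Q, y ≠ 1 → orderOf y = 2 := fun y hy hy1 => by
        have h1 : orderOf y ∣ 2 := (orderOf_mk y hy).symm.dvd.trans ((_root_.orderOf_dvd_natCard _).trans hQ2)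
        rcases (Nat.dvd_prime Nat.prime_two).mp h1 with h | h
        · exact absurd (orderOf_eq_one_iff.mp h) hy1
        · exact h
      have hgx : g * x * g⁻¹ ∈ Q := (mem_normalizer_iff.mp hg x).mp hx
      have h3 := huniq _ _ (ho _ hgx (fun h => hx1 (conj_eq_one_iff.mp h))) (ho x hx hx1)
      exact (mul_inv_eq_iff_eq_mul.mp h3).symm
  · rcases (by omega : n = 2 ∨ 3 ≤ n) with hn2 | hn3
    · subst hn2
      -- `Q₈` and an element of odd order acting on it
      have : ¬ ∀ Q : Subgroup G, IsPGroup 2 Q → Q ≠ ⊥ → ∀ g ∈ normalizer (Q : Set G),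
          Nat.Coprime (orderOf g) 2 → g ∈ centralizer (Q : Set G) :=
        fun h => hnpc (Transfer.hasNormalPComplement_of_coprime_centralize h)
      push Not at this
      obtain ⟨Q, hQ, -, g, hg, hgo, hgc⟩ := this
      obtain ⟨eQ⟩ := H4.equiv_quaternion_two hQ (fun x _ y _ hx hy => huniq x y hx hy) hg hgo hgc
      have hQc : Nat.card Q = 8 := by
        rw [Nat.card_congr eQ.toEquiv, Nat.card_eq_fintype_card, QuaternionGroup.card]
      obtain ⟨P, hP⟩ := hQ.exists_le_sylow
      have hQP : Q = (P : Subgroup G) := Subgroup.eq_of_le_of_card_ge hP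
        (by rw [hQc, Nat.card_congr (Sylow.equiv P S).toEquiv, hcard]; norm_num)
      obtain ⟨c, hc⟩ := MulAction.exists_smul_eq G P S
      -- work in `Q`
      have hinQ : ∀ x ∈ Q, ∀ y ∈ Q, orderOf x = 4 → orderOf y = 4 → ∃ d : G, d * x * d⁻¹ ∈ zpowers y := by
        intro x hx y hy hxo hyo
        have hmove : ∀ z ∈ Q, orderOf z = 4 → g * z * g⁻¹ ∉ zpowers z := by
          intro z hz hzo hmem
          apply hgc
          have hgz : g * z * g⁻¹ = z := by
            -- an element of odd order fixing a cyclic group of order four fixes its generator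
            obtain ⟨i, hi⟩ := mem_zpowers_iff.mp hmem
            have hodd : Odd (orderOf g) := Nat.coprime_two_right.mp hgo
            have h2 : ∀ j : ℕ, g ^ j * z * (g ^ j)⁻¹ = z ^ (i ^ j) := by
              intro j
              induction j with
              | zero => simp
              | succ j ih =>
                calc g ^ (j + 1) * z * (g ^ (j + 1))⁻¹ = g * (g ^ j * z * (g ^ j)⁻¹) * g⁻¹ := by
                      rw [pow_succ']; group
                  _ = (g * z * g⁻¹) ^ (i ^ j) := by rw [ih, conj_zpow]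
                  _ = z ^ (i ^ (j + 1)) := by rw [← hi, ← zpow_mul, pow_succ' i]
            have h3 := h2 (orderOf g)
            rw [pow_orderOf_eq_one, one_mul, inv_one, mul_one] at h3
            have h4 : (4 : ℤ) ∣ i ^ orderOf g - 1 := by
              have := orderOf_dvd_sub_iff_zpow_eq_zpow.mpr (show z ^ (i ^ orderOf g) = z ^ (1 : ℤ) by
                rw [zpow_one]; exact h3.symm)
              rwa [hzo] at this
            have h5 : (4 : ℤ) ∣ i - 1 := by
              rw [show (4 : ℤ) = ((4 : ℕ) : ℤ) from rfl, ← ZMod.intCast_zmod_eq_zero_iff_dvd] at h4 ⊢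
              push_cast at h4 ⊢
              obtain ⟨j, hj⟩ := hodd
              rw [hj, pow_succ, pow_mul] at h4
              revert h4
              generalize (i : ZMod 4) = t
              intro h4
              have key : ∀ t : ZMod 4, ((t ^ 2) ^ j * t - 1 = 0) → t - 1 = 0 := by
                intro t ht
                have hcase : t = 0 ∨ t = 1 ∨ t = 2 ∨ t = 3 := by clear ht; revert t; decide
                have hsq : t ^ 2 = 0 ∨ t ^ 2 = 1 := by rcases hcase with e | e | e | e <;> subst e <;> decide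
                rcases hsq with e | e
                · rw [e] at ht
                  rcases j with _ | j
                  · rw [pow_zero, one_mul] at ht; exact ht
                  · rw [zero_pow (Nat.succ_ne_zero j), zero_mul] at ht
                    exact absurd ht (by decide)
                · rw [e, one_pow, one_mul] at ht; exact ht
              exact key t h4
            rw [← hi]
            conv_rhs => rw [← zpow_one z]
            exact orderOf_dvd_sub_iff_zpow_eq_zpow.mp (by rw [hzo]; exact h5)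
          set Z := zpowers z with hZ
          have hZQ : Z ≤ Q := zpowers_le.mpr hz
          have hidx : (Z.subgroupOf Q).index = 2 := by
            have h1 := (Z.subgroupOf Q).card_mul_index
            rw [Nat.card_congr (subgroupOfEquivOfLe hZQ).toEquiv, hZ, Nat.card_zpowers, hzo, hQc, ← hZ] at h1
            omega
          have hA : zpowers g ≤ centralizer (Q : Set G) := by
            refine Coprime.le_centralizer_of_stabilizes (N := Z) (zpowers_le.mpr hg) ?_ ?_ ?_
            · rw [Nat.card_zpowers, hQc, show (8 : ℕ) = 2 ^ 3 by norm_num]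
              exact hgo.pow_right 3
            · rw [Subgroup.commutator_le]
              intro t ht w hw
              have hwn : w ∈ normalizer (Q : Set G) := zpowers_le.mpr hg hw
              have hwt : w * t⁻¹ * w⁻¹ ∈ Q := (mem_normalizer_iff.mp hwn _).mp (inv_mem ht)
              have hwZ : ∀ v ∈ Z, w * v * w⁻¹ = v := by
                intro v hv
                obtain ⟨i, rfl⟩ := mem_zpowers_iff.mp hv
                obtain ⟨j, rfl⟩ := mem_zpowers_iff.mp hw
                have hcm : Commute (g ^ j) (z ^ i) :=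
                  ((show Commute g z from mul_inv_eq_iff_eq_mul.mp hgz).zpow_zpow j i)
                rw [hcm.eq, mul_inv_cancel_right]
              have hiff := Subgroup.mul_mem_iff_of_index_two hidx (a := ⟨t, ht⟩) (b := ⟨w * t⁻¹ * w⁻¹, hwt⟩)
              simp only [mem_subgroupOf, Subgroup.coe_mul] at hiff
              rw [commutatorElement_def, show t * w * t⁻¹ * w⁻¹ = t * (w * t⁻¹ * w⁻¹) by group, hiff]
              constructor
              · intro htZ; rw [hwZ _ (inv_mem htZ)]; exact inv_mem htZ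
              · intro hZ'
                have h5 : w * (w * t⁻¹ * w⁻¹) * w⁻¹ = w * t⁻¹ * w⁻¹ := hwZ _ hZ'
                have h6 : w * t⁻¹ * w⁻¹ = t⁻¹ := mul_left_cancel (a := w) (mul_right_cancel (b := w⁻¹) h5)
                rw [h6] at hZ'
                exact inv_mem_iff.mp hZ'
            · refine zpowers_le.mpr ?_
              rw [mem_centralizer_iff]
              intro v hv
              obtain ⟨i, rfl⟩ := mem_zpowers_iff.mp hv
              exact ((show Commute g z from mul_inv_eq_iff_eq_mul.mp hgz).zpow_right i).symm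
          exact hA (mem_zpowers g)
        have hQg : ∀ (d : G), d ∈ normalizer (Q : Set G) → ∀ z ∈ Q, orderOf z = 4 →
            d * z * d⁻¹ ∈ Q ∧ orderOf (d * z * d⁻¹) = 4 := fun d hd z hz hzo =>
          ⟨(mem_normalizer_iff.mp hd z).mp hz,
            (orderOf_injective (MulAut.conj d).toMonoidHom (MulAut.conj d).injective z).trans hzo⟩
        obtain ⟨hx1Q, hx1o⟩ := hQg g hg x hx hxo
        obtain ⟨hx2Q, hx2o⟩ := hQg g hg _ hx1Q hx1o
        have hn1 := hmove x hx hxo
        have hn2 := hmove _ hx1Q hx1o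
        set x1 := g * x * g⁻¹ with hx1
        set x2 := g * x1 * g⁻¹ with hx2
        have hn3 : x2 ∉ zpowers x := by
          intro hmem
          obtain ⟨hx3Q, hx3o⟩ := hQg g hg _ hx2Q hx2o
          have hg2 : g * g ∈ normalizer (Q : Set G) := mul_mem hg hg
          -- `g ^ 2` fixes `⟨x⟩`, hence so does `g`
          apply hn1
          have hfix : ∀ j : ℕ, (g * g) ^ j * x * ((g * g) ^ j)⁻¹ ∈ zpowers x := by
            intro j
            induction j with
            | zero => simp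
            | succ j ih =>
              obtain ⟨i, hi⟩ := mem_zpowers_iff.mp ih
              obtain ⟨i', hi'⟩ := mem_zpowers_iff.mp hmem
              rw [mem_zpowers_iff]
              refine ⟨i' * i, ?_⟩
              have hgg : g * g * x * (g * g)⁻¹ = x ^ i' := by rw [hi', hx2, hx1]; group
              calc x ^ (i' * i) = (g * g * x * (g * g)⁻¹) ^ i := by rw [hgg, zpow_mul]
                _ = g * g * x ^ i * (g * g)⁻¹ := conj_zpow
                _ = g * g * ((g * g) ^ j * x * ((g * g) ^ j)⁻¹) * (g * g)⁻¹ := by rw [hi]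
                _ = _ := by rw [pow_succ']; generalize g * g = k; group
          obtain ⟨j, hj⟩ := Nat.coprime_two_right.mp hgo
          have : g = (g * g) ^ (j + 1) := by
            rw [← pow_two, ← pow_mul, show 2 * (j + 1) = orderOf g + 1 by omega, pow_succ, pow_orderOf_eq_one, one_mul]
          rw [hx1, this]
          exact hfix _
        have hinv : ∀ {u v : G}, v ∉ zpowers u → v ≠ u ∧ v ≠ u⁻¹ := fun {u v} h =>
          ⟨fun e => h (e ▸ mem_zpowers u), fun e => h (e ▸ inv_mem (mem_zpowers u))⟩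
        have hsq : ∀ (z : G) (hz : z ∈ Q), orderOf z = 4 → eQ ⟨z, hz⟩ * eQ ⟨z, hz⟩ ≠ 1 := by
          intro z hz hzo h1
          have : orderOf (eQ ⟨z, hz⟩) ∣ 2 := orderOf_dvd_of_pow_eq_one (by rw [pow_two]; exact h1)
          rw [MulEquiv.orderOf_eq, Subgroup.orderOf_mk, hzo] at this
          norm_num at this
        have hne : ∀ (u v : G) (hu : u ∈ Q) (hv : v ∈ Q), v ∉ zpowers u →
            eQ ⟨v, hv⟩ ≠ eQ ⟨u, hu⟩ ∧ eQ ⟨v, hv⟩ ≠ (eQ ⟨u, hu⟩)⁻¹ := fun u v hu hv h =>
          ⟨fun e => (hinv h).1 (congrArg Subtype.val (eQ.injective e)),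
            fun e => (hinv h).2 (congrArg Subtype.val (eQ.injective (e.trans (map_inv eQ _).symm)))⟩
        have h6 := quaternion_two_six (eQ ⟨x, hx⟩) (eQ ⟨x1, hx1Q⟩) (eQ ⟨x2, hx2Q⟩) (eQ ⟨y, hy⟩)
          (hsq _ _ hxo) (hsq _ _ hx1o) (hsq _ _ hx2o) (hsq _ _ hyo)
          (hne x x1 hx hx1Q hn1).1 (hne x x1 hx hx1Q hn1).2
          (hne x x2 hx hx2Q hn3).1 (hne x x2 hx hx2Q hn3).2
          (hne x1 x2 hx1Q hx2Q hn2).1 (hne x1 x2 hx1Q hx2Q hn2).2
        simp only [← map_inv, EmbeddingLike.apply_eq_iff_eq, Subtype.ext_iff, Subgroup.coe_inv] at h6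
        have hmem : ∀ u : G, y = u ∨ y = u⁻¹ → u ∈ zpowers y := by
          rintro u (rfl | rfl)
          · exact mem_zpowers _
          · rw [zpowers_inv]; exact mem_zpowers _
        rcases h6 with h | h | h | h | h | h
        · exact ⟨1, by simpa using hmem x (Or.inl h)⟩
        · exact ⟨1, by simpa using hmem x (Or.inr h)⟩
        · exact ⟨g, hx1 ▸ hmem x1 (Or.inl h)⟩
        · exact ⟨g, hx1 ▸ hmem x1 (Or.inr h)⟩
        · refine ⟨g * g, ?_⟩
          rw [show g * g * x * (g * g)⁻¹ = x2 by rw [hx2, hx1]; group]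
          exact hmem x2 (Or.inl h)
        · refine ⟨g * g, ?_⟩
          rw [show g * g * x * (g * g)⁻¹ = x2 by rw [hx2, hx1]; group]
          exact hmem x2 (Or.inr h)
      set u := ((eQ.symm (QuaternionGroup.a 1) : Q) : G) with hu
      have huo : orderOf u = 4 := by
        rw [hu, orderOf_coe, MulEquiv.orderOf_eq, QuaternionGroup.orderOf_a_one]
      have huQ : u ∈ Q := (eQ.symm (QuaternionGroup.a 1)).2
      have hcQ : ∀ w, w ∈ (S : Subgroup G) ↔ c⁻¹ * w * c ∈ Q := by
        intro w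
        rw [← hc, hQP, Sylow.smul_def]
        constructor
        · rintro ⟨v, hv, rfl⟩
          have e : c⁻¹ * (c * v * c⁻¹) * c = v := by group
          show c⁻¹ * (c * v * c⁻¹) * c ∈ (P : Subgroup G)
          rw [e]; exact hv
        · intro hv
          exact ⟨c⁻¹ * w * c, hv, by simp [mul_assoc]⟩
      refine ⟨2, c * u * c⁻¹, le_rfl, (hcQ _).mpr (by simpa [mul_assoc] using huQ),
        (orderOf_injective (MulAut.conj c).toMonoidHom (MulAut.conj c).injective u).trans huo, fun w hw hwo => ?_⟩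
      have hwo' : orderOf (c⁻¹ * w * c) = 4 := by
        have := orderOf_injective (MulAut.conj c⁻¹).toMonoidHom (MulAut.conj c⁻¹).injective w
        simpa using this.trans hwo
      obtain ⟨d, hd⟩ := hinQ u huQ _ ((hcQ w).mp hw) huo hwo'
      refine ⟨c * d * c⁻¹, ?_⟩
      obtain ⟨i, hi⟩ := mem_zpowers_iff.mp hd
      rw [mem_zpowers_iff]
      refine ⟨i, ?_⟩
      rw [show c⁻¹ * w * c = c⁻¹ * w * c⁻¹⁻¹ by rw [inv_inv], conj_zpow, inv_inv] at hi
      calc w ^ i = c * (c⁻¹ * w ^ i * c) * c⁻¹ := by group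
        _ = _ := by rw [hi]; group
    · -- the cyclic subgroup of index two is unique
      set u := ((e.symm (QuaternionGroup.a 1) : (S : Subgroup G)) : G) with hu
      have huo : orderOf u = 2 ^ n := by
        rw [hu, orderOf_coe, MulEquiv.orderOf_eq, QuaternionGroup.orderOf_a_one, ← pow_succ', Nat.sub_add_cancel (by omega : 1 ≤ n)]
      refine ⟨n, u, by omega, (e.symm (QuaternionGroup.a 1)).2, huo, fun w hw hwo => ⟨1, ?_⟩⟩
      have hwo' : orderOf (e ⟨w, hw⟩) = 2 ^ n := by rw [MulEquiv.orderOf_eq, Subgroup.orderOf_mk, hwo]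
      have hwa : e ⟨w, hw⟩ ∈ zpowers (QuaternionGroup.a (1 : ZMod (2 * 2 ^ (n - 1)))) := by
        rcases hq : e ⟨w, hw⟩ with i | i
        · rw [mem_zpowers_iff]
          obtain ⟨j, rfl⟩ := ZMod.natCast_zmod_surjective i
          exact ⟨(j : ℤ), by rw [zpow_natCast, QuaternionGroup.a_one_pow]⟩
        · exfalso
          rw [hq, QuaternionGroup.orderOf_xa] at hwo'
          have h8 : 2 ^ 3 ≤ 2 ^ n := Nat.pow_le_pow_right two_pos hn3
          omega
      have hle : zpowers w ≤ zpowers u := by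
        rw [zpowers_le, mem_zpowers_iff]
        obtain ⟨i, hi⟩ := mem_zpowers_iff.mp hwa
        refine ⟨i, ?_⟩
        have h9 : (e.symm (QuaternionGroup.a 1)) ^ i = ⟨w, hw⟩ := by rw [← map_zpow, hi, e.symm_apply_apply]
        simpa using congrArg Subtype.val h9
      have := Subgroup.eq_of_le_of_card_ge hle (by rw [Nat.card_zpowers, Nat.card_zpowers, hwo, huo])
      rw [this]; simp

theorem solvable_of_complement {p q : ℕ} (hp : p.Prime) (hq : q.Prime) (N : Subgroup G) (hN : N.Normal)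
    (hodd : ¬ 2 ∣ Nat.card N) {s : ℕ} (hs : N.index = 2 ^ s)
    (hpi : ∀ r : ℕ, r.Prime → r ∣ Nat.card G → r = 2 ∨ r = p ∨ r = q) : Group.IsSolvable G := by
  have : Fact (Nat.Prime 2) := ⟨Nat.prime_two⟩
  have hNs : Group.IsSolvable N := by
    refine Char.solvable_of_card_eq_pow_mul_pow p q hp hq _ rfl fun r hr hd => ?_
    rcases hpi r hr (hd.trans N.card_subgroup_dvd_card) with h | h
    · exact absurd (h ▸ hd) hodd
    · exact h
  have hQs : Group.IsSolvable (G ⧸ N) := by
    have := (IsPGroup.of_card (p := 2) (n := s) (G := G ⧸ N) hs).isNilpotent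
    exact @IsNilpotent.to_isSolvable _ _ this
  exact solvable_of_ker_le_range N.subtype (QuotientGroup.mk' N) (by simp)

theorem all_same_complement_false {a b p q : ℕ} (h : Two G a b) (hp : p.Prime) (hq : q.Prime) (hpq : p ≠ q)
    (hp2 : p ≠ 2) (hdp : p ∣ Nat.card G) (hdq : q ∣ Nat.card G) (hpq2 : q ≠ 2)
    (hsame : ∀ r : ℕ, r.Prime → r ≠ 2 → r ∣ Nat.card G → cnt G r = a)
    (N : Subgroup G) (hN : N.Normal) (hodd : ¬ 2 ∣ Nat.card N) {s : ℕ} (hs : N.index = 2 ^ s) : False := by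
  classical
  have := Fintype.ofFinite G
  have hmem : ∀ g : G, (orderOf g).Coprime 2 → g ∈ N := by
    intro g hg
    rw [← QuotientGroup.eq_one_iff (N := N), ← orderOf_eq_one_iff]
    have h1 : orderOf (QuotientGroup.mk g : G ⧸ N) ∣ orderOf g := orderOf_map_dvd (QuotientGroup.mk' N) g
    have h2 : orderOf (QuotientGroup.mk g : G ⧸ N) ∣ 2 ^ s := hs ▸ orderOf_dvd_natCard _
    exact Nat.dvd_one.1 ((hg.pow_right s).gcd_eq_one ▸ Nat.dvd_gcd h1 h2)
  have hdiv : Nat.card N ∣ 1 + a := by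
    rw [Nat.dvd_iff_prime_pow_dvd_dvd]
    intro r e hr hre
    rcases e with _ | e
    · simp
    have hrN : r ∣ Nat.card N := (dvd_pow_self r e.succ_ne_zero).trans hre
    have hr2 : r ≠ 2 := fun h => hodd (h ▸ hrN)
    have hreG : r ^ (e + 1) ∣ Nat.card G := hre.trans N.card_subgroup_dvd_card
    have hrG : r ∣ Nat.card G := hrN.trans N.card_subgroup_dvd_card
    have hra := hsame r hr hr2 hrG
    obtain ⟨t, ht, htr, hdt⟩ : ∃ t : ℕ, t.Prime ∧ r ≠ t ∧ (t ∣ Nat.card G ∧ cnt G t = a) := by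
      by_cases hrp : r = p
      · exact ⟨q, hq, hrp ▸ hpq, hdq, hsame q hq hpq2 hdq⟩
      · exact ⟨p, hp, hrp, hdp, hsame p hp hp2 hdp⟩
    obtain ⟨-, har, hbr⟩ := same h hr ht htr hr2 hrG hdt.1 hra hdt.2
    have : Fact r.Prime := ⟨hr⟩
    have hno : ∀ g : G, ¬ r ^ 2 ∣ orderOf g := by
      intro g hg
      obtain ⟨w, hw⟩ := S3995.exists_orderOf_of_dvd_orderOf hg
      have h3 := dvd_sum_cnt (G := G) (hw ▸ orderOf_dvd_natCard w : r ^ 2 ∣ Nat.card G)
      rw [Nat.divisors_prime_pow hr, Finset.sum_map] at h3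
      simp only [Finset.sum_range_succ, Finset.sum_range_zero, Function.Embedding.coeFn_mk, pow_zero, pow_one,
        cnt_one, hra, zero_add] at h3
      have h4 := (ZMod.natCast_eq_zero_iff _ _).mpr ((dvd_pow_self r two_ne_zero).trans h3)
      push_cast at h4
      rw [har] at h4
      have h5 : 3 ≤ r ^ 2 := by rw [sq]; exact three_le_mul hr hr
      rcases h _ h5 with e | e | e
      · exact cnt_pos hw e
      · rw [e, har] at h4; exact neg_ne_zero.mpr one_ne_zero (by linear_combination h4)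
      · rw [e, hbr] at h4; exact one_ne_zero (α := ZMod r) (by linear_combination h4)
    have h3 := dvd_sum_cnt (G := G) hreG
    rw [← Finset.sum_subset (Nat.divisors_subset_of_dvd (pow_ne_zero _ hr.ne_zero) (dvd_pow_self r e.succ_ne_zero))
      (fun x hx hx' => ?_), hr.divisors, Finset.sum_pair hr.ne_one.symm, cnt_one, hra] at h3
    · exact h3
    · obtain ⟨i, -, rfl⟩ := (Nat.mem_divisors_prime_pow hr _).mp hx
      refine cnt_eq_zero fun g hg => hno g ?_
      rw [hg]
      refine Nat.pow_dvd_pow r ?_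
      by_contra hi
      apply hx'
      exact Nat.mem_divisors.mpr ⟨(Nat.pow_dvd_pow r (by omega : i ≤ 1)).trans (by rw [pow_one]), hr.ne_zero⟩
  have ha0 : a ≠ 0 := hsame p hp hp2 hdp ▸ cnt_prime_ne_zero hp hdp
  have hle : 1 + a + a ≤ Nat.card N := by
    let A := Finset.univ.filter fun g : G => orderOf g = p
    let B := Finset.univ.filter fun g : G => orderOf g = q
    have hA : A.card = a := by
      rw [← hsame p hp hp2 hdp, cnt, Nat.card_eq_fintype_card, Fintype.card_subtype]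
    have hB : B.card = a := by
      rw [← hsame q hq hpq2 hdq, cnt, Nat.card_eq_fintype_card, Fintype.card_subtype]
    have hsub : insert (1 : G) (A ∪ B) ⊆ (N : Set G).toFinset := by
      intro g hg
      simp only [A, B, Finset.mem_insert, Finset.mem_union, Finset.mem_filter, Finset.mem_univ, true_and] at hg
      rw [Set.mem_toFinset]
      refine hmem g ?_
      rcases hg with rfl | hg | hg
      · simp
      · rw [hg]; exact (Nat.coprime_primes hp Nat.prime_two).mpr hp2
      · rw [hg]; exact (Nat.coprime_primes hq Nat.prime_two).mpr hpq2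
    have h1 := Finset.card_le_card hsub
    rw [Finset.card_insert_of_notMem, Finset.card_union_of_disjoint, hA, hB, Set.toFinset_card,
      ← Nat.card_eq_fintype_card] at h1
    · calc 1 + a + a = a + a + 1 := by omega
        _ ≤ _ := h1
    · rw [Finset.disjoint_left]
      intro g hg hg'
      simp only [A, B, Finset.mem_filter, Finset.mem_univ, true_and] at hg hg'
      exact hpq (hg.symm.trans hg')
    · simp only [A, B, Finset.mem_union, Finset.mem_filter, Finset.mem_univ, true_and, orderOf_one]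
      rintro (h | h)
      · exact hp.ne_one h.symm
      · exact hq.ne_one h.symm
  have := Nat.le_of_dvd (by omega) hdiv
  omega

theorem solvable_of_two_values {a b : ℕ} (ha1 : a ≠ 1) (hb1 : b ≠ 1)
    (hval : ∀ m, cnt G m = 0 ∨ cnt G m = 1 ∨ cnt G m = a ∨ cnt G m = b) : Group.IsSolvable G := by
  have h : Two G a b := fun m hm => by
    rcases hval m with e | e | e
    · exact Or.inl e
    · have := Nat.le_of_dvd two_pos (dvd_two_of_cnt_eq_one e); omega
    · exact Or.inr e
  by_cases htwo : ∃ p q : ℕ, p.Prime ∧ q.Prime ∧ p ≠ q ∧ p ≠ 2 ∧ q ≠ 2 ∧ p ∣ Nat.card G ∧ q ∣ Nat.card G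
  swap
  · obtain ⟨p, hp, hpi⟩ : ∃ p : ℕ, p.Prime ∧ ∀ r : ℕ, r.Prime → r ∣ Nat.card G → r = 2 ∨ r = p := by
      by_cases h1 : ∃ p : ℕ, p.Prime ∧ p ≠ 2 ∧ p ∣ Nat.card G
      · obtain ⟨p, hp, hp2, hd⟩ := h1
        exact ⟨p, hp, fun r hr hrd => by
          by_contra hne
          push Not at hne
          exact htwo ⟨p, r, hp, hr, Ne.symm hne.2, hp2, hne.1, hd, hrd⟩⟩
      · exact ⟨2, Nat.prime_two, fun r hr hrd => Or.inl (by_contra fun hne => h1 ⟨r, hr, hne, hrd⟩)⟩
    exact Char.solvable_of_card_eq_pow_mul_pow 2 p Nat.prime_two hp _ rfl hpi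
  have hcnt2 : cnt G 2 ≤ 1 := by
    by_contra h2
    push Not at h2
    obtain ⟨p, q, hp, hq, hpq, hp2, hq2, hdp, hdq⟩ := htwo
    have : Fact (Nat.Prime 2) := ⟨Nat.prime_two⟩
    have h2G : 2 ∣ Nat.card G := by
      obtain ⟨g, hg⟩ := exists_of_cnt_ne_zero (show cnt G 2 ≠ 0 by omega)
      exact hg ▸ orderOf_dvd_natCard g
    have hodd : ¬ 2 ∣ cnt G 2 := by
      have h1 := dvd_sum_cnt (G := G) h2G
      rw [Nat.prime_two.divisors, Finset.sum_pair (by decide), cnt_one] at h1
      omega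
    have hev : ∀ m, 3 ≤ m → cnt G m ≠ cnt G 2 := fun m hm e => hodd (e ▸ (even_cnt hm).two_dvd)
    have h3p : 3 ≤ p := lt_of_le_of_ne hp.two_le (Ne.symm hp2)
    have h3q : 3 ≤ q := lt_of_le_of_ne hq.two_le (Ne.symm hq2)
    rcases hval 2 with e | e | e | e
    · omega
    · omega
    · have hpb := (h.prime hp hp2 hdp).resolve_left (e ▸ hev p h3p)
      have hqb := (h.prime hq hq2 hdq).resolve_left (e ▸ hev q h3q)
      exact hev _ (three_le_mul hp hq) ((same h.symm hp hq hpq hp2 hdp hdq hpb hqb).1.trans e.symm)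
    · have hpa := (h.prime hp hp2 hdp).resolve_right (e ▸ hev p h3p)
      have hqa := (h.prime hq hq2 hdq).resolve_right (e ▸ hev q h3q)
      exact hev _ (three_le_mul hp hq) ((same h hp hq hpq hp2 hdp hdq hpa hqa).1.trans e.symm)
  by_cases hdiff : ∃ p q : ℕ, p.Prime ∧ q.Prime ∧ p ≠ 2 ∧ q ≠ 2 ∧ p ∣ Nat.card G ∧ q ∣ Nat.card G ∧
      cnt G p ≠ cnt G q
  · obtain ⟨p, q, hp, hq, hp2, hq2, hdp, hdq, hne⟩ := hdiff
    have hpq : p ≠ q := fun e => hne (e ▸ rfl)
    obtain ⟨c, d, hcd, hcp, hdq'⟩ : ∃ c d, Two G c d ∧ cnt G p = c ∧ cnt G q = d := by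
      rcases h.prime hp hp2 hdp with e | e <;> rcases h.prime hq hq2 hdq with e' | e'
      · exact absurd (e.trans e'.symm) hne
      · exact ⟨a, b, h, e, e'⟩
      · exact ⟨b, a, h.symm, e, e'⟩
      · exact absurd (e.trans e'.symm) hne
    have hpi : ∀ r : ℕ, r.Prime → r ∣ Nat.card G → r = 2 ∨ r = p ∨ r = q := by
      intro r hr hdr
      by_contra hr'
      push Not at hr'
      obtain ⟨hr2, hrp, hrq⟩ := hr'
      rcases hcd.prime hr hr2 hdr with e | e
      · exact mixed hcd hp hr hq (Ne.symm hrp) hpq hrq hp2 hr2 hq2 hdp hdr hdq hcp e hdq'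
      · exact mixed hcd.symm hq hr hp (Ne.symm hrq) hpq.symm hrp hq2 hr2 hp2 hdq hdr hdp hdq' e hcp
    rcases dichotomy hcnt2 with ⟨N, hN, hodd, s, hs⟩ | ⟨u₀, k, hk, hu₀, hconj⟩
    · exact solvable_of_complement hp hq N hN hodd hs hpi
    · exfalso
      have h3 : 3 ≤ 2 ^ k := le_trans (by norm_num) (Nat.pow_le_pow_right two_pos hk)
      rcases (hcd _ h3).resolve_left (cnt_pos hu₀) with e | e
      · exact pair_false hcd hp hq hpq hp2 hq2 hdp hdq hcp hdq' u₀ hk hu₀ hconj e
      · exact pair_false hcd.symm hq hp hpq.symm hq2 hp2 hdq hdp hdq' hcp u₀ hk hu₀ hconj e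
  · obtain ⟨p, q, hp, hq, hpq, hp2, hq2, hdp, hdq⟩ := htwo
    push Not at hdiff
    exfalso
    have key : ∀ c d, Two G c d → cnt G p = c → False := by
      intro c d hcd hcp
      have hsame : ∀ r : ℕ, r.Prime → r ≠ 2 → r ∣ Nat.card G → cnt G r = c := fun r hr hr2 hdr =>
        (hdiff r p hr hp hr2 hp2 hdr hdp).trans hcp
      rcases dichotomy hcnt2 with ⟨N, hN, hodd, s, hs⟩ | ⟨u₀, k, hk, hu₀, hconj⟩
      · exact all_same_complement_false hcd hp hq hpq hp2 hdp hdq hq2 hsame N hN hodd hs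
      · exact all_same_false hcd hp hq hpq hp2 hq2 hdp hdq hcp (hsame q hq hq2 hdq) u₀ hk hu₀ hconj
    rcases h.prime hp hp2 hdp with e | e
    · exact key a b h e
    · exact key b a h.symm e


/-- A finite group in which the numbers of elements of each order that occurs (the numbers #{g : o(g) = m}, m ranging over the element orders) take exactly three different values is solvable. -/
theorem result {G : Type*} [Group G] [Finite G] (h : (((fun m : ℕ => Nat.card {g : G // orderOf g = m}) '' Set.range (orderOf : G → ℕ))).ncard = 3) : Group.IsSolvable G := by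
  classical
  set V := (fun m : ℕ => Nat.card {g : G // orderOf g = m}) '' Set.range (orderOf : G → ℕ) with hV
  have h1 : (1 : ℕ) ∈ V := ⟨1, ⟨1, orderOf_one⟩, cnt_one⟩
  have h2 : (V \ {1}).ncard = 2 := by rw [Set.ncard_sdiff_singleton_of_mem h1, h]
  obtain ⟨a, b, -, hab⟩ := Set.ncard_eq_two.mp h2
  have ha : a ∈ V \ {1} := hab ▸ Set.mem_insert a {b}
  have hb : b ∈ V \ {1} := hab ▸ Set.mem_insert_of_mem a rfl
  refine solvable_of_two_values (G := G) (a := a) (b := b) (fun e => ha.2 e) (fun e => hb.2 e) fun m => ?_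
  by_cases hm : ∃ g : G, orderOf g = m
  · obtain ⟨g, rfl⟩ := hm
    have hmem : cnt G (orderOf g) ∈ V := ⟨_, ⟨g, rfl⟩, rfl⟩
    by_cases h' : cnt G (orderOf g) = 1
    · exact Or.inr (Or.inl h')
    · have : cnt G (orderOf g) ∈ V \ {1} := ⟨hmem, h'⟩
      rw [hab] at this
      exact Or.inr (Or.inr this)
  · exact Or.inl (cnt_eq_zero fun g hg => hm ⟨g, hg⟩)

end Cfsg.Agent.S3996
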