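import Cfsg.Statements.S3997
import Cfsg.Agent.Lib.OrderType

set_option autoImplicit false
open Cfsg

open Subgroup
open scoped Pointwise
namespace Cfsg.Agent.S3997

/-- Let G and H be finite groups with the same order type: for every m they have the same number of elements of order m. If G is nilpotent then so is H. -/
theorem result {G H : Type*} [Group G] [Finite G] [Group H] [Finite H] (hT : (∀ m : ℕ, Nat.card {g : G // orderOf g = m} = Nat.card {h : H // orderOf h = m})) (hG : Group.IsNilpotent G) :
    Group.IsNilpotent H := by
  refine ((Group.isNilpotent_of_finite_tfae (G := H)).out 0 3).mpr fun p hp Q => ?_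
  have : Fact p.Prime := hp
  obtain ⟨P⟩ : Nonempty (Sylow p G) := inferInstance
  exact Cfsg.Agent.OrderType.sylow_normal hT P inferInstance Q

end Cfsg.Agent.S3997
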