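import Cfsg.Statements.S3998
import Cfsg.Agent.Supersolv.Props
import Cfsg.Agent.Lib.OrderType

set_option autoImplicit false
open Cfsg

open Subgroup
open scoped Pointwise
namespace Cfsg.Agent.S3998

universe u v

theorem sylow_normal_aux : ∀ (n : ℕ) (G : Type u) [Group G] [Finite G], Nat.card G ≤ n →
    Cfsg.IsSupersolvable G → ∀ (p : ℕ) [Fact p.Prime], (∀ q : ℕ, q.Prime → q ∣ Nat.card G → q ≤ p) →
    ∀ P : Sylow p G, (P : Subgroup G).Normal := by
  intro n
  induction n using Nat.strong_induction_on with | _ n ih =>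
  intro G _ _ hn hG p hpf hmax P
  have hp : p.Prime := Fact.out
  by_cases hpd : p ∣ Nat.card G
  swap
  · have : (P : Subgroup G) = ⊥ := by
      obtain ⟨k, hk⟩ := IsPGroup.iff_card.mp P.2
      refine card_eq_one.mp ?_
      rw [hk]
      rcases k with _ | k
      · rfl
      · exact absurd ((hk ▸ dvd_pow_self p k.succ_ne_zero).trans (card_subgroup_dvd_card _)) hpd
    rw [this]; infer_instance
  obtain ⟨C, hCn, hCc⟩ := Cfsg.Agent.Supersolv.exists_largest_prime_normal hG p hp hpd hmax
  have : C.Normal := hCn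
  have hCp : IsPGroup p C := IsPGroup.of_card (n := 1) (by rw [hCc, pow_one])
  have hCP : C ≤ (P : Subgroup G) := hCp.le_sylow_of_normal P
  have hlt : Nat.card (G ⧸ C) < n := (Cfsg.Agent.Supersolv.card_quotient_prime_lt C (hCc ▸ hp)).trans_le hn
  have hf := QuotientGroup.mk'_surjective C
  have hN := ih _ hlt (G ⧸ C) le_rfl (Cfsg.Agent.Supersolv.supersolvable_quotient hG C) p
    (fun q hq hqd => hmax q hq (hqd.trans (Subgroup.card_quotient_dvd_card C))) (P.mapSurjective hf)
  have e : (P : Subgroup G) = (P.mapSurjective hf : Subgroup (G ⧸ C)).comap (QuotientGroup.mk' C) := by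
    rw [Sylow.coe_mapSurjective, comap_map_eq, QuotientGroup.ker_mk', sup_eq_left.mpr hCP]
  rw [e]
  exact hN.comap _

/-- In a quotient by a normal Hall subgroup the number of solutions of `x ^ m = 1` is determined. -/
theorem card_quotient_pow {G : Type*} [Group G] [Finite G] (P : Subgroup G) [P.Normal]
    (hcop : (Nat.card P).Coprime P.index) (m : ℕ) :
    Nat.card {g : G // g ^ (m * Nat.card P) = 1} = Nat.card {x : G ⧸ P // x ^ m = 1} * Nat.card P := by
  have hiff : ∀ g : G, g ^ (m * Nat.card P) = 1 ↔ (g : G ⧸ P) ^ m = 1 := by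
    intro g
    constructor
    · intro h
      have h1 : ((g : G ⧸ P) ^ m) ^ Nat.card P = 1 := by
        rw [← pow_mul, ← QuotientGroup.mk_pow, h, QuotientGroup.mk_one]
      rw [← orderOf_eq_one_iff]
      refine Nat.eq_one_of_dvd_coprimes hcop (orderOf_dvd_of_pow_eq_one h1) ?_
      rw [index_eq_card]
      exact orderOf_dvd_natCard _
    · intro h
      rw [← QuotientGroup.mk_pow, QuotientGroup.eq_one_iff] at h
      rw [pow_mul]
      exact congrArg Subtype.val (pow_card_eq_one' (x := (⟨_, h⟩ : P)))
  rw [Nat.card_congr (Equiv.subtypeEquivRight hiff)]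
  show Nat.card (QuotientGroup.mk ⁻¹' {x : G ⧸ P | x ^ m = 1}) = _
  rw [Nat.card_congr (QuotientGroup.preimageMkEquivSubgroupProdSet P _), Nat.card_prod, mul_comm]
  rfl

theorem solvable_aux : ∀ (n : ℕ) (G : Type u) (H : Type v) [Group G] [Finite G] [Group H] [Finite H],
    Nat.card G ≤ n → Cfsg.IsSupersolvable G →
    (∀ m : ℕ, Nat.card {g : G // g ^ m = 1} = Nat.card {h : H // h ^ m = 1}) →
    Group.IsSolvable H := by
  intro n
  induction n using Nat.strong_induction_on with | _ n ih =>
  intro G H _ _ _ _ hn hG hT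
  have hcard : Nat.card G = Nat.card H := by
    have h0 := hT 0
    rwa [Nat.card_congr (Equiv.subtypeUnivEquiv fun g => pow_zero g),
      Nat.card_congr (Equiv.subtypeUnivEquiv fun h => pow_zero h)] at h0
  by_cases h1 : Nat.card H = 1
  · have := (Nat.card_eq_one_iff_unique.mp h1).1
    exact Group.isSolvable_of_comm fun a b => Subsingleton.elim _ _
  have hne : (Nat.card H).primeFactors.Nonempty :=
    Nat.nonempty_primeFactors.mpr (by have := Nat.card_pos (α := H); omega)
  set p := (Nat.card H).primeFactors.max' hne with hpdef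
  have hpmem := (Nat.card H).primeFactors.max'_mem hne
  have hp : p.Prime := Nat.prime_of_mem_primeFactors hpmem
  have hpd : p ∣ Nat.card H := Nat.dvd_of_mem_primeFactors hpmem
  have : Fact p.Prime := ⟨hp⟩
  have hmax : ∀ q : ℕ, q.Prime → q ∣ Nat.card G → q ≤ p := fun q hq hqd =>
    Finset.le_max' _ q (Nat.mem_primeFactors.mpr ⟨hq, hcard ▸ hqd, Nat.card_pos.ne'⟩)
  obtain ⟨P⟩ : Nonempty (Sylow p G) := inferInstance
  obtain ⟨Q⟩ : Nonempty (Sylow p H) := inferInstance
  have hPn := sylow_normal_aux _ G le_rfl hG p hmax P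
  have hPQ : Nat.card (Q : Subgroup H) = Nat.card (P : Subgroup G) := by
    rw [Q.card_eq_multiplicity, P.card_eq_multiplicity, hcard]
  have hQn : (Q : Subgroup H).Normal := by
    refine (Cfsg.Agent.OrderType.normal_of_card_pow_eq_one (Q : Subgroup H) ?_).1
    rw [hPQ, ← hT]
    exact Cfsg.Agent.OrderType.card_pow_eq_one_of_normal (P : Subgroup G) P.card_coprime_index
  have : Group.IsSolvable (Q : Subgroup H) :=
    @IsNilpotent.to_isSolvable _ _ Q.2.isNilpotent
  have hlt : Nat.card (G ⧸ (P : Subgroup G)) < n := by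
    refine lt_of_lt_of_le ?_ hn
    rw [← index_eq_card, ← (P : Subgroup G).index_mul_card]
    refine lt_mul_of_one_lt_right (Nat.pos_of_ne_zero index_ne_zero_of_finite) ?_
    rw [one_lt_card_iff_ne_bot]
    exact P.ne_bot_of_dvd_card (hcard ▸ hpd)
  have hsol : Group.IsSolvable (H ⧸ (Q : Subgroup H)) := by
    refine ih _ hlt (G ⧸ (P : Subgroup G)) (H ⧸ (Q : Subgroup H)) le_rfl
      (Cfsg.Agent.Supersolv.supersolvable_quotient hG _) fun m => ?_
    have e1 := card_quotient_pow (P : Subgroup G) P.card_coprime_index m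
    have e2 := card_quotient_pow (Q : Subgroup H) Q.card_coprime_index m
    rw [hT, ← hPQ, e2] at e1
    exact (Nat.eq_of_mul_eq_mul_right Nat.card_pos e1).symm
  exact (Group.isSolvable_iff_subgroup_quotient (Q : Subgroup H)).mpr ⟨this, hsol⟩

/-- Let G and H be finite groups with the same order type (for every m the same number of elements of order m). If G is supersolvable then H is solvable. -/
theorem result {G H : Type*} [Group G] [Finite G] [Group H] [Finite H] (hT : (∀ m : ℕ, Nat.card {g : G // orderOf g = m} = Nat.card {h : H // orderOf h = m})) (hG : Cfsg.IsSupersolvable G) :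
    Group.IsSolvable H := by
  exact solvable_aux _ G H le_rfl hG (Cfsg.Agent.OrderType.card_pow_eq_one hT)

end Cfsg.Agent.S3998
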