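import Cfsg.Statements.S3999
import Cfsg.Agent.Lib.FrobeniusComplement
import Cfsg.Agent.Lib.OrderType
import Cfsg.Agent.Lib.MinimalNormal
import Cfsg.Agent.Lib.Hall
import Cfsg.Agent.Solvable.FrobeniusNilpotent
import Cfsg.Agent.S0108
import Cfsg.Agent.S0144
import Cfsg.Agent.S3998

set_option autoImplicit false
open Cfsg

open Subgroup
open scoped Pointwise
namespace Cfsg.Agent.S3999

universe u v

/-- Every Sylow subgroup has a cyclic subgroup of index 1 (odd primes) or at most 2 (`p = 2`). -/
def AlmostCyclic (C : Type*) [Group C] : Prop :=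
  ∀ (p : ℕ) [Fact p.Prime] (P : Sylow p C),
    ∃ x ∈ (P : Subgroup C), Nat.card (P : Subgroup C) ≤ orderOf x * (if p = 2 then 2 else 1)

theorem almostCyclic_map {C D : Type*} [Group C] [Finite C] [Group D] (f : C →* D)
    (hf : Function.Surjective f) (h : AlmostCyclic C) : AlmostCyclic D := by
  intro p _ Q
  obtain ⟨P, rfl⟩ := Sylow.mapSurjective_surjective hf p Q
  obtain ⟨x, hx, hxc⟩ := h p P
  refine ⟨f x, mem_map_of_mem f hx, ?_⟩
  rw [Sylow.coe_mapSurjective]
  set K := f.ker.subgroupOf (P : Subgroup C) with hK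
  have hcard : Nat.card ((P : Subgroup C).map f) * Nat.card K = Nat.card (P : Subgroup C) := by
    rw [← relIndex_ker, mul_comm]
    exact K.card_mul_index
  have hord : orderOf x ≤ orderOf (f x) * Nat.card K := by
    refine Nat.le_of_dvd (Nat.mul_pos (Nat.pos_of_dvd_of_pos (orderOf_map_dvd f x) (orderOf_pos x)) Nat.card_pos) ?_
    refine orderOf_dvd_of_pow_eq_one ?_
    rw [pow_mul]
    have hmem : (⟨x ^ orderOf (f x), pow_mem hx _⟩ : (P : Subgroup C)) ∈ K := by
      rw [hK, mem_subgroupOf, MonoidHom.mem_ker, map_pow, pow_orderOf_eq_one]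
    exact congrArg (fun z : K => ((z : (P : Subgroup C)) : C)) (pow_card_eq_one' (x := (⟨_, hmem⟩ : K)))
  refine Nat.le_of_mul_le_mul_right ?_ (Nat.card_pos (α := K))
  rw [hcard, mul_right_comm]
  exact hxc.trans (Nat.mul_le_mul_right _ hord)

theorem card_minimal_normal_le {C : Type*} [Group C] [Finite C] (h : AlmostCyclic C) {q : ℕ} (hq : q.Prime)
    (A : Subgroup C) (hA : IsPGroup q A) (hexp : ∀ a ∈ A, a ^ q = 1) :
    Nat.card A ≤ q * (if q = 2 then 2 else 1) := by
  have : Fact q.Prime := ⟨hq⟩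
  obtain ⟨S, hS⟩ := hA.exists_le_sylow
  obtain ⟨x, hx, hxc⟩ := h q S
  have h1 : (zpowers x).relIndex A ≤ (zpowers x).relIndex (S : Subgroup C) :=
    relIndex_le_of_le_right hS index_ne_zero_of_finite
  have h2 : (zpowers x).relIndex (S : Subgroup C) ≤ (if q = 2 then 2 else 1) := by
    have h := card_mul_index ((zpowers x).subgroupOf (S : Subgroup C))
    rw [Nat.card_congr (subgroupOfEquivOfLe (zpowers_le.mpr hx)).toEquiv, Nat.card_zpowers] at h
    rw [← h] at hxc
    exact Nat.le_of_mul_le_mul_left hxc (orderOf_pos x)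
  have h3 : Nat.card (zpowers x ⊓ A : Subgroup C) ≤ q := by
    obtain ⟨c, hc⟩ := IsCyclic.exists_generator (α := (zpowers x ⊓ A : Subgroup C).subgroupOf (zpowers x))
    rw [← Nat.card_congr (subgroupOfEquivOfLe (inf_le_left : zpowers x ⊓ A ≤ zpowers x)).toEquiv,
      ← orderOf_eq_card_of_forall_mem_zpowers hc, ← Subgroup.orderOf_coe, ← Subgroup.orderOf_coe]
    exact Nat.le_of_dvd hq.pos (orderOf_dvd_of_pow_eq_one (hexp _ (mem_subgroupOf.mp c.2).2))
  have h4 := card_mul_index ((zpowers x).subgroupOf A)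
  rw [← inf_subgroupOf_right, Nat.card_congr (subgroupOfEquivOfLe (inf_le_right : zpowers x ⊓ A ≤ A)).toEquiv,
    inf_subgroupOf_right] at h4
  rw [← h4]
  exact Nat.mul_le_mul h3 (h1.trans h2)

theorem sylow_normal_aux : ∀ (n : ℕ) (C : Type u) [Group C] [Finite C], Nat.card C ≤ n →
    Group.IsSolvable C → AlmostCyclic C → ∀ (p : ℕ) [Fact p.Prime], 5 ≤ p →
    (∀ q : ℕ, q.Prime → q ∣ Nat.card C → q ≤ p) → ∀ P : Sylow p C, (P : Subgroup C).Normal := by
  intro n
  induction n using Nat.strong_induction_on with | _ n ih =>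
  intro C _ _ hn hs hAC p hpf hp5 hmax P
  have hp : p.Prime := Fact.out
  rcases subsingleton_or_nontrivial C with hsub | hnt
  · exact ⟨fun a ha g => by rw [Subsingleton.elim (g * a * g⁻¹) a]; exact ha⟩
  obtain ⟨A, hAn, hAne, hAmin⟩ := MinNormal.exists_minimal_normal (G := C)
  have : A.Normal := hAn
  obtain ⟨-, q, hq, hexp, hAq⟩ := MinNormal.elementary_abelian A hAne hAmin
  have : Fact q.Prime := ⟨hq⟩
  obtain ⟨i, hi⟩ := IsPGroup.iff_card.mp hAq
  have hAlt : 1 < Nat.card A := A.one_lt_card_iff_ne_bot.mpr hAne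
  have hlt : Nat.card (C ⧸ A) < n := by
    refine lt_of_lt_of_le ?_ hn
    rw [← index_eq_card, ← A.index_mul_card]
    exact lt_mul_of_one_lt_right (Nat.pos_of_ne_zero index_ne_zero_of_finite) hAlt
  have hf := QuotientGroup.mk'_surjective A
  have hN := ih _ hlt (C ⧸ A) le_rfl (Group.isSolvable_of_surjective hf) (almostCyclic_map _ hf hAC) p hp5
    (fun r hr hrd => hmax r hr (hrd.trans (Subgroup.card_quotient_dvd_card A))) (P.mapSurjective hf)
  set K := (P : Subgroup C) ⊔ A with hK
  have hKn : K.Normal := by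
    have e : K = (P.mapSurjective hf : Subgroup (C ⧸ A)).comap (QuotientGroup.mk' A) := by
      rw [Sylow.coe_mapSurjective, comap_map_eq, QuotientGroup.ker_mk']
    rw [e]
    exact hN.comap _
  by_cases hqp : q = p
  · subst hqp
    have e : K = P := sup_eq_left.mpr (hAq.le_sylow_of_normal P)
    exact e ▸ hKn
  have hqlt : q < p := lt_of_le_of_ne (hmax q hq
    ((hi ▸ dvd_pow_self q (fun e => hAlt.ne' (by rw [hi, e, pow_zero]))).trans (card_subgroup_dvd_card A))) hqp
  have hAp : Nat.card A < p := by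
    refine lt_of_le_of_lt (card_minimal_normal_le hAC hq A hAq hexp) ?_
    split_ifs with h2
    · omega
    · omega
  have hPA : (P : Subgroup C) ≤ centralizer (A : Set C) := by
    intro y hy a ha
    let y' : ConjAct C := ConjAct.toConjAct y
    let Y : SubMulAction (zpowers y') C :=
      { carrier := A
        smul_mem' := fun g a ha => by
          show (g : ConjAct C) • a ∈ A
          rw [ConjAct.smul_def]; exact hAn.conj_mem a ha _ }
    have hpy : IsPGroup p (zpowers y') := by
      obtain ⟨k, hk⟩ := P.2 ⟨y, hy⟩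
      obtain ⟨j, -, hj⟩ := (Nat.dvd_prime_pow hp).mp
        (orderOf_dvd_of_pow_eq_one (show y ^ p ^ k = 1 from congrArg Subtype.val hk))
      refine IsPGroup.of_card (n := j) ?_
      rw [Nat.card_zpowers, ← hj]
      exact orderOf_injective (ConjAct.toConjAct (G := C)).toMonoidHom ConjAct.toConjAct.injective y
    have : Finite Y := Subtype.finite
    obtain ⟨m, hm⟩ := hpy.card_orbit (⟨a, ha⟩ : Y)
    have hle : p ^ m < p := by
      rw [← hm]
      exact lt_of_le_of_lt (Finite.card_subtype_le _) hAp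
    have hm0 : m = 0 := by
      by_contra h
      exact absurd hle (not_lt.mpr (Nat.le_self_pow h p))
    rw [hm0, pow_zero, Nat.card_coe_set_eq] at hm
    obtain ⟨b, hb⟩ := Set.ncard_eq_one.mp hm
    have h1 : (⟨y', mem_zpowers y'⟩ : zpowers y') • (⟨a, ha⟩ : Y) = b := Set.mem_singleton_iff.mp (hb ▸ MulAction.mem_orbit _ _)
    have h2 : (⟨a, ha⟩ : Y) = b := Set.mem_singleton_iff.mp (hb ▸ MulAction.mem_orbit_self _)
    rw [← h2] at h1
    have h3 : y * a * y⁻¹ = a := congrArg Subtype.val h1
    exact (mul_inv_eq_iff_eq_mul.mp h3).symm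
  have hKN : K ≤ normalizer ((P : Subgroup C) : Set C) := by
    refine sup_le le_normalizer fun a ha => centralizer_le_normalizer _ ?_
    intro y hy
    exact ((hPA hy) a ha).symm
  have htop := Sylow.normalizer_sup_eq_top (P.subtype (le_sup_left : (P : Subgroup C) ≤ K))
  rw [Sylow.coe_subtype, map_subgroupOf_eq_of_le le_sup_left, sup_eq_left.mpr hKN] at htop
  exact normalizer_eq_top_iff.mp htop

theorem solvable_transfer : ∀ (n : ℕ) (C : Type u) (L : Type v) [Group C] [Finite C] [Group L] [Finite L],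
    Nat.card C ≤ n → Group.IsSolvable C → AlmostCyclic C →
    (∀ m : ℕ, Nat.card {g : C // g ^ m = 1} = Nat.card {h : L // h ^ m = 1}) →
    Group.IsSolvable L := by
  intro n
  induction n using Nat.strong_induction_on with | _ n ih =>
  intro C L _ _ _ _ hn hs hAC hT
  have hcard : Nat.card C = Nat.card L := by
    have h0 := hT 0
    rwa [Nat.card_congr (Equiv.subtypeUnivEquiv fun g => pow_zero g),
      Nat.card_congr (Equiv.subtypeUnivEquiv fun h => pow_zero h)] at h0
  by_cases hbig : ∃ r, r.Prime ∧ 5 ≤ r ∧ r ∣ Nat.card L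
  swap
  · push Not at hbig
    set N := Nat.card L with hN
    have hN0 : N ≠ 0 := Nat.card_pos.ne'
    have h23 : ∀ r, r.Prime → r ∣ N → r = 2 ∨ r = 3 := fun r hr hd => by
      have := hr.two_le
      have h4 : r ≠ 4 := fun e => by subst e; norm_num at hr
      have : r < 5 := Nat.lt_of_not_le fun h5 => hbig r hr h5 hd
      omega
    set M := N / 2 ^ N.factorization 2 with hM
    refine Cfsg.Agent.S0144.result 2 3 (N.factorization 2) (M.factorization 3) Nat.prime_two Nat.prime_three ?_
    show N = _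
    have hM0 : M ≠ 0 := (Nat.ordCompl_pos 2 hN0).ne'
    have hMq : M = 3 ^ M.factorization 3 := by
      by_contra hne
      have h1 : M / 3 ^ M.factorization 3 ≠ 1 := fun e => hne (by
        have := Nat.ordProj_mul_ordCompl_eq_self M 3
        rw [e, mul_one] at this; exact this.symm)
      obtain ⟨r, hr, hrd⟩ := Nat.exists_prime_and_dvd h1
      have hrM : r ∣ M := hrd.trans (Nat.ordCompl_dvd M 3)
      rcases h23 r hr (hrM.trans (Nat.ordCompl_dvd N 2)) with rfl | rfl
      · exact Nat.not_dvd_ordCompl hr hN0 hrM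
      · exact Nat.not_dvd_ordCompl hr hM0 hrd
    rw [← hMq, hM, Nat.ordProj_mul_ordCompl_eq_self]
  obtain ⟨r, hr, hr5, hrd⟩ := hbig
  have hne : (Nat.card L).primeFactors.Nonempty := ⟨r, Nat.mem_primeFactors.mpr ⟨hr, hrd, Nat.card_pos.ne'⟩⟩
  set p := (Nat.card L).primeFactors.max' hne with hpdef
  have hpmem := (Nat.card L).primeFactors.max'_mem hne
  have hp : p.Prime := Nat.prime_of_mem_primeFactors hpmem
  have hp5 : 5 ≤ p := hr5.trans (Finset.le_max' _ r (Nat.mem_primeFactors.mpr ⟨hr, hrd, Nat.card_pos.ne'⟩))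
  have : Fact p.Prime := ⟨hp⟩
  have hmax : ∀ q : ℕ, q.Prime → q ∣ Nat.card C → q ≤ p := fun q hq hqd =>
    Finset.le_max' _ q (Nat.mem_primeFactors.mpr ⟨hq, hcard ▸ hqd, Nat.card_pos.ne'⟩)
  obtain ⟨P⟩ : Nonempty (Sylow p C) := inferInstance
  obtain ⟨Q⟩ : Nonempty (Sylow p L) := inferInstance
  have hPn := sylow_normal_aux _ C le_rfl hs hAC p hp5 hmax P
  have hPQ : Nat.card (Q : Subgroup L) = Nat.card (P : Subgroup C) := by
    rw [Q.card_eq_multiplicity, P.card_eq_multiplicity, hcard]
  have hQn : (Q : Subgroup L).Normal := by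
    refine (Cfsg.Agent.OrderType.normal_of_card_pow_eq_one (Q : Subgroup L) ?_).1
    rw [hPQ, ← hT]
    exact Cfsg.Agent.OrderType.card_pow_eq_one_of_normal (P : Subgroup C) P.card_coprime_index
  have hlt : Nat.card (C ⧸ (P : Subgroup C)) < n := by
    refine lt_of_lt_of_le ?_ hn
    rw [← index_eq_card, ← (P : Subgroup C).index_mul_card]
    refine lt_mul_of_one_lt_right (Nat.pos_of_ne_zero index_ne_zero_of_finite) ?_
    rw [one_lt_card_iff_ne_bot]
    exact P.ne_bot_of_dvd_card (hcard ▸ Nat.dvd_of_mem_primeFactors hpmem)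
  have hf := QuotientGroup.mk'_surjective (P : Subgroup C)
  have hsol : Group.IsSolvable (L ⧸ (Q : Subgroup L)) := by
    refine ih _ hlt (C ⧸ (P : Subgroup C)) (L ⧸ (Q : Subgroup L)) le_rfl
      (Group.isSolvable_of_surjective hf) (almostCyclic_map _ hf hAC) fun m => ?_
    have e1 := S3998.card_quotient_pow (P : Subgroup C) P.card_coprime_index m
    have e2 := S3998.card_quotient_pow (Q : Subgroup L) Q.card_coprime_index m
    rw [hT, ← hPQ, e2] at e1
    exact (Nat.eq_of_mul_eq_mul_right Nat.card_pos e1).symm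
  exact (Group.isSolvable_iff_subgroup_quotient (Q : Subgroup L)).mpr
    ⟨@IsNilpotent.to_isSolvable _ _ Q.2.isNilpotent, hsol⟩

theorem card_sup_dvd {G : Type*} [Group G] (A B : Subgroup G) [A.Normal] :
    Nat.card (A ⊔ B : Subgroup G) ∣ Nat.card A * Nat.card B := by
  rw [← relIndex_bot_left (A ⊔ B), ← relIndex_mul_relIndex ⊥ A (A ⊔ B) bot_le le_sup_left,
    relIndex_bot_left, sup_comm, relIndex_sup_right]
  exact mul_dvd_mul_left _ (relIndex_dvd_card A B)

theorem frobenius_transfer {F : Type u} {G : Type v} [Group F] [Finite F] [Group G] [Finite G]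
    (hF : ∃ C : Subgroup F, Cfsg.IsFrobeniusComplement C)
    (hT : ∀ m : ℕ, Nat.card {g : F // orderOf g = m} = Nat.card {h : G // orderOf h = m}) :
    (∃ C : Subgroup G, Cfsg.IsFrobeniusComplement C) ∧ (Group.IsSolvable F → Group.IsSolvable G) := by
  classical
  obtain ⟨C, hC⟩ := hF
  obtain ⟨N, hNset, hNn, hNC⟩ := Frobenius.exists_kernel hC
  have : N.Normal := hNn
  have hcop := Frobenius.coprime_of_complement hC hNC
  have hidx : N.index = Nat.card C := hNC.symm.index_eq_card
  have hcopI : (Nat.card N).Coprime N.index := hidx ▸ hcop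
  set k := Nat.card N with hk
  have hk1 : 1 < k := N.one_lt_card_iff_ne_bot.mpr (Frobenius.ne_bot_of_isComplement' hC hNC)
  have hc1 : 1 < Nat.card C := C.one_lt_card_iff_ne_bot.mpr hC.1
  have hcardG : Nat.card G = k * Nat.card C := by
    rw [← OrderType.card_eq hT, hk]; exact hNC.card_mul.symm
  have hNnil : Group.IsNilpotent N := Frobenius.kernel_isNilpotent_of_criterion
    (fun X _ _ p _ hp P h1 h2 => (Cfsg.Agent.S0108.result hp P).mpr ⟨h1, h2⟩) hC hNC
  have hdich : ∀ x : F, orderOf x ∣ k ∨ orderOf x ∣ Nat.card C := by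
    intro x
    by_cases hx : x ∈ N
    · exact Or.inl (N.orderOf_dvd_natCard hx)
    · right
      rw [← SetLike.mem_coe, hNset, Frobenius.mem_frobeniusKernel] at hx
      push Not at hx
      obtain ⟨g, hg⟩ := hx.2
      have e := orderOf_injective (MulAut.conj g⁻¹).toMonoidHom (MulAut.conj g⁻¹).injective x
      simp only [MulEquiv.coe_toMonoidHom, MulAut.conj_apply, inv_inv] at e
      rw [← e]
      exact C.orderOf_dvd_natCard hg
  -- the normal Sylow subgroups at primes dividing `k`
  have hsyl : ∀ q : ℕ, ∃ S : Subgroup G, S.Normal ∧ (q.Prime → q ∣ k → ∃ Q : Sylow q G, S = Q) ∧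
      Nat.card S ∣ k := by
    intro q
    by_cases hq : q.Prime ∧ q ∣ k
    swap
    · exact ⟨⊥, inferInstance, fun h1 h2 => absurd ⟨h1, h2⟩ hq, by simp⟩
    have : Fact q.Prime := ⟨hq.1⟩
    obtain ⟨P⟩ : Nonempty (Sylow q F) := inferInstance
    obtain ⟨S⟩ : Nonempty (Sylow q N) := inferInstance
    have hSn : ((S : Subgroup N).map N.subtype).Normal := by
      have htfae : Group.IsNilpotent N ↔ ∀ (p : ℕ) (_ : Fact p.Prime) (P : Sylow p N), (P : Subgroup N).Normal :=
        Group.isNilpotent_of_finite_tfae.out 0 3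
      have : (S : Subgroup N).Normal := htfae.mp hNnil q ⟨hq.1⟩ S
      have : (S : Subgroup N).Characteristic := Sylow.characteristic_of_normal S this
      infer_instance
    have hPn : (P : Subgroup F).Normal := by
      have hc : Nat.card ((S : Subgroup N).map N.subtype) = Nat.card (P : Subgroup F) := by
        rw [card_map_of_injective N.subtype_injective, S.card_eq_multiplicity, P.card_eq_multiplicity]
        congr 1
        rw [← N.card_mul_index, Nat.factorization_mul Nat.card_pos.ne' index_ne_zero_of_finite]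
        simp only [Finsupp.coe_add, Pi.add_apply, left_eq_add]
        exact Nat.factorization_eq_zero_of_not_dvd fun h =>
          hq.1.not_dvd_one (hcopI ▸ Nat.dvd_gcd hq.2 h)
      have hle : (S : Subgroup N).map N.subtype ≤ (P : Subgroup F) := (S.2.map _).le_sylow_of_normal P
      rw [← eq_of_le_of_card_ge hle hc.ge]
      exact hSn
    obtain ⟨Q⟩ : Nonempty (Sylow q G) := inferInstance
    refine ⟨Q, OrderType.sylow_normal hT P hPn Q, fun _ _ => ⟨Q, rfl⟩, ?_⟩
    obtain ⟨i, hi⟩ := IsPGroup.iff_card.mp Q.2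
    have hd := card_subgroup_dvd_card (Q : Subgroup G)
    rw [hcardG, hi] at hd
    rw [hi]
    refine (Nat.Coprime.dvd_mul_right (Nat.Coprime.pow_left i (hq.1.coprime_iff_not_dvd.mpr fun h =>
      hq.1.not_dvd_one (hcop ▸ Nat.dvd_gcd hq.2 h)))).mp hd
  choose S hSn hSQ hSk using hsyl
  have : ∀ q, (S q).Normal := hSn
  set M : Subgroup G := k.primeFactors.sup S with hMdef
  have hMnorm : M.Normal := by
    rw [hMdef]
    refine Finset.sup_induction (p := fun X : Subgroup G => X.Normal) inferInstance (fun A hA B hB => ?_) fun q _ => hSn q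
    have := hA; have := hB; exact Subgroup.sup_normal A B
  have hMdvd : Nat.card M ∣ ∏ q ∈ k.primeFactors, Nat.card (S q) := by
    rw [hMdef]
    generalize k.primeFactors = s
    induction s using Finset.induction_on with
    | empty => simp
    | insert a s ha ih =>
      rw [Finset.sup_insert, Finset.prod_insert ha]
      exact (card_sup_dvd (S a) _).trans (mul_dvd_mul_left _ ih)
  have hMk : Nat.card M = k := by
    have hk0 : k ≠ 0 := by omega
    apply Nat.dvd_antisymm
    · refine hMdvd.trans (dvd_of_eq ?_)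
      conv_rhs => rw [← Nat.factorization_prod_pow_eq_self hk0]
      refine Finset.prod_congr rfl fun q hq => ?_
      have hqp := Nat.prime_of_mem_primeFactors hq
      have : Fact q.Prime := ⟨hqp⟩
      obtain ⟨Q, hQ⟩ := hSQ q hqp (Nat.dvd_of_mem_primeFactors hq)
      rw [hQ, Q.card_eq_multiplicity, hcardG, Nat.factorization_mul hk0 Nat.card_pos.ne']
      simp only [Finsupp.coe_add, Pi.add_apply]
      rw [Nat.factorization_eq_zero_of_not_dvd fun h =>
        hqp.not_dvd_one (hcop ▸ Nat.dvd_gcd (Nat.dvd_of_mem_primeFactors hq) h), add_zero]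
    · rw [Nat.dvd_iff_prime_pow_dvd_dvd]
      intro q i hqp hqi
      rcases Nat.eq_zero_or_pos i with rfl | hi
      · simp
      have hqk : q ∈ k.primeFactors :=
        Nat.mem_primeFactors.mpr ⟨hqp, (dvd_pow_self q hi.ne').trans hqi, hk0⟩
      have : Fact q.Prime := ⟨hqp⟩
      obtain ⟨Q, hQ⟩ := hSQ q hqp (Nat.dvd_of_mem_primeFactors hqk)
      have h1 := card_dvd_of_le (Finset.le_sup (f := S) hqk)
      rw [hQ, Q.card_eq_multiplicity, hcardG, Nat.factorization_mul hk0 Nat.card_pos.ne'] at h1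
      refine (Nat.pow_dvd_pow q ?_).trans h1
      simp only [Finsupp.coe_add, Pi.add_apply]
      exact le_add_right ((hqp.pow_dvd_iff_le_factorization hk0).mp hqi)
  have hMidx : M.index = Nat.card C := by
    refine Nat.eq_of_mul_eq_mul_left (show 0 < k by omega) ?_
    rw [← hcardG, ← hMk, M.card_mul_index]
  have hMcop : (Nat.card M).Coprime M.index := by rw [hMk, hMidx]; exact hcop
  obtain ⟨L, hL⟩ := exists_right_complement'_of_coprime (N := M) hMcop
  have hLc : Nat.card L = Nat.card C := by rw [← hMidx, hL.symm.index_eq_card]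
  have hMne : M ≠ ⊥ := M.one_lt_card_iff_ne_bot.mp (hMk ▸ hk1)
  have hfpf : ∀ h ∈ L, h ≠ 1 → M ⊓ Subgroup.centralizer {h} = ⊥ := by
    intro h hh h1
    rw [eq_bot_iff]
    rintro x ⟨hx, hxc⟩
    by_contra hx1
    rw [mem_bot] at hx1
    have hc : Commute x h := mem_centralizer_singleton_iff.mp hxc
    have hox : orderOf x ∣ k := hMk ▸ M.orderOf_dvd_natCard hx
    have hoh : orderOf h ∣ Nat.card C := hLc ▸ L.orderOf_dvd_natCard hh
    have hmul := hc.orderOf_mul_eq_mul_orderOf_of_coprime
      (Nat.Coprime.of_dvd hox hoh hcop)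
    obtain ⟨e, he⟩ := OrderType.exists_orderEquiv hT
    have hd := hdich (e.symm (x * h))
    rw [← he, Equiv.apply_symm_apply, hmul] at hd
    rcases hd with hd | hd
    · exact h1 (orderOf_eq_one_iff.mp (Nat.eq_one_of_dvd_coprimes hcop ((dvd_mul_left _ _).trans hd) hoh))
    · exact hx1 (orderOf_eq_one_iff.mp (Nat.eq_one_of_dvd_coprimes hcop hox ((dvd_mul_right _ _).trans hd)))
  have hLF := Frobenius.isFrobeniusComplement_of_fpf hL hMne
    (L.one_lt_card_iff_ne_bot.mp (hLc ▸ hc1)) hfpf
  refine ⟨⟨L, hLF⟩, fun hs => ?_⟩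
  have hAC : AlmostCyclic C := by
    intro p hp P
    rcases FrobeniusCompl.sylow_cyclic_or_quaternion (K := N)
        (le_top.trans (normalizer_eq_top_iff.mpr hNn).ge) (Frobenius.ne_bot_of_isComplement' hC hNC)
        (fun _ hh h1 => Frobenius.fpf_of_disjoint hC hNC.disjoint hh h1) P with hcyc | ⟨rfl, n, ⟨e⟩⟩
    · obtain ⟨x, hx⟩ := IsCyclic.exists_generator (α := (P : Subgroup C))
      refine ⟨x, x.2, ?_⟩
      rw [← orderOf_eq_card_of_forall_mem_zpowers hx, Subgroup.orderOf_coe]
      exact Nat.le_mul_of_pos_right _ (by split_ifs <;> omega)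
    · have : NeZero (2 ^ n) := ⟨by positivity⟩
      refine ⟨(e.symm (QuaternionGroup.a 1) : C), (e.symm (QuaternionGroup.a 1)).2, ?_⟩
      rw [Subgroup.orderOf_coe, MulEquiv.orderOf_eq, QuaternionGroup.orderOf_a_one, if_pos rfl,
        Nat.card_congr e.toEquiv, Nat.card_eq_fintype_card, QuaternionGroup.card]
      omega
  have hAC' : AlmostCyclic (F ⧸ N) :=
    almostCyclic_map ((QuotientGroup.mk' N).comp C.subtype) (fun z => by
      obtain ⟨z, rfl⟩ := QuotientGroup.mk'_surjective N z
      have hz : z ∈ (N : Set F) * (C : Set F) := by rw [hNC.mul_eq]; trivial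
      obtain ⟨a, ha, b, hb, rfl⟩ := hz
      refine ⟨⟨b, hb⟩, ?_⟩
      show QuotientGroup.mk' N b = QuotientGroup.mk' N (a * b)
      rw [map_mul, show QuotientGroup.mk' N a = 1 from (QuotientGroup.eq_one_iff a).mpr ha, one_mul]) hAC
  have hq : Group.IsSolvable (G ⧸ M) := by
    refine solvable_transfer _ (F ⧸ N) (G ⧸ M) le_rfl
      (Group.isSolvable_of_surjective (QuotientGroup.mk'_surjective N)) hAC' fun m => ?_
    have e1 := S3998.card_quotient_pow N hcopI m
    have e2 := S3998.card_quotient_pow M hMcop m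
    rw [OrderType.card_pow_eq_one hT, ← hk, ← hMk, e2] at e1
    exact (Nat.eq_of_mul_eq_mul_right Nat.card_pos e1).symm
  exact (Group.isSolvable_iff_subgroup_quotient M).mpr ⟨@IsNilpotent.to_isSolvable _ _
    (Frobenius.kernel_isNilpotent_of_criterion
      (fun X _ _ p _ hp P h1 h2 => (Cfsg.Agent.S0108.result hp P).mpr ⟨h1, h2⟩) hLF hL), hq⟩

/-- Let F be a finite Frobenius group (it has a Frobenius complement) and G a finite group with the same order type as F (for every m the same number of elements of order m). Then G is a Frobenius group; moreover G is solvable if and only if F is. -/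
theorem result {F G : Type*} [Group F] [Finite F] [Group G] [Finite G] (hF : (∃ C : Subgroup F, Cfsg.IsFrobeniusComplement C)) (hT : (∀ m : ℕ, Nat.card {g : F // orderOf g = m} = Nat.card {h : G // orderOf h = m})) :
    (∃ C : Subgroup G, Cfsg.IsFrobeniusComplement C) ∧ (Group.IsSolvable G ↔ Group.IsSolvable F) := by
  obtain ⟨hG, h1⟩ := frobenius_transfer hF hT
  exact ⟨hG, fun h => (frobenius_transfer hG fun m => (hT m).symm).2 h, h1⟩

end Cfsg.Agent.S3999
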