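import Cfsg.Statements.S4001
import Cfsg.Agent.Lib.FrobeniusComplement
import Cfsg.Agent.Solvable.FrobeniusNilpotent
import Cfsg.Agent.S0108
import Cfsg.Agent.GKTools.NormTrick
import Cfsg.Agent.Lib.SchurZassenhaus

set_option autoImplicit false
open Cfsg

open Subgroup
open scoped Pointwise
namespace Cfsg.Agent.S4001

theorem exists_orderOf_eq {G : Type*} [Group G] [Finite G] (z : G) {m : ℕ} (h : m ∣ orderOf z) :
    ∃ x : G, orderOf x = m := by
  refine ⟨z ^ (orderOf z / m), ?_⟩
  have hm : orderOf z / m ≠ 0 := Nat.div_ne_zero_iff_of_dvd h |>.mpr ⟨(orderOf_pos z).ne', fun e => by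
    rw [e] at h; exact (orderOf_pos z).ne' (Nat.zero_dvd.mp h)⟩
  rw [orderOf_pow_of_dvd hm (Nat.div_dvd_of_dvd h), Nat.div_div_self h (orderOf_pos z).ne']

theorem eq_of_commute {Γ : Type*} [Group Γ] [Finite Γ] {M L : Subgroup Γ} (hLM : L ≤ normalizer (M : Set Γ))
    (hM : M ≠ ⊥) (hfpf : ∀ h ∈ L, h ≠ 1 → M ⊓ centralizer {h} = ⊥) {a b : Γ} (ha : a ∈ L) (hb : b ∈ L)
    (hc : Commute a b) {r : ℕ} (hao : orderOf a = r) (hbo : orderOf b = r) : zpowers a = zpowers b := by
  set A := closure ({a, b} : Set Γ) with hA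
  have hAL : A ≤ L := (closure_le _).mpr (Set.insert_subset ha (Set.singleton_subset_iff.mpr hb))
  have hcomm : IsMulCommutative A := by
    have := Subgroup.isMulCommutative_closure (k := ({a, b} : Set Γ)) (by
      rintro x (rfl | rfl) y (rfl | rfl)
      · rfl
      · exact hc
      · exact hc.symm
      · rfl)
    exact this
  have := FrobeniusCompl.isCyclic_of_le hLM hM hfpf A hAL (Or.inl hcomm)
  have ha' : zpowers a ≤ A := zpowers_le.mpr (subset_closure (Set.mem_insert _ _))
  have hb' : zpowers b ≤ A := zpowers_le.mpr (subset_closure (Set.mem_insert_of_mem _ rfl))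
  have e : (zpowers a).subgroupOf A = (zpowers b).subgroupOf A := FrobeniusCompl.eq_of_card_eq (by
    rw [Nat.card_congr (subgroupOfEquivOfLe ha').toEquiv, Nat.card_congr (subgroupOfEquivOfLe hb').toEquiv,
      Nat.card_zpowers, Nat.card_zpowers, hao, hbo])
  rwa [subgroupOf_inj, inf_eq_left.mpr ha', inf_eq_left.mpr hb'] at e

theorem nilpotent_sylow_normal {X : Type*} [Group X] [Finite X] (h : Group.IsNilpotent X)
    (p : ℕ) [hp : Fact p.Prime] (P : Sylow p X) : (P : Subgroup X).Normal := by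
  have htfae : Group.IsNilpotent X ↔ ∀ (p : ℕ) (_ : Fact p.Prime) (P : Sylow p X), (P : Subgroup X).Normal :=
    Group.isNilpotent_of_finite_tfae.out 0 3
  exact htfae.mp h p hp P

theorem main {G : Type*} [Group G] [Finite G] (H K : Subgroup G) [H.Normal] [K.Normal] (hlt : H < K)
    (hK : ∃ C : Subgroup ↥K, Cfsg.IsFrobeniusComplement C ∧ Cfsg.frobeniusKernel C = (H.subgroupOf K : Set ↥K))
    (hGH : ∃ C : Subgroup (G ⧸ H), Cfsg.IsFrobeniusComplement C ∧ Cfsg.frobeniusKernel C = (K.map (QuotientGroup.mk' H) : Set (G ⧸ H))) :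
    Group.IsSolvable G ∧ Odd (Nat.card (↥K ⧸ H.subgroupOf K)) ∧
      Nat.Coprime (Nat.card (↥K ⧸ H.subgroupOf K)) (Nat.card ↥H * Nat.card (G ⧸ K)) ∧ IsCyclic (G ⧸ K) ∧
      ∀ p q : ℕ, p.Prime → q.Prime → p ≠ q → p ∣ Nat.card G → q ∣ Nat.card G →
        ((∃ g : G, orderOf g = p * q) ↔ (p ∣ Nat.card (↥K ⧸ H.subgroupOf K) ↔ q ∣ Nat.card (↥K ⧸ H.subgroupOf K))) := by
  classical
  obtain ⟨C, hC, hCker⟩ := hK
  obtain ⟨D, hD, hDker⟩ := hGH
  set H' := H.subgroupOf K with hH'
  set f := QuotientGroup.mk' H with hf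
  set Kb := K.map f with hKb
  have hHC : IsComplement' H' C := by
    obtain ⟨N, hN, -, hc⟩ := Frobenius.exists_kernel hC
    rwa [SetLike.coe_injective (hN.trans hCker)] at hc
  have hKD : IsComplement' Kb D := by
    obtain ⟨N, hN, -, hc⟩ := Frobenius.exists_kernel hD
    rwa [SetLike.coe_injective (hN.trans hDker)] at hc
  have hH'n : H'.Normal := inferInstance
  have hKbn : Kb.Normal := Subgroup.Normal.map inferInstance f (QuotientGroup.mk'_surjective H)
  have hT : ∀ {X : Type _} [Group X] [Finite X] {A B : Subgroup X} [A.Normal], Cfsg.IsFrobeniusComplement B →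
      IsComplement' A B → Group.IsNilpotent A := fun hB hc => Frobenius.kernel_isNilpotent_of_criterion
    (fun X _ _ p _ hp P h1 h2 => (Cfsg.Agent.S0108.result hp P).mpr ⟨h1, h2⟩) hB hc
  have hH'nil : Group.IsNilpotent H' := hT hC hHC
  have hKbnil : Group.IsNilpotent Kb := hT hD hKD
  have hHnil : Group.IsNilpotent H := Group.nilpotent_of_mulEquiv (subgroupOfEquivOfLe hlt.le)
  have hC1 : C ≠ ⊥ := hC.1
  have hH'ne : H' ≠ ⊥ := Frobenius.ne_bot_of_isComplement' hC hHC
  have hKbne : Kb ≠ ⊥ := Frobenius.ne_bot_of_isComplement' hD hKD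
  have hfpfC : ∀ c ∈ C, c ≠ 1 → H' ⊓ centralizer {c} = ⊥ := fun c hc h1 =>
    Frobenius.fpf_of_disjoint hC hHC.disjoint hc h1
  have hfpfD : ∀ d ∈ D, d ≠ 1 → Kb ⊓ centralizer {d} = ⊥ := fun d hd h1 =>
    Frobenius.fpf_of_disjoint hD hKD.disjoint hd h1
  have hKcomap : ∀ g : G, f g ∈ Kb → g ∈ K := by
    intro g hg
    have : g ∈ Kb.comap f := hg
    rwa [hKb, comap_map_eq, QuotientGroup.ker_mk', sup_eq_left.mpr hlt.le] at this
  -- nothing outside `K` commutes with an element of `K` outside `H`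
  have hB : ∀ k ∈ K, k ∉ H → ∀ g : G, g ∉ K → ¬ Commute k g := by
    intro k hk hkH g hg hc
    have hk' : f k ∈ Kb := mem_map_of_mem f hk
    have hg' : f g ∉ Kb := fun h => hg (hKcomap g h)
    rw [← SetLike.mem_coe, ← hDker, Frobenius.mem_frobeniusKernel] at hg'
    push Not at hg'
    obtain ⟨-, a, ha⟩ := hg'
    by_cases h1 : a⁻¹ * f g * a = 1
    · have : f g = 1 := by
        have := congrArg (fun z => a * z * a⁻¹) h1
        simpa [mul_assoc] using this
      exact hg (hlt.le ((QuotientGroup.eq_one_iff g).mp this))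
    have hmem : a⁻¹ * f k * a ∈ Kb ⊓ centralizer {a⁻¹ * f g * a} := by
      refine ⟨by simpa using hKbn.conj_mem _ hk' a⁻¹, mem_centralizer_singleton_iff.mpr ?_⟩
      have := congrArg (fun z => a⁻¹ * f z * a) hc.eq
      simp only [map_mul] at this
      calc a⁻¹ * f k * a * (a⁻¹ * f g * a) = a⁻¹ * (f k * f g) * a := by group
        _ = a⁻¹ * (f g * f k) * a := this
        _ = _ := by group
    rw [hfpfD _ ha h1, mem_bot] at hmem
    have : f k = 1 := by
      have := congrArg (fun z => a * z * a⁻¹) hmem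
      simpa [mul_assoc] using this
    exact hkH ((QuotientGroup.eq_one_iff k).mp this)
  -- `C ≃ K/H`
  let e : C →* Kb := (f.comp (K.subtype.comp C.subtype)).codRestrict Kb fun c => mem_map_of_mem f (c : K).2
  have he : Function.Bijective e := by
    constructor
    · intro a b hab
      have h1 : f ((a : K) : G) = f ((b : K) : G) := congrArg Subtype.val hab
      have h2 : ((a⁻¹ * b : C) : K) ∈ H' := by
        show ((a : K) : G)⁻¹ * ((b : K) : G) ∈ H
        exact QuotientGroup.eq.mp h1
      have h3 : ((a⁻¹ * b : C) : K) ∈ H' ⊓ C := ⟨h2, (a⁻¹ * b).2⟩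
      rw [hHC.disjoint.eq_bot, mem_bot] at h3
      exact inv_mul_eq_one.mp (Subtype.ext h3)
    · rintro ⟨_, k, hk, rfl⟩
      have : (⟨k, hk⟩ : K) ∈ (H' : Set K) * (C : Set K) := by rw [hHC.mul_eq]; trivial
      obtain ⟨a, ha, b, hb, hab⟩ := this
      refine ⟨⟨b, hb⟩, Subtype.ext ?_⟩
      show f (b : G) = f k
      rw [show k = (a : G) * b from (congrArg Subtype.val hab).symm, map_mul,
        show f (a : G) = 1 from (QuotientGroup.eq_one_iff _).mpr ha, one_mul]
  let eC : C ≃* Kb := MulEquiv.ofBijective e he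
  have hCnil : Group.IsNilpotent C := Group.nilpotent_of_mulEquiv eC.symm
  have hcardQ : Nat.card (K ⧸ H') = Nat.card C := by rw [← index_eq_card, hHC.symm.index_eq_card]
  have hCle : C ≤ normalizer (H' : Set K) := le_top.trans (normalizer_eq_top_iff.mpr hH'n).ge
  have hcardKb : Nat.card Kb = Nat.card C := (Nat.card_congr eC.toEquiv).symm
  -- odd order
  have hodd : Odd (Nat.card C) := by
    rw [← Nat.not_even_iff_odd, even_iff_two_dvd]
    intro h2
    have : Fact (Nat.Prime 2) := ⟨Nat.prime_two⟩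
    obtain ⟨P⟩ : Nonempty (Sylow 2 C) := inferInstance
    have hPn := nilpotent_sylow_normal hCnil 2 P
    have : Nontrivial (P : Subgroup C) := (P : Subgroup C).bot_or_nontrivial.resolve_left (P.ne_bot_of_dvd_card h2)
    obtain ⟨z, hz⟩ := exists_prime_orderOf_dvd_card' (G := center (P : Subgroup C)) 2 (by
      obtain ⟨k, hk⟩ := IsPGroup.iff_card.mp (P.2.to_subgroup (center (P : Subgroup C)))
      rw [hk]
      refine dvd_pow_self 2 ?_
      rintro rfl
      exact P.2.bot_lt_center.ne' (card_eq_one.mp (by rw [hk, pow_zero])))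
    rw [← Subgroup.orderOf_coe, ← Subgroup.orderOf_coe] at hz
    set zc : C := ((z : (P : Subgroup C)) : C) with hzc
    have huniq : ∀ u : C, orderOf u = 2 → u = zc := by
      intro u hu
      have huP : u ∈ (P : Subgroup C) := by
        have h := (IsPGroup.of_card (n := 1) (by rw [Nat.card_zpowers, hu, pow_one]) : IsPGroup 2 (zpowers u))
        have h2 : zpowers u ⊔ (P : Subgroup C) = P := P.3 (h.to_sup_of_normal_right P.2) le_sup_right
        exact h2 ▸ le_sup_left (b := (P : Subgroup C)) (mem_zpowers u)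
      have hc : Commute (u : K) (zc : K) :=
        congrArg (fun x : (P : Subgroup C) => ((x : C) : K)) (mem_center_iff.mp z.2 ⟨u, huP⟩)
      have h := eq_of_commute hCle hH'ne hfpfC u.2 zc.2 hc (r := 2)
        (by rw [Subgroup.orderOf_coe, hu]) (by rw [Subgroup.orderOf_coe, hz])
      have hmem : (u : K) ∈ zpowers (zc : K) := h ▸ mem_zpowers _
      rw [mem_zpowers_iff] at hmem
      obtain ⟨i, hi⟩ := hmem
      rw [← zpow_mod_orderOf, Subgroup.orderOf_coe, hz] at hi
      rcases Int.emod_two_eq_zero_or_one i with h0 | h0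
      · rw [Nat.cast_ofNat, h0, zpow_zero] at hi
        exact absurd hu (by rw [show u = 1 from Subtype.ext hi.symm, orderOf_one]; norm_num)
      · rw [Nat.cast_ofNat, h0, zpow_one] at hi
        exact Subtype.ext hi.symm
    obtain ⟨⟨d, hd⟩, hd1⟩ := D.ne_bot_iff_exists_ne_one.mp hD.1
    have hd1' : d ≠ 1 := fun e => hd1 (Subtype.ext e)
    set zb : Kb := eC zc with hzb
    have hzb' : d * (zb : G ⧸ H) * d⁻¹ = zb := by
      set w : Kb := ⟨d * (zb : G ⧸ H) * d⁻¹, hKbn.conj_mem _ zb.2 d⟩ with hw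
      have hwo : orderOf (eC.symm w) = 2 := by
        rw [MulEquiv.orderOf_eq, ← Subgroup.orderOf_coe]
        show orderOf (d * (zb : G ⧸ H) * d⁻¹) = 2
        have := orderOf_injective (MulAut.conj d).toMonoidHom (MulAut.conj d).injective (zb : G ⧸ H)
        simp only [MulEquiv.coe_toMonoidHom, MulAut.conj_apply] at this
        rw [this, Subgroup.orderOf_coe, hzb, MulEquiv.orderOf_eq, hz]
      have := congrArg eC (huniq _ hwo)
      rw [MulEquiv.apply_symm_apply, ← hzb] at this
      exact congrArg Subtype.val this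
    have hmem : (zb : G ⧸ H) ∈ Kb ⊓ centralizer {d} :=
      ⟨zb.2, mem_centralizer_singleton_iff.mpr (mul_inv_eq_iff_eq_mul.mp hzb').symm⟩
    rw [hfpfD d hd hd1', mem_bot] at hmem
    have : orderOf zc = 1 := by
      rw [← eC.orderOf_eq, ← hzb, ← Subgroup.orderOf_coe, hmem, orderOf_one]
    omega
  have hZ : IsZGroup C := by
    refine ⟨fun r hr R => ?_⟩
    have : Fact r.Prime := ⟨hr⟩
    rcases FrobeniusCompl.sylow_cyclic_or_quaternion hCle hH'ne hfpfC R with h | ⟨rfl, -⟩
    · exact h
    · have : (R : Subgroup C) = ⊥ := by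
        obtain ⟨k, hk⟩ := IsPGroup.iff_card.mp R.2
        refine card_eq_one.mp ?_
        rw [hk]
        rcases k with _ | k
        · rfl
        · exact absurd (even_iff_two_dvd.mpr ((hk ▸ dvd_pow_self 2 k.succ_ne_zero).trans
            (card_subgroup_dvd_card _))) (Nat.not_even_iff_odd.mpr hodd)
      rw [this]
      exact isCyclic_of_subsingleton
  have hCcyc : IsCyclic C := inferInstance
  have hKbcyc : IsCyclic Kb := isCyclic_of_surjective eC.toMonoidHom eC.surjective
  -- `D` is cyclic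
  have hDcomm : IsMulCommutative D := by
    obtain ⟨⟨x, hx⟩, hgen⟩ := IsCyclic.exists_generator (α := Kb)
    have hx1 : x ≠ 1 := fun e => hKbne (by
      rw [eq_bot_iff]
      intro y hy
      obtain ⟨i, hi⟩ := mem_zpowers_iff.mp (hgen ⟨y, hy⟩)
      have hi' := congrArg Subtype.val hi
      simp only [SubgroupClass.coe_zpow, e, one_zpow] at hi'
      exact mem_bot.mpr hi'.symm)
    have hact : ∀ d : G ⧸ H, ∃ i : ℤ, d * x * d⁻¹ = x ^ i := by
      intro d
      obtain ⟨i, hi⟩ := mem_zpowers_iff.mp (hgen ⟨_, hKbn.conj_mem x hx d⟩)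
      exact ⟨i, (congrArg Subtype.val hi).symm.trans (by simp)⟩
    refine ⟨⟨fun a b => Subtype.ext ?_⟩⟩
    obtain ⟨i, hi⟩ := hact a
    obtain ⟨j, hj⟩ := hact b
    set u := ((b : G ⧸ H) * a)⁻¹ * (a * b) with hu
    have h1 : (a : G ⧸ H) * b * x * ((a : G ⧸ H) * b)⁻¹ = (b : G ⧸ H) * a * x * ((b : G ⧸ H) * a)⁻¹ := by
      calc (a : G ⧸ H) * b * x * ((a : G ⧸ H) * b)⁻¹ = a * (b * x * (b : G ⧸ H)⁻¹) * (a : G ⧸ H)⁻¹ := by group
        _ = (x ^ i) ^ j := by rw [hj, ← conj_zpow, hi]
        _ = (x ^ j) ^ i := by rw [← zpow_mul, ← zpow_mul, mul_comm]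
        _ = b * (a * x * (a : G ⧸ H)⁻¹) * (b : G ⧸ H)⁻¹ := by rw [hi, ← conj_zpow, hj]
        _ = _ := by group
    by_contra hne
    have hu1 : u ≠ 1 := fun e => hne ((inv_mul_eq_one.mp e).symm)
    have hmem : x ∈ Kb ⊓ centralizer {u} := by
      refine ⟨hx, mem_centralizer_singleton_iff.mpr ?_⟩
      have := congrArg (fun z => ((b : G ⧸ H) * a)⁻¹ * z * ((a : G ⧸ H) * b)) h1
      simp only [hu]
      simpa [mul_assoc] using this.symm
    rw [hfpfD u (mul_mem (inv_mem (mul_mem b.2 a.2)) (mul_mem a.2 b.2)) hu1, mem_bot] at hmem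
    exact hx1 hmem
  have hDcyc : IsCyclic D := FrobeniusCompl.isCyclic_of_le (le_top.trans (normalizer_eq_top_iff.mpr hKbn).ge)
    hKbne hfpfD D le_rfl (Or.inl hDcomm)
  let π : G ⧸ H →* G ⧸ K := QuotientGroup.map H K (MonoidHom.id G) hlt.le
  have hπ : Function.Surjective (π.comp D.subtype) := by
    intro z
    obtain ⟨g, rfl⟩ := QuotientGroup.mk'_surjective K z
    have : f g ∈ (Kb : Set (G ⧸ H)) * (D : Set (G ⧸ H)) := by rw [hKD.mul_eq]; trivial
    obtain ⟨a, ⟨k, hk, rfl⟩, b, hb, hab⟩ := this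
    refine ⟨⟨b, hb⟩, ?_⟩
    have h1 : π (f k) = 1 := (QuotientGroup.eq_one_iff k).mpr hk
    calc π b = π (f k) * π b := by rw [h1, one_mul]
      _ = π (f k * b) := (map_mul π _ _).symm
      _ = π (f g) := congrArg π hab
      _ = _ := rfl
  have hGKcyc : IsCyclic (G ⧸ K) := isCyclic_of_surjective _ hπ
  have hcopCH : (Nat.card C).Coprime (Nat.card H) := by
    rw [← Nat.card_congr (subgroupOfEquivOfLe hlt.le).toEquiv]
    exact (Frobenius.coprime_of_complement hC hHC).symm
  have hcopCQ : (Nat.card C).Coprime (Nat.card (G ⧸ K)) := by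
    rw [← hcardKb]
    exact (Frobenius.coprime_of_complement hD hKD).coprime_dvd_right
      (card_dvd_of_surjective _ hπ)
  have hcardG : Nat.card G = Nat.card H * Nat.card C * Nat.card (G ⧸ K) := by
    rw [card_eq_card_quotient_mul_card_subgroup K, ← hHC.card_mul,
      Nat.card_congr (subgroupOfEquivOfLe hlt.le).toEquiv, mul_comm]
  have hsolv : Group.IsSolvable G := by
    have h1 : Group.IsSolvable H' := @IsNilpotent.to_isSolvable _ _ hH'nil
    have h2 : Group.IsSolvable (K ⧸ H') := by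
      refine Group.isSolvable_of_surjective (f := (QuotientGroup.mk' H').comp C.subtype) ?_ (G := C)
      intro z
      obtain ⟨k, rfl⟩ := QuotientGroup.mk'_surjective H' z
      have : k ∈ (H' : Set K) * (C : Set K) := by rw [hHC.mul_eq]; trivial
      obtain ⟨a, ha, b, hb, rfl⟩ := this
      refine ⟨⟨b, hb⟩, ?_⟩
      show QuotientGroup.mk' H' b = QuotientGroup.mk' H' (a * b)
      rw [map_mul, show QuotientGroup.mk' H' a = 1 from (QuotientGroup.eq_one_iff a).mpr ha, one_mul]
    have h3 : Group.IsSolvable K := (Group.isSolvable_iff_subgroup_quotient H').mpr ⟨h1, h2⟩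
    have h4 : Group.IsSolvable (G ⧸ K) :=
      Group.isSolvable_of_comm fun a b => (IsCyclic.commGroup (α := G ⧸ K)).mul_comm a b
    exact (Group.isSolvable_iff_subgroup_quotient K).mpr ⟨h3, h4⟩
  rw [hcardQ]
  refine ⟨hsolv, hodd, Nat.Coprime.mul_right hcopCH hcopCQ, hGKcyc, fun p q hp hq hpq hpG hqG => ?_⟩
  have nmem : ∀ r, r.Prime → r ∣ Nat.card C → ¬ r ∣ Nat.card H ∧ ¬ r ∣ Nat.card (G ⧸ K) := fun r hr hd =>
    ⟨fun h => hr.not_dvd_one (hcopCH ▸ Nat.dvd_gcd hd h), fun h => hr.not_dvd_one (hcopCQ ▸ Nat.dvd_gcd hd h)⟩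
  have cases3 : ∀ r, r.Prime → r ∣ Nat.card G → ¬ r ∣ Nat.card C → r ∣ Nat.card H ∨ r ∣ Nat.card (G ⧸ K) := by
    intro r hr hd hC'
    rw [hcardG] at hd
    rcases hr.dvd_mul.mp hd with h | h
    · exact Or.inl ((hr.dvd_mul.mp h).resolve_right hC')
    · exact Or.inr h
  constructor
  · rintro ⟨g, hg⟩
    have main : ∀ r s : ℕ, r.Prime → s.Prime → r ≠ s → orderOf g = r * s → r ∣ Nat.card C →
        ¬ s ∣ Nat.card C → False := by
      intro r s hr hs hrs hg hrC hsC
      have hor : orderOf (g ^ s) = r := by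
        rw [orderOf_pow_of_dvd hs.ne_zero (hg ▸ dvd_mul_left s r), hg, Nat.mul_div_cancel _ hs.pos]
      have hos : orderOf (g ^ r) = s := by
        rw [orderOf_pow_of_dvd hr.ne_zero (hg ▸ dvd_mul_right r s), hg, Nat.mul_div_cancel_left _ hr.pos]
      obtain ⟨hrH, hrQ⟩ := nmem r hr hrC
      have h1K : g ^ s ∈ K := by
        by_contra h
        rw [← QuotientGroup.eq_one_iff, ← orderOf_eq_one_iff] at h
        have h1 : orderOf ((g ^ s : G) : G ⧸ K) ∣ r := hor ▸ orderOf_map_dvd (QuotientGroup.mk' K) (g ^ s)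
        exact hrQ (((Nat.dvd_prime hr).mp h1).resolve_left h ▸ orderOf_dvd_natCard _)
      have h1H : g ^ s ∉ H := fun h => hrH (hor ▸ H.orderOf_dvd_natCard h)
      have h2K : g ^ r ∈ K := by
        by_contra h
        exact hB _ h1K h1H _ h (Commute.pow_pow_self g s r)
      have h2H : (⟨g ^ r, h2K⟩ : K) ∈ H' := by
        by_contra h
        rw [← QuotientGroup.eq_one_iff, ← orderOf_eq_one_iff] at h
        have h1 : orderOf ((⟨g ^ r, h2K⟩ : K) : K ⧸ H') ∣ s := by
          have := orderOf_map_dvd (QuotientGroup.mk' H') (⟨g ^ r, h2K⟩ : K)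
          rwa [Subgroup.orderOf_mk, hos] at this
        have h2 := ((Nat.dvd_prime hs).mp h1).resolve_left h ▸ orderOf_dvd_natCard ((⟨g ^ r, h2K⟩ : K) : K ⧸ H')
        exact hsC (hcardQ ▸ h2)
      have h1' : (⟨g ^ s, h1K⟩ : K) ∉ (H' : Set K) := h1H
      rw [← hCker, Frobenius.mem_frobeniusKernel] at h1'
      push Not at h1'
      obtain ⟨-, a, ha⟩ := h1'
      have hne : a⁻¹ * (⟨g ^ s, h1K⟩ : K) * a ≠ 1 := fun e => hr.ne_one (by
        have := orderOf_injective (MulAut.conj a⁻¹).toMonoidHom (MulAut.conj a⁻¹).injective (⟨g ^ s, h1K⟩ : K)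
        simp only [MulEquiv.coe_toMonoidHom, MulAut.conj_apply, inv_inv, e, orderOf_one, Subgroup.orderOf_mk] at this
        rw [← hor, ← this])
      have hmem : a⁻¹ * (⟨g ^ r, h2K⟩ : K) * a ∈ H' ⊓ centralizer {a⁻¹ * (⟨g ^ s, h1K⟩ : K) * a} := by
        refine ⟨by simpa using hH'n.conj_mem _ h2H a⁻¹, mem_centralizer_singleton_iff.mpr ?_⟩
        have hc : (⟨g ^ r, h2K⟩ : K) * ⟨g ^ s, h1K⟩ = ⟨g ^ s, h1K⟩ * ⟨g ^ r, h2K⟩ :=
          Subtype.ext (Commute.pow_pow_self g r s)
        calc a⁻¹ * (⟨g ^ r, h2K⟩ : K) * a * (a⁻¹ * ⟨g ^ s, h1K⟩ * a) = a⁻¹ * (⟨g ^ r, h2K⟩ * ⟨g ^ s, h1K⟩) * a := by group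
          _ = a⁻¹ * (⟨g ^ s, h1K⟩ * ⟨g ^ r, h2K⟩) * a := by rw [hc]
          _ = _ := by group
      rw [hfpfC _ ha hne, mem_bot] at hmem
      have e1 : (⟨g ^ r, h2K⟩ : K) = 1 := by
        have := congrArg (fun z => a * z * a⁻¹) hmem
        simpa [mul_assoc] using this
      have e2 : g ^ r = 1 := congrArg Subtype.val e1
      rw [e2, orderOf_one] at hos
      exact hs.ne_one hos.symm
    constructor
    · exact fun h => by_contra fun h' => main p q hp hq hpq hg h h'
    · exact fun h => by_contra fun h' => main q p hq hp hpq.symm (hg.trans (mul_comm p q)) h h'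
  · intro hiff
    by_cases hpC : p ∣ Nat.card C
    · obtain ⟨c, hc⟩ := IsCyclic.exists_generator (α := C)
      refine exists_orderOf_eq ((c : K) : G) ?_
      rw [Subgroup.orderOf_coe, Subgroup.orderOf_coe, orderOf_eq_card_of_forall_mem_zpowers hc]
      exact ((Nat.coprime_primes hp hq).mpr hpq).mul_dvd_of_dvd_of_dvd hpC (hiff.mp hpC)
    have hqC : ¬ q ∣ Nat.card C := fun h => hpC (hiff.mpr h)
    have mixed : ∀ r s : ℕ, r.Prime → s.Prime → r ≠ s → r ∣ Nat.card H → ¬ s ∣ Nat.card H →
        ¬ s ∣ Nat.card C → s ∣ Nat.card (G ⧸ K) → ∃ g : G, orderOf g = r * s := by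
      intro r s hr hs hrs hrH hsH hsC hsQ
      have : Fact r.Prime := ⟨hr⟩
      have : Fact s.Prime := ⟨hs⟩
      -- a complement normalised by an element of order `s`
      set CG := C.map K.subtype with hCG
      set N := normalizer (CG : Set G) with hN
      have hsN : s ∣ Nat.card N := by
        have htop : K ⊔ N = ⊤ := by
          rw [eq_top_iff]
          intro g _
          let C2 : Subgroup K := C.map (MulAut.conjNormal g : K ≃* K).toMonoidHom
          have hC2card : Nat.card C2 = Nat.card C :=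
            card_map_of_injective (MulAut.conjNormal g : K ≃* K).injective
          have hc2 : IsComplement' H' C2 := by
            refine isComplement'_of_coprime ?_ ?_
            · rw [hC2card, hHC.card_mul]
            · rw [hC2card]; exact Frobenius.coprime_of_complement hC hHC
          obtain ⟨k, -, hk⟩ := SZ.conj_complement H' C C2 hHC hc2
            (by rw [hHC.symm.index_eq_card]; exact Frobenius.coprime_of_complement hC hHC)
            (Or.inl (@IsNilpotent.to_isSolvable _ _ hH'nil))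
          have hmem : (k : G)⁻¹ * g ∈ N := by
            rw [hN, mem_normalizer_iff_map_conj_eq]
            refine eq_of_le_of_card_ge ?_ (le_of_eq (Nat.card_congr (CG.equivMapOfInjective (MulAut.conj ((k : G)⁻¹ * g)).toMonoidHom (MulAut.conj ((k : G)⁻¹ * g)).injective).toEquiv))
            rintro _ ⟨_, ⟨c, hc, rfl⟩, rfl⟩
            have h1 : MulAut.conjNormal g c ∈ C2 := ⟨c, hc, rfl⟩
            rw [← hk] at h1
            obtain ⟨c', hc', hcc⟩ := h1
            refine ⟨c', hc', ?_⟩
            have h2 : (k : G) * (c' : G) * (k : G)⁻¹ = g * (c : G) * g⁻¹ := by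
              have := congrArg (fun z : K => (z : G)) hcc
              simpa [MulAut.conjNormal_apply] using this
            show (c' : G) = (k : G)⁻¹ * g * (c : G) * ((k : G)⁻¹ * g)⁻¹
            calc (c' : G) = (k : G)⁻¹ * ((k : G) * c' * (k : G)⁻¹) * k := by group
              _ = _ := by rw [h2]; group
          have := mul_mem_sup k.2 hmem
          rwa [mul_inv_cancel_left] at this
        refine hsQ.trans ?_
        rw [← index_eq_card, ← relIndex_top_right, ← htop, sup_comm, relIndex_sup_right]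
        exact relIndex_dvd_card K N
      obtain ⟨⟨y, hyN⟩, hyo⟩ := exists_prime_orderOf_dvd_card' s hsN
      rw [Subgroup.orderOf_mk] at hyo
      have hyK : y ∉ K := by
        intro h
        have h1 := hyo ▸ K.orderOf_dvd_natCard h
        rw [← hHC.card_mul, Nat.card_congr (subgroupOfEquivOfLe hlt.le).toEquiv] at h1
        exact (hs.dvd_mul.mp h1).elim hsH hsC
      -- an abelian normal `r`-subgroup
      obtain ⟨P⟩ : Nonempty (Sylow r H) := inferInstance
      have hPc : (P : Subgroup H).Characteristic := Sylow.characteristic_of_normal P (nilpotent_sylow_normal hHnil r P)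
      set P' := (P : Subgroup H).map H.subtype with hP'
      have hP'n : P'.Normal := by rw [hP']; infer_instance
      have hP'ne : P' ≠ ⊥ := by
        rw [hP', Ne, map_eq_bot_iff_of_injective _ H.subtype_injective]; exact P.ne_bot_of_dvd_card hrH
      have hP'p : IsPGroup r P' := P.2.map _
      set V := (center P').map P'.subtype with hV
      have hVn : V.Normal := by rw [hV]; infer_instance
      have hVH : V ≤ H := (map_subtype_le _).trans (map_subtype_le _)
      have : Nontrivial P' := P'.bot_or_nontrivial.resolve_left hP'ne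
      have hVne : V ≠ ⊥ := by
        rw [hV, Ne, map_eq_bot_iff_of_injective _ P'.subtype_injective]; exact hP'p.bot_lt_center.ne'
      by_cases hfix : ∃ v ∈ V, v ≠ 1 ∧ Commute v y
      · obtain ⟨v, hv, hv1, hvy⟩ := hfix
        obtain ⟨j, hj⟩ := (hP'p.to_le (map_subtype_le _)) ⟨v, hv⟩
        obtain ⟨i, -, hi⟩ := (Nat.dvd_prime_pow hr).mp
          (orderOf_dvd_of_pow_eq_one (show v ^ r ^ j = 1 from congrArg Subtype.val hj))
        refine exists_orderOf_eq (v * y) ?_
        rw [hvy.orderOf_mul_eq_mul_orderOf_of_coprime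
          (by rw [hi, hyo]; exact Nat.Coprime.pow_left i ((Nat.coprime_primes hr hs).mpr hrs)), hi, hyo]
        refine Nat.mul_dvd_mul_right (dvd_pow_self r ?_) s
        rintro rfl
        exact hv1 (orderOf_eq_one_iff.mp (by rw [hi, pow_zero]))
      push Not at hfix
      exfalso
      let _ : CommGroup V :=
        { (inferInstance : Group V) with
          mul_comm := fun a b => by
            obtain ⟨a', ha', hae⟩ := a.2
            obtain ⟨b', hb', hbe⟩ := b.2
            apply Subtype.ext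
            show (a : G) * b = b * a
            rw [← hae, ← hbe, ← map_mul, ← map_mul, mem_center_iff.mp hb' a'] }
      let φ : G →* MulAut V := MulAut.conjNormal
      have hφ : ∀ (g : G) (v : V), ((φ g v : V) : G) = g * v * g⁻¹ := fun g v => MulAut.conjNormal_apply g v
      obtain ⟨⟨c, hc⟩, hc1⟩ := C.ne_bot_iff_exists_ne_one.mp hC1
      obtain ⟨⟨v, hv⟩, hv1⟩ := V.ne_bot_iff_exists_ne_one.mp hVne
      have hfixall : φ (c : G) ⟨v, hv⟩ = ⟨v, hv⟩ := by
        refine GKTools.fixed_of_norm_eq_one φ CG y s hs.pos (fun a ha => (mem_normalizer_iff.mp hyN a).mp ha)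
          ?_ ?_ ?_ _ _ ⟨c, hc, rfl⟩
        · rintro i hi0 his _ ⟨a, ha, rfl⟩ hcomm
          by_contra ha1
          have ha1' : a ≠ 1 := fun e => ha1 (by rw [e, map_one])
          refine hB (a : G) a.2 (fun h => ha1' ?_) (y ^ i) (fun h => hyK ?_) hcomm
          · have h3 : a ∈ H' ⊓ C := ⟨h, ha⟩
            rwa [hHC.disjoint.eq_bot, mem_bot] at h3
          · have hcop : (orderOf y).Coprime i := hyo ▸ (Nat.coprime_of_lt_prime hi0.ne' his hs)
            obtain ⟨m, hm⟩ := exists_pow_eq_self_of_coprime (x := y) (n := i) hcop.symm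
            exact hm ▸ pow_mem h m
        · intro w
          by_contra hne
          set z := ∏ i ∈ Finset.range s, φ (y ^ i) w with hz
          have hzfix : φ y z = z := by
            rw [hz, map_prod]
            have : ∀ i, φ y (φ (y ^ i) w) = φ (y ^ (i + 1)) w := fun i => by
              rw [pow_succ', map_mul, MulAut.mul_apply]
            simp only [this]
            have e1 := Finset.prod_range_succ' (fun i => φ (y ^ i) w) s
            have e2 := Finset.prod_range_succ (fun i => φ (y ^ i) w) s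
            rw [e2, show y ^ s = 1 from hyo ▸ pow_orderOf_eq_one y, show y ^ 0 = 1 from pow_zero y] at e1
            exact (mul_right_cancel e1).symm
          refine hfix z z.2 (fun e => hne (Subtype.ext e)) ?_
          have := congrArg Subtype.val hzfix
          rw [hφ] at this
          exact (mul_inv_eq_iff_eq_mul.mp this).symm
        · rw [card_map_of_injective K.subtype_injective]
          exact hcopCH.symm.coprime_dvd_left (card_dvd_of_le hVH)
      have h2 : (c : G) * v * (c : G)⁻¹ = v := by rw [← hφ (c : G) ⟨v, hv⟩, hfixall]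
      have hvK : (⟨v, hlt.le (hVH hv)⟩ : K) ∈ H' ⊓ centralizer {c} :=
        ⟨hVH hv, mem_centralizer_singleton_iff.mpr (Subtype.ext (mul_inv_eq_iff_eq_mul.mp h2).symm)⟩
      rw [hfpfC c hc (fun e => hc1 (Subtype.ext e)), mem_bot] at hvK
      exact hv1 (Subtype.ext (congrArg Subtype.val hvK :))
    by_cases hpH : p ∣ Nat.card H
    · by_cases hqH : q ∣ Nat.card H
      · have : Fact p.Prime := ⟨hp⟩
        have : Fact q.Prime := ⟨hq⟩
        obtain ⟨P⟩ : Nonempty (Sylow p H) := inferInstance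
        obtain ⟨Q⟩ : Nonempty (Sylow q H) := inferInstance
        obtain ⟨a, ha⟩ := exists_prime_orderOf_dvd_card' p (P.dvd_card_of_dvd_card hpH)
        obtain ⟨b, hb⟩ := exists_prime_orderOf_dvd_card' q (Q.dvd_card_of_dvd_card hqH)
        have hc := commute_of_normal_of_disjoint _ _ (nilpotent_sylow_normal hHnil p P)
          (nilpotent_sylow_normal hHnil q Q) (IsPGroup.disjoint_of_ne p q hpq _ _ P.2 Q.2) (a : H) b a.2 b.2
        refine ⟨(((a : H) * b : H) : G), ?_⟩
        rw [Subgroup.orderOf_coe, hc.orderOf_mul_eq_mul_orderOf_of_coprime] <;>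
          rw [Subgroup.orderOf_coe, Subgroup.orderOf_coe, ha, hb]
        exact (Nat.coprime_primes hp hq).mpr hpq
      · exact mixed p q hp hq hpq hpH hqH hqC ((cases3 q hq hqG hqC).resolve_left hqH)
    · have hpQ := (cases3 p hp hpG hpC).resolve_left hpH
      by_cases hqH : q ∣ Nat.card H
      · obtain ⟨g, hg⟩ := mixed q p hq hp hpq.symm hqH hpH hpC hpQ
        exact ⟨g, hg.trans (mul_comm q p)⟩
      · have hqQ := (cases3 q hq hqG hqC).resolve_left hqH
        obtain ⟨z, hz⟩ := IsCyclic.exists_generator (α := G ⧸ K)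
        obtain ⟨g, rfl⟩ := QuotientGroup.mk'_surjective K z
        refine exists_orderOf_eq g (dvd_trans ?_ (orderOf_map_dvd (QuotientGroup.mk' K) g))
        rw [orderOf_eq_card_of_forall_mem_zpowers hz]
        exact ((Nat.coprime_primes hp hq).mpr hpq).mul_dvd_of_dvd_of_dvd hpQ hqQ

/-- Let G be a 2-Frobenius group: it has normal subgroups H < K with K a Frobenius group with kernel H and G/H a Frobenius group with kernel K/H. Then G is solvable; K/H has odd order coprime to the order of H and to the order of G/K (it is the image of an odd-order Hall subgroup); G/K is cyclic; and the prime graph of G has exactly two connected components, both complete: for distinct primes p, q dividing the order of G, G has an element of order pq exactly when p and q either both divide the order of K/H or both do not. -/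
theorem result {G : Type*} [Group G] [Finite G] (H K : Subgroup G) [H.Normal] [K.Normal] (hlt : H < K)
    (hK : ∃ C : Subgroup ↥K, Cfsg.IsFrobeniusComplement C ∧ Cfsg.frobeniusKernel C = (H.subgroupOf K : Set ↥K))
    (hGH : ∃ C : Subgroup (G ⧸ H), Cfsg.IsFrobeniusComplement C ∧ Cfsg.frobeniusKernel C = (K.map (QuotientGroup.mk' H) : Set (G ⧸ H))) :
    Group.IsSolvable G ∧ Odd (Nat.card (↥K ⧸ H.subgroupOf K)) ∧
      Nat.Coprime (Nat.card (↥K ⧸ H.subgroupOf K)) (Nat.card ↥H * Nat.card (G ⧸ K)) ∧ IsCyclic (G ⧸ K) ∧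
      ∀ p q : ℕ, p.Prime → q.Prime → p ≠ q → p ∣ Nat.card G → q ∣ Nat.card G →
        ((∃ g : G, orderOf g = p * q) ↔ (p ∣ Nat.card (↥K ⧸ H.subgroupOf K) ↔ q ∣ Nat.card (↥K ⧸ H.subgroupOf K))) := by
  exact main H K hlt hK hGH

end Cfsg.Agent.S4001
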