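import Cfsg.Statements.S4002
import Cfsg.Agent.GKTools.Layers
import Mathlib.NumberTheory.Bertrand

set_option autoImplicit false
open Cfsg

open Subgroup
open scoped Pointwise
namespace Cfsg.Agent.S4002

/-- If the set of element orders of a finite group G is {1, 2, …, n} with n ≥ 7, then G is not solvable. -/
theorem result {G : Type*} [Group G] [Finite G] (n : ℕ) (hn : 7 ≤ n) (h : Set.range (orderOf : G → ℕ) = {k : ℕ | 1 ≤ k ∧ k ≤ n}) : ¬ Group.IsSolvable G := by
  intro hsolv
  have h3 : ∀ p q r : ℕ, p.Prime → q.Prime → r.Prime → p < q → q < r → r ≤ n → n < p * q → False := by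
    intro p q r hp hq hr hpq hqr hrn hn'
    have hmem : ∀ x, x.Prime → x ≤ n → x ∣ Nat.card G := fun x hx hxn => by
      obtain ⟨g, hg⟩ := (h.symm ▸ (⟨hx.one_lt.le, hxn⟩ : x ∈ {k : ℕ | 1 ≤ k ∧ k ≤ n}) : x ∈ Set.range (orderOf : G → ℕ))
      exact hg ▸ orderOf_dvd_natCard g
    have hbig : ∀ a b : ℕ, n < a * b → ¬ ∃ x : G, orderOf x = a * b := by
      rintro a b hab ⟨x, hx⟩
      have : a * b ∈ {k : ℕ | 1 ≤ k ∧ k ≤ n} := h ▸ ⟨x, hx⟩
      exact absurd this.2 (not_le.mpr hab)
    have hpr : n < p * r := hn'.trans_le (Nat.mul_le_mul_left p hqr.le)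
    have hqr' : n < q * r := hpr.trans_le (Nat.mul_le_mul_right r hpq.le)
    have : Group.IsSolvable (⊤ : Subgroup G) :=
      Group.isSolvable_of_isSolvable_injective (f := (⊤ : Subgroup G).subtype) (Subgroup.subtype_injective _)
    have hcardρ : 3 ≤ ({p, q, r} : Finset ℕ).card := by
      rw [Finset.card_insert_of_notMem (by simp [hpq.ne, (hpq.trans hqr).ne]),
        Finset.card_insert_of_notMem (by simp [hqr.ne]), Finset.card_singleton]
    refine hpq.ne (Cfsg.Agent.GKTools.coclique_solvable ({p, q, r} : Finset ℕ) hcardρ ?_ ?_ ⊤ this p (by simp) q (by simp) ?_ ?_)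
    · intro x hx
      simp only [Finset.mem_insert, Finset.mem_singleton] at hx
      rcases hx with rfl | rfl | rfl
      · exact ⟨hp, hmem _ hp ((hpq.trans hqr).le.trans hrn)⟩
      · exact ⟨hq, hmem _ hq (hqr.le.trans hrn)⟩
      · exact ⟨hr, hmem _ hr hrn⟩
    · intro x hx y hy hxy
      simp only [Finset.mem_insert, Finset.mem_singleton] at hx hy
      rcases hx with rfl | rfl | rfl <;> rcases hy with rfl | rfl | rfl <;>
        first
        | exact absurd rfl hxy
        | exact hbig _ _ (by first | assumption | (rw [Nat.mul_comm]; assumption))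
    · rw [Subgroup.card_top]; exact hmem p hp ((hpq.trans hqr).le.trans hrn)
    · rw [Subgroup.card_top]; exact hmem q hq (hqr.le.trans hrn)
  rcases le_or_gt n 14 with h14 | h14
  · exact h3 3 5 7 (by norm_num) (by norm_num) (by norm_num) (by norm_num) (by norm_num) (by omega) (by omega)
  rcases le_or_gt n 34 with h34 | h34
  · exact h3 5 7 11 (by norm_num) (by norm_num) (by norm_num) (by norm_num) (by norm_num) (by omega) (by omega)
  obtain ⟨p, hp, hp1, hp2⟩ := Nat.exists_prime_lt_and_le_two_mul (n / 8) (by omega)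
  obtain ⟨q, hq, hq1, hq2⟩ := Nat.exists_prime_lt_and_le_two_mul (2 * (n / 8)) (by omega)
  obtain ⟨r, hr, hr1, hr2⟩ := Nat.exists_prime_lt_and_le_two_mul (4 * (n / 8)) (by omega)
  refine h3 p q r hp hq hr (by omega) (by omega) (by omega) ?_
  calc n < (n / 8 + 1) * (2 * (n / 8) + 1) := by
        have h8 : 4 ≤ n / 8 := by omega
        have hn8 : n ≤ 8 * (n / 8) + 7 := by omega
        nlinarith
    _ ≤ p * q := Nat.mul_le_mul (by omega) (by omega)

end Cfsg.Agent.S4002
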