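import Cfsg.Statements.S4004
import Mathlib
import Cfsg.Agent.Cores.Basic
import Cfsg.Agent.Char.Burnside
import Cfsg.Agent.Lib.FrobeniusCount
import Cfsg.Agent.OrderCount.Miller
import Cfsg.Agent.Lib.MinimalNormal

set_option autoImplicit false
open Cfsg Cfsg.Agent
open scoped Pointwise

namespace Cfsg.Agent.S4004

/-- The number of elements of a given order. -/
noncomputable def num (G : Type*) [Group G] (m : ℕ) : ℕ := Nat.card {g : G // orderOf g = m}

variable {G : Type*} [Group G] [Finite G]

theorem card_pow_eq_sum {n : ℕ} (hn : n ≠ 0) :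
    Nat.card {g : G // g ^ n = 1} = ∑ m ∈ n.divisors, num G m := by
  classical
  have := Fintype.ofFinite G
  rw [Nat.card_eq_fintype_card, Fintype.card_subtype]
  simp only [num, Nat.card_eq_fintype_card, Fintype.card_subtype]
  convert (sum_card_orderOf_eq_card_pow_eq_one (G := G) hn).symm

theorem num_one : num G 1 = 1 := by
  rw [num, Nat.card_eq_one_iff_unique]
  exact ⟨⟨fun a b => Subtype.ext ((orderOf_eq_one_iff.mp a.2).trans (orderOf_eq_one_iff.mp b.2).symm)⟩,
    ⟨⟨1, orderOf_one⟩⟩⟩

theorem num_pos {m : ℕ} (hm : ∃ g : G, orderOf g = m) : 0 < num G m := by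
  obtain ⟨g, hg⟩ := hm
  haveI : Nonempty {x : G // orderOf x = m} := ⟨⟨g, hg⟩⟩
  exact Nat.card_pos

theorem prime_pred_dvd {p : ℕ} (hp : p.Prime) : p - 1 ∣ num G p := by
  rw [← Nat.totient_prime hp]; exact OrderCount.totient_dvd_card_orderOf p

theorem num_prime_sq {p : ℕ} (hp : p.Prime) : p ∣ num G (p ^ 2) :=
  (pow_one p ▸ OrderCount.pow_pred_dvd_totient hp 2).trans (OrderCount.totient_dvd_card_orderOf _)

theorem divisors_mul_sum {p q : ℕ} (hp : p.Prime) (hq : q.Prime) (hpq : p ≠ q) (f : ℕ → ℕ) :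
    ∑ m ∈ (p * q).divisors, f m = f 1 + f p + f q + f (p * q) := by
  have he : (p * q).divisors = {1, p, q, p * q} := by
    ext m
    simp only [Nat.mem_divisors, Finset.mem_insert, Finset.mem_singleton]
    constructor
    · rintro ⟨hm, -⟩
      obtain ⟨y, z, hy, hz, rfl⟩ := Nat.dvd_mul.mp hm
      rcases (Nat.dvd_prime hp).mp hy with e | e <;> rcases (Nat.dvd_prime hq).mp hz with e' | e' <;>
        simp [e, e']
    · have h0 : p * q ≠ 0 := Nat.mul_ne_zero hp.ne_zero hq.ne_zero
      rintro (rfl | rfl | rfl | rfl) <;> simp [h0, hp.ne_zero, hq.ne_zero]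
  have h2p := hp.two_le
  have h2q := hq.two_le
  have n1 : p * q ≠ p := by nlinarith
  have n2 : p * q ≠ q := by nlinarith
  have n3 : p * q ≠ 1 := by nlinarith
  rw [he, Finset.sum_insert (by simp; omega), Finset.sum_insert (by simp; omega),
    Finset.sum_insert (by simp; omega), Finset.sum_singleton]
  ring

theorem frob_prime {p : ℕ} (hp : p.Prime) (hd : p ∣ Nat.card G) : p ∣ 1 + num G p := by
  have h := FrobeniusCount.frobenius (G := G) hd
  rw [card_pow_eq_sum hp.ne_zero, hp.sum_divisors, num_one, add_comm] at h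
  exact h

theorem frob_mul {p q : ℕ} (hp : p.Prime) (hq : q.Prime) (hpq : p ≠ q) (hd : p ∣ Nat.card G)
    (hd' : q ∣ Nat.card G) : p ∣ 1 + num G p + num G q + num G (p * q) := by
  have h := FrobeniusCount.frobenius (G := G) (Nat.Coprime.mul_dvd_of_dvd_of_dvd
    ((Nat.coprime_primes hp hq).mpr hpq) hd hd')
  rw [card_pow_eq_sum (Nat.mul_ne_zero hp.ne_zero hq.ne_zero), divisors_mul_sum hp hq hpq,
    num_one] at h
  exact (dvd_mul_right p q).trans h

/-- If `p` does not divide the number of elements of order `q`, each element of order `p` commutes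
with one of order `q`. -/
theorem two_mul_le {p q : ℕ} (hp : p.Prime) (hq : q.Prime) (hpq : p ≠ q) (hq2 : 2 < q)
    (h : ¬ p ∣ num G q) : 2 * num G p ≤ num G (p * q) := by
  classical
  haveI := Fact.mk hp
  obtain ⟨P⟩ := (inferInstance : Nonempty (Sylow p G))
  let _ : MulAction (P : Subgroup G) {x : G // orderOf x = q} :=
    { smul := fun g x => ⟨g.1 * x.1 * g.1⁻¹, by rw [← MulAut.conj_apply, MulEquiv.orderOf_eq]; exact x.2⟩
      one_smul := fun x => Subtype.ext (by show (1 : G) * x.1 * (1 : G)⁻¹ = x.1; group)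
      mul_smul := fun g k x => Subtype.ext (by
        show (g.1 * k.1) * x.1 * (g.1 * k.1)⁻¹ = g.1 * (k.1 * x.1 * k.1⁻¹) * g.1⁻¹; group) }
  have hm := P.isPGroup'.card_modEq_card_fixedPoints {x : G // orderOf x = q}
  obtain ⟨x, hx⟩ : (MulAction.fixedPoints (P : Subgroup G) {x : G // orderOf x = q}).Nonempty := by
    by_contra he
    rw [Set.not_nonempty_iff_eq_empty] at he
    refine h (Nat.modEq_zero_iff_dvd.mp (hm.trans ?_))
    rw [he, Nat.card_of_isEmpty]
  have hxc : ∀ g ∈ (P : Subgroup G), Commute g x.1 := fun g hg =>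
    mul_inv_eq_iff_eq_mul.mp (congrArg Subtype.val (hx ⟨g, hg⟩))
  have key : ∀ y : {y : G // orderOf y = p}, ∃ z : G, orderOf z = q ∧ Commute y.1 z := by
    intro y
    have hpg : IsPGroup p (Subgroup.zpowers y.1) :=
      IsPGroup.of_card (n := 1) (by rw [Nat.card_zpowers, y.2, pow_one])
    obtain ⟨S, hS⟩ := hpg.exists_le_sylow
    obtain ⟨g, rfl⟩ := MulAction.exists_smul_eq G P S
    have hy : g⁻¹ * y.1 * g ∈ (P : Subgroup G) := by
      have := hS (Subgroup.mem_zpowers y.1)
      rw [Sylow.coe_subgroup_smul, Subgroup.mem_pointwise_smul_iff_inv_smul_mem, ← map_inv,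
        MulAut.smul_def, MulAut.conj_apply, inv_inv] at this
      exact this
    refine ⟨g * x.1 * g⁻¹, by rw [← MulAut.conj_apply, MulEquiv.orderOf_eq]; exact x.2, ?_⟩
    have := ((hxc _ hy).map (MulAut.conj g : MulAut G))
    simp only [MulAut.conj_apply] at this
    rwa [show g * (g⁻¹ * y.1 * g) * g⁻¹ = y.1 by group] at this
  choose z hz hzc using key
  have hcop : ∀ i : Bool, q.Coprime (if i then 2 else 1) := fun i => by
    rcases i
    · exact Nat.coprime_one_right q
    · exact (Nat.coprime_primes hq Nat.prime_two).mpr (by omega)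
  let f : {y : G // orderOf y = p} × Bool → {g : G // orderOf g = p * q} := fun w =>
    ⟨w.1.1 * z w.1 ^ (if w.2 then 2 else 1), by
      have ho : orderOf (z w.1 ^ (if w.2 then 2 else 1)) = q := by
        rw [Nat.Coprime.orderOf_pow ((hz w.1).symm ▸ hcop w.2), hz]
      have hc := (hzc w.1).pow_right (if w.2 then 2 else 1)
      rw [hc.orderOf_mul_eq_mul_orderOf_of_coprime, ho, w.1.2]
      rw [ho, w.1.2]; exact (Nat.coprime_primes hp hq).mpr hpq⟩
  have hf : Function.Injective f := by
    rintro ⟨y, i⟩ ⟨y', i'⟩ e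
    have e' : y.1 * z y ^ (if i then 2 else 1) = y'.1 * z y' ^ (if i' then 2 else 1) := congrArg Subtype.val e
    have e2 := congrArg (· ^ q) e'
    change _ ^ q = _ ^ q at e2
    rw [((hzc y).pow_right _).mul_pow, ((hzc y').pow_right _).mul_pow, ← pow_mul, ← pow_mul,
      mul_comm _ q, mul_comm _ q, pow_mul, pow_mul,
      show z y ^ q = 1 from hz y ▸ pow_orderOf_eq_one _,
      show z y' ^ q = 1 from hz y' ▸ pow_orderOf_eq_one _, one_pow, one_pow, mul_one, mul_one] at e2
    obtain ⟨k, hk⟩ := Nat.exists_mul_mod_eq_one_of_coprime ((Nat.coprime_primes hq hp).mpr (Ne.symm hpq)) hp.one_lt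
    have e3 := congrArg (· ^ k) e2
    change _ ^ k = _ ^ k at e3
    rw [← pow_mul, ← pow_mul, ← pow_mod_orderOf y.1, ← pow_mod_orderOf y'.1, y.2, y'.2, hk.2,
      pow_one, pow_one] at e3
    obtain rfl : y = y' := Subtype.ext e3
    have e4 := mul_left_cancel e'
    have hz1 : z y ≠ 1 := fun e => by
      have := hz y
      rw [e, orderOf_one] at this
      omega
    rcases i <;> rcases i' <;> simp_all [pow_two]
  have := Nat.card_le_card_of_injective f hf
  rw [Nat.card_prod, Nat.card_eq_two_iff.mpr ⟨false, true, by decide, by ext b; cases b <;> simp⟩] at this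
  unfold num
  omega

theorem norm_trick {H V : Type*} [Group H] [CommGroup V] (φ : H →* MulAut V) (n m : ℕ) (hm : 0 < m)
    (t : ℕ → H) (v : V) (h1 : ∀ c < n, ∏ j ∈ Finset.range m, φ (t c ^ j) v = 1)
    (h2 : ∀ j < m, j ≠ 0 → ∏ c ∈ Finset.range n, φ (t c ^ j) v = 1) : v ^ n = 1 := by
  have e : ∏ c ∈ Finset.range n, ∏ j ∈ Finset.range m, φ (t c ^ j) v = 1 :=
    Finset.prod_eq_one fun c hc => h1 c (Finset.mem_range.mp hc)
  rw [Finset.prod_comm, Finset.prod_eq_single 0 (fun j hj hj0 => h2 j (Finset.mem_range.mp hj) hj0)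
    (fun h => absurd (Finset.mem_range.mpr hm) h)] at e
  simpa using e

theorem prod_fixed {H V : Type*} [Group H] [CommGroup V] (φ : H →* MulAut V) {u : H} {m : ℕ}
    (hu : u ^ m = 1) (hfix : ∀ w : V, φ u w = w → w = 1) (v : V) :
    ∏ j ∈ Finset.range m, φ (u ^ j) v = 1 := by
  refine hfix _ ?_
  rw [map_prod]
  have e : ∀ j, φ u (φ (u ^ j) v) = φ (u ^ (j + 1)) v := fun j => by
    rw [pow_succ', map_mul]; rfl
  rw [Finset.prod_congr rfl fun j _ => e j]
  have h1 := Finset.prod_range_succ' (fun j => φ (u ^ j) v) m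
  have h2 := Finset.prod_range_succ (fun j => φ (u ^ j) v) m
  rw [hu] at h2
  simp only [pow_zero] at h1
  rw [h2] at h1
  exact (mul_right_cancel h1).symm

/-- Two primes, all element orders prime: some Frobenius complement has prime order. -/
theorem frob_complement {p q : ℕ} (hp : p.Prime) (hq : q.Prime) (hpq : p ≠ q)
    (hqG : q ∣ Nat.card G) (hord : ∀ g : G, g ^ p = 1 ∨ g ^ q = 1) (V : Subgroup G) [V.Normal]
    (hV0 : V ≠ ⊥) (hVp : ∀ v ∈ V, v ^ p = 1) (hVc : IsMulCommutative V) :
    ∃ C : Subgroup G, Cfsg.IsFrobeniusComplement C ∧ (Nat.card ↥C).Prime := by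
  haveI := Fact.mk hp
  haveI := Fact.mk hq
  haveI := hVc
  letI : CommGroup V := { (inferInstance : Group V) with mul_comm := fun a b => isMulCommutative_iff.mp hVc a b }
  let φ : G →* MulAut V := MulAut.conjNormal
  have hpow : ∀ {g : G}, g ^ p = 1 → g ^ q = 1 → g = 1 := fun h h' => by
    rw [← orderOf_eq_one_iff]
    exact Nat.eq_one_of_dvd_coprimes ((Nat.coprime_primes hp hq).mpr hpq)
      (orderOf_dvd_of_pow_eq_one h) (orderOf_dvd_of_pow_eq_one h')
  have hnc : ∀ a b : G, a ^ p = 1 → b ^ q = 1 → Commute a b → a = 1 ∨ b = 1 := fun a b ha hb hab => by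
    rcases hord (a * b) with e | e
    · right
      rw [hab.mul_pow, ha, one_mul] at e
      exact hpow e hb
    · left
      rw [hab.mul_pow, hb, mul_one] at e
      exact hpow ha e
  have hfix : ∀ u : G, u ^ q = 1 → u ≠ 1 → ∀ w : V, φ u w = w → w = 1 := fun u hu hu1 w hw => by
    have e : u * (w : G) * u⁻¹ = w := congrArg Subtype.val hw
    rcases hnc w u (hVp w w.2) hu (mul_inv_eq_iff_eq_mul.mp e).symm with h | h
    · exact Subtype.ext h
    · exact absurd h hu1
  obtain ⟨v, hv⟩ := V.ne_bot_iff_exists_ne_one.mp hV0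
  have hv' : v ^ q ≠ 1 := fun e => hv (Subtype.ext (hpow (hVp v v.2) (congrArg Subtype.val e)))
  obtain ⟨y, hy⟩ := exists_prime_orderOf_dvd_card' q hqG
  have hy1 : y ≠ 1 := fun e => by rw [e, orderOf_one] at hy; exact hq.ne_one hy.symm
  have hyq : y ^ q = 1 := hy ▸ pow_orderOf_eq_one y
  have hprime : (Nat.card (Subgroup.zpowers y)).Prime := by rw [Nat.card_zpowers, hy]; exact hq
  have hnorm : ∀ g : G, g * y * g⁻¹ ∈ Subgroup.zpowers y → g ∈ Subgroup.zpowers y := by
    intro g hg
    obtain ⟨r, hr⟩ := (isOfFinOrder_of_finite y).mem_powers_iff_mem_zpowers.mpr hg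
    simp only at hr
    by_cases hgq : g ^ q = 1
    · -- commuting elements of order `q` generate a cyclic group
      have hit : ∀ k : ℕ, g ^ k * y * (g ^ k)⁻¹ = y ^ (r ^ k) := by
        intro k
        induction k with
        | zero => simp
        | succ k ih =>
          calc g ^ (k + 1) * y * (g ^ (k + 1))⁻¹ = g * (g ^ k * y * (g ^ k)⁻¹) * g⁻¹ := by
                rw [pow_succ']; group
            _ = (g * y * g⁻¹) ^ (r ^ k) := by rw [ih, conj_pow]
            _ = y ^ (r ^ (k + 1)) := by rw [← hr, ← pow_mul, pow_succ']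
      have hc : Commute g y := by
        have h1 := hit q
        rw [hgq, one_mul, inv_one, mul_one] at h1
        have h2 : y ^ (r ^ q) = y ^ r := by
          rw [pow_eq_pow_iff_modEq, hy, ← ZMod.natCast_eq_natCast_iff, Nat.cast_pow, ZMod.pow_card]
        rw [h2, hr, eq_mul_inv_iff_mul_eq] at h1
        exact h1.symm
      by_contra hgy
      refine hv' (norm_trick φ q q hq.pos (fun c => g * y ^ c) v (fun c _ => prod_fixed φ ?_ (hfix _ ?_ ?_) v)
        (fun j hj hj0 => ?_))
      · rw [(hc.pow_right c).mul_pow, hgq, one_mul, ← pow_mul, mul_comm, pow_mul, hyq, one_pow]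
      · rw [(hc.pow_right c).mul_pow, hgq, one_mul, ← pow_mul, mul_comm, pow_mul, hyq, one_pow]
      · exact fun e => hgy (by rw [eq_inv_of_mul_eq_one_left e]; exact inv_mem (Subgroup.npow_mem_zpowers y c))
      · have e : ∀ c, φ ((g * y ^ c) ^ j) v = φ (g ^ j) (φ ((y ^ j) ^ c) v) := fun c => by
          rw [(hc.pow_right c).mul_pow, ← pow_mul, mul_comm c, pow_mul, map_mul]; rfl
        rw [Finset.prod_congr rfl fun c _ => e c, ← map_prod,
          prod_fixed φ (by rw [← pow_mul, mul_comm, pow_mul, hyq, one_pow])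
            (hfix _ (by rw [← pow_mul, mul_comm, pow_mul, hyq, one_pow]) fun e => by
              have := orderOf_dvd_of_pow_eq_one e
              rw [hy] at this
              exact absurd (Nat.le_of_dvd (Nat.pos_of_ne_zero hj0) this) (by omega)), map_one]
    · exfalso
      have hgp : g ^ p = 1 := (hord g).resolve_right hgq
      have hgc : ∀ j < p, j ≠ 0 → ¬ Commute (g ^ j) y := fun j hj hj0 hc => by
        rcases hnc _ y (by rw [← pow_mul, mul_comm, pow_mul, hgp, one_pow]) hyq hc with e | e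
        · exact hgq (by
            have h1 : g ^ Nat.gcd j p = 1 := pow_gcd_eq_one.mpr ⟨e, hgp⟩
            rw [Nat.Coprime.gcd_eq_one (Nat.coprime_comm.mp (hp.coprime_iff_not_dvd.mpr fun hd =>
              absurd (Nat.le_of_dvd (Nat.pos_of_ne_zero hj0) hd) (by omega))), pow_one] at h1
            rw [h1, one_pow])
        · exact hy1 e
      have hYn : ∀ (j : ℕ) (x : G), x ∈ Subgroup.zpowers y → g ^ j * x * (g ^ j)⁻¹ ∈ Subgroup.zpowers y := by
        intro j
        induction j with
        | zero => intro x hx; simpa using hx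
        | succ j ih =>
          intro x hx
          obtain ⟨k, rfl⟩ := hx
          rw [show g ^ (j + 1) * y ^ k * (g ^ (j + 1))⁻¹ = g ^ j * (g * y * g⁻¹) ^ k * (g ^ j)⁻¹ by
            rw [conj_zpow, pow_succ]; group]
          exact ih _ (zpow_mem hg k)
      -- `g` is outside `V`
      have hgV : g ∉ V := fun hgV => by
        have hm : g * y * g⁻¹ * y⁻¹ ∈ V := by
          have := mul_mem hgV ((inferInstance : V.Normal).conj_mem _ (inv_mem hgV) y)
          simpa [mul_assoc] using this
        obtain ⟨k, hk⟩ := mul_mem hg (inv_mem (Subgroup.mem_zpowers y))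
        simp only at hk
        have e : g * y * g⁻¹ * y⁻¹ = 1 :=
          hpow (hVp _ hm) (by rw [← hk, ← zpow_natCast, ← zpow_mul, mul_comm, zpow_mul, zpow_natCast, hyq, one_zpow])
        rw [mul_inv_eq_one, mul_inv_eq_iff_eq_mul] at e
        exact hgc 1 hp.one_lt one_ne_zero (by rw [pow_one]; exact e)
      refine hv' (norm_trick φ q p hp.pos (fun c => y ^ c * g * (y ^ c)⁻¹) v (fun c _ => ?_) (fun j hj hj0 => ?_))
      · set u := y ^ c * g * (y ^ c)⁻¹
        have hu : u ^ p = 1 := by rw [conj_pow, hgp, mul_one, mul_inv_cancel]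
        have hform : ∀ k : ℕ, ((v : G) * u) ^ k = ((∏ j ∈ Finset.range k, φ (u ^ j) v : V) : G) * u ^ k := by
          intro k
          induction k with
          | zero => simp
          | succ k ih =>
            rw [Finset.prod_range_succ, Subgroup.coe_mul, pow_succ, ih]
            show _ = _ * (u ^ k * (v : G) * (u ^ k)⁻¹) * u ^ (k + 1)
            rw [pow_succ]; group
        have hp1 : ((v : G) * u) ^ p = 1 := by
          refine (hord _).resolve_right fun e => hgV ?_
          have e1 := congrArg (QuotientGroup.mk' V) e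
          rw [map_pow, map_mul, (show QuotientGroup.mk' V (v : G) = 1 from (QuotientGroup.eq_one_iff _).mpr v.2),
            one_mul, map_one] at e1
          have e2 : (QuotientGroup.mk' V u) ^ p = 1 := by rw [← map_pow, hu, map_one]
          have h1 : (QuotientGroup.mk' V u) = 1 := by
            rw [← orderOf_eq_one_iff]
            exact Nat.eq_one_of_dvd_coprimes ((Nat.coprime_primes hp hq).mpr hpq)
              (orderOf_dvd_of_pow_eq_one e2) (orderOf_dvd_of_pow_eq_one e1)
          have hmem := (inferInstance : V.Normal).conj_mem u ((QuotientGroup.eq_one_iff u).mp h1) (y ^ c)⁻¹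
          rwa [inv_inv, show (y ^ c)⁻¹ * u * y ^ c = g by simp [u, mul_assoc]] at hmem
        have := hform p
        rw [hp1, hu, mul_one] at this
        exact Subtype.ext this.symm
      · set z := y * (g ^ j * y⁻¹ * (g ^ j)⁻¹)
        obtain ⟨k, hk⟩ := hYn j y⁻¹ (inv_mem (Subgroup.mem_zpowers y))
        simp only at hk
        have hzy : Commute y (g ^ j * y⁻¹ * (g ^ j)⁻¹) := hk ▸ Commute.zpow_right (Commute.refl y) k
        have hzq : z ^ q = 1 := by
          rw [hzy.mul_pow, hyq, one_mul, conj_pow, inv_pow, hyq, inv_one, mul_one, mul_inv_cancel]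
        have hz1 : z ≠ 1 := fun e => hgc j hj hj0 (by
          have e1 : g ^ j * y⁻¹ * (g ^ j)⁻¹ = y⁻¹ := eq_inv_of_mul_eq_one_right e
          exact Commute.inv_right_iff.mp (mul_inv_eq_iff_eq_mul.mp e1))
        have e : ∀ c, φ ((y ^ c * g * (y ^ c)⁻¹) ^ j) v = φ (z ^ c) (φ (g ^ j) v) := fun c => by
          rw [conj_pow, hzy.mul_pow, conj_pow, inv_pow,
            show y ^ c * g ^ j * (y ^ c)⁻¹ = y ^ c * (g ^ j * (y ^ c)⁻¹ * (g ^ j)⁻¹) * g ^ j by group, map_mul]
          rfl
        rw [Finset.prod_congr rfl fun c _ => e c]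
        exact prod_fixed φ hzq (hfix z hzq hz1) _
  refine ⟨Subgroup.zpowers y, ⟨?_, ?_, fun g hg => ?_⟩, hprime⟩
  · rw [Ne, Subgroup.zpowers_eq_bot]; exact hy1
  · intro e
    have hvy : (v : G) ∈ Subgroup.zpowers y := e ▸ Subgroup.mem_top _
    refine hv (Subtype.ext (hpow (hVp v v.2) ?_))
    exact orderOf_dvd_iff_pow_eq_one.mp (hy ▸ orderOf_dvd_of_mem_zpowers hvy)
  · by_contra hne
    refine hg (hnorm g ?_)
    haveI := Fact.mk hprime
    have hle := (Subgroup.zpowers y ⊓ MulAut.conj g • Subgroup.zpowers y).subgroupOf (Subgroup.zpowers y)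
      |>.eq_bot_or_eq_top_of_prime_card
    rcases hle with e | e
    · rw [Subgroup.subgroupOf_eq_bot, disjoint_iff] at e
      exact absurd (by rwa [inf_assoc, inf_comm (MulAut.conj g • _), ← inf_assoc, inf_idem] at e) hne
    · rw [Subgroup.subgroupOf_eq_top, le_inf_iff] at e
      have hcard : Nat.card (MulAut.conj g • Subgroup.zpowers y : Subgroup G) ≤ Nat.card (Subgroup.zpowers y) :=
        le_of_eq (Nat.card_congr (Subgroup.equivSMul _ _).toEquiv).symm
      rw [Subgroup.eq_of_le_of_card_ge e.2 hcard, ← MulAut.conj_apply, ← MulAut.smul_def]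
      exact Subgroup.smul_mem_pointwise_smul _ _ _ (Subgroup.mem_zpowers y)

/-- Let G be a finite group of odd order in which the numbers of elements of each order that occurs (the numbers #{g : o(g) = m}, m ranging over the element orders of G) take exactly three different values. Then the order of G has at most two prime divisors; and if it has exactly two, then every Sylow subgroup of G for a prime dividing its order has prime exponent, G is a Frobenius group, and some Frobenius complement of G has prime order. -/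
theorem result {G : Type*} [Group G] [Finite G] (hodd : Odd (Nat.card G)) (h : (((fun m : ℕ => Nat.card {g : G // orderOf g = m}) '' Set.range (orderOf : G → ℕ))).ncard = 3) :
    (Nat.card G).primeFactors.card ≤ 2 ∧
      ((Nat.card G).primeFactors.card = 2 →
        (∀ (p : ℕ) [Fact p.Prime] (P : Sylow p G), p ∣ Nat.card G → Monoid.exponent ↥(P : Subgroup G) = p) ∧
        ∃ C : Subgroup G, Cfsg.IsFrobeniusComplement C ∧ (Nat.card ↥C).Prime) := by
  classical
  have := Fintype.ofFinite G
  set R := Set.range (orderOf : G → ℕ) with hRdef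
  have hodd' : ∀ d, d ∣ Nat.card G → Odd d := fun d hd => hodd.of_dvd_nat hd
  have hp3 : ∀ p, p.Prime → p ∣ Nat.card G → 2 < p := fun p hp hd => by
    rcases hp.eq_two_or_odd' with rfl | ho
    · exact absurd (hodd' 2 hd) (by decide)
    · have := hp.two_le; rcases ho with ⟨k, hk⟩; omega
  obtain ⟨a₀, b₀, c₀, hab, hac, hbc, hset⟩ := Set.ncard_eq_three.mp h
  -- the two values other than one
  obtain ⟨a, b, hab', hval⟩ : ∃ a b : ℕ, a ≠ b ∧
      ∀ g : G, g ≠ 1 → num G (orderOf g) = a ∨ num G (orderOf g) = b := by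
    have h1 : num G 1 ∈ ({a₀, b₀, c₀} : Set ℕ) := hset ▸ ⟨1, ⟨1, orderOf_one⟩, rfl⟩
    have hall : ∀ g : G, g ≠ 1 → num G (orderOf g) ∈ ({a₀, b₀, c₀} : Set ℕ) ∧ num G (orderOf g) ≠ 1 := by
      intro g hg
      refine ⟨hset ▸ ⟨_, ⟨g, rfl⟩, rfl⟩, fun e => ?_⟩
      have h2 : Nat.totient (orderOf g) ∣ num G (orderOf g) := OrderCount.totient_dvd_card_orderOf _
      rw [e, Nat.dvd_one, Nat.totient_eq_one_iff] at h2
      rcases h2 with h2 | h2
      · exact hg (orderOf_eq_one_iff.mp h2)
      · exact absurd (hodd' 2 (h2 ▸ orderOf_dvd_natCard g)) (by decide)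
    simp only [Set.mem_insert_iff, Set.mem_singleton_iff, num_one] at h1 hall
    rcases h1 with e | e | e
    · exact ⟨b₀, c₀, hbc, fun g hg => (hall g hg).1.resolve_left fun e' => (hall g hg).2 (e'.trans e.symm)⟩
    · refine ⟨a₀, c₀, hac, fun g hg => ?_⟩
      rcases (hall g hg).1 with e' | e' | e'
      · exact Or.inl e'
      · exact absurd (e'.trans e.symm) (hall g hg).2
      · exact Or.inr e'
    · refine ⟨a₀, b₀, hab, fun g hg => ?_⟩
      rcases (hall g hg).1 with e' | e' | e'
      · exact Or.inl e'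
      · exact Or.inr e'
      · exact absurd (e'.trans e.symm) (hall g hg).2
  have hv : ∀ m, m ≠ 1 → num G m ≠ 0 → num G m = a ∨ num G m = b := by
    intro m hm h0
    obtain ⟨⟨g, hg⟩⟩ : Nonempty {g : G // orderOf g = m} := (Nat.card_ne_zero.mp h0).1
    exact hg ▸ hval g fun e => hm (by rw [← hg, e, orderOf_one])
  have hpos : ∀ p, p.Prime → p ∣ Nat.card G → 0 < num G p := fun p hp hd => by
    haveI := Fact.mk hp
    exact num_pos (exists_prime_orderOf_dvd_card' p hd)
  have hother : ∀ {x y z : ℕ}, x = a ∨ x = b → y = a ∨ y = b → z = a ∨ z = b →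
      x ≠ y → z = x ∨ z = y := by
    intro x y z hx hy hz hne; omega
  -- two primes with the same value
  have hpair : ∀ p q, p.Prime → q.Prime → p ≠ q → p ∣ Nat.card G → q ∣ Nat.card G → num G p = num G q →
      num G (p * q) ≠ num G p ∧ (num G (p * q) = a ∨ num G (p * q) = b) ∧ ¬ p ∣ num G (p * q) ∧
      num G (p ^ 2) = 0 := by
    intro p q hp hq hpq hd hd' he
    have hnd : ¬ p ∣ num G q := fun hdv => by
      have h1 := frob_prime hp hd
      rw [he, Nat.dvd_add_left hdv, Nat.dvd_one] at h1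
      exact hp.ne_one h1
    have h2 := two_mul_le hp hq hpq (hp3 q hq hd') hnd
    have h0 := hpos p hp hd
    have hpqv := hv (p * q) (by nlinarith [hp.two_le, hq.two_le]) (by omega)
    have hne : num G (p * q) ≠ num G p := by omega
    have hmod : ¬ p ∣ num G (p * q) := fun hdv => by
      have h1 := frob_mul hp hq hpq hd hd'
      rw [Nat.dvd_add_left hdv, add_assoc, he] at h1
      have h3 : p ∣ 1 + num G q := he ▸ frob_prime hp hd
      have h4 : p ∣ num G q := by
        rw [← add_assoc] at h1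
        exact (Nat.dvd_add_right h3).mp h1
      exact hnd h4
    refine ⟨hne, hpqv, hmod, ?_⟩
    by_contra h02
    have hsq := hv (p ^ 2) (by nlinarith [hp.two_le]) h02
    have hpv := hv p hp.ne_one (by omega)
    rcases hother hpv hpqv hsq (Ne.symm hne) with e | e
    · have h1 := frob_prime hp hd
      rw [← e, Nat.dvd_add_left (num_prime_sq hp), Nat.dvd_one] at h1
      exact hp.ne_one h1
    · exact hmod (e ▸ num_prime_sq hp)
  -- three primes share one value
  have htriple : ∀ p q r, p.Prime → q.Prime → r.Prime → p ≠ q → p ≠ r → p ∣ Nat.card G → q ∣ Nat.card G →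
      r ∣ Nat.card G → num G p = num G q → num G r = num G p := by
    intro p q r hp hq hr hpq hpr hd hd' hd'' he
    by_contra hne
    obtain ⟨hne', hpqv, hmod, -⟩ := hpair p q hp hq hpq hd hd' he
    have hpv := hv p hp.ne_one (hpos p hp hd).ne'
    have hrv := hv r hr.ne_one (hpos r hr hd'').ne'
    have hr_eq : num G r = num G (p * q) := (hother hpv hpqv hrv (Ne.symm hne')).resolve_left hne
    have hnd : ¬ p ∣ num G r := hr_eq ▸ hmod
    have h2 := two_mul_le hp hr hpr (hp3 r hr hd'') hnd
    have h0 := hpos p hp hd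
    have hprv := hv (p * r) (by nlinarith [hp.two_le, hr.two_le]) (by omega)
    have hpr_eq : num G (p * r) = num G r := (hother hpv hrv hprv (fun e => hne e.symm)).resolve_left (by omega)
    have h1 := frob_mul hp hr hpr hd hd''
    rw [hpr_eq, add_assoc _ (num G r), ← two_mul] at h1
    have h3 : p ∣ 2 * num G r := (Nat.dvd_add_right (frob_prime hp hd)).mp h1
    rcases hp.dvd_mul.mp h3 with e | e
    · exact absurd (Nat.le_of_dvd two_pos e) (by have := hp3 p hp hd; omega)
    · exact hnd e
  -- all primes cannot share one value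
  have hall : ∀ p q, p.Prime → q.Prime → p ≠ q → p ∣ Nat.card G → q ∣ Nat.card G → num G p ≠ num G q := by
    intro p q hp hq hpq hd hd' he
    have hsame : ∀ r, r.Prime → r ∣ Nat.card G → num G r = num G p := fun r hr hd'' => by
      by_cases hpr : p = r
      · rw [hpr]
      · exact htriple p q r hp hq hr hpq hpr hd hd' hd'' he
    have hdvd : Nat.card G ∣ 1 + num G p := by
      rw [Nat.dvd_iff_prime_pow_dvd_dvd]
      intro r k hr hk
      rcases Nat.eq_zero_or_pos k with rfl | hk0
      · simp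
      have hd'' : r ∣ Nat.card G := (dvd_pow_self r hk0.ne').trans hk
      have hsq : num G (r ^ 2) = 0 := by
        by_cases hrp : r = p
        · exact (hpair r q hr hq (hrp ▸ hpq) hd'' hd' (hrp ▸ he)).2.2.2
        · exact (hpair r p hr hp hrp hd'' hd (hsame r hr hd'')).2.2.2
      have hbig : ∀ i, 2 ≤ i → num G (r ^ i) = 0 := by
        intro i hi
        by_contra h0
        obtain ⟨⟨g, hg⟩⟩ : Nonempty {g : G // orderOf g = r ^ i} := (Nat.card_ne_zero.mp h0).1
        refine (num_pos ⟨g ^ r ^ (i - 2), ?_⟩).ne' hsq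
        rw [orderOf_pow' g (pow_ne_zero _ hr.ne_zero), hg, Nat.gcd_eq_right (pow_dvd_pow r (Nat.sub_le i 2)),
          Nat.pow_div (Nat.sub_le i 2) hr.pos, show i - (i - 2) = 2 by omega]
      have h1 := FrobeniusCount.frobenius (G := G) hk
      rw [card_pow_eq_sum (pow_ne_zero _ hr.ne_zero), Nat.sum_divisors_prime_pow hr,
        Finset.sum_range_succ', pow_zero, num_one] at h1
      obtain ⟨k', rfl⟩ : ∃ k', k = k' + 1 := ⟨k - 1, by omega⟩
      rw [Finset.sum_eq_single 0 (fun i _ hi => hbig (i + 1) (by omega))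
        (fun hh => absurd (Finset.mem_range.mpr (Nat.succ_pos _)) hh), zero_add, pow_one,
        hsame r hr hd''] at h1
      rwa [add_comm (num G p) 1] at h1
    have h1 : 1 + num G p + num G q + num G (p * q) ≤ Nat.card G := by
      have := Nat.card_le_card_of_injective
        (fun g : {g : G // g ^ (p * q) = 1} => g.1) Subtype.val_injective
      rwa [card_pow_eq_sum (Nat.mul_ne_zero hp.ne_zero hq.ne_zero), divisors_mul_sum hp hq hpq, num_one] at this
    have := Nat.le_of_dvd (by omega) hdvd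
    have := hpos q hq hd'
    omega
  have hcard2 : (Nat.card G).primeFactors.card ≤ 2 := by
    by_contra hc
    obtain ⟨p, q, r, hp, hq, hr, hpq, hpr, hqr⟩ := Finset.two_lt_card_iff.mp (not_le.mp hc)
    rw [Nat.mem_primeFactors] at hp hq hr
    have h1 := hall p q hp.1 hq.1 hpq hp.2.1 hq.2.1
    have h2 := hall p r hp.1 hr.1 hpr hp.2.1 hr.2.1
    have h3 := hall q r hq.1 hr.1 hqr hq.2.1 hr.2.1
    have := hv p hp.1.ne_one (hpos p hp.1 hp.2.1).ne'
    have := hv q hq.1.ne_one (hpos q hq.1 hq.2.1).ne'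
    have := hv r hr.1.ne_one (hpos r hr.1 hr.2.1).ne'
    omega
  refine ⟨hcard2, fun hc2 => ?_⟩
  obtain ⟨p, q, hpq, hpf⟩ := Finset.card_eq_two.mp hc2
  have hmem : ∀ r, r.Prime → r ∣ Nat.card G → r = p ∨ r = q := fun r hr hd => by
    have : r ∈ (Nat.card G).primeFactors := Nat.mem_primeFactors.mpr ⟨hr, hd, Nat.card_pos.ne'⟩
    rw [hpf] at this
    simpa using this
  have hp : p.Prime ∧ p ∣ Nat.card G := by
    have : p ∈ (Nat.card G).primeFactors := by rw [hpf]; simp
    exact ⟨(Nat.mem_primeFactors.mp this).1, (Nat.mem_primeFactors.mp this).2.1⟩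
  have hq : q.Prime ∧ q ∣ Nat.card G := by
    have : q ∈ (Nat.card G).primeFactors := by rw [hpf]; simp
    exact ⟨(Nat.mem_primeFactors.mp this).1, (Nat.mem_primeFactors.mp this).2.1⟩
  -- no elements of order `p * q`
  have hnpq : num G (p * q) = 0 := by
    by_contra h0
    have hv1 := hv (p * q) (by nlinarith [hp.1.two_le, hq.1.two_le]) h0
    have hpv := hv p hp.1.ne_one (hpos p hp.1 hp.2).ne'
    have hqv := hv q hq.1.ne_one (hpos q hq.1 hq.2).ne'
    have hne := hall p q hp.1 hq.1 hpq hp.2 hq.2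
    have key : ∀ p q : ℕ, p.Prime → q.Prime → p ≠ q → p ∣ Nat.card G → q ∣ Nat.card G →
        num G (p * q) ≠ num G p := by
      intro p q hp hq hpq hd hd' e
      have h1 := frob_mul hp hq hpq hd hd'
      rw [e] at h1
      have hnd : ¬ p ∣ num G q := fun hdv => by
        rw [show 1 + num G p + num G q + num G p = (1 + num G p) + num G p + num G q by ring,
          Nat.dvd_add_left hdv] at h1
        have h2 := (Nat.dvd_add_right (frob_prime hp hd)).mp h1
        have h3 := frob_prime hp hd
        rw [Nat.dvd_add_left h2, Nat.dvd_one] at h3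
        exact hp.ne_one h3
      have h2 := two_mul_le hp hq hpq (hp3 q hq hd') hnd
      have h0 := hpos p hp hd
      omega
    rcases hother hpv hqv hv1 hne with e | e
    · exact key p q hp.1 hq.1 hpq hp.2 hq.2 e
    · exact key q p hq.1 hp.1 (Ne.symm hpq) hq.2 hp.2 (by rwa [mul_comm])
  -- no elements of order `p ^ 2`
  have hsqz : ∀ p q : ℕ, p.Prime → q.Prime → p ≠ q → p ∣ Nat.card G → q ∣ Nat.card G →
      num G (p * q) = 0 → num G (p ^ 2) = 0 := by
    intro p q hp hq hpq hd hd' hz
    by_contra h0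
    haveI := Fact.mk hq
    obtain ⟨y, hy⟩ := exists_prime_orderOf_dvd_card' q hd'
    let _ : MulAction (Subgroup.zpowers y) {x : G // orderOf x = p ^ 2} :=
      { smul := fun g x => ⟨g.1 * x.1 * g.1⁻¹, by rw [← MulAut.conj_apply, MulEquiv.orderOf_eq]; exact x.2⟩
        one_smul := fun x => Subtype.ext (by show (1 : G) * x.1 * (1 : G)⁻¹ = x.1; group)
        mul_smul := fun g k x => Subtype.ext (by
          show (g.1 * k.1) * x.1 * (g.1 * k.1)⁻¹ = g.1 * (k.1 * x.1 * k.1⁻¹) * g.1⁻¹; group) }
    have hqg : IsPGroup q (Subgroup.zpowers y) := IsPGroup.of_card (n := 1) (by rw [Nat.card_zpowers, hy, pow_one])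
    have hm := hqg.card_modEq_card_fixedPoints {x : G // orderOf x = p ^ 2}
    have hempty : IsEmpty (MulAction.fixedPoints (Subgroup.zpowers y) {x : G // orderOf x = p ^ 2}) := by
      refine ⟨fun x => ?_⟩
      have e : y * x.1.1 * y⁻¹ = x.1.1 := congrArg Subtype.val (x.2 ⟨y, Subgroup.mem_zpowers y⟩)
      have hxp : orderOf (x.1.1 ^ p) = p := by
        rw [orderOf_pow' _ hp.ne_zero, x.1.2, Nat.gcd_eq_right (dvd_pow_self p two_ne_zero), pow_two,
          Nat.mul_div_cancel _ hp.pos]
      have hc : Commute (x.1.1 ^ p) y := (show Commute y x.1.1 from mul_inv_eq_iff_eq_mul.mp e).symm.pow_left p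
      have := hc.orderOf_mul_eq_mul_orderOf_of_coprime (by rw [hxp, hy]; exact (Nat.coprime_primes hp hq).mpr hpq)
      rw [hxp, hy] at this
      exact (num_pos ⟨_, this⟩).ne' hz
    rw [Nat.card_of_isEmpty (α := MulAction.fixedPoints (Subgroup.zpowers y) {x : G // orderOf x = p ^ 2})] at hm
    have hqd : q ∣ num G (p ^ 2) := Nat.modEq_zero_iff_dvd.mp hm
    have hpv := hv p hp.ne_one (hpos p hp hd).ne'
    have hqv := hv q hq.ne_one (hpos q hq hd').ne'
    have hsv := hv (p ^ 2) (by nlinarith [hp.two_le]) h0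
    rcases hother hpv hqv hsv (hall p q hp hq hpq hd hd') with e | e
    · have h1 := frob_prime hp hd
      rw [← e, Nat.dvd_add_left (num_prime_sq hp), Nat.dvd_one] at h1
      exact hp.ne_one h1
    · have h1 := frob_prime hq hd'
      rw [← e, Nat.dvd_add_left hqd, Nat.dvd_one] at h1
      exact hq.ne_one h1
  have hp2 := hsqz p q hp.1 hq.1 hpq hp.2 hq.2 hnpq
  have hq2 := hsqz q p hq.1 hp.1 (Ne.symm hpq) hq.2 hp.2 (by rwa [mul_comm])
  have hdiv : ∀ (g : G) (d : ℕ), d ∣ orderOf g → num G d ≠ 0 := fun g d hd => by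
    refine (num_pos ⟨g ^ (orderOf g / d), ?_⟩).ne'
    rw [orderOf_pow_of_dvd (Nat.div_ne_zero_iff_of_dvd hd |>.mpr ⟨(orderOf_pos g).ne', fun e => (orderOf_pos g).ne' (zero_dvd_iff.mp (e ▸ hd))⟩) (Nat.div_dvd_of_dvd hd),
      Nat.div_div_self hd (orderOf_pos g).ne']
  have hord : ∀ g : G, g ^ p = 1 ∨ g ^ q = 1 := by
    intro g
    rw [← orderOf_dvd_iff_pow_eq_one, ← orderOf_dvd_iff_pow_eq_one]
    by_cases hpd : p ∣ orderOf g
    · left
      obtain ⟨k, hk⟩ := hpd
      suffices k = 1 by rw [hk, this, mul_one]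
      by_contra hk1
      obtain ⟨r, hr, hrk⟩ := Nat.exists_prime_and_dvd hk1
      have hrd : p * r ∣ orderOf g := hk ▸ Nat.mul_dvd_mul_left p hrk
      rcases hmem r hr ((dvd_mul_left r p).trans (hrd.trans (orderOf_dvd_natCard g))) with e | e <;> subst e
      · exact hdiv g _ hrd (by rw [← pow_two]; exact hp2)
      · exact hdiv g _ hrd hnpq
    · right
      by_contra hnd
      obtain ⟨r, hr, hrg⟩ := Nat.exists_prime_and_dvd (n := orderOf g) fun e => hnd (e ▸ one_dvd _)
      rcases hmem r hr (hrg.trans (orderOf_dvd_natCard g)) with e | e <;> subst e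
      · exact hpd hrg
      obtain ⟨k, hk⟩ := hrg
      apply hnd
      suffices k = 1 by rw [hk, this, mul_one]
      by_contra hk1
      obtain ⟨s, hs, hsk⟩ := Nat.exists_prime_and_dvd hk1
      have hrd : r * s ∣ orderOf g := hk ▸ Nat.mul_dvd_mul_left r hsk
      rcases hmem s hs ((dvd_mul_left s r).trans (hrd.trans (orderOf_dvd_natCard g))) with e | e <;> subst e
      · exact hpd ((dvd_mul_left s r).trans hrd)
      · exact hdiv g _ hrd (by rw [← pow_two]; exact hq2)
  refine ⟨fun r _ P hr => ?_, ?_⟩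
  · have hrp : r.Prime := Fact.out
    have hsub : ∀ g ∈ (P : Subgroup G), g ^ r = 1 := by
      intro g hg
      obtain ⟨k, hk⟩ := P.isPGroup' ⟨g, hg⟩
      have hk' : orderOf g ∣ r ^ k := orderOf_dvd_of_pow_eq_one (congrArg Subtype.val hk)
      have key : ∀ s : ℕ, s.Prime → g ^ s = 1 → g ^ r = 1 := fun s hs hgs => by
        by_cases e : s = r
        · rw [← e]; exact hgs
        · have : orderOf g = 1 := Nat.eq_one_of_dvd_coprimes
            (Nat.Coprime.pow_left k ((Nat.coprime_primes hrp hs).mpr (Ne.symm e))) hk' (orderOf_dvd_of_pow_eq_one hgs)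
          rw [orderOf_eq_one_iff.mp this, one_pow]
      rcases hord g with e | e
      · exact key p hp.1 e
      · exact key q hq.1 e
    haveI : Nontrivial (P : Subgroup G) := Finite.one_lt_card_iff_nontrivial.mp
      (lt_of_lt_of_le hrp.one_lt (Nat.le_of_dvd Nat.card_pos (P.dvd_card_of_dvd_card hr)))
    rcases (Nat.dvd_prime hrp).mp (Monoid.exponent_dvd_iff_forall_pow_eq_one.mpr
      fun g : (P : Subgroup G) => Subtype.ext (hsub g g.2)) with e | e
    · exact absurd (Monoid.exp_eq_one_iff.mp e) (not_subsingleton _)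
    · exact e
  · haveI : Nontrivial G := Finite.one_lt_card_iff_nontrivial.mp
      (lt_of_lt_of_le hp.1.one_lt (Nat.le_of_dvd Nat.card_pos hp.2))
    haveI : Group.IsSolvable G :=
      Char.solvable_of_card_eq_pow_mul_pow p q hp.1 hq.1 _ rfl hmem
    obtain ⟨V, hVn, hVne, -, hVc, r, hr, hVp, hVpg⟩ := MinNormal.exists_elementary_abelian (G := G)
    haveI := hVn
    have hrd : r ∣ Nat.card G := by
      haveI := Fact.mk hr
      rcases hVpg.card_eq_or_dvd with e | e
      · exact absurd (Subgroup.card_eq_one.mp e) hVne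
      · exact e.trans (Subgroup.card_subgroup_dvd_card V)
    rcases hmem r hr hrd with e | e
    · subst e
      exact frob_complement hp.1 hq.1 hpq hq.2 hord V hVne hVp hVc
    · subst e
      exact frob_complement hq.1 hp.1 (Ne.symm hpq) hp.2 (fun g => (hord g).symm) V hVne hVp hVc

end Cfsg.Agent.S4004
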