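import Cfsg.Statements.S4005
import Mathlib
import Cfsg.Agent.Cores.Basic
import Cfsg.Agent.Cores.Fitting
import Cfsg.Agent.Char.Burnside

set_option autoImplicit false
open Cfsg

namespace Cfsg.Agent.S4005

theorem two_three {G : Type*} [Group G] [Finite G] (hord : ∀ g : G, orderOf g ≤ 3) {a b : G}
    (ha : orderOf a = 2) (hb : orderOf b = 3) : a * b ≠ b * a := by
  intro h
  have := (show Commute a b from h).orderOf_mul_eq_mul_orderOf_of_coprime (by rw [ha, hb]; decide)
  have h2 := hord (a * b)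
  rw [this, ha, hb] at h2
  omega

theorem pow_three {G : Type*} [Group G] [Finite G] (hord : ∀ g : G, orderOf g ≤ 3) {g : G}
    (h : ∃ k : ℕ, g ^ 3 ^ k = 1) : g ^ 3 = 1 := by
  obtain ⟨k, hk⟩ := h
  obtain ⟨i, -, hi⟩ := (Nat.dvd_prime_pow Nat.prime_three).mp (orderOf_dvd_of_pow_eq_one hk)
  rw [← orderOf_dvd_iff_pow_eq_one, hi]
  match i with
  | 0 => simp
  | 1 => simp
  | i + 2 =>
    have := hord g
    rw [hi, pow_succ, pow_succ] at this
    have : 0 < 3 ^ i := pow_pos (by norm_num) i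
    omega

theorem pow_two' {G : Type*} [Group G] [Finite G] (hord : ∀ g : G, orderOf g ≤ 3) {g : G}
    (h : ∃ k : ℕ, g ^ 2 ^ k = 1) : g ^ 2 = 1 := by
  obtain ⟨k, hk⟩ := h
  obtain ⟨i, -, hi⟩ := (Nat.dvd_prime_pow Nat.prime_two).mp (orderOf_dvd_of_pow_eq_one hk)
  rw [← orderOf_dvd_iff_pow_eq_one, hi]
  match i with
  | 0 => simp
  | 1 => simp
  | i + 2 =>
    have := hord g
    rw [hi, pow_succ, pow_succ] at this
    have : 0 < 2 ^ i := pow_pos (by norm_num) i
    omega

theorem norm_three {G : Type*} [Group G] [Finite G] (hord : ∀ g : G, orderOf g ≤ 3)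
    {V : Subgroup G} [V.Normal] (hV : ∀ v ∈ V, v ^ 2 = 1) (hVc : ∀ v ∈ V, ∀ w ∈ V, v * w = w * v)
    {h : G} (hh : orderOf h = 3) {v : G} (hv : v ∈ V) :
    h ^ 2 * v * (h ^ 2)⁻¹ = v * (h * v * h⁻¹) := by
  have hn := (inferInstance : V.Normal).conj_mem
  set a := h * v * h⁻¹
  set b := h ^ 2 * v * (h ^ 2)⁻¹
  have ha : a ∈ V := hn _ hv _
  have hb : b ∈ V := hn _ hv _
  have h3 : h ^ 3 = 1 := hh ▸ pow_orderOf_eq_one h
  have hw : v * a * b = 1 := by
    by_contra hne
    have hwV : v * a * b ∈ V := mul_mem (mul_mem hv ha) hb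
    have ho : orderOf (v * a * b) = 2 := orderOf_eq_prime (hV _ hwV) hne
    refine two_three hord ho hh ?_
    have e : h * (v * a * b) * h⁻¹ = a * b * v := by
      calc h * (v * a * b) * h⁻¹ = a * b * (h ^ 3 * v * (h ^ 3)⁻¹) := by simp only [a, b]; group
        _ = a * b * v := by rw [h3, one_mul, inv_one, mul_one]
    have e' : a * b * v = v * a * b := by rw [hVc _ (mul_mem ha hb) _ hv, ← mul_assoc v]
    rw [e'] at e
    exact (mul_inv_eq_iff_eq_mul.mp e).symm
  have : v * a = (v * a)⁻¹ := by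
    rw [← mul_eq_one_iff_eq_inv, ← pow_two]; exact hV _ (mul_mem hv ha)
  rw [this]; exact eq_inv_of_mul_eq_one_right hw


/-- A finite group whose set of element orders is exactly {1, 2, 3} has either a normal elementary abelian 3-subgroup of index 2 or a normal elementary abelian 2-subgroup of index 3. -/
theorem result {G : Type*} [Group G] [Finite G] (h : Set.range (orderOf : G → ℕ) = {k : ℕ | 1 ≤ k ∧ k ≤ 3}) :
    (∃ N : Subgroup G, N.Normal ∧ Cfsg.IsElementaryAbelian 3 N ∧ N.index = 2) ∨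
      (∃ N : Subgroup G, N.Normal ∧ Cfsg.IsElementaryAbelian 2 N ∧ N.index = 3) := by
  classical
  have hord : ∀ g : G, orderOf g ≤ 3 := fun g => ((Set.ext_iff.mp h _).mp ⟨g, rfl⟩).2
  obtain ⟨t, ht⟩ := (Set.ext_iff.mp h 2).mpr ⟨by norm_num, by norm_num⟩
  obtain ⟨x, hx⟩ := (Set.ext_iff.mp h 3).mpr ⟨by norm_num, le_rfl⟩
  have hpr : ∀ s : ℕ, s.Prime → s ∣ Nat.card G → s = 2 ∨ s = 3 := by
    intro s hs hd
    haveI := Fact.mk hs
    obtain ⟨g, hg⟩ := exists_prime_orderOf_dvd_card' s hd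
    have := hord g
    have := hs.two_le
    omega
  haveI : Nontrivial G := ⟨t, 1, fun e => by simp [e] at ht⟩
  haveI : Group.IsSolvable G :=
    Char.solvable_of_card_eq_pow_mul_pow 2 3 Nat.prime_two Nat.prime_three _ rfl hpr
  haveI := Fact.mk Nat.prime_two
  haveI := Fact.mk Nat.prime_three
  have hW := Cores.pCore_isPGroup (G := G) (p := 3)
  have hV := Cores.pCore_isPGroup (G := G) (p := 2)
  by_cases hW0 : Cfsg.pCore 3 G = ⊥
  · right
    set V := Cfsg.pCore 2 G with hVdef
    have hV2 : ∀ v ∈ V, v ^ 2 = 1 := fun v hv => by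
      obtain ⟨k, hk⟩ := hV ⟨v, hv⟩
      exact pow_two' hord ⟨k, congrArg Subtype.val hk⟩
    have hcomm : ∀ {S : Subgroup G}, (∀ v ∈ S, v ^ 2 = 1) → ∀ v ∈ S, ∀ w ∈ S, v * w = w * v := by
      intro S hS v hv w hw
      have h1 : ∀ u ∈ S, u⁻¹ = u := fun u hu => inv_eq_of_mul_eq_one_right (pow_two u ▸ hS u hu)
      calc v * w = (v * w)⁻¹ := (h1 _ (mul_mem hv hw)).symm
        _ = w * v := by rw [mul_inv_rev, h1 v hv, h1 w hw]
    have hV0 : V ≠ ⊥ := by
      intro hbot
      obtain ⟨q, hq, hne⟩ := Cores.exists_pCore_ne_bot (G := G)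
      haveI := Fact.mk hq
      obtain ⟨n, hn⟩ := IsPGroup.iff_card.mp (Cores.pCore_isPGroup (G := G) (p := q))
      have h1 : n ≠ 0 := fun e => hne (Subgroup.card_eq_one.mp (by rw [hn, e, pow_zero]))
      rcases hpr q hq ((dvd_pow_self q h1).trans (hn ▸ Subgroup.card_subgroup_dvd_card _)) with e | e
      · exact hne (e ▸ hbot)
      · exact hne (e ▸ hW0)
    obtain ⟨v₀, hv₀, hv₀1⟩ := V.ne_bot_iff_exists_ne_one.mp hV0 |> fun ⟨v, hv⟩ =>
      (⟨v.1, v.2, fun e => hv (Subtype.ext e)⟩ : ∃ v ∈ V, v ≠ 1)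
    have hv₀2 : orderOf v₀ = 2 := orderOf_eq_prime (hV2 _ hv₀) hv₀1
    -- the Sylow 2-subgroup is `V`
    obtain ⟨S⟩ := (inferInstance : Nonempty (Sylow 2 G))
    have hS2 : ∀ v ∈ (S : Subgroup G), v ^ 2 = 1 := fun v hv => by
      obtain ⟨k, hk⟩ := S.isPGroup' ⟨v, hv⟩
      exact pow_two' hord ⟨k, congrArg Subtype.val hk⟩
    have hCV : ∀ g : G, (∀ v ∈ V, v * g = g * v) → g ∈ V := by
      have hC : IsPGroup 2 (Subgroup.centralizer (V : Set G)) := by
        intro g
        refine ⟨1, Subtype.ext ?_⟩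
        show (g : G) ^ 2 ^ 1 = 1
        rw [pow_one, ← orderOf_dvd_iff_pow_eq_one]
        have h3 : orderOf (g : G) ≠ 3 := fun e =>
          two_three hord hv₀2 e (Subgroup.mem_centralizer_iff.mp g.2 _ hv₀)
        have := hord g.1
        have := orderOf_pos g.1
        rcases (show orderOf (g : G) = 1 ∨ orderOf (g : G) = 2 by omega) with e | e <;> simp [e]
      intro g hg
      exact Cores.le_pCore inferInstance hC (Subgroup.mem_centralizer_iff.mpr hg)
    have hSV : (S : Subgroup G) = V := le_antisymm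
      (fun g hg => hCV g fun v hv => hcomm hS2 v (Cores.pCore_le_sylow S hv) g hg)
      (Cores.pCore_le_sylow S)
    refine ⟨V, inferInstance, ⟨isMulCommutative_iff.mpr fun a b =>
      Subtype.ext (hcomm hV2 _ a.2 _ b.2), hV2⟩, ?_⟩
    -- the Sylow 3-subgroup has order 3
    obtain ⟨R⟩ := (inferInstance : Nonempty (Sylow 3 G))
    have hR3 : ∀ g ∈ (R : Subgroup G), g ^ 3 = 1 := fun g hg => by
      obtain ⟨k, hk⟩ := R.isPGroup' ⟨g, hg⟩
      exact pow_three hord ⟨k, congrArg Subtype.val hk⟩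
    have hR : Nat.card R = 3 := by
      have hd : 3 ∣ Nat.card G := hx ▸ orderOf_dvd_natCard x
      have hRd := R.dvd_card_of_dvd_card hd
      haveI : Nontrivial R := Finite.one_lt_card_iff_nontrivial.mp
        (lt_of_lt_of_le (by norm_num) (Nat.le_of_dvd Nat.card_pos hRd))
      obtain ⟨⟨z, hz⟩, hz1⟩ := @exists_ne _ (R.isPGroup'.center_nontrivial) 1
      have hz1' : (z : G) ≠ 1 := fun e => hz1 (Subtype.ext (Subtype.ext e))
      have hzo : orderOf (z : G) = 3 := orderOf_eq_prime (hR3 _ z.2) hz1'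
      suffices hle : (R : Subgroup G) ≤ Subgroup.zpowers (z : G) by
        have := Subgroup.card_le_of_le hle
        rw [Nat.card_zpowers, hzo] at this
        have := Nat.le_of_dvd Nat.card_pos hRd
        omega
      intro y hy
      by_contra hyz
      have hyo : orderOf y = 3 := orderOf_eq_prime (hR3 _ hy)
        (fun e => hyz (e ▸ one_mem _))
      have hyzc : y * z = z * y := congrArg Subtype.val (Subgroup.mem_center_iff.mp hz ⟨y, hy⟩)
      have hyzo : orderOf (y * z) = 3 := orderOf_eq_prime (hR3 _ (mul_mem hy z.2)) fun e =>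
        hyz (by rw [eq_inv_of_mul_eq_one_left e]; exact inv_mem (Subgroup.mem_zpowers _))
      have n1 := norm_three hord hV2 (hcomm hV2) hzo hv₀
      have n2 := norm_three hord hV2 (hcomm hV2) hyo hv₀
      have n3 := norm_three hord hV2 (hcomm hV2) hyzo hv₀
      have hn := (inferInstance : V.Normal).conj_mem
      have hy2 : ∀ u, u ∈ V → y ^ 2 * u * (y ^ 2)⁻¹ = u * (y * u * y⁻¹) := fun u hu =>
        norm_three hord hV2 (hcomm hV2) hyo hu
      have e2 : y ^ 2 * z ^ 2 = (y * z) ^ 2 := ((show Commute y z from hyzc).mul_pow 2).symm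
      have key : v₀ * (y * v₀ * y⁻¹) * ((z : G) * v₀ * (z : G)⁻¹) * ((y * z) * v₀ * (y * z)⁻¹)
          = v₀ * ((y * z) * v₀ * (y * z)⁻¹) := by
        calc _ = (v₀ * (y * v₀ * y⁻¹)) * (((z : G) * v₀ * (z : G)⁻¹) * (y * ((z : G) * v₀ * (z : G)⁻¹) * y⁻¹)) := by
              group
          _ = (y ^ 2 * v₀ * (y ^ 2)⁻¹) * (y ^ 2 * ((z : G) * v₀ * (z : G)⁻¹) * (y ^ 2)⁻¹) := by
              rw [hy2 _ hv₀, hy2 _ (hn _ hv₀ _)]
          _ = y ^ 2 * (v₀ * ((z : G) * v₀ * (z : G)⁻¹)) * (y ^ 2)⁻¹ := by group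
          _ = y ^ 2 * ((z : G) ^ 2 * v₀ * ((z : G) ^ 2)⁻¹) * (y ^ 2)⁻¹ := by rw [n1]
          _ = (y ^ 2 * (z : G) ^ 2) * v₀ * (y ^ 2 * (z : G) ^ 2)⁻¹ := by group
          _ = _ := by rw [e2, n3]
      have key2 : y * v₀ * y⁻¹ * ((z : G) * v₀ * (z : G)⁻¹) = 1 := by
        have := mul_right_cancel key
        rwa [mul_assoc, mul_eq_left] at this
      have key3 : y * v₀ * y⁻¹ = (z : G) * v₀ * (z : G)⁻¹ := by
        rw [eq_inv_of_mul_eq_one_left key2, inv_eq_of_mul_eq_one_right]
        rw [← pow_two]; exact hV2 _ (hn _ hv₀ _)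
      have hzyo : orderOf ((z : G)⁻¹ * y) = 3 := orderOf_eq_prime
        (hR3 _ (mul_mem (inv_mem z.2) hy)) fun e =>
          hyz (by rw [← inv_mul_eq_one.mp e]; exact Subgroup.mem_zpowers _)
      refine two_three hord hv₀2 hzyo ?_
      calc v₀ * ((z : G)⁻¹ * y) = (z : G)⁻¹ * ((z : G) * v₀ * (z : G)⁻¹) * y := by group
        _ = (z : G)⁻¹ * y * v₀ := by rw [← key3]; group
    -- index
    have hi : ¬ 2 ∣ V.index := hSV ▸ S.not_dvd_index
    have hrel : ∀ q, q.Prime → q ∣ V.index → q = 3 := fun q hq hd =>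
      (hpr q hq (hd.trans V.index_dvd_card)).resolve_left fun e => hi (e ▸ hd)
    obtain ⟨a, ha⟩ := S.isPGroup'.exists_card_eq
    rw [hSV] at ha
    obtain ⟨b, hb⟩ : ∃ b, V.index = 3 ^ b := by
      refine ⟨_, Nat.eq_prime_pow_of_unique_prime_dvd Subgroup.index_ne_zero_of_finite fun {d} hd hdd => hrel d hd hdd⟩
    have hG : Nat.card G = 2 ^ a * 3 ^ b := by rw [← ha, ← hb, Subgroup.card_mul_index]
    have := R.card_eq_multiplicity
    rw [hR, hG, Nat.factorization_mul (by simp) (by simp), Finsupp.add_apply,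
      Nat.Prime.factorization_pow Nat.prime_two, Nat.Prime.factorization_pow Nat.prime_three,
      Finsupp.single_eq_same, Finsupp.single_eq_of_ne (by decide), zero_add] at this
    rw [hb, ← this]
  · left
    set W := Cfsg.pCore 3 G
    have hW3 : ∀ w ∈ W, w ^ 3 = 1 := fun w hw => by
      obtain ⟨k, hk⟩ := hW ⟨w, hw⟩
      exact pow_three hord ⟨k, congrArg Subtype.val hk⟩
    have hinv : ∀ s : G, orderOf s = 2 → ∀ w ∈ W, s * w * s⁻¹ = w⁻¹ := by
      intro s hs w hw
      let φ : MulAut W := MulAut.conjNormal s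
      have hff : MonoidHom.FixedPointFree φ := by
        intro u hu
        by_contra hne
        refine two_three hord hs (orderOf_eq_prime (hW3 _ u.2) fun e => hne (Subtype.ext e)) ?_
        have := congrArg Subtype.val hu
        rw [MulAut.conjNormal_apply, mul_inv_eq_iff_eq_mul] at this
        exact this
      have hs2 : s * s = 1 := by rw [← pow_two, ← hs]; exact pow_orderOf_eq_one s
      have hinvol : Function.Involutive φ := fun u => Subtype.ext (by
        show s * (s * u * s⁻¹) * s⁻¹ = u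
        calc s * (s * u * s⁻¹) * s⁻¹ = (s * s) * u * (s * s)⁻¹ := by group
          _ = u := by simp [hs2])
      have := congrFun (hff.coe_eq_inv_of_involutive hinvol) ⟨w, hw⟩
      exact congrArg Subtype.val this
    have hWc : ∀ v ∈ W, ∀ w ∈ W, v * w = w * v := by
      intro v hv w hw
      have h1 := hinv t ht _ (mul_mem hv hw)
      have h2 : t * (v * w) * t⁻¹ = v⁻¹ * w⁻¹ := by
        rw [← hinv t ht v hv, ← hinv t ht w hw]; group
      exact inv_injective (by rw [← h1, h2, mul_inv_rev])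
    refine ⟨W, inferInstance, ⟨isMulCommutative_iff.mpr fun a b =>
      Subtype.ext (hWc _ a.2 _ b.2), hW3⟩, ?_⟩
    obtain ⟨w₀, hw₀⟩ := W.ne_bot_iff_exists_ne_one.mp hW0
    have hw₀3 : orderOf (w₀ : G) = 3 := orderOf_eq_prime (hW3 _ w₀.2) fun e => hw₀ (Subtype.ext e)
    have hC : IsPGroup 3 (Subgroup.centralizer (W : Set G)) := by
      intro g
      refine ⟨1, Subtype.ext ?_⟩
      show (g : G) ^ 3 ^ 1 = 1
      rw [pow_one, ← orderOf_dvd_iff_pow_eq_one]
      have h3 : orderOf (g : G) ≠ 2 := fun e =>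
        two_three hord e hw₀3 (Subgroup.mem_centralizer_iff.mp g.2 _ w₀.2).symm
      have := hord g.1
      have := orderOf_pos g.1
      rcases (show orderOf (g : G) = 1 ∨ orderOf (g : G) = 3 by omega) with e | e <;> simp [e]
    have htt : ∀ s, orderOf s = 2 → s⁻¹ * t ∈ W := by
      intro s hs
      refine Cores.le_pCore inferInstance hC (Subgroup.mem_centralizer_iff.mpr fun w hw => ?_)
      have h1 := hinv t ht w hw
      have h2 := hinv s hs w hw
      rw [← h2, mul_inv_eq_iff_eq_mul] at h1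
      calc w * (s⁻¹ * t) = s⁻¹ * (s * w * s⁻¹ * t) := by group
        _ = s⁻¹ * t * w := by rw [← h1]; group
    -- the 2-part is 2
    obtain ⟨S⟩ := (inferInstance : Nonempty (Sylow 2 G))
    obtain ⟨R⟩ := (inferInstance : Nonempty (Sylow 3 G))
    have hS : Nat.card S = 2 := by
      have hd := S.dvd_card_of_dvd_card (ht ▸ orderOf_dvd_natCard t : 2 ∣ Nat.card G)
      obtain ⟨⟨s, hs⟩, hso⟩ := exists_prime_orderOf_dvd_card' 2 hd
      rw [Subgroup.orderOf_mk] at hso
      suffices hle : (S : Subgroup G) ≤ Subgroup.zpowers s by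
        have := Subgroup.card_le_of_le hle
        rw [Nat.card_zpowers, hso] at this
        have := Nat.le_of_dvd Nat.card_pos hd
        omega
      intro g hg
      by_cases hg1 : g = 1
      · exact hg1 ▸ one_mem _
      obtain ⟨k, hk⟩ := S.isPGroup' ⟨g, hg⟩
      have hgo : orderOf g = 2 :=
        orderOf_eq_prime (pow_two' hord ⟨k, congrArg Subtype.val hk⟩) hg1
      have hmem : g⁻¹ * s ∈ W := by
        have := mul_mem (htt g hgo) (inv_mem (htt s hso))
        convert this using 1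
        group
      have h1 : g⁻¹ * s = 1 := by
        have h3 := hW3 _ hmem
        obtain ⟨k, hk⟩ := S.isPGroup' ⟨g⁻¹ * s, mul_mem (inv_mem hg) hs⟩
        have h2 : (g⁻¹ * s) ^ 2 ^ k = 1 := congrArg Subtype.val hk
        rw [← orderOf_eq_one_iff]
        exact Nat.eq_one_of_dvd_coprimes (Nat.Coprime.pow_left k (by decide : Nat.Coprime 2 3))
          (orderOf_dvd_of_pow_eq_one h2) (orderOf_dvd_of_pow_eq_one h3)
      rw [inv_mul_eq_one.mp h1]; exact Subgroup.mem_zpowers _
    have hidx : (R : Subgroup G).index = 2 := by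
      refine Nat.eq_of_mul_eq_mul_left (Nat.card_pos (α := R)) ?_
      rw [Subgroup.card_mul_index, ← hS, R.card_eq_multiplicity, S.card_eq_multiplicity]
      conv_lhs => rw [← Nat.prod_factorization_pow_eq_self (Nat.card_pos (α := G)).ne']
      have hsub : (Nat.card G).factorization.support = {2, 3} := by
        rw [Nat.support_factorization]
        ext q
        rw [Nat.mem_primeFactors]
        constructor
        · rintro ⟨hq, hd, -⟩
          rcases hpr q hq hd with e | e <;> simp [e]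
        · intro hq
          simp only [Finset.mem_insert, Finset.mem_singleton] at hq
          rcases hq with e | e <;> subst e
          · exact ⟨Nat.prime_two, ht ▸ orderOf_dvd_natCard t, Nat.card_pos.ne'⟩
          · exact ⟨Nat.prime_three, hx ▸ orderOf_dvd_natCard x, Nat.card_pos.ne'⟩
      rw [Finsupp.prod, hsub, Finset.prod_pair (by decide), mul_comm]
    haveI := Subgroup.normal_of_index_eq_two hidx
    rw [show W = (R : Subgroup G) from
      le_antisymm (Cores.pCore_le_sylow R) (Cores.le_pCore inferInstance R.isPGroup'), hidx]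

end Cfsg.Agent.S4005
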