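import Cfsg.Statements.S4006
import Mathlib
import Cfsg.Agent.Cores.Basic
import Cfsg.Agent.Cores.Fitting
import Cfsg.Agent.Char.Burnside
import Cfsg.Agent.TwoAut.FpfThreeClass
import Cfsg.Agent.TwoGroups.UniqueInvolution
import Cfsg.Agent.FGS75.SameOrderConj

set_option autoImplicit false
open Cfsg Cfsg.Agent
open scoped commutatorElement

namespace Cfsg.Agent.S4006

/-- Automorphisms of orders three and two generating a symmetric group, the first fixed-point-free,
on a group of class two in which every `x * τ x` squares to one. -/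
theorem elem_of_pair {T : Type*} [Group T] [Finite T] {ρ τ : MulAut T} (h : TwoAut.FpfThree ρ)
    (hτ : ∀ x, τ (τ x) = x) (hc : ∀ x, τ (ρ x) = ρ (ρ (τ x)))
    (h4 : ∀ x, (x * τ x) * (x * τ x) = 1) (hcl : ∀ x y : T, ⁅x, y⁆ ∈ Subgroup.center T)
    (x y : T) : x * y = y * x ∧ x * x = 1 := by
  set Z := Subgroup.center T with hZdef
  have hz : ∀ z ∈ Z, ∀ w : T, w * z = z * w := fun z hz => Subgroup.mem_center_iff.mp hz
  have hρZ : ∀ (φ : MulAut T) {z : T}, z ∈ Z → φ z ∈ Z := fun φ z hzm => by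
    refine Subgroup.mem_center_iff.mpr fun w => ?_
    have := congrArg φ (hz z hzm (φ.symm w))
    rwa [map_mul, map_mul, MulEquiv.apply_symm_apply] at this
  have hZ2 : ∀ z ∈ Z, z * z = 1 := by
    intro z hzm
    have key : ∀ z ∈ Z, τ (z * z) = (z * z)⁻¹ := fun z hzm => eq_inv_of_mul_eq_one_right (by
      have e := h4 z
      rw [mul_assoc z (τ z), ← mul_assoc (τ z) z, hz z hzm (τ z), mul_assoc z (τ z), ← map_mul,
        ← mul_assoc] at e
      exact e)
    have e1 : τ (ρ (z * z)) = (ρ (z * z))⁻¹ := by rw [map_mul ρ]; exact key _ (hρZ ρ hzm)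
    rw [hc, key z hzm, map_inv, map_inv, inv_inj] at e1
    exact h.fpf _ (ρ.injective e1)
  let C : Subgroup T :=
    { carrier := {w | τ w * w⁻¹ ∈ Z}
      one_mem' := by simp
      mul_mem' := fun {a b} (ha : τ a * a⁻¹ ∈ Z) (hb : τ b * b⁻¹ ∈ Z) => by
        show τ (a * b) * (a * b)⁻¹ ∈ Z
        have e : τ (a * b) * (a * b)⁻¹ = (τ a * a⁻¹) * (τ b * b⁻¹) := by
          calc τ (a * b) * (a * b)⁻¹ = τ a * ((τ b * b⁻¹) * a⁻¹) := by rw [map_mul]; group
            _ = τ a * (a⁻¹ * (τ b * b⁻¹)) := by rw [hz _ hb a⁻¹]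
            _ = _ := by group
        exact e ▸ mul_mem ha hb
      inv_mem' := fun {a} (ha : τ a * a⁻¹ ∈ Z) => by
        show τ a⁻¹ * (a⁻¹)⁻¹ ∈ Z
        have e : a⁻¹ * τ a = τ a * a⁻¹ := by
          calc a⁻¹ * τ a = a⁻¹ * (τ a * a⁻¹) * a := by group
            _ = τ a * a⁻¹ := by rw [hz _ ha a⁻¹]; group
        rw [map_inv, inv_inv, show (τ a)⁻¹ * a = (a⁻¹ * τ a)⁻¹ by group, e]
        exact inv_mem ha }
  have hC2 : ∀ w ∈ C, w * w = 1 := by
    intro w (hw : τ w * w⁻¹ ∈ Z)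
    set z := τ w * w⁻¹ with hzdef
    have hz2 := hρZ ρ (hρZ ρ hw)
    have e := h4 (ρ w)
    have e0 : τ w = z * w := by rw [hzdef]; group
    have e1 : ρ w * τ (ρ w) = ρ (ρ z) * w⁻¹ := by
      rw [hc, e0, map_mul, map_mul, ← mul_assoc, hz _ hz2 (ρ w), mul_assoc]
      congr 1
      exact eq_inv_of_mul_eq_one_right (by rw [← mul_assoc]; exact h.mul_eq_one w)
    have e2 : ρ (ρ z) * w⁻¹ * (ρ (ρ z) * w⁻¹) = (ρ (ρ z) * ρ (ρ z)) * (w⁻¹ * w⁻¹) := by
      rw [mul_assoc, ← mul_assoc w⁻¹, hz _ hz2 w⁻¹]; simp only [mul_assoc]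
    rw [e1, e2, hZ2 _ hz2, one_mul, ← mul_inv_rev, inv_eq_one] at e
    exact e
  have hCc : ∀ a ∈ C, ∀ b ∈ C, a * b = b * a := fun a ha b hb => by
    have hi : ∀ u ∈ C, u⁻¹ = u := fun u hu => inv_eq_of_mul_eq_one_right (hC2 u hu)
    calc a * b = (a * b)⁻¹ := (hi _ (mul_mem ha hb)).symm
      _ = b * a := by rw [mul_inv_rev, hi a ha, hi b hb]
  have hρρ : ∀ c ∈ C, ρ (ρ c) = ρ c * c := fun c hcm => by
    have e1 : ρ (ρ c) = (c * ρ c)⁻¹ := eq_inv_of_mul_eq_one_right (h.mul_eq_one c)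
    rw [e1, mul_inv_rev, inv_eq_of_mul_eq_one_right (hC2 c hcm),
      inv_eq_of_mul_eq_one_right (a := ρ c) (b := ρ c) (by rw [← map_mul, hC2 c hcm, map_one])]
  have hcross : ∀ a ∈ C, ∀ b ∈ C, a * ρ b = ρ b * a := by
    intro a ha b hb
    have e := hρρ _ (mul_mem ha hb)
    rw [map_mul ρ a b, map_mul, hρρ a ha, hρρ b hb] at e
    simp only [mul_assoc] at e
    have e' := mul_left_cancel e
    rw [← mul_assoc, ← mul_assoc] at e'
    exact mul_right_cancel e'
  have hτC : ∀ v, v * τ v ∈ C := fun v => by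
    show τ (v * τ v) * (v * τ v)⁻¹ ∈ Z
    rw [map_mul, hτ, mul_inv_rev, ← mul_assoc, ← commutatorElement_def]
    exact hcl _ _
  have hdec : ∀ u, ∃ a ∈ C, ∃ b ∈ C, u = a * ρ b := by
    intro u
    obtain ⟨v, hv⟩ := h.exists_eq_inv_mul (ρ * ρ) (fun y hy => h.fpf_sq y hy) u
    change v⁻¹ * ρ (ρ v) = u at hv
    have hcu := hcl (τ v) ((v * τ v)⁻¹ * ρ (ρ v * τ (ρ v)))
    have hcC : ⁅τ v, (v * τ v)⁻¹ * ρ (ρ v * τ (ρ v))⁆ ∈ C := by
      show τ ⁅τ v, (v * τ v)⁻¹ * ρ (ρ v * τ (ρ v))⁆ * _ ∈ Z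
      exact mul_mem (hρZ τ hcu) (inv_mem hcu)
    refine ⟨_, mul_mem hcC (inv_mem (hτC v)), _, hτC (ρ v), ?_⟩
    rw [← hv, map_mul, hc, h.cube, commutatorElement_def]
    group
  have hρC2 : ∀ b ∈ C, ρ b * ρ b = 1 := fun b hb => by rw [← map_mul, hC2 b hb, map_one]
  obtain ⟨a, ha, b, hb, rfl⟩ := hdec x
  obtain ⟨a', ha', b', hb', rfl⟩ := hdec y
  have hρc : ρ b * ρ b' = ρ b' * ρ b := by rw [← map_mul, ← map_mul, hCc b hb b' hb']
  constructor
  · have c1 : Commute a (a' * ρ b') :=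
      (show Commute a a' from hCc a ha a' ha').mul_right (hcross a ha b' hb')
    have c2 : Commute (ρ b) (a' * ρ b') :=
      (show Commute (ρ b) a' from (hcross a' ha' b hb).symm).mul_right hρc
    exact (c1.mul_left c2).eq
  · rw [mul_assoc, ← mul_assoc (ρ b), ← hcross a ha b hb, mul_assoc a (ρ b), hρC2 b hb, mul_one,
      hC2 a ha]

theorem two_three {G : Type*} [Group G] [Finite G] (hord : ∀ g : G, orderOf g ≤ 4) {a b : G}
    (ha : orderOf a = 2) (hb : orderOf b = 3) : a * b ≠ b * a := by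
  intro h
  have := (show Commute a b from h).orderOf_mul_eq_mul_orderOf_of_coprime (by rw [ha, hb]; decide)
  have h2 := hord (a * b)
  rw [this, ha, hb] at h2
  omega

theorem fix_three {G : Type*} [Group G] [Finite G] (hord : ∀ g : G, orderOf g ≤ 4) {g u : G}
    (hg : g ^ 3 = 1) (hg1 : g ≠ 1) (hu : u ^ 4 = 1) (h : u * g = g * u) : u = 1 := by
  haveI := Fact.mk Nat.prime_three
  haveI := Fact.mk Nat.prime_two
  have hg3 : orderOf g = 3 := orderOf_eq_prime hg hg1
  by_cases h2 : u ^ 2 = 1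
  · by_contra hu1
    exact two_three hord (orderOf_eq_prime h2 hu1) hg3 h
  · exact absurd ((show Commute (u ^ 2) g from (show Commute u g from h).pow_left 2).eq)
      (two_three hord (orderOf_eq_prime (by rw [← pow_mul]; exact hu) h2) hg3)

/-- An element of order three and a nontrivial normal subgroup of exponent two. -/
theorem norm_three {G : Type*} [Group G] [Finite G] (hord : ∀ g : G, orderOf g ≤ 4)
    {V : Subgroup G} [V.Normal] (hV : ∀ v ∈ V, v ^ 2 = 1) (hVc : ∀ v ∈ V, ∀ w ∈ V, v * w = w * v)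
    {h : G} (h3 : h ^ 3 = 1) (h1 : h ≠ 1) {v : G} (hv : v ∈ V) :
    h ^ 2 * v * (h ^ 2)⁻¹ = v * (h * v * h⁻¹) := by
  have hn := (inferInstance : V.Normal).conj_mem
  set a := h * v * h⁻¹
  set b := h ^ 2 * v * (h ^ 2)⁻¹
  have ha : a ∈ V := hn _ hv _
  have hb : b ∈ V := hn _ hv _
  have hw : v * a * b = 1 := by
    have hwV : v * a * b ∈ V := mul_mem (mul_mem hv ha) hb
    refine fix_three hord h3 h1 (by rw [pow_mul _ 2 2, hV _ hwV, one_pow]) ?_
    have e : h * (v * a * b) * h⁻¹ = a * b * v := by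
      calc h * (v * a * b) * h⁻¹ = a * b * (h ^ 3 * v * (h ^ 3)⁻¹) := by simp only [a, b]; group
        _ = a * b * v := by rw [h3, one_mul, inv_one, mul_one]
    have e' : a * b * v = v * a * b := by rw [hVc _ (mul_mem ha hb) _ hv, ← mul_assoc v]
    rw [e'] at e
    exact (mul_inv_eq_iff_eq_mul.mp e).symm
  have : v * a = (v * a)⁻¹ := by
    rw [← mul_eq_one_iff_eq_inv, ← pow_two]; exact hV _ (mul_mem hv ha)
  rw [this]; exact eq_inv_of_mul_eq_one_right hw

/-- Commuting elements of order three acting on a nontrivial normal 2-subgroup are dependent. -/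
theorem three_dep {G : Type*} [Group G] [Finite G] (hord : ∀ g : G, orderOf g ≤ 4)
    {V : Subgroup G} [V.Normal] (hV : ∀ v ∈ V, v ^ 2 = 1) (hVc : ∀ v ∈ V, ∀ w ∈ V, v * w = w * v)
    {v : G} (hv : v ∈ V) (hv1 : v ≠ 1) {y z : G} (hy : y ^ 3 = 1) (hz : z ^ 3 = 1) (hz1 : z ≠ 1)
    (hyz : y * z = z * y) : y ∈ Subgroup.zpowers z := by
  by_contra hmem
  have hy1 : y ≠ 1 := fun e => hmem (e ▸ one_mem _)
  have hyz1 : y * z ≠ 1 := fun e =>
    hmem (by rw [eq_inv_of_mul_eq_one_left e]; exact inv_mem (Subgroup.mem_zpowers _))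
  have hyz3 : (y * z) ^ 3 = 1 := by rw [(show Commute y z from hyz).mul_pow, hy, hz, one_mul]
  have hn := (inferInstance : V.Normal).conj_mem
  have n1 := norm_three hord hV hVc hz hz1 hv
  have n3 := norm_three hord hV hVc hyz3 hyz1 hv
  have hy2 : ∀ u, u ∈ V → y ^ 2 * u * (y ^ 2)⁻¹ = u * (y * u * y⁻¹) := fun u hu =>
    norm_three hord hV hVc hy hy1 hu
  have e2 : y ^ 2 * z ^ 2 = (y * z) ^ 2 := ((show Commute y z from hyz).mul_pow 2).symm
  have key : v * (y * v * y⁻¹) * (z * v * z⁻¹) * ((y * z) * v * (y * z)⁻¹)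
      = v * ((y * z) * v * (y * z)⁻¹) := by
    calc _ = (v * (y * v * y⁻¹)) * ((z * v * z⁻¹) * (y * (z * v * z⁻¹) * y⁻¹)) := by group
      _ = (y ^ 2 * v * (y ^ 2)⁻¹) * (y ^ 2 * (z * v * z⁻¹) * (y ^ 2)⁻¹) := by
          rw [hy2 _ hv, hy2 _ (hn _ hv _)]
      _ = y ^ 2 * (v * (z * v * z⁻¹)) * (y ^ 2)⁻¹ := by group
      _ = y ^ 2 * (z ^ 2 * v * (z ^ 2)⁻¹) * (y ^ 2)⁻¹ := by rw [n1]
      _ = (y ^ 2 * z ^ 2) * v * (y ^ 2 * z ^ 2)⁻¹ := by group
      _ = _ := by rw [e2, n3]
  have key2 : y * v * y⁻¹ * (z * v * z⁻¹) = 1 := by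
    have := mul_right_cancel key
    rwa [mul_assoc, mul_eq_left] at this
  have key3 : y * v * y⁻¹ = z * v * z⁻¹ := by
    rw [eq_inv_of_mul_eq_one_left key2, inv_eq_of_mul_eq_one_right]
    rw [← pow_two]; exact hV _ (hn _ hv _)
  have hzy : (z⁻¹ * y) ^ 3 = 1 := by
    rw [((show Commute y z from hyz).symm.inv_left).mul_pow, inv_pow, hy, hz, inv_one, one_mul]
  refine hv1 (fix_three hord hzy (fun e => hmem ?_) (by rw [pow_mul _ 2 2, hV _ hv, one_pow]) ?_)
  · rw [← inv_mul_eq_one.mp e]; exact Subgroup.mem_zpowers _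
  · calc v * (z⁻¹ * y) = z⁻¹ * (z * v * z⁻¹) * y := by group
      _ = z⁻¹ * y * v := by rw [← key3]; group

theorem case_three {G : Type*} [Group G] [Finite G]
    (hord : ∀ g : G, g ^ 4 = 1 ∨ g ^ 3 = 1) (hle : ∀ g : G, orderOf g ≤ 4) (h4 : ∃ f : G, orderOf f = 4)
    (N : Subgroup G) [N.Normal] (hN : IsPGroup 3 N) (hN0 : N ≠ ⊥) (hmax : ∀ K : Subgroup G, K.Normal → IsPGroup 3 K → K ≤ N) :
    Cfsg.IsElementaryAbelian 3 N ∧
      ((IsCyclic (G ⧸ N) ∧ N.index = 4) ∨ Nonempty (G ⧸ N ≃* QuaternionGroup 2)) := by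
  haveI := Fact.mk Nat.prime_three
  haveI := Fact.mk Nat.prime_two
  obtain ⟨f, hf⟩ := h4
  have hN3 : ∀ w ∈ N, w ^ 3 = 1 := fun w hw => by
    rcases hord w with e | e
    · obtain ⟨k, hk⟩ := hN ⟨w, hw⟩
      have hk' : w ^ 3 ^ k = 1 := congrArg Subtype.val hk
      have h1 : orderOf w = 1 := Nat.eq_one_of_dvd_coprimes
        (Nat.Coprime.pow_left k (by decide : Nat.Coprime 3 4))
        (orderOf_dvd_of_pow_eq_one hk') (orderOf_dvd_of_pow_eq_one e)
      rw [orderOf_eq_one_iff.mp h1, one_pow]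
    · exact e
  have hinv : ∀ s : G, orderOf s = 2 → ∀ w ∈ N, s * w * s⁻¹ = w⁻¹ := by
    intro s hs w hw
    let φ : MulAut N := MulAut.conjNormal s
    have hff : MonoidHom.FixedPointFree φ := by
      intro u hu
      by_contra hne
      refine two_three hle hs (orderOf_eq_prime (hN3 _ u.2) fun e => hne (Subtype.ext e)) ?_
      have := congrArg Subtype.val hu
      rw [MulAut.conjNormal_apply, mul_inv_eq_iff_eq_mul] at this
      exact this
    have hs2 : s * s = 1 := by rw [← pow_two, ← hs]; exact pow_orderOf_eq_one s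
    have hinvol : Function.Involutive φ := fun u => Subtype.ext (by
      show s * (s * u * s⁻¹) * s⁻¹ = u
      calc s * (s * u * s⁻¹) * s⁻¹ = (s * s) * u * (s * s)⁻¹ := by group
        _ = u := by simp [hs2])
    exact congrArg Subtype.val (congrFun (hff.coe_eq_inv_of_involutive hinvol) ⟨w, hw⟩)
  set z := f ^ 2 with hz_def
  have hz : orderOf z = 2 := by
    rw [hz_def, orderOf_pow' f (by norm_num), hf]; rfl
  have hNc : ∀ v ∈ N, ∀ w ∈ N, v * w = w * v := by
    intro v hv w hw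
    have h1 := hinv z hz _ (mul_mem hv hw)
    have h2 : z * (v * w) * z⁻¹ = v⁻¹ * w⁻¹ := by
      rw [← hinv z hz v hv, ← hinv z hz w hw]; group
    exact inv_injective (by rw [← h1, h2, mul_inv_rev])
  obtain ⟨⟨w₀, hw₀N⟩, hw₀⟩ := N.ne_bot_iff_exists_ne_one.mp hN0
  have hw₀3 : orderOf w₀ = 3 := orderOf_eq_prime (hN3 _ hw₀N) fun e => hw₀ (Subtype.ext e)
  have hC : IsPGroup 3 (Subgroup.centralizer (N : Set G)) := by
    intro g
    refine ⟨1, Subtype.ext ?_⟩
    show (g : G) ^ 3 ^ 1 = 1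
    rw [pow_one]
    rcases hord g.1 with e | e
    · rw [fix_three hle (hN3 _ hw₀N) (fun e => hw₀ (Subtype.ext e)) e
        (Subgroup.mem_centralizer_iff.mp g.2 _ hw₀N).symm, one_pow]
    · exact e
  have hzN : ∀ s, orderOf s = 2 → z⁻¹ * s ∈ N := by
    intro s hs
    refine hmax _ inferInstance hC (Subgroup.mem_centralizer_iff.mpr fun w hw => ?_)
    have h1 := hinv z hz w hw
    have h2 := hinv s hs w hw
    rw [← h2, eq_mul_inv_iff_mul_eq] at h1
    calc w * (z⁻¹ * s) = z⁻¹ * (z * w * z⁻¹ * s) := by group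
      _ = z⁻¹ * s * w := by rw [h1]; group
  have h3N : ∀ x : G, x ^ 3 = 1 → x ∈ N := by
    intro x hx
    obtain ⟨n, hn, hxz⟩ : ∃ n ∈ N, x * z * x⁻¹ = z * n := by
      refine ⟨z⁻¹ * (x * z * x⁻¹), hzN _ ?_, by group⟩
      rw [← MulAut.conj_apply, MulEquiv.orderOf_eq]; exact hz
    set c := x⁻¹ * n * x with hcdef
    have hcN : c ∈ N := by
      have := (inferInstance : N.Normal).conj_mem n hn x⁻¹
      rwa [inv_inv] at this
    set m := c ^ 2 with hm
    have hmN : m ∈ N := pow_mem hcN _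
    have hcomm : z * (x * m) = (x * m) * z := by
      have e1 : z * m⁻¹ = m * z := by
        have := hinv z hz _ hmN
        rw [← this]
        have hz2 : z * z = 1 := by rw [← pow_two, ← hz]; exact pow_orderOf_eq_one z
        rw [← mul_assoc, ← mul_assoc, hz2, one_mul, inv_eq_of_mul_eq_one_right hz2]
      have e2 : z * x = x * z * m⁻¹ * m⁻¹ * 1 := by
        have hc3 : m * m = c := by
          rw [hm, ← pow_add, show (2 + 2 : ℕ) = 3 + 1 from rfl, pow_succ, hN3 c hcN, one_mul]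
        rw [mul_one, mul_assoc _ m⁻¹, ← mul_inv_rev, hc3, hcdef]
        have : z = x * z * x⁻¹ * n⁻¹ := by rw [hxz]; group
        nth_rw 1 [this]
        group
      calc z * (x * m) = x * (z * m⁻¹) := by rw [← mul_assoc, e2]; group
        _ = x * m * z := by rw [e1, mul_assoc]
    rcases hord (x * m) with e | e
    · have hq : (QuotientGroup.mk' N x) = 1 := by
        have h1 : (QuotientGroup.mk' N x) ^ 4 = 1 := by
          have := congrArg (QuotientGroup.mk' N) e
          rwa [map_pow, map_mul, (show (QuotientGroup.mk' N) m = 1 from (QuotientGroup.eq_one_iff m).mpr hmN),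
            mul_one, map_one] at this
        have h2 : (QuotientGroup.mk' N x) ^ 3 = 1 := by rw [← map_pow, hx, map_one]
        rwa [pow_succ, h2, one_mul] at h1
      exact (QuotientGroup.eq_one_iff x).mp hq
    · by_cases h1 : x * m = 1
      · rw [eq_inv_of_mul_eq_one_left h1]; exact inv_mem hmN
      · exfalso
        exact two_three hle hz (orderOf_eq_prime e h1) hcomm
  refine ⟨⟨isMulCommutative_iff.mpr fun a b => Subtype.ext (hNc _ a.2 _ b.2), hN3⟩, ?_⟩
  have hQ4 : ∀ q : G ⧸ N, q ^ 4 = 1 := by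
    intro q
    induction q using QuotientGroup.induction_on with
    | H g =>
      rcases hord g with e | e
      · rw [← QuotientGroup.mk_pow, e, QuotientGroup.mk_one]
      · rw [(QuotientGroup.eq_one_iff g).mpr (h3N g e), one_pow]
  have hQp : IsPGroup 2 (G ⧸ N) := fun q => ⟨2, hQ4 q⟩
  have hcop : ∀ g : G, g ∈ N → g ^ 4 = 1 → g = 1 := by
    intro g hg h4
    have := hN3 g hg
    rwa [pow_succ, this, one_mul] at h4
  have huniq : ∀ x y : G ⧸ N, orderOf x = 2 → orderOf y = 2 → x = y := by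
    have key : ∀ q : G ⧸ N, orderOf q = 2 → q = QuotientGroup.mk z := by
      intro q hq
      induction q using QuotientGroup.induction_on with
      | H g =>
        have hq2 : g ^ 2 ∈ N := by
          rw [← QuotientGroup.eq_one_iff, QuotientGroup.mk_pow, ← hq]; exact pow_orderOf_eq_one _
        have hg1 : (g : G ⧸ N) ≠ 1 := fun e => by rw [e, orderOf_one] at hq; omega
        rcases hord g with e | e
        · have hg2 : g ^ 2 = 1 := hcop _ hq2 (by rw [← pow_mul, show 2 * 4 = 4 * 2 from rfl, pow_mul, e, one_pow])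
          exact (QuotientGroup.eq.mpr (hzN g (orderOf_eq_prime hg2 fun e => hg1 (by rw [e]; rfl)))).symm
        · exact absurd ((QuotientGroup.eq_one_iff g).mpr (h3N g e)) hg1
    intro x y hx hy
    rw [key x hx, key y hy]
  have hqf : orderOf (f : G ⧸ N) = 4 := by
    refine Nat.dvd_antisymm (orderOf_dvd_of_pow_eq_one (hQ4 _)) ?_
    rw [← hf]
    refine orderOf_dvd_of_pow_eq_one (hcop _ ?_ ?_)
    · rw [← QuotientGroup.eq_one_iff, QuotientGroup.mk_pow]; exact pow_orderOf_eq_one _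
    · rw [← pow_mul, mul_comm, pow_mul, ← hf, pow_orderOf_eq_one, one_pow]
  rcases TwoGroups.cyclic_or_quaternion_of_unique_involution hQp huniq with hc | ⟨n, hn, -, ⟨e⟩⟩
  · left
    refine ⟨hc, ?_⟩
    rw [Subgroup.index_eq_card]
    haveI := hc
    refine Nat.dvd_antisymm ?_ (hqf ▸ orderOf_dvd_natCard _)
    rw [← IsCyclic.exponent_eq_card]
    exact Monoid.exponent_dvd_iff_forall_pow_eq_one.mpr hQ4
  · right
    haveI : NeZero (2 ^ (n - 1)) := ⟨by positivity⟩
    have h1 := hQ4 (e.symm (QuaternionGroup.a 1))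
    rw [← map_pow, MulEquiv.map_eq_one_iff, ← orderOf_dvd_iff_pow_eq_one,
      QuaternionGroup.orderOf_a_one, show 4 = 2 * 2 ^ 1 from rfl] at h1
    have h2 : n - 1 ≤ 1 := (Nat.pow_dvd_pow_iff_le_right (by norm_num : 1 < 2)).mp
      ((Nat.mul_dvd_mul_iff_left two_pos).mp h1)
    obtain rfl : n = 2 := by omega
    exact ⟨e⟩

theorem case_two {G : Type*} [Group G] [Finite G] [Group.IsSolvable G]
    (hord : ∀ g : G, g ^ 4 = 1 ∨ g ^ 3 = 1) (hle : ∀ g : G, orderOf g ≤ 4) (h4 : ∃ f : G, orderOf f = 4)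
    (h3 : ∃ y : G, orderOf y = 3) (h0 : Cfsg.pCore 3 G = ⊥) :
    (IsPGroup 2 (Cfsg.pCore 2 G) ∧ Monoid.exponent (Cfsg.pCore 2 G) = 4 ∧
        Group.nilpotencyClass (Cfsg.pCore 2 G) ≤ 2 ∧ (Cfsg.pCore 2 G).index = 3) ∨
      (Cfsg.IsElementaryAbelian 2 (Cfsg.pCore 2 G) ∧
        Nonempty (G ⧸ Cfsg.pCore 2 G ≃* Equiv.Perm (Fin 3))) := by
  haveI := Fact.mk Nat.prime_three
  haveI := Fact.mk Nat.prime_two
  obtain ⟨f, hf⟩ := h4
  obtain ⟨x, hx⟩ := h3
  haveI : Nontrivial G := ⟨x, 1, fun e => by simp [e] at hx⟩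
  set U := Cfsg.pCore 2 G with hUdef
  have hU : IsPGroup 2 U := Cores.pCore_isPGroup
  have hpr : ∀ s : ℕ, s.Prime → s ∣ Nat.card G → s = 2 ∨ s = 3 := by
    intro s hs hd
    haveI := Fact.mk hs
    obtain ⟨g, hg⟩ := exists_prime_orderOf_dvd_card' s hd
    have := hg ▸ hle g
    have := hs.two_le
    interval_cases s <;> simp_all (config := { decide := true })
  have hcoreQ : ∀ {K : Type _} [Group K] [Finite K] [Group.IsSolvable K] [Nontrivial K],
      (∀ s : ℕ, s.Prime → s ∣ Nat.card K → s = 2 ∨ s = 3) →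
      Cfsg.pCore 2 K ≠ ⊥ ∨ Cfsg.pCore 3 K ≠ ⊥ := by
    intro K _ _ _ _ hK
    obtain ⟨q, hq, hne⟩ := Cores.exists_pCore_ne_bot (G := K)
    haveI := Fact.mk hq
    obtain ⟨n, hn⟩ := IsPGroup.iff_card.mp (Cores.pCore_isPGroup (G := K) (p := q))
    have h1 : n ≠ 0 := fun e => hne (Subgroup.card_eq_one.mp (by rw [hn, e, pow_zero]))
    rcases hK q hq ((dvd_pow_self q h1).trans (hn ▸ Subgroup.card_subgroup_dvd_card _)) with e | e
    · exact Or.inl (e ▸ hne)
    · exact Or.inr (e ▸ hne)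
  have hU0 : U ≠ ⊥ := (hcoreQ hpr).resolve_right (not_not.mpr h0)
  have hU4 : ∀ u ∈ U, u ^ 4 = 1 := by
    intro u hu
    rcases hord u with e | e
    · exact e
    · obtain ⟨k, hk⟩ := hU ⟨u, hu⟩
      have hk' : u ^ 2 ^ k = 1 := congrArg Subtype.val hk
      have h1 : orderOf u = 1 := Nat.eq_one_of_dvd_coprimes
        (Nat.Coprime.pow_left k (by decide : Nat.Coprime 2 3))
        (orderOf_dvd_of_pow_eq_one hk') (orderOf_dvd_of_pow_eq_one e)
      rw [orderOf_eq_one_iff.mp h1, one_pow]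
  -- a normal subgroup of exponent two
  let V : Subgroup G :=
    { carrier := {v | v ∈ U ∧ v ^ 2 = 1 ∧ ∀ u ∈ U, u * v = v * u}
      one_mem' := ⟨one_mem _, one_pow _, fun u _ => by simp⟩
      mul_mem' := fun {a b} ha hb => ⟨mul_mem ha.1 hb.1, by
        rw [(show Commute a b from hb.2.2 a ha.1).mul_pow, ha.2.1, hb.2.1, one_mul], fun u hu => by
        rw [← mul_assoc, ha.2.2 u hu, mul_assoc, hb.2.2 u hu, mul_assoc]⟩
      inv_mem' := fun {a} ha => ⟨inv_mem ha.1, by rw [inv_pow, ha.2.1, inv_one], fun u hu =>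
        ((show Commute u a from ha.2.2 u hu).inv_right).eq⟩ }
  haveI hVn : V.Normal := ⟨fun v hv g => by
    refine ⟨(inferInstance : U.Normal).conj_mem v hv.1 g, by rw [conj_pow, hv.2.1, mul_one, mul_inv_cancel],
      fun u hu => ?_⟩
    have hu' : g⁻¹ * u * g ∈ U := by
      have := (inferInstance : U.Normal).conj_mem u hu g⁻¹
      rwa [inv_inv] at this
    calc u * (g * v * g⁻¹) = g * ((g⁻¹ * u * g) * v) * g⁻¹ := by group
      _ = g * (v * (g⁻¹ * u * g)) * g⁻¹ := by rw [hv.2.2 _ hu']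
      _ = g * v * g⁻¹ * u := by group⟩
  have hV2 : ∀ v ∈ V, v ^ 2 = 1 := fun v hv => hv.2.1
  have hVc : ∀ v ∈ V, ∀ w ∈ V, v * w = w * v := fun v hv w hw => hw.2.2 v hv.1
  obtain ⟨v, hvV, hv1⟩ : ∃ v ∈ V, v ≠ 1 := by
    haveI : Nontrivial U := U.nontrivial_iff_ne_bot.mpr hU0
    haveI := hU.center_nontrivial
    have h2 : 2 ∣ Nat.card (Subgroup.center U) := by
      rcases (hU.to_subgroup (Subgroup.center U)).card_eq_or_dvd with h | h
      · exact absurd h (Finite.one_lt_card.ne')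
      · exact h
    obtain ⟨⟨⟨v, hvU⟩, hvZ⟩, hvo⟩ := exists_prime_orderOf_dvd_card' 2 h2
    rw [Subgroup.orderOf_mk, Subgroup.orderOf_mk] at hvo
    exact ⟨v, ⟨hvU, hvo ▸ pow_orderOf_eq_one v, fun u hu =>
      congrArg Subtype.val (Subgroup.mem_center_iff.mp hvZ ⟨u, hu⟩)⟩,
      fun e => by rw [e, orderOf_one] at hvo; omega⟩
  -- the Sylow 3-subgroups have order three
  obtain ⟨R⟩ := (inferInstance : Nonempty (Sylow 3 G))
  have hR3 : ∀ g ∈ (R : Subgroup G), g ^ 3 = 1 := fun g hg => by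
    rcases hord g with e | e
    · obtain ⟨k, hk⟩ := R.isPGroup' ⟨g, hg⟩
      have hk' : g ^ 3 ^ k = 1 := congrArg Subtype.val hk
      have h1 : orderOf g = 1 := Nat.eq_one_of_dvd_coprimes
        (Nat.Coprime.pow_left k (by decide : Nat.Coprime 3 4))
        (orderOf_dvd_of_pow_eq_one hk') (orderOf_dvd_of_pow_eq_one e)
      rw [orderOf_eq_one_iff.mp h1, one_pow]
    · exact e
  have hRd : 3 ∣ Nat.card R := R.dvd_card_of_dvd_card (hx ▸ orderOf_dvd_natCard x)
  have hR : Nat.card R = 3 := by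
    haveI : Nontrivial R := Finite.one_lt_card_iff_nontrivial.mp
      (lt_of_lt_of_le (by norm_num) (Nat.le_of_dvd Nat.card_pos hRd))
    obtain ⟨⟨z, hz⟩, hz1⟩ := @exists_ne _ (R.isPGroup'.center_nontrivial) 1
    have hz1' : (z : G) ≠ 1 := fun e => hz1 (Subtype.ext (Subtype.ext e))
    have hzo : orderOf (z : G) = 3 := orderOf_eq_prime (hR3 _ z.2) hz1'
    suffices hsub : (R : Subgroup G) ≤ Subgroup.zpowers (z : G) by
      have := Subgroup.card_le_of_le hsub
      rw [Nat.card_zpowers, hzo] at this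
      have := Nat.le_of_dvd Nat.card_pos hRd
      omega
    intro y hy
    exact three_dep hle hV2 hVc hvV hv1 (hR3 y hy) (hR3 _ z.2) hz1'
      (congrArg Subtype.val (Subgroup.mem_center_iff.mp hz ⟨y, hy⟩))
  -- the normal subgroup of order three modulo `U`
  haveI : Nontrivial (G ⧸ U) := QuotientGroup.nontrivial_iff.mpr fun e => by
    obtain ⟨k, hk⟩ := hU ⟨x, by rw [hUdef] at e ⊢; rw [e]; trivial⟩
    have hd := orderOf_dvd_of_pow_eq_one (congrArg Subtype.val hk : x ^ 2 ^ k = 1)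
    rw [hx] at hd
    have := Nat.Prime.dvd_of_dvd_pow Nat.prime_three hd
    norm_num at this
  haveI : Group.IsSolvable (G ⧸ U) :=
    solvable_of_surjective (QuotientGroup.mk'_surjective U)
  have hK0 : Cfsg.pCore 3 (G ⧸ U) ≠ ⊥ := (hcoreQ fun s hs hd =>
    hpr s hs (hd.trans (Subgroup.card_quotient_dvd_card U))).resolve_left
      (not_not.mpr Cores.pCore_quotient_pCore_eq_bot)
  set M := (Cfsg.pCore 3 (G ⧸ U)).comap (QuotientGroup.mk' U) with hMdef
  haveI : M.Normal := Subgroup.Normal.comap inferInstance _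
  have h3M : 3 ∣ Nat.card M := by
    rw [hMdef, Cores.card_comap_mk_eq]
    rcases (Cores.pCore_isPGroup (G := G ⧸ U) (p := 3)).card_eq_or_dvd with h | h
    · exact absurd (Subgroup.card_eq_one.mp h) hK0
    · exact Dvd.dvd.mul_left h _
  obtain ⟨⟨y, hyM⟩, hy⟩ := exists_prime_orderOf_dvd_card' 3 h3M
  rw [Subgroup.orderOf_mk] at hy
  have hy3 : y ^ 3 = 1 := hy ▸ pow_orderOf_eq_one y
  have hy1 : y ≠ 1 := fun e => by rw [e, orderOf_one] at hy; omega
  have hyU : y ∉ U := fun h => by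
    have := hU4 y h
    rw [pow_succ, hy3, one_mul] at this
    exact hy1 this
  set Y := Subgroup.zpowers y with hYdef
  have hKy : ∀ q ∈ Cfsg.pCore 3 (G ⧸ U), q ∈ Subgroup.zpowers (y : G ⧸ U) := by
    have hsub : Subgroup.zpowers (y : G ⧸ U) ≤ Cfsg.pCore 3 (G ⧸ U) := Subgroup.zpowers_le.mpr hyM
    have hd1 : Nat.card (Cfsg.pCore 3 (G ⧸ U)) ≤ 3 := by
      obtain ⟨k, hk⟩ := (Cores.pCore_isPGroup (G := G ⧸ U) (p := 3)).exists_card_eq
      have hd : 3 ^ k ∣ Nat.card G :=
        hk ▸ (Subgroup.card_subgroup_dvd_card _).trans (Subgroup.card_quotient_dvd_card U)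
      have := (Nat.Prime.pow_dvd_iff_le_factorization Nat.prime_three Nat.card_pos.ne').mp hd
      have h2 := R.card_eq_multiplicity
      rw [hR] at h2
      have h1 : (Nat.card G).factorization 3 = 1 :=
        Nat.pow_right_injective (le_refl 2 |>.trans (by norm_num : 2 ≤ 3)) (by simp [← h2])
      rw [hk]
      calc 3 ^ k ≤ 3 ^ 1 := Nat.pow_le_pow_right (by norm_num) (h1 ▸ this)
        _ = 3 := by norm_num
    have heq : Subgroup.zpowers (y : G ⧸ U) = Cfsg.pCore 3 (G ⧸ U) := by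
      refine Subgroup.eq_of_le_of_card_ge hsub (hd1.trans ?_)
      rw [Nat.card_zpowers]
      refine le_of_eq (orderOf_eq_prime (by rw [← QuotientGroup.mk_pow, hy3, QuotientGroup.mk_one]) ?_).symm
      exact fun e => hyU ((QuotientGroup.eq_one_iff y).mp e)
    exact fun q hq => heq ▸ hq
  have hfix : ∀ g : G, g * y = y * g → g ∈ Y := by
    intro g hg
    rcases hord g with e | e
    · rw [fix_three hle hy3 hy1 e hg]; exact one_mem _
    · exact three_dep hle hV2 hVc hvV hv1 e hy3 hy1 hg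
  -- every element is in `U` times the normalizer of `⟨y⟩`
  have hMdec : ∀ m ∈ M, ∃ u ∈ U, ∃ i : ℤ, m = u * y ^ i := by
    intro m hm
    obtain ⟨i, hi⟩ := hKy _ hm
    simp only at hi
    refine ⟨m * (y ^ i)⁻¹, ?_, i, by group⟩
    rw [← QuotientGroup.eq_one_iff, QuotientGroup.mk_mul, QuotientGroup.mk_inv, QuotientGroup.mk_zpow, hi]
    exact mul_inv_cancel _
  have hdec : ∀ g : G, ∃ u ∈ U, ∃ n : G, (n * y * n⁻¹ = y ∨ n * y * n⁻¹ = y⁻¹) ∧ g = u * n := by
    intro g
    haveI : Fact (Nat.Prime 3) := ⟨Nat.prime_three⟩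
    have hYM : Y ≤ M := Subgroup.zpowers_le.mpr hyM
    have hYcard : Nat.card (Y.subgroupOf M) = 3 ^ (Nat.card M).factorization 3 := by
      rw [Nat.card_congr (Subgroup.subgroupOfEquivOfLe hYM).toEquiv, Nat.card_zpowers, hy]
      have h1 : (Nat.card M).factorization 3 = 1 := by
        refine le_antisymm ?_ ((Nat.Prime.pow_dvd_iff_le_factorization Nat.prime_three Nat.card_pos.ne').mp
          (by rwa [pow_one]))
        have h2 := (Nat.factorization_le_iff_dvd Nat.card_pos.ne' Nat.card_pos.ne').mpr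
          (Subgroup.card_subgroup_dvd_card M) 3
        have h3 := R.card_eq_multiplicity
        rw [hR] at h3
        have : (Nat.card G).factorization 3 = 1 :=
          Nat.pow_right_injective (by norm_num : 2 ≤ 3) (by simp [← h3])
        omega
      rw [h1, pow_one]
    have htop := Sylow.normalizer_sup_eq_top (Sylow.ofCard _ hYcard)
    rw [Sylow.coe_ofCard, Subgroup.map_subgroupOf_eq_of_le hYM] at htop
    have hg : g⁻¹ ∈ (Subgroup.normalizer (Y : Set G)) ⊔ M := htop ▸ Subgroup.mem_top _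
    obtain ⟨a, ha, m, hm, hg'⟩ := Subgroup.mem_sup_of_normal_right.mp hg
    obtain ⟨u, hu, i, hi⟩ := hMdec _ (inv_mem hm)
    refine ⟨u, hu, y ^ i * a⁻¹, ?_, ?_⟩
    · have hmem : a⁻¹ * y * a⁻¹⁻¹ ∈ Y :=
        (Subgroup.mem_normalizer_iff.mp (inv_mem ha) y).mp (Subgroup.mem_zpowers y)
      obtain ⟨j, hj⟩ := hmem
      simp only at hj
      have hj' : y ^ i * a⁻¹ * y * (y ^ i * a⁻¹)⁻¹ = y ^ j := by
        rw [show y ^ i * a⁻¹ * y * (y ^ i * a⁻¹)⁻¹ = y ^ i * (a⁻¹ * y * a⁻¹⁻¹) * (y ^ i)⁻¹ by group, ← hj]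
        group
      rw [hj', ← zpow_mod_orderOf y j, hy]
      have hne : j % 3 ≠ 0 := fun e => by
        rw [← zpow_mod_orderOf y j, hy, show (j : ℤ) % ((3 : ℕ) : ℤ) = 0 by exact_mod_cast e, zpow_zero] at hj
        exact hy1 (conj_eq_one_iff.mp hj.symm)
      rcases (show j % 3 = 1 ∨ j % 3 = 2 by omega) with e | e
      · left; rw [show (j : ℤ) % ((3 : ℕ) : ℤ) = 1 by exact_mod_cast e, zpow_one]
      · right; rw [show (j : ℤ) % ((3 : ℕ) : ℤ) = 2 by exact_mod_cast e]
        refine eq_inv_of_mul_eq_one_left ?_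
        rw [← zpow_add_one, show (2 : ℤ) + 1 = ((3 : ℕ) : ℤ) by norm_num, zpow_natCast, hy3]
    · rw [show g = g⁻¹⁻¹ by group, ← hg', mul_inv_rev, hi, mul_assoc]
  -- the action of `y` on `U`
  let ρ : MulAut U := MulAut.conjNormal y
  have hρ : TwoAut.FpfThree ρ := by
    refine ⟨fun u => Subtype.ext ?_, fun u hu => Subtype.ext ?_⟩
    · show y * (y * (y * u * y⁻¹) * y⁻¹) * y⁻¹ = u
      calc y * (y * (y * u * y⁻¹) * y⁻¹) * y⁻¹ = y ^ 3 * u * (y ^ 3)⁻¹ := by
            simp [pow_succ, mul_assoc]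
        _ = u := by simp [hy3]
    · refine fix_three hle hy3 hy1 (hU4 _ u.2) ?_
      have := congrArg Subtype.val hu
      rw [MulAut.conjNormal_apply, mul_inv_eq_iff_eq_mul] at this
      exact this.symm
  have hcl : ∀ a b : U, ⁅a, b⁆ ∈ Subgroup.center U := fun a b =>
    hρ.classTwo hU (Subgroup.commutator_mem_commutator (Subgroup.mem_top a) (Subgroup.mem_top b))
  by_cases ht : ∃ t : G, t * y * t⁻¹ = y⁻¹
  · right
    obtain ⟨t, ht⟩ := ht
    have hyne : y ≠ y⁻¹ := fun e => hy1 (by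
      have h2 : y * y = 1 := by nth_rw 1 [e]; exact inv_mul_cancel y
      have h3 : y ^ 3 = y * y * y := by simp [pow_succ, mul_assoc]
      rw [hy3, h2, one_mul] at h3
      exact h3.symm)
    have ht2 : t ^ 2 = 1 := by
      have hc2 : t ^ 2 * y = y * t ^ 2 := by
        have e : t * (t * y * t⁻¹) * t⁻¹ = y := by
          have h' := congrArg (·⁻¹) ht
          simp only [mul_inv_rev, inv_inv] at h'
          rw [ht]
          simpa [mul_assoc] using h'
        rw [← mul_inv_eq_iff_eq_mul]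
        calc t ^ 2 * y * (t ^ 2)⁻¹ = t * (t * y * t⁻¹) * t⁻¹ := by simp [pow_succ, mul_assoc]
          _ = y := e
      rcases hord t with e | e
      · exact fix_three hle hy3 hy1 (by rw [← pow_mul, mul_comm, pow_mul, e, one_pow]) hc2
      · exfalso
        have e4 : t = (t ^ 2) ^ 2 := by rw [← pow_mul, show 2 * 2 = 3 + 1 from rfl, pow_succ, e, one_mul]
        have : t * y = y * t := by
          rw [e4]; exact ((show Commute (t ^ 2) y from hc2).pow_left 2).eq
        rw [this, mul_inv_cancel_right] at ht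
        exact hyne ht
    have htinv : t⁻¹ = t := inv_eq_of_mul_eq_one_right (pow_two t ▸ ht2)
    have htU : t ∉ U := fun h => by
      have hc : t * y * t⁻¹ * y⁻¹ ∈ U :=
        mul_mem (mul_mem_cancel_left h |>.mpr ((inferInstance : U.Normal).conj_mem _ (inv_mem h) y) |> fun h' => by
          simpa [mul_assoc] using h') (one_mem U) |> fun h' => by simpa using h'
      rw [ht] at hc
      have h2 := mul_mem hc hc
      have h3 : y⁻¹ * y⁻¹ * (y⁻¹ * y⁻¹) = y⁻¹ := by
        calc y⁻¹ * y⁻¹ * (y⁻¹ * y⁻¹) = (y ^ 3)⁻¹ * y⁻¹ := by group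
          _ = y⁻¹ := by rw [hy3, inv_one, one_mul]
      exact hyU (inv_mem_iff.mp (h3 ▸ h2))
    let τ : MulAut U := MulAut.conjNormal t
    have hτ : ∀ u, τ (τ u) = u := fun u => Subtype.ext (by
      show t * (t * u * t⁻¹) * t⁻¹ = u
      calc t * (t * u * t⁻¹) * t⁻¹ = t ^ 2 * u * (t ^ 2)⁻¹ := by simp [pow_succ, mul_assoc]
        _ = u := by simp [ht2])
    have hc : ∀ u, τ (ρ u) = ρ (ρ (τ u)) := fun u => Subtype.ext (by
      show t * (y * u * y⁻¹) * t⁻¹ = y * (y * (t * u * t⁻¹) * y⁻¹) * y⁻¹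
      have hyy : y⁻¹ = y * y := inv_eq_of_mul_eq_one_right (by
        calc y * (y * y) = y ^ 3 := by simp [pow_succ, mul_assoc]
          _ = 1 := hy3)
      calc t * (y * u * y⁻¹) * t⁻¹ = (t * y * t⁻¹) * (t * u * t⁻¹) * (t * y * t⁻¹)⁻¹ := by group
        _ = (y * y) * (t * u * t⁻¹) * (y * y)⁻¹ := by rw [ht, hyy]
        _ = _ := by group)
    have h4' : ∀ u, (u * τ u) * (u * τ u) = 1 := fun u => Subtype.ext (by
      show (u : G) * (t * u * t⁻¹) * (u * (t * u * t⁻¹)) = 1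
      rw [htinv]
      rcases hord ((u : G) * t) with e | e
      · rw [← e]; simp [pow_succ, mul_assoc]
      · exfalso
        have hq : ((t : G ⧸ U)) ^ 3 = 1 := by
          have := congrArg (QuotientGroup.mk' U) e
          rwa [map_pow, map_mul,
            (show (QuotientGroup.mk' U) (u : G) = 1 from (QuotientGroup.eq_one_iff _).mpr u.2),
            one_mul, map_one] at this
        have hq2 : ((t : G ⧸ U)) ^ 2 = 1 := by rw [← QuotientGroup.mk_pow, ht2, QuotientGroup.mk_one]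
        rw [pow_succ, hq2, one_mul] at hq
        exact htU ((QuotientGroup.eq_one_iff t).mp hq))
    have key := elem_of_pair hρ hτ hc h4' hcl
    refine ⟨⟨isMulCommutative_iff.mpr fun a b => (key a b).1, fun a ha => ?_⟩, ?_⟩
    · rw [pow_two]; exact congrArg Subtype.val (key ⟨a, ha⟩ ⟨a, ha⟩).2
    refine FGS75.equiv_perm_three_of_card_six ?_ fun hcomm => ?_
    · -- six cosets
      have hsurj : Function.Surjective (fun p : Fin 3 × Fin 2 =>
          ((y ^ (p.1 : ℕ) * t ^ (p.2 : ℕ) : G) : G ⧸ U)) := by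
        intro q
        induction q using QuotientGroup.induction_on with
        | H g =>
          obtain ⟨u, hu, n, hn, rfl⟩ := hdec g
          have key2 : ∀ m : G, m * y = y * m → ∃ i : Fin 3, m = y ^ (i : ℕ) := fun m hm => by
            obtain ⟨k, hk⟩ := (isOfFinOrder_of_finite y).mem_powers_iff_mem_zpowers.mpr (hfix m hm)
            simp only at hk
            exact ⟨⟨k % 3, Nat.mod_lt _ (by norm_num)⟩, by
              show m = y ^ (k % 3); rw [← hk, ← pow_mod_orderOf, hy]⟩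
          have hu1 : (u : G ⧸ U) = 1 := (QuotientGroup.eq_one_iff u).mpr hu
          rcases hn with hn | hn
          · obtain ⟨i, hi⟩ := key2 n (mul_inv_eq_iff_eq_mul.mp hn)
            refine ⟨(i, 0), ?_⟩
            simp [hu1, hi]
          · obtain ⟨i, hi⟩ := key2 (n * t) (by
              rw [← mul_inv_eq_iff_eq_mul]
              calc n * t * y * (n * t)⁻¹ = n * (t * y * t⁻¹) * n⁻¹ := by group
                _ = (n * y * n⁻¹)⁻¹ := by rw [ht]; group
                _ = y := by rw [hn, inv_inv])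
            refine ⟨(i, 1), ?_⟩
            rw [show n = y ^ (i : ℕ) * t by rw [← hi, mul_assoc, ← pow_two, ht2, mul_one]]
            simp [hu1]
      have hcard : Nat.card (G ⧸ U) ≤ 6 := by
        have := Nat.card_le_card_of_surjective _ hsurj
        simpa [Nat.card_eq_fintype_card] using this
      have hq3 : orderOf (y : G ⧸ U) = 3 :=
        orderOf_eq_prime (by rw [← QuotientGroup.mk_pow, hy3, QuotientGroup.mk_one])
          fun e => hyU ((QuotientGroup.eq_one_iff y).mp e)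
      have hq2 : orderOf (t : G ⧸ U) = 2 :=
        orderOf_eq_prime (by rw [← QuotientGroup.mk_pow, ht2, QuotientGroup.mk_one])
          fun e => htU ((QuotientGroup.eq_one_iff t).mp e)
      have d3 : 3 ∣ Nat.card (G ⧸ U) := hq3 ▸ orderOf_dvd_natCard _
      have d2 : 2 ∣ Nat.card (G ⧸ U) := hq2 ▸ orderOf_dvd_natCard _
      have := Nat.le_of_dvd Nat.card_pos (Nat.Coprime.mul_dvd_of_dvd_of_dvd (by decide : Nat.Coprime 2 3) d2 d3)
      show Nat.card (G ⧸ U) = 6
      omega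
    · have e := congrArg (QuotientGroup.mk' U) ht
      rw [map_mul, map_mul, map_inv, map_inv, isMulCommutative_iff.mp hcomm, inv_mul_cancel_left] at e
      have e1 : ((y : G ⧸ U)) ^ 2 = 1 := by rw [pow_two]; nth_rw 1 [show (y : G ⧸ U) = (y : G ⧸ U)⁻¹ from e]; exact inv_mul_cancel _
      have e2 : ((y : G ⧸ U)) ^ 3 = 1 := by rw [← QuotientGroup.mk_pow, hy3, QuotientGroup.mk_one]
      rw [pow_succ, e1, one_mul] at e2
      exact hyU ((QuotientGroup.eq_one_iff y).mp e2)
  · left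
    push Not at ht
    have hidx : U.index = 3 := by
      rw [Subgroup.index_eq_card]
      have hq3 : orderOf (y : G ⧸ U) = 3 :=
        orderOf_eq_prime (by rw [← QuotientGroup.mk_pow, hy3, QuotientGroup.mk_one])
          fun e => hyU ((QuotientGroup.eq_one_iff y).mp e)
      refine Nat.dvd_antisymm ?_ (hq3 ▸ orderOf_dvd_natCard _)
      have htop : Subgroup.zpowers (y : G ⧸ U) = ⊤ := by
        rw [eq_top_iff]
        intro q _
        induction q using QuotientGroup.induction_on with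
        | H g =>
          obtain ⟨u, hu, n, hn, rfl⟩ := hdec g
          rw [QuotientGroup.mk_mul, (QuotientGroup.eq_one_iff u).mpr hu, one_mul]
          obtain ⟨i, hi⟩ := hfix n (mul_inv_eq_iff_eq_mul.mp (hn.resolve_right (ht n)))
          exact ⟨i, by simp only at hi ⊢; rw [← QuotientGroup.mk_zpow, hi]⟩
      rw [← hq3, ← Nat.card_zpowers, htop, Subgroup.card_top]
    refine ⟨hU, ?_, ?_, hidx⟩
    · refine Nat.dvd_antisymm (Monoid.exponent_dvd_iff_forall_pow_eq_one.mpr fun u =>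
        Subtype.ext (hU4 u u.2)) ?_
      have hfU : f ∈ U := by
        rw [← QuotientGroup.eq_one_iff]
        have e4 : (f : G ⧸ U) ^ 4 = 1 := by
          rw [← QuotientGroup.mk_pow, ← hf, pow_orderOf_eq_one, QuotientGroup.mk_one]
        have e3 : (f : G ⧸ U) ^ 3 = 1 := by
          rw [← hidx, Subgroup.index_eq_card]; exact pow_card_eq_one'
        rwa [pow_succ, e3, one_mul] at e4
      have := Monoid.order_dvd_exponent (⟨f, hfU⟩ : U)
      rwa [Subgroup.orderOf_mk, hf] at this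
    · haveI := hU.isNilpotent
      rw [Subgroup.upperCentralSeries_eq_top_iff_nilpotencyClass_le.symm, eq_top_iff]
      intro a _
      rw [Subgroup.mem_upperCentralSeries_succ_iff]
      intro b
      rw [Subgroup.upperCentralSeries_one]
      exact hcl a b

/-- A finite group whose set of element orders is exactly {1, 2, 3, 4} has a normal subgroup N such that either N is a 2-group of exponent 4 and nilpotency class at most 2 with G/N of order 3, or N is an elementary abelian 2-group with G/N isomorphic to the symmetric group of degree 3, or N is an elementary abelian 3-group with G/N cyclic of order 4 or quaternion of order 8. -/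
theorem result {G : Type*} [Group G] [Finite G] (h : Set.range (orderOf : G → ℕ) = {k : ℕ | 1 ≤ k ∧ k ≤ 4}) :
    ∃ (N : Subgroup G) (_ : N.Normal),
      (IsPGroup 2 ↥N ∧ Monoid.exponent ↥N = 4 ∧ Group.nilpotencyClass ↥N ≤ 2 ∧ N.index = 3) ∨
      (Cfsg.IsElementaryAbelian 2 N ∧ Nonempty (G ⧸ N ≃* Equiv.Perm (Fin 3))) ∨
      (Cfsg.IsElementaryAbelian 3 N ∧ ((IsCyclic (G ⧸ N) ∧ N.index = 4) ∨ Nonempty (G ⧸ N ≃* QuaternionGroup 2))) := by
  classical
  have hle : ∀ g : G, orderOf g ≤ 4 := fun g => ((Set.ext_iff.mp h _).mp ⟨g, rfl⟩).2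
  have hord : ∀ g : G, g ^ 4 = 1 ∨ g ^ 3 = 1 := fun g => by
    have h1 := hle g
    have h2 := orderOf_pos g
    rw [← orderOf_dvd_iff_pow_eq_one, ← orderOf_dvd_iff_pow_eq_one]
    generalize orderOf g = n at h1 h2 ⊢
    interval_cases n <;> decide
  obtain ⟨f, hf⟩ := (Set.ext_iff.mp h 4).mpr ⟨by norm_num, le_rfl⟩
  obtain ⟨x, hx⟩ := (Set.ext_iff.mp h 3).mpr ⟨by norm_num, by norm_num⟩
  haveI := Fact.mk Nat.prime_two
  haveI := Fact.mk Nat.prime_three
  have hpr : ∀ s : ℕ, s.Prime → s ∣ Nat.card G → s = 2 ∨ s = 3 := by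
    intro s hs hd
    haveI := Fact.mk hs
    obtain ⟨g, hg⟩ := exists_prime_orderOf_dvd_card' s hd
    have := hg ▸ hle g
    have := hs.two_le
    interval_cases s <;> simp_all (config := { decide := true })
  haveI : Group.IsSolvable G :=
    Char.solvable_of_card_eq_pow_mul_pow 2 3 Nat.prime_two Nat.prime_three _ rfl hpr
  by_cases hW : Cfsg.pCore 3 G = ⊥
  · refine ⟨Cfsg.pCore 2 G, inferInstance, ?_⟩
    rcases case_two hord hle ⟨f, hf⟩ ⟨x, hx⟩ hW with h1 | h1
    · exact Or.inl h1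
    · exact Or.inr (Or.inl h1)
  · exact ⟨Cfsg.pCore 3 G, inferInstance, Or.inr (Or.inr
      (case_three hord hle ⟨f, hf⟩ _ Cores.pCore_isPGroup hW fun K hK hp => Cores.le_pCore hK hp))⟩

end Cfsg.Agent.S4006
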