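import Cfsg.Statements.S4198
import Mathlib

set_option autoImplicit false
open Cfsg

namespace Cfsg.Agent.S4198

open Equiv

theorem partition_step (n : ℕ) (hn : 1 ≤ n) :
    Nat.card (Nat.Partition (n + 1)) ≤ Nat.card (Nat.Partition n) + Nat.card (Nat.Partition n) := by
  classical
  rw [← Nat.card_sum]
  let F : Nat.Partition (n + 1) → Nat.Partition n ⊕ Nat.Partition n := fun q =>
    if h : 1 ∈ q.parts then
      Sum.inl
        { parts := q.parts.erase 1
          parts_pos := fun hi => q.parts_pos (Multiset.mem_of_mem_erase hi)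
          parts_sum := by
            have := congrArg Multiset.sum (Multiset.cons_erase h)
            rw [Multiset.sum_cons, q.parts_sum] at this
            omega }
    else
      have hne : q.parts.toFinset.Nonempty := by
        rw [Multiset.toFinset_nonempty]
        intro h0
        have := q.parts_sum
        rw [h0] at this
        simp at this
      let s := q.parts.toFinset.min' hne
      have hs : s ∈ q.parts := Multiset.mem_toFinset.1 (Finset.min'_mem _ hne)
      have hs2 : 2 ≤ s := by
        have := q.parts_pos hs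
        rcases Nat.lt_or_ge s 2 with h2 | h2
        · exact absurd (by have h1 : s = 1 := by omega
                           rwa [h1] at hs) h
        · exact h2
      Sum.inr
        { parts := (s - 1) ::ₘ q.parts.erase s
          parts_pos := fun {i} hi => by
            rcases Multiset.mem_cons.1 hi with rfl | hi
            · omega
            · exact q.parts_pos (Multiset.mem_of_mem_erase hi)
          parts_sum := by
            have := congrArg Multiset.sum (Multiset.cons_erase hs)
            rw [Multiset.sum_cons, q.parts_sum] at this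
            rw [Multiset.sum_cons]
            omega }
  refine Nat.card_le_card_of_injective F fun a b hab => ?_
  have hmin : ∀ (t : Nat.Partition (n + 1)) (hne : t.parts.toFinset.Nonempty) (h : ¬ 1 ∈ t.parts),
      ∀ hne' : ((t.parts.toFinset.min' hne - 1) ::ₘ t.parts.erase (t.parts.toFinset.min' hne)).toFinset.Nonempty,
      ((t.parts.toFinset.min' hne - 1) ::ₘ t.parts.erase (t.parts.toFinset.min' hne)).toFinset.min' hne' =
        t.parts.toFinset.min' hne - 1 := by
    intro t hne h hne'
    refine le_antisymm (Finset.min'_le _ _ (by simp)) (Finset.le_min' _ _ _ fun y hy => ?_)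
    rcases Multiset.mem_cons.1 (Multiset.mem_toFinset.1 hy) with rfl | hy
    · exact le_rfl
    · exact (Nat.sub_le _ _).trans (Finset.min'_le _ _ (Multiset.mem_toFinset.2 (Multiset.mem_of_mem_erase hy)))
  by_cases ha : 1 ∈ a.parts <;> by_cases hb : 1 ∈ b.parts <;>
    simp only [F, ha, hb, dite_true, dite_false, reduceCtorEq, Sum.inl.injEq, Sum.inr.injEq] at hab
  · apply Nat.Partition.ext
    rw [← Multiset.cons_erase ha, ← Multiset.cons_erase hb]
    exact congrArg (1 ::ₘ ·) (congrArg Nat.Partition.parts hab)
  · have e := congrArg Nat.Partition.parts hab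
    simp only at e
    have hna : a.parts.toFinset.Nonempty := by
      rw [Multiset.toFinset_nonempty]; intro h0; have := a.parts_sum; rw [h0] at this; simp at this
    have hnb : b.parts.toFinset.Nonempty := by
      rw [Multiset.toFinset_nonempty]; intro h0; have := b.parts_sum; rw [h0] at this; simp at this
    set sa := a.parts.toFinset.min' hna with hsa
    set sb := b.parts.toFinset.min' hnb with hsb
    have h1 : sa - 1 = sb - 1 := by
      have hne' : ((sa - 1) ::ₘ a.parts.erase sa).toFinset.Nonempty := ⟨sa - 1, by simp⟩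
      have hne2 : ((sb - 1) ::ₘ b.parts.erase sb).toFinset.Nonempty := ⟨sb - 1, by simp⟩
      rw [← hmin a hna ha hne', ← hmin b hnb hb hne2]
      congr 1
      rw [e]
    have hsa' : sa ∈ a.parts := Multiset.mem_toFinset.1 (Finset.min'_mem _ hna)
    have hsb' : sb ∈ b.parts := Multiset.mem_toFinset.1 (Finset.min'_mem _ hnb)
    have h3 : sa = sb := by
      have := a.parts_pos hsa'
      have := b.parts_pos hsb'
      omega
    apply Nat.Partition.ext
    rw [← Multiset.cons_erase hsa', ← Multiset.cons_erase hsb', ← h3]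
    rw [← h3, Multiset.cons_inj_right] at e
    rw [e]

theorem partition_five : Nat.card (Nat.Partition 5) ≤ 2 ^ 3 := by
  classical
  have hsum : ∀ q : Nat.Partition 5, ∑ i ∈ Finset.range 6, q.parts.count i * i = 5 := fun q => by
    have h := Finset.sum_multiset_count_of_subset q.parts (Finset.range 6)
      (fun x hx => Finset.mem_range.2 (Nat.lt_succ_of_le (Nat.Partition.le_of_mem_parts (Multiset.mem_toFinset.1 hx))))
    rw [q.parts_sum] at h
    simpa [smul_eq_mul] using h.symm
  have hb : ∀ q : Nat.Partition 5, q.parts.count 1 + q.parts.count 2 * 2 + q.parts.count 3 * 3 +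
      q.parts.count 4 * 4 + q.parts.count 5 * 5 = 5 := fun q => by
    have := hsum q
    simpa [Finset.sum_range_succ] using this
  let S := {c : Fin 6 × Fin 3 × Fin 2 × Fin 2 × Fin 2 //
    (c.1 : ℕ) + (c.2.1 : ℕ) * 2 + (c.2.2.1 : ℕ) * 3 + (c.2.2.2.1 : ℕ) * 4 + (c.2.2.2.2 : ℕ) * 5 = 5}
  have hS : Nat.card S ≤ 2 ^ 3 := by rw [Nat.card_eq_fintype_card]; decide
  let F : Nat.Partition 5 → S := fun q =>
    ⟨(⟨q.parts.count 1, by have := hb q; omega⟩, ⟨q.parts.count 2, by have := hb q; omega⟩,
      ⟨q.parts.count 3, by have := hb q; omega⟩, ⟨q.parts.count 4, by have := hb q; omega⟩,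
      ⟨q.parts.count 5, by have := hb q; omega⟩), hb q⟩
  refine le_trans (Nat.card_le_card_of_injective F fun a b hab => ?_) hS
  have h1 : a.parts.count 1 = b.parts.count 1 := congrArg (fun x : S => (x.1.1 : ℕ)) hab
  have h2 : a.parts.count 2 = b.parts.count 2 := congrArg (fun x : S => (x.1.2.1 : ℕ)) hab
  have h3 : a.parts.count 3 = b.parts.count 3 := congrArg (fun x : S => (x.1.2.2.1 : ℕ)) hab
  have h4 : a.parts.count 4 = b.parts.count 4 := congrArg (fun x : S => (x.1.2.2.2.1 : ℕ)) hab
  have h5 : a.parts.count 5 = b.parts.count 5 := congrArg (fun x : S => (x.1.2.2.2.2 : ℕ)) hab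
  apply Nat.Partition.ext
  refine Multiset.ext.2 fun i => ?_
  have hz : ∀ (q : Nat.Partition 5), (i = 0 ∨ 5 < i) → q.parts.count i = 0 := fun q hi =>
    Multiset.count_eq_zero.2 fun hm => by
      have := q.parts_pos hm
      have := Nat.Partition.le_of_mem_parts hm
      omega
  rcases Nat.lt_or_ge 5 i with hi | hi
  · rw [hz a (Or.inr hi), hz b (Or.inr hi)]
  · interval_cases i <;> first | assumption | (rw [hz a (Or.inl rfl), hz b (Or.inl rfl)])

theorem partition_le (n : ℕ) (hn : 5 ≤ n) : Nat.card (Nat.Partition n) ≤ 2 ^ (n - 2) := by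
  induction n, hn using Nat.le_induction with
  | base => exact partition_five
  | succ n hn ih =>
    have h := partition_step n (by omega)
    rw [show n + 1 - 2 = (n - 2) + 1 by omega, pow_succ]
    omega

variable {α : Type*} [Fintype α] [DecidableEq α]

theorem sign_class {g h : Perm α} (h' : IsConj g h) : Perm.sign g = Perm.sign h := by
  rw [Perm.sign_of_cycleType, Perm.sign_of_cycleType, Perm.isConj_iff_cycleType_eq.1 h']

theorem classes_lt (h5 : 5 ≤ Fintype.card α) :
    Nat.card (ConjClasses (alternatingGroup α)) < Nat.card (ConjClasses (Perm α)) := by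
  classical
  have : Finite (ConjClasses (Perm α)) := Finite.of_surjective _ ConjClasses.mk_surjective
  let even : ConjClasses (Perm α) → Prop := fun C => ∀ g, ConjClasses.mk g = C → Perm.sign g = 1
  let split : ConjClasses (Perm α) → Prop := fun C =>
    ∀ g, ConjClasses.mk g = C → Subgroup.centralizer {g} ≤ alternatingGroup α
  -- classes of the alternating group
  let f : ConjClasses (alternatingGroup α) → {C // even C} := fun D =>
    ⟨ConjClasses.map (alternatingGroup α).subtype D, by
      obtain ⟨g, rfl⟩ := ConjClasses.mk_surjective D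
      intro h hh
      rw [sign_class (ConjClasses.mk_eq_mk_iff_isConj.1 hh)]
      exact Perm.mem_alternatingGroup.1 g.2⟩
  have hrep : ∀ C : {C // even C}, ∃ D, f D = C := by
    rintro ⟨C, hC⟩
    obtain ⟨g, rfl⟩ := ConjClasses.mk_surjective C
    exact ⟨ConjClasses.mk ⟨g, Perm.mem_alternatingGroup.2 (hC g rfl)⟩, rfl⟩
  choose rep hrep using hrep
  have hsplit : ∀ D, D ≠ rep (f D) → split (f D).1 ∧
      ∀ D', f D' = f D → D' ≠ rep (f D) → D' = D := by
    intro D hD
    obtain ⟨r, hr⟩ := ConjClasses.mk_surjective (rep (f D))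
    obtain ⟨g, rfl⟩ := ConjClasses.mk_surjective D
    have hfr : (f (ConjClasses.mk r)).1 = (f (ConjClasses.mk g)).1 := by rw [hr, hrep]
    obtain ⟨c, hc⟩ := isConj_iff.1 (ConjClasses.mk_eq_mk_iff_isConj.1
      (show ConjClasses.mk (r : Perm α) = ConjClasses.mk (g : Perm α) from hfr))
    have even_same : ∀ (d : Perm α) (g' : alternatingGroup α), Perm.sign d = 1 →
        d * r * d⁻¹ = g' → ConjClasses.mk g' = ConjClasses.mk r := by
      intro d g' hd he
      refine ConjClasses.mk_eq_mk_iff_isConj.2 (IsConj.symm (isConj_iff.2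
        ⟨⟨d, Perm.mem_alternatingGroup.2 hd⟩, ?_⟩))
      exact Subtype.ext he
    have hcodd : Perm.sign c = -1 := by
      rcases Int.units_eq_one_or (Perm.sign c) with h | h
      · exact absurd (even_same c g h hc) (hr ▸ hD)
      · exact h
    constructor
    · intro h hh x hx
      rw [Perm.mem_alternatingGroup]
      rcases Int.units_eq_one_or (Perm.sign x) with h1 | h1
      · exact h1
      exfalso
      obtain ⟨e, he⟩ := isConj_iff.1 (ConjClasses.mk_eq_mk_iff_isConj.1
        (show ConjClasses.mk (r : Perm α) = ConjClasses.mk h from hfr.trans hh.symm))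
      have hxr : (e⁻¹ * x * e) * r * (e⁻¹ * x * e)⁻¹ = r := by
        have := Subgroup.mem_centralizer_singleton_iff.1 hx
        rw [show (e⁻¹ * x * e) * r * (e⁻¹ * x * e)⁻¹ = e⁻¹ * (x * (e * r * e⁻¹) * x⁻¹) * e by group,
          he, this, mul_inv_cancel_right, ← he]
        group
      refine absurd (even_same (c * (e⁻¹ * x * e)) g ?_ ?_) (hr ▸ hD)
      · rw [map_mul, map_mul, map_mul, map_inv, hcodd, h1]
        rcases Int.units_eq_one_or (Perm.sign e) with h2 | h2 <;> rw [h2] <;> decide
      · rw [show c * (e⁻¹ * x * e) * r * (c * (e⁻¹ * x * e))⁻¹ =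
          c * ((e⁻¹ * x * e) * r * (e⁻¹ * x * e)⁻¹) * c⁻¹ by group, hxr, hc]
    · intro D' hD' hne
      obtain ⟨g', rfl⟩ := ConjClasses.mk_surjective D'
      have hfr' : (f (ConjClasses.mk r)).1 = (f (ConjClasses.mk g')).1 := by rw [hfr, hD']
      obtain ⟨c', hc'⟩ := isConj_iff.1 (ConjClasses.mk_eq_mk_iff_isConj.1
        (show ConjClasses.mk (r : Perm α) = ConjClasses.mk (g' : Perm α) from hfr'))
      have hc'odd : Perm.sign c' = -1 := by
        rcases Int.units_eq_one_or (Perm.sign c') with h | h
        · exact absurd (even_same c' g' h hc') (hr ▸ hne)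
        · exact h
      refine ConjClasses.mk_eq_mk_iff_isConj.2 (isConj_iff.2
        ⟨⟨c * c'⁻¹, Perm.mem_alternatingGroup.2 (by rw [map_mul, map_inv, hcodd, hc'odd]; decide)⟩, ?_⟩)
      apply Subtype.ext
      change c * c'⁻¹ * (g' : Perm α) * (c * c'⁻¹)⁻¹ = (g : Perm α)
      rw [← hc, ← hc']
      group
  -- split classes inject properly into odd classes
  let Sp := {C : {C // even C} // split C.1}
  let Od := {C : ConjClasses (Perm α) // ¬ even C}
  have hodd_mk : ∀ h : Perm α, Perm.sign h = -1 → ¬ even (ConjClasses.mk h) := fun h hh he => by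
    have := he h rfl; rw [hh] at this; exact absurd this (by decide)
  have hmap : ∀ C : Sp, ∃ h : Perm α, ∃ a, Perm.sign h = -1 ∧ 3 ≤ a ∧
      (∀ g, ConjClasses.mk g = C.1.1 → a ∈ g.cycleType ∧
        h.cycleType = (a - 1) ::ₘ g.cycleType.erase a ∧ (∀ c ∈ g.cycleType, Odd c) ∧
        Fintype.card α ≤ g.cycleType.sum + 1) := by
    rintro ⟨⟨C, hC⟩, hS⟩
    obtain ⟨g, rfl⟩ := ConjClasses.mk_surjective C
    obtain ⟨hoddc, hsum, -⟩ := Perm.centralizer_le_alternating_iff.1 (hS g rfl)
    obtain ⟨a, ha⟩ : ∃ a, a ∈ g.cycleType := Multiset.exists_mem_of_ne_zero fun h0 => by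
      rw [h0] at hsum; simp at hsum; omega
    have ha2 := Perm.two_le_of_mem_cycleType ha
    have ha3 : 3 ≤ a := by
      rcases hoddc a ha with ⟨j, hj⟩; omega
    have hs : (Multiset.sum ((a - 1) ::ₘ g.cycleType.erase a)) + 1 = g.cycleType.sum := by
      conv_rhs => rw [← Multiset.cons_erase ha]
      rw [Multiset.sum_cons, Multiset.sum_cons]; omega
    obtain ⟨h, hh⟩ := (Perm.exists_with_cycleType_iff α (m := (a - 1) ::ₘ g.cycleType.erase a)).2
      ⟨by have := Perm.sum_cycleType_le g; omega, fun x hx => by
        rcases Multiset.mem_cons.1 hx with rfl | hx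
        · omega
        · exact Perm.two_le_of_mem_cycleType (Multiset.mem_of_mem_erase hx)⟩
    refine ⟨h, a, ?_, ha3, fun g' hg' => ?_⟩
    · have hsg := hC g rfl
      rw [Perm.sign_of_cycleType] at hsg ⊢
      rw [hh]
      have hcard : Multiset.card ((a - 1) ::ₘ g.cycleType.erase a) = Multiset.card g.cycleType := by
        rw [Multiset.card_cons, Multiset.card_erase_add_one ha]
      rw [hcard]
      rw [← hs, show Multiset.sum ((a - 1) ::ₘ g.cycleType.erase a) + 1 + Multiset.card g.cycleType =
        (Multiset.sum ((a - 1) ::ₘ g.cycleType.erase a) + Multiset.card g.cycleType) + 1 by ring, pow_succ,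
        mul_neg, mul_one, neg_eq_iff_eq_neg] at hsg
      exact hsg
    · have e : g'.cycleType = g.cycleType :=
        Perm.isConj_iff_cycleType_eq.1 (ConjClasses.mk_eq_mk_iff_isConj.1 hg')
      rw [e]; exact ⟨ha, hh, hoddc, hsum⟩
  choose hf af hsgn ha3 hspec using hmap
  let φ : Sp → Od := fun C => ⟨ConjClasses.mk (hf C), hodd_mk _ (hsgn C)⟩
  have hφinj : Function.Injective φ := by
    intro C C' he
    have ec : (hf C).cycleType = (hf C').cycleType :=
      Perm.isConj_iff_cycleType_eq.1 (ConjClasses.mk_eq_mk_iff_isConj.1 (congrArg Subtype.val he))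
    obtain ⟨g, hg⟩ := ConjClasses.mk_surjective C.1.1
    obtain ⟨g', hg'⟩ := ConjClasses.mk_surjective C'.1.1
    obtain ⟨ha, h1, ho, -⟩ := hspec C g hg
    obtain ⟨ha', h1', ho', -⟩ := hspec C' g' hg'
    rw [h1, h1'] at ec
    have haa : af C = af C' := by
      have hm : af C - 1 ∈ (af C' - 1) ::ₘ g'.cycleType.erase (af C') := ec ▸ Multiset.mem_cons_self _ _
      have := ha3 C
      have := ha3 C'
      rcases Multiset.mem_cons.1 hm with h | h
      · omega
      · obtain ⟨i, hi⟩ := ho' _ (Multiset.mem_of_mem_erase h)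
        obtain ⟨j, hj⟩ := ho _ ha
        omega
    rw [haa, Multiset.cons_inj_right] at ec
    apply Subtype.ext
    apply Subtype.ext
    rw [← hg, ← hg']
    refine ConjClasses.mk_eq_mk_iff_isConj.2 (Perm.isConj_iff_cycleType_eq.2 ?_)
    rw [← Multiset.cons_erase ha, ← Multiset.cons_erase ha', haa, ec]
  have hφnot : ¬ Function.Surjective φ := by
    intro hs
    obtain ⟨x, y, hxy⟩ : ∃ x y : α, x ≠ y := Fintype.exists_pair_of_one_lt_card (by omega)
    obtain ⟨C, hC⟩ := hs ⟨ConjClasses.mk (swap x y), hodd_mk _ (Perm.sign_swap hxy)⟩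
    have ec := Perm.isConj_iff_cycleType_eq.1 (ConjClasses.mk_eq_mk_iff_isConj.1 (congrArg Subtype.val hC))
    obtain ⟨g, hg⟩ := ConjClasses.mk_surjective C.1.1
    obtain ⟨ha, h1, -, hsum⟩ := hspec C g hg
    rw [h1, Perm.isSwap_iff_cycleType.1 (⟨x, y, hxy, rfl⟩ : Perm.IsSwap (swap x y))] at ec
    have := congrArg Multiset.sum ec
    rw [Multiset.sum_cons] at this
    have h2 := congrArg Multiset.sum (Multiset.cons_erase ha)
    rw [Multiset.sum_cons] at h2
    simp at this
    have := ha3 C
    omega
  have hSO : Nat.card Sp < Nat.card Od :=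
    lt_of_le_of_ne (Nat.card_le_card_of_injective φ hφinj) fun h =>
      hφnot (hφinj.bijective_of_nat_card_le h.ge).2
  calc Nat.card (ConjClasses (alternatingGroup α))
      ≤ Nat.card ({C // even C} ⊕ Sp) := by
        refine Nat.card_le_card_of_injective
          (fun D => if h : D = rep (f D) then Sum.inl (f D) else Sum.inr ⟨f D, (hsplit D h).1⟩) ?_
        intro D D' he
        by_cases h : D = rep (f D) <;> by_cases h' : D' = rep (f D')
        · simp only [dif_pos h, dif_pos h'] at he
          exact h.trans ((congrArg rep (Sum.inl.inj he)).trans h'.symm)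
        · simp only [dif_pos h, dif_neg h', reduceCtorEq] at he
        · simp only [dif_neg h, dif_pos h', reduceCtorEq] at he
        · simp only [dif_neg h, dif_neg h'] at he
          have he' : f D = f D' := congrArg Subtype.val (Sum.inr.inj he)
          exact ((hsplit D h).2 D' he'.symm (he' ▸ h')).symm
    _ < Nat.card {C // even C} + Nat.card Od := by rw [Nat.card_sum]; omega
    _ = Nat.card (ConjClasses (Perm α)) := by
        rw [← Nat.card_sum]; exact Nat.card_congr (Equiv.sumCompl even)

theorem classes_le_partition : Nat.card (ConjClasses (Perm α)) ≤ Nat.card (Nat.Partition (Fintype.card α)) := by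
  refine Nat.card_le_card_of_injective (α := ConjClasses (Perm α))
    (Quotient.lift (fun g : Perm α => g.partition)
      (fun a b (h : IsConj.setoid (Perm α) a b) => Perm.partition_eq_of_isConj.1 h)) ?_
  rintro ⟨a⟩ ⟨b⟩ h
  exact ConjClasses.mk_eq_mk_iff_isConj.2 (Perm.partition_eq_of_isConj.2 h)

/-- For n ≥ 5 the alternating group of degree n has strictly fewer conjugacy classes than the symmetric group of degree n, and the symmetric group of degree n (whose classes correspond to the partitions of n) has at most 2^(n−2) conjugacy classes. -/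
theorem result (n : ℕ) (hn : 5 ≤ n) : Nat.card (ConjClasses (alternatingGroup (Fin n))) < Nat.card (ConjClasses (Equiv.Perm (Fin n))) ∧ Nat.card (ConjClasses (Equiv.Perm (Fin n))) ≤ 2 ^ (n - 2) := by
  refine ⟨classes_lt (by simpa using hn), ?_⟩
  have h := classes_le_partition (α := Fin n)
  rw [Fintype.card_fin] at h
  exact h.trans (partition_le n hn)

end Cfsg.Agent.S4198
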