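import Cfsg.Statements.S4201
import Mathlib

set_option autoImplicit false
open Cfsg

namespace Cfsg.Agent.S4201

/-- If N is a normal subgroup of the finite group X then k(X) ≤ k(N)·k(X ⧸ N), where k denotes the number of conjugacy classes. -/
theorem result {X : Type*} [Group X] [Finite X] (N : Subgroup X) [N.Normal] : Nat.card (ConjClasses X) ≤ Nat.card (ConjClasses N) * Nat.card (ConjClasses (X ⧸ N)) := by
  classical
  have : Fintype X := Fintype.ofFinite X
  let π := QuotientGroup.mk' N
  have hsurj : Function.Surjective π := QuotientGroup.mk'_surjective N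
  have fib : ∀ q : X ⧸ N, ∀ x : X, π x = q →
      Nat.card (ConjClasses N) ≥ Nat.card {D : ConjClasses X // ∃ y, π y = q ∧ ConjClasses.mk y = D} := by
    intro q x hx
    let Ω := {y : X // π y = q}
    have hact : ∀ (n : N) (y : Ω), π ((n : X) * y.1 * (n : X)⁻¹) = q := by
      intro n y
      have h1 : π (n : X) = 1 := (QuotientGroup.eq_one_iff _).2 n.2
      simp [map_mul, h1, y.2]
    let act : MulAction N Ω :=
      { smul := fun n y => ⟨(n : X) * y.1 * (n : X)⁻¹, hact n y⟩
        one_smul := fun y => Subtype.ext (show (1 : X) * y.1 * (1 : X)⁻¹ = y.1 by simp)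
        mul_smul := fun a b y => Subtype.ext
          (show ((a : X) * b) * y.1 * ((a : X) * b)⁻¹ = (a : X) * ((b : X) * y.1 * (b : X)⁻¹) * (a : X)⁻¹ by group) }
    let F : MulAction.orbitRel.Quotient N Ω →
        {D : ConjClasses X // ∃ y, π y = q ∧ ConjClasses.mk y = D} :=
      Quotient.lift (fun y => ⟨ConjClasses.mk y.1, y.1, y.2, rfl⟩) (fun a b hab => by
        obtain ⟨n, rfl⟩ := hab
        exact Subtype.ext (ConjClasses.mk_eq_mk_iff_isConj.2
          (IsConj.symm (isConj_iff.2 ⟨(n : X), rfl⟩))))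
    have hF : Function.Surjective F := by
      rintro ⟨D, y, hy, rfl⟩
      exact ⟨Quotient.mk'' ⟨y, hy⟩, rfl⟩
    refine le_trans (Nat.card_le_card_of_surjective F hF) ?_
    refine Nat.le_of_mul_le_mul_right ?_ (Nat.card_pos (α := N))
    rw [← card_comm_eq_card_conjClasses_mul_card]
    have : Fintype N := Fintype.ofFinite N
    have hb := MulAction.sum_card_fixedBy_eq_card_orbits_mul_card_group N Ω
    rw [Nat.card_eq_fintype_card, Nat.card_eq_fintype_card (α := N), ← hb]
    rw [Nat.card_congr (Equiv.subtypeProdEquivSigmaSubtype fun a b : N => Commute a b), Nat.card_sigma]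
    refine Finset.sum_le_sum fun n _ => ?_
    rw [← Nat.card_eq_fintype_card]
    rcases isEmpty_or_nonempty (MulAction.fixedBy Ω n) with hE | ⟨⟨y0, hy0⟩⟩
    · simp
    have hcm : ∀ y : Ω, y ∈ MulAction.fixedBy Ω n → (n : X) * y.1 = y.1 * n := fun y hy => by
      have := congrArg Subtype.val hy
      change (n : X) * y.1 * (n : X)⁻¹ = y.1 at this
      exact mul_inv_eq_iff_eq_mul.1 this
    have hmem : ∀ y : Ω, y0.1⁻¹ * y.1 ∈ N := fun y => by
      rw [← QuotientGroup.eq_one_iff]
      change π (y0.1⁻¹ * y.1) = 1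
      simp [map_mul, y0.2, y.2]
    have hc : ∀ y : MulAction.fixedBy Ω n, Commute n ⟨y0.1⁻¹ * y.1.1, hmem y.1⟩ := fun y => by
      apply Subtype.ext
      change (n : X) * (y0.1⁻¹ * y.1.1) = y0.1⁻¹ * y.1.1 * n
      have hc0 : Commute (n : X) y0.1 := hcm y0 hy0
      have hc1 : Commute (n : X) y.1.1 := hcm y.1 y.2
      exact hc0.inv_right.mul_right hc1
    refine Nat.card_le_card_of_injective (fun y => ⟨⟨y0.1⁻¹ * y.1.1, hmem y.1⟩, hc y⟩) ?_
    intro a b hab
    simp only [Subtype.mk.injEq] at hab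
    exact Subtype.ext (Subtype.ext (mul_left_cancel hab))
  have : Fintype (ConjClasses (X ⧸ N)) := Fintype.ofFinite _
  rw [← Nat.card_congr (Equiv.sigmaFiberEquiv (ConjClasses.map π)), Nat.card_sigma]
  calc ∑ E : ConjClasses (X ⧸ N), Nat.card {D : ConjClasses X // ConjClasses.map π D = E}
      ≤ ∑ _E : ConjClasses (X ⧸ N), Nat.card (ConjClasses N) := by
        refine Finset.sum_le_sum fun E _ => ?_
        obtain ⟨q, rfl⟩ := ConjClasses.mk_surjective E
        obtain ⟨x, hx⟩ := hsurj q
        refine le_trans (Nat.card_le_card_of_injective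
          (fun D => (⟨D.1, ?_⟩ : {D : ConjClasses X // ∃ y, π y = q ∧ ConjClasses.mk y = D})) ?_) (fib q x hx)
        · obtain ⟨D, hD⟩ := D
          obtain ⟨y, rfl⟩ := ConjClasses.mk_surjective D
          change ConjClasses.mk (π y) = ConjClasses.mk q at hD
          obtain ⟨c, hc⟩ := isConj_iff.1 (ConjClasses.mk_eq_mk_iff_isConj.1 hD)
          obtain ⟨d, rfl⟩ := hsurj c
          exact ⟨d * y * d⁻¹, by simpa [map_mul] using hc,
            ConjClasses.mk_eq_mk_iff_isConj.2 (IsConj.symm (isConj_iff.2 ⟨d, rfl⟩))⟩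
        · intro a b hab
          simp only [Subtype.mk.injEq] at hab
          exact Subtype.ext hab
    _ = _ := by rw [Finset.sum_const, Finset.card_univ, smul_eq_mul, ← Nat.card_eq_fintype_card, mul_comm]

end Cfsg.Agent.S4201
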