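import Cfsg.Statements.S4203
import Mathlib
import Cfsg.Agent.Char.Burnside

set_option autoImplicit false
open Cfsg

namespace Cfsg.Agent.S4203

universe u

theorem main : ∀ (N : ℕ) {G : Type u} [Group G] [Finite G], Nat.card G ≤ N →
    (∀ M : Subgroup G, IsCoatom M → ∃ p : ℕ, p.Prime ∧ (M.index = p ∨ M.index = p ^ 2)) →
    Group.IsSolvable G := by
  intro N
  induction N with
  | zero => intro G _ _ hle; exact absurd hle (not_le.2 Nat.card_pos)
  | succ N ih =>
    intro G _ _ hle h
    classical
    rcases subsingleton_or_nontrivial G with hs | hnt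
    · exact Group.isSolvable_of_comm fun a b => Subsingleton.elim _ _
    have hone : Nat.card G ≠ 1 := (Finite.one_lt_card).ne'
    set S := (Nat.card G).primeFactors with hS
    have hSne : S.Nonempty := Nat.nonempty_primeFactors.2 Finite.one_lt_card
    set q := S.max' hSne with hqdef
    have hqS : q ∈ S := S.max'_mem hSne
    have hq : q.Prime := Nat.prime_of_mem_primeFactors hqS
    have hqG : q ∣ Nat.card G := Nat.dvd_of_mem_primeFactors hqS
    have hmax : ∀ r : ℕ, r.Prime → r ∣ Nat.card G → r ≤ q := fun r hr hrd =>
      S.le_max' r (Nat.mem_primeFactors.2 ⟨hr, hrd, Nat.card_pos.ne'⟩)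
    have : Fact q.Prime := ⟨hq⟩
    obtain ⟨P⟩ := (inferInstance : Nonempty (Sylow q G))
    by_cases hN : (P : Subgroup G).Normal
    · have hQlt : Nat.card (G ⧸ (P : Subgroup G)) < Nat.card G := by
        rw [← Subgroup.card_mul_index (P : Subgroup G), ← Subgroup.index_eq_card]
        exact lt_mul_left (Nat.pos_of_ne_zero Subgroup.index_ne_zero_of_finite)
          ((Subgroup.one_lt_card_iff_ne_bot _).2 (P.ne_bot_of_dvd_card hqG))
      have hQ : Group.IsSolvable (G ⧸ (P : Subgroup G)) := ih (by omega) fun M hM => by
        have hM' : IsCoatom (M.comap (QuotientGroup.mk' (P : Subgroup G))) :=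
          Subgroup.isCoatom_comap_of_surjective (QuotientGroup.mk'_surjective _) hM
        obtain ⟨p, hp, hi⟩ := h _ hM'
        rw [Subgroup.index_comap_of_surjective _ (QuotientGroup.mk'_surjective _)] at hi
        exact ⟨p, hp, hi⟩
      have := P.isPGroup'.isNilpotent
      exact Group.isSolvable_of_ker_le_range (P : Subgroup G).subtype (QuotientGroup.mk' (P : Subgroup G)) (by simp)
    have hne : Subgroup.normalizer ((P : Subgroup G) : Set G) ≠ ⊤ := fun ht =>
      hN (Subgroup.normalizer_eq_top_iff.1 ht)
    obtain ⟨M, hM, hNM⟩ := (eq_top_or_exists_le_coatom _).resolve_left hne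
    obtain ⟨p, hp, hi⟩ := h M hM
    have hmod : M.index ≡ 1 [MOD q] := by
      have h1 : Nat.card (Sylow q G) ≡ 1 [MOD q] := card_sylow_modEq_one q G
      have hPM : (P : Subgroup G) ≤ M := Subgroup.le_normalizer.trans hNM
      have h2 : Nat.card (Sylow q M) ≡ 1 [MOD q] := card_sylow_modEq_one q M
      rw [Sylow.card_eq_index_normalizer P, ← Sylow.coe_coe, ← Subgroup.relIndex_mul_index hNM] at h1
      have h3 : Nat.card (Sylow q M) = (Subgroup.normalizer ((P : Subgroup G) : Set G)).relIndex M := by
        rw [Sylow.card_eq_index_normalizer (P.subtype hPM), ← Sylow.coe_coe, Sylow.coe_subtype,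
          Subgroup.relIndex, Subgroup.subgroupOf_normalizer_eq hPM]
      rw [← h3] at h1
      exact ((Nat.ModEq.mul_right M.index h2).symm.trans h1 |>.symm.trans (by rfl) |>.symm |> fun h => by simpa using h)
    have hpG : p ∣ Nat.card G := by
      refine dvd_trans ?_ (Subgroup.index_dvd_card M)
      rcases hi with hi | hi <;> rw [hi]
      exact dvd_pow_self p two_ne_zero
    have hpq := hmax p hp hpG
    have hp2 := hp.two_le
    have hcase : p = 2 ∧ q = 3 := by
      rcases hi with hi | hi <;> rw [hi] at hmod <;>
        have hd := (Nat.modEq_iff_dvd' (by first | exact hp.one_le | exact Nat.one_le_pow _ _ hp.pos)).1 hmod.symm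
      · have hlt := Nat.le_of_dvd (by omega) hd
        omega
      · have h5 : q ∣ (p + 1) * (p - 1) := by
          rwa [← Nat.sq_sub_sq, one_pow]
        rcases hq.dvd_mul.1 h5 with h6 | h6
        · have hlt := Nat.le_of_dvd (by omega) h6
          have : q = p ∨ q = p + 1 := by omega
          rcases this with h7 | h7
          · rw [h7] at h6
            exact absurd ((Nat.dvd_add_right dvd_rfl).1 h6) hp.not_dvd_one
          · rcases hp.eq_two_or_odd with h8 | h8
            · exact ⟨h8, by omega⟩
            · rcases hq.eq_two_or_odd with h9 | h9 <;> omega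
        · have hlt := Nat.le_of_dvd (by omega) h6
          omega
    refine Cfsg.Agent.Char.solvable_of_card_eq_pow_mul_pow 2 3 Nat.prime_two Nat.prime_three _ rfl ?_
    intro r hr hrd
    have := hmax r hr hrd
    rw [hcase.2] at this
    have := hr.two_le
    omega

/-- A finite group in which every maximal subgroup has index a prime or the square of a prime is solvable. -/
theorem result {G : Type*} [Group G] [Finite G] (h : ∀ M : Subgroup G, IsCoatom M → ∃ p : ℕ, p.Prime ∧ (M.index = p ∨ M.index = p ^ 2)) : Group.IsSolvable G := by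
  exact main (Nat.card G) le_rfl h

end Cfsg.Agent.S4203
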