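import Cfsg.Statements.S4204
import Mathlib

set_option autoImplicit false
open Cfsg

namespace Cfsg.Agent.S4204

/-- Lower central series shifted by one, starting at the whole group. -/
def lc {G : Type*} [Group G] (H : Subgroup G) : ℕ → Subgroup G
  | 0 => ⊤
  | i + 1 => H.lowerCentralSeries i

theorem lc_normal {G : Type*} [Group G] (H : Subgroup G) [H.Normal] : ∀ i, (lc H i).Normal
  | 0 => inferInstanceAs (⊤ : Subgroup G).Normal
  | i + 1 => by
    induction i with
    | zero => exact inferInstanceAs H.Normal
    | succ i ih =>
      change (H.lowerCentralSeries (i + 1)).Normal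
      rw [Subgroup.lowerCentralSeries_succ]
      have : (H.lowerCentralSeries i).Normal := ih
      infer_instance

theorem comm_lc {G : Type*} [Group G] (H : Subgroup G) [H.Normal] (i : ℕ) :
    ⁅lc H i, H⁆ ≤ lc H (i + 1) := by
  cases i with
  | zero => exact Subgroup.commutator_le_right _ _
  | succ i => exact le_of_eq (Subgroup.lowerCentralSeries_succ H i).symm

/-- The elements whose commutators with `B` lie in `N`. -/
def centMod {G : Type*} [Group G] (B N : Subgroup G) [N.Normal] : Subgroup G :=
  (Subgroup.centralizer ((B.map (QuotientGroup.mk' N) : Subgroup (G ⧸ N)) : Set (G ⧸ N))).comap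
    (QuotientGroup.mk' N)

theorem comm_le_iff {G : Type*} [Group G] (A B N : Subgroup G) [N.Normal] :
    ⁅A, B⁆ ≤ N ↔ A ≤ centMod B N := by
  rw [centMod, ← Subgroup.map_le_iff_le_comap, ← Subgroup.commutator_eq_bot_iff_le_centralizer,
    ← Subgroup.map_commutator, Subgroup.map_eq_bot_iff, QuotientGroup.ker_mk']

/-- If `H` and `K` are normal subgroups of a finite group with `H` nilpotent of class at most `c` and `K` nilpotent of class at most `d` (the terms with index `c`, respectively `d`, of their lower central series are trivial, indices starting at `0`), then `HK` is nilpotent of class at most `c + d`. -/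
theorem result {G : Type*} [Group G] [Finite G] (H K : Subgroup G) [H.Normal] [K.Normal] (c d : ℕ) (hH : H.lowerCentralSeries c = ⊥) (hK : K.lowerCentralSeries d = ⊥) : (H ⊔ K).lowerCentralSeries (c + d) = ⊥ := by
  let X : ℕ → Subgroup G := fun n => ⨆ i ∈ Finset.range (n + 1), lc H i ⊓ lc K (n - i)
  have hXn : ∀ n, (X n).Normal := fun n => by
    have hi : ∀ i, (lc H i ⊓ lc K (n - i)).Normal := fun i => by
      have := lc_normal H i
      have := lc_normal K (n - i)
      infer_instance
    infer_instance
  have step : ∀ n, ⁅X n, H ⊔ K⁆ ≤ X (n + 1) := by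
    intro n
    have := hXn (n + 1)
    rw [Subgroup.commutator_comm, comm_le_iff]
    refine sup_le ?_ ?_ <;> rw [← comm_le_iff, Subgroup.commutator_comm, comm_le_iff] <;>
      refine iSup₂_le fun i hi => ?_ <;> rw [← comm_le_iff] <;> rw [Finset.mem_range] at hi
    · refine le_trans ?_ (le_iSup₂_of_le (i + 1) (Finset.mem_range.2 (by omega)) le_rfl)
      have := lc_normal K (n - i)
      refine le_inf ((Subgroup.commutator_mono inf_le_left le_rfl).trans (comm_lc H i))
        ((Subgroup.commutator_mono inf_le_right le_rfl).trans
          ((Subgroup.commutator_le_left _ _).trans (le_of_eq ?_)))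
      congr 1
      omega
    · refine le_trans ?_ (le_iSup₂_of_le i (Finset.mem_range.2 (by omega)) le_rfl)
      have := lc_normal H i
      refine le_inf ((Subgroup.commutator_mono inf_le_left le_rfl).trans (Subgroup.commutator_le_left _ _)) ?_
      refine (Subgroup.commutator_mono inf_le_right le_rfl).trans ((comm_lc K (n - i)).trans (le_of_eq ?_))
      congr 1
      omega
  have key : ∀ n, (H ⊔ K).lowerCentralSeries n ≤ X (n + 1) := by
    intro n
    induction n with
    | zero =>
      refine sup_le ?_ ?_
      · exact le_iSup₂_of_le 1 (by simp) (le_inf le_rfl le_top)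
      · exact le_iSup₂_of_le 0 (by simp) (le_inf le_top le_rfl)
    | succ n ih =>
      rw [Subgroup.lowerCentralSeries_succ]
      exact (Subgroup.commutator_mono ih le_rfl).trans (step (n + 1))
  refine le_bot_iff.1 ((key (c + d)).trans (iSup₂_le fun i hi => ?_))
  rcases Nat.lt_or_ge i (c + 1) with h | h
  · refine inf_le_of_right_le ?_
    obtain ⟨j, hj⟩ : ∃ j, c + d + 1 - i = j + 1 ∧ d ≤ j := ⟨c + d - i, by omega, by omega⟩
    rw [hj.1]
    exact (K.lowerCentralSeries_antitone hj.2).trans hK.le
  · refine inf_le_of_left_le ?_
    obtain ⟨j, rfl⟩ : ∃ j, i = j + 1 := ⟨i - 1, by omega⟩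
    exact (H.lowerCentralSeries_antitone (show c ≤ j by omega)).trans hH.le

end Cfsg.Agent.S4204
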