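import Cfsg.Statements.S4208
import Cfsg.Agent.H77.AutFrattini

set_option autoImplicit false
open Cfsg

namespace Cfsg.Agent.S4208

open Cfsg.Agent.H77.AutFrattini

/-- Let `P` be a group of order `p^n` whose Frattini subgroup has index `p^r`. Then the order of the automorphism group of `P` divides `p^(r(n-r)) · (p^r - 1)(p^r - p) ⋯ (p^r - p^(r-1))`. -/
theorem result {P : Type*} [Group P] [Finite P] {p n r : ℕ} [Fact p.Prime] (hP : Nat.card P = p ^ n) (hr : (frattini P).index = p ^ r) : Nat.card (MulAut P) ∣ p ^ (r * (n - r)) * ∏ i ∈ Finset.range r, (p ^ r - p ^ i) := by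
  classical
  have hp : p.Prime := Fact.out
  have hG : IsPGroup p P := IsPGroup.of_card hP
  let B := {t : Fin r → P // Subgroup.closure (Set.range t) = ⊤}
  have hmem : ∀ (α : MulAut P) (t : B), Subgroup.closure (Set.range fun i => α (t.1 i)) = ⊤ := by
    intro α t
    have : Set.range (fun i => α (t.1 i)) = α.toMonoidHom '' Set.range t.1 := by
      rw [← Set.range_comp]; rfl
    rw [this, ← MonoidHom.map_closure, t.2, Subgroup.map_top_of_surjective _ α.surjective]
  let act : MulAction (MulAut P) B :=
    { smul := fun α t => ⟨fun i => α (t.1 i), hmem α t⟩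
      one_smul := fun t => rfl
      mul_smul := fun α β t => rfl }
  have hfree : ∀ t : B, ∀ α : MulAut P, α • t = t → α = 1 := by
    intro t α h
    refine aut_ext_of_closure t.2 α 1 ?_
    rintro _ ⟨i, rfl⟩
    exact congrFun (congrArg Subtype.val h) i
  refine (card_dvd_of_free hfree).trans (dvd_of_eq ?_)
  have hle : commutator P ≤ frattini P := Cfsg.Agent.PGroup.commutator_le_frattini hG
  have hcomm : ∀ a b : P ⧸ frattini P, a * b = b * a :=
    ((Subgroup.Normal.quotient_commutative_iff_commutator_le (N := frattini P)).2 hle).is_comm.comm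
  let : CommGroup (P ⧸ frattini P) := { (inferInstance : Group (P ⧸ frattini P)) with mul_comm := hcomm }
  let U := {u : Fin r → P ⧸ frattini P // Subgroup.closure (Set.range u) = ⊤}
  let π : B → U := fun t => ⟨fun i => (t.1 i : P ⧸ frattini P), (closure_eq_top_iff t.1).1 t.2⟩
  have : Fintype U := Fintype.ofFinite U
  have hfib : ∀ u : U, Nat.card {t : B // π t = u} = p ^ ((n - r) * r) := by
    intro u
    rw [pow_mul, ← card_frattini hP hr, ← card_fiber u.1]
    refine Nat.card_congr
      { toFun := fun t => ⟨t.1.1, fun i => congrFun (congrArg Subtype.val t.2) i⟩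
        invFun := fun t => ⟨⟨t.1, (closure_eq_top_iff t.1).2 (by
          rw [show (fun i => (t.1 i : P ⧸ frattini P)) = u.1 from funext t.2]
          exact u.2)⟩, Subtype.ext (funext t.2)⟩
        left_inv := fun t => rfl
        right_inv := fun t => rfl }
  rw [← Nat.card_congr (Equiv.sigmaFiberEquiv π), Nat.card_sigma,
    Finset.sum_congr rfl (fun u _ => hfib u), Finset.sum_const, Finset.card_univ, smul_eq_mul,
    ← Nat.card_eq_fintype_card, mul_comm (n - r) r, mul_comm]
  congr 1
  refine card_gen_elementary (by rw [← Subgroup.index_eq_card, hr]) ?_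
  intro x
  induction x using QuotientGroup.induction_on with
  | _ y =>
    rw [← QuotientGroup.mk_pow, QuotientGroup.eq_one_iff]
    exact Cfsg.Agent.PGroup.pow_mem_frattini hG y

end Cfsg.Agent.S4208
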