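import Cfsg.Statements.S4211
import Mathlib
import Cfsg.Agent.PGroup.ClassTwo
import Cfsg.Agent.TwoGroups.Recognition

set_option autoImplicit false
open Cfsg

namespace Cfsg.Agent.S4211

open Subgroup
open scoped commutatorElement

section
variable {G : Type*} [Group G] [Finite G] (hn : ∀ H : Subgroup G, H.Normal)
include hn

theorem comm_mem (x y : G) : ⁅x, y⁆ ∈ zpowers x ∧ ⁅x, y⁆ ∈ zpowers y := by
  rw [commutatorElement_def]
  refine ⟨?_, ?_⟩
  · rw [show x * y * x⁻¹ * y⁻¹ = x * (y * x⁻¹ * y⁻¹) by group]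
    exact mul_mem (mem_zpowers x) ((hn (zpowers x)).conj_mem _ (inv_mem (mem_zpowers x)) y)
  · exact mul_mem ((hn (zpowers y)).conj_mem _ (mem_zpowers y) x) (inv_mem (mem_zpowers y))

theorem commute_of_coprime {x y : G} (h : (orderOf x).Coprime (orderOf y)) : Commute x y := by
  rw [← commutatorElement_eq_one_iff_commute, ← orderOf_eq_one_iff]
  exact Nat.eq_one_of_dvd_coprimes h (orderOf_dvd_of_mem_zpowers (comm_mem hn x y).1)
    (orderOf_dvd_of_mem_zpowers (comm_mem hn x y).2)

/-- Elements of prime order are central. -/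
theorem prime_order_central {c : G} {p : ℕ} (hp : p.Prime) (hc : c ^ p = 1) : c ∈ center G := by
  have : Fact p.Prime := ⟨hp⟩
  rw [mem_center_iff]
  intro g
  by_contra hne
  have h1 := comm_mem hn g c
  have hd1 : ⁅g, c⁆ ≠ 1 := fun h => hne (commutatorElement_eq_one_iff_commute.1 h).eq
  have hc1 : c ≠ 1 := fun h => hne (by rw [h, mul_one, one_mul])
  have hz : Nat.card (zpowers c) = p := by rw [Nat.card_zpowers, orderOf_eq_prime hc hc1]
  obtain ⟨i, hi⟩ := mem_zpowers_of_prime_card (p := p) hz (g := (⟨⁅g, c⁆, h1.2⟩ : zpowers c))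
    (g' := ⟨c, mem_zpowers c⟩) (fun h => hd1 (congrArg Subtype.val h))
  have hcg : c ∈ zpowers g := by
    have : ⁅g, c⁆ ^ i = c := congrArg Subtype.val hi
    rw [← this]
    exact zpow_mem h1.1 i
  obtain ⟨j, hj⟩ := hcg
  exact hne (by rw [← hj]; exact ((Commute.refl g).zpow_right j).eq)

/-- A noncommuting pair of `p`-elements forces `p = 2` and a quaternion pair. -/
theorem exists_quaternion_pair {p : ℕ} (hp : p.Prime) : ∀ (d : ℕ) (a b : G) (m n : ℕ), m + n = d →
    orderOf a = p ^ m → orderOf b = p ^ n → ¬ Commute a b →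
    p = 2 ∧ ∃ a b : G, orderOf a = 4 ∧ b ∉ zpowers a ∧ b * b = a ^ 2 ∧ b * a * b⁻¹ = a⁻¹ ∧ orderOf b = 4 := by
  intro d
  induction d using Nat.strong_induction_on with
  | _ d ih =>
  intro a b m n hd ha hb hab
  wlog hnm : n ≤ m generalizing a b m n
  · exact this b a n m (by omega) hb ha (fun h => hab h.symm) (by omega)
  have : Fact p.Prime := ⟨hp⟩
  set c := ⁅a, b⁆ with hc
  obtain ⟨hca, hcb⟩ := comm_mem hn a b
  have hc1 : c ≠ 1 := fun h => hab (commutatorElement_eq_one_iff_commute.1 h)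
  have hm0 : m ≠ 0 := fun h => hab (by rw [show a = 1 from orderOf_eq_one_iff.1 (by rw [ha, h, pow_zero])]; exact Commute.one_left b)
  have hn0 : n ≠ 0 := fun h => hab (by rw [show b = 1 from orderOf_eq_one_iff.1 (by rw [hb, h, pow_zero])]; exact Commute.one_right a)
  obtain ⟨m', rfl⟩ : ∃ m', m = m' + 1 := ⟨m - 1, by omega⟩
  obtain ⟨n', rfl⟩ : ∃ n', n = n' + 1 := ⟨n - 1, by omega⟩
  have hap : orderOf (a ^ p) = p ^ m' := by
    rw [orderOf_pow_of_dvd hp.ne_zero (ha ▸ dvd_pow_self p (by omega)), ha, pow_succ, Nat.mul_div_cancel _ hp.pos]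
  by_cases hapb : Commute (a ^ p) b
  swap
  · exact ih _ (show m' + (n' + 1) < d by omega) (a ^ p) b m' (n' + 1) rfl hap hb hapb
  have hac : Commute a c := by
    obtain ⟨i, hi⟩ := hca
    rw [show c = a ^ i from hi.symm]; exact (Commute.refl a).zpow_right i
  have hbc : Commute b c := by
    obtain ⟨i, hi⟩ := hcb
    rw [show c = b ^ i from hi.symm]; exact (Commute.refl b).zpow_right i
  have hpow : ∀ k : ℕ, a ^ k * b = c ^ k * (b * a ^ k) := by
    intro k
    induction k with
    | zero => simp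
    | succ k ihk =>
      rw [pow_succ' a, mul_assoc, ihk, ← mul_assoc a, (hac.pow_right k).eq, mul_assoc (c ^ k), ← mul_assoc a b,
        show a * b = c * (b * a) by rw [hc, commutatorElement_def]; group, pow_succ, mul_assoc c, mul_assoc b,
        ← mul_assoc (c ^ k) c]
  have hcp : c ^ p = 1 := by
    have h := hpow p
    rw [hapb.eq] at h
    exact right_eq_mul.1 h
  have hcc : c ∈ center G := prime_order_central hn hp hcp
  -- `c` generates the subgroup of order `p` of both cyclic groups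
  have hbottom : ∀ (x : G) (l : ℕ), orderOf x = p ^ (l + 1) → c ∈ zpowers x → zpowers (x ^ p ^ l) = zpowers c := by
    intro x l hx hcx
    refine (Subgroup.eq_of_le_of_card_ge ?_ ?_).symm
    · obtain ⟨i, hi⟩ := hcx
      simp only at hi
      have hd : ((p ^ (l + 1) : ℕ) : ℤ) ∣ i * p := by
        rw [← hx, orderOf_dvd_iff_zpow_eq_one, zpow_mul, hi, zpow_natCast, hcp]
      rw [pow_succ, Nat.cast_mul] at hd
      obtain ⟨q, hq⟩ := Int.dvd_of_mul_dvd_mul_right (by exact_mod_cast hp.ne_zero) hd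
      rw [zpowers_le]
      exact ⟨q, by simp only; rw [← hi, hq, zpow_mul, zpow_natCast]⟩
    · rw [Nat.card_zpowers, Nat.card_zpowers, orderOf_eq_prime hcp hc1,
        orderOf_pow_of_dvd (pow_ne_zero _ hp.ne_zero) (hx ▸ pow_dvd_pow p (Nat.le_succ l)), hx, pow_succ,
        Nat.mul_div_cancel_left _ (pow_pos hp.pos l)]
  have hA := hbottom a m' ha hca
  have hB := hbottom b n' hb hcb
  obtain ⟨t, ht⟩ : ∃ t : ℕ, (a ^ p ^ m') ^ t = (b ^ p ^ n')⁻¹ := by
    refine (mem_powers_iff_mem_zpowers).2 ?_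
    rw [hA, ← hB]
    exact inv_mem (mem_zpowers _)
  set k := t * p ^ (m' - n') with hk
  set N := p ^ n' with hN
  set b' := b * a ^ k with hb'
  have hak : (a ^ k) ^ N = (b ^ N)⁻¹ := by
    rw [← pow_mul, hk, hN, mul_assoc, ← pow_add, Nat.sub_add_cancel (by omega), mul_comm, pow_mul, ht]
  have hck : ⁅a ^ k, b⁆ = c ^ k := Cfsg.Agent.PGroup.commutatorElement_pow_left hcc k
  have hbN : b' ^ N = c ^ (k * N.choose 2) := by
    rw [hb', Cfsg.Agent.PGroup.mul_pow_of_commutatorElement (hck ▸ pow_mem hcc k), hak, mul_inv_cancel, one_mul,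
      hck, ← pow_mul]
  by_cases hdiv : p ∣ k * N.choose 2
  · -- a smaller noncommuting pair
    obtain ⟨l, hl, hlo⟩ := (Nat.dvd_prime_pow hp).1 (orderOf_dvd_of_pow_eq_one (show b' ^ p ^ n' = 1 by
      obtain ⟨q, hq⟩ := hdiv
      rw [← hN, hbN, hq, pow_mul, hcp, one_pow]))
    refine ih _ (show m' + 1 + l < d by omega) a b' (m' + 1) l rfl ha hlo fun h => hab ?_
    have h2 : Commute a (b' * (a ^ k)⁻¹) := h.mul_right ((Commute.self_pow a k).inv_right)
    rwa [hb', mul_inv_cancel_right] at h2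
  · have hN2 : ¬ p ∣ N.choose 2 := fun h => hdiv (h.mul_left _)
    have hn1 : n' ≠ 0 := by
      rintro rfl
      exact hN2 (by rw [hN, pow_zero]; simp)
    have hkey : p = 2 ∧ n' = 1 := by
      have hNp : p ^ n' = N := hN.symm
      by_cases h2 : p = 2
      · refine ⟨h2, ?_⟩
        by_contra hne
        apply hN2
        obtain ⟨q, hq⟩ : ∃ q, n' = q + 2 := ⟨n' - 2, by omega⟩
        rw [← hNp, h2, hq, Nat.choose_two_right, pow_add,
          show 2 ^ q * 2 ^ 2 * (2 ^ q * 2 ^ 2 - 1) = 2 * (2 * (2 ^ q * (2 ^ q * 2 ^ 2 - 1))) by ring,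
          Nat.mul_div_cancel_left _ (by norm_num : 0 < 2)]
        exact dvd_mul_right 2 _
      · exfalso
        apply hN2
        have hodd : Odd p := hp.odd_of_ne_two h2
        have hcop : Nat.Coprime p 2 := (Nat.coprime_primes hp Nat.prime_two).2 h2
        refine hcop.dvd_of_dvd_mul_left ?_
        rw [Nat.choose_two_right, Nat.mul_div_cancel' (Nat.even_mul_pred_self N).two_dvd, ← hNp]
        exact (dvd_pow_self p hn1).mul_right _
    obtain ⟨rfl, rfl⟩ := hkey
    have hm : m' = 1 := by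
      by_contra hne
      apply hdiv
      refine dvd_mul_of_dvd_left ?_ _
      rw [hk]
      exact (dvd_pow_self 2 (by omega)).mul_left t
    subst hm
    have h2 : ∀ x : G, zpowers (x ^ 2 ^ 1) = zpowers c → x ^ 2 = c := by
      intro x hx
      rw [pow_one] at hx
      have h3 : x ^ 2 ∈ zpowers c := hx ▸ mem_zpowers _
      obtain ⟨i, hi⟩ := (mem_powers_iff_mem_zpowers).2 h3
      simp only at hi
      rcases Nat.even_or_odd i with ⟨j, rfl⟩ | ⟨j, rfl⟩
      · exfalso
        rw [← two_mul, pow_mul, hcp, one_pow] at hi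
        rw [← hi, zpowers_one_eq_bot] at hx
        exact hc1 (zpowers_eq_bot.1 hx.symm)
      · rw [pow_succ, pow_mul, hcp, one_pow, one_mul] at hi
        exact hi.symm
    have ha2 := h2 a hA
    have hb2 := h2 b hB
    refine ⟨rfl, a, b, by rw [ha]; norm_num, fun h => ?_, ?_, ?_, by rw [hb]; norm_num⟩
    · obtain ⟨i, hi⟩ := h
      simp only at hi
      exact hab (hi ▸ (Commute.refl a).zpow_right i)
    · rw [← sq, hb2, ha2]
    · have e : a * b * a⁻¹ * b⁻¹ = a * a := by rw [← sq, ha2, hc, commutatorElement_def]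
      have e2 : b * a⁻¹ * b⁻¹ = a := mul_left_cancel (a := a) (by rw [← e]; group)
      calc b * a * b⁻¹ = (b * a⁻¹ * b⁻¹)⁻¹ := by group
        _ = a⁻¹ := by rw [e2]

omit hn in
theorem exists_pow_decomp (p : ℕ) (hp : p.Prime) (x : G) :
    ∃ u v : G, u ∈ zpowers x ∧ v ∈ zpowers x ∧ x = u * v ∧ (∃ k, orderOf u = p ^ k) ∧ ¬ p ∣ orderOf v := by
  set n := orderOf x with hn'
  have hn0 : n ≠ 0 := (orderOf_pos x).ne'
  set P := p ^ n.factorization p with hP
  set m := n / p ^ n.factorization p with hm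
  have hPm : P * m = n := Nat.ordProj_mul_ordCompl_eq_self n p
  obtain ⟨u, v, huv⟩ := Nat.isCoprime_iff_coprime.2
    ((Nat.coprime_ordCompl hp hn0).pow_left (n.factorization p))
  refine ⟨x ^ (v * m), x ^ (u * P), zpow_mem (mem_zpowers x) _, zpow_mem (mem_zpowers x) _, ?_, ?_, ?_⟩
  · rw [← zpow_add, add_comm, huv, zpow_one]
  · obtain ⟨k, -, hk⟩ := (Nat.dvd_prime_pow hp).1
      (orderOf_dvd_of_pow_eq_one (show (x ^ (v * (m : ℤ))) ^ P = 1 by
        rw [← zpow_natCast, ← zpow_mul, show v * (m : ℤ) * (P : ℤ) = ((n : ℕ) : ℤ) * v by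
          rw [← hPm]; push_cast; ring, zpow_mul, zpow_natCast, hn', pow_orderOf_eq_one, one_zpow]))
    exact ⟨k, hk⟩
  · intro hd
    refine Nat.not_dvd_ordCompl hp hn0 (hd.trans (orderOf_dvd_of_pow_eq_one ?_))
    rw [← zpow_natCast, ← zpow_mul, show u * (P : ℤ) * (m : ℤ) = ((n : ℕ) : ℤ) * u by
      rw [← hPm]; push_cast; ring, zpow_mul, zpow_natCast, hn', pow_orderOf_eq_one, one_zpow]

theorem odd_pair_commute {x y : G} (hx : ∃ p k : ℕ, p.Prime ∧ p ≠ 2 ∧ orderOf x = p ^ k)
    (hy : ∃ q l : ℕ, q.Prime ∧ orderOf y = q ^ l) : Commute x y := by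
  obtain ⟨p, k, hp, hp2, hxo⟩ := hx
  obtain ⟨q, l, hq, hyo⟩ := hy
  by_cases hpq : p = q
  · subst hpq
    by_contra hne
    exact hp2 (exists_quaternion_pair hn hp _ x y k l rfl hxo hyo hne).1
  · exact commute_of_coprime hn (by rw [hxo, hyo]; exact Nat.coprime_pow_primes _ _ hp hq hpq)

omit hn in
/-- An element commuting with all elements of prime power order is central. -/
theorem central_of_prime_pow {x : G} (h : ∀ y : G, (∃ q l : ℕ, q.Prime ∧ orderOf y = q ^ l) → Commute x y) :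
    x ∈ center G := by
  rw [mem_center_iff]
  suffices ∀ d, ∀ y : G, orderOf y = d → Commute x y from fun y => (this _ y rfl).symm.eq
  intro d
  induction d using Nat.strong_induction_on with
  | _ d ih =>
  intro y hy
  by_cases h1 : d = 1
  · rw [orderOf_eq_one_iff.1 (hy.trans h1)]; exact Commute.one_right x
  obtain ⟨q, hq, hqd⟩ := Nat.exists_prime_and_dvd h1
  obtain ⟨u, v, hu, hv, rfl, ⟨k, hk⟩, hqv⟩ := exists_pow_decomp q hq y
  refine (h u ⟨q, k, hq, hk⟩).mul_right (ih _ ?_ v rfl)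
  refine lt_of_le_of_ne (Nat.le_of_dvd (hy ▸ orderOf_pos _) (hy ▸ orderOf_dvd_of_mem_zpowers hv)) fun e => ?_
  exact hqv (e ▸ hqd)

theorem odd_central {x : G} (hx : Odd (orderOf x)) : x ∈ center G := by
  have key : ∀ p k, p.Prime → p ≠ 2 → ∀ u : G, orderOf u = p ^ k → u ∈ center G := fun p k hp hp2 u hu =>
    central_of_prime_pow fun y hy => odd_pair_commute hn ⟨p, k, hp, hp2, hu⟩ hy
  suffices ∀ d, ∀ y : G, orderOf y = d → Odd d → y ∈ center G from this _ x rfl hx
  intro d
  induction d using Nat.strong_induction_on with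
  | _ d ih =>
  intro y hy hd
  by_cases h1 : d = 1
  · rw [orderOf_eq_one_iff.1 (hy.trans h1)]; exact one_mem _
  obtain ⟨q, hq, hqd⟩ := Nat.exists_prime_and_dvd h1
  obtain ⟨u, v, hu, hv, rfl, ⟨k, hk⟩, hqv⟩ := exists_pow_decomp q hq y
  refine mul_mem (key q k hq ?_ u hk) (ih _ ?_ v rfl (hd.of_dvd_nat (hy ▸ orderOf_dvd_of_mem_zpowers hv)))
  · rintro rfl
    exact (Nat.not_even_iff_odd.2 hd) (even_iff_two_dvd.2 hqd)
  refine lt_of_le_of_ne (Nat.le_of_dvd (hy ▸ orderOf_pos _) (hy ▸ orderOf_dvd_of_mem_zpowers hv)) fun e => ?_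
  exact hqv (e ▸ hqd)

theorem main (hna : ¬ IsMulCommutative G) : ∃ Q E A : Subgroup G, Nonempty (Q ≃* QuaternionGroup 2) ∧
    Cfsg.IsElementaryAbelian 2 E ∧ IsMulCommutative A ∧ Odd (Nat.card A) ∧ E ⊓ A = ⊥ ∧ Q ⊓ (E ⊔ A) = ⊥ ∧
    Q ⊔ (E ⊔ A) = ⊤ := by
  classical
  obtain ⟨a₀, b₀, k, l, ha₀, hb₀, hne⟩ : ∃ a b : G, ∃ k l : ℕ, orderOf a = 2 ^ k ∧ orderOf b = 2 ^ l ∧ ¬ Commute a b := by
    by_contra hcon
    push Not at hcon
    refine hna ⟨⟨fun x y => ?_⟩⟩
    have hall : ∀ z : G, (∃ q l : ℕ, q.Prime ∧ orderOf z = q ^ l) → z ∈ center G := by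
      rintro z ⟨q, l, hq, hz⟩
      by_cases h2 : q = 2
      · subst h2
        refine central_of_prime_pow fun w hw => ?_
        obtain ⟨q', l', hq', hw'⟩ := hw
        by_cases h2' : q' = 2
        · subst h2'; exact hcon z w l l' hz hw'
        · exact (odd_pair_commute hn ⟨q', l', hq', h2', hw'⟩ ⟨2, l, Nat.prime_two, hz⟩).symm
      · exact odd_central hn (by rw [hz]; exact (hq.odd_of_ne_two h2).pow)
    exact (mem_center_iff.1 (central_of_prime_pow (x := x) fun z hz => mem_center_iff.1 (hall z hz) x) y).symm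
  obtain ⟨-, a, b, ha, hbn, hb2, hconj, hb4⟩ := exists_quaternion_pair hn Nat.prime_two _ a₀ b₀ k l rfl ha₀ hb₀ hne
  set Q := closure ({a, b} : Set G) with hQ
  have haQ : a ∈ Q := subset_closure (Set.mem_insert _ _)
  have hbQ : b ∈ Q := subset_closure (Set.mem_insert_of_mem _ rfl)
  obtain ⟨iso⟩ := Cfsg.Agent.TwoGroups.closure_equiv_quaternion (n := 2) (by rw [ha]) hbn hb2 hconj
  have ha4 : a ^ 4 = 1 := ha ▸ pow_orderOf_eq_one a
  have hb4' : b ^ 4 = 1 := hb4 ▸ pow_orderOf_eq_one b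
  set z := a ^ 2 with hz
  have hz2 : z ^ 2 = 1 := by rw [hz, ← pow_mul, ha4]
  have hz1 : z ≠ 1 := fun h => by
    have := Nat.le_of_dvd (by norm_num) (orderOf_dvd_of_pow_eq_one h)
    omega
  have hzc : z ∈ center G := prime_order_central hn Nat.prime_two hz2
  have hinv_central : ∀ x : G, x ^ 2 = 1 → x ∈ center G := fun x => prime_order_central hn Nat.prime_two
  -- conjugation acts as `±1` on the cyclic groups of order four
  have hpm : ∀ (x e : G), orderOf e = 4 → x * e * x⁻¹ = e ∨ x * e * x⁻¹ = e⁻¹ := by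
    intro x e he
    obtain ⟨i, hi⟩ := (mem_powers_iff_mem_zpowers).2 ((hn (zpowers e)).conj_mem e (mem_zpowers e) x)
    simp only at hi
    have hi' : orderOf (e ^ i) = 4 := by rw [hi, ← MulAut.conj_apply, MulEquiv.orderOf_eq, he]
    have he4 : e ^ 4 = 1 := he ▸ pow_orderOf_eq_one e
    have hred : e ^ i = e ^ (i % 4) := by rw [← he, pow_mod_orderOf]
    rw [hred] at hi hi'
    have : i % 4 < 4 := Nat.mod_lt _ (by norm_num)
    interval_cases hr : i % 4
    · rw [pow_zero, orderOf_one] at hi'; omega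
    · left; rw [← hi, pow_one]
    · have := orderOf_dvd_of_pow_eq_one (x := e ^ 2) (n := 2) (by rw [← pow_mul, he4])
      rw [hi'] at this
      exact absurd (Nat.le_of_dvd (by norm_num) this) (by norm_num)
    · right; rw [← hi, eq_inv_iff_mul_eq_one, ← pow_succ, he4]
  -- two-power elements centralising `Q` are involutions
  have hcent : ∀ c : G, (∃ j, orderOf c = 2 ^ j) → Commute a c → Commute b c → c ^ 2 = 1 := by
    have step : ∀ c : G, orderOf c = 4 → Commute a c → Commute b c → False := by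
      intro c hc hac hbc
      have hc4 : c ^ 4 = 1 := hc ▸ pow_orderOf_eq_one c
      have hc2c : c ^ 2 ∈ center G := hinv_central _ (by rw [← pow_mul, hc4])
      have hcomm : ⁅a, b * c⁆ = z := by
        rw [commutatorElement_def, mul_inv_rev, show a * (b * c) * a⁻¹ * (c⁻¹ * b⁻¹) = a * b * (c * a⁻¹ * c⁻¹) * b⁻¹ by group,
          hac.symm.inv_right.eq, mul_inv_cancel_right, show a * b * a⁻¹ * b⁻¹ = a * (b * a * b⁻¹)⁻¹ by group,
          hconj, inv_inv, hz, sq]
      have hsq : (b * c) ^ 2 = z * c ^ 2 := by rw [hbc.mul_pow, sq b, hb2]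
      have hbc4 : (b * c) ^ 4 = 1 := by rw [hbc.mul_pow, hb4', hc4, one_mul]
      obtain ⟨i, hi⟩ := (mem_powers_iff_mem_zpowers).2 (hcomm ▸ (comm_mem hn a (b * c)).2 : z ∈ zpowers (b * c))
      simp only at hi
      have hred : (b * c) ^ i = (b * c) ^ (i % 4) := by
        conv_lhs => rw [← Nat.mod_add_div i 4, pow_add, pow_mul, hbc4, one_pow, mul_one]
      rw [hred] at hi
      have hbc2 : c ^ 2 ≠ 1 := fun h => by
        have := Nat.le_of_dvd (by norm_num) (orderOf_dvd_of_pow_eq_one h)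
        omega
      have : i % 4 < 4 := Nat.mod_lt _ (by norm_num)
      have hodd : ∀ r : ℕ, Odd r → (b * c) ^ r = z → False := by
        rintro r ⟨s, rfl⟩ hr
        have h1 : Commute a ((b * c) ^ (2 * s + 1)) := by
          rw [hr]; exact mem_center_iff.1 hzc a
        rw [pow_succ, pow_mul, hsq] at h1
        have h2 : Commute a (b * c) := by
          have h3 : Commute a ((z * c ^ 2) ^ s)⁻¹ := mem_center_iff.1 (inv_mem (pow_mem (mul_mem hzc hc2c) s)) a
          have := h3.mul_right h1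
          rwa [inv_mul_cancel_left] at this
        rw [← commutatorElement_eq_one_iff_commute, hcomm] at h2
        exact hz1 h2
      interval_cases hr : i % 4
      · exact hz1 (by rw [← hi, pow_zero])
      · exact hodd 1 odd_one hi
      · rw [hsq] at hi
        exact hbc2 (mul_eq_left.1 hi)
      · exact hodd 3 (by decide) hi
    intro c ⟨j, hj⟩ hac hbc
    rcases Nat.lt_or_ge j 2 with hlt | hge
    · rw [← orderOf_dvd_iff_pow_eq_one, hj]
      exact (Nat.pow_dvd_pow 2 (by omega : j ≤ 1)).trans (by norm_num)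
    · exfalso
      refine step (c ^ 2 ^ (j - 2)) ?_ (hac.pow_right _) (hbc.pow_right _)
      rw [orderOf_pow_of_dvd (pow_ne_zero _ (by norm_num)) (hj ▸ Nat.pow_dvd_pow 2 (by omega)), hj,
        Nat.pow_div (by omega) (by norm_num), show j - (j - 2) = 2 by omega]
  -- an elementary abelian complement of `z`
  obtain ⟨E, -, hEmax⟩ := (Set.toFinite {E : Subgroup G | (∀ x ∈ E, x ^ 2 = 1) ∧ z ∉ E}).exists_le_maximal
    (a := ⊥) ⟨fun x hx => by rw [mem_bot.1 hx, one_pow], fun h => hz1 (mem_bot.1 h)⟩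
  obtain ⟨hE2, hzE⟩ := hEmax.1
  have hEV : ∀ v : G, v ^ 2 = 1 → v ∈ E ∨ v * z ∈ E := by
    intro v hv
    by_contra hcon
    push Not at hcon
    have hvc := hinv_central v hv
    let E' : Subgroup G :=
      { carrier := {x | x ∈ E ∨ x * v ∈ E}
        one_mem' := Or.inl (one_mem E)
        mul_mem' := fun {x y} hx hy => by
          rcases hx with hx | hx <;> rcases hy with hy | hy
          · exact Or.inl (mul_mem hx hy)
          · refine Or.inr ?_; rw [mul_assoc]; exact mul_mem hx hy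
          · refine Or.inr ?_
            rw [mul_assoc, mem_center_iff.1 hvc y, ← mul_assoc]; exact mul_mem hx hy
          · refine Or.inl ?_
            have h3 := mul_mem hx hy
            rwa [show x * v * (y * v) = x * (v * y) * v by group, ← mem_center_iff.1 hvc y,
              show x * (y * v) * v = x * y * v ^ 2 by rw [sq]; group, hv, mul_one] at h3
        inv_mem' := fun {x} hx => by
          rcases hx with hx | hx
          · exact Or.inl (inv_mem hx)
          · refine Or.inr ?_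
            have h3 := inv_mem hx
            rwa [mul_inv_rev, show v⁻¹ = v from (eq_inv_of_mul_eq_one_left (by rw [← sq, hv])).symm,
              ← mem_center_iff.1 hvc x⁻¹] at h3 }
    have hle : E ≤ E' := fun x hx => Or.inl hx
    have h1 : v ∈ E' := Or.inr (by rw [← sq, hv]; exact one_mem E)
    refine hcon.1 (hEmax.2 (y := E') ⟨fun x hx => ?_, fun hzE' => ?_⟩ hle h1)
    · rcases hx with hx | hx
      · exact hE2 x hx
      · have := hE2 _ hx
        rwa [Commute.mul_pow (mem_center_iff.1 hvc x), hv, mul_one] at this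
    · rcases hzE' with h | h
      · exact hzE h
      · exact hcon.2 (by rwa [← mem_center_iff.1 hzc v] at h)
  let A : Subgroup G :=
    { carrier := {x | Odd (orderOf x)}
      one_mem' := by simp
      mul_mem' := fun {x y} hx hy => by
        have hc : Commute x y := mem_center_iff.1 (odd_central hn hy) x
        exact (Odd.mul hx hy).of_dvd_nat (hc.orderOf_mul_dvd_lcm.trans (Nat.lcm_dvd_mul _ _))
      inv_mem' := fun {x} hx => by
        show Odd (orderOf x⁻¹)
        rw [orderOf_inv]; exact hx }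
  have hAodd : Odd (Nat.card A) := by
    rw [← Nat.not_even_iff_odd, even_iff_two_dvd]
    intro hd
    obtain ⟨x, hx⟩ := exists_prime_orderOf_dvd_card' (G := A) (hp := ⟨Nat.prime_two⟩) 2 hd
    have := x.2
    change Odd (orderOf (x : G)) at this
    rw [orderOf_coe, hx] at this
    exact absurd this (by decide)
  have hEA : E ⊓ A = ⊥ := eq_bot_iff.2 fun x ⟨hxE, hxA⟩ => mem_bot.2 (orderOf_eq_one_iff.1
    (Nat.eq_one_of_dvd_coprimes (Nat.coprime_two_left.2 (show Odd (orderOf x) from hxA))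
      (orderOf_dvd_of_pow_eq_one (hE2 x hxE)) dvd_rfl))
  have hQ8 : ∀ q ∈ Q, ∃ j, orderOf q = 2 ^ j := by
    intro q hq
    have h8 : Nat.card Q = 2 ^ 3 := by
      rw [Nat.card_congr iso.toEquiv, Cfsg.Agent.TwoGroups.nat_card_quaternionGroup]; rfl
    obtain ⟨j, -, hj⟩ := (Nat.dvd_prime_pow Nat.prime_two).1 (h8 ▸ Subgroup.orderOf_dvd_natCard Q hq)
    exact ⟨j, hj⟩
  have hQinv : ∀ q ∈ Q, q ^ 2 = 1 → q = 1 ∨ q = z := by
    intro q hq hq2
    by_contra hcon
    push Not at hcon
    have hu : ∀ u : QuaternionGroup 2, u * u = 1 → u = 1 ∨ u = QuaternionGroup.a 2 := by decide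
    have h1 := hu (iso ⟨q, hq⟩) (by
      rw [← map_mul, ← map_one iso]; exact congrArg iso (Subtype.ext (by simpa [sq] using hq2)))
    have h2 := hu (iso ⟨z, pow_mem haQ 2⟩) (by
      rw [← map_mul, ← map_one iso]; exact congrArg iso (Subtype.ext (by simpa [sq] using hz2)))
    rcases h1 with h1 | h1
    · exact hcon.1 (congrArg Subtype.val (iso.injective (h1.trans (map_one iso).symm)))
    rcases h2 with h2 | h2
    · exact hz1 (congrArg Subtype.val (iso.injective (h2.trans (map_one iso).symm)))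
    exact hcon.2 (congrArg Subtype.val (iso.injective (h1.trans h2.symm)))
  refine ⟨Q, E, A, ⟨iso⟩, ⟨⟨⟨fun x y => Subtype.ext (mem_center_iff.1 (hinv_central _ (hE2 y y.2)) x)⟩⟩,
    fun x hx => hE2 x hx⟩, ⟨⟨fun x y => Subtype.ext (mem_center_iff.1 (odd_central hn y.2) x)⟩⟩, hAodd, hEA, ?_, ?_⟩
  · rw [eq_bot_iff]
    rintro x ⟨hxQ, hx⟩
    have : E.Normal := hn E
    obtain ⟨e, he, v, hv, hev⟩ := mem_sup_of_normal_left.1 hx
    obtain ⟨j, hj⟩ := hQ8 x hxQ
    have hc : Commute e v := mem_center_iff.1 (odd_central hn hv) e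
    have hv1 : v = 1 := by
      rw [← orderOf_eq_one_iff]
      refine Nat.eq_one_of_dvd_coprimes (Nat.Coprime.pow_left (j + 1) (Nat.coprime_two_left.2 (show Odd (orderOf v) from hv))) ?_ dvd_rfl
      refine orderOf_dvd_of_pow_eq_one ?_
      have h1 : x ^ 2 ^ (j + 1) = 1 := by rw [pow_succ, pow_mul, ← hj, pow_orderOf_eq_one, one_pow]
      rw [← hev, hc.mul_pow, pow_succ' 2 j, pow_mul e, hE2 e he, one_pow, one_mul] at h1
      rwa [pow_succ' 2 j]
    rw [hv1, mul_one] at hev
    rw [mem_bot]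
    rcases hQinv x hxQ (hev ▸ hE2 e he) with h | h
    · exact h
    · exact absurd (h ▸ hev ▸ he) hzE
  · rw [eq_top_iff]
    intro x _
    obtain ⟨u, v, -, -, rfl, ⟨j, hj⟩, hv⟩ := exists_pow_decomp 2 Nat.prime_two x
    refine mul_mem ?_ (mem_sup_right (mem_sup_right (show v ∈ A from Nat.not_even_iff_odd.1 (fun h => hv (even_iff_two_dvd.1 h)))))
    -- adjust `u` by `Q` to centralise `Q`
    have hqa : ∀ q ∈ Q, ∀ w, q * w * q⁻¹ = w → Commute q w := fun q _ w h => mul_inv_eq_iff_eq_mul.1 h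
    obtain ⟨q, hq, hqa', hqb'⟩ : ∃ q ∈ Q, Commute a (q * u) ∧ Commute b (q * u) := by
      have hbab : b * a⁻¹ * b⁻¹ = a := by
        rw [show b * a⁻¹ * b⁻¹ = (b * a * b⁻¹)⁻¹ by group, hconj, inv_inv]
      have haba : a * b⁻¹ * a⁻¹ = b := by
        calc a * b⁻¹ * a⁻¹ = a * b⁻¹ * a⁻¹ * b⁻¹ * b := by group
          _ = a * (b * a * b)⁻¹ * b := by group
          _ = b := by
            rw [show b * a * b = (b * a * b⁻¹) * (b * b) by group, hconj, hb2, hz]
            group
      have mk : ∀ (q : G), q * (u * a * u⁻¹) * q⁻¹ = a → q * (u * b * u⁻¹) * q⁻¹ = b →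
          Commute a (q * u) ∧ Commute b (q * u) := by
        intro q h1 h2
        refine ⟨?_, ?_⟩
        · exact (mul_inv_eq_iff_eq_mul.1 (show q * u * a * (q * u)⁻¹ = a by
            conv_rhs => rw [← h1]
            group)).symm
        · exact (mul_inv_eq_iff_eq_mul.1 (show q * u * b * (q * u)⁻¹ = b by
            conv_rhs => rw [← h2]
            group)).symm
      rcases hpm u a ha with h1 | h1 <;> rcases hpm u b hb4 with h2 | h2
      · exact ⟨1, one_mem _, mk 1 (by rw [h1]; group) (by rw [h2]; group)⟩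
      · exact ⟨a, haQ, mk a (by rw [h1]; group) (by rw [h2]; exact haba)⟩
      · exact ⟨b, hbQ, mk b (by rw [h1]; exact hbab) (by rw [h2]; group)⟩
      · refine ⟨a * b, mul_mem haQ hbQ, mk _ ?_ ?_⟩
        · rw [h1, show a * b * a⁻¹ * (a * b)⁻¹ = a * (b * a⁻¹ * b⁻¹) * a⁻¹ by group, hbab, mul_inv_cancel_right]
        · rw [h2, show a * b * b⁻¹ * (a * b)⁻¹ = a * b⁻¹ * a⁻¹ by group, haba]
    have hj2 : ∃ i, orderOf (q * u) = 2 ^ i := by
      obtain ⟨i, hi⟩ := hQ8 q hq
      have hQn : Q.Normal := hn Q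
      have h8 : Nat.card Q = 2 ^ 3 := by
        rw [Nat.card_congr iso.toEquiv, Cfsg.Agent.TwoGroups.nat_card_quaternionGroup]; rfl
      -- modulo `Q` the element has the order of `u`
      have h1 : (q * u) ^ 2 ^ j ∈ Q := by
        rw [← QuotientGroup.eq_one_iff (N := Q), QuotientGroup.mk_pow, QuotientGroup.mk_mul,
          (QuotientGroup.eq_one_iff q).2 hq, one_mul, ← QuotientGroup.mk_pow, ← hj, pow_orderOf_eq_one,
          QuotientGroup.mk_one]
      obtain ⟨i', hi'⟩ := (Nat.dvd_prime_pow Nat.prime_two).1 (orderOf_dvd_of_pow_eq_one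
        (show (q * u) ^ 2 ^ (j + 3) = 1 by
          rw [pow_add, pow_mul, ← h8]
          exact orderOf_dvd_iff_pow_eq_one.1 (Subgroup.orderOf_dvd_natCard Q h1)))
      exact ⟨i', hi'.2⟩
    have hw := hcent (q * u) hj2 hqa' hqb'
    have hu : u = q⁻¹ * (q * u) := by group
    rw [hu]
    refine mul_mem (mem_sup_left (inv_mem hq)) ?_
    rcases hEV _ hw with h | h
    · exact mem_sup_right (mem_sup_left h)
    · have := mul_mem (show q * u * z ∈ Q ⊔ (E ⊔ A) from mem_sup_right (mem_sup_left h))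
        (show z⁻¹ ∈ Q ⊔ (E ⊔ A) from mem_sup_left (inv_mem (pow_mem haQ 2)))
      rwa [mul_inv_cancel_right] at this

end

/-- A finite non-abelian group in which every subgroup is normal is the internal direct product of a subgroup isomorphic to the quaternion group of order `8`, an elementary abelian `2`-subgroup and an abelian subgroup of odd order. -/
theorem result {G : Type*} [Group G] [Finite G] (hna : ¬ IsMulCommutative G) (hn : ∀ H : Subgroup G, H.Normal) : ∃ Q E A : Subgroup G, Nonempty (Q ≃* QuaternionGroup 2) ∧ Cfsg.IsElementaryAbelian 2 E ∧ IsMulCommutative A ∧ Odd (Nat.card A) ∧ E ⊓ A = ⊥ ∧ Q ⊓ (E ⊔ A) = ⊥ ∧ Q ⊔ (E ⊔ A) = ⊤ := by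
  exact main hn hna

end Cfsg.Agent.S4211
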