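import Cfsg.Statements.S4213
import Mathlib
import Cfsg.Agent.H77.FrobEquation

set_option autoImplicit false
open Cfsg

namespace Cfsg.Agent.S4213

universe u

theorem exists_elemAb {G : Type u} [Group G] [Finite G] [Nontrivial G] [Group.IsSolvable G] :
    ∃ (p : ℕ) (M : Subgroup G), p.Prime ∧ M.Normal ∧ M ≠ ⊥ ∧ (∀ x ∈ M, x ^ p = 1) ∧ IsPGroup p M := by
  classical
  obtain ⟨d, hd⟩ := Group.IsSolvable.solvable (G := G)
  have hex : ∃ j, derivedSeries G j = ⊥ := ⟨d, hd⟩
  set j := Nat.find hex with hj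
  have hj0 : j ≠ 0 := fun h => by
    have := Nat.find_spec hex
    rw [← hj, h, derivedSeries_zero] at this
    exact top_ne_bot this
  obtain ⟨i, hi⟩ : ∃ i, j = i + 1 := ⟨j - 1, by omega⟩
  set A := derivedSeries G i with hA
  have hA0 : A ≠ ⊥ := Nat.find_min hex (show i < j by omega)
  have hAc : ∀ x ∈ A, ∀ y ∈ A, Commute x y := by
    intro x hx y hy
    rw [← commutatorElement_eq_one_iff_commute]
    have h1 : derivedSeries G (i + 1) = ⊥ := hi ▸ Nat.find_spec hex
    rw [derivedSeries_succ] at h1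
    exact Subgroup.mem_bot.1 (h1 ▸ Subgroup.commutator_mem_commutator hx hy)
  obtain ⟨p, hp, hpd⟩ := Nat.exists_prime_and_dvd
    (fun h => hA0 (Subgroup.eq_bot_of_card_eq A h))
  have : Fact p.Prime := ⟨hp⟩
  let M : Subgroup G :=
    { carrier := {x | x ∈ A ∧ x ^ p = 1}
      one_mem' := ⟨one_mem _, one_pow _⟩
      mul_mem' := fun {x y} hx hy => ⟨mul_mem hx.1 hy.1, by rw [(hAc x hx.1 y hy.1).mul_pow, hx.2, hy.2, one_mul]⟩
      inv_mem' := fun {x} hx => ⟨inv_mem hx.1, by rw [inv_pow, hx.2, inv_one]⟩ }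
  refine ⟨p, M, hp, ⟨fun x hx g => ⟨(derivedSeries_normal G i).conj_mem x hx.1 g, by rw [conj_pow, hx.2]; simp⟩⟩,
    ?_, fun x hx => hx.2, fun x => ⟨1, Subtype.ext (by simpa using x.2.2)⟩⟩
  obtain ⟨x, hx⟩ := exists_prime_orderOf_dvd_card' (G := A) p hpd
  intro h
  have hxM : (x : G) ∈ M := ⟨x.2, by rw [← Subgroup.coe_pow, ← hx, pow_orderOf_eq_one, Subgroup.coe_one]⟩
  rw [h, Subgroup.mem_bot] at hxM
  rw [← Subgroup.orderOf_coe, hxM, orderOf_one] at hx
  exact hp.ne_one hx.symm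

theorem main : ∀ (g : ℕ) (G : Type u) [Group G] [Finite G] [Group.IsSolvable G], Nat.card G = g →
    ∀ (n : ℕ), n ∣ Nat.card G → Nat.card {x : G // x ^ n = 1} = n →
      ∃ H : Subgroup G, (H : Set G) = {x : G | x ^ n = 1} := by
  intro g
  induction g using Nat.strong_induction_on with
  | _ g ih =>
  intro G _ _ _ hg n hn hcount
  rcases subsingleton_or_nontrivial G with hs | hnt
  · exact ⟨⊤, Set.ext fun x => by simp [Subsingleton.elim x 1]⟩
  obtain ⟨p, M, hp, hMn, hM, hMp, hMpg⟩ := exists_elemAb (G := G)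
  have : Fact p.Prime := ⟨hp⟩
  obtain ⟨i, hi⟩ := IsPGroup.iff_card.1 hMpg
  have hi0 : i ≠ 0 := fun h => hM (Subgroup.eq_bot_of_card_eq M (by rw [hi, h, pow_zero]))
  have hG : Nat.card G = Nat.card (G ⧸ M) * p ^ i := by
    rw [← hi]; exact Subgroup.card_eq_card_quotient_mul_card_subgroup M
  have hQlt : Nat.card (G ⧸ M) < g := by
    rw [← hg, hG]
    exact lt_mul_of_one_lt_right Nat.card_pos (Nat.one_lt_pow hi0 hp.one_lt)
  have hsol : Group.IsSolvable (G ⧸ M) := inferInstance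
  -- solutions in the quotient and their preimages
  have key : ∀ m : ℕ, m ∣ Nat.card (G ⧸ M) →
      ∃ k, 0 < k ∧ Nat.card {y : G ⧸ M // y ^ m = 1} = k * m ∧
        Nat.card {x : G // (QuotientGroup.mk' M x) ^ m = 1} = k * m * p ^ i := by
    intro m hm
    have hm0 : 0 < m := Nat.pos_of_ne_zero fun h => (Nat.card_pos (α := G ⧸ M)).ne' (by
      rw [h] at hm; exact Nat.eq_zero_of_zero_dvd hm)
    have hd := Cfsg.Agent.H77.FrobEquation.gcd_dvd_one (G := G ⧸ M) m hm0
    rw [Nat.gcd_eq_left hm] at hd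
    obtain ⟨k, hk⟩ := hd
    have hpos : 0 < Nat.card {y : G ⧸ M // y ^ m = 1} :=
      Nat.card_pos_iff.2 ⟨⟨⟨1, one_pow m⟩⟩, inferInstance⟩
    refine ⟨k, Nat.pos_of_ne_zero fun h => by simp [hk, h] at hpos, by rw [hk, mul_comm], ?_⟩
    have h1 := Nat.card_congr (QuotientGroup.preimageMkEquivSubgroupProdSet M {y : G ⧸ M | y ^ m = 1})
    rw [Nat.card_prod, hi] at h1
    refine h1.trans ?_
    rw [mul_comm m k] at hk
    rw [mul_comm, ← hk]
    rfl
  -- the case where the preimage of the solutions consists of solutions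
  have finish : ∀ m : ℕ, m ∣ Nat.card (G ⧸ M) → m * p ∣ n → n ≤ m * p ^ i →
      ∃ H : Subgroup G, (H : Set G) = {x : G | x ^ n = 1} := by
    intro m hm hmp hnm
    obtain ⟨k, hk0, hk, hpre⟩ := key m hm
    have hsub : ∀ x : G, (QuotientGroup.mk' M x) ^ m = 1 → x ^ n = 1 := by
      intro x hx
      rw [← map_pow] at hx
      obtain ⟨r, rfl⟩ := hmp
      rw [pow_mul, pow_mul, hMp _ ((QuotientGroup.eq_one_iff _).1 hx), one_pow]
    let f : {x : G // (QuotientGroup.mk' M x) ^ m = 1} → {x : G // x ^ n = 1} := fun x => ⟨x.1, hsub x.1 x.2⟩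
    have hfi : Function.Injective f := fun a b h => Subtype.ext (congrArg (fun z => z.1) h)
    have hle := Nat.card_le_card_of_injective f hfi
    rw [hpre, hcount] at hle
    have hk1 : k = 1 := by
      by_contra hne
      have h2 : 2 * (m * p ^ i) ≤ k * m * p ^ i := by
        rw [mul_assoc k]; exact Nat.mul_le_mul_right _ (by omega)
      have hm0 : 0 < m := Nat.pos_of_ne_zero fun h => by
        rw [h] at hm; exact (Nat.card_pos (α := G ⧸ M)).ne' (Nat.eq_zero_of_zero_dvd hm)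
      have : 0 < m * p ^ i := Nat.mul_pos hm0 (pow_pos hp.pos i)
      omega
    rw [hk1, one_mul] at hk hle hpre
    have heq : Nat.card {x : G // (QuotientGroup.mk' M x) ^ m = 1} = Nat.card {x : G // x ^ n = 1} := by
      rw [hpre, hcount]; omega
    have hsurj : Function.Surjective f :=
      ((Nat.bijective_iff_injective_and_card f).2 ⟨hfi, heq⟩).2
    obtain ⟨H, hH⟩ := ih _ hQlt (G ⧸ M) rfl m hm hk
    refine ⟨H.comap (QuotientGroup.mk' M), Set.ext fun x => ?_⟩
    rw [SetLike.mem_coe, Subgroup.mem_comap, ← SetLike.mem_coe, hH]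
    refine ⟨hsub x, fun hx => ?_⟩
    obtain ⟨y, hy⟩ := hsurj ⟨x, hx⟩
    rw [← show y.1 = x from congrArg Subtype.val hy]
    exact y.2
  by_cases hpn : p ∣ n
  · have hn0 : n ≠ 0 := fun h => by
      rw [h] at hn; exact (Nat.card_pos (α := G)).ne' (Nat.eq_zero_of_zero_dvd hn)
    obtain ⟨j, n₁, hpn₁, rfl⟩ := Nat.exists_eq_pow_mul_and_not_dvd hn0 p hp.ne_one
    have hj0 : j ≠ 0 := fun h => hpn₁ (by rwa [h, pow_zero, one_mul] at hpn)
    rcases le_or_gt i j with hij | hij
    · refine finish (p ^ (j - i) * n₁) ?_ ?_ ?_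
      · have e : p ^ j * n₁ = p ^ i * (p ^ (j - i) * n₁) := by
          rw [← mul_assoc, ← pow_add, Nat.add_sub_cancel' hij]
        rw [e, hG, mul_comm (Nat.card (G ⧸ M))] at hn
        exact Nat.dvd_of_mul_dvd_mul_left (pow_pos hp.pos i) hn
      · have e : p ^ j * n₁ = p ^ (j - i) * n₁ * p ^ i := by
          rw [mul_comm _ n₁, mul_comm _ n₁, mul_assoc, ← pow_add, Nat.sub_add_cancel hij]
        rw [e]
        exact Nat.mul_dvd_mul_left _ (dvd_pow_self p hi0)
      · exact le_of_eq (by rw [mul_comm _ n₁, mul_comm _ n₁, mul_assoc, ← pow_add, Nat.sub_add_cancel hij])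
    · have hcop : n₁.Coprime (p ^ i) := ((hp.coprime_iff_not_dvd.2 hpn₁).pow_left i).symm
      refine finish n₁ (hcop.dvd_of_dvd_mul_right ((dvd_mul_left n₁ _).trans (hG ▸ hn))) ?_ ?_
      · rw [mul_comm n₁]; exact Nat.mul_dvd_mul_right (dvd_pow_self p hj0) n₁
      · rw [mul_comm n₁]; exact Nat.mul_le_mul_right _ (Nat.pow_le_pow_right hp.pos hij.le)
  · have hcop : n.Coprime p := (hp.coprime_iff_not_dvd.2 hpn).symm
    have hm : n ∣ Nat.card (G ⧸ M) := (hcop.pow_right i).dvd_of_dvd_mul_right (hG ▸ hn)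
    obtain ⟨k, hk0, hk, -⟩ := key n hm
    -- every solution in the quotient lifts
    let π := QuotientGroup.mk' M
    let f : {x : G // x ^ n = 1} → {y : G ⧸ M // y ^ n = 1} := fun x => ⟨π x.1, by rw [← map_pow, x.2, map_one]⟩
    have hfs : Function.Surjective f := by
      rintro ⟨y, hy⟩
      obtain ⟨x, rfl⟩ := QuotientGroup.mk'_surjective M y
      obtain ⟨a, b, hab⟩ := Nat.isCoprime_iff_coprime.2 hcop
      have hx : x ^ n ∈ M := (QuotientGroup.eq_one_iff _).1 (by rw [← hy]; rfl)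
      refine ⟨⟨x ^ (b * (p : ℤ)), ?_⟩, Subtype.ext ?_⟩
      · rw [← zpow_natCast, ← zpow_mul, show b * (p : ℤ) * (n : ℤ) = ((n * p : ℕ) : ℤ) * b by push_cast; ring,
          zpow_mul, zpow_natCast, pow_mul, hMp _ hx, one_zpow]
      · show π (x ^ (b * (p : ℤ))) = π x
        rw [map_zpow]
        conv_rhs => rw [← zpow_one (π x), ← hab, zpow_add, mul_comm a, zpow_mul, zpow_natCast,
          show π x ^ n = 1 from hy, one_zpow, one_mul]
    have hle := Nat.card_le_card_of_surjective f hfs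
    rw [hcount, hk] at hle
    have hn0 : 0 < n := Nat.pos_of_ne_zero fun h => hpn (h ▸ dvd_zero p)
    have hk1 : k = 1 := by
      by_contra hne
      have : 2 * n ≤ k * n := Nat.mul_le_mul_right _ (by omega)
      omega
    rw [hk1, one_mul] at hk
    obtain ⟨H, hH⟩ := ih _ hQlt (G ⧸ M) rfl n hm hk
    set T := H.comap π with hT
    have hHc : Nat.card H = n := by
      rw [← hk]
      exact Nat.card_congr (Equiv.setCongr hH)
    have hMT : M ≤ T := fun x hx => by
      rw [hT, Subgroup.mem_comap, show π x = 1 from (QuotientGroup.eq_one_iff x).2 hx]; exact one_mem _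
    have hTc : Nat.card T = n * p ^ i := by
      have h1 := Nat.card_congr (QuotientGroup.preimageMkEquivSubgroupProdSet M (H : Set (G ⧸ M)))
      rw [Nat.card_prod, hi] at h1
      rw [mul_comm, ← hHc]
      exact h1
    have hMc : Nat.card (M.subgroupOf T) = p ^ i := by
      rw [← hi]; exact Nat.card_congr (Subgroup.subgroupOfEquivOfLe hMT).toEquiv
    have hindex : (M.subgroupOf T).index = n := by
      have h2 := (M.subgroupOf T).card_mul_index
      rw [hMc, hTc, mul_comm n] at h2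
      exact Nat.eq_of_mul_eq_mul_left (pow_pos hp.pos i) h2
    obtain ⟨C, hC⟩ := Subgroup.exists_right_complement'_of_coprime (N := M.subgroupOf T)
      (by rw [hMc, hindex]; exact (hcop.pow_right i).symm)
    have hCc : Nat.card C = n := by rw [← hindex, hC.symm.index_eq_card]
    let g' : C → {x : G // x ^ n = 1} := fun c => ⟨((c : T) : G), by
      have : (c : T) ^ n = 1 := by
        rw [← hCc]
        exact orderOf_dvd_iff_pow_eq_one.1 (Subgroup.orderOf_coe c ▸ orderOf_dvd_natCard c)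
      rw [← Subgroup.coe_pow, this, Subgroup.coe_one]⟩
    have hgb : Function.Bijective g' := (Nat.bijective_iff_injective_and_card g').2
      ⟨fun a b h => Subtype.ext (Subtype.ext (congrArg (fun z => z.1) h)), by rw [hCc, hcount]⟩
    refine ⟨C.map T.subtype, Set.ext fun x => ⟨?_, fun hx => ?_⟩⟩
    · rintro ⟨c, hc, rfl⟩
      exact (g' ⟨c, hc⟩).2
    · obtain ⟨c, hc⟩ := hgb.2 ⟨x, hx⟩
      exact ⟨c.1, c.2, congrArg Subtype.val hc⟩

/-- If `G` is a finite solvable group and `n` divides the order of `G` and exactly `n` elements `x` of `G` satisfy `x^n = 1`, then these elements form a normal subgroup. -/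
theorem result {G : Type*} [Group G] [Finite G] [Group.IsSolvable G] (n : ℕ) (hn : n ∣ Nat.card G) (hcount : Nat.card {x : G // x ^ n = 1} = n) : ∃ H : Subgroup G, H.Normal ∧ (H : Set G) = {x : G | x ^ n = 1} := by
  obtain ⟨H, hH⟩ := main _ G rfl n hn hcount
  refine ⟨H, ⟨fun x hx g => ?_⟩, hH⟩
  rw [← SetLike.mem_coe, hH] at hx ⊢
  show (g * x * g⁻¹) ^ n = 1
  rw [conj_pow, show x ^ n = 1 from hx]
  simp

end Cfsg.Agent.S4213
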