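import Cfsg.Statements.S4214
import Cfsg.Agent.Lib.MinimalNormal
import Cfsg.Agent.S0003
import Cfsg.Agent.S0004

set_option autoImplicit false
open Cfsg

namespace Cfsg.Agent.S4214

universe u

open scoped Pointwise

section
open Subgroup

variable {G : Type u} [Group G] [Finite G]

theorem card_inf_mul_relIndex (H K : Subgroup G) :
    Nat.card ↥(H ⊓ K) * H.relIndex K = Nat.card K := by
  have h := Subgroup.relIndex_mul_relIndex (⊥ : Subgroup G) (H ⊓ K) K bot_le inf_le_right
  rwa [relIndex_bot_left, relIndex_bot_left, inf_relIndex_right] at h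

theorem relIndex_sup_normal (H N : Subgroup G) [N.Normal] :
    H.relIndex (H ⊔ N) = H.relIndex N := by
  have h1 := card_inf_mul_relIndex H (H ⊔ N)
  rw [inf_eq_left.2 le_sup_left] at h1
  have h2 := card_inf_mul_relIndex N (H ⊔ N)
  rw [inf_eq_left.2 le_sup_right, relIndex_sup_right] at h2
  have h3 := card_inf_mul_relIndex H N
  have h4 := card_inf_mul_relIndex N H
  rw [inf_comm] at h4
  have hpos : 0 < Nat.card H := Nat.card_pos
  refine Nat.eq_of_mul_eq_mul_left hpos ?_
  rw [h1, ← h2]
  calc Nat.card N * N.relIndex H = (Nat.card ↥(H ⊓ N) * N.relIndex H) * H.relIndex N := by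
        rw [← h3]; ring
    _ = Nat.card H * H.relIndex N := by rw [h4]

/-- Coprime action: the index of the centraliser is a product of numbers `≡ 1` modulo primes. -/
theorem act (N : Subgroup G) {q : ℕ} (hq : q.Prime) (hN : IsPGroup q N) :
    ∀ (c : ℕ) (K : Subgroup G), Nat.card K = c → Group.IsSolvable K →
      (∀ k ∈ K, ∀ x ∈ N, k * x * k⁻¹ ∈ N) → ¬ q ∣ Nat.card K →
      ∃ L : List ℕ, L.prod = (centralizer (K : Set G)).relIndex N ∧
        ∀ x ∈ L, (∃ e, x = q ^ e) ∧ x ∣ Nat.card N ∧
          ∃ r : ℕ, r.Prime ∧ r ∣ Nat.card K ∧ x ≡ 1 [MOD r] := by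
  intro c
  induction c using Nat.strong_induction_on with
  | _ c ih =>
    intro K hc hsol hnorm hqK
    by_cases hK : K = ⊥
    · refine ⟨[], ?_, fun x hx => absurd hx List.not_mem_nil⟩
      rw [List.prod_nil, eq_comm, relIndex_eq_one]
      intro x _
      rw [mem_centralizer_iff]
      intro k hk
      rw [hK, SetLike.mem_coe, mem_bot] at hk
      simp [hk]
    haveI := hsol
    haveI : Nontrivial K := (nontrivial_iff_ne_bot K).2 hK
    obtain ⟨C, hC, hCle⟩ := (eq_top_or_exists_le_coatom (commutator K)).resolve_left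
      (Group.IsSolvable.commutator_lt_top_of_nontrivial K).ne
    haveI hCn : C.Normal := ⟨fun x hx g => by
      have h := C.mul_mem (hCle (commutator_mem_commutator (mem_top g) (mem_top x))) hx
      simpa [commutatorElement_def, mul_assoc] using h⟩
    have hidx1 : C.index ≠ 1 := fun h => hC.1 (index_eq_one.1 h)
    obtain ⟨r, hr, hrd⟩ := Nat.exists_prime_and_dvd hidx1
    haveI := Fact.mk hr
    have hCr : C.index = r := by
      obtain ⟨y, hy⟩ := exists_prime_orderOf_dvd_card' (G := K ⧸ C) r (by rwa [← index_eq_card])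
      have hlt : C < (zpowers y).comap (QuotientGroup.mk' C) := by
        obtain ⟨z, rfl⟩ := QuotientGroup.mk'_surjective C y
        refine lt_of_le_of_ne (fun m hm => ?_) (fun h => ?_)
        · rw [mem_comap, show QuotientGroup.mk' C m = 1 from (QuotientGroup.eq_one_iff m).mpr hm]
          exact one_mem _
        · have hz : z ∈ C := by rw [h, mem_comap]; exact mem_zpowers _
          rw [QuotientGroup.mk'_apply, (QuotientGroup.eq_one_iff z).mpr hz, orderOf_one] at hy
          exact hr.ne_one hy.symm
      have htop := congrArg (map (QuotientGroup.mk' C)) (hC.2 _ hlt)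
      rw [map_comap_eq_self_of_surjective (QuotientGroup.mk'_surjective C),
        map_top_of_surjective _ (QuotientGroup.mk'_surjective C)] at htop
      rw [index_eq_card, ← card_top (G := K ⧸ C), ← htop, Nat.card_zpowers, hy]
    set M : Subgroup G := C.map K.subtype with hMdef
    have hMK : M ≤ K := map_subtype_le C
    have hMc : Nat.card M * r = Nat.card K := by
      rw [hMdef, card_map_of_injective K.subtype_injective, ← hCr, card_mul_index]
    have hlt : Nat.card M < c := by
      rw [← hc, ← hMc]; exact lt_mul_of_one_lt_right Nat.card_pos hr.one_lt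
    obtain ⟨L, hL, hLx⟩ := ih _ hlt M rfl (Group.isSolvable_of_isSolvable_injective
      (f := Subgroup.inclusion hMK) (inclusion_injective hMK)) (fun k hk => hnorm k (hMK hk))
      (fun h => hqK (h.trans (Dvd.intro r hMc)))
    set A : Subgroup G := N ⊓ centralizer (M : Set G) with hA
    set B : Subgroup G := N ⊓ centralizer (K : Set G) with hB
    have hBA : B ≤ A := inf_le_inf_left N (centralizer_le hMK)
    obtain ⟨P⟩ : Nonempty (Sylow r K) := inferInstance
    have hgen : C ⊔ (P : Subgroup K) = ⊤ := by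
      rw [← index_eq_one]
      rcases (Nat.dvd_prime hr).1 (hCr ▸ index_dvd_of_le (le_sup_left : C ≤ C ⊔ P)) with h | h
      · exact h
      · exfalso
        exact P.not_dvd_index ((dvd_of_eq h.symm).trans (index_dvd_of_le le_sup_right))
    have hconjA : ∀ k ∈ K, ∀ x ∈ A, k * x * k⁻¹ ∈ A := by
      intro k hk x hx
      refine ⟨hnorm k hk x hx.1, ?_⟩
      show k * x * k⁻¹ ∈ centralizer (M : Set G)
      rw [mem_centralizer_iff]
      rintro _ ⟨z, hz, rfl⟩
      have h1 := mem_centralizer_iff.1 hx.2 _ (mem_map_of_mem K.subtype (hCn.conj_mem z hz ⟨k, hk⟩⁻¹))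
      simp only [coe_subtype, Subgroup.coe_mul, Subgroup.coe_inv, inv_inv] at h1 ⊢
      have h2 := congrArg (fun t => k * t * k⁻¹) h1
      simpa [mul_assoc] using h2
    let act : MulAction (P : Subgroup K) A :=
      { smul := fun g x => ⟨((g : K) : G) * x * ((g : K) : G)⁻¹, hconjA _ g.1.2 _ x.2⟩
        one_smul := fun x => Subtype.ext (by
          show ((((1 : (P : Subgroup K)) : K)) : G) * x * _ = _
          simp)
        mul_smul := fun g h x => Subtype.ext (by
          show (((g * h : (P : Subgroup K)) : K) : G) * x * _ = _ * (_ * _ * _) * _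
          simp [mul_assoc]) }
    have hmod : Nat.card A ≡ Nat.card B [MOD r] := by
      letI := act
      refine (P.2.card_modEq_card_fixedPoints A).trans ?_
      refine (?_ : Nat.card (MulAction.fixedPoints (P : Subgroup K) A) = Nat.card B) ▸ rfl
      refine Nat.card_congr
        { toFun := fun x => ⟨x.1.1, x.1.2.1, ?_⟩
          invFun := fun x => ⟨⟨x.1, hBA x.2⟩, fun g => Subtype.ext ?_⟩
          left_inv := fun _ => rfl
          right_inv := fun _ => rfl }
      · show x.1.1 ∈ centralizer (K : Set G)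
        rw [mem_centralizer_iff]
        intro k hk
        have hle : C ⊔ (P : Subgroup K) ≤
            (centralizer ({x.1.1} : Set G)).comap K.subtype := by
          refine sup_le (fun z hz => ?_) (fun g hg => ?_)
          · rw [mem_comap, mem_centralizer_singleton_iff]
            exact mem_centralizer_iff.1 x.1.2.2 _ (mem_map_of_mem K.subtype hz)
          · rw [mem_comap, mem_centralizer_singleton_iff]
            have h : ((g : K) : G) * x.1.1 * ((g : K) : G)⁻¹ = x.1.1 :=
              congrArg Subtype.val (x.2 ⟨g, hg⟩)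
            exact mul_inv_eq_iff_eq_mul.1 h
        exact mem_centralizer_singleton_iff.1 (hle (hgen ▸ mem_top (⟨k, hk⟩ : K)))
      · show ((g : K) : G) * x.1 * ((g : K) : G)⁻¹ = x.1
        rw [mem_centralizer_iff.1 x.2.2 _ g.1.2, mul_inv_cancel_right]
    have hrel : Nat.card B * B.relIndex A = Nat.card A := by
      have h := card_inf_mul_relIndex B A
      rwa [inf_eq_left.2 hBA] at h
    haveI := Fact.mk hq
    obtain ⟨a, ha⟩ := IsPGroup.iff_card.1 (hN.to_le (inf_le_left : A ≤ N))
    obtain ⟨b, hb⟩ := IsPGroup.iff_card.1 (hN.to_le (inf_le_left : B ≤ N))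
    have hrq : r ≠ q := fun h => hqK (h ▸ Dvd.intro_left _ hMc)
    have hx1 : B.relIndex A ≡ 1 [MOD r] := by
      have h1 : Nat.card B * B.relIndex A ≡ Nat.card B * 1 [MOD r] := by
        rw [hrel, mul_one]; exact hmod
      refine Nat.ModEq.cancel_left_of_coprime ?_ h1
      rw [hb, ← Nat.coprime_iff_gcd_eq_one]
      exact Nat.Coprime.pow_right b ((Nat.coprime_primes hr hq).2 hrq)
    refine ⟨B.relIndex A :: L, ?_, fun x hx => ?_⟩
    · rw [List.prod_cons, hL]
      have e1 : (centralizer (M : Set G)).relIndex N = A.relIndex N := by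
        rw [hA, inf_comm, inf_relIndex_right]
      have e2 : (centralizer (K : Set G)).relIndex N = B.relIndex N := by
        rw [hB, inf_comm, inf_relIndex_right]
      rw [e1, e2]
      exact relIndex_mul_relIndex B A N hBA inf_le_left
    · rcases List.mem_cons.1 hx with rfl | hx
      · have hd : B.relIndex A ∣ q ^ a := by rw [← ha, ← hrel]; exact dvd_mul_left _ _
        obtain ⟨e, -, he⟩ := (Nat.dvd_prime_pow hq).1 hd
        exact ⟨⟨e, he⟩, ((ha ▸ hd : B.relIndex A ∣ Nat.card A)).trans
          (card_dvd_of_le inf_le_left), r, hr, Dvd.intro_left _ hMc, hx1⟩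
      · obtain ⟨h1, h2, s, hs, hsd, hs1⟩ := hLx x hx
        exact ⟨h1, h2, s, hs, hsd.trans (Dvd.intro r hMc), hs1⟩

theorem count_eq_index (m : ℕ) {H : Subgroup G} (hH : Nat.card H = m)
    (hconj : ∀ K : Subgroup G, Nat.card K = m → ∃ g : G, MulAut.conj g • H = K) :
    Nat.card {K : Subgroup G // Nat.card K = m} = (normalizer (H : Set G)).index := by
  rw [index_eq_card]
  symm
  let f : G ⧸ normalizer (H : Set G) → {K : Subgroup G // Nat.card K = m} :=
    Quotient.lift (fun g : G => ⟨MulAut.conj g • H, by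
      rw [← hH]; exact card_map_of_injective (MulEquiv.injective _)⟩)
      (fun a b hab => by
        have h : a⁻¹ * b ∈ normalizer (H : Set G) := QuotientGroup.leftRel_apply.1 hab
        have h1 : MulAut.conj (a⁻¹ * b) • H = H := mem_normalizer_iff_map_conj_eq.1 h
        refine Subtype.ext ?_
        show MulAut.conj a • H = MulAut.conj b • H
        rw [map_mul, mul_smul, map_inv, inv_smul_eq_iff] at h1
        exact h1.symm)
  refine Nat.card_eq_of_bijective f ⟨?_, ?_⟩
  · rintro ⟨a⟩ ⟨b⟩ h
    have h' : MulAut.conj a • H = MulAut.conj b • H := congrArg Subtype.val h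
    refine Quotient.sound (QuotientGroup.leftRel_apply.2 (mem_normalizer_iff_map_conj_eq.2 ?_))
    show MulAut.conj (a⁻¹ * b) • H = H
    rw [map_mul, mul_smul, ← h', map_inv, inv_smul_smul]
  · rintro ⟨K, hK⟩
    obtain ⟨g, hg⟩ := hconj K hK
    exact ⟨QuotientGroup.mk g, Subtype.ext hg⟩

theorem main (c : ℕ) : ∀ (G : Type u) [Group G] [Finite G] [Group.IsSolvable G],
    Nat.card G = c → ∀ m n : ℕ, Nat.card G = m * n → Nat.Coprime m n →
    ∃ L : List ℕ, Nat.card {H : Subgroup G // Nat.card H = m} = L.prod ∧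
      ∀ x ∈ L, (∃ q e : ℕ, q.Prime ∧ x = q ^ e) ∧
        (∃ K L : Subgroup G, K.Normal ∧ L.Normal ∧ K < L ∧
          (∀ M : Subgroup G, M.Normal → K ≤ M → M ≤ L → M = K ∨ M = L) ∧ x ∣ K.relIndex L) ∧
        (∃ q : ℕ, q.Prime ∧ q ∣ m ∧ x ≡ 1 [MOD q]) := by
  induction c using Nat.strong_induction_on with
  | _ c ih =>
    intro G _ _ _ hc m n hG hmn
    rcases subsingleton_or_nontrivial G with hs | hnt
    · refine ⟨[], ?_, fun x hx => absurd hx List.not_mem_nil⟩
      have h1 : Nat.card G = 1 := Nat.card_of_subsingleton 1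
      have hm : m = 1 := Nat.eq_one_of_mul_eq_one_right (hG ▸ h1)
      rw [List.prod_nil, Nat.card_congr (Equiv.subtypeEquivRight (q := fun H : Subgroup G => H = ⊥)
        fun H => by rw [hm]; exact card_eq_one)]
      exact Nat.card_unique
    obtain ⟨N, hNn, hNne, hmin, hNcomm, q, hq, -, hNp⟩ :=
      Cfsg.Agent.MinNormal.exists_elementary_abelian (G := G)
    haveI := hNn
    haveI := Fact.mk hq
    obtain ⟨e, he⟩ := IsPGroup.iff_card.1 hNp
    set π := QuotientGroup.mk' N with hπ
    have hπs : Function.Surjective π := QuotientGroup.mk'_surjective N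
    have hQ : Nat.card G = Nat.card (G ⧸ N) * Nat.card N :=
      Subgroup.card_eq_card_quotient_mul_card_subgroup N
    have hNpos : 1 < Nat.card N := Finite.one_lt_card_iff_nontrivial.2 ((nontrivial_iff_ne_bot N).2 hNne)
    have hlt : Nat.card (G ⧸ N) < c := by
      rw [← hc, hQ]; exact lt_mul_of_one_lt_right Nat.card_pos hNpos
    have lift : ∀ {x : ℕ} {K L : Subgroup (G ⧸ N)}, K.Normal → L.Normal → K < L →
        (∀ M : Subgroup (G ⧸ N), M.Normal → K ≤ M → M ≤ L → M = K ∨ M = L) → x ∣ K.relIndex L →
        ∃ K L : Subgroup G, K.Normal ∧ L.Normal ∧ K < L ∧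
          (∀ M : Subgroup G, M.Normal → K ≤ M → M ≤ L → M = K ∨ M = L) ∧ x ∣ K.relIndex L := by
      intro x K L hK hL hKL hmax hx
      refine ⟨K.comap π, L.comap π, hK.comap π, hL.comap π,
        (comap_lt_comap_of_surjective hπs).2 hKL, fun M hM h1 h2 => ?_, ?_⟩
      · have hMN : N ≤ M := le_trans (fun y hy => by
          rw [mem_comap, show π y = 1 from (QuotientGroup.eq_one_iff y).2 hy]
          exact one_mem K) h1
        have hMeq : (M.map π).comap π = M := by
          rw [comap_map_eq, QuotientGroup.ker_mk', sup_eq_left.2 hMN]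
        rcases hmax (M.map π) (hM.map π hπs)
          (by rw [← map_comap_eq_self_of_surjective hπs K]; exact map_mono h1)
          (by rw [← map_comap_eq_self_of_surjective hπs L]; exact map_mono h2) with h | h
        · left; rw [← h, hMeq]
        · right; rw [← h, hMeq]
      · rwa [relIndex_comap, map_comap_eq_self_of_surjective hπs]
    by_cases hqm : q ∣ m
    · -- the minimal normal subgroup lies in every Hall subgroup
      have hqn : ¬ q ∣ n := fun h => hq.ne_one (Nat.eq_one_of_dvd_coprimes hmn hqm h)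
      have hNn' : Nat.Coprime (Nat.card N) n := by
        rw [he]; exact Nat.Coprime.pow_left e (hq.coprime_iff_not_dvd.2 hqn)
      have hNm : Nat.card N ∣ m := hNn'.dvd_of_dvd_mul_right (hG ▸ card_subgroup_dvd_card N)
      obtain ⟨m', hm'⟩ := hNm
      have hle : ∀ H : Subgroup G, Nat.card H = m → N ≤ H := by
        intro H hH
        have h1 := card_inf_mul_relIndex H (H ⊔ N)
        rw [inf_eq_left.2 le_sup_left, relIndex_sup_normal] at h1
        have h2 : H.relIndex N ∣ Nat.card N :=
          ⟨Nat.card ↥(H ⊓ N), by rw [mul_comm]; exact (card_inf_mul_relIndex H N).symm⟩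
        have h3 : m * H.relIndex N ∣ m * n := by
          rw [← hG, ← hH, h1]; exact card_subgroup_dvd_card _
        have h4 : H.relIndex N ∣ n :=
          Nat.dvd_of_mul_dvd_mul_left (hH ▸ Nat.card_pos) h3
        exact relIndex_eq_one.1 (Nat.eq_one_of_dvd_coprimes hNn' h2 h4)
      have hG' : Nat.card (G ⧸ N) = m' * n := by
        refine Nat.eq_of_mul_eq_mul_right (by omega : 0 < Nat.card N) ?_
        rw [← hQ, hG, hm']; ring
      obtain ⟨L, hL, hLx⟩ := ih _ hlt (G ⧸ N) rfl m' n hG'
        (Nat.Coprime.coprime_dvd_left (Dvd.intro_left _ hm'.symm) hmn)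
      have hcard : ∀ K : Subgroup (G ⧸ N), Nat.card (K.comap π) = Nat.card N * Nat.card K := by
        intro K
        have h := (K.comap π).card_mul_index
        rw [index_comap_of_surjective K hπs, hQ, ← K.card_mul_index] at h
        refine Nat.eq_of_mul_eq_mul_right (Nat.pos_of_ne_zero K.index_ne_zero_of_finite) ?_
        rw [h]; ring
      refine ⟨L, ?_, fun x hx => ?_⟩
      · rw [← hL]
        refine Nat.card_congr
          { toFun := fun H => ⟨H.1.map π, ?_⟩
            invFun := fun K => ⟨K.1.comap π, by rw [hcard, K.2, hm']⟩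
            left_inv := fun H => Subtype.ext (by
              show (H.1.map π).comap π = H.1
              rw [comap_map_eq, QuotientGroup.ker_mk', sup_eq_left.2 (hle H.1 H.2)])
            right_inv := fun K => Subtype.ext (map_comap_eq_self_of_surjective hπs K.1) }
        have h := hcard (H.1.map π)
        rw [comap_map_eq, QuotientGroup.ker_mk', sup_eq_left.2 (hle H.1 H.2)] at h
        exact Nat.eq_of_mul_eq_mul_left (by omega) (h.symm.trans (H.2.trans hm'))
      · obtain ⟨h1, ⟨K, L', hK, hL', hKL, hmax, hd⟩, s, hs, hsd, hs1⟩ := hLx x hx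
        exact ⟨h1, lift hK hL' hKL hmax hd, s, hs, hsd.trans (Dvd.intro_left _ hm'.symm), hs1⟩
    -- the minimal normal subgroup is disjoint from every Hall subgroup
    have hNm : Nat.Coprime (Nat.card N) m := by
      rw [he]; exact Nat.Coprime.pow_left e (hq.coprime_iff_not_dvd.2 hqm)
    obtain ⟨n', hn'⟩ : Nat.card N ∣ n := hNm.dvd_of_dvd_mul_left (hG ▸ card_subgroup_dvd_card N)
    obtain ⟨H, hH⟩ := Cfsg.Agent.S0003.result (G := G) m n hG hmn
    have hHN : H ⊓ N = ⊥ := inf_eq_bot_of_coprime (hH.symm ▸ hNm.symm)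
    set Hb := H.map π with hHb
    have hmapc : ∀ K : Subgroup G, Nat.card K = m → Nat.card (K.map π) = m := by
      intro K hK
      have hKN : K ⊓ N = ⊥ := inf_eq_bot_of_coprime (hK.symm ▸ hNm.symm)
      rw [← hK]
      refine (Nat.card_congr (Equiv.ofBijective
        (fun x : K => (⟨π x, mem_map_of_mem π x.2⟩ : K.map π)) ⟨fun a b h => ?_, ?_⟩)).symm
      · have h' : π ((a : G)⁻¹ * b) = 1 := by
          rw [map_mul, map_inv, inv_mul_eq_one]; exact congrArg Subtype.val h
        have h2 : (a : G)⁻¹ * b ∈ K ⊓ N :=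
          ⟨K.mul_mem (K.inv_mem a.2) b.2, (QuotientGroup.eq_one_iff _).1 h'⟩
        rw [hKN, mem_bot, inv_mul_eq_one] at h2
        exact Subtype.ext h2
      · rintro ⟨_, y, hy, rfl⟩; exact ⟨⟨y, hy⟩, rfl⟩
    have hHbc : Nat.card Hb = m := hmapc H hH
    have hG' : Nat.card (G ⧸ N) = m * n' := by
      refine Nat.eq_of_mul_eq_mul_right (by omega : 0 < Nat.card N) ?_
      rw [← hQ, hG, hn']; ring
    have hmn' : Nat.Coprime m n' := Nat.Coprime.coprime_dvd_right (Dvd.intro_left _ hn'.symm) hmn
    obtain ⟨L, hL, hLx⟩ := ih _ hlt (G ⧸ N) rfl m n' hG' hmn'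
    have hcount := count_eq_index m hH (fun K hK => Cfsg.Agent.S0004.result m n hG hmn H K hH hK)
    have hcount' := count_eq_index m hHbc
      (fun K hK => Cfsg.Agent.S0004.result m n' hG' hmn' Hb K hHbc hK)
    -- Frattini argument
    have hnorm : (normalizer (H : Set G)).map π = normalizer (Hb : Set (G ⧸ N)) := by
      apply le_antisymm
      · rintro _ ⟨g, hg, rfl⟩
        rw [mem_normalizer_iff_map_conj_eq, hHb, map_map]
        have h : ((MulAut.conj (π g) : MulAut (G ⧸ N)) : (G ⧸ N) →* (G ⧸ N)).comp π =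
            π.comp ((MulAut.conj g : MulAut G) : G →* G) := by
          ext y; simp
        rw [h, ← map_map]
        congr 1
        exact mem_normalizer_iff_map_conj_eq.1 hg
      · intro y hy
        obtain ⟨g, rfl⟩ := hπs y
        set T := Hb.comap π with hT
        have hHT : H ≤ T := le_comap_map π H
        have hH'T : MulAut.conj g • H ≤ T := by
          rintro _ ⟨x, hx, rfl⟩
          rw [hT, mem_comap]
          show π (g * x * g⁻¹) ∈ Hb
          rw [map_mul, map_mul, map_inv]
          exact (mem_normalizer_iff.1 hy _).1 (mem_map_of_mem π hx)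
        have hTc : Nat.card T = m * Nat.card N := by
          have h := T.card_mul_index
          rw [hT, index_comap_of_surjective Hb hπs, hQ, ← Hb.card_mul_index, hHbc] at h
          refine Nat.eq_of_mul_eq_mul_right (Nat.pos_of_ne_zero Hb.index_ne_zero_of_finite) ?_
          rw [hT, h]; ring
        obtain ⟨t, ht⟩ := Cfsg.Agent.S0004.result (G := T) m (Nat.card N) hTc hNm.symm
          (H.subgroupOf T) ((MulAut.conj g • H).subgroupOf T)
          (by rw [Nat.card_congr (subgroupOfEquivOfLe hHT).toEquiv, hH])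
          (by
            rw [Nat.card_congr (subgroupOfEquivOfLe hH'T).toEquiv, ← hH]
            exact card_map_of_injective (MulEquiv.injective _))
        have hTG : MulAut.conj (t : G) • H = MulAut.conj g • H := by
          have h := congrArg (map T.subtype) ht
          rw [map_subgroupOf_eq_of_le hH'T] at h
          rw [← h]
          conv_lhs => rw [← map_subgroupOf_eq_of_le hHT]
          show ((H.subgroupOf T).map T.subtype).map (MulAut.conj (t : G)).toMonoidHom =
            ((H.subgroupOf T).map (MulAut.conj t).toMonoidHom).map T.subtype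
          rw [map_map, map_map]
          congr 1
        have hgt : (t : G)⁻¹ * g ∈ normalizer (H : Set G) := by
          refine mem_normalizer_iff_map_conj_eq.2 ?_
          show MulAut.conj ((t : G)⁻¹ * g) • H = H
          rw [map_mul, mul_smul, ← hTG, map_inv, inv_smul_smul]
        obtain ⟨x, hx, hxe⟩ := mem_map.1 (show π t ∈ H.map π from t.2)
        have hxN : x ∈ normalizer (H : Set G) := le_normalizer hx
        refine mem_map.2 ⟨x * ((t : G)⁻¹ * g), mul_mem hxN hgt, ?_⟩
        rw [map_mul, hxe, ← map_mul, mul_inv_cancel_left]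
    have hsplit : (normalizer (H : Set G)).index =
        (normalizer (Hb : Set (G ⧸ N))).index * (centralizer (H : Set G)).relIndex N := by
      rw [← hnorm, index_map, MonoidHom.range_eq_top.2 hπs, index_top, mul_one,
        QuotientGroup.ker_mk']
      have h1 : (normalizer (H : Set G)).relIndex N = (centralizer (H : Set G)).relIndex N := by
        rw [← inf_relIndex_right, ← inf_relIndex_right (centralizer (H : Set G))]
        congr 1
        refine le_antisymm (fun x hx => ?_) (inf_le_inf_right _ (centralizer_le_normalizer _))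
        refine mem_inf.2 ⟨?_, hx.2⟩
        · rw [mem_centralizer_iff]
          intro h hh
          have h1 : h * x * h⁻¹ * x⁻¹ ∈ H := by
            have := (mem_normalizer_iff.1 hx.1 h⁻¹).1 (H.inv_mem hh)
            simpa [mul_assoc] using H.mul_mem hh this
          have h2 : h * x * h⁻¹ * x⁻¹ ∈ N :=
            N.mul_mem (hNn.conj_mem x hx.2 h) (N.inv_mem hx.2)
          have h3 : h * x * h⁻¹ * x⁻¹ ∈ H ⊓ N := ⟨h1, h2⟩
          rw [hHN, mem_bot, mul_inv_eq_one, mul_inv_eq_iff_eq_mul] at h3
          exact h3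
      rw [← relIndex_mul_index (le_sup_left : normalizer (H : Set G) ≤ _ ⊔ N),
        relIndex_sup_normal, h1, mul_comm]
    obtain ⟨L', hL', hL'x⟩ := act N hq hNp _ H rfl inferInstance
      (fun k _ x hx => hNn.conj_mem x hx k) (hH.symm ▸ hqm)
    refine ⟨L' ++ L, ?_, fun x hx => ?_⟩
    · rw [List.prod_append, hcount, hsplit, ← hcount', hL, hL', mul_comm]
    · rcases List.mem_append.1 hx with hx | hx
      · obtain ⟨⟨i, hi⟩, hd, s, hs, hsd, hs1⟩ := hL'x x hx
        refine ⟨⟨q, i, hq, hi⟩, ⟨⊥, N, inferInstance, hNn, bot_lt_iff_ne_bot.2 hNne,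
          fun M hM _ h => hmin M hM h, by rwa [relIndex_bot_left]⟩, s, hs, hH ▸ hsd, hs1⟩
      · obtain ⟨h1, ⟨K, L'', hK, hL'', hKL, hmax, hd⟩, h3⟩ := hLx x hx
        exact ⟨h1, lift hK hL'' hKL hmax hd, h3⟩

end

/-- Let `G` be a finite solvable group of order `mn` with `gcd(m, n) = 1`. Then the number of subgroups of order `m` is a product of natural numbers each of which is a power of a prime, divides the order of some chief factor of `G` (a quotient `L/K` of normal subgroups `K < L` of `G` with no normal subgroup of `G` strictly between them), and is congruent to `1` modulo some prime divisor of `m`. -/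
theorem result {G : Type*} [Group G] [Finite G] [Group.IsSolvable G] (m n : ℕ) (hG : Nat.card G = m * n) (hmn : Nat.Coprime m n) : ∃ (k : ℕ) (f : Fin k → ℕ), Nat.card {H : Subgroup G // Nat.card H = m} = ∏ i, f i ∧ ∀ i, (∃ q e : ℕ, q.Prime ∧ f i = q ^ e) ∧ (∃ K L : Subgroup G, K.Normal ∧ L.Normal ∧ K < L ∧ (∀ M : Subgroup G, M.Normal → K ≤ M → M ≤ L → M = K ∨ M = L) ∧ f i ∣ K.relIndex L) ∧ (∃ q : ℕ, q.Prime ∧ q ∣ m ∧ f i ≡ 1 [MOD q]) := by
  obtain ⟨L, hL, hLx⟩ := main _ G rfl m n hG hmn
  refine ⟨L.length, fun i => L[(i : ℕ)], ?_, fun i => hLx _ (List.getElem_mem i.2)⟩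
  rw [hL]
  exact (Fin.prod_univ_getElem L).symm

end Cfsg.Agent.S4214
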