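import Cfsg.Statements.S4215
import Cfsg.Agent.S2792
import Cfsg.Agent.Transfer.Residual
import Cfsg.Agent.Transfer.Tate
import Cfsg.Prelude.Def_BaumannBlocks
import Mathlib

set_option autoImplicit false
open Cfsg

namespace Cfsg.Agent.S4215

open Subgroup

theorem le_normalizer_weak {G : Type*} [Group G] [Finite G] {p : ℕ} [Fact p.Prime] (P : Sylow p G)
    {Q : Subgroup G} (hQ : Cfsg.IsWeaklyClosed Q (P : Subgroup G)) :
    (P : Subgroup G) ≤ normalizer (Q : Set G) := fun s hs =>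
  Subgroup.mem_normalizer_iff_map_conj_eq.2 (hQ.2 s (by
    rintro _ ⟨w, hw, rfl⟩
    exact mul_mem (mul_mem hs (hQ.1 hw)) (inv_mem hs)))

theorem hall_wielandt {G : Type*} [Group G] [Finite G] {p : ℕ} [Fact p.Prime] (P : Sylow p G) (Q : Subgroup G)
    (hQ : Cfsg.IsWeaklyClosed Q (P : Subgroup G))
    (h : ∀ u ∈ (P : Subgroup G), ∀ z ∈ Q, (fun y : G => y⁻¹ * z⁻¹ * y * z)^[p - 1] u = 1) :
    Cfsg.pResidualOf p (normalizer (Q : Set G)) = Cfsg.pResidual p G ⊓ normalizer (Q : Set G) := by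
  set H := normalizer (Q : Set G) with hH
  have hPH : (P : Subgroup G) ≤ H := le_normalizer_weak P hQ
  have htr : (P : Subgroup G) ⊓ commutator G = (P : Subgroup G) ⊓ ⁅H, H⁆ := by
    by_contra hne
    obtain ⟨x, hx, z, hz, W₀, -, -, h3⟩ := Cfsg.Agent.S2792.result P Q hQ hne
    rw [h x hx z hz] at h3
    exact h3 (one_mem _)
  have hres := Cfsg.Agent.Transfer.sylow_inf_pResidual_eq_of_transfer_control P hPH
    (le_trans (le_of_eq (by rw [inf_comm, htr])) inf_le_right)
  refine le_antisymm (le_inf (Cfsg.Agent.Transfer.map_pResidual_le H.subtype) (Subgroup.map_subtype_le _)) ?_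
  intro g hg
  obtain ⟨hgR, hgH⟩ := Subgroup.mem_inf.1 hg
  obtain ⟨w, hw, y, hy, he⟩ := Cfsg.Agent.Transfer.exists_mul_eq_of_not_dvd_index (p := p)
    (P.subtype hPH).not_dvd_index (⟨g, hgH⟩ : H)
  have e : (w : G) * y = g := by
    have := congrArg Subtype.val he
    simpa using this
  have hw' : (w : G) ∈ Cfsg.pResidual p G :=
    Cfsg.Agent.Transfer.map_pResidual_le H.subtype (Subgroup.mem_map_of_mem _ hw)
  have hy' : (y : G) ∈ (P : Subgroup G) ⊓ Cfsg.pResidual p G := by
    refine Subgroup.mem_inf.2 ⟨hy, ?_⟩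
    rw [show (y : G) = (w : G)⁻¹ * g by rw [← e, inv_mul_cancel_left]]
    exact mul_mem (inv_mem hw') hgR
  rw [hres] at hy'
  rw [← e]
  exact mul_mem (Subgroup.mem_map_of_mem _ hw) (Subgroup.mem_inf.1 hy').2

/-- Let `P` be a Sylow `p`-subgroup of the finite group `G`, `Q` a subgroup of `P` weakly closed in `P` with respect to `G`, and `H` the normalizer of `Q`. Suppose that for all `u ∈ P` and `z ∈ Q` the iterated commutator `[u, z, …, z]` with `p - 1` entries `z` is trivial, where `[x, z] = x⁻¹z⁻¹xz` and `[x, z, z] = [[x, z], z]`. Then `O^p(H) = O^p(G) ∩ H`, where `O^p` denotes the subgroup generated by the elements of order prime to `p`; so the largest `p`-factor groups of `G` and of `H` are isomorphic. -/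
theorem result {G : Type*} [Group G] [Finite G] {p : ℕ} [Fact p.Prime] (P : Sylow p G) (Q : Subgroup G) (hQ : Cfsg.IsWeaklyClosed Q (P : Subgroup G)) (h : ∀ u ∈ (P : Subgroup G), ∀ z ∈ Q, (fun y : G => y⁻¹ * z⁻¹ * y * z)^[p - 1] u = 1) : Cfsg.pResidualOf p (Subgroup.normalizer (Q : Set G)) = Cfsg.pResidual p G ⊓ Subgroup.normalizer (Q : Set G) := by
  exact hall_wielandt P Q hQ h

end Cfsg.Agent.S4215
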