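import Cfsg.Statements.S4217
import Mathlib
import Cfsg.Agent.Lib.Gaschutz

set_option autoImplicit false
open Cfsg

namespace Cfsg.Agent.S4217

open Subgroup

variable {G : Type*} [Group G] [Finite G]

/-- The elements of `A` of order prime to `p`. -/
def pPrimePart (A : Subgroup G) (hA : IsMulCommutative A) (p : ℕ) (hp : p.Prime) : Subgroup G where
  carrier := {a | a ∈ A ∧ ¬ p ∣ orderOf a}
  one_mem' := ⟨one_mem _, by rw [orderOf_one]; exact hp.not_dvd_one⟩
  mul_mem' {a b} ha hb := ⟨mul_mem ha.1 hb.1, fun hd => by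
    have hc : Commute a b := congrArg Subtype.val (hA.is_comm.comm ⟨a, ha.1⟩ ⟨b, hb.1⟩)
    exact (hp.dvd_mul.1 (hd.trans (hc.orderOf_mul_dvd_lcm.trans (Nat.lcm_dvd_mul _ _)))).elim ha.2 hb.2⟩
  inv_mem' {a} ha := ⟨inv_mem ha.1, by rw [orderOf_inv]; exact ha.2⟩

theorem mem_pPrimePart {A : Subgroup G} {hA : IsMulCommutative A} {p : ℕ} {hp : p.Prime} {a : G} :
    a ∈ pPrimePart A hA p hp ↔ a ∈ A ∧ ¬ p ∣ orderOf a := Iff.rfl

theorem exists_split {a : G} {p : ℕ} (hp : p.Prime) :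
    ∃ x y : G, x ∈ zpowers a ∧ y ∈ zpowers a ∧ a = x * y ∧ (∃ k, orderOf x ∣ p ^ k) ∧ ¬ p ∣ orderOf y := by
  set n := orderOf a with hn
  have hn0 : n ≠ 0 := (orderOf_pos a).ne'
  set P := p ^ n.factorization p with hP
  set m := n / p ^ n.factorization p with hm
  have hPm : P * m = n := Nat.ordProj_mul_ordCompl_eq_self n p
  have hcop : IsCoprime (P : ℤ) (m : ℤ) := Nat.isCoprime_iff_coprime.2
    ((Nat.coprime_ordCompl hp hn0).pow_left _)
  obtain ⟨u, v, huv⟩ := hcop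
  refine ⟨a ^ (v * m), a ^ (u * P), zpow_mem (mem_zpowers a) _, zpow_mem (mem_zpowers a) _, ?_,
    ⟨n.factorization p, ?_⟩, ?_⟩
  · rw [← zpow_add, add_comm, huv, zpow_one]
  · refine orderOf_dvd_of_pow_eq_one ?_
    rw [← zpow_natCast, ← zpow_mul, show v * (m : ℤ) * ((p ^ n.factorization p : ℕ) : ℤ) = ((n : ℕ) : ℤ) * v by
      rw [← hP]; conv_rhs => rw [← hPm]
      push_cast; ring, zpow_mul, zpow_natCast, hn, pow_orderOf_eq_one, one_zpow]
  · intro hd
    refine Nat.not_dvd_ordCompl hp hn0 (hd.trans (orderOf_dvd_of_pow_eq_one ?_))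
    rw [← zpow_natCast, ← zpow_mul, show u * (P : ℤ) * ((m : ℕ) : ℤ) = ((n : ℕ) : ℤ) * u by
      rw [← hPm]; push_cast; ring, zpow_mul, zpow_natCast, hn, pow_orderOf_eq_one, one_zpow]

/-- A supplement meeting `A` in the elements of order prime to `p`. -/
theorem exists_supplement (A : Subgroup G) [A.Normal] (hA : IsMulCommutative A) (p : ℕ) (hp : p.Prime)
    (h : p ∣ A.index → ∃ (S : Sylow p (G ⧸ A)) (K : Subgroup G), K ⊓ A = ⊥ ∧
      K ⊔ A = (S : Subgroup (G ⧸ A)).comap (QuotientGroup.mk' A)) :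
    ∃ H : Subgroup G, H ⊔ A = ⊤ ∧ H ⊓ A = pPrimePart A hA p hp := by
  have : Fact p.Prime := ⟨hp⟩
  have hU : ∃ (U K : Subgroup G), K ⊓ A = ⊥ ∧ K ⊔ A = U ∧ ¬ p ∣ U.index := by
    by_cases hd : p ∣ A.index
    · obtain ⟨S, K, h1, h2⟩ := h hd
      refine ⟨_, K, h1, h2, ?_⟩
      rw [Subgroup.index_comap_of_surjective _ (QuotientGroup.mk'_surjective A)]
      exact S.not_dvd_index
    · exact ⟨A, ⊥, bot_inf_eq A, bot_sup_eq A, hd⟩
  obtain ⟨U, K, hKA, hKU, hidx⟩ := hU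
  set B := pPrimePart A hA p hp with hB
  have hBA : B ≤ A := fun a ha => ha.1
  have hBn : B.Normal := ⟨fun a ha g => ⟨(inferInstance : A.Normal).conj_mem a ha.1 g, by
    rw [← MulAut.conj_apply, MulEquiv.orderOf_eq]; exact ha.2⟩⟩
  let π := QuotientGroup.mk' B
  have hπs : Function.Surjective π := QuotientGroup.mk'_surjective B
  set Ab := A.map π with hAb
  have : Ab.Normal := Subgroup.Normal.map inferInstance _ hπs
  have : IsMulCommutative Ab := ⟨⟨by
    rintro ⟨_, x, hx, rfl⟩ ⟨_, y, hy, rfl⟩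
    apply Subtype.ext
    rw [Subgroup.coe_mul, Subgroup.coe_mul, ← map_mul, ← map_mul]
    exact congrArg π (congrArg Subtype.val (hA.is_comm.comm ⟨x, hx⟩ ⟨y, hy⟩))⟩⟩
  have hAU : A ≤ U := hKU ▸ le_sup_right
  have hAbp : IsPGroup p Ab := by
    rintro ⟨_, a, ha, rfl⟩
    obtain ⟨x, y, hx, hy, hxy, ⟨k, hk⟩, hpy⟩ := exists_split (a := a) hp
    refine ⟨k, Subtype.ext ?_⟩
    rw [Subgroup.coe_pow, Subgroup.coe_one]
    have hyB : π y = 1 := (QuotientGroup.eq_one_iff y).2 ⟨(zpowers_le.2 ha) hy, hpy⟩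
    show π a ^ p ^ k = 1
    rw [hxy, map_mul, hyB, mul_one, ← map_pow, orderOf_dvd_iff_pow_eq_one.1 hk, map_one]
  obtain ⟨e, he⟩ := IsPGroup.iff_card.1 hAbp
  have hcop : (Nat.card Ab).Coprime (U.map π).index := by
    rw [he, Subgroup.index_map_eq U hπs (by rw [QuotientGroup.ker_mk']; exact hBA.trans hAU)]
    exact (hp.coprime_iff_not_dvd.2 hidx).pow_left e
  obtain ⟨H, hH⟩ := Cfsg.Agent.Gaschutz.exists_complement Ab (U.map π) (Subgroup.map_mono hAU) hcop (K.map π)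
    (by
      rw [eq_bot_iff]
      rintro _ ⟨⟨k, hk, rfl⟩, a, ha, hak⟩
      have hb : a⁻¹ * k ∈ B := QuotientGroup.eq.1 hak
      have hkA : k ∈ A := by simpa using mul_mem ha (hBA hb)
      have : k = 1 := Subgroup.mem_bot.1 (hKA ▸ Subgroup.mem_inf.2 ⟨hk, hkA⟩)
      rw [this, map_one]; exact one_mem _)
    (by rw [hAb, ← Subgroup.map_sup, sup_comm, hKU])
  refine ⟨H.comap π, ?_, ?_⟩
  · rw [eq_top_iff]
    intro g _
    obtain ⟨⟨⟨_, a, ha, rfl⟩, ⟨h', hh⟩⟩, hg⟩ := hH.2 (π g)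
    change π a * h' = π g at hg
    have : a⁻¹ * g ∈ H.comap π := by
      rw [Subgroup.mem_comap, map_mul, ← hg, map_inv, inv_mul_cancel_left]; exact hh
    have e2 := mul_mem (Subgroup.mem_sup_right ha : a ∈ H.comap π ⊔ A) (Subgroup.mem_sup_left this)
    rwa [mul_inv_cancel_left] at e2
  · refine le_antisymm (fun g hg => ?_) (fun g hg => Subgroup.mem_inf.2 ⟨?_, hBA hg⟩)
    · have : π g = 1 := Subgroup.disjoint_def.1 hH.disjoint (Subgroup.mem_map_of_mem π hg.2) hg.1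
      exact (QuotientGroup.eq_one_iff g).1 this
    · rw [Subgroup.mem_comap, show π g = 1 from (QuotientGroup.eq_one_iff g).2 hg]
      exact one_mem _

theorem exists_complement_of_local (A : Subgroup G) [A.Normal] (hA : IsMulCommutative A)
    (h : ∀ p : ℕ, p.Prime → p ∣ A.index → ∃ (S : Sylow p (G ⧸ A)) (K : Subgroup G), K ⊓ A = ⊥ ∧
      K ⊔ A = (S : Subgroup (G ⧸ A)).comap (QuotientGroup.mk' A)) :
    ∃ H : Subgroup G, H.IsComplement' A := by
  classical
  have key : ∀ T : Finset ℕ, (∀ p ∈ T, p.Prime) → ∃ H : Subgroup G, H ⊔ A = ⊤ ∧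
      ∀ a ∈ A, (a ∈ H ↔ ∀ p ∈ T, ¬ p ∣ orderOf a) := by
    intro T
    induction T using Finset.induction_on with
    | empty => exact fun _ => ⟨⊤, top_sup_eq A, fun a _ => by simp⟩
    | insert p T hpT ih =>
      intro hT
      obtain ⟨H₁, h1, h1'⟩ := ih (fun q hq => hT q (Finset.mem_insert_of_mem hq))
      have hp := hT p (Finset.mem_insert_self p T)
      obtain ⟨H₂, h2, h2'⟩ := exists_supplement A hA p hp (h p hp)
      refine ⟨H₁ ⊓ H₂, ?_, fun a ha => ?_⟩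
      · rw [eq_top_iff]
        intro g _
        obtain ⟨g₂, hg₂, a₂, ha₂, rfl⟩ := Subgroup.mem_sup_of_normal_right.1 (h2 ▸ Subgroup.mem_top g : g ∈ H₂ ⊔ A)
        obtain ⟨g₁, hg₁, a₁, ha₁, hga⟩ := Subgroup.mem_sup_of_normal_right.1 (h1 ▸ Subgroup.mem_top g₂ : g₂ ∈ H₁ ⊔ A)
        obtain ⟨x, y, hx, hy, hxy, ⟨k, hk⟩, hpy⟩ := exists_split (a := a₁) hp
        have hxA : x ∈ A := (zpowers_le.2 ha₁) hx
        have hyA : y ∈ A := (zpowers_le.2 ha₁) hy
        have hx1 : x ∈ H₁ := (h1' x hxA).2 fun q hq hd => hpT (by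
          rwa [← (Nat.prime_dvd_prime_iff_eq (hT q (Finset.mem_insert_of_mem hq)) hp).1
            ((hT q (Finset.mem_insert_of_mem hq)).dvd_of_dvd_pow (hd.trans hk))])
        have hy2 : y ∈ H₂ := (h2'.ge (mem_pPrimePart.2 ⟨hyA, hpy⟩)).1
        have hm : g₁ * x ∈ H₁ ⊓ H₂ := by
          refine ⟨mul_mem hg₁ hx1, ?_⟩
          have : g₁ * x = g₂ * y⁻¹ := by rw [← hga, hxy]; group
          show g₁ * x ∈ H₂
          rw [this]
          exact mul_mem hg₂ (inv_mem hy2)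
        have : g₂ * a₂ = (g₁ * x) * (y * a₂) := by rw [← hga, hxy]; group
        rw [this]
        exact mul_mem (Subgroup.mem_sup_left hm) (Subgroup.mem_sup_right (mul_mem hyA ha₂))
      · rw [Subgroup.mem_inf, h1' a ha, Finset.forall_mem_insert, and_comm]
        refine and_congr_left fun _ => ⟨fun hm => ?_, fun hm => ?_⟩
        · exact (h2'.le ⟨hm, ha⟩).2
        · exact (h2'.ge (mem_pPrimePart.2 ⟨ha, hm⟩)).1
  obtain ⟨H, hsup, hmem⟩ := key (Nat.card A).primeFactors (fun p hp => Nat.prime_of_mem_primeFactors hp)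
  refine ⟨H, Subgroup.isComplement'_of_disjoint_and_mul_eq_univ (Subgroup.disjoint_def.2 fun {x} hxH hxA => ?_)
    (by rw [← Subgroup.mul_normal, hsup, Subgroup.coe_top])⟩
  rw [← orderOf_eq_one_iff]
  by_contra hne
  obtain ⟨q, hq, hqd⟩ := Nat.exists_prime_and_dvd hne
  refine (hmem x hxA).1 hxH q (Nat.mem_primeFactors.2 ⟨hq, hqd.trans ?_, Nat.card_pos.ne'⟩) hqd
  exact Subgroup.orderOf_dvd_natCard _ hxA

/-- Let `A` be an abelian normal subgroup of the finite group `G`. Then `A` has a complement in `G` if and only if, for every prime `p` dividing the index of `A`, there are a Sylow `p`-subgroup `S` of `G/A` and a subgroup `K` of `G` with `K ∩ A = 1` and `KA` equal to the preimage of `S` (that is, `A` has a complement in the preimage of a Sylow `p`-subgroup of `G/A`). -/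
theorem result {G : Type*} [Group G] [Finite G] (A : Subgroup G) [A.Normal] (hA : IsMulCommutative A) : (∃ K : Subgroup G, K.IsComplement' A) ↔ ∀ p : ℕ, p.Prime → p ∣ A.index → ∃ (S : Sylow p (G ⧸ A)) (K : Subgroup G), K ⊓ A = ⊥ ∧ K ⊔ A = (S : Subgroup (G ⧸ A)).comap (QuotientGroup.mk' A) := by
  refine ⟨?_, exists_complement_of_local A hA⟩
  rintro ⟨K, hK⟩ p hp -
  have : Fact p.Prime := ⟨hp⟩
  let S : Sylow p (G ⧸ A) := default
  refine ⟨S, K ⊓ (S : Subgroup (G ⧸ A)).comap (QuotientGroup.mk' A), ?_, ?_⟩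
  · rw [eq_bot_iff]
    exact fun x hx => Subgroup.mem_bot.2 (Subgroup.disjoint_def.1 hK.disjoint hx.1.1 hx.2)
  · have hAU : A ≤ (S : Subgroup (G ⧸ A)).comap (QuotientGroup.mk' A) := fun a ha => by
      rw [Subgroup.mem_comap, show QuotientGroup.mk' A a = 1 from (QuotientGroup.eq_one_iff a).2 ha]
      exact one_mem _
    refine le_antisymm (sup_le inf_le_right hAU) (fun g hg => ?_)
    obtain ⟨⟨⟨k, hk⟩, ⟨a, ha⟩⟩, hka⟩ := hK.2 g
    change k * a = g at hka
    rw [← hka]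
    refine mul_mem (Subgroup.mem_sup_left ⟨hk, ?_⟩) (Subgroup.mem_sup_right ha)
    show k ∈ (S : Subgroup (G ⧸ A)).comap (QuotientGroup.mk' A)
    rw [eq_mul_inv_of_mul_eq hka]
    exact mul_mem hg (inv_mem (hAU ha))

end Cfsg.Agent.S4217
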