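import Cfsg.Statements.S4218
import Mathlib
import Cfsg.Agent.PSolv.HallHigman
import Cfsg.Agent.PSolv.Basic
import Cfsg.Agent.Coprime.Generation
import Cfsg.Agent.PGroup.Frattini

set_option autoImplicit false
open Cfsg

namespace Cfsg.Agent.S4218

open scoped commutatorElement

theorem mem_pCore_of_trivial {H : Type*} [Group H] [Finite H] {p : ℕ} [Fact p.Prime]
    (hs : Cfsg.IsPSolvable p H) (hO : Cfsg.pPrimeCore p H = ⊥) (g : H)
    (hg : ∀ x ∈ Cfsg.pCore p H, g * x * g⁻¹ * x⁻¹ ∈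
      (frattini ↥(Cfsg.pCore p H)).map (Cfsg.pCore p H).subtype) : g ∈ Cfsg.pCore p H := by
  set P := Cfsg.pCore p H with hPdef
  set F := (frattini ↥P).map P.subtype with hF
  have hPn : P.Normal := inferInstance
  have hFn : F.Normal := inferInstance
  have hPp : IsPGroup p P := Cfsg.Agent.PSolv.isPGroup_pCore p H
  let C : Subgroup H :=
    { carrier := {g | ∀ x ∈ P, g * x * g⁻¹ * x⁻¹ ∈ F}
      one_mem' := fun x _ => by simp [one_mem]
      mul_mem' := fun {a b} ha hb x hx => by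
        have h1 := ha _ (hPn.conj_mem x hx b)
        have h2 := hb x hx
        have e : a * b * x * (a * b)⁻¹ * x⁻¹ = (a * (b * x * b⁻¹) * a⁻¹ * (b * x * b⁻¹)⁻¹) * (b * x * b⁻¹ * x⁻¹) := by group
        rw [e]; exact mul_mem h1 h2
      inv_mem' := fun {a} ha x hx => by
        have h1 := inv_mem (ha _ (hPn.conj_mem x hx a⁻¹))
        have e : a⁻¹ * x * a⁻¹⁻¹ * x⁻¹ = (a * (a⁻¹ * x * a⁻¹⁻¹) * a⁻¹ * (a⁻¹ * x * a⁻¹⁻¹)⁻¹)⁻¹ := by group
        rw [e]; exact h1 }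
  have hCn : C.Normal := ⟨fun c hc k x hx => by
    have hx' : k⁻¹ * x * k ∈ P := by simpa using hPn.conj_mem x hx k⁻¹
    have h1 := hFn.conj_mem _ (hc _ hx') k
    have e : k * c * k⁻¹ * x * (k * c * k⁻¹)⁻¹ * x⁻¹ = k * (c * (k⁻¹ * x * k) * c⁻¹ * (k⁻¹ * x * k)⁻¹) * k⁻¹ := by group
    rw [e]; exact h1⟩
  suffices hCp : IsPGroup p C by exact Cfsg.Agent.PSolv.le_pCore hCn hCp hg
  suffices hu : ∀ d : ℕ, d.Prime → d ∣ Nat.card C → d = p by
    exact IsPGroup.of_card (Nat.eq_prime_pow_of_unique_prime_dvd Nat.card_pos.ne' (fun {d} hd hdd => hu d hd hdd))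
  intro d hd hdd
  by_contra hne
  have : Fact d.Prime := ⟨hd⟩
  obtain ⟨c, hc⟩ := exists_prime_orderOf_dvd_card' d hdd
  have hc' : orderOf (c : H) = d := by rw [Subgroup.orderOf_coe, hc]
  have hcop : (Nat.card (Subgroup.zpowers (c : H))).Coprime (Nat.card (frattini ↥P)) := by
    obtain ⟨k, hk⟩ := IsPGroup.iff_card.1 (hPp.to_subgroup (frattini ↥P))
    rw [Nat.card_zpowers, hc', hk]
    exact Nat.Coprime.pow_right _ ((Nat.coprime_primes hd Fact.out).2 hne)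
  have hcent := Cfsg.Agent.Coprime.le_centralizer_of_frattini (A := Subgroup.zpowers (c : H)) (K := P)
    (by rw [Subgroup.normalizer_eq_top_iff.2 hPn]; exact le_top) hcop (fun a ha k hk => by
      have haC : a ∈ C := (Subgroup.zpowers_le.2 c.2) ha
      have h1 := hFn.conj_mem _ (haC k hk) k⁻¹
      have e : k⁻¹ * a * k * a⁻¹ = k⁻¹ * (a * k * a⁻¹ * k⁻¹) * k⁻¹⁻¹ := by group
      rw [e]
      exact h1)
  have h2 := Cfsg.Agent.PSolv.centralizer_pCore_le hs hO (hcent (Subgroup.mem_zpowers _))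
  have h3 := orderOf_dvd_natCard (⟨(c : H), h2⟩ : P)
  rw [← Subgroup.orderOf_coe] at h3
  change orderOf (c : H) ∣ Nat.card P at h3
  rw [hc'] at h3
  obtain ⟨k, hk⟩ := IsPGroup.iff_card.1 hPp
  rw [hk] at h3
  exact hne ((Nat.prime_dvd_prime_iff_eq hd Fact.out).1 (hd.dvd_of_dvd_pow h3))

/-- Let `G` be a finite `p`-solvable group, `N₀ = O_{p'}(G)`, `P₁ = O_{p',p}(G)`, and let `F ≤ P₁` be the preimage of the Frattini subgroup of `P₁/N₀`. Then an element `g` of `G` induces the identity on `P₁/F` by conjugation (that is, `g x g⁻¹ x⁻¹ ∈ F` for all `x ∈ P₁`) if and only if `g ∈ P₁`: the group `G/P₁` acts faithfully on `P₁/F`. -/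
theorem result {G : Type*} [Group G] [Finite G] {p : ℕ} [Fact p.Prime] (hG : Cfsg.IsPSolvable p G) (g : G) : (∀ x ∈ Cfsg.pPrimePCore p G, g * x * g⁻¹ * x⁻¹ ∈ ((frattini (↥(Cfsg.pPrimePCore p G) ⧸ (Cfsg.pPrimeCore p G).subgroupOf (Cfsg.pPrimePCore p G))).comap (QuotientGroup.mk' ((Cfsg.pPrimeCore p G).subgroupOf (Cfsg.pPrimePCore p G)))).map (Cfsg.pPrimePCore p G).subtype) ↔ g ∈ Cfsg.pPrimePCore p G := by
  classical
  set X := Cfsg.pPrimePCore p G with hX
  set N := Cfsg.pPrimeCore p G with hN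
  set π := QuotientGroup.mk' N with hπ
  set P := Cfsg.pCore p (G ⧸ N) with hP
  have hNX : N ≤ X := Cfsg.Agent.PSolv.pPrimeCore_le_pPrimePCore
  have hXn : X.Normal := Cfsg.Agent.PSolv.pPrimePCore_normal p G
  have hmem : ∀ y : G, y ∈ X ↔ π y ∈ P := fun y => Iff.rfl
  set N' := N.subgroupOf X
  have hN'n : N'.Normal := inferInstance
  let f : ↥X →* ↥P := (π.comp X.subtype).codRestrict P fun x => x.2
  have hf : Function.Surjective f := by
    rintro ⟨q, hq⟩
    obtain ⟨y, rfl⟩ := QuotientGroup.mk'_surjective N q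
    exact ⟨⟨y, hq⟩, rfl⟩
  have hker : f.ker = N' := by
    ext x
    rw [MonoidHom.mem_ker, Subtype.ext_iff]
    exact QuotientGroup.eq_one_iff (x : G)
  let e : ↥X ⧸ N' ≃* ↥P := (QuotientGroup.quotientMulEquivOfEq hker.symm).trans
    (QuotientGroup.quotientKerEquivOfSurjective f hf)
  have he : ∀ x : X, e (QuotientGroup.mk' N' x) = f x := fun x => rfl
  have hPp : IsPGroup p P := Cfsg.Agent.PSolv.isPGroup_pCore p _
  have hQp : IsPGroup p (↥X ⧸ N') := hPp.of_equiv e.symm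
  have hΦ : (frattini (↥X ⧸ N')).map e.toMonoidHom = frattini ↥P :=
    Cfsg.Agent.PGroup.map_frattini hQp _ e.surjective
  have htr : ∀ y : G, y ∈ ((frattini (↥X ⧸ N')).comap (QuotientGroup.mk' N')).map X.subtype ↔
      y ∈ X ∧ π y ∈ (frattini ↥P).map P.subtype := by
    intro y
    constructor
    · rintro ⟨x, hx, rfl⟩
      refine ⟨x.2, ⟨f x, ?_, rfl⟩⟩
      rw [← he, ← hΦ]
      exact Subgroup.mem_map_of_mem _ hx
    · rintro ⟨hy, z, hz, hzy⟩
      refine ⟨⟨y, hy⟩, ?_, rfl⟩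
      change QuotientGroup.mk' N' ⟨y, hy⟩ ∈ frattini (↥X ⧸ N')
      rw [← hΦ] at hz
      obtain ⟨w, hw, rfl⟩ := hz
      have : e w = f ⟨y, hy⟩ := Subtype.ext hzy
      rw [← he] at this
      exact e.injective this ▸ hw
  constructor
  · intro h
    rw [hmem]
    refine mem_pCore_of_trivial (Cfsg.Agent.PSolv.isPSolvable_quotient hG N)
      (Cfsg.Agent.PSolv.pPrimeCore_quotient_eq_bot (p := p) (G := G)) (π g) ?_
    intro q hq
    obtain ⟨x, rfl⟩ := QuotientGroup.mk'_surjective N q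
    have h1 := ((htr _).1 (h x hq)).2
    rw [map_mul, map_mul, map_mul, map_inv, map_inv] at h1
    exact h1
  · intro hg x hx
    rw [htr]
    have h1 : g * x * g⁻¹ * x⁻¹ ∈ X := mul_mem (mul_mem (mul_mem hg hx) (inv_mem hg)) (inv_mem hx)
    refine ⟨h1, ⟨⁅f ⟨g, hg⟩, f ⟨x, hx⟩⁆, Cfsg.Agent.PGroup.commutatorElement_mem_frattini hPp _ _, ?_⟩⟩
    rw [map_mul, map_mul, map_mul, map_inv, map_inv]
    rfl

end Cfsg.Agent.S4218
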