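import Cfsg.Statements.S4219
import Mathlib

set_option autoImplicit false
open Cfsg

namespace Cfsg.Agent.S4219

/-- Let a finite group `G` act `t`-fold transitively on a finite set, let `H` be the stabilizer of `t` distinct points and `P` a Sylow `p`-subgroup of `H`. Then the normalizer of `P` in `G` is `t`-fold transitive on the fixed points of `P`: any `t` distinct fixed points of `P` can be carried to any other `t` distinct fixed points of `P` by an element normalizing `P`. -/
theorem result {G : Type*} [Group G] [Finite G] {α : Type*} [Fintype α] [MulAction G α] {t : ℕ} (hG : MulAction.IsMultiplyPretransitive G α t) (x : Fin t ↪ α) {p : ℕ} [Fact p.Prime] (P : Sylow p (MulAction.stabilizer G x)) (a b : Fin t ↪ α) (ha : ∀ i, a i ∈ MulAction.fixedPoints ((P : Subgroup (MulAction.stabilizer G x)).map (MulAction.stabilizer G x).subtype) α) (hb : ∀ i, b i ∈ MulAction.fixedPoints ((P : Subgroup (MulAction.stabilizer G x)).map (MulAction.stabilizer G x).subtype) α) : ∃ g ∈ Subgroup.normalizer ((((P : Subgroup (MulAction.stabilizer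 G x)).map (MulAction.stabilizer G x).subtype) : Subgroup G) : Set G), g • a = b := by
  set P' : Subgroup G := (P : Subgroup (MulAction.stabilizer G x)).map (MulAction.stabilizer G x).subtype with hP'
  have hfix : ∀ c : Fin t ↪ α, (∀ i, c i ∈ MulAction.fixedPoints P' α) → P' ≤ MulAction.stabilizer G c := by
    intro c hc y hy
    rw [MulAction.mem_stabilizer_iff]
    ext i
    exact hc i ⟨y, hy⟩
  obtain ⟨g, hg⟩ := hG.exists_smul_eq a b
  obtain ⟨g0, hg0⟩ := hG.exists_smul_eq x b
  set S := MulAction.stabilizer G b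
  have hcardS : Nat.card S = Nat.card (MulAction.stabilizer G x) :=
    (Nat.card_congr (MulAction.stabilizerEquivStabilizer hg0.symm).toEquiv).symm
  have hPp : IsPGroup p P' := P.isPGroup'.map _
  have hcardP : Nat.card P' = Nat.card (P : Subgroup (MulAction.stabilizer G x)) :=
    (Nat.card_congr (Subgroup.equivMapOfInjective _ _ (Subgroup.subtype_injective _)).toEquiv).symm
  set P1 : Subgroup G := P'.map (MulAut.conj g).toMonoidHom with hP1
  have hcard1 : Nat.card P1 = Nat.card P' :=
    (Nat.card_congr (Subgroup.equivMapOfInjective _ _ (MulAut.conj g).injective).toEquiv).symm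
  have h1S : P1 ≤ S := by
    rintro _ ⟨y, hy, rfl⟩
    have hya := MulAction.mem_stabilizer_iff.1 (hfix a ha hy)
    rw [MulAction.mem_stabilizer_iff, ← hg]
    simp [mul_smul, hya]
  have mkSyl : ∀ Q : Subgroup G, IsPGroup p Q → Q ≤ S → Nat.card Q = Nat.card P' →
      ∃ T : Sylow p S, (T : Subgroup S).map S.subtype = Q := by
    intro Q hQ hQS hQc
    have hi : ¬ p ∣ (Q.subgroupOf S).index := by
      have h2 := Subgroup.card_mul_index (Q.subgroupOf S)
      rw [Nat.card_congr (Subgroup.subgroupOfEquivOfLe hQS).toEquiv, hQc, hcardP, hcardS,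
        ← Subgroup.card_mul_index (P : Subgroup (MulAction.stabilizer G x))] at h2
      rw [Nat.eq_of_mul_eq_mul_left Nat.card_pos h2]
      exact P.not_dvd_index
    have hQ' : IsPGroup p (Q.subgroupOf S) :=
      hQ.of_equiv (Subgroup.subgroupOfEquivOfLe hQS).symm
    exact ⟨hQ'.toSylow hi, Subgroup.map_subgroupOf_eq_of_le hQS⟩
  obtain ⟨T1, hT1⟩ := mkSyl P1 (hPp.map _) h1S hcard1
  obtain ⟨T, hT⟩ := mkSyl P' hPp (hfix b hb) rfl
  obtain ⟨h, hh⟩ := MulAction.exists_smul_eq S T1 T
  refine ⟨(h : G) * g, ?_, ?_⟩
  · have e : P'.map (MulAut.conj ((h : G) * g)).toMonoidHom = P' := by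
      have e1 : P1.map (MulAut.conj (h : G)).toMonoidHom = P' := by
        rw [← hT1, ← hT, ← hh, Sylow.coe_subgroup_smul, Subgroup.map_map]
        erw [Subgroup.map_map]
        rfl
      conv_rhs => rw [← e1]
      rw [hP1]
      refine Eq.trans ?_ (Subgroup.map_map P' _ _).symm
      refine congrArg (fun f : G →* G => Subgroup.map f P') ?_
      ext y
      simp [mul_assoc]
    rw [Subgroup.mem_normalizer_iff]
    intro y
    conv_rhs => rw [← e]
    constructor
    · intro hy
      exact ⟨y, hy, rfl⟩
    · rintro ⟨z, hz, he⟩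
      simp only [MulEquiv.coe_toMonoidHom, MulAut.conj_apply, mul_left_inj, mul_right_inj] at he
      exact he ▸ hz
  · rw [mul_smul, hg]
    exact MulAction.mem_stabilizer_iff.1 h.2

end Cfsg.Agent.S4219
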