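import Cfsg.Statements.S4220
import Cfsg.Agent.PermP.PrimeCycle
import Cfsg.Agent.PermP.SmallSupport
import Cfsg.Agent.Perm.Regular
import Cfsg.Agent.S0415

set_option autoImplicit false
open Cfsg

namespace Cfsg.Agent.S4220

open MulAction
open scoped Pointwise commutatorElement

section
variable {α : Type*} [Fintype α] [DecidableEq α]

structure Orbits (P : Subgroup (Equiv.Perm α)) (F : Finset α) (p : ℕ) : Prop where
  prime : p.Prime
  pgroup : IsPGroup p P
  fix : ∀ w ∈ P, ∀ a ∈ F, w a = a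
  size : ∀ a ∉ F, (orbit P a).ncard = p

variable {P : Subgroup (Equiv.Perm α)} {F : Finset α} {p : ℕ}

theorem mem_orb {a b : α} : b ∈ orbit P a ↔ ∃ u ∈ P, u a = b :=
  ⟨fun ⟨u, h⟩ => ⟨u, u.2, h⟩, fun ⟨u, hu, h⟩ => ⟨⟨u, hu⟩, h⟩⟩

theorem Orbits.notMem (h : Orbits P F p) {a : α} (ha : a ∉ F) {u : Equiv.Perm α} (hu : u ∈ P) :
    u a ∉ F := fun hF => ha (by
  have := u.injective (h.fix u hu _ hF)
  rwa [this] at hF)

theorem Orbits.moves (h : Orbits P F p) {a : α} (ha : a ∉ F) : ∃ w ∈ P, w a ≠ a := by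
  by_contra hc
  push Not at hc
  have h1 : orbit P a = {a} := Set.ext fun b =>
    ⟨fun hb => by obtain ⟨u, hu, rfl⟩ := mem_orb.1 hb; exact hc u hu,
      fun hb => by rw [Set.mem_singleton_iff] at hb; rw [hb]; exact mem_orbit_self a⟩
  have := h.size a ha
  rw [h1, Set.ncard_singleton] at this
  exact h.prime.ne_one this.symm

theorem Orbits.facts (h : Orbits P F p) {a : α} (ha : a ∉ F) :
    (∀ u ∈ P, ∀ v ∈ P, (u * v) a = (v * u) a) ∧ (∀ w ∈ P, (w ^ p) a = a) ∧
    (∀ w0 ∈ P, w0 a ≠ a → ∀ w ∈ P, ∃ j : ℕ, w a = (w0 ^ j) a) ∧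
    (∀ w ∈ P, w a ≠ a → ∀ i : ℕ, (w ^ i) a = a → p ∣ i) ∧
    (∀ w ∈ P, w a = a → ∀ b ∈ orbit P a, w b = b) := by
  haveI := Fact.mk h.prime
  have hidx : (stabilizer P a).index = p := by rw [index_stabilizer, h.size a ha]
  haveI hn : (stabilizer P a).Normal := by
    refine Subgroup.normal_of_index_eq_minFac_card ?_
    rw [hidx]
    obtain ⟨m, hm⟩ := IsPGroup.iff_card.1 h.pgroup
    have hd : p ∣ Nat.card P := hidx ▸ Subgroup.index_dvd_card _
    have hm0 : m ≠ 0 := by
      rintro rfl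
      rw [hm, pow_zero, Nat.dvd_one] at hd
      exact h.prime.ne_one hd
    rw [hm, h.prime.pow_minFac hm0]
  have hcard : Nat.card (P ⧸ stabilizer P a) = p := hidx
  have key : ∀ u v : P, (QuotientGroup.mk u : P ⧸ stabilizer P a) = QuotientGroup.mk v ↔
      (u : Equiv.Perm α) a = (v : Equiv.Perm α) a := by
    intro u v
    rw [QuotientGroup.eq, mem_stabilizer_iff, mul_smul, inv_smul_eq_iff]
    exact eq_comm
  have key1 : ∀ u : P, (QuotientGroup.mk u : P ⧸ stabilizer P a) = 1 ↔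
      (u : Equiv.Perm α) a = a := by
    intro u
    rw [← QuotientGroup.mk_one, key]
    simp
  haveI : IsCyclic (P ⧸ stabilizer P a) := isCyclic_of_prime_card hcard
  refine ⟨fun u hu v hv => ?_, fun w hw => ?_, fun w0 hw0 h0 w hw => ?_,
    fun w hw h0 i hi => ?_, fun w hw h0 b hb => ?_⟩
  · have := (key (⟨u, hu⟩ * ⟨v, hv⟩) (⟨v, hv⟩ * ⟨u, hu⟩)).1
      (by rw [QuotientGroup.mk_mul, QuotientGroup.mk_mul]; exact IsCyclic.isMulCommutative.is_comm.comm _ _)
    exact this
  · have := (key1 (⟨w, hw⟩ ^ p)).1 (by rw [QuotientGroup.mk_pow, ← hcard, pow_card_eq_one'])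
    simpa using this
  · have h1 : (QuotientGroup.mk (⟨w0, hw0⟩ : P) : P ⧸ stabilizer P a) ≠ 1 :=
      fun e => h0 ((key1 _).1 e)
    obtain ⟨j, hj⟩ := Submonoid.mem_powers_iff _ _ |>.1
      (mem_powers_of_prime_card (g' := QuotientGroup.mk (⟨w, hw⟩ : P)) hcard h1)
    exact ⟨j, by simpa using (key ⟨w, hw⟩ (⟨w0, hw0⟩ ^ j)).1 (by rw [QuotientGroup.mk_pow, hj])⟩
  · have h1 : (QuotientGroup.mk (⟨w, hw⟩ : P) : P ⧸ stabilizer P a) ≠ 1 :=
      fun e => h0 ((key1 _).1 e)
    have h2 : (QuotientGroup.mk (⟨w, hw⟩ : P) : P ⧸ stabilizer P a) ^ i = 1 := by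
      rw [← QuotientGroup.mk_pow, key1]
      simpa using hi
    have h3 : (QuotientGroup.mk (⟨w, hw⟩ : P) : P ⧸ stabilizer P a) ^ p = 1 := by
      rw [← hcard, pow_card_eq_one']
    rw [← orderOf_eq_prime h3 h1]
    exact orderOf_dvd_of_pow_eq_one h2
  · obtain ⟨u, hu, rfl⟩ := mem_orb.1 hb
    have := hn.conj_mem ⟨w, hw⟩ h0 (⟨u, hu⟩ : P)⁻¹
    have h2 : u.symm (w (u a)) = a := by simpa [mem_stabilizer_iff, Subgroup.smul_def] using this
    exact u.symm.injective (h2.trans (u.symm_apply_apply a).symm)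

theorem Orbits.comm (h : Orbits P F p) {u v : Equiv.Perm α} (hu : u ∈ P) (hv : v ∈ P) :
    u * v = v * u := by
  ext a
  by_cases ha : a ∈ F
  · simp only [Equiv.Perm.mul_apply, h.fix u hu a ha, h.fix v hv a ha]
  · exact (h.facts ha).1 u hu v hv

theorem Orbits.pow_p (h : Orbits P F p) {w : Equiv.Perm α} (hw : w ∈ P) : w ^ p = 1 := by
  ext a
  by_cases ha : a ∈ F
  · exact h.fix _ (P.pow_mem hw p) a ha
  · exact (h.facts ha).2.1 w hw

theorem Orbits.pow_agree (h : Orbits P F p) {u v : Equiv.Perm α} (hu : u ∈ P) (hv : v ∈ P)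
    {a : α} (e : u a = v a) (i : ℕ) : (u ^ i) a = (v ^ i) a := by
  induction i with
  | zero => simp
  | succ i ih =>
    calc (u ^ (i + 1)) a = (u ^ i) (u a) := by rw [pow_succ, Equiv.Perm.mul_apply]
      _ = (u ^ i * v) a := by rw [e, Equiv.Perm.mul_apply]
      _ = (v * u ^ i) a := by rw [h.comm (P.pow_mem hu i) hv]
      _ = (v ^ (i + 1)) a := by rw [Equiv.Perm.mul_apply, ih, pow_succ', Equiv.Perm.mul_apply]

/-- `x` acts as the `i`th power on the restriction of `P` to the orbit of `a`. -/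
def Pw (P : Subgroup (Equiv.Perm α)) (x : Equiv.Perm α) (i : ℕ) (a : α) : Prop :=
  ∀ w ∈ P, (x * w * x⁻¹) a = (w ^ i) a

/-- Members of the kernel of the action on orbits. -/
structure Keeps (P : Subgroup (Equiv.Perm α)) (F : Finset α) (x : Equiv.Perm α) : Prop where
  conj : ∀ w ∈ P, x * w * x⁻¹ ∈ P
  set : ∀ a, a ∈ F → x a ∈ F
  orb : ∀ a ∉ F, ∃ u ∈ P, u a = x a

theorem Keeps.inv_notMem {x : Equiv.Perm α} (hx : Keeps P F x) {a : α} (ha : a ∉ F) :
    x⁻¹ a ∉ F := fun h => ha (by simpa using hx.set _ h)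

theorem Orbits.exists_pw (h : Orbits P F p) {x : Equiv.Perm α} (hx : Keeps P F x) {a : α}
    (ha : a ∉ F) : ∃ i, Pw P x i a := by
  obtain ⟨w0, hw0, h0⟩ := h.moves ha
  obtain ⟨j, hj⟩ := (h.facts ha).2.2.1 w0 hw0 h0 _ (hx.conj w0 hw0)
  refine ⟨j, fun w hw => ?_⟩
  obtain ⟨i, hi⟩ := (h.facts ha).2.2.1 w0 hw0 h0 w hw
  have hh : (w0 ^ i)⁻¹ * w ∈ P := P.mul_mem (P.inv_mem (P.pow_mem hw0 i)) hw
  have hha : ((w0 ^ i)⁻¹ * w) a = a := by
    rw [Equiv.Perm.mul_apply, hi, ← Equiv.Perm.mul_apply, inv_mul_cancel, Equiv.Perm.one_apply]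
  have hc : x⁻¹ a ∈ orbit P a := by
    obtain ⟨u, hu, he⟩ := hx.orb _ (hx.inv_notMem ha)
    rw [show x (x⁻¹ a) = a by simp] at he
    exact mem_orb.2 ⟨u⁻¹, P.inv_mem hu, by rw [Equiv.Perm.inv_eq_iff_eq]; exact he.symm⟩
  have e1 : x * w * x⁻¹ = (x * w0 * x⁻¹) ^ i * (x * ((w0 ^ i)⁻¹ * w) * x⁻¹) := by
    rw [conj_pow]; group
  have e2 : (x * ((w0 ^ i)⁻¹ * w) * x⁻¹) a = a := by
    show x (((w0 ^ i)⁻¹ * w) (x⁻¹ a)) = a
    rw [(h.facts ha).2.2.2.2 _ hh hha _ hc]
    simp
  rw [e1, Equiv.Perm.mul_apply, e2, h.pow_agree (hx.conj w0 hw0) (P.pow_mem hw0 j) hj i,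
    h.pow_agree hw (P.pow_mem hw0 i) hi j, ← pow_mul, ← pow_mul, mul_comm]

theorem Orbits.pw_orbit (h : Orbits P F p) {x : Equiv.Perm α} (hx : Keeps P F x) {a b : α}
    {i : ℕ} (hi : Pw P x i a) (hb : b ∈ orbit P a) : Pw P x i b := by
  intro w hw
  obtain ⟨u, hu, rfl⟩ := mem_orb.1 hb
  calc (x * w * x⁻¹) (u a) = ((x * w * x⁻¹) * u) a := rfl
    _ = (u * (x * w * x⁻¹)) a := by rw [h.comm hu (hx.conj w hw)]
    _ = u ((x * w * x⁻¹) a) := rfl
    _ = u ((w ^ i) a) := by rw [hi w hw]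
    _ = (u * w ^ i) a := rfl
    _ = (w ^ i * u) a := by rw [h.comm hu (P.pow_mem hw i)]
    _ = (w ^ i) (u a) := rfl

theorem Orbits.pw_unique (h : Orbits P F p) {a : α} (ha : a ∉ F) {w : Equiv.Perm α} (hw : w ∈ P)
    (h0 : w a ≠ a) {i j : ℕ} (e : (w ^ i) a = (w ^ j) a) :
    ∀ v ∈ P, v ^ i = v ^ j := by
  wlog hij : i ≤ j generalizing i j
  · exact fun v hv => (this e.symm (by omega) v hv).symm
  obtain ⟨d, rfl⟩ := Nat.exists_eq_add_of_le hij
  have h1 : (w ^ d) a = a := by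
    rw [pow_add, Equiv.Perm.mul_apply] at e
    exact (w ^ i).injective e.symm
  obtain ⟨m, rfl⟩ := (h.facts ha).2.2.2.1 w hw h0 d h1
  intro v hv
  rw [pow_add, pow_mul, h.pow_p hv, one_pow, mul_one]

theorem Orbits.conj_comm (h : Orbits P F p) {x y : Equiv.Perm α} (hx : Keeps P F x)
    (hy : Keeps P F y) {w : Equiv.Perm α} (hw : w ∈ P) :
    (x * y) * w * (x * y)⁻¹ = (y * x) * w * (y * x)⁻¹ := by
  ext a
  by_cases ha : a ∈ F
  · rw [show (x * y) * w * (x * y)⁻¹ = x * (y * w * y⁻¹) * x⁻¹ by group,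
      show (y * x) * w * (y * x)⁻¹ = y * (x * w * x⁻¹) * y⁻¹ by group,
      h.fix _ (hx.conj _ (hy.conj w hw)) a ha, h.fix _ (hy.conj _ (hx.conj w hw)) a ha]
  · obtain ⟨i, hi⟩ := h.exists_pw hx ha
    obtain ⟨j, hj⟩ := h.exists_pw hy ha
    rw [show (x * y) * w * (x * y)⁻¹ = x * (y * w * y⁻¹) * x⁻¹ by group,
      show (y * x) * w * (y * x)⁻¹ = y * (x * w * x⁻¹) * y⁻¹ by group,
      hi _ (hy.conj w hw), hj _ (hx.conj w hw),
      h.pow_agree (hy.conj w hw) (P.pow_mem hw j) (hj w hw) i,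
      h.pow_agree (hx.conj w hw) (P.pow_mem hw i) (hi w hw) j, ← pow_mul, ← pow_mul, mul_comm]

/-- An element of `P` moving only one orbit is a cycle of length `p`. -/
theorem Orbits.cycle (h : Orbits P F p) {a : α} (ha : a ∉ F) {w : Equiv.Perm α} (hw : w ∈ P)
    (h0 : w a ≠ a) (h1 : ∀ b ∉ F, b ∉ orbit P a → w b = b) :
    w.IsCycle ∧ w.support.card = p := by
  haveI := Fact.mk h.prime
  have hs : (w.support : Set α) = orbit P a := by
    ext b
    simp only [Finset.mem_coe, Equiv.Perm.mem_support]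
    constructor
    · intro hb
      by_contra hbo
      exact hb (h1 b (fun hF => hb (h.fix w hw b hF)) hbo)
    · intro hb e
      have hbF : b ∉ F := by obtain ⟨u, hu, rfl⟩ := mem_orb.1 hb; exact h.notMem ha hu
      exact h0 ((h.facts hbF).2.2.2.2 w hw e a (mem_orbit_symm.1 hb))
  have hc : w.support.card = p := by rw [← Set.ncard_coe_finset, hs, h.size a ha]
  have ho : orderOf w = p := orderOf_eq_prime (h.pow_p hw) (fun e => h0 (by simp [e]))
  refine ⟨Equiv.Perm.isCycle_of_prime_order (ho.symm ▸ h.prime) ?_, hc⟩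
  rw [ho, hc]
  have := h.prime.pos
  omega

/-- With at most three orbits and no cycle in `P`, kernel elements act as scalars. -/
theorem Orbits.scalar (h : Orbits P F p) (hk : (orbit P '' ((F : Set α)ᶜ)).ncard ≤ 3)
    (hcyc : ¬ ∃ w ∈ P, w.IsCycle ∧ w.support.card = p) {x : Equiv.Perm α} (hx : Keeps P F x) :
    ∃ m : ℕ, ∀ w ∈ P, x * w * x⁻¹ = w ^ m := by
  classical
  choose! l hl using fun a (ha : a ∉ F) => h.exists_pw hx ha
  have partner : ∀ a ∉ F, ∃ b ∉ F, b ∉ orbit P a ∧ Pw P x (l a) b := by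
    intro a ha
    by_contra hne
    push Not at hne
    apply hcyc
    have hind : ∀ s : Finset α, (∀ b ∈ s, b ∉ F ∧ b ∉ orbit P a) →
        ∃ w ∈ P, w a ≠ a ∧ ∀ b ∈ s, w b = b := by
      intro s
      induction s using Finset.induction_on with
      | empty =>
        intro _
        obtain ⟨w, hw, h0⟩ := h.moves ha
        exact ⟨w, hw, h0, by simp⟩
      | insert c s hcs ih =>
        intro hs
        obtain ⟨w, hw, h0, hws⟩ := ih fun b hb => hs b (Finset.mem_insert_of_mem hb)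
        obtain ⟨hc, hca⟩ := hs c (Finset.mem_insert_self _ _)
        have hv : (w ^ l c)⁻¹ * (x * w * x⁻¹) ∈ P :=
          P.mul_mem (P.inv_mem (P.pow_mem hw _)) (hx.conj w hw)
        refine ⟨_, hv, fun e => ?_, fun b hb => ?_⟩
        · rw [Equiv.Perm.mul_apply, Equiv.Perm.inv_eq_iff_eq, hl a ha w hw] at e
          have hE := h.pw_unique ha hw h0 e
          exact hne c hc hca fun v hv' => by rw [hE v hv']; exact hl c hc v hv'
        · rw [Equiv.Perm.mul_apply, Equiv.Perm.inv_eq_iff_eq]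
          rcases Finset.mem_insert.1 hb with rfl | hb
          · exact hl b hc w hw
          · obtain ⟨hbF, hba⟩ := hs b (Finset.mem_insert_of_mem hb)
            rw [hl b hbF w hw]
            have e1 := h.pow_agree hw P.one_mem (a := b) (by simp [hws b hb]) (l b)
            have e2 := h.pow_agree hw P.one_mem (a := b) (by simp [hws b hb]) (l c)
            simp only [one_pow, Equiv.Perm.one_apply] at e1 e2
            rw [e1, e2]
    obtain ⟨w, hw, h0, hws⟩ := hind (Finset.univ.filter fun b => b ∉ F ∧ b ∉ orbit P a)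
      (fun b hb => (Finset.mem_filter.1 hb).2)
    exact ⟨w, hw, h.cycle ha hw h0 fun b hb hb' =>
      hws b (Finset.mem_filter.2 ⟨Finset.mem_univ _, hb, hb'⟩)⟩
  by_cases hF : ∀ a, a ∈ F
  · exact ⟨1, fun w hw => by
      ext a
      rw [h.fix _ (hx.conj w hw) a (hF a), h.fix _ (P.pow_mem hw 1) a (hF a)]⟩
  push Not at hF
  obtain ⟨a, ha⟩ := hF
  obtain ⟨b, hb, hba, hab⟩ := partner a ha
  have same : ∀ c ∉ F, ∀ i j, Pw P x i c → Pw P x j c → ∀ v ∈ P, v ^ i = v ^ j := by
    intro c hc i j hi hj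
    obtain ⟨w, hw, h0⟩ := h.moves hc
    exact h.pw_unique hc hw h0 ((hi w hw).symm.trans (hj w hw))
  have all : ∀ c ∉ F, Pw P x (l a) c := by
    intro c hc
    by_cases h1 : c ∈ orbit P a
    · exact h.pw_orbit hx (hl a ha) h1
    by_cases h2 : c ∈ orbit P b
    · exact h.pw_orbit hx hab h2
    obtain ⟨d, hd, hdc, hcd⟩ := partner c hc
    have h3 : d ∈ orbit P a ∨ d ∈ orbit P b := by
      by_contra hne
      push Not at hne
      have hsub : ({orbit P a, orbit P b, orbit P c, orbit P d} : Set (Set α)) ⊆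
          orbit P '' ((F : Set α)ᶜ) := by
        intro S hS
        simp only [Set.mem_insert_iff, Set.mem_singleton_iff] at hS
        rcases hS with rfl | rfl | rfl | rfl
        exacts [⟨a, ha, rfl⟩, ⟨b, hb, rfl⟩, ⟨c, hc, rfl⟩, ⟨d, hd, rfl⟩]
      have := Set.ncard_le_ncard hsub (Set.toFinite _)
      have ne : ∀ {u v : α}, v ∉ orbit P u → orbit P u ≠ orbit P v := fun hv e =>
        hv (e.symm ▸ mem_orbit_self _)
      have n1 := ne hba
      have n2 := ne h1
      have n3 := ne h2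
      have n4 := ne hne.1
      have n5 := ne hne.2
      have n6 := ne hdc
      rw [Set.ncard_insert_of_notMem (by simp [n1, n2, n4]) (Set.toFinite _),
        Set.ncard_insert_of_notMem (by simp [n3, n5]) (Set.toFinite _),
        Set.ncard_pair n6] at this
      omega
    have hE : ∀ v ∈ P, v ^ l c = v ^ l a := by
      rcases h3 with h3 | h3
      · exact same d hd _ _ hcd (h.pw_orbit hx (hl a ha) h3)
      · exact same d hd _ _ hcd (h.pw_orbit hx hab h3)
    intro w hw
    rw [← hE w hw]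
    exact hl c hc w hw
  refine ⟨l a, fun w hw => ?_⟩
  ext c
  by_cases hc : c ∈ F
  · rw [h.fix _ (hx.conj w hw) c hc, h.fix _ (P.pow_mem hw _) c hc]
  · exact all c hc w hw

theorem Orbits.card_orbits (h : Orbits P F p) {k : ℕ} (hk : Fintype.card α = k * p + F.card) :
    (orbit P '' ((F : Set α)ᶜ)).ncard = k := by
  classical
  have e : orbit P '' ((F : Set α)ᶜ) = ((Fᶜ.image fun a => orbit P a : Finset (Set α)) : Set _) := by
    simp
  rw [e, Set.ncard_coe_finset]
  have h1 := Finset.card_eq_sum_card_image (fun a => orbit P a) Fᶜ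
  have h2 : ∀ S ∈ Fᶜ.image (fun a => orbit P a),
      (Fᶜ.filter fun b => orbit P b = S).card = p := by
    intro S hS
    obtain ⟨a, ha, rfl⟩ := Finset.mem_image.1 hS
    rw [Finset.mem_compl] at ha
    rw [← h.size a ha, ← Set.ncard_coe_finset]
    congr 1
    ext b
    simp only [Finset.coe_filter, Finset.mem_compl, Set.mem_setOf_eq, orbit_eq_iff]
    exact ⟨fun hb => hb.2, fun hb => ⟨by
      obtain ⟨u, hu, rfl⟩ := mem_orb.1 hb; exact h.notMem ha hu, hb⟩⟩
  rw [Finset.sum_congr rfl h2, Finset.sum_const, smul_eq_mul, Finset.card_compl] at h1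
  have : (Fᶜ.image fun a => orbit P a).card * p = k * p := by omega
  exact Nat.eq_of_mul_eq_mul_right h.prime.pos this

end

section
variable {β : Type*} [Fintype β] [DecidableEq β]

theorem abelian_normal_small {M : Subgroup (Equiv.Perm β)} [M.Normal] (hM : M ≠ ⊥)
    (hab : ∀ x ∈ M, ∀ y ∈ M, x * y = y * x) : Fintype.card β ≤ 4 := by
  by_contra h
  have hle := Equiv.Perm.alternatingGroup_le_of_normal
    (by rw [Nat.card_eq_fintype_card]; omega) ((Subgroup.nontrivial_iff_ne_bot M).2 hM)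
  have : IsMulCommutative (alternatingGroup β) :=
    ⟨⟨fun u v => Subtype.ext (hab u (hle u.2) v (hle v.2))⟩⟩
  have := alternatingGroup.isMulCommutative_iff_card_le_three.1 this
  rw [Nat.card_eq_fintype_card] at this
  omega

theorem center_small (h3 : 3 ≤ Fintype.card β) {z : Equiv.Perm β}
    (hz : ∀ x, x * z = z * x) : z = 1 := by
  ext a
  rw [Equiv.Perm.one_apply]
  by_contra hne
  obtain ⟨c, hc⟩ : ∃ c, c ∉ ({a, z a} : Finset β) := by
    by_contra hall
    push Not at hall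
    have h := Finset.card_le_card (s := Finset.univ) fun c _ => hall c
    have h2 : ({a, z a} : Finset β).card ≤ 2 := Finset.card_le_two
    rw [Finset.card_univ] at h
    omega
  simp only [Finset.mem_insert, Finset.mem_singleton, not_or] at hc
  have e := DFunLike.congr_fun (hz (Equiv.swap a c)) a
  simp only [Equiv.Perm.mul_apply, Equiv.swap_apply_left] at e
  rw [Equiv.swap_apply_of_ne_of_ne hne (fun e' => hc.2 e'.symm)] at e
  exact hc.1 (z.injective e).symm

theorem exponent_normal {M : Subgroup (Equiv.Perm β)} [M.Normal] (hM : M ≠ ⊥)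
    (h3 : 3 ≤ Fintype.card β) {p : ℕ} (hp : p.Prime) (hp3 : 3 ≤ p)
    (hexp : ∀ x ∈ M, x ^ p = 1) : Fintype.card β = 3 ∧ p = 3 := by
  haveI := Fact.mk hp
  have hle4 : Fintype.card β ≤ 4 := by
    by_contra h
    have hle := Equiv.Perm.alternatingGroup_le_of_normal
      (by rw [Nat.card_eq_fintype_card]; omega) ((Subgroup.nontrivial_iff_ne_bot M).2 hM)
    obtain ⟨e⟩ : Nonempty (Fin 4 ↪ β) :=
      Function.Embedding.nonempty_of_card_le (by rw [Fintype.card_fin]; omega)
    set d := Equiv.swap (e 0) (e 1) * Equiv.swap (e 2) (e 3) with hd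
    have hmem : d ∈ M := hle (Equiv.Perm.mul_mem_alternatingGroup_of_isSwap
      ⟨_, _, e.injective.ne (by decide), rfl⟩ ⟨_, _, e.injective.ne (by decide), rfl⟩)
    have hcomm : Commute (Equiv.swap (e 0) (e 1)) (Equiv.swap (e 2) (e 3)) :=
      (Equiv.Perm.disjoint_iff_eq_or_eq.2 fun x => by
        by_cases h0 : x = e 0
        · subst h0
          right
          exact Equiv.swap_apply_of_ne_of_ne (e.injective.ne (by decide)) (e.injective.ne (by decide))
        by_cases h1 : x = e 1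
        · subst h1
          right
          exact Equiv.swap_apply_of_ne_of_ne (e.injective.ne (by decide)) (e.injective.ne (by decide))
        left
        exact Equiv.swap_apply_of_ne_of_ne h0 h1).commute
    have hd2 : d ^ 2 = 1 := by
      rw [hd, hcomm.mul_pow, pow_two, pow_two, Equiv.swap_mul_self, Equiv.swap_mul_self, one_mul]
    have hd1 : d = 1 := by
      have hdp := hexp d hmem
      have hodd : Odd p := hp.odd_of_ne_two (by omega)
      obtain ⟨m, rfl⟩ := hodd
      rwa [pow_succ, pow_mul, hd2, one_pow, one_mul] at hdp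
    have hx := DFunLike.congr_fun hd1 (e 2)
    simp only [hd, Equiv.Perm.mul_apply, Equiv.swap_apply_left, Equiv.Perm.one_apply] at hx
    rw [Equiv.swap_apply_of_ne_of_ne (e.injective.ne (by decide)) (e.injective.ne (by decide))] at hx
    exact absurd (e.injective hx) (by decide)
  haveI : IsPreprimitive (Equiv.Perm β) β := isPreprimitive_of_is_two_pretransitive
    (Equiv.Perm.isMultiplyPretransitive β 2)
  haveI := Cfsg.Agent.PermLib.isPretransitive_of_normal_ne_bot (α := β) hM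
  obtain ⟨a⟩ : Nonempty β := Fintype.card_pos_iff.1 (by omega)
  have hdvd : Fintype.card β ∣ Nat.card M := by
    have h1 := index_stabilizer_of_transitive M a
    rw [← Nat.card_eq_fintype_card, ← h1]
    exact Subgroup.index_dvd_card _
  have hpg : IsPGroup p M := fun x => ⟨1, Subtype.ext (by simpa using hexp x x.2)⟩
  obtain ⟨m, hm⟩ := IsPGroup.iff_card.1 hpg
  rw [hm] at hdvd
  obtain ⟨i, -, hi⟩ := (Nat.dvd_prime_pow hp).1 hdvd
  rcases i with _ | _ | i
  · rw [pow_zero] at hi; omega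
  · rw [zero_add, pow_one] at hi
    rcases (show p = 3 ∨ p = 4 by omega) with h | h
    · omega
    · subst h; exact absurd hp (by decide)
  · have : p * p ≤ p ^ (i + 1 + 1) := by
      rw [← pow_two]; exact Nat.pow_le_pow_right hp.pos (by omega)
    have : 3 * 3 ≤ p * p := Nat.mul_le_mul hp3 hp3
    omega

end

theorem core {α : Type*} [Fintype α] [DecidableEq α] (G : Subgroup (Equiv.Perm α)) {k p r : ℕ}
    (hp : p.Prime) (hn : Fintype.card α = k * p + r) (hk : 1 ≤ k) (hpk : k < p) (hrk : k < r)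
    (hr : 3 ≤ r) (hG : MulAction.IsMultiplyPretransitive G α (r + 1)) : alternatingGroup α ≤ G := by
  classical
  by_contra hcon
  haveI := Fact.mk hp
  have hkp : p ≤ k * p := Nat.le_mul_of_pos_left p hk
  have hrn : r + 1 ≤ Fintype.card α := by have := hp.pos; omega
  have hsmall : ∀ g ∈ G, g.support.card < 2 * r → g = 1 := fun g hg hs => by
    by_contra h1
    exact hcon (Cfsg.Agent.PermP.alternatingGroup_le_of_small_support G (k := r + 1) (by omega) hrn
      hG g.support.card g hg h1 rfl (by omega))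
  have hprim : IsPreprimitive G α := by
    haveI := hG
    exact isPreprimitive_of_is_two_pretransitive
      (isMultiplyPretransitive_of_le (show 2 ≤ r + 1 by omega)
        (by rw [Nat.card_eq_fintype_card]; omega))
  have hnocyc : ¬ ∃ g ∈ G, g.IsCycle ∧ g.support.card = p := fun ⟨g, hg, hc, hs⟩ =>
    hcon (Cfsg.Agent.PermP.alternatingGroup_le_of_primeCycle G hprim hp (by omega) hc hs hg)
  obtain ⟨F, -, hF⟩ := Finset.exists_subset_card_eq (s := (Finset.univ : Finset α)) (n := r)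
    (by rw [Finset.card_univ]; omega)
  set L : Subgroup (Equiv.Perm α) := G ⊓ fixingSubgroup (Equiv.Perm α) (F : Set α) with hLdef
  have hL : ∀ g, g ∈ L ↔ g ∈ G ∧ ∀ a ∈ F, g a = a := fun g => by
    rw [hLdef, Subgroup.mem_inf, mem_fixingSubgroup_iff]; rfl
  have hLtrans : ∀ a ∉ F, ∀ b ∉ F, ∃ g ∈ L, g a = b := by
    intro a ha b hb
    obtain ⟨g, hg, hgT⟩ := Cfsg.Agent.PermP.agree_of_pretransitive hrn hG (T := insert a F)
      (by rw [Finset.card_insert_of_notMem ha]; omega) (Equiv.swap a b)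
    refine ⟨g, (hL g).2 ⟨hg, fun c hc => ?_⟩, ?_⟩
    · rw [hgT c (Finset.mem_insert_of_mem hc)]
      exact Equiv.swap_apply_of_ne_of_ne (fun e => ha (e ▸ hc)) (fun e => hb (e ▸ hc))
    · rw [hgT a (Finset.mem_insert_self _ _), Equiv.swap_apply_left]
  obtain ⟨P0⟩ : Nonempty (Sylow p L) := inferInstance
  set P : Subgroup (Equiv.Perm α) := (P0 : Subgroup L).map L.subtype with hPdef
  have hPL : P ≤ L := Subgroup.map_subtype_le _
  have hPG : P ≤ G := hPL.trans inf_le_left
  have hfixP : ∀ w ∈ P, ∀ a ∈ F, w a = a := fun w hw => ((hL w).1 (hPL hw)).2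
  have hsize : ∀ a ∉ F, (orbit P a).ncard = p := by
    intro a ha
    have horb : orbit P a = orbit (P0 : Subgroup L) a := by
      ext b
      rw [mem_orb]
      constructor
      · rintro ⟨u, hu, rfl⟩
        obtain ⟨v, hv, rfl⟩ := Subgroup.mem_map.1 hu
        exact ⟨⟨v, hv⟩, rfl⟩
      · rintro ⟨v, rfl⟩
        exact ⟨_, Subgroup.mem_map.2 ⟨v.1, v.2, rfl⟩, rfl⟩
    have hLorb : orbit L a = ((Fᶜ : Finset α) : Set α) := by
      ext b
      rw [mem_orb, Finset.mem_coe, Finset.mem_compl]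
      constructor
      · rintro ⟨g, hg, rfl⟩ hb
        exact ha (by
          have := g.injective (((hL g).1 hg).2 _ hb)
          rwa [this] at hb)
      · exact fun hb => hLtrans a ha b hb
    have h1 : (stabilizer L a).index = k * p := by
      rw [index_stabilizer, hLorb, Set.ncard_coe_finset, Finset.card_compl, hF]; omega
    have h2 : (stabilizer L a).relIndex (P0 : Subgroup L) = (orbit P a).ncard := by
      have he : (stabilizer L a).subgroupOf (P0 : Subgroup L) = stabilizer (P0 : Subgroup L) a := by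
        ext x; rfl
      rw [Subgroup.relIndex, he, index_stabilizer, horb]
    have h3 : k * p ∣ (orbit P a).ncard * (P0 : Subgroup L).index := by
      rw [← h2, ← h1, ← Subgroup.inf_relIndex_right,
        Subgroup.relIndex_mul_index inf_le_right]
      exact Subgroup.index_dvd_of_le inf_le_left
    have h4 : p ∣ (orbit P a).ncard :=
      (hp.dvd_mul.1 ((dvd_mul_left p k).trans h3)).resolve_right P0.not_dvd_index
    obtain ⟨m, hm⟩ : ∃ m, (orbit P a).ncard = p ^ m := by
      obtain ⟨N, hN⟩ := IsPGroup.iff_card.1 P0.2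
      have hd : (orbit P a).ncard ∣ p ^ N := by
        rw [horb, ← index_stabilizer, ← hN]
        exact Subgroup.index_dvd_card _
      obtain ⟨m, -, hm⟩ := (Nat.dvd_prime_pow hp).1 hd
      exact ⟨m, hm⟩
    have h5 : (orbit P a).ncard ≤ k * p := by
      have hsub : orbit P a ⊆ orbit L a := fun b hb => by
        obtain ⟨u, hu, rfl⟩ := mem_orb.1 hb; exact mem_orb.2 ⟨u, hPL hu, rfl⟩
      refine (Set.ncard_le_ncard hsub (Set.toFinite _)).trans ?_
      rw [← index_stabilizer, h1]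
    have h6 : k * p < p * p := Nat.mul_lt_mul_of_pos_right hpk hp.pos
    rw [hm] at h4 h5 ⊢
    rcases m with _ | _ | m
    · rw [pow_zero, Nat.dvd_one] at h4; exact absurd h4 hp.ne_one
    · rw [zero_add, pow_one]
    · have : p * p ≤ p ^ (m + 1 + 1) := by
        rw [← pow_two]; exact Nat.pow_le_pow_right hp.pos (by omega)
      omega
  have hO : Orbits P F p := ⟨hp, P0.2.map _, hfixP, hsize⟩
  have hΩ := hO.card_orbits (k := k) (by omega)
  have hnocycP : ¬ ∃ w ∈ P, w.IsCycle ∧ w.support.card = p :=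
    fun ⟨w, hw, h⟩ => hnocyc ⟨w, hPG hw, h⟩
  -- one orbit
  have hk2 : 2 ≤ k := by
    by_contra hk1
    obtain ⟨a, ha⟩ : ∃ a, a ∉ F := by
      by_contra h
      push Not at h
      have := Finset.card_le_card (s := Finset.univ) (t := F) fun c _ => h c
      rw [Finset.card_univ] at this
      omega
    obtain ⟨w, hw, h0⟩ := hO.moves ha
    apply hnocycP
    refine ⟨w, hw, hO.cycle ha hw h0 fun b hb hb' => absurd ?_ hb'⟩
    have hΩ1 : (orbit P '' ((F : Set α)ᶜ)).ncard ≤ 1 := by omega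
    have := (Set.ncard_le_one (Set.toFinite _)).1 hΩ1 _ ⟨b, hb, rfl⟩ _ ⟨a, ha, rfl⟩
    exact this ▸ mem_orbit_self b
  set N : Subgroup (Equiv.Perm α) := G ⊓ Subgroup.normalizer (P : Set (Equiv.Perm α)) with hNdef
  have hNconj : ∀ g ∈ N, ∀ w ∈ P, g * w * g⁻¹ ∈ P := fun g hg w hw =>
    (Subgroup.mem_normalizer_iff.1 hg.2 w).1 hw
  have hNF : ∀ g ∈ N, ∀ a, g a ∈ F ↔ a ∈ F := by
    have h1 : ∀ g ∈ N, ∀ a, a ∈ F → g a ∈ F := by
      intro g hg a ha
      by_contra hga
      obtain ⟨w, hw, h0⟩ := hO.moves hga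
      apply h0
      have hv := hfixP _ (by simpa using hNconj _ (N.inv_mem hg) w hw) a ha
      exact Equiv.Perm.inv_eq_iff_eq.1 (by simpa [Equiv.Perm.mul_apply] using hv)
    exact fun g hg a => ⟨fun h => by simpa using h1 _ (N.inv_mem hg) _ h, h1 g hg a⟩
  let φ : N →* Equiv.Perm {a // a ∈ F} :=
    MonoidHom.mk' (fun g => (g : Equiv.Perm α).subtypePerm (hNF g g.2)) fun g h => by ext a; rfl
  have hφ : Function.Surjective φ := by
    intro π
    obtain ⟨x, hxG, hxF⟩ := Cfsg.Agent.PermP.agree_of_pretransitive hrn hG (T := F) (by omega)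
      (Equiv.Perm.ofSubtype π)
    have hxF' : ∀ a (ha : a ∈ F), x a = π ⟨a, ha⟩ := fun a ha => by
      rw [hxF a ha, Equiv.Perm.ofSubtype_apply_of_mem π ha]
    have hxinv : ∀ a ∈ F, x⁻¹ a ∈ F := fun a ha => by
      have h1 := hxF' _ (π⁻¹ ⟨a, ha⟩).2
      have h2 : π (π⁻¹ ⟨a, ha⟩) = ⟨a, ha⟩ := by simp
      rw [Subtype.coe_eta, h2] at h1
      have h3 : x⁻¹ a = (π⁻¹ ⟨a, ha⟩ : {a // a ∈ F}).1 := by
        rw [Equiv.Perm.inv_eq_iff_eq]; exact h1.symm
      rw [h3]; exact (π⁻¹ ⟨a, ha⟩).2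
    have hconjL : ∀ w ∈ P, x * w * x⁻¹ ∈ L := fun w hw => (hL _).2
      ⟨G.mul_mem (G.mul_mem hxG (hPG hw)) (G.inv_mem hxG), fun a ha => by
        show x (w (x⁻¹ a)) = a
        rw [hfixP w hw _ (hxinv a ha)]; simp⟩
    have hPcard : Nat.card P = Nat.card (P0 : Subgroup L) :=
      Nat.card_congr ((P0 : Subgroup L).equivMapOfInjective _ L.subtype_injective).symm.toEquiv
    have hle : P.map (MulAut.conj x).toMonoidHom ≤ L := by
      rintro _ ⟨w, hw, rfl⟩; exact hconjL w hw
    let Q : Sylow p L := Sylow.ofCard ((P.map (MulAut.conj x).toMonoidHom).subgroupOf L) (by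
      rw [Nat.card_congr (Subgroup.subgroupOfEquivOfLe hle).toEquiv,
        Subgroup.card_map_of_injective (MulAut.conj x).injective, hPcard, P0.card_eq_multiplicity])
    obtain ⟨l, hl⟩ := MulAction.exists_smul_eq L Q P0
    have hlP : ∀ w ∈ P, ((l : Equiv.Perm α) * x) * w * ((l : Equiv.Perm α) * x)⁻¹ ∈ P := by
      intro w hw
      have : l * ⟨x * w * x⁻¹, hconjL w hw⟩ * l⁻¹ ∈ (P0 : Subgroup L) := by
        rw [← hl, Sylow.coe_subgroup_smul]
        exact ⟨⟨_, hconjL w hw⟩, Subgroup.mem_subgroupOf.2 ⟨w, hw, rfl⟩, rfl⟩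
      rw [hPdef, Subgroup.mem_map]
      exact ⟨_, this, by simp [mul_assoc]⟩
    refine ⟨⟨(l : Equiv.Perm α) * x, G.mul_mem ((hL _).1 l.2).1 hxG,
      Subgroup.mem_normalizer_fintype hlP⟩, ?_⟩
    ext a
    show (l : Equiv.Perm α) (x a.1) = (π a).1
    rw [hxF' a.1 a.2, ((hL _).1 l.2).2 _ (π ⟨a.1, a.2⟩).2]
  let Ω : SubMulAction N (Set α) :=
    { carrier := orbit P '' ((F : Set α)ᶜ)
      smul_mem' := by
        rintro g _ ⟨a, ha, rfl⟩
        refine ⟨(g : Equiv.Perm α) a, fun h => ha ((hNF g g.2 a).1 h), ?_⟩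
        ext b
        rw [Set.mem_smul_set_iff_inv_smul_mem, mem_orb, mem_orb]
        constructor
        · rintro ⟨u, hu, rfl⟩
          exact ⟨_, hNconj _ (N.inv_mem g.2) u hu, by simp [Subgroup.smul_def]⟩
        · rintro ⟨u, hu, hu'⟩
          refine ⟨_, hNconj _ g.2 u hu, ?_⟩
          show (g : Equiv.Perm α) (u ((g : Equiv.Perm α)⁻¹ ((g : Equiv.Perm α) a))) = b
          rw [show (g : Equiv.Perm α)⁻¹ ((g : Equiv.Perm α) a) = a by simp, hu']
          simp [Subgroup.smul_def] }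
  let ρ : N →* Equiv.Perm Ω := MulAction.toPermHom N Ω
  have hkeeps : ∀ x ∈ ρ.ker, Keeps P F (x : Equiv.Perm α) := by
    intro x hx
    refine ⟨hNconj x x.2, fun a => (hNF x x.2 a).2, fun a ha => ?_⟩
    have hmemΩ : orbit P a ∈ Ω := ⟨a, ha, rfl⟩
    have h1 : x • (orbit P a) = orbit P a := by
      have h2 := congrArg Subtype.val
        (DFunLike.congr_fun (MonoidHom.mem_ker.1 hx) (⟨orbit P a, hmemΩ⟩ : Ω))
      exact h2
    exact mem_orb.1 (h1 ▸ Set.smul_mem_smul_set (mem_orbit_self a))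
  let Z : Subgroup N := (Subgroup.centralizer (P : Set (Equiv.Perm α))).comap N.subtype
  haveI hZn : Z.Normal := by
    constructor
    intro z hz g
    rw [Subgroup.mem_comap, Subgroup.mem_centralizer_iff] at hz ⊢
    intro w hw
    have h1 := hz _ (by simpa using hNconj _ (N.inv_mem g.2) w hw)
    simp only [Subgroup.coe_subtype, Subgroup.coe_mul, Subgroup.coe_inv] at h1 ⊢
    have h2 := congrArg (fun t => (g : Equiv.Perm α) * t * (g : Equiv.Perm α)⁻¹) h1
    simpa [mul_assoc] using h2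
  have hZmem : ∀ x y : N, (∀ w ∈ P, (x : Equiv.Perm α) * w * (x : Equiv.Perm α)⁻¹ =
      (y : Equiv.Perm α) * w * (y : Equiv.Perm α)⁻¹) → y⁻¹ * x ∈ Z := by
    intro x y h
    rw [Subgroup.mem_comap, Subgroup.mem_centralizer_iff]
    intro w hw
    have h1 := congrArg (fun t => (y : Equiv.Perm α)⁻¹ * t * (x : Equiv.Perm α)) (h w hw)
    simpa [mul_assoc] using h1.symm
  let C : Subgroup N := ρ.ker ⊓ Z
  haveI : C.Normal := inferInstanceAs (ρ.ker ⊓ Z).Normal
  have hFc : Fintype.card {a // a ∈ F} = r := by rw [Fintype.card_coe, hF]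
  have hC : C.map φ ≠ ⊥ := by
    intro hbot
    have hC1 : ∀ x ∈ C, φ x = 1 := fun x hx => by
      rw [← Subgroup.mem_bot, ← hbot]; exact Subgroup.mem_map_of_mem φ hx
    haveI : (ρ.ker.map φ).Normal := Subgroup.Normal.map inferInstance φ hφ
    have hK : ρ.ker.map φ ≠ ⊥ := by
      intro hK
      have hle : ρ.ker ≤ φ.ker := (Subgroup.map_eq_bot_iff _).1 hK
      have h1 : Nat.card (Equiv.Perm {a // a ∈ F}) ≤ Nat.card (Equiv.Perm Ω) := by
        rw [← Subgroup.card_top (G := Equiv.Perm {a // a ∈ F}),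
          ← MonoidHom.range_eq_top.2 hφ, ← Subgroup.index_ker]
        refine (Nat.le_of_dvd (Nat.pos_of_ne_zero Subgroup.index_ne_zero_of_finite)
          (Subgroup.index_dvd_of_le hle)).trans ?_
        rw [Subgroup.index_ker]
        exact Subgroup.card_le_card_group _
      have hΩc : Nat.card Ω = k := by rw [← hΩ]; exact Nat.card_coe_set_eq _
      rw [Nat.card_perm, Nat.card_perm, Nat.card_eq_fintype_card, hFc, hΩc] at h1
      have := (Nat.factorial_lt (by omega)).2 hrk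
      omega
    have hab : ∀ u ∈ ρ.ker.map φ, ∀ v ∈ ρ.ker.map φ, u * v = v * u := by
      rintro _ ⟨x, hx, rfl⟩ _ ⟨y, hy, rfl⟩
      have h1 : (y * x)⁻¹ * (x * y) ∈ C := ⟨ρ.ker.mul_mem (ρ.ker.inv_mem (ρ.ker.mul_mem hy hx))
        (ρ.ker.mul_mem hx hy), hZmem _ _ fun w hw => hO.conj_comm (hkeeps x hx) (hkeeps y hy) hw⟩
      have h2 := hC1 _ h1
      rw [map_mul, map_inv, inv_mul_eq_one, map_mul, map_mul] at h2
      exact h2.symm
    have hr4 := abelian_normal_small hK hab
    rw [hFc] at hr4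
    refine hK ((Subgroup.map_eq_bot_iff _).2 fun x hx => ?_)
    obtain ⟨m, hm⟩ := hO.scalar (by omega) hnocycP (hkeeps x hx)
    refine center_small (by omega) fun π => ?_
    obtain ⟨g, rfl⟩ := hφ π
    have h1 : x⁻¹ * (g * x * g⁻¹) ∈ C := by
      refine ⟨ρ.ker.mul_mem (ρ.ker.inv_mem hx) ((MonoidHom.normal_ker ρ).conj_mem x hx g),
        hZmem _ _ fun w hw => ?_⟩
      have hv := hm _ (by simpa using hNconj _ (N.inv_mem g.2) w hw)
      simp only [Subgroup.coe_mul, Subgroup.coe_inv]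
      rw [hm w hw, show ((g : Equiv.Perm α) * x * (g : Equiv.Perm α)⁻¹) * w *
          ((g : Equiv.Perm α) * x * (g : Equiv.Perm α)⁻¹)⁻¹ = (g : Equiv.Perm α) *
          ((x : Equiv.Perm α) * ((g : Equiv.Perm α)⁻¹ * w * g) * (x : Equiv.Perm α)⁻¹) *
          (g : Equiv.Perm α)⁻¹ by group, hv, ← conj_pow]
      group
    have h2 := hC1 _ h1
    rw [map_mul, map_inv, inv_mul_eq_one, map_mul, map_mul, map_inv, eq_mul_inv_iff_mul_eq] at h2
    exact h2.symm
  have hpow : ∀ x ∈ C, φ x ^ p = 1 := by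
    intro x hx
    have hcent : ∀ w ∈ P, w * (x : Equiv.Perm α) = (x : Equiv.Perm α) * w :=
      Subgroup.mem_centralizer_iff.1 hx.2
    have hout : ∀ a ∉ F, ((x : Equiv.Perm α) ^ p) a = a := by
      intro a ha
      obtain ⟨u, hu, hua⟩ := (hkeeps x hx.1).orb a ha
      have : ∀ i : ℕ, ((x : Equiv.Perm α) ^ i) a = (u ^ i) a := by
        intro i
        induction i with
        | zero => simp
        | succ i ih =>
          rw [pow_succ', Equiv.Perm.mul_apply, ih, ← Equiv.Perm.mul_apply,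
            ← hcent _ (P.pow_mem hu i), Equiv.Perm.mul_apply, ← hua, ← Equiv.Perm.mul_apply,
            ← pow_succ]
      rw [this, hO.pow_p hu, Equiv.Perm.one_apply]
    have h1 : (x : Equiv.Perm α) ^ p = 1 := by
      refine hsmall _ (G.pow_mem x.2.1 p) (lt_of_le_of_lt (Finset.card_le_card (t := F) ?_)
        (by omega))
      intro a ha
      by_contra hh
      exact Equiv.Perm.mem_support.1 ha (hout a hh)
    rw [← map_pow, show x ^ p = 1 from Subtype.ext h1, map_one]
  haveI : (C.map φ).Normal := Subgroup.Normal.map inferInstance φ hφ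
  obtain ⟨h3, hp3⟩ := exponent_normal hC (by omega) hp (by omega)
    (by rintro _ ⟨x, hx, rfl⟩; exact hpow x hx)
  rw [hFc] at h3
  subst h3 hp3
  have hk' : k = 2 := by omega
  subst hk'
  haveI : IsMultiplyPretransitive G α 4 := hG
  have hns : ¬ ∀ e : Fin 4 ↪ α, MulAction.stabilizer G e = ⊥ := fun hsharp => by
    have := Cfsg.Agent.S0415.result G (by omega) hsharp
    omega
  push Not at hns
  obtain ⟨e, he⟩ := hns
  obtain ⟨⟨g, hgG⟩, hge, hg1⟩ := (Subgroup.bot_or_exists_ne_one _).resolve_left he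
  apply hg1
  refine Subtype.ext (hsmall g hgG ?_)
  have hsub : g.support ⊆ (Finset.univ.map e)ᶜ := by
    intro a ha
    rw [Finset.mem_compl, Finset.mem_map]
    rintro ⟨i, -, rfl⟩
    exact Equiv.Perm.mem_support.1 ha (DFunLike.congr_fun (mem_stabilizer_iff.1 hge) i)
  have := Finset.card_le_card hsub
  rw [Finset.card_compl, Finset.card_map, Finset.card_univ, Fintype.card_fin] at this
  omega

/-- Let `n = kp + r` with `p` prime, `1 ≤ k < p` and `r > k`, excluding the case `k = 1, r = 2`. Then a permutation group of degree `n` that is `(r + 1)`-fold transitive contains the alternating group. -/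
theorem result {α : Type*} [Fintype α] [DecidableEq α] (G : Subgroup (Equiv.Perm α)) {k p r : ℕ} (hp : p.Prime) (hn : Fintype.card α = k * p + r) (hk : 1 ≤ k) (hpk : k < p) (hrk : k < r) (hex : ¬ (k = 1 ∧ r = 2)) (hG : MulAction.IsMultiplyPretransitive G α (r + 1)) : alternatingGroup α ≤ G := by
  exact core G hp hn hk hpk hrk (by
    by_contra h
    exact hex ⟨by omega, by omega⟩) hG

end Cfsg.Agent.S4220
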