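import Cfsg.Statements.S4222
import Mathlib

set_option autoImplicit false
open Cfsg

namespace Cfsg.Agent.S4222

/-- If a normal subgroup `N` of a finite group is complete (its centre is trivial and every automorphism of `N` is inner), then the group is the internal direct product of `N` and the centralizer of `N`: the centralizer is a complement to `N`. -/
theorem result {T : Type*} [Group T] [Finite T] (N : Subgroup T) [N.Normal] (hz : Subgroup.center ↥N = ⊥) (ha : Function.Surjective (MulAut.conj : ↥N →* MulAut ↥N)) : (Subgroup.centralizer (N : Set T)).IsComplement' N := by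
  refine Subgroup.isComplement'_of_disjoint_and_mul_eq_univ ?_ ?_
  · rw [disjoint_iff, eq_bot_iff]
    intro y hy
    have h1 : (⟨y, hy.2⟩ : N) ∈ Subgroup.center N := Subgroup.mem_center_iff.2 fun z =>
      Subtype.ext (Subgroup.mem_centralizer_iff.1 hy.1 z z.2)
    rw [hz, Subgroup.mem_bot] at h1
    exact Subgroup.mem_bot.2 (congrArg Subtype.val h1)
  · refine Set.eq_univ_of_forall fun t => ?_
    obtain ⟨n, hn⟩ := ha (MulAut.conjNormal t)
    refine ⟨t * (n : T)⁻¹, Subgroup.mem_centralizer_iff.2 fun y hy => ?_, n, n.2, by group⟩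
    have hmem : (n : T)⁻¹ * y * n ∈ N := N.mul_mem (N.mul_mem (N.inv_mem n.2) hy) n.2
    have h1 := congrArg Subtype.val (DFunLike.congr_fun hn ⟨_, hmem⟩)
    simp only [MulAut.conj_apply, Subgroup.coe_mul, Subgroup.coe_inv, MulAut.conjNormal_apply] at h1
    calc y * (t * (n : T)⁻¹) = ((n : T) * ((n : T)⁻¹ * y * n) * (n : T)⁻¹) * (t * (n : T)⁻¹) := by group
      _ = (t * ((n : T)⁻¹ * y * n) * t⁻¹) * (t * (n : T)⁻¹) := by rw [h1]
      _ = t * (n : T)⁻¹ * y := by group

end Cfsg.Agent.S4222
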