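import Cfsg.Statements.S4225
import Cfsg.Agent.H77.Regular

set_option autoImplicit false
open Cfsg

namespace Cfsg.Agent.S4225

/-- In a regular `p`-group, for every `k` the elements whose `p^k`-th power is `1` form a characteristic subgroup. -/
theorem result {G : Type*} [Group G] [Finite G] {p : ℕ} [Fact p.Prime] (hG : Cfsg.IsRegularPGroup p G) (k : ℕ) : ∃ H : Subgroup G, H.Characteristic ∧ (H : Set G) = {x : G | x ^ p ^ k = 1} := by
  refine ⟨{ carrier := {x | x ^ p ^ k = 1}
            mul_mem' := fun hx hy => Cfsg.Agent.H77.Regular.mul_pow_eq_one hG k hx hy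
            one_mem' := one_pow _
            inv_mem' := fun {x} hx => by rw [Set.mem_ofPred_eq, inv_pow, hx, inv_one] }, ?_, rfl⟩
  refine Subgroup.characteristic_iff_le_comap.2 fun φ x hx => ?_
  change φ x ^ p ^ k = 1
  rw [← map_pow, show x ^ p ^ k = 1 from hx, map_one]

end Cfsg.Agent.S4225
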