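import Cfsg.Statements.S4227
import Mathlib
import Cfsg.Agent.PSolv.HallHigman
import Cfsg.Agent.PSolv.Basic
import Cfsg.Agent.Lib.PLength
import Cfsg.Agent.Coprime.Generation
import Cfsg.Agent.PGroup.Frattini
import Cfsg.Agent.Char.Burnside
import Cfsg.Agent.S4218

set_option autoImplicit false
open Cfsg

namespace Cfsg.Agent.S4227

open scoped commutatorElement
open Cfsg.Agent.PSolv

theorem pLength_one {G : Type*} [Group G] [Finite G] {p : ℕ} [Fact p.Prime]
    (h : ¬ p ∣ (Cfsg.pCore p (G ⧸ Cfsg.pPrimeCore p G)).index) : Cfsg.PLengthLE p 1 G := by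
  set N := Cfsg.pPrimeCore p G with hN
  set X := Cfsg.pPrimePCore p G with hX
  have hXn : X.Normal := pPrimePCore_normal p G
  have h1 : useries p G 1 = N := Cfsg.Agent.PLength.useries_one
  obtain ⟨m, hm⟩ := IsPGroup.iff_card.1 (isPGroup_pCore p (G ⧸ N))
  have h2 : X ≤ useries p G 2 := by
    refine le_useries_succ_odd (n := 1) (by decide) hXn (m := m) ?_
    rw [h1, ← card_map_mk_eq_relIndex, map_pPrimePCore, hm]
  have hidx : X.index = (Cfsg.pCore p (G ⧸ N)).index :=
    Subgroup.index_comap_of_surjective _ (QuotientGroup.mk'_surjective _)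
  refine top_le_iff.1 (le_useries_succ_even (n := 2) (by decide) inferInstance ?_)
  rw [Subgroup.relIndex_top_right, Nat.coprime_comm, (Fact.out : p.Prime).coprime_iff_not_dvd]
  exact fun hd => h (hidx ▸ hd.trans (Subgroup.index_dvd_of_le h2))

theorem conj3 {Q : Type*} [Group Q] (x m : Q) :
    x * (x * (x * m * x⁻¹) * x⁻¹) * x⁻¹ = x ^ 3 * m * (x ^ 3)⁻¹ := by
  simp only [pow_succ, pow_zero, one_mul, mul_inv_rev, mul_assoc]

theorem shuffle {A : Type*} [CommGroup A] (a b c d : A) : b * a * d * c = a * b * c * d := by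
  simp only [mul_assoc, mul_comm, mul_left_comm]

theorem regroup {A : Type*} [CommGroup A] (a x0 x1 x2 x3 y0 y1 y2 y3 : A) :
    x0 * x1 * x2 * x3 * (y0 * y1 * y2 * y3) * (a * a * a * a) =
      (x0 * y0 * a) * (x1 * y2 * a) * (x2 * y3 * a) * (x3 * y1 * a) := by
  simp only [mul_assoc, mul_comm, mul_left_comm]

set_option maxHeartbeats 1000000 in
theorem three_part {G : Type*} [Group G] [Finite G] (hexp : ∀ x : G, x ^ 6 = 1)
    (hsol : Group.IsSolvable G) (A : Subgroup G) [A.Normal] (hA : ∀ a ∈ A, a ^ 3 = 1)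
    (hAcomm : ∀ a ∈ A, ∀ b ∈ A, a * b = b * a)
    (hC : Subgroup.centralizer (A : Set G) ≤ A) (hcore : Cfsg.pCore 3 G ≤ A) :
    ¬ 3 ∣ A.index := by
  classical
  intro hd
  have : Fact (Nat.Prime 2) := ⟨Nat.prime_two⟩
  have : Fact (Nat.Prime 3) := ⟨Nat.prime_three⟩
  set π := QuotientGroup.mk' A with hπ
  have hA3 : IsPGroup 3 A := fun a => ⟨1, Subtype.ext (by simpa using hA a a.2)⟩
  have hQsol : Group.IsSolvable (G ⧸ A) := Group.isSolvable_of_surjective (f := π) (QuotientGroup.mk'_surjective A)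
  have hO : Cfsg.pPrimeCore 2 (G ⧸ A) = ⊥ := by
    set K := Cfsg.pPrimeCore 2 (G ⧸ A) with hK
    have hK3 : IsPGroup 3 K := by
      intro x
      have h6 : orderOf x ∣ 6 := orderOf_dvd_of_pow_eq_one (by
        obtain ⟨y, hy⟩ := QuotientGroup.mk'_surjective A (x : G ⧸ A)
        apply Subtype.ext
        rw [SubgroupClass.coe_pow, ← hy, ← map_pow, hexp, map_one]; rfl)
      have hcop : (orderOf x).Coprime 2 :=
        (coprime_card_pPrimeCore 2 (G ⧸ A)).coprime_dvd_left (orderOf_dvd_natCard x)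
      refine ⟨1, orderOf_dvd_iff_pow_eq_one.1 ?_⟩
      rw [pow_one]
      exact (Nat.Coprime.dvd_mul_left hcop).1 (by simpa using h6)
    have hle : K.comap π ≤ A := by
      refine le_trans (le_pCore inferInstance ?_) hcore
      refine hK3.comap_of_ker_isPGroup π ?_
      rwa [QuotientGroup.ker_mk']
    rw [eq_bot_iff]
    intro q hq
    obtain ⟨g, rfl⟩ := QuotientGroup.mk'_surjective A q
    exact Subgroup.mem_bot.2 ((QuotientGroup.eq_one_iff g).2 (hle hq))
  obtain ⟨xb, hxb⟩ := exists_prime_orderOf_dvd_card' (G := G ⧸ A) 3 (by rwa [← Subgroup.index_eq_card])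
  set M := Cfsg.pCore 2 (G ⧸ A) with hM
  have hx3 : xb ^ 3 = 1 := hxb ▸ pow_orderOf_eq_one xb
  have hMsq : ∀ m ∈ M, m * m = 1 := by
    intro m hm
    obtain ⟨g, rfl⟩ := QuotientGroup.mk'_surjective A m
    obtain ⟨k, hk⟩ := (isPGroup_pCore 2 (G ⧸ A)) ⟨_, hm⟩
    have hk' : π g ^ 2 ^ k = 1 := by
      have := congrArg Subtype.val hk
      rw [SubgroupClass.coe_pow] at this
      exact this
    have h6 : π g ^ 6 = 1 := by rw [← map_pow, hexp, map_one]
    have hd2 : orderOf (π g) ∣ Nat.gcd (2 ^ k) 6 :=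
      Nat.dvd_gcd (orderOf_dvd_of_pow_eq_one hk') (orderOf_dvd_of_pow_eq_one h6)
    have hg2 : Nat.gcd (2 ^ k) 6 ∣ 2 := by
      have h3 : (Nat.gcd (2 ^ k) 6).Coprime 3 :=
        ((Nat.coprime_primes Nat.prime_two Nat.prime_three).2 (by decide)).pow_left k |>.coprime_dvd_left (Nat.gcd_dvd_left _ _)
      exact (Nat.Coprime.dvd_mul_right h3).1 (Nat.gcd_dvd_right (2 ^ k) 6)
    rw [← sq]
    exact orderOf_dvd_iff_pow_eq_one.1 (hd2.trans hg2)
  have hMcomm : ∀ m ∈ M, ∀ n ∈ M, m * n = n * m := by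
    intro m hm n hn
    have h := hMsq _ (mul_mem hm hn)
    calc m * n = (m * n)⁻¹ := (inv_eq_of_mul_eq_one_right h).symm
      _ = n⁻¹ * m⁻¹ := mul_inv_rev m n
      _ = n * m := by rw [inv_eq_of_mul_eq_one_right (hMsq m hm), inv_eq_of_mul_eq_one_right (hMsq n hn)]
  have hxM : xb ∉ Subgroup.centralizer (M : Set (G ⧸ A)) := fun h => by
    have h2 := centralizer_pCore_le (isPSolvable_of_isSolvable hQsol) hO h
    have h3 := hMsq xb h2
    have h4 : orderOf xb ∣ 2 := orderOf_dvd_of_pow_eq_one (by rw [sq]; exact h3)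
    rw [hxb] at h4
    exact absurd h4 (by norm_num)
  obtain ⟨m, hm, hmne⟩ : ∃ m ∈ M, m * xb ≠ xb * m := by
    by_contra hc
    push Not at hc
    exact hxM (Subgroup.mem_centralizer_iff.2 hc)
  have hMn : M.Normal := inferInstance
  have hcj : ∀ m ∈ M, xb * m * xb⁻¹ ∈ M := fun m hm => hMn.conj_mem m hm xb
  set m1 := xb * m * xb⁻¹ with hm1
  set m2 := xb * m1 * xb⁻¹ with hm2
  have hm3 : xb * m2 * xb⁻¹ = m := by
    rw [hm2, hm1, conj3, hx3, inv_one, one_mul, mul_one]
  set ub := m * m1 with hub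
  have hum : ub ∈ M := mul_mem hm (hcj m hm)
  set vb := xb * ub * xb⁻¹ with hvb
  set wb := xb * vb * xb⁻¹ with hwb
  have hvm : vb ∈ M := hcj _ hum
  have hwm : wb ∈ M := hcj _ hvm
  have hwu : xb * wb * xb⁻¹ = ub := by
    rw [hwb, hvb, conj3, hx3, inv_one, one_mul, mul_one]
  have hprod : ub * vb * wb = 1 := by
    have e1 : vb = m1 * m2 := by rw [hvb, hub, hm2, hm1]; group
    have e2 : wb = m2 * m := by
      rw [hwb, e1, show xb * (m1 * m2) * xb⁻¹ = (xb * m1 * xb⁻¹) * (xb * m2 * xb⁻¹) by group, hm3, ← hm2]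
    have hm1m : m1 ∈ M := hcj m hm
    have hm2m : m2 ∈ M := hcj _ hm1m
    rw [e1, e2, hub, show m * m1 * (m1 * m2) * (m2 * m) = m * (m1 * m1) * (m2 * m2) * m by group,
      hMsq _ hm1m, hMsq _ hm2m, mul_one, mul_one, hMsq _ hm]
  have hu1 : ub ≠ 1 := by
    intro h
    apply hmne
    have : m1 = m := mul_left_cancel ((hub ▸ h).trans (hMsq m hm).symm)
    calc m * xb = m1 * xb := by rw [this]
      _ = xb * m := by rw [hm1, inv_mul_cancel_right]
  obtain ⟨x, hx⟩ := QuotientGroup.mk'_surjective A xb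
  obtain ⟨u, hu⟩ := QuotientGroup.mk'_surjective A ub
  set v := x * u * x⁻¹ with hv
  set w := x * v * x⁻¹ with hw
  have hπv : π v = vb := by rw [hv, map_mul, map_mul, map_inv, hx, hu]
  have hπw : π w = wb := by rw [hw, map_mul, map_mul, map_inv, hx, hπv]
  set φ : G →* MulAut A := MulAut.conjNormal with hφ
  have hφA : ∀ g h : G, π g = π h → φ g = φ h := by
    intro g h hgh
    have hm' : g⁻¹ * h ∈ A := QuotientGroup.eq.1 hgh
    have h1 : φ (g⁻¹ * h) = 1 := by
      ext a
      rw [hφ, MulAut.conjNormal_apply, MulAut.one_apply, hAcomm _ hm' _ a.2, mul_inv_cancel_right]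
    rw [map_mul, map_inv, inv_mul_eq_one] at h1
    exact h1
  have heq : ∀ y : G, π y ^ 3 = 1 → ∀ a : A, φ y a * φ (y * y) a * a = 1 := by
    intro y hy a
    have hy3 : ∀ z : G, π z ^ 3 = 1 → z ^ 3 = 1 := by
      intro z hz
      have hzA : z ^ 3 ∈ A := (QuotientGroup.eq_one_iff (z ^ 3)).1 (by rw [QuotientGroup.mk_pow]; exact hz)
      have h1 := hA _ hzA
      have h2 := hexp z
      calc z ^ 3 = (z ^ 3) ^ 3 * ((z ^ 6))⁻¹ := by group
        _ = 1 := by rw [h1, h2, inv_one, mul_one]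
    have h1 := hy3 y hy
    have hπa : π (a : G) = 1 := (QuotientGroup.eq_one_iff (a : G)).2 a.2
    have h2 := hy3 (y * a) (by rw [map_mul, hπa, mul_one, hy])
    apply Subtype.ext
    simp only [hφ, Subgroup.coe_mul, MulAut.conjNormal_apply, Subgroup.coe_one]
    calc y * (a : G) * y⁻¹ * (y * y * (a : G) * (y * y)⁻¹) * (a : G)
        = (y * (a : G)) * y * (a : G) * (y * y)⁻¹ * (a : G) := by group
      _ = (y * (a : G)) * y * (a : G) * (y * y)⁻¹ * (y⁻¹ * (y * a)) := by group
      _ = (y * (a : G)) * y * (a : G) * (y ^ 3)⁻¹ * (y * a) := by group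
      _ = (y * (a : G)) ^ 3 := by rw [h1]; simp only [pow_succ, pow_zero, one_mul]; group
      _ = 1 := h2
  set U := φ u with hU
  set V := φ v with hV
  set W := φ w with hW
  set X := φ x with hX
  have hxu3 : ∀ z : G, π z ∈ M → π z * (xb * π z * xb⁻¹) * (xb * (xb * π z * xb⁻¹) * xb⁻¹) = 1 →
      π (x * z) ^ 3 = 1 := by
    intro z hz hp
    rw [map_mul, hx]
    have hz1 := hcj _ hz
    have hz2 := hcj _ hz1
    calc (xb * π z) ^ 3 = (xb * π z * xb⁻¹) * (xb * (xb * π z * xb⁻¹) * xb⁻¹) * xb ^ 3 * π z := by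
          simp only [pow_succ, pow_zero, one_mul]; group
      _ = π z * ((xb * π z * xb⁻¹) * (xb * (xb * π z * xb⁻¹) * xb⁻¹)) := by
          rw [hx3, mul_one, hMcomm _ (mul_mem hz1 hz2) _ hz]
      _ = 1 := by rw [← mul_assoc]; exact hp
  have eu := heq (x * u) (hxu3 u (hu ▸ hum) (by rw [hu, ← hvb, ← hwb]; exact hprod))
  have ev := heq (x * v) (hxu3 v (hπv ▸ hvm) (by
    rw [hπv, ← hwb, hwu, hMcomm _ (mul_mem hvm hwm) _ hum, ← mul_assoc]; exact hprod))
  have ew := heq (x * w) (hxu3 w (hπw ▸ hwm) (by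
    rw [hπw, hwu, ← hvb, mul_assoc, hMcomm _ hwm _ (mul_mem hum hvm)]; exact hprod))
  have ex := heq x (by rw [hx]; exact hx3)
  -- squares
  have hsq : ∀ (zb zb' : G ⧸ A) (z z' : G), π z = zb → π z' = zb' →
      zb' = xb⁻¹ * zb * xb * zb → φ ((x * z) * (x * z)) = X * X * φ z' := by
    intro zb zb' z z' hz hz' h
    rw [hX, ← map_mul, ← map_mul]
    apply hφA
    rw [map_mul, map_mul, map_mul, map_mul, hx, hz, hz', h]
    group
  have hxi : ∀ zb zb' : G ⧸ A, xb * zb' * xb⁻¹ = zb → xb⁻¹ * zb * xb = zb' := by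
    intro zb zb' h; rw [← h]; group
  have huv : ub * vb = wb := by
    rw [← inv_eq_of_mul_eq_one_left hprod]
    exact inv_eq_of_mul_eq_one_right (hMsq _ hwm)
  have hvw : vb * wb = ub := by
    have h := hprod
    rw [mul_assoc] at h
    calc vb * wb = ub * ub * (vb * wb) := by rw [hMsq _ hum, one_mul]
      _ = ub * (ub * (vb * wb)) := mul_assoc _ _ _
      _ = ub := by rw [h, mul_one]
  have hwu' : wb * ub = vb := by
    calc wb * ub = ub * wb := hMcomm _ hwm _ hum
      _ = ub * (ub * vb) := by rw [huv]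
      _ = vb := by rw [← mul_assoc, hMsq _ hum, one_mul]
  have su := hsq ub vb u v hu hπv (by rw [hxi ub wb hwu, hwu'])
  have sv := hsq vb wb v w hπv hπw (by rw [hxi vb ub hvb.symm, huv])
  have sw := hsq wb ub w u hπw hu (by rw [hxi wb vb hwb.symm, hvw])
  have sx : φ (x * x) = X * X := map_mul φ x x
  have hAc : ∀ a b : A, a * b = b * a := fun a b => Subtype.ext (hAcomm a a.2 b b.2)
  let : CommGroup A := { (inferInstance : Group A) with mul_comm := hAc }
  -- the action of `u` is trivial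
  let e : A → A := fun a => a * U a * V a * W a
  have hUU : U * U = 1 := by
    rw [hU, ← map_mul, ← map_one φ]; apply hφA; rw [map_mul, hu, map_one, hMsq _ hum]
  have hVU : V * U = W := by
    rw [hU, hV, hW, ← map_mul]; apply hφA; rw [map_mul, hπv, hu, hπw, hMcomm _ hvm _ hum, huv]
  have hWU : W * U = V := by
    rw [hU, hV, hW, ← map_mul]; apply hφA; rw [map_mul, hπw, hu, hπv, hwu']
  have hsum : ∀ a : A, X (e a) * (X * X) (e a) * a ^ 4 = 1 := by
    intro a
    have h0 := ex a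
    have h1 := eu a
    have h2 := ev a
    have h3 := ew a
    rw [sx] at h0; rw [su] at h1; rw [sv] at h2; rw [sw] at h3
    rw [map_mul φ] at h1 h2 h3
    simp only [MulAut.mul_apply] at h0 h1 h2 h3 ⊢
    simp only [← hX, ← hU, ← hV, ← hW] at h0 h1 h2 h3
    simp only [e, map_mul]
    rw [pow_succ, pow_succ, pow_succ, pow_succ]
    rw [pow_zero, one_mul, regroup, h0, h1, h2, h3, one_mul, one_mul, one_mul]
  have heU : ∀ a : A, e (U a) = e a := by
    intro a
    have h1 : U (U a) = a := by rw [← MulAut.mul_apply, hUU]; rfl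
    have h2 : V (U a) = W a := by rw [← MulAut.mul_apply, hVU]
    have h3 : W (U a) = V a := by rw [← MulAut.mul_apply, hWU]
    simp only [e, h1, h2, h3]
    exact shuffle _ _ _ _
  have hfix : ∀ a : A, U a = a := by
    intro a
    have h1 := hsum a
    have h2 := hsum (U a)
    rw [heU] at h2
    have h4 := mul_left_cancel (h2.trans h1.symm)
    have h3 : ∀ b : A, b ^ 4 = b := fun b => by
      rw [pow_succ, show b ^ 3 = 1 from Subtype.ext (by simpa using hA b b.2), one_mul]
    rwa [h3, h3] at h4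
  have huC : u ∈ Subgroup.centralizer (A : Set G) := Subgroup.mem_centralizer_iff.2 fun a ha => by
    have h1 := congrArg Subtype.val (hfix ⟨a, ha⟩)
    rw [hU, hφ, MulAut.conjNormal_apply] at h1
    exact (mul_inv_eq_iff_eq_mul.1 h1).symm
  exact hu1 (by rw [← hu]; exact (QuotientGroup.eq_one_iff u).2 (hC huC))

/-- A finite group in which every element has order dividing `6` has `2`-length at most `1` and `3`-length at most `1`. -/
theorem result {G : Type*} [Group G] [Finite G] (h : ∀ x : G, x ^ 6 = 1) : Cfsg.PLengthLE 2 1 G ∧ Cfsg.PLengthLE 3 1 G := by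
  classical
  have : Fact (Nat.Prime 2) := ⟨Nat.prime_two⟩
  have : Fact (Nat.Prime 3) := ⟨Nat.prime_three⟩
  have hsol : Group.IsSolvable G := by
    refine Cfsg.Agent.Char.solvable_of_card_eq_pow_mul_pow 2 3 Nat.prime_two Nat.prime_three _ rfl ?_
    intro r hr hrd
    have : Fact r.Prime := ⟨hr⟩
    obtain ⟨x, hx⟩ := exists_prime_orderOf_dvd_card' r hrd
    have h6 : r ∣ 2 * 3 := hx ▸ orderOf_dvd_of_pow_eq_one (h x)
    rcases hr.dvd_mul.1 h6 with h' | h'
    · exact Or.inl ((Nat.prime_dvd_prime_iff_eq hr Nat.prime_two).1 h')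
    · exact Or.inr ((Nat.prime_dvd_prime_iff_eq hr Nat.prime_three).1 h')
  constructor
  · apply pLength_one
    set Q := G ⧸ Cfsg.pPrimeCore 2 G
    have hQ : Group.IsSolvable Q := Group.isSolvable_of_surjective (f := QuotientGroup.mk' _) (QuotientGroup.mk'_surjective _)
    have hexp : ∀ q : Q, q ^ 6 = 1 := fun q => by
      obtain ⟨g, rfl⟩ := QuotientGroup.mk_surjective q
      rw [← QuotientGroup.mk_pow, h]; rfl
    have hC := centralizer_pCore_le (isPSolvable_of_isSolvable hQ) (pPrimeCore_quotient_eq_bot (p := 2) (G := G))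
    obtain ⟨S⟩ := (inferInstance : Nonempty (Sylow 2 Q))
    have hS : ∀ a ∈ (S : Subgroup Q), a * a = 1 := by
      intro a ha
      obtain ⟨k, hk⟩ := S.isPGroup' ⟨a, ha⟩
      have h1 : orderOf a ∣ Nat.gcd (2 ^ k) 6 := Nat.dvd_gcd (orderOf_dvd_of_pow_eq_one (by simpa using congrArg Subtype.val hk)) (orderOf_dvd_of_pow_eq_one (hexp a))
      have h3 : (Nat.gcd (2 ^ k) 6).Coprime 3 :=
        ((Nat.coprime_primes Nat.prime_two Nat.prime_three).2 (by decide)).pow_left k |>.coprime_dvd_left (Nat.gcd_dvd_left _ _)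
      rw [← sq]
      exact orderOf_dvd_iff_pow_eq_one.1 (h1.trans ((Nat.Coprime.dvd_mul_right h3).1 (Nat.gcd_dvd_right (2 ^ k) 6)))
    have hle : (S : Subgroup Q) ≤ Cfsg.pCore 2 Q := by
      intro a ha
      apply hC
      refine Subgroup.mem_centralizer_iff.2 fun b hb => ?_
      have hbS := pCore_le_sylow S hb
      have h1 := hS _ (mul_mem hbS ha)
      calc b * a = (b * a)⁻¹ := (inv_eq_of_mul_eq_one_right h1).symm
        _ = a⁻¹ * b⁻¹ := mul_inv_rev b a
        _ = a * b := by rw [inv_eq_of_mul_eq_one_right (hS a ha), inv_eq_of_mul_eq_one_right (hS b hbS)]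
    exact fun hd => S.not_dvd_index (hd.trans (Subgroup.index_dvd_of_le hle))
  · apply pLength_one
    set Q := G ⧸ Cfsg.pPrimeCore 3 G
    have hQ : Group.IsSolvable Q := Group.isSolvable_of_surjective (f := QuotientGroup.mk' _) (QuotientGroup.mk'_surjective _)
    have hexp : ∀ q : Q, q ^ 6 = 1 := fun q => by
      obtain ⟨g, rfl⟩ := QuotientGroup.mk_surjective q
      rw [← QuotientGroup.mk_pow, h]; rfl
    have hQs := isPSolvable_of_isSolvable (p := 3) hQ
    have hO := pPrimeCore_quotient_eq_bot (p := 3) (G := G)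
    have hC := centralizer_pCore_le hQs hO
    set P := Cfsg.pCore 3 Q with hP
    have hPp : IsPGroup 3 P := isPGroup_pCore 3 Q
    set F := (frattini ↥P).map P.subtype with hF
    have hFn : F.Normal := inferInstance
    have hFP : F ≤ P := Subgroup.map_subtype_le _
    set A := P.map (QuotientGroup.mk' F) with hA
    have hAn : A.Normal := Subgroup.Normal.map inferInstance _ (QuotientGroup.mk'_surjective F)
    have hcomap : A.comap (QuotientGroup.mk' F) = P := by
      rw [hA, Subgroup.comap_map_eq, QuotientGroup.ker_mk', sup_eq_left.2 hFP]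
    rw [← hcomap, Subgroup.index_comap_of_surjective _ (QuotientGroup.mk'_surjective F)]
    refine three_part (fun q => ?_) (Group.isSolvable_of_surjective (f := QuotientGroup.mk' F) (QuotientGroup.mk'_surjective F)) A ?_ ?_ ?_ ?_
    · obtain ⟨g, rfl⟩ := QuotientGroup.mk'_surjective F q
      rw [← map_pow, hexp, map_one]
    · rintro _ ⟨a, ha, rfl⟩
      rw [← map_pow]
      exact (QuotientGroup.eq_one_iff (a ^ 3)).2 ⟨⟨a ^ 3, pow_mem ha 3⟩, Cfsg.Agent.PGroup.pow_mem_frattini hPp ⟨a, ha⟩, rfl⟩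
    · rintro _ ⟨a, ha, rfl⟩ _ ⟨b, hb, rfl⟩
      apply commutatorElement_eq_one_iff_commute.1
      rw [← map_commutatorElement]
      exact (QuotientGroup.eq_one_iff _).2 ⟨⁅(⟨a, ha⟩ : P), ⟨b, hb⟩⁆, Cfsg.Agent.PGroup.commutatorElement_mem_frattini hPp _ _, rfl⟩
    · intro q hq
      obtain ⟨g, rfl⟩ := QuotientGroup.mk'_surjective F q
      refine ⟨g, Cfsg.Agent.S4218.mem_pCore_of_trivial hQs hO g fun x hx => ?_, rfl⟩
      have h1 := Subgroup.mem_centralizer_iff.1 hq _ (Subgroup.mem_map_of_mem _ hx)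
      refine (QuotientGroup.eq_one_iff (g * x * g⁻¹ * x⁻¹)).1 ?_
      change QuotientGroup.mk' F (g * x * g⁻¹ * x⁻¹) = 1
      rw [map_mul, map_mul, map_mul, map_inv, map_inv, ← h1, mul_inv_cancel_right, mul_inv_cancel]
    · rw [← Subgroup.map_comap_eq_self_of_surjective (QuotientGroup.mk'_surjective F) (Cfsg.pCore 3 (Q ⧸ F))]
      refine Subgroup.map_mono (le_pCore inferInstance ?_)
      refine (isPGroup_pCore 3 (Q ⧸ F)).comap_of_ker_isPGroup _ ?_
      rw [QuotientGroup.ker_mk']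
      exact hPp.to_le hFP

end Cfsg.Agent.S4227
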