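import Cfsg.Statements.S4273
import Cfsg.Agent.Order175560.Centralizer
import Cfsg.Agent.J1Unique.Main

set_option autoImplicit false
open Cfsg

namespace Cfsg.Agent.S4273

/-- Uniqueness of the simple group of order 175560: any two finite simple groups of order 175560 are isomorphic. -/
theorem result {G : Type*} {H : Type*} [Group G] [Finite G] [IsSimpleGroup G] [Group H] [Finite H] [IsSimpleGroup H] (hG : Nat.card G = 175560) (hH : Nat.card H = 175560) : Nonempty (G ≃* H) := by
  obtain ⟨t, ht, ⟨e⟩⟩ := Order175560.centralizer_iso hG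
  obtain ⟨u, hu, ⟨f⟩⟩ := Order175560.centralizer_iso hH
  exact J1Unique.nonempty_mulEquiv hG hH ht.1 hu.1 e f

end Cfsg.Agent.S4273
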