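import Cfsg.Statements.S4275
import Mathlib.GroupTheory.GroupAction.Quotient
import Mathlib.GroupTheory.Index

set_option autoImplicit false
open Cfsg

namespace Cfsg.Agent.S4275

/-- Let G be a transitive group of permutations of a finite set Ω, let o ∈ Ω, and let α be an automorphism of G. Then α is induced by conjugation by a permutation of Ω normalizing G if and only if the image under α of the stabilizer of o fixes some point of Ω. -/
theorem result {Ω : Type*} [Fintype Ω] (G : Subgroup (Equiv.Perm Ω)) (htr : MulAction.IsPretransitive G Ω) (o : Ω) (α : G ≃* G) : (∃ σ : Equiv.Perm Ω, σ ∈ Subgroup.normalizer (G : Set (Equiv.Perm Ω)) ∧ ∀ g : G, ((α g : G) : Equiv.Perm Ω) = σ * (g : Equiv.Perm Ω) * σ⁻¹) ↔ ∃ ω : Ω, ∀ g ∈ (MulAction.stabilizer G o).map α.toMonoidHom, g • ω = ω := by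
  classical
  haveI := htr
  constructor
  · rintro ⟨σ, -, hσ⟩
    refine ⟨σ o, ?_⟩
    rintro _ ⟨h, hh, rfl⟩
    change ((α h : G) : Equiv.Perm Ω) (σ o) = σ o
    rw [hσ, Equiv.Perm.mul_apply, Equiv.Perm.mul_apply, show σ⁻¹ (σ o) = o from σ.symm_apply_apply o,
      show (h : Equiv.Perm Ω) o = o from hh]
  · rintro ⟨ω, hω⟩
    have hle : (MulAction.stabilizer G o).map α.toMonoidHom ≤ MulAction.stabilizer G ω := hω
    have heq : (MulAction.stabilizer G o).map α.toMonoidHom = MulAction.stabilizer G ω := by
      refine Subgroup.eq_of_le_of_card_ge hle (le_of_eq ?_)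
      obtain ⟨g, hg⟩ := MulAction.exists_smul_eq G o ω
      have hω' : MulAction.stabilizer G ω = (MulAction.stabilizer G o).map (MulAut.conj g).toMonoidHom := by
        rw [← hg, MulAction.stabilizer_smul_eq_stabilizer_map_conj]
      rw [hω', Subgroup.card_map_of_injective (MulAut.conj g).injective, Subgroup.card_map_of_injective α.injective]
    choose t ht using fun y : Ω => MulAction.exists_smul_eq G o y
    set f : Ω → Ω := fun y => α (t y) • ω with hf
    have key : ∀ g : G, f (g • o) = α g • ω := by
      intro g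
      have h1 : g⁻¹ * t (g • o) ∈ MulAction.stabilizer G o := by
        rw [MulAction.mem_stabilizer_iff, mul_smul, ht, inv_smul_smul]
      have h2 : α (g⁻¹ * t (g • o)) ∈ MulAction.stabilizer G ω := heq.le ⟨_, h1, rfl⟩
      rw [MulAction.mem_stabilizer_iff, map_mul, map_inv, mul_smul, inv_smul_eq_iff] at h2
      exact h2
    have hinj : Function.Injective f := by
      intro y z h
      obtain ⟨g, rfl⟩ := MulAction.exists_smul_eq G o y
      obtain ⟨k, rfl⟩ := MulAction.exists_smul_eq G o z
      rw [key, key] at h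
      have h1 : α (k⁻¹ * g) ∈ MulAction.stabilizer G ω := by
        rw [MulAction.mem_stabilizer_iff, map_mul, map_inv, mul_smul, h, inv_smul_smul]
      rw [← heq] at h1
      obtain ⟨w, hw, hwe⟩ := h1
      have e : w = k⁻¹ * g := α.injective hwe
      have hw' : (k⁻¹ * g) • o = o := e ▸ hw
      rw [mul_smul, inv_smul_eq_iff] at hw'
      exact hw'
    set σ : Equiv.Perm Ω := Equiv.ofBijective f (Finite.injective_iff_bijective.1 hinj)
    have hcomm : ∀ g : G, ((α g : G) : Equiv.Perm Ω) * σ = σ * (g : Equiv.Perm Ω) := by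
      intro g
      refine Equiv.ext fun y => ?_
      obtain ⟨k, rfl⟩ := MulAction.exists_smul_eq G o y
      change α g • f (k • o) = f (g • k • o)
      rw [smul_smul g k o, key, key, map_mul, mul_smul]
    refine ⟨σ, ?_, fun g => eq_mul_inv_of_mul_eq (hcomm g)⟩
    rw [Subgroup.mem_normalizer_iff]
    intro z
    constructor
    · intro hz
      rw [← hcomm ⟨z, hz⟩, mul_inv_cancel_right]
      exact (α ⟨z, hz⟩).2
    · intro hz
      obtain ⟨g, hg⟩ := α.surjective ⟨_, hz⟩
      have h1 := hcomm g
      rw [hg] at h1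
      change σ * z * σ⁻¹ * σ = σ * (g : Equiv.Perm Ω) at h1
      rw [inv_mul_cancel_right, mul_right_inj] at h1
      exact h1 ▸ g.2

end Cfsg.Agent.S4275
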