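import Cfsg.Statements.S4277
import Cfsg.Agent.FGS.PrimeIndexOut

set_option autoImplicit false
open Cfsg
open scoped Pointwise commutatorElement

namespace Cfsg.Agent.S4277

/-- A case of the Schreier conjecture: if a finite simple group G has a subgroup of prime index, then the outer automorphism group of G is solvable. -/
theorem result {G : Type*} [Group G] [Finite G] [IsSimpleGroup G] (H : Subgroup G) (hH : H.index.Prime) : Group.IsSolvable (Cfsg.Out G) := by
  classical
  set p := H.index with hp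
  haveI : Fact p.Prime := ⟨hH⟩
  by_cases hab : Group.IsSolvable G
  · -- a solvable simple group is cyclic, so its automorphism group is abelian
    have hcomm : ∀ a b : G, a * b = b * a := by
      intro a b
      by_contra hne
      refine (Group.IsSolvable.commutator_lt_top_of_nontrivial (G := G)).ne ?_
      refine (Subgroup.Normal.eq_bot_or_eq_top (H := commutator G) inferInstance).resolve_left fun h => hne ?_
      have : ⁅a, b⁆ ∈ commutator G := Subgroup.commutator_mem_commutator (Subgroup.mem_top _) (Subgroup.mem_top _)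
      rw [h, Subgroup.mem_bot, commutatorElement_eq_one_iff_mul_comm] at this
      exact this
    letI : CommGroup G := { (inferInstance : Group G) with mul_comm := hcomm }
    haveI : IsCyclic G := inferInstance
    obtain ⟨g, hg⟩ := IsCyclic.exists_generator (α := G)
    have : Group.IsSolvable (MulAut G) := Group.isSolvable_of_comm fun φ ψ => by
      refine MulEquiv.ext fun x => ?_
      obtain ⟨a, ha⟩ := Subgroup.mem_zpowers_iff.1 (hg (φ g))
      obtain ⟨b, hb⟩ := Subgroup.mem_zpowers_iff.1 (hg (ψ g))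
      obtain ⟨c, rfl⟩ := Subgroup.mem_zpowers_iff.1 (hg x)
      rw [MulAut.mul_apply, MulAut.mul_apply, map_zpow, map_zpow, map_zpow, map_zpow, ← ha, ← hb,
        map_zpow, map_zpow, ← ha, ← hb, ← zpow_mul g b, ← zpow_mul g a, mul_comm b a]
    exact solvable_of_surjective (QuotientGroup.mk'_surjective _)
  haveI : Nonempty (G ⧸ H) := ⟨QuotientGroup.mk 1⟩
  haveI := Fintype.ofFinite (G ⧸ H)
  have hcard : Fintype.card (G ⧸ H) = p := by
    rw [← Nat.card_eq_fintype_card]; rfl
  haveI : FaithfulSMul G (G ⧸ H) := by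
    suffices hi : Function.Injective (MulAction.toPermHom G (G ⧸ H)) from ⟨fun h => hi (Equiv.ext h)⟩
    refine (MonoidHom.ker_eq_bot_iff _).1 ?_
    rw [← Subgroup.normalCore_eq_ker]
    refine (Subgroup.Normal.eq_bot_or_eq_top (H := H.normalCore) inferInstance).resolve_right fun h => ?_
    exact hH.ne_one (Subgroup.index_eq_one.2 (top_le_iff.1 (h ▸ H.normalCore_le)))
  have h2 := Cfsg.Agent.PermLib.two_pretransitive_of_not_solvable (Ω := G ⧸ H) hcard hab
  obtain ⟨σ, hσ⟩ := Cfsg.Agent.PermLib.exists_orderOf_eq_prime (G := G) (Ω := G ⧸ H) hcard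
  obtain ⟨e, he⟩ := Cfsg.Agent.PermLib.exists_coords hcard hσ
  have hG : Nat.card G ∣ Nat.factorial p := by
    rw [← hcard, ← Fintype.card_perm, ← Nat.card_eq_fintype_card]
    exact Subgroup.card_dvd_of_injective _
      (fun a b h => MulAction.toPerm_injective h : Function.Injective (MulAction.toPermHom G (G ⧸ H)))
  have hGp : ¬ p ^ 2 ∣ Nat.card G := by
    intro h
    have h2 := h.trans hG
    obtain ⟨k, hk⟩ : ∃ k, p = k + 1 := ⟨p - 1, (Nat.succ_pred hH.pos.ne').symm⟩
    rw [hk, Nat.factorial_succ, pow_two, Nat.mul_dvd_mul_iff_left (Nat.succ_pos k)] at h2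
    rw [← hk] at h2
    have := (hH.dvd_factorial).1 h2
    omega
  haveI : NeZero p := ⟨hH.ne_zero⟩
  obtain ⟨ζ, hζ⟩ : ∃ ζ : ℂ, IsPrimitiveRoot ζ p :=
    ⟨_, Complex.isPrimitiveRoot_exp p hH.ne_zero⟩
  set Z := Subgroup.zpowers σ with hZ
  have hZp : Nat.card Z = p := (Nat.card_zpowers σ).trans hσ
  let N : Subgroup (MulAut G) := MulAction.stabilizer (MulAut G) Z
  -- the stabiliser of the cycle is solvable
  have hNs : Group.IsSolvable N := by
    have hmem : ∀ φ : N, ∀ x ∈ Z, (φ : MulAut G) x ∈ Z := fun φ x hx =>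
      (φ.2 : (φ : MulAut G) • Z = Z) ▸ Subgroup.smul_mem_pointwise_smul x _ Z hx
    let r : N →* MulAut Z :=
      { toFun := fun φ =>
          { toFun := fun x => ⟨(φ : MulAut G) x, hmem φ x x.2⟩
            invFun := fun x => ⟨(↑φ⁻¹ : MulAut G) x, hmem φ⁻¹ x x.2⟩
            left_inv := fun x => Subtype.ext ((φ : MulAut G).symm_apply_apply _)
            right_inv := fun x => Subtype.ext ((φ : MulAut G).apply_symm_apply _)
            map_mul' := fun x y => Subtype.ext (map_mul (φ : MulAut G) _ _) }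
        map_one' := rfl
        map_mul' := fun φ ψ => rfl }
    haveI : IsCyclic Z := Subgroup.isCyclic_zpowers σ
    have : Group.IsSolvable (MulAut Z) := Group.isSolvable_of_comm fun φ ψ => by
      obtain ⟨g, hg⟩ := IsCyclic.exists_generator (α := Z)
      refine MulEquiv.ext fun x => ?_
      obtain ⟨a, ha⟩ := Subgroup.mem_zpowers_iff.1 (hg (φ g))
      obtain ⟨b, hb⟩ := Subgroup.mem_zpowers_iff.1 (hg (ψ g))
      obtain ⟨c, rfl⟩ := Subgroup.mem_zpowers_iff.1 (hg x)
      rw [MulAut.mul_apply, MulAut.mul_apply, map_zpow, map_zpow, map_zpow, map_zpow, ← ha, ← hb,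
        map_zpow, map_zpow, ← ha, ← hb, ← zpow_mul g b, ← zpow_mul g a, mul_comm b a]
    have hker : Group.IsSolvable r.ker := Group.isSolvable_of_comm fun φ ψ => by
      have hfix : ∀ χ : r.ker, ((χ : N) : MulAut G) σ = σ := fun χ =>
        congrArg Subtype.val (DFunLike.congr_fun χ.2 ⟨σ, Subgroup.mem_zpowers σ⟩)
      exact Subtype.ext (Subtype.ext
        (FGS.PrimeIndex.commute_of_fix he hζ h2 hGp (hfix φ) (hfix ψ)))
    exact Group.isSolvable_of_ker_le_range r.ker.subtype r (by simp)
  -- and it covers the outer automorphism group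
  have hsyl : ∀ φ : MulAut G, ∃ g : G, (MulAut.conj g * φ) ∈ N := by
    intro φ
    let P : Sylow p G := (IsPGroup.of_card (n := 1) (hZp.trans (pow_one p).symm)).toSylow (by
      intro hd
      apply hGp
      rw [← Subgroup.card_mul_index Z, hZp, pow_two]
      exact Nat.mul_dvd_mul_left _ hd)
    obtain ⟨g, hg⟩ := MulAction.exists_smul_eq G (φ • P) P
    refine ⟨g, ?_⟩
    have hZ' : MulAut.conj g • φ • Z = Z := congrArg Sylow.toSubgroup hg
    rw [MulAction.mem_stabilizer_iff, mul_smul]
    exact hZ'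
  refine solvable_of_surjective (f := (QuotientGroup.mk' (Cfsg.Inn G)).comp N.subtype) fun q => ?_
  obtain ⟨φ, rfl⟩ := QuotientGroup.mk'_surjective _ q
  obtain ⟨g, hg⟩ := hsyl φ
  refine ⟨⟨_, hg⟩, ?_⟩
  change QuotientGroup.mk' (Cfsg.Inn G) (MulAut.conj g * φ) = _
  rw [map_mul, show QuotientGroup.mk' (Cfsg.Inn G) (MulAut.conj g) = 1 from
    (QuotientGroup.eq_one_iff _).2 ⟨g, rfl⟩, one_mul]

end Cfsg.Agent.S4277
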