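import Cfsg.Statements.S4281
import Cfsg.Agent.Lang.InvE8

set_option autoImplicit false
open scoped BigOperators
open Cfsg

namespace Cfsg.Agent.S4281

/-- In the Chevalley group of type E₈ over a finite field of odd order q there are exactly two conjugacy classes of involutions; the centralizer of an involution in one class has order q⁵⁶(q⁸ − 1)·∏_{i=1}^{7}(q^{2i} − 1), and in the other class q⁶⁴(q² − 1)²(q⁶ − 1)(q⁸ − 1)(q¹⁰ − 1)(q¹² − 1)(q¹⁴ − 1)(q¹⁸ − 1). -/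
theorem result {F : Type*} [Field F] [Fintype F] (hF : Odd (Fintype.card F)) : ∃ s t : ↥(Cfsg.Lie.chevE8.group F), orderOf s = 2 ∧ orderOf t = 2 ∧ ¬ IsConj s t ∧ (∀ u : ↥(Cfsg.Lie.chevE8.group F), orderOf u = 2 → IsConj u s ∨ IsConj u t) ∧ Nat.card (Subgroup.centralizer ({s} : Set ↥(Cfsg.Lie.chevE8.group F))) = Fintype.card F ^ 56 * (Fintype.card F ^ 8 - 1) * ∏ i ∈ Finset.Icc 1 7, (Fintype.card F ^ (2 * i) - 1) ∧ Nat.card (Subgroup.centralizer ({t} : Set ↥(Cfsg.Lie.chevE8.group F))) = Fintype.card F ^ 64 * (Fintype.card F ^ 2 - 1) ^ 2 * (Fintype.card F ^ 6 - 1) * (Fintype.card F ^ 8 - 1) * (Fintype.card F ^ 10 - 1) * (Fintype.card F ^ 12 - 1) * (Fintype.card F ^ 14 - 1) * (Fintype.card F ^ 18 - 1) := by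
  classical
  obtain ⟨q, hq⟩ : ∃ q, Fintype.card F = q := ⟨_, rfl⟩
  have hq2 : 2 ≤ q := hq ▸ Fintype.one_lt_card
  have hP : ∏ i ∈ Finset.Icc (1 : ℕ) 7, (q ^ (2 * i) - 1) = (q ^ 2 - 1) * (q ^ 4 - 1) * (q ^ 6 - 1) *
      (q ^ 8 - 1) * (q ^ 10 - 1) * (q ^ 12 - 1) * (q ^ 14 - 1) := by
    simp [show Finset.Icc (1 : ℕ) 7 = {1, 2, 3, 4, 5, 6, 7} by decide, mul_assoc]
  refine Cfsg.Agent.Lang.involution_classes (C := Cfsg.Agent.Chev.certE8) (by simp) Cfsg.Agent.Lang.InvE8.rootData hF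
    Cfsg.Agent.Lang.InvE8.valid1 Cfsg.Agent.Lang.InvE8.valid2 Cfsg.Agent.Lang.InvE8.corOK1
    Cfsg.Agent.Lang.InvE8.corOK2 Cfsg.Agent.Lang.InvE8.coverAll Cfsg.Agent.Lang.InvE8.moves1
    Cfsg.Agent.Lang.InvE8.moves2 _ _ ?_ ?_ ?_
  · have h := congrArg (List.map fun l : List ℕ => (l.map fun k => q ^ k).sum) Cfsg.Agent.Lang.InvE8.expList1
    rw [List.map_map, Function.comp_def] at h
    rw [Cfsg.Agent.Lang.InvE8.lastCard1, hq, h]
    try rw [hP]
    simp only [Cfsg.Agent.Lang.InvE8.exps1, List.map_cons, List.map_nil, List.prod_cons, List.prod_nil,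
      List.sum_cons, List.sum_nil, show Cfsg.Lie.chevE8.rank = 8 from rfl]
    zify [Nat.one_le_pow _ q (by omega), show 1 ≤ q by omega]
    ring
  · have h := congrArg (List.map fun l : List ℕ => (l.map fun k => q ^ k).sum) Cfsg.Agent.Lang.InvE8.expList2
    rw [List.map_map, Function.comp_def] at h
    rw [Cfsg.Agent.Lang.InvE8.lastCard2, hq, h]
    try rw [hP]
    simp only [Cfsg.Agent.Lang.InvE8.exps2, List.map_cons, List.map_nil, List.prod_cons, List.prod_nil,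
      List.sum_cons, List.sum_nil, show Cfsg.Lie.chevE8.rank = 8 from rfl]
    zify [Nat.one_le_pow _ q (by omega), show 1 ≤ q by omega]
    ring
  · intro h
    rw [hq, hP] at h
    have hpow : q ^ 64 = q ^ 56 * q ^ 8 := by rw [← pow_add]
    rw [hpow] at h
    simp only [mul_assoc] at h
    have h1 := mul_left_cancel₀ (pow_ne_zero 56 (show q ≠ 0 by omega)) h
    have : Fact (1 < q) := ⟨hq2⟩
    have h2 := congrArg (fun n : ℕ => (n : ZMod q)) h1
    simp only [Nat.cast_mul, Nat.cast_pow, Nat.cast_sub (Nat.one_le_pow _ q (by omega)),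
      ZMod.natCast_self] at h2
    norm_num at h2


end Cfsg.Agent.S4281
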