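import Cfsg.Statements.S4283
import Cfsg.Agent.Lib.FrobeniusGroup

set_option autoImplicit false
open Cfsg
open scoped Pointwise

namespace Cfsg.Agent.S4283

/-- Let G be a finite group with centre Z and let K, H be abelian subgroups of G containing Z such that G/Z is a Frobenius group with complement H/Z and kernel K/Z. Then the conjugacy class sizes of G are exactly 1, [G : K] and [G : H], and these two indices are coprime. (This is the converse half of the characterization of finite groups whose conjugacy class sizes are exactly 1, m and n with m and n coprime.) -/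
theorem result {G : Type*} [Group G] [Finite G] (K H : Subgroup G) (hZK : Subgroup.center G ≤ K) (hZH : Subgroup.center G ≤ H) (hK : IsMulCommutative K) (hH : IsMulCommutative H) (hFrob : Cfsg.IsFrobeniusComplement (H.map (QuotientGroup.mk' (Subgroup.center G)))) (hker : Cfsg.frobeniusKernel (H.map (QuotientGroup.mk' (Subgroup.center G))) = (K.map (QuotientGroup.mk' (Subgroup.center G)) : Set (G ⧸ Subgroup.center G))) : Set.range (fun x : G => (Subgroup.centralizer ({x} : Set G)).index) = ({1, K.index, H.index} : Set ℕ) ∧ K.index.Coprime H.index := by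
  set π := QuotientGroup.mk' (Subgroup.center G) with hπ
  set K' := K.map π
  set H' := H.map π
  have hcK : K'.comap π = K := by rw [Subgroup.comap_map_eq, QuotientGroup.ker_mk', sup_eq_left.2 hZK]
  have hcH : H'.comap π = H := by rw [Subgroup.comap_map_eq, QuotientGroup.ker_mk', sup_eq_left.2 hZH]
  obtain ⟨N, hN, hNn, hc⟩ := Cfsg.Agent.Frobenius.exists_kernel hFrob
  have hNK : N = K' := SetLike.coe_injective (hN.trans hker)
  subst hNK
  haveI := hNn
  have hiK : K.index = Nat.card H' := by
    rw [← hcK, Subgroup.index_comap_of_surjective _ (QuotientGroup.mk'_surjective _)]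
    exact hc.symm.index_eq_card
  have hiH : H.index = Nat.card K' := by
    rw [← hcH, Subgroup.index_comap_of_surjective _ (QuotientGroup.mk'_surjective _)]
    exact hc.index_eq_card
  have hcop : K.index.Coprime H.index := by
    rw [hiK, hiH]; exact (Cfsg.Agent.Frobenius.coprime_of_complement hFrob hc).symm
  have hone : ∀ z : G, (Subgroup.centralizer ({z} : Set G)).index = 1 ↔ π z = 1 := by
    intro z
    rw [Subgroup.index_eq_one, Subgroup.centralizer_eq_top_iff_subset, Set.singleton_subset_iff]
    exact (QuotientGroup.eq_one_iff z).symm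
  have hK1 : ∀ x ∈ K, π x ≠ 1 → Subgroup.centralizer ({x} : Set G) = K := by
    intro x hx hx1
    refine le_antisymm (fun y hy => ?_) fun y hy => ?_
    · rw [← hcK, Subgroup.mem_comap]
      by_contra hyK
      have hyK' : π y ∉ Cfsg.frobeniusKernel H' := by rw [← hN]; exact hyK
      obtain ⟨-, hy2⟩ : π y ≠ 1 ∧ ¬ ∀ g, π y ∉ MulAut.conj g • H' := not_or.1 hyK'
      push Not at hy2
      obtain ⟨g, hg⟩ := hy2
      have hy1 : π y ≠ 1 := fun h => hyK (h ▸ one_mem _)
      have hcomm : π x * π y = π y * π x := by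
        rw [← map_mul, ← map_mul, Subgroup.mem_centralizer_singleton_iff.1 hy]
      have hxg := Cfsg.Agent.Frobenius.mem_of_commute
        (Cfsg.Agent.Frobenius.isFrobeniusComplement_conj hFrob g) hg hy1 hcomm
      have hxK : π x ∈ Cfsg.frobeniusKernel H' := by rw [← hN]; exact ⟨x, hx, rfl⟩
      rcases hxK with h | h
      · exact hx1 h
      · exact h g hxg
    · exact Subgroup.mem_centralizer_singleton_iff.2 (congrArg Subtype.val (mul_comm' (⟨y, hy⟩ : K) ⟨x, hx⟩))
  have hH1 : ∀ (g x : G), g⁻¹ * x * g ∈ H → π x ≠ 1 →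
      Subgroup.centralizer ({x} : Set G) = MulAut.conj g • H := by
    intro g x hx hx1
    have hconj : ∀ y, y ∈ MulAut.conj g • H ↔ g⁻¹ * y * g ∈ H := fun y => by
      rw [Subgroup.mem_pointwise_smul_iff_inv_smul_mem, ← map_inv, MulAut.smul_def, MulAut.conj_apply, inv_inv]
    refine le_antisymm (fun y hy => ?_) fun y hy => ?_
    · rw [hconj, ← hcH, Subgroup.mem_comap]
      refine Cfsg.Agent.Frobenius.mem_of_commute hFrob (Subgroup.mem_map_of_mem π hx) (fun h => hx1 ?_) ?_
      · rw [map_mul, map_mul, map_inv] at h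
        calc π x = π g * ((π g)⁻¹ * π x * π g) * (π g)⁻¹ := by group
          _ = 1 := by rw [h]; group
      · rw [← map_mul, ← map_mul]
        congr 1
        calc g⁻¹ * y * g * (g⁻¹ * x * g) = g⁻¹ * (y * x) * g := by group
          _ = g⁻¹ * (x * y) * g := by rw [Subgroup.mem_centralizer_singleton_iff.1 hy]
          _ = g⁻¹ * x * g * (g⁻¹ * y * g) := by group
    · rw [hconj] at hy
      refine Subgroup.mem_centralizer_singleton_iff.2 ?_
      have h := congrArg Subtype.val (mul_comm' (⟨_, hy⟩ : H) ⟨_, hx⟩)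
      simp only [Subgroup.coe_mul] at h
      calc y * x = g * (g⁻¹ * y * g * (g⁻¹ * x * g)) * g⁻¹ := by group
        _ = g * (g⁻¹ * x * g * (g⁻¹ * y * g)) * g⁻¹ := by rw [h]
        _ = x * y := by group
  refine ⟨Set.ext fun n => ⟨?_, ?_⟩, hcop⟩
  · rintro ⟨x, rfl⟩
    simp only [Set.mem_insert_iff, Set.mem_singleton_iff]
    by_cases hx1 : π x = 1
    · exact Or.inl ((hone x).2 hx1)
    by_cases hxK : x ∈ K
    · exact Or.inr (Or.inl (by rw [hK1 x hxK hx1]))
    · have hxK' : π x ∉ Cfsg.frobeniusKernel H' := by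
        rw [← hN]; intro h
        exact hxK (hcK.le h)
      obtain ⟨-, hx2⟩ : π x ≠ 1 ∧ ¬ ∀ g, π x ∉ MulAut.conj g • H' := not_or.1 hxK'
      push Not at hx2
      obtain ⟨g, hg⟩ := hx2
      obtain ⟨g, rfl⟩ := QuotientGroup.mk'_surjective _ g
      have hgx : g⁻¹ * x * g ∈ H := by
        rw [← hcH, Subgroup.mem_comap, map_mul, map_mul, map_inv]
        rw [Subgroup.mem_pointwise_smul_iff_inv_smul_mem, ← map_inv, MulAut.smul_def, MulAut.conj_apply, inv_inv] at hg
        exact hg
      rw [hH1 g x hgx hx1]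
      exact Or.inr (Or.inr (Subgroup.index_map_of_bijective (MulAut.conj g).bijective H))
  · simp only [Set.mem_insert_iff, Set.mem_singleton_iff]
    rintro (rfl | rfl | rfl)
    · exact ⟨1, (hone 1).2 (map_one π)⟩
    · obtain ⟨⟨_, x, hx, rfl⟩, hx1⟩ := (Subgroup.ne_bot_iff_exists_ne_one).1
        (Cfsg.Agent.Frobenius.ne_bot_of_isComplement' hFrob hc)
      exact ⟨x, by dsimp only; rw [hK1 x hx (fun h => hx1 (Subtype.ext h))]⟩
    · obtain ⟨⟨_, x, hx, rfl⟩, hx1⟩ := (Subgroup.ne_bot_iff_exists_ne_one).1 hFrob.1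
      refine ⟨x, ?_⟩
      dsimp only
      rw [hH1 1 x (by simpa using hx) (fun h => hx1 (Subtype.ext h)), map_one, one_smul]

end Cfsg.Agent.S4283
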