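import Cfsg.Statements.S4295
import Cfsg.Agent.FGS.FrobEven
import Mathlib.GroupTheory.SpecificGroups.Quaternion
import Mathlib.Tactic.LinearCombination
import Mathlib.NumberTheory.SumFourSquares

set_option autoImplicit false
open Cfsg

namespace Cfsg.Agent.S4295

open Cfsg.Agent.FGS.FC

def endIm {R : Type} [CommRing R] (x y z w : R) : AddMonoid.End (R × R) :=
  AddMonoidHom.mk' (fun v => (x * v.1 + y * v.2, z * v.1 + w * v.2))
    (fun v u => by simp only [Prod.fst_add, Prod.snd_add, Prod.mk_add_mk, Prod.mk.injEq]; constructor <;> ring)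

theorem endIm_apply {R : Type} [CommRing R] (x y z w : R) (v : R × R) :
    endIm x y z w v = (x * v.1 + y * v.2, z * v.1 + w * v.2) := rfl

def endI {R : Type} [CommRing R] : AddMonoid.End (R × R) := endIm 0 (-1) 1 0

/-- The images of the eight elements, for `s ^ 2 + t ^ 2 = -1`. -/
def qEnd {R : Type} [CommRing R] (s t : R) : QuaternionGroup 2 → AddMonoid.End (R × R)
  | .a i => endI ^ i.val
  | .xa i => endIm s t t (-s) * endI ^ i.val

theorem qEnd_mul {R : Type} [CommRing R] (s t : R) (h : s * s + t * t = -1) (u v : QuaternionGroup 2) :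
    qEnd s t (u * v) = qEnd s t u * qEnd s t v := by
  set I : AddMonoid.End (R × R) := endI
  set J : AddMonoid.End (R × R) := endIm s t t (-s)
  have hI4 : I ^ 4 = 1 := by
    refine AddMonoidHom.ext fun x => ?_
    change I (I (I (I x))) = x
    simp only [I, endI, endIm_apply]; ext <;> ring
  have hIJ : I * J = J * I ^ 3 := by
    refine AddMonoidHom.ext fun x => ?_
    change I (J x) = J (I (I (I x)))
    simp only [I, J, endI, endIm_apply]; ext <;> ring
  have hJJ : J * J = I ^ 2 := by
    refine AddMonoidHom.ext fun x => ?_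
    change J (J x) = I (I x)
    simp only [I, J, endI, endIm_apply]
    ext
    · linear_combination x.1 * h
    · linear_combination x.2 * h
  have hswap : ∀ n : ℕ, I ^ n * J = J * I ^ (3 * n) := by
    intro n
    induction n with
    | zero => simp
    | succ n ih => rw [pow_succ', mul_assoc, ih, ← mul_assoc, hIJ, mul_assoc, ← pow_add]; ring_nf
  have hmod : ∀ m n : ℕ, m % 4 = n % 4 → I ^ m = I ^ n := fun m n e => by
    rw [pow_eq_pow_mod m hI4, pow_eq_pow_mod n hI4, e]
  rcases u with i | i <;> rcases v with k | k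
  · rw [QuaternionGroup.a_mul_a]
    change I ^ (i + k).val = I ^ i.val * I ^ k.val
    rw [← pow_add]; exact hmod _ _ (by revert i k; decide)
  · rw [QuaternionGroup.a_mul_xa]
    change J * I ^ (k - i).val = I ^ i.val * (J * I ^ k.val)
    rw [← mul_assoc, hswap, mul_assoc, ← pow_add]; congr 1; exact hmod _ _ (by revert i k; decide)
  · rw [QuaternionGroup.xa_mul_a]
    change J * I ^ (i + k).val = J * I ^ i.val * I ^ k.val
    rw [mul_assoc, ← pow_add]; congr 1; exact hmod _ _ (by revert i k; decide)
  · rw [QuaternionGroup.xa_mul_xa]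
    change I ^ ((2 : ℕ) + k - i : ZMod (2 * 2)).val = J * I ^ i.val * (J * I ^ k.val)
    rw [mul_assoc, ← mul_assoc (I ^ i.val), hswap, mul_assoc J, ← mul_assoc J, hJJ, ← pow_add, ← pow_add]
    exact hmod _ _ (by revert i k; decide)

theorem exists_sq_add_sq (p : ℕ) [Fact p.Prime] : ∃ s t : ZMod p, s * s + t * t = -1 := by
  obtain ⟨s, t, h⟩ := ZMod.sq_add_sq p (-1)
  exact ⟨s, t, by simpa [sq] using h⟩

theorem hasFpf_sq (k : ℕ) (hk : Odd k) : HasFpf (QuaternionGroup 2) (k * k) := by
  induction k using Nat.recOnMul with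
  | zero => exact absurd hk (by decide)
  | one => exact ⟨PUnit, inferInstance, inferInstance, 1, by simp, fun _ _ v _ => Subsingleton.elim v 0⟩
  | prime p hp =>
    haveI := Fact.mk hp
    obtain ⟨s, t, h⟩ := exists_sq_add_sq p
    refine ⟨ZMod p × ZMod p, inferInstance, inferInstance,
      { toFun := qEnd s t
        map_one' := by
          refine AddMonoidHom.ext fun x => ?_
          change qEnd s t (QuaternionGroup.a 0) x = x
          simp [qEnd]
        map_mul' := qEnd_mul s t h }, by simp, ?_⟩
    intro u hu v hv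
    change qEnd s t u v = v at hv
    have hsq : qEnd s t (QuaternionGroup.a 2) v = v := by
      have hall : ∀ w : QuaternionGroup 2, w ≠ 1 → w = QuaternionGroup.a 2 ∨ w * w = QuaternionGroup.a 2 := by decide
      have h4 := hall u hu
      rcases h4 with h4 | h4
      · rw [← h4]; exact hv
      · rw [← h4, qEnd_mul s t h]
        change qEnd s t u (qEnd s t u v) = v
        rw [hv, hv]
    change endI (endI v) = v at hsq
    simp [endI, endIm_apply, Prod.ext_iff] at hsq
    haveI : Fact (2 < p) := ⟨lt_of_le_of_ne hp.two_le (fun e => by subst e; exact absurd hk (by decide))⟩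
    exact Prod.ext ((ZMod.neg_eq_self_iff _).1 hsq.1 |>.resolve_right fun h => by
        have := hk; obtain ⟨r, hr⟩ := hk; omega)
      ((ZMod.neg_eq_self_iff _).1 hsq.2 |>.resolve_right fun h => by
        have := hk; obtain ⟨r, hr⟩ := hk; omega)
  | mul a b iha ihb =>
    obtain ⟨ha, hb⟩ := Nat.odd_mul.1 hk
    obtain ⟨V, _, _, f, hcV, hf⟩ := iha ha
    obtain ⟨W, _, _, g, hcW, hg⟩ := ihb hb
    refine ⟨V × W, inferInstance, inferInstance,
      { toFun := fun u => AddMonoidHom.prodMap (f u) (g u)
        map_one' := by rw [map_one, map_one]; exact AddMonoidHom.ext fun x => rfl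
        map_mul' := fun u v => by rw [map_mul, map_mul]; exact AddMonoidHom.ext fun x => rfl }, ?_, ?_⟩
    · rw [Nat.card_prod, hcV, hcW]; ring
    · intro u hu v hv
      exact Prod.ext (hf u hu v.1 (congrArg Prod.fst hv)) (hg u hu v.2 (congrArg Prod.snd hv))

/-- For a natural number m the following are equivalent: (a) some finite group has a Frobenius complement isomorphic to the quaternion group of order 8 whose Frobenius kernel (the identity together with the elements lying in no conjugate of the complement) has exactly m elements; (b) m is an odd perfect square greater than 1. -/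
theorem result (m : ℕ) :
    (∃ (L : Type) (_ : Group L) (_ : Finite L) (H : Subgroup L), Cfsg.IsFrobeniusComplement H ∧
        Nonempty (H ≃* QuaternionGroup 2) ∧ Nat.card (Cfsg.frobeniusKernel H) = m) ↔
    (Odd m ∧ IsSquare m ∧ 1 < m) := by
  constructor
  · rintro ⟨L, _, _, H, hH, ⟨e⟩, rfl⟩
    rw [Cfsg.Agent.FGS.FC.card_kernel hH]
    haveI : Fact (Nat.Prime 2) := ⟨Nat.prime_two⟩
    have hnc : ¬ IsCyclic H := fun h => by
      haveI := h
      haveI : IsCyclic (QuaternionGroup 2) := isCyclic_of_injective e.symm.toMonoidHom e.symm.injective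
      have hne : (QuaternionGroup.a 1 : QuaternionGroup 2) * QuaternionGroup.xa 0 ≠
          QuaternionGroup.xa 0 * QuaternionGroup.a 1 := by decide
      haveI := IsCyclic.isMulCommutative (α := QuaternionGroup 2)
      exact hne (mul_comm' _ _)
    obtain ⟨h1, h2⟩ := Cfsg.Agent.FGS.FC.odd_isSquare_index hH (by
      obtain ⟨P⟩ : Nonempty (Sylow 2 H) := inferInstance
      refine ⟨2, inferInstance, P, fun hc => hnc ?_⟩
      have hpg : IsPGroup 2 H := IsPGroup.of_card (n := 3) (by
        rw [Nat.card_congr e.toEquiv, Nat.card_eq_fintype_card, QuaternionGroup.card]; rfl)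
      have htop : (P : Subgroup H) = ⊤ :=
        (P.is_maximal' (hpg.to_subgroup ⊤) le_top).symm
      haveI := hc
      exact isCyclic_of_injective (((MulEquiv.subgroupCongr htop).trans Subgroup.topEquiv).symm.toMonoidHom)
        (MulEquiv.injective _))
    exact ⟨h1, h2, Subgroup.one_lt_index_of_ne_top hH.2.1⟩
  · rintro ⟨hodd, ⟨k, rfl⟩, h1⟩
    haveI : NeZero k := ⟨by rintro rfl; simp at h1⟩
    obtain ⟨V, _, _, f, hc, hf⟩ := hasFpf_sq k (Nat.odd_mul.1 hodd).1
    haveI : Nontrivial V := Finite.one_lt_card_iff_nontrivial.1 (by rw [hc]; exact h1)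
    obtain ⟨L, hL, hL', H, hH, ⟨e⟩, hi⟩ := Cfsg.Agent.FGS.FC.exists_complement_of_fpf f hf
    exact ⟨L, hL, hL', H, hH, ⟨e.symm⟩, by rw [Cfsg.Agent.FGS.FC.card_kernel hH, hi, hc]⟩

end Cfsg.Agent.S4295
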