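import Cfsg.Statements.S4297
import Cfsg.Agent.FGS.FrobComplement
import Mathlib.Analysis.Quaternion
import Mathlib.Analysis.SpecialFunctions.Complex.CircleAddChar
import Mathlib.GroupTheory.SpecificGroups.Quaternion

set_option autoImplicit false
open Cfsg

namespace Cfsg.Agent.S4297

open scoped Quaternion

noncomputable def z (n : ℕ) [NeZero n] (i : ZMod (2 * n)) : ℍ[ℝ] := ((ZMod.stdAddChar i : ℂ) : ℍ[ℝ])

def jj : ℍ[ℝ] := ⟨0, 0, 1, 0⟩

@[simp] theorem jj_re : jj.re = 0 := rfl
@[simp] theorem jj_imI : jj.imI = 0 := rfl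
@[simp] theorem jj_imJ : jj.imJ = 1 := rfl
@[simp] theorem jj_imK : jj.imK = 0 := rfl

theorem z_mul (n : ℕ) [NeZero n] (i k : ZMod (2 * n)) : z n i * z n k = z n (i + k) := by
  rw [z, z, z, AddChar.map_add_eq_mul, Quaternion.coeComplex_mul]

theorem z_zero (n : ℕ) [NeZero n] : z n 0 = 1 := by
  rw [z, AddChar.map_zero_eq_one, Quaternion.coeComplex_one]

theorem conj_stdAddChar_apply (n : ℕ) [NeZero n] (i : ZMod (2 * n)) :
    (starRingEnd ℂ) (ZMod.stdAddChar i) = ZMod.stdAddChar (-i) := by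
  exact (AddChar.map_neg_eq_conj _ _).symm

theorem jj_mul (w : ℂ) : (w : ℍ[ℝ]) * jj = jj * (((starRingEnd ℂ) w : ℂ) : ℍ[ℝ]) := by
  ext <;> simp [Quaternion.re_mul, Quaternion.imI_mul, Quaternion.imJ_mul, Quaternion.imK_mul, QuaternionAlgebra.re_one, QuaternionAlgebra.imI_one]

theorem z_comm (n : ℕ) [NeZero n] (i : ZMod (2 * n)) : z n i * jj = jj * z n (-i) := by
  rw [z, z, jj_mul, conj_stdAddChar_apply]

theorem z_n (n : ℕ) [NeZero n] : z n (n : ZMod (2 * n)) = -1 := by
  have h2 : ZMod.stdAddChar (n : ZMod (2 * n)) * ZMod.stdAddChar (n : ZMod (2 * n)) = 1 := by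
    rw [← AddChar.map_add_eq_mul, ← Nat.cast_add, ← two_mul, ZMod.natCast_self, AddChar.map_zero_eq_one]
  rcases mul_self_eq_one_iff.1 h2 with h | h
  · exfalso
    rw [← (ZMod.stdAddChar (N := 2 * n)).map_zero_eq_one] at h
    have := ZMod.injective_stdAddChar h
    rw [ZMod.natCast_eq_zero_iff] at this
    have := Nat.le_of_dvd (Nat.pos_of_ne_zero (NeZero.ne n)) this
    have := NeZero.ne n
    omega
  · rw [z, h]
    ext <;> simp

theorem jj_sq : jj * jj = -1 := by
  ext <;> simp [Quaternion.re_mul, Quaternion.imI_mul, Quaternion.imJ_mul, Quaternion.imK_mul, QuaternionAlgebra.re_one, QuaternionAlgebra.imI_one]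

noncomputable def q (n : ℕ) [NeZero n] : QuaternionGroup n → ℍ[ℝ]
  | .a i => z n i
  | .xa i => jj * z n i

theorem q_mul (n : ℕ) [NeZero n] (u v : QuaternionGroup n) : q n (u * v) = q n u * q n v := by
  rcases u with i | i <;> rcases v with k | k <;> simp only [QuaternionGroup.a_mul_a, QuaternionGroup.a_mul_xa,
    QuaternionGroup.xa_mul_a, QuaternionGroup.xa_mul_xa, q]
  · rw [z_mul]
  · rw [← mul_assoc, z_comm, mul_assoc, z_mul, neg_add_eq_sub]
  · rw [mul_assoc, z_mul]
  · rw [mul_assoc, ← mul_assoc (z n i), z_comm, mul_assoc jj (z n (-i)), ← mul_assoc jj, jj_sq, z_mul, ← z_n n,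
      z_mul]
    congr 1
    ring

noncomputable def quatHom (n : ℕ) [NeZero n] : QuaternionGroup n →* (ℍ[ℝ])ˣ :=
  MonoidHom.toHomUnits { toFun := q n, map_one' := z_zero n, map_mul' := q_mul n }

theorem quatHom_injective (n : ℕ) [NeZero n] : Function.Injective (quatHom n) := by
  refine (injective_iff_map_eq_one _).2 fun u hu => ?_
  have h : q n u = 1 := congrArg Units.val hu
  rcases u with i | i
  · have h' : (ZMod.stdAddChar i : ℂ) = 1 := by
      have h1 := congrArg (fun w : ℍ[ℝ] => w.re) h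
      have h2 := congrArg (fun w : ℍ[ℝ] => w.imI) h
      exact Complex.ext (by simpa [q, z] using h1) (by simpa [q, z] using h2)
    rw [← (ZMod.stdAddChar (N := 2 * n)).map_zero_eq_one] at h'
    rw [ZMod.injective_stdAddChar h']
    rfl
  · have h1 := congrArg (fun w : ℍ[ℝ] => w.re) h
    simp [q, z, Quaternion.re_mul] at h1

/-- For every n ≥ 2 the dicyclic group of order 4n (generated by an element a of order 2n and an element x with x² = aⁿ and x a x⁻¹ = a⁻¹) occurs as a Frobenius complement of some finite Frobenius group. -/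
theorem result (n : ℕ) (hn : 2 ≤ n) :
    ∃ (L : Type) (_ : Group L) (_ : Finite L) (H : Subgroup L), Cfsg.IsFrobeniusComplement H ∧ Nonempty (H ≃* QuaternionGroup n) := by
  haveI : NeZero n := ⟨by omega⟩
  haveI : Nontrivial (QuaternionGroup n) := ⟨⟨.a 0, .xa 0, fun h => QuaternionGroup.noConfusion rfl (heq_of_eq h)⟩⟩
  obtain ⟨L, hL, hL', H, hH, ⟨e⟩⟩ := Cfsg.Agent.FGS.FC.isFC_units (quatHom n) (quatHom_injective n)
  exact ⟨L, hL, hL', H, hH, ⟨e.symm⟩⟩

end Cfsg.Agent.S4297
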