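import Cfsg.Statements.S4298
import Cfsg.Agent.FGS.FrobComplement
import Mathlib.LinearAlgebra.Matrix.SpecialLinearGroup
import Mathlib.Algebra.Field.ZMod

set_option autoImplicit false
open Cfsg

namespace Cfsg.Agent.S4298

abbrev Quad3 := ZMod 3 × ZMod 3 × ZMod 3 × ZMod 3
abbrev Quad5 := ZMod 5 × ZMod 5 × ZMod 5 × ZMod 5

def tbl : List (Quad3 × Quad5) := [
  ((0, 1, 2, 0), (0, 4, 1, 0)),
  ((0, 1, 2, 1), (2, 4, 3, 4)),
  ((0, 1, 2, 2), (3, 2, 1, 1)),
  ((0, 2, 1, 0), (0, 1, 4, 0)),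
  ((0, 2, 1, 1), (2, 3, 4, 4)),
  ((0, 2, 1, 2), (3, 1, 2, 1)),
  ((1, 0, 0, 1), (1, 0, 0, 1)),
  ((1, 0, 1, 1), (1, 2, 1, 3)),
  ((1, 0, 2, 1), (3, 3, 4, 1)),
  ((1, 1, 0, 1), (1, 1, 2, 3)),
  ((1, 1, 1, 2), (0, 2, 2, 0)),
  ((1, 1, 2, 0), (4, 2, 1, 2)),
  ((1, 2, 0, 1), (3, 4, 3, 1)),
  ((1, 2, 1, 0), (4, 1, 2, 2)),
  ((1, 2, 2, 2), (3, 0, 0, 2)),
  ((2, 0, 0, 2), (4, 0, 0, 4)),
  ((2, 0, 1, 2), (2, 2, 1, 4)),
  ((2, 0, 2, 2), (4, 3, 4, 2)),
  ((2, 1, 0, 2), (2, 1, 2, 4)),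
  ((2, 1, 1, 1), (2, 0, 0, 3)),
  ((2, 1, 2, 0), (1, 4, 3, 3)),
  ((2, 2, 0, 2), (4, 4, 3, 2)),
  ((2, 2, 1, 0), (1, 3, 4, 3)),
  ((2, 2, 2, 1), (0, 3, 3, 0))]

def mulQ {R : Type} [Add R] [Mul R] : R × R × R × R → R × R × R × R → R × R × R × R
  | (a, b, c, d), (e, f, g, h) => (a * e + b * g, a * f + b * h, c * e + d * g, c * f + d * h)

def pack : ℕ := 586055956016155202721323747668125514872020378693777658260231425689407520128773124371860451226170766730342180372352248739998609636823461799678816599540522143381749860325522189369224534448989006600656952455004684338930169212664131897719259136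

/-- The image of a matrix, read off from a packed table of ten-bit entries. -/
def img (x : Quad3) : Quad5 :=
  let m := (pack >>> (10 * (27 * x.1.val + 9 * x.2.1.val + 3 * x.2.2.1.val + x.2.2.2.val))) % 1024
  ((m / 125 : ℕ), (m / 25 % 5 : ℕ), (m / 5 % 5 : ℕ), (m % 5 : ℕ))

theorem tbl_complete : ∀ a b c d : ZMod 3, a * d - b * c = 1 → (a, b, c, d) ∈ tbl.map Prod.fst := by
  decide +kernel

def mulCheck : Bool :=
  tbl.all fun r => tbl.all fun s => decide (img (mulQ r.1 s.1) = mulQ (img r.1) (img s.1))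

theorem mulCheck_true : mulCheck = true := by decide +kernel

theorem img_mul : ∀ r ∈ tbl, ∀ s ∈ tbl, img (mulQ r.1 s.1) = mulQ (img r.1) (img s.1) := fun r hr s hs =>
  of_decide_eq_true (List.all_eq_true.1 (List.all_eq_true.1 mulCheck_true r hr) s hs)

theorem img_fpf : ∀ r ∈ tbl, r.1 ≠ (1, 0, 0, 1) → ∀ v w : ZMod 5,
    (img r.1).1 * v + (img r.1).2.1 * w = v → (img r.1).2.2.1 * v + (img r.1).2.2.2 * w = w → v = 0 ∧ w = 0 := by
  decide +kernel

def quad (M : Matrix.SpecialLinearGroup (Fin 2) (ZMod 3)) : Quad3 := (M 0 0, M 0 1, M 1 0, M 1 1)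

theorem exists_row (M : Matrix.SpecialLinearGroup (Fin 2) (ZMod 3)) : ∃ r ∈ tbl, r.1 = quad M := by
  have hd := M.2
  rw [Matrix.det_fin_two] at hd
  exact List.mem_map.1 (tbl_complete _ _ _ _ hd)

theorem quad_mul (M N : Matrix.SpecialLinearGroup (Fin 2) (ZMod 3)) : quad (M * N) = mulQ (quad M) (quad N) := by
  simp [quad, mulQ, Matrix.mul_apply, Fin.sum_univ_two]

def act (q : Quad5) : AddMonoid.End (ZMod 5 × ZMod 5) :=
  AddMonoidHom.mk' (fun v => (q.1 * v.1 + q.2.1 * v.2, q.2.2.1 * v.1 + q.2.2.2 * v.2))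
    (fun v w => by simp only [Prod.fst_add, Prod.snd_add, Prod.mk_add_mk, Prod.mk.injEq]; constructor <;> ring)

theorem act_apply (q : Quad5) (v : ZMod 5 × ZMod 5) :
    act q v = (q.1 * v.1 + q.2.1 * v.2, q.2.2.1 * v.1 + q.2.2.2 * v.2) := rfl

def slHom : Matrix.SpecialLinearGroup (Fin 2) (ZMod 3) →* AddMonoid.End (ZMod 5 × ZMod 5) where
  toFun M := act (img (quad M))
  map_one' := by
    have h : img (quad 1) = (1, 0, 0, 1) := by decide +kernel
    rw [h]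
    refine AddMonoidHom.ext fun v => ?_
    change act (1, 0, 0, 1) v = v
    rw [act_apply]; simp
  map_mul' M N := by
    obtain ⟨r, hr, hr'⟩ := exists_row M
    obtain ⟨s, hs, hs'⟩ := exists_row N
    rw [quad_mul, ← hr', ← hs', img_mul r hr s hs]
    refine AddMonoidHom.ext fun v => ?_
    change act _ v = act (img r.1) (act (img s.1) v)
    simp only [act_apply, mulQ, Prod.mk.injEq]
    constructor <;> ring

theorem slHom_fpf (M : Matrix.SpecialLinearGroup (Fin 2) (ZMod 3)) (hM : M ≠ 1) (v : ZMod 5 × ZMod 5)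
    (hv : slHom M v = v) : v = 0 := by
  obtain ⟨r, hr, hr'⟩ := exists_row M
  change act (img (quad M)) v = v at hv
  rw [← hr', act_apply, Prod.ext_iff] at hv
  have hne : r.1 ≠ (1, 0, 0, 1) := by
    rw [hr']
    intro h
    apply hM
    simp only [quad, Prod.mk.injEq] at h
    refine Subtype.ext (Matrix.ext fun i k => ?_)
    fin_cases i <;> fin_cases k <;> simp [h.1, h.2.1, h.2.2.1, h.2.2.2]
  obtain ⟨h1, h2⟩ := img_fpf r hr hne v.1 v.2 hv.1 hv.2
  exact Prod.ext h1 h2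

/-- The group SL(2,3) of order 24 (the binary tetrahedral group) occurs as a Frobenius complement of some finite Frobenius group. -/
theorem result :
    ∃ (L : Type) (_ : Group L) (_ : Finite L) (H : Subgroup L), Cfsg.IsFrobeniusComplement H ∧ Nonempty (H ≃* Matrix.SpecialLinearGroup (Fin 2) (ZMod 3)) := by
  haveI : Nontrivial (Matrix.SpecialLinearGroup (Fin 2) (ZMod 3)) := by
    refine ⟨⟨⟨!![1, 1; 0, 1], by decide⟩, 1, fun h => ?_⟩⟩
    have := congrArg (fun M : Matrix.SpecialLinearGroup (Fin 2) (ZMod 3) => (M : Matrix (Fin 2) (Fin 2) (ZMod 3)) 0 1) h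
    simp at this
  haveI : Fact (1 < 5) := ⟨by norm_num⟩
  obtain ⟨L, hL, hL', H, hH, ⟨e⟩⟩ := Cfsg.Agent.FGS.FC.isFC_of_fpf slHom slHom_fpf
  exact ⟨L, hL, hL', H, hH, ⟨e.symm⟩⟩

end Cfsg.Agent.S4298
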