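import Cfsg.Statements.S4299
import Cfsg.Agent.FGS.FrobComplement
import Mathlib.RingTheory.RootsOfUnity.Complex

set_option autoImplicit false
open Cfsg

namespace Cfsg.Agent.S4299

/-- Every nontrivial finite cyclic group occurs as a Frobenius complement of some finite Frobenius group. -/
theorem result {C : Type*} [Group C] [Finite C] [IsCyclic C] [Nontrivial C] :
    ∃ (L : Type) (_ : Group L) (_ : Finite L) (H : Subgroup L), Cfsg.IsFrobeniusComplement H ∧ Nonempty (C ≃* H) := by
  obtain ⟨ζ, hζ⟩ : ∃ ζ : ℂˣ, orderOf ζ = Nat.card C := by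
    have h := Complex.isPrimitiveRoot_exp (Nat.card C) Nat.card_pos.ne'
    refine ⟨(h.isUnit Nat.card_pos.ne').unit, ?_⟩
    rw [← orderOf_units, IsUnit.unit_spec]
    exact h.eq_orderOf.symm
  let e : C ≃* Subgroup.zpowers ζ := mulEquivOfCyclicCardEq (by rw [Nat.card_zpowers, hζ])
  exact Cfsg.Agent.FGS.FC.isFC_units ((Subgroup.zpowers ζ).subtype.comp e.toMonoidHom)
    ((Subgroup.zpowers ζ).subtype_injective.comp e.injective)

end Cfsg.Agent.S4299
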