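import Cfsg.Statements.S4300
import Mathlib.GroupTheory.GroupAction.Primitive
import Mathlib.GroupTheory.Subgroup.Simple

set_option autoImplicit false
open Cfsg

namespace Cfsg.Agent.S4300

/-- Let G act faithfully and primitively on a set X, and suppose the stabilizer of some point is a simple group. Then either G is simple, or G has a normal subgroup, neither trivial nor the whole group, that acts regularly on X (transitively with trivial point stabilizers). -/
theorem result {G : Type*} [Group G] {X : Type*} [MulAction G X] [FaithfulSMul G X]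
    (hprim : MulAction.IsPreprimitive G X) (x : X) (hsimple : IsSimpleGroup (MulAction.stabilizer G x)) :
    IsSimpleGroup G ∨ ∃ N : Subgroup G, N.Normal ∧ N ≠ ⊥ ∧ N ≠ ⊤ ∧
      MulAction.IsPretransitive N X ∧ ∀ y : X, MulAction.stabilizer N y = ⊥ := by
  by_cases hs : IsSimpleGroup G
  · exact Or.inl hs
  right
  haveI := hprim
  have hnt : MulAction.stabilizer G x ≠ ⊥ := fun h => by
    haveI := hsimple
    have := (Subgroup.nontrivial_iff_ne_bot _).1 (IsSimpleGroup.toNontrivial (G := MulAction.stabilizer G x))
    exact this h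
  haveI : Nontrivial G := by
    haveI := (Subgroup.nontrivial_iff_ne_bot _).2 hnt
    exact (MulAction.stabilizer G x).subtype_injective.nontrivial
  obtain ⟨N, hN, hN1, hN2⟩ : ∃ N : Subgroup G, N.Normal ∧ N ≠ ⊥ ∧ N ≠ ⊤ := by
    by_contra hc
    push Not at hc
    exact hs ⟨fun N hN => or_iff_not_imp_left.2 fun h => hc N hN h⟩
  haveI := hN
  have hmoves : MulAction.fixedPoints N X ≠ Set.univ := by
    intro h
    obtain ⟨n, hn, hn1⟩ := SetLike.not_le_iff_exists.1 (fun h => hN1 (le_bot_iff.1 h))
    apply hn1
    rw [Subgroup.mem_bot]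
    refine FaithfulSMul.eq_of_smul_eq_smul (α := X) fun y => ?_
    rw [one_smul]
    exact (Set.eq_univ_iff_forall.1 h y) ⟨n, hn⟩
  haveI htr : MulAction.IsPretransitive N X := MulAction.IsQuasiPreprimitive.isPretransitive_of_normal hmoves
  refine ⟨N, hN, hN1, hN2, htr, ?_⟩
  have hx : ∀ n ∈ N, n • x = x → n = 1 := by
    haveI := hsimple
    rcases (inferInstance : (N.subgroupOf (MulAction.stabilizer G x)).Normal).eq_bot_or_eq_top with h | h
    · intro n hn hnx
      have h1 : (⟨n, hnx⟩ : MulAction.stabilizer G x) ∈ N.subgroupOf (MulAction.stabilizer G x) := hn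
      rw [h, Subgroup.mem_bot] at h1
      exact congrArg Subtype.val h1
    · exfalso
      apply hN2
      rw [Subgroup.eq_top_iff']
      intro g
      obtain ⟨n, hn⟩ := MulAction.exists_smul_eq N x (g • x)
      have h1 : (n : G)⁻¹ * g ∈ MulAction.stabilizer G x := by
        rw [MulAction.mem_stabilizer_iff, mul_smul, ← hn]
        exact inv_smul_smul (n : G) x
      have h2 := N.mul_mem n.2 (Subgroup.subgroupOf_eq_top.1 h h1)
      rwa [mul_inv_cancel_left] at h2
  intro y
  rw [Subgroup.eq_bot_iff_forall]
  intro n hn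
  obtain ⟨k, rfl⟩ := MulAction.exists_smul_eq N x y
  have h1 : ((k : G)⁻¹ * (n : G) * k) • x = x := by
    rw [mul_smul, mul_smul]
    have : (n : G) • ((k : G) • x) = (k : G) • x := hn
    rw [this, inv_smul_smul]
  have h2 := hx _ (N.mul_mem (N.mul_mem (N.inv_mem k.2) n.2) k.2) h1
  apply Subtype.ext
  rw [OneMemClass.coe_one]
  calc (n : G) = k * ((k : G)⁻¹ * n * k) * (k : G)⁻¹ := by group
    _ = 1 := by rw [h2]; group

end Cfsg.Agent.S4300
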