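import Cfsg.Statements.S4301
-- import your own Cfsg.Agent.* helpers here

set_option autoImplicit false
open Cfsg

namespace Cfsg.Agent.S4301

/-- One-point extension of a multiply transitive group. Let X be a set and G a group of permutations of Option X (the set X with one extra point ∗ = none) all of whose elements fix ∗, such that G is k-transitive on the points of X for some k ≥ 2, X having at least k points. Suppose a permutation h of Option X and an element g of G satisfy: h interchanges ∗ with a point x of X and fixes a point y of X; g interchanges x and y; (g h)³ and h² lie in G; and for every f in G fixing x, the product h f h lies in G and fixes x. Then an element of the group generated by G and h fixes ∗ exactly when it lies in G, and that group acts (k+1)-transitively on Option X. -/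
theorem result {X : Type*} (G : Subgroup (Equiv.Perm (Option X))) (hfix : ∀ f ∈ G, f none = none)
    (k : ℕ) (hk : 2 ≤ k) (hkX : Nonempty (Fin k ↪ X))
    (htrans : ∀ a b : Fin k ↪ X, ∃ f ∈ G, ∀ i, f (some (a i)) = some (b i))
    (h g : Equiv.Perm (Option X)) (hg : g ∈ G) (x y : X)
    (h1 : h none = some x) (h2 : h (some x) = none) (h3 : h (some y) = some y)
    (h4 : g (some x) = some y) (h5 : g (some y) = some x)
    (h6 : (g * h) ^ 3 ∈ G) (h7 : h ^ 2 ∈ G)
    (h8 : ∀ f ∈ G, f (some x) = some x → h * f * h ∈ G ∧ (h * f * h) (some x) = some x) :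
    (∀ f ∈ Subgroup.closure ((G : Set (Equiv.Perm (Option X))) ∪ {h}), f none = none ↔ f ∈ G) ∧
      MulAction.IsMultiplyPretransitive (Subgroup.closure ((G : Set (Equiv.Perm (Option X))) ∪ {h})) (Option X) (k + 1) := by
  classical
  let S : Set (Equiv.Perm (Option X)) := {f | f ∈ G ∨ ∃ a ∈ G, ∃ b ∈ G, f = a * h * b}
  have hne : x ≠ y := by
    rintro rfl; rw [h2] at h3; exact absurd h3 (by simp)
  have hsqx : (h ^ 2) (some x) = some x := by
    rw [pow_two, Equiv.Perm.mul_apply, h2, h1]
  have hinv : h⁻¹ = (h ^ 2)⁻¹ * h := by group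
  have hinvS : ∀ a ∈ G, ∀ b ∈ G, a * h⁻¹ * b ∈ S := by
    intro a ha b hb
    exact Or.inr ⟨a * (h ^ 2)⁻¹, G.mul_mem ha (G.inv_mem h7), b, hb, by rw [hinv]; group⟩
  -- transitivity facts
  have e0 := hkX
  obtain ⟨e⟩ := e0
  have t2 : ∀ u v u' v' : X, u ≠ v → u' ≠ v' →
      ∃ f ∈ G, f (some u) = some u' ∧ f (some v) = some v' := by
    intro u v u' v' huv huv'
    let i0 : Fin k := ⟨0, by omega⟩
    let i1 : Fin k := ⟨1, by omega⟩
    have hi : i0 ≠ i1 := by simp [i0, i1, Fin.ext_iff]
    have mk : ∀ u v : X, u ≠ v → ∃ a : Fin k ↪ X, a i0 = u ∧ a i1 = v := by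
      intro u v huv
      let s1 : X ≃ X := Equiv.swap (e i0) u
      let s2 : X ≃ X := Equiv.swap (s1 (e i1)) v
      refine ⟨(e.trans s1.toEmbedding).trans s2.toEmbedding, ?_, ?_⟩
      · show s2 (s1 (e i0)) = u
        have h0 : s1 (e i0) = u := Equiv.swap_apply_left _ _
        rw [h0]
        apply Equiv.swap_apply_of_ne_of_ne
        · rw [← h0]; intro hh; exact hi (e.injective (s1.injective hh))
        · exact huv
      · show s2 (s1 (e i1)) = v
        exact Equiv.swap_apply_left _ _
    obtain ⟨a, ha0, ha1⟩ := mk u v huv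
    obtain ⟨b, hb0, hb1⟩ := mk u' v' huv'
    obtain ⟨f, hf, hfi⟩ := htrans a b
    exact ⟨f, hf, by rw [← ha0, ← hb0]; exact hfi i0, by rw [← ha1, ← hb1]; exact hfi i1⟩
  have t1 : ∀ u u' : X, ∃ f ∈ G, f (some u) = some u' := by
    intro u u'
    obtain ⟨v, hv⟩ : ∃ v, u ≠ v := by
      by_cases hu : u = x
      · exact ⟨y, hu ▸ hne⟩
      · exact ⟨x, hu⟩
    obtain ⟨v', hv'⟩ : ∃ v, u' ≠ v := by
      by_cases hu : u' = x
      · exact ⟨y, hu ▸ hne⟩
      · exact ⟨x, hu⟩
    obtain ⟨f, hf, h0, -⟩ := t2 u v u' v' hv hv'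
    exact ⟨f, hf, h0⟩
  have hsome : ∀ f ∈ G, ∀ u : X, ∃ u', f (some u) = some u' := by
    intro f hf u
    rcases hh : f (some u) with _ | u'
    · exact absurd (f.injective (hh.trans (hfix f hf).symm)) (by simp)
    · exact ⟨u', rfl⟩
  -- the key containment
  have key : ∀ c ∈ G, h * c * h ∈ S := by
    intro c hc
    by_cases hcx : c (some x) = some x
    · exact Or.inl (h8 c hc hcx).1
    · obtain ⟨z, hz⟩ := hsome c hc x
      have hzx : x ≠ z := fun e' => hcx (by rw [hz, ← e'])
      obtain ⟨a, ha, hax, hay⟩ := t2 x y x z hne hzx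
      set b := g⁻¹ * a⁻¹ * c with hb
      have hbG : b ∈ G := G.mul_mem (G.mul_mem (G.inv_mem hg) (G.inv_mem ha)) hc
      have hbx : b (some x) = some x := by
        rw [hb, Equiv.Perm.mul_apply, Equiv.Perm.mul_apply, hz]
        rw [Equiv.Perm.inv_eq_iff_eq, h4, Equiv.Perm.inv_eq_iff_eq, hay]
      obtain ⟨p1, p1x⟩ := h8 a ha hax
      obtain ⟨p2, p2x⟩ := h8 b hbG hbx
      -- h⁻¹ g h⁻¹
      have hmid : h * g * h = g⁻¹ * (g * h) ^ 3 * h⁻¹ * g⁻¹ := by
        simp only [pow_succ, pow_zero, one_mul]; group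
      have hc' : c = a * g * b := by rw [hb]; group
      have hfin : h * c * h = ((h * a * h) * ((h ^ 2)⁻¹ * (g⁻¹ * (g * h) ^ 3))) * h⁻¹ *
          (g⁻¹ * (h ^ 2)⁻¹ * (h * b * h)) := by
        rw [hc']; simp only [pow_succ, pow_zero, one_mul]; group
      rw [hfin]
      exact hinvS _ (G.mul_mem p1 (G.mul_mem (G.inv_mem h7) (G.mul_mem (G.inv_mem hg) h6))) _
        (G.mul_mem (G.mul_mem (G.inv_mem hg) (G.inv_mem h7)) p2)
  -- absorb
  have absorb : ∀ a ∈ G, ∀ f ∈ S, ∀ b ∈ G, a * f * b ∈ S := by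
    intro a ha f hf b hb
    rcases hf with hf | ⟨a', ha', b', hb', rfl⟩
    · exact Or.inl (G.mul_mem (G.mul_mem ha hf) hb)
    · exact Or.inr ⟨a * a', G.mul_mem ha ha', b' * b, G.mul_mem hb' hb, by group⟩
  have mulS : ∀ f ∈ S, ∀ f' ∈ S, f * f' ∈ S := by
    intro f hf f' hf'
    rcases hf with hf | ⟨a, ha, b, hb, rfl⟩
    · have := absorb f hf f' hf' 1 G.one_mem
      simpa using this
    · rcases hf' with hf' | ⟨c, hc, d, hd, rfl⟩
      · exact Or.inr ⟨a, ha, b * f', G.mul_mem hb hf', by group⟩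
      · have := absorb a ha _ (key (b * c) (G.mul_mem hb hc)) d hd
        convert this using 1; group
  have clS : ∀ f ∈ Subgroup.closure ((G : Set (Equiv.Perm (Option X))) ∪ {h}), f ∈ S := by
    intro f hf
    induction hf using Subgroup.closure_induction with
    | mem f hf =>
      rcases hf with hf | hf
      · exact Or.inl hf
      · rw [Set.mem_singleton_iff] at hf; subst hf
        exact Or.inr ⟨1, G.one_mem, 1, G.one_mem, by simp⟩
    | one => exact Or.inl G.one_mem
    | mul f f' _ _ h1' h2' => exact mulS f h1' f' h2'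
    | inv f _ hf =>
      rcases hf with hf | ⟨a, ha, b, hb, rfl⟩
      · exact Or.inl (G.inv_mem hf)
      · have := hinvS b⁻¹ (G.inv_mem hb) a⁻¹ (G.inv_mem ha)
        convert this using 1; group
  set M := Subgroup.closure ((G : Set (Equiv.Perm (Option X))) ∪ {h}) with hM
  have hGM : G ≤ M := fun f hf => Subgroup.subset_closure (Or.inl hf)
  have hhM : h ∈ M := Subgroup.subset_closure (Or.inr rfl)
  constructor
  · intro f hf
    constructor
    · intro hn
      rcases clS f hf with hf' | ⟨a, ha, b, hb, rfl⟩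
      · exact hf'
      · exfalso
        rw [Equiv.Perm.mul_apply, Equiv.Perm.mul_apply, hfix b hb, h1] at hn
        obtain ⟨u, hu⟩ := hsome a ha x
        rw [hu] at hn; exact absurd hn (by simp)
    · exact fun h' => hfix f h'
  · -- transitivity
    have tr : ∀ o : Option X, ∃ m ∈ M, m o = none := by
      intro o
      rcases o with _ | u
      · exact ⟨1, M.one_mem, rfl⟩
      · obtain ⟨f, hf, hfu⟩ := t1 u x
        exact ⟨h * f, M.mul_mem hhM (hGM hf), by rw [Equiv.Perm.mul_apply, hfu, h2]⟩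
    refine ⟨fun a b => ?_⟩
    obtain ⟨m, hm, hma⟩ := tr (a (Fin.last k))
    obtain ⟨n, hn, hnb⟩ := tr (b (Fin.last k))
    have down : ∀ (c : Fin (k + 1) ↪ Option X) (q : Equiv.Perm (Option X)),
        q (c (Fin.last k)) = none → ∃ d : Fin k ↪ X, ∀ i, some (d i) = q (c i.castSucc) := by
      intro c q hq
      have hne' : ∀ i : Fin k, q (c i.castSucc) ≠ none := by
        intro i hi
        exact (Fin.castSucc_lt_last i).ne (c.injective (q.injective (hi.trans hq.symm)))
      choose d hd using fun i => Option.ne_none_iff_exists.1 (hne' i)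
      refine ⟨⟨d, fun i j hij => ?_⟩, fun i => hd i⟩
      have : q (c i.castSucc) = q (c j.castSucc) := by rw [← hd i, ← hd j, hij]
      exact Fin.castSucc_injective _ (c.injective (q.injective this))
    obtain ⟨a', ha'⟩ := down a m hma
    obtain ⟨b', hb'⟩ := down b n hnb
    obtain ⟨f, hf, hff⟩ := htrans a' b'
    refine ⟨⟨n⁻¹ * f * m, M.mul_mem (M.mul_mem (M.inv_mem hn) (hGM hf)) hm⟩, ?_⟩
    ext i : 1
    show (n⁻¹ * f * m) (a i) = b i
    rw [Equiv.Perm.mul_apply, Equiv.Perm.mul_apply, Equiv.Perm.inv_eq_iff_eq]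
    induction i using Fin.lastCases with
    | last => rw [hma, hfix f hf, hnb]
    | cast i => rw [← ha' i, hff i, hb' i]

end Cfsg.Agent.S4301
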