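import Cfsg.Statements.S4304
import Cfsg.Agent.FGS.SylowFifteen

set_option autoImplicit false
open Cfsg

namespace Cfsg.Agent.S4304

/-- No finite group has exactly 15 Sylow 7-subgroups. -/
theorem result {G : Type*} [Group G] [Finite G] : Nat.card (Sylow 7 G) ≠ 15 := by
  exact Cfsg.Agent.FGS.Fifteen.card_ne_fifteen

end Cfsg.Agent.S4304
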