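import Cfsg.Statements.S4305
import Cfsg.Agent.FGS.PQGroup

set_option autoImplicit false
open Cfsg

namespace Cfsg.Agent.S4305

/-- Let the symmetric group of degree 3 act by automorphisms on a finite solvable group `G` of order prime to 6, so that only the identity of `G` is fixed by all of it. Then the derived subgroup of `G` is nilpotent. -/
theorem result {G : Type*} [Group G] [Finite G] [Group.IsSolvable G]
    [MulDistribMulAction (Equiv.Perm (Fin 3)) G] (hcop : (Nat.card G).Coprime 6)
    (hfpf : ∀ g : G, (∀ a : Equiv.Perm (Fin 3), a • g = g) → g = 1) :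
    Group.IsNilpotent ↥(commutator G) := by
  classical
  have hA : Nat.card (Equiv.Perm (Fin 3)) = 2 * 3 := by
    rw [Nat.card_eq_fintype_card, Fintype.card_perm, Fintype.card_fin]; rfl
  have hna : ¬ IsMulCommutative (Equiv.Perm (Fin 3)) := fun h => by
    have h2 := h.is_comm.comm (Equiv.swap (0 : Fin 3) 1) (Equiv.swap (1 : Fin 3) 2)
    exact absurd h2 (by decide)
  obtain ⟨p, q, γ, h, hpq, hlt⟩ :=
    Cfsg.Agent.FGS.PQ.exists_isPQ Nat.prime_two Nat.prime_three (by decide) hA hna
  have hp2 : p = 2 := by
    rcases h.hp.dvd_mul.1 (hpq ▸ dvd_mul_right p q : p ∣ 2 * 3) with h1 | h1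
    · exact (Nat.prime_dvd_prime_iff_eq h.hp Nat.prime_two).1 h1
    · have := (Nat.prime_dvd_prime_iff_eq h.hp Nat.prime_three).1 h1
      subst this
      omega
  subst hp2
  have hq3 : q = 3 := by omega
  subst hq3
  refine Cfsg.Agent.FGS.PQ.residual_isNilpotent h _ G rfl hcop hfpf (commutator G)
    inferInstance ?_ ?_
  · intro a x hx
    exact Subgroup.characteristic_iff_map_le.1 inferInstance
      (MulDistribMulAction.toMulAut (Equiv.Perm (Fin 3)) G a) ⟨x, hx, rfl⟩
  · intro N _ _ _ hab
    rw [commutator_def]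
    exact Subgroup.commutator_le.2 fun x _ y _ => hab rfl rfl x y

end Cfsg.Agent.S4305
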