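import Cfsg.Statements.S4306
import Cfsg.Agent.FGS.PQGroup

set_option autoImplicit false
open Cfsg

namespace Cfsg.Agent.S4306

/-- Let `A` be a non-abelian group of order `pq` with `p, q` distinct primes, acting by automorphisms on a finite solvable group `G` of order prime to `pq`, so that only the identity of `G` is fixed by all of `A`. Then `G` has Fitting height at most 2: there is a normal nilpotent subgroup `F` of `G` with `G/F` nilpotent. -/
theorem result {G A : Type*} [Group G] [Finite G]
    [Group.IsSolvable G] [Group A] [Finite A] [MulDistribMulAction A G] (p q : ℕ) (hp : p.Prime) (hq : q.Prime) (hpq : p ≠ q)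
    (hA : Nat.card A = p * q) (hAna : ¬ IsMulCommutative A) (hcop : (Nat.card G).Coprime (p * q))
    (hfpf : ∀ g : G, (∀ a : A, a • g = g) → g = 1) :
    ∃ F : Subgroup G, ∃ hF : F.Normal, Group.IsNilpotent ↥F ∧ Group.IsNilpotent (G ⧸ F) := by
  classical
  obtain ⟨p', q', γ, h, hpq', -⟩ := Cfsg.Agent.FGS.PQ.exists_isPQ hp hq hpq hA hAna
  have hcop' : (Nat.card G).Coprime (p' * q') := hpq'.symm ▸ hcop
  -- a term of the lower central series below every normal subgroup with nilpotent quotient
  have hex : ∀ N : Subgroup G, ∃ n : ℕ, ∀ [N.Normal], Group.IsNilpotent (G ⧸ N) →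
      (⊤ : Subgroup G).lowerCentralSeries n ≤ N := by
    intro N
    by_cases hN : N.Normal
    · by_cases hnil : Group.IsNilpotent (G ⧸ N)
      · obtain ⟨n, hn⟩ := Subgroup.nilpotent_iff_lowerCentralSeries.1 hnil
        refine ⟨n, fun {_} _ => ?_⟩
        have h1 : ((⊤ : Subgroup G).lowerCentralSeries n).map (QuotientGroup.mk' N) = ⊥ := by
          rw [Subgroup.map_lowerCentralSeries,
            Subgroup.map_top_of_surjective _ (QuotientGroup.mk'_surjective N), hn]
        rwa [Subgroup.map_eq_bot_iff, QuotientGroup.ker_mk'] at h1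
      · exact ⟨0, fun {_} h' => absurd h' hnil⟩
    · exact ⟨0, fun {hN'} _ => absurd hN' hN⟩
  choose f hf using hex
  obtain ⟨n, hn⟩ := (Set.finite_range f).bddAbove
  set F := (⊤ : Subgroup G).lowerCentralSeries n with hF
  haveI hFn : F.Normal := inferInstance
  refine ⟨F, hFn, ?_, ?_⟩
  · refine Cfsg.Agent.FGS.PQ.residual_isNilpotent h _ G rfl hcop' hfpf F hFn ?_ ?_
    · intro a x hx
      have h1 : F.map (MulDistribMulAction.toMulAut A G a).toMonoidHom ≤ F := by
        rw [hF, Subgroup.map_lowerCentralSeries]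
        exact Subgroup.lowerCentralSeries_mono n le_top
      exact h1 ⟨x, hx, rfl⟩
    · intro N _ _ hnil _
      exact (Subgroup.lowerCentralSeries_antitone _ (hn ⟨N, rfl⟩)).trans (hf N hnil)
  · refine Subgroup.nilpotent_iff_lowerCentralSeries.2 ⟨n, ?_⟩
    rw [← Subgroup.map_top_of_surjective _ (QuotientGroup.mk'_surjective F),
      ← Subgroup.map_lowerCentralSeries, Subgroup.map_eq_bot_iff, QuotientGroup.ker_mk']

end Cfsg.Agent.S4306
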