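import Cfsg.Statements.S4309
-- import your own Cfsg.Agent.* helpers here

set_option autoImplicit false
open Cfsg

namespace Cfsg.Agent.S4309

/-- Let `π` be a set of primes, `G` a finite group with a Hall `π`-subgroup `H` (every prime divisor of the order of `H` lies in `π` and no prime of `π` divides its index), and `A` a normal subgroup of `G`. Then `H ∩ A` is a Hall `π`-subgroup of `A` and the image of `H` in `G/A` is a Hall `π`-subgroup of `G/A`. -/
theorem result {G : Type*} [Group G] [Finite G] (π : Set ℕ)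
    (H A : Subgroup G) [A.Normal] (hH : Cfsg.IsPiHall π H) :
    Cfsg.IsPiHall π ((H ⊓ A).subgroupOf A) ∧ Cfsg.IsPiHall π (H.map (QuotientGroup.mk' A)) := by
  obtain ⟨hH1, hH2⟩ := hH
  refine ⟨⟨fun p hp hdvd => hH1 p hp ?_, fun p hp hpπ hdvd => hH2 p hp hpπ ?_⟩,
    ⟨fun p hp hdvd => hH1 p hp (hdvd.trans (Subgroup.card_map_dvd H _)),
     fun p hp hpπ hdvd => hH2 p hp hpπ (hdvd.trans (Subgroup.index_map_dvd _ (QuotientGroup.mk'_surjective A)))⟩⟩
  · rw [← Subgroup.card_map_of_injective (Subgroup.subtype_injective A),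
      Subgroup.subgroupOf_map_subtype] at hdvd
    exact hdvd.trans (Subgroup.card_dvd_of_le (inf_le_left.trans inf_le_left))
  · change p ∣ (H ⊓ A).relIndex A at hdvd
    rw [Subgroup.inf_relIndex_right] at hdvd
    refine hdvd.trans ?_
    have e1 := Subgroup.card_mul_index (H.subgroupOf (H ⊔ A))
    have e2 := Subgroup.card_mul_index (A.subgroupOf (H ⊔ A))
    have e3 := Subgroup.card_mul_index (H.subgroupOf A)
    have e4 := Subgroup.card_mul_index (A.subgroupOf H)
    rw [Nat.card_congr (Subgroup.subgroupOfEquivOfLe (le_sup_left : H ≤ H ⊔ A)).toEquiv] at e1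
    rw [Nat.card_congr (Subgroup.subgroupOfEquivOfLe (le_sup_right : A ≤ H ⊔ A)).toEquiv] at e2
    have c1 : Nat.card (H.subgroupOf A) = Nat.card ↥(H ⊓ A) := by
      rw [← Subgroup.card_map_of_injective (Subgroup.subtype_injective A), Subgroup.subgroupOf_map_subtype]
    have c2 : Nat.card (A.subgroupOf H) = Nat.card ↥(H ⊓ A) := by
      rw [← Subgroup.card_map_of_injective (Subgroup.subtype_injective H), Subgroup.subgroupOf_map_subtype,
        inf_comm]
    rw [c1] at e3
    rw [c2] at e4
    change Nat.card H * H.relIndex (H ⊔ A) = _ at e1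
    change Nat.card A * A.relIndex (H ⊔ A) = _ at e2
    change _ * H.relIndex A = _ at e3
    change _ * A.relIndex H = _ at e4
    rw [Subgroup.relIndex_sup_right] at e2
    have key : H.relIndex (H ⊔ A) = H.relIndex A := by
      refine Nat.eq_of_mul_eq_mul_left (Nat.card_pos (α := H)) ?_
      rw [e1, ← e2, ← e3, ← e4]; ring
    rw [← key]
    exact ⟨(H ⊔ A).index, (Subgroup.relIndex_mul_index le_sup_left).symm⟩

end Cfsg.Agent.S4309
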