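import Cfsg.Statements.S4314
-- import your own Cfsg.Agent.* helpers here

set_option autoImplicit false
open Cfsg

namespace Cfsg.Agent.S4314

open Subgroup

section
variable {G : Type*} [Group G] [Finite G]

theorem eq_of_prime_index {C K : Subgroup G} (hC : C.index.Prime) (hCK : C ≤ K) (hK : K ≠ ⊤) :
    K = C := by
  have h := relIndex_mul_index hCK
  rcases Nat.prime_mul_iff.1 (h.symm ▸ hC) with ⟨-, h2⟩ | ⟨-, h2⟩
  · exact absurd (index_eq_one.1 h2) hK
  · exact le_antisymm (relIndex_eq_one.1 h2) hCK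

theorem exists_frobenius_quotient
    (h : ∀ x : G, (centralizer ({x} : Set G)).index = 1 ∨ ((centralizer ({x} : Set G)).index).Prime)
    (x : G) (hnn : ¬ (centralizer ({x} : Set G)).Normal) :
    ∃ p q : ℕ, p.Prime ∧ q.Prime ∧ p ≠ q ∧ Nat.card (G ⧸ center G) = p * q ∧
      ¬ IsMulCommutative (G ⧸ center G) := by
  classical
  set C := centralizer ({x} : Set G) with hC
  have hCne : C ≠ ⊤ := fun e => hnn (e ▸ inferInstance)
  have hCp : C.index.Prime := (h x).resolve_left (fun e => hCne (index_eq_one.1 e))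
  set p := C.index with hp
  haveI : Fact p.Prime := ⟨hCp⟩
  set N := C.normalCore with hN
  have hNC : N ≤ C := normalCore_le C
  have hNn : N.Normal := normalCore_normal C
  -- a p-element outside C
  obtain ⟨P⟩ : Nonempty (Sylow p G) := inferInstance
  obtain ⟨g, hgP, hgC⟩ : ∃ g, g ∈ (P : Subgroup G) ∧ g ∉ C := by
    by_contra hcon
    push Not at hcon
    exact P.not_dvd_index (index_dvd_of_le hcon)
  obtain ⟨k, hk⟩ := P.isPGroup' ⟨g, hgP⟩
  have hgk : g ^ p ^ k = 1 := by simpa using congrArg Subtype.val hk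
  -- g permutes the cosets of C transitively
  let σ : Equiv.Perm (G ⧸ C) := MulAction.toPermHom G (G ⧸ C) g
  haveI : Fintype (G ⧸ C) := Fintype.ofFinite _
  have hcard : Fintype.card (G ⧸ C) = p := by rw [← Nat.card_eq_fintype_card]; rfl
  have hσ1 : σ ≠ 1 := by
    intro e
    have : g • ((1 : G) : G ⧸ C) = ((1 : G) : G ⧸ C) := by
      show σ ((1 : G) : G ⧸ C) = ((1 : G) : G ⧸ C); rw [e]; rfl
    rw [MulAction.Quotient.smul_coe, smul_eq_mul, mul_one, QuotientGroup.eq] at this
    exact hgC (by simpa using this)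
  have hσo : orderOf σ = p := by
    have h1 : σ ^ p ^ k = 1 := by rw [← map_pow, hgk, map_one]
    obtain ⟨j, hj, hjo⟩ := (Nat.dvd_prime_pow hCp).1 (orderOf_dvd_of_pow_eq_one h1)
    have h2 : orderOf σ ∣ p.factorial := by
      rw [← hcard, ← Fintype.card_perm]; exact orderOf_dvd_card
    rw [hjo] at h2 ⊢
    match j, hjo, h2 with
    | 0, hjo, _ => exact absurd (orderOf_eq_one_iff.1 (by simpa using hjo)) hσ1
    | 1, _, _ => simp
    | j + 2, _, h2 =>
      exfalso
      have h3 : p ^ 2 ∣ p.factorial := (pow_dvd_pow p (by omega)).trans h2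
      rw [← Nat.mul_factorial_pred hCp.pos.ne', pow_two, Nat.mul_dvd_mul_iff_left hCp.pos,
        hCp.dvd_factorial] at h3
      have := hCp.two_le
      omega
  have hcyc : σ.IsCycle :=
    Equiv.Perm.isCycle_of_prime_order'' (hcard ▸ hCp) (hσo.trans hcard.symm)
  have hsupp : σ.support = Finset.univ := by
    apply Finset.eq_univ_of_card
    rw [← hcyc.orderOf, hσo, hcard]
  have htrans : ∀ a b : G ⧸ C, ∃ i : ℕ, g ^ i • a = b := by
    intro a b
    obtain ⟨i, hi⟩ := hcyc.exists_pow_eq (x := a) (y := b)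
      (Equiv.Perm.mem_support.1 (hsupp ▸ Finset.mem_univ a))
      (Equiv.Perm.mem_support.1 (hsupp ▸ Finset.mem_univ b))
    refine ⟨i, ?_⟩
    rw [← hi, ← map_pow]; rfl
  have hfix : ∀ v : G, v ∈ N ↔ ∀ a : G ⧸ C, v • a = a := by
    intro v
    rw [hN, normalCore_eq_ker, MonoidHom.mem_ker, Equiv.ext_iff]
    rfl
  -- M = elements commuting with g modulo N
  let π := QuotientGroup.mk' N
  let M : Subgroup G := (centralizer ({π g} : Set (G ⧸ N))).comap π
  have hMmem : ∀ u : G, u ∈ M ↔ (u * g * u⁻¹ * g⁻¹) ∈ N := by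
    intro u
    rw [mem_comap, mem_centralizer_singleton_iff, ← QuotientGroup.eq_one_iff,
      ← QuotientGroup.mk'_apply, map_mul, map_mul, map_mul, map_inv, map_inv]
    constructor
    · intro e
      show π u * π g * (π u)⁻¹ * (π g)⁻¹ = 1
      rw [e]; group
    · intro e
      have e : π u * π g * (π u)⁻¹ * (π g)⁻¹ = 1 := e
      rw [mul_inv_eq_one, mul_inv_eq_iff_eq_mul] at e
      exact e
  have hCgM : ∀ n ∈ N, centralizer ({n * g} : Set G) ≤ M := by
    intro n hn u hu
    rw [hMmem]
    rw [mem_centralizer_singleton_iff] at hu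
    have e : u * g * u⁻¹ * g⁻¹ = (u * n * u⁻¹)⁻¹ * n := by
      have : u * g = u * n⁻¹ * u⁻¹ * (n * g) * u := by
        rw [mul_assoc (u * n⁻¹ * u⁻¹), ← hu]; group
      rw [this]; group
    rw [e]
    exact N.mul_mem (N.inv_mem (hNn.conj_mem n hn u)) hn
  -- elements of C ∩ M lie in N
  have hCM : C ⊓ M ≤ N := by
    rintro v ⟨hv, hvM⟩
    rw [hfix]
    intro a
    obtain ⟨i, rfl⟩ := htrans ((1 : G) : G ⧸ C) a
    have h1 : v * g ^ i * v⁻¹ * (g ^ i)⁻¹ ∈ N := by
      have := (hMmem v).1 hvM
      rw [← QuotientGroup.eq_one_iff] at this ⊢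
      simp only [QuotientGroup.mk_mul, QuotientGroup.mk_inv, QuotientGroup.mk_pow] at this ⊢
      rw [mul_inv_eq_one] at this ⊢
      rw [← conj_pow, this]
    have h2 : v • ((1 : G) : G ⧸ C) = ((1 : G) : G ⧸ C) := by
      rw [MulAction.Quotient.smul_coe, smul_eq_mul, mul_one, QuotientGroup.eq]
      simpa using hv
    calc v • g ^ i • ((1 : G) : G ⧸ C)
        = (v * g ^ i * v⁻¹ * (g ^ i)⁻¹) • g ^ i • v • ((1 : G) : G ⧸ C) := by
          simp only [smul_smul]; congr 1; group
      _ = g ^ i • ((1 : G) : G ⧸ C) := by rw [(hfix _).1 h1, h2]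
  have hMne : M ≠ ⊤ := by
    intro e
    rw [e, inf_top_eq] at hCM
    exact hnn (le_antisymm hNC hCM ▸ hNn)
  have hgnc : ∀ n ∈ N, ((centralizer ({n * g} : Set G)).index).Prime := fun n hn =>
    (h _).resolve_left (fun e => hMne (top_le_iff.1 (index_eq_one.1 e ▸ hCgM n hn)))
  have hMn : ∀ n ∈ N, centralizer ({n * g} : Set G) = M := fun n hn =>
    (eq_of_prime_index (hgnc n hn) (hCgM n hn) hMne).symm
  have hMg : centralizer ({g} : Set G) = M := by simpa using hMn 1 N.one_mem
  have hNM : N ≤ M := fun n hn => (hMmem n).2 (by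
    have := N.mul_mem hn (hNn.conj_mem n⁻¹ (N.inv_mem hn) g)
    simpa [mul_assoc] using this)
  have hNg : ∀ n ∈ N, n * g = g * n := fun n hn =>
    mem_centralizer_singleton_iff.1 (hMg ▸ hNM hn)
  have hgM : g ∈ M := hMg ▸ mem_centralizer_singleton_iff.2 rfl
  -- C M = G
  have hsup : ∀ u : G, ∃ i : ℕ, (g ^ i)⁻¹ * u ∈ C := by
    intro u
    obtain ⟨i, hi⟩ := htrans ((1 : G) : G ⧸ C) (u : G ⧸ C)
    rw [MulAction.Quotient.smul_coe, smul_eq_mul, mul_one, QuotientGroup.eq] at hi
    exact ⟨i, hi⟩
  have hMprime : M.index.Prime := hMg ▸ (by simpa using hgnc 1 N.one_mem)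
  have hMC : M.relIndex C = M.index := by
    refine le_antisymm (relIndex_le_of_le_right le_top (by simp [index_ne_zero_of_finite])
      |>.trans_eq (relIndex_top_right M)) ?_
    rw [index_eq_card, relIndex, index_eq_card]
    refine Nat.card_le_card_of_surjective
      (fun a : C ⧸ M.subgroupOf C => Quotient.liftOn' a (fun c => ((c : G) : G ⧸ M)) ?_) ?_
    · intro a b hab
      rw [QuotientGroup.leftRel_apply] at hab
      exact QuotientGroup.eq.2 hab
    · intro b
      obtain ⟨u, rfl⟩ := QuotientGroup.mk_surjective b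
      obtain ⟨i, hi⟩ := hsup u⁻¹
      refine ⟨((⟨_, C.inv_mem hi⟩ : C) : C ⧸ M.subgroupOf C), ?_⟩
      show (((((g ^ i)⁻¹ * u⁻¹)⁻¹ : G)) : G ⧸ M) = (u : G ⧸ M)
      rw [mul_inv_rev, inv_inv, inv_inv, QuotientGroup.mk_mul_of_mem u (M.pow_mem hgM i)]
  have hNidx : N.index = p * M.index := by
    have e1 : N.relIndex C = M.relIndex C := by
      rw [← inf_relIndex_right M C,
        show M ⊓ C = N from le_antisymm (by rw [inf_comm]; exact hCM) (le_inf hNM hNC)]
    rw [← relIndex_mul_index hNC, e1, hMC, mul_comm]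
  have hxN : x ∉ N := by
    intro hx
    exact hgC (mem_centralizer_singleton_iff.2 (hNg x hx).symm)
  have hxC : x ∈ C := mem_centralizer_singleton_iff.2 rfl
  -- N is central
  have hcentral : N = center G := by
    apply le_antisymm
    · intro n hn
      by_contra hnc
      have hgx : g ∈ centralizer ({n} : Set G) ∧ x ∈ centralizer ({n} : Set G) :=
        ⟨mem_centralizer_singleton_iff.2 (hNg n hn).symm,
          mem_centralizer_singleton_iff.2 (mem_centralizer_singleton_iff.1 (hNC hn)).symm⟩
      apply hnc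
      rw [mem_center_iff]
      intro u
      suffices hle : centralizer ({n} : Set G) = ⊤ by
        exact mem_centralizer_singleton_iff.1 (hle ▸ mem_top u)
      have hNn' : N ≤ centralizer ({n} : Set G) := by
        intro m hm
        have h1 : m ∈ centralizer ({n * g} : Set G) := by rw [hMn n hn]; exact hNM hm
        rw [mem_centralizer_singleton_iff] at h1 ⊢
        have h2 := hNg m hm
        apply mul_right_cancel (b := g)
        calc m * n * g = m * (n * g) := by group
          _ = n * g * m := h1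
          _ = n * (m * g) := by rw [h2]; group
          _ = n * m * g := by group
      have hCle : C ≤ centralizer ({n} : Set G) := by
        have hK : C = N ⊔ zpowers x := by
          have hle : N ⊔ zpowers x ≤ C := sup_le hNC (zpowers_le.2 hxC)
          have hrel : (N.relIndex C).Prime := by
            rw [show N.relIndex C = M.index from ?_]
            · exact hMprime
            rw [← hMC, ← inf_relIndex_right M C,
              show M ⊓ C = N from le_antisymm (by rw [inf_comm]; exact hCM) (le_inf hNM hNC)]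
          have hm := relIndex_mul_relIndex N _ C le_sup_left hle
          rcases Nat.prime_mul_iff.1 (hm.symm ▸ hrel) with ⟨-, h2⟩ | ⟨-, h2⟩
          · exact le_antisymm (relIndex_eq_one.1 h2) hle
          · exact absurd (relIndex_eq_one.1 h2 (mem_sup_right (mem_zpowers x))) hxN
        rw [hK]; exact sup_le hNn' (zpowers_le.2 hgx.2)
      by_contra hne
      exact hgC (eq_of_prime_index hCp hCle hne ▸ hgx.1)
    · refine normal_le_normalCore.2 fun z hz => ?_
      exact mem_centralizer_singleton_iff.2 ((mem_center_iff.1 hz x).symm)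
  refine ⟨p, M.index, hCp, hMprime, ?_, ?_, ?_⟩
  · intro e
    rw [← e, ← pow_two] at hNidx
    rw [index_eq_card] at hNidx
    have hcomm : ∀ a b : G ⧸ N, a * b = b * a := by
      exact IsPGroup.commutative_of_card_eq_prime_sq hNidx
    refine hMne (eq_top_iff.2 fun u _ => (hMmem u).2 ?_)
    rw [← QuotientGroup.eq_one_iff]
    simp only [QuotientGroup.mk_mul, QuotientGroup.mk_inv]
    rw [hcomm (u : G ⧸ N) (g : G ⧸ N)]; group
  · rw [← index_eq_card, ← hcentral, hNidx]
  · intro hcm
    refine hMne (eq_top_iff.2 fun u _ => (hMmem u).2 ?_)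
    rw [hcentral, ← QuotientGroup.eq_one_iff]
    simp only [QuotientGroup.mk_mul, QuotientGroup.mk_inv]
    rw [hcm.is_comm.comm (u : G ⧸ center G) (g : G ⧸ center G)]; group

end

/-- Let `G` be a finite group every conjugacy class of which has size 1 or a prime. Then either `G` is nilpotent of class at most 2, or `G/Z(G)` is a non-abelian group of order `pq` for distinct primes `p, q` (a Frobenius group of order `pq`). -/
theorem result {G : Type*} [Group G] [Finite G]
    (h : ∀ x : G, (Subgroup.centralizer ({x} : Set G)).index = 1 ∨ ((Subgroup.centralizer ({x} : Set G)).index).Prime) :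
    Subgroup.upperCentralSeries G 2 = ⊤ ∨
      ∃ p q : ℕ, p.Prime ∧ q.Prime ∧ p ≠ q ∧ Nat.card (G ⧸ Subgroup.center G) = p * q ∧ ¬ IsMulCommutative (G ⧸ Subgroup.center G) := by
  by_cases hall : ∀ x : G, (Subgroup.centralizer ({x} : Set G)).Normal
  · left
    rw [eq_top_iff]
    intro a _
    rw [show (2 : ℕ) = 1 + 1 from rfl, Subgroup.mem_upperCentralSeries_succ_iff]
    intro b
    rw [Subgroup.upperCentralSeries_one, Subgroup.mem_center_iff]
    intro u
    haveI := hall u
    set K := Subgroup.centralizer ({u} : Set G) with hK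
    have hcy : IsMulCommutative (G ⧸ K) := by
      rcases h u with h1 | h1
      · haveI : Subsingleton (G ⧸ K) := by
          rw [Subgroup.index_eq_card] at h1
          exact (Nat.card_eq_one_iff_unique.1 h1).1
        exact ⟨⟨fun _ _ => Subsingleton.elim _ _⟩⟩
      · haveI := Fact.mk h1
        haveI := isCyclic_of_prime_card (α := G ⧸ K) (p := K.index) (Subgroup.index_eq_card K).symm
        exact IsCyclic.isMulCommutative
    have : a * b * a⁻¹ * b⁻¹ ∈ K := by
      rw [← QuotientGroup.eq_one_iff]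
      simp only [QuotientGroup.mk_mul, QuotientGroup.mk_inv]
      rw [hcy.is_comm.comm (a : G ⧸ K) (b : G ⧸ K)]; group
    exact (Subgroup.mem_centralizer_singleton_iff.1 this).symm
  · right
    obtain ⟨x, hx⟩ := not_forall.1 hall
    exact exists_frobenius_quotient h x hx

end Cfsg.Agent.S4314
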