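import Cfsg.Statements.S4316
import Cfsg.Agent.FGS.RankThreeBound
import Cfsg.Agent.FGS.ActionSemidirect

set_option autoImplicit false
universe u
open Cfsg

namespace Cfsg.Agent.S4316

/-- There is a function `f` of two natural-number arguments with the following property. Let `q` be a prime and `A` an elementary abelian group of order `q³` acting by automorphisms on a finite group `G` of order prime to `q`, and suppose that for every non-identity `a ∈ A` the derived subgroup of the fixed-point subgroup `C_G(a)` has order at most `m`. Then the derived subgroup of `G` has order at most `f(q, m)`. -/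
theorem result :
    ∃ f : ℕ → ℕ → ℕ, ∀ (q m : ℕ) (A G : Type u) [Group A] [Finite A] [Group G] [Finite G] [MulDistribMulAction A G],
      q.Prime → Nat.card A = q ^ 3 → (∀ a b : A, a * b = b * a) → (∀ a : A, a ^ q = 1) → ¬ q ∣ Nat.card G →
      (∀ a : A, a ≠ 1 → Nat.card ↥(commutator ↥(FixedPoints.subgroup (Subgroup.zpowers a) G)) ≤ m) →
      Nat.card ↥(commutator G) ≤ f q m := by
  refine ⟨fun q m => FGS.RankThree.bound q m, ?_⟩
  intro q m A G _ _ _ _ _ hq hcard hcomm hexp hcop hm
  haveI := FGS.ActSD.finite_amb (A := A) (G := G)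
  have h : FGS.RankThree.Setup (FGS.ActSD.actor A G) (FGS.ActSD.base A G) q := by
    refine ⟨hq, FGS.ActSD.card_actor.trans hcard, ?_, ?_, FGS.ActSD.actor_le_normalizer, ?_⟩
    · rintro _ ⟨a, rfl⟩ _ ⟨b, rfl⟩
      rw [← map_mul, ← map_mul, hcomm]
    · rintro _ ⟨a, rfl⟩
      rw [← map_pow, hexp, map_one]
    · rw [FGS.ActSD.card_actor (A := A) (G := G), FGS.ActSD.card_base (A := A) (G := G), hcard]
      exact ((hq.coprime_iff_not_dvd).2 hcop).pow_left 3
  have hm' : ∀ c ∈ FGS.ActSD.actor A G, c ≠ 1 → Nat.card ↥(⁅FGS.ActSD.base A G ⊓ Subgroup.centralizer {c},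
      FGS.ActSD.base A G ⊓ Subgroup.centralizer {c}⁆) ≤ m := by
    rintro _ ⟨a, rfl⟩ ha
    rw [← FGS.ActSD.card_commutator_fixed]
    exact hm a fun e => ha (by rw [e, map_one])
  have hm0 : 0 < m := by
    obtain ⟨a, ha⟩ : ∃ a : A, a ≠ 1 := by
      haveI : Nontrivial A := Finite.one_lt_card_iff_nontrivial.1
        (hcard ▸ Nat.one_lt_pow (by norm_num) hq.one_lt)
      exact exists_ne 1
    exact lt_of_lt_of_le Nat.card_pos (hm a ha)
  rw [FGS.ActSD.card_commutator (A := A) (G := G)]
  exact FGS.RankThree.card_commutator_le h hm' hm0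

end Cfsg.Agent.S4316
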