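import Cfsg.Statements.S4321
import Cfsg.Agent.PSingular.Core

set_option autoImplicit false
open Cfsg

namespace Cfsg.Agent.S4321

/-- Let `G` be a finite group and `p` a prime not dividing the order of the centre of `G`. Consider the primes dividing the size of some conjugacy class of a `p`-singular element (an element of order divisible by `p`), two of them adjacent when their product divides such a class size. Then any two distinct such primes are joined by a path with at most 3 edges (the graph is connected of diameter at most 3). -/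
theorem result {G : Type*} [Group G] [Finite G] (p : ℕ) [Fact p.Prime]
    (hZ : ¬ p ∣ Nat.card ↥(Subgroup.center G)) (r s : ℕ) (hr : (r.Prime ∧ ∃ x : G, p ∣ orderOf x ∧ r ∣ (Subgroup.centralizer ({x} : Set G)).index)) (hs : (s.Prime ∧ ∃ x : G, p ∣ orderOf x ∧ s ∣ (Subgroup.centralizer ({x} : Set G)).index)) (hrs : r ≠ s) :
    (∃ x : G, p ∣ orderOf x ∧ r * s ∣ (Subgroup.centralizer ({x} : Set G)).index) ∨ (∃ t : ℕ, (t.Prime ∧ ∃ x : G, p ∣ orderOf x ∧ t ∣ (Subgroup.centralizer ({x} : Set G)).index) ∧ t ≠ r ∧ t ≠ s ∧ (∃ x : G, p ∣ orderOf x ∧ r * t ∣ (Subgroup.centralizer ({x} : Set G)).index) ∧ (∃ x : G, p ∣ orderOf x ∧ t * s ∣ (Subgroup.centralizer ({x} : Set G)).index)) ∨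
      (∃ t u : ℕ, (t.Prime ∧ ∃ x : G, p ∣ orderOf x ∧ t ∣ (Subgroup.centralizer ({x} : Set G)).index) ∧ (u.Prime ∧ ∃ x : G, p ∣ orderOf x ∧ u ∣ (Subgroup.centralizer ({x} : Set G)).index) ∧ t ≠ r ∧ u ≠ s ∧ t ≠ u ∧ (∃ x : G, p ∣ orderOf x ∧ r * t ∣ (Subgroup.centralizer ({x} : Set G)).index) ∧ (∃ x : G, p ∣ orderOf x ∧ t * u ∣ (Subgroup.centralizer ({x} : Set G)).index) ∧ (∃ x : G, p ∣ orderOf x ∧ u * s ∣ (Subgroup.centralizer ({x} : Set G)).index)) := by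
  obtain ⟨hrp, x, hx, hrx⟩ := hr
  obtain ⟨hsp, y, hy, hsy⟩ := hs
  have hp : p.Prime := Fact.out
  have hred : ∀ z : G, p ∣ orderOf z → ∃ a : G, orderOf a = p ∧
      Cfsg.Agent.PSingular.cs a ∣ Cfsg.Agent.PSingular.cs z := by
    intro z hz
    refine ⟨z ^ (orderOf z / p), orderOf_pow_orderOf_div (orderOf_pos z).ne' hz, ?_⟩
    exact Cfsg.Agent.ClassSize.index_centralizer_dvd_of_mem_zpowers
      (Subgroup.pow_mem _ (Subgroup.mem_zpowers z) _)
  obtain ⟨a, ha, hax⟩ := hred x hx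
  obtain ⟨b, hb, hby⟩ := hred y hy
  obtain ⟨t, u, ht, hu, hta, hub, hlink⟩ := Cfsg.Agent.PSingular.exists_link hZ ha hb
  have htx : t ∣ (Subgroup.centralizer ({x} : Set G)).index := hta.trans hax
  have huy : u ∣ (Subgroup.centralizer ({y} : Set G)).index := hub.trans hby
  have mul : ∀ {i j n : ℕ}, i.Prime → j.Prime → i ≠ j → i ∣ n → j ∣ n → i * j ∣ n :=
    fun hi hj hij h1 h2 => ((Nat.coprime_primes hi hj).2 hij).mul_dvd_of_dvd_of_dvd h1 h2
  by_cases hdirect : ∃ z : G, p ∣ orderOf z ∧ r * s ∣ (Subgroup.centralizer ({z} : Set G)).index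
  · exact Or.inl hdirect
  have hsx : ¬ s ∣ (Subgroup.centralizer ({x} : Set G)).index := fun h =>
    hdirect ⟨x, hx, mul hrp hsp hrs hrx h⟩
  have hry : ¬ r ∣ (Subgroup.centralizer ({y} : Set G)).index := fun h =>
    hdirect ⟨y, hy, mul hrp hsp hrs h hsy⟩
  have hts : t ≠ s := fun e => hsx (e ▸ htx)
  have hur : u ≠ r := fun e => hry (e ▸ huy)
  right
  rcases hlink with rfl | ⟨e, he, htue⟩
  · left
    exact ⟨t, ⟨ht, x, hx, htx⟩, hur, hts, ⟨x, hx, mul hrp ht (Ne.symm hur) hrx htx⟩,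
      ⟨y, hy, mul ht hsp hts huy hsy⟩⟩
  by_cases htr : t = r
  · subst htr
    by_cases hus : u = s
    · subst hus; exact absurd ⟨e, he, htue⟩ hdirect
    · left
      exact ⟨u, ⟨hu, y, hy, huy⟩, hur, hus, ⟨e, he, htue⟩, ⟨y, hy, mul hu hsp hus huy hsy⟩⟩
  by_cases hus : u = s
  · subst hus
    left
    exact ⟨t, ⟨ht, x, hx, htx⟩, htr, hts, ⟨x, hx, mul hrp ht (Ne.symm htr) hrx htx⟩, ⟨e, he, htue⟩⟩
  by_cases htu : t = u
  · subst htu
    left
    exact ⟨t, ⟨ht, x, hx, htx⟩, htr, hts, ⟨x, hx, mul hrp ht (Ne.symm htr) hrx htx⟩,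
      ⟨y, hy, mul ht hsp hts huy hsy⟩⟩
  right
  exact ⟨t, u, ⟨ht, x, hx, htx⟩, ⟨hu, y, hy, huy⟩, htr, hus, htu,
    ⟨x, hx, mul hrp ht (Ne.symm htr) hrx htx⟩, ⟨e, he, htue⟩, ⟨y, hy, mul hu hsp hus huy hsy⟩⟩

end Cfsg.Agent.S4321
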