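import Cfsg.Statements.S4323
import Cfsg.Agent.FGS.AbCentSolvable

set_option autoImplicit false
open Cfsg

namespace Cfsg.Agent.S4323

open Subgroup SemidirectProduct

/-- Let `q` be a prime and `A` a non-cyclic group of order `q²` acting by automorphisms on a finite group `G` of order prime to `q`, such that the fixed-point subgroup `C_G(a)` is abelian for every non-identity `a ∈ A`. Then `G` is solvable. -/
theorem result {A G : Type*} [Group A] [Finite A]
    [Group G] [Finite G] [MulDistribMulAction A G] (q : ℕ) (hq : q.Prime) (hA : Nat.card A = q ^ 2) (hnc : ¬ IsCyclic A)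
    (hcop : ¬ q ∣ Nat.card G) (h : ∀ a : A, a ≠ 1 → IsMulCommutative ↥(FixedPoints.subgroup (Subgroup.zpowers a) G)) :
    Group.IsSolvable G := by
  haveI : Fact q.Prime := ⟨hq⟩
  let φ := MulDistribMulAction.toMulAut A G
  haveI : Finite (G ⋊[φ] A) := Finite.of_equiv _ (SemidirectProduct.equivProd).symm
  have hcomm : IsMulCommutative A := IsPGroup.isMulCommutative_of_card_eq_prime_sq hA
  have hexp : ∀ a : A, a ^ q = 1 := by
    intro a
    obtain ⟨i, hi, ho⟩ := (Nat.dvd_prime_pow hq).1 (hA ▸ orderOf_dvd_natCard a)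
    have hi2 : i ≠ 2 := fun e => hnc (isCyclic_of_orderOf_eq_card a (by rw [ho, e, hA]))
    rw [← orderOf_dvd_iff_pow_eq_one, ho]
    calc q ^ i ∣ q ^ 1 := pow_dvd_pow q (by omega)
      _ = q := pow_one q
  set K := (inl : G →* G ⋊[φ] A).range with hK
  set B := (inr : A →* G ⋊[φ] A).range with hB
  have hcard : Nat.card K = Nat.card G :=
    (Nat.card_congr (MonoidHom.ofInjective inl_injective).toEquiv).symm
  have hconj : ∀ (a : A) (g : G), (inr a : G ⋊[φ] A) * inl g * (inr a)⁻¹ = inl (a • g) := by
    intro a g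
    rw [← map_inv]
    exact (inl_aut (φ := φ) a g).symm
  have hH : FGS.AbCent.Hyp q K B :=
    { prime := hq
      comm := by
        refine ⟨⟨?_⟩⟩
        rintro ⟨_, a, rfl⟩ ⟨_, b, rfl⟩
        exact Subtype.ext (show (inr a : G ⋊[φ] A) * inr b = inr b * inr a by
          rw [← map_mul, ← map_mul, hcomm.is_comm.comm a b])
      card_eq := by
        rw [← hA]
        exact (Nat.card_congr (MonoidHom.ofInjective inr_injective).toEquiv).symm
      pow_eq := by
        rintro _ ⟨a, rfl⟩
        rw [← map_pow, hexp a, map_one]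
      normal := by
        rw [hK, range_inl_eq_ker_rightHom]
        exact MonoidHom.normal_ker _
      coprime := by
        rw [hcard]
        exact ((hq.coprime_iff_not_dvd).2 hcop).symm
      abel := by
        rintro _ ⟨a, rfl⟩ ha1
        have hfix : ∀ x : ↥(K ⊓ centralizer {(inr a : G ⋊[φ] A)}), ∃ g : G,
            g ∈ FixedPoints.subgroup (zpowers a) G ∧ inl g = (x : G ⋊[φ] A) := by
          rintro ⟨x, ⟨g, rfl⟩, hx⟩
          refine ⟨g, ?_, rfl⟩
          have h1 : a • g = g := by
            apply inl_injective (φ := φ)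
            rw [← hconj, ← mem_centralizer_singleton_iff.1 hx, mul_inv_cancel_right]
          rintro ⟨b, hb⟩
          have hle : zpowers a ≤ MulAction.stabilizer A g := zpowers_le.2 h1
          exact hle hb
        refine ⟨⟨fun x y => ?_⟩⟩
        obtain ⟨g, hg, hgx⟩ := hfix x
        obtain ⟨k, hk, hky⟩ := hfix y
        have hgk := (h a fun e => ha1 (by rw [e, map_one])).is_comm.comm ⟨g, hg⟩ ⟨k, hk⟩
        refine Subtype.ext ?_
        show (x : G ⋊[φ] A) * y = y * x
        rw [← hgx, ← hky, ← map_mul, ← map_mul]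
        exact congrArg (fun z => (inl z : G ⋊[φ] A)) (congrArg Subtype.val hgk) }
  haveI := FGS.AbCent.isSolvable hH
  exact Group.isSolvable_of_surjective
    (f := (MonoidHom.ofInjective (inl_injective (φ := φ))).symm.toMonoidHom)
    (MonoidHom.ofInjective (inl_injective (φ := φ))).symm.surjective

end Cfsg.Agent.S4323
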