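import Cfsg.Statements.S4416
import Cfsg.Agent.PGroup.InvolutionCount

set_option autoImplicit false
open Cfsg

namespace Cfsg.Agent.S4416

/-- Classification of extraspecial 2-groups in intrinsic form. An extraspecial 2-group has order 2^(2m+1) for some m ≥ 1, and the number of its elements squaring to the identity is either 2^(2m) + 2^m or 2^(2m) − 2^m; two extraspecial 2-groups of the same order with the same number of such elements are isomorphic. (The two cases are the central products of m dihedral groups of order 8, and of m − 1 dihedral groups with one quaternion group.) -/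
theorem result (E : Type*) [Group E] [Finite E] (hE : Cfsg.IsExtraspecial 2 E) :
    (∃ m : ℕ, 1 ≤ m ∧ Nat.card E = 2 ^ (2 * m + 1) ∧
      (Nat.card {x : E // x ^ 2 = 1} = 2 ^ (2 * m) + 2 ^ m ∨ Nat.card {x : E // x ^ 2 = 1} = 2 ^ (2 * m) - 2 ^ m)) ∧
    ∀ (E' : Type*) [Group E'] [Finite E'], Cfsg.IsExtraspecial 2 E' → Nat.card E' = Nat.card E →
      Nat.card {x : E' // x ^ 2 = 1} = Nat.card {x : E // x ^ 2 = 1} → Nonempty (E ≃* E') := by

  classical
  obtain ⟨m, hm, hc, hp, hn⟩ := PGroup.invCount_eq _ E hE rfl
  refine ⟨⟨m, hm, hc, ?_⟩, ?_⟩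
  · by_cases h : PGroup.IsPlusTwo E
    · exact Or.inl (hp h)
    · exact Or.inr (hn h)
  intro E' _ _ hE' hcard hcount
  refine PGroup.iso_of_type _ E E' hE hE' rfl hcard ?_
  obtain ⟨m', -, hc', hp', hn'⟩ := PGroup.invCount_eq _ E' hE' rfl
  have hmm : m' = m := by
    rw [hcard, hc] at hc'
    have := Nat.pow_right_injective (le_refl 2) hc'
    omega
  subst hmm
  have h1 : 2 ^ m' ≤ 2 ^ (2 * m') := Nat.pow_le_pow_right (by norm_num) (by omega)
  have h2 : 0 < 2 ^ m' := pow_pos (by norm_num) _
  change PGroup.invCount E' = PGroup.invCount E at hcount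
  constructor
  · intro h
    by_contra h'
    have e1 := hp h
    have e2 := hn' h'
    omega
  · intro h
    by_contra h'
    have e1 := hn h'
    have e2 := hp' h
    omega


end Cfsg.Agent.S4416
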