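import Cfsg.Statements.S4421


set_option autoImplicit false
open Cfsg

namespace Cfsg.Agent.S4421

/-- A factorization of a normalizer from two-step control of fusion. Let `G` be a finite group and `A ≤ S ≤ H` subgroups of `G` such that: (i) `S` controls the `G`-fusion of `A` in the sense that every `G`-conjugate of `A` lying in `S` is an `S`-conjugate of `A`; (ii) `H` controls the `G`-fusion of `S` in the same sense; (iii) every conjugate of `S` by an element of the normalizer of `A` lies in `H`. Then `N_G(A) = N_H(A) · (N_G(S) ∩ N_G(A))`: every element of the normalizer of `A` is a product of an element of `H` normalizing `A` and an element normalizing both `S` and `A`. -/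
theorem result {G : Type*} [Group G] [Finite G] (A S H : Subgroup G)
    (hAS : A ≤ S) (hSH : S ≤ H)
    (h1 : ∀ g : G, A.map (MulAut.conj g).toMonoidHom ≤ S → ∃ s ∈ S, A.map (MulAut.conj g).toMonoidHom = A.map (MulAut.conj s).toMonoidHom)
    (h2 : ∀ g : G, S.map (MulAut.conj g).toMonoidHom ≤ H → ∃ y ∈ H, S.map (MulAut.conj g).toMonoidHom = S.map (MulAut.conj y).toMonoidHom)
    (h3 : ∀ x ∈ Subgroup.normalizer (A : Set G), S.map (MulAut.conj x).toMonoidHom ≤ H) :
    ∀ x ∈ Subgroup.normalizer (A : Set G), ∃ y ∈ H ⊓ Subgroup.normalizer (A : Set G),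
      ∃ z ∈ Subgroup.normalizer (S : Set G) ⊓ Subgroup.normalizer (A : Set G), x = y * z := by
  intro x hx
  obtain ⟨y, hyH, hy⟩ := h2 x (h3 x hx)
  have hmm : ∀ (K : Subgroup G) (u v : G), (K.map (MulAut.conj u).toMonoidHom = K.map (MulAut.conj v).toMonoidHom) →
      v⁻¹ * u ∈ Subgroup.normalizer (K : Set G) := by
    intro K u v huv
    rw [Subgroup.mem_normalizer_iff]
    intro k
    have h := SetLike.ext_iff.1 huv (u * k * u⁻¹)
    simp only [Subgroup.mem_map, MulEquiv.coe_toMonoidHom, MulAut.conj_apply] at h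
    constructor
    · intro hk
      obtain ⟨k', hk', e⟩ := h.1 ⟨k, hk, rfl⟩
      have : v⁻¹ * u * k * (v⁻¹ * u)⁻¹ = k' := by
        calc _ = v⁻¹ * (u * k * u⁻¹) * v := by group
          _ = v⁻¹ * (v * k' * v⁻¹) * v := by rw [e]
          _ = k' := by group
      rwa [this]
    · intro hk
      obtain ⟨k', hk', e⟩ := h.2 ⟨_, hk, by group⟩
      have : k' = k := by
        have := mul_right_cancel e
        exact mul_left_cancel this
      exact this ▸ hk'
  have hn := hmm S x y hy
  have hAn : A.map (MulAut.conj (y⁻¹ * x)).toMonoidHom ≤ S := by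
    rintro _ ⟨a, ha, rfl⟩
    exact (Subgroup.mem_normalizer_iff.1 hn a).1 (hAS ha)
  obtain ⟨s, hs, hAs⟩ := h1 _ hAn
  have hz := hmm A _ _ hAs
  have hsS : s⁻¹ * (y⁻¹ * x) ∈ Subgroup.normalizer (S : Set G) :=
    mul_mem (Subgroup.le_normalizer (inv_mem hs)) hn
  refine ⟨y * s, ⟨mul_mem hyH (hSH hs), ?_⟩, _, ⟨hsS, hz⟩, by group⟩
  have : y * s = x * (s⁻¹ * (y⁻¹ * x))⁻¹ := by group
  rw [this]
  exact Subgroup.mul_mem _ hx (Subgroup.inv_mem _ hz)

end Cfsg.Agent.S4421
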