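import Cfsg.Statements.S4422


set_option autoImplicit false
open Cfsg

namespace Cfsg.Agent.S4422

/-- Primitive divisors of `q^e - 1` are congruent to 1 modulo `e`. Let `q ≥ 2` and `e ≥ 1` be natural numbers and let `m` be a divisor of `q^e - 1` that is coprime to `q^i - 1` for every `1 ≤ i < e` (so `m` divides the primitive part of `q^e - 1`, the largest such divisor). Then `m ≡ 1 (mod e)`. -/
theorem result (q e m : ℕ) (hq : 2 ≤ q) (he : 1 ≤ e)
    (hm : m ∣ q ^ e - 1) (hcop : ∀ i : ℕ, 1 ≤ i → i < e → Nat.Coprime m (q ^ i - 1)) :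
    m % e = 1 % e := by
  have key : ∀ r : ℕ, r.Prime → r ∣ m → r % e = 1 % e := by
    intro r hr hrm
    have : Fact r.Prime := ⟨hr⟩
    have hq1 : ∀ i, 1 ≤ q ^ i := fun i => Nat.one_le_pow _ _ (by omega)
    have hiff : ∀ i, r ∣ q ^ i - 1 ↔ (q : ZMod r) ^ i = 1 := by
      intro i
      rw [← ZMod.natCast_eq_zero_iff, Nat.cast_sub (hq1 i), sub_eq_zero]
      push_cast; rfl
    have he1 : (q : ZMod r) ^ e = 1 := (hiff e).1 (hrm.trans hm)
    have hord : orderOf (q : ZMod r) = e := by
      refine (orderOf_eq_iff he).2 ⟨he1, fun i hi hi0 h => ?_⟩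
      exact hr.one_lt.ne' (Nat.eq_one_of_dvd_coprimes (hcop i hi0 hi) hrm ((hiff i).2 h))
    have hne : (q : ZMod r) ≠ 0 := by
      intro h
      rw [h, zero_pow (by omega)] at he1
      exact zero_ne_one he1
    have hd : e ∣ r - 1 := by
      rw [← hord]
      exact orderOf_dvd_of_pow_eq_one (ZMod.pow_card_sub_one_eq_one hne)
    exact ((Nat.modEq_iff_dvd' hr.one_lt.le).2 hd).symm
  have hm0 : m ≠ 0 := by
    rintro rfl
    have : 1 < q ^ e := Nat.one_lt_pow (by omega) hq
    rw [zero_dvd_iff] at hm; omega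
  clear hm hcop
  induction m using Nat.recOnMul with
  | zero => exact absurd rfl hm0
  | one => rfl
  | prime r hr => exact key r hr dvd_rfl
  | mul a b iha ihb =>
    rw [Nat.mul_mod, iha (fun r hr h => key r hr (h.trans (dvd_mul_right a b))) (left_ne_zero_of_mul hm0),
      ihb (fun r hr h => key r hr (h.trans (dvd_mul_left b a))) (right_ne_zero_of_mul hm0), ← Nat.mul_mod, mul_one]

end Cfsg.Agent.S4422
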