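import Cfsg.Statements.S4423
import Cfsg.Agent.PrimPart.Bounds
import Cfsg.Agent.PrimPart.Table

set_option autoImplicit false
open Cfsg

namespace Cfsg.Agent.S4423

open Polynomial Cfsg.Agent.PrimPart

/-- A number all whose prime divisors are `1` modulo `e` is `1` modulo `e`. -/
theorem modEq_one_of_primes (e n : ℕ) (hn : 0 < n) (h : ∀ l : ℕ, l.Prime → l ∣ n → l ≡ 1 [MOD e]) :
    n ≡ 1 [MOD e] := by
  induction n using Nat.recOnMul with
  | zero => omega
  | one => rfl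
  | prime p hp => exact h p hp dvd_rfl
  | mul a b iha ihb =>
    have ha : 0 < a := Nat.pos_of_mul_pos_right hn
    have hb : 0 < b := Nat.pos_of_mul_pos_left hn
    simpa using (iha ha fun l hl hla => h l hl (hla.trans (dvd_mul_right a b))).mul
      (ihb hb fun l hl hlb => h l hl (hlb.trans (dvd_mul_left b a)))

/-- Without a large primitive divisor the cyclotomic value is small. -/
theorem large_or_small (q e : ℕ) (hq : 2 ≤ q) (he : 3 ≤ e) :
    (∃ m : ℕ, m ∣ q ^ e - 1 ∧ (∀ i : ℕ, 1 ≤ i → i < e → Nat.Coprime m (q ^ i - 1)) ∧ 3 * e + 1 ≤ m) ∨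
    ∃ r : ℕ, r.Prime ∧ r ∣ e ∧ ((cyclotomic e ℤ).eval (q : ℤ)).natAbs ≤ r * (2 * e + 1) := by
  classical
  set Φ := ((cyclotomic e ℤ).eval (q : ℤ)).natAbs with hΦ
  have hΦ0 : 0 < Φ := Cfsg.Agent.Arith.natAbs_cyclotomic_eval_pos hq e
  obtain ⟨r, hr, hre⟩ : ∃ r, r.Prime ∧ r ∣ e ∧ ∀ l, l.Prime → l ∣ e → l ∣ Φ → l = r := by
    by_cases h : ∃ r, r.Prime ∧ r ∣ e ∧ r ∣ Φ
    · obtain ⟨r, hr, hre, hrΦ⟩ := h
      refine ⟨r, hr, hre, fun l hl hle hlΦ => ?_⟩
      have : Fact r.Prime := ⟨hr⟩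
      have : Fact l.Prime := ⟨hl⟩
      exact le_antisymm (Cfsg.Agent.Arith.le_of_dvd_cyclotomic_of_dvd hl hle (Int.natCast_dvd.2 hrΦ))
        (Cfsg.Agent.Arith.le_of_dvd_cyclotomic_of_dvd hr hre (Int.natCast_dvd.2 hlΦ))
    · push Not at h
      obtain ⟨r, hr, hre⟩ := Nat.exists_prime_and_dvd (by omega : e ≠ 1)
      exact ⟨r, hr, hre, fun l hl hle hlΦ => absurd hlΦ (h l hl hle)⟩
  obtain ⟨hre, huniq⟩ := hre
  set P := if r ∣ Φ then Φ / r else Φ with hP
  have hPd : P ∣ Φ := by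
    rw [hP]; split_ifs with h
    · exact Nat.div_dvd_of_dvd h
    · exact dvd_rfl
  have hPr : ¬ r ∣ P := by
    rw [hP]; split_ifs with h
    · intro h2
      have : Fact r.Prime := ⟨hr⟩
      refine Cfsg.Agent.Arith.not_sq_dvd_cyclotomic (by omega : 2 < e) hq hre (Int.natCast_dvd.2 h) ?_
      rw [← Nat.cast_pow, Int.natCast_dvd, pow_two]
      exact (Nat.dvd_div_iff_mul_dvd h).1 h2
    · exact h
  have hord : ∀ l : ℕ, l.Prime → l ∣ P → orderOf (q : ZMod l) = e := by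
    intro l hl hlP
    have : Fact l.Prime := ⟨hl⟩
    refine Cfsg.Agent.Arith.orderOf_eq_of_dvd_cyclotomic (fun hle => hPr ?_) (Int.natCast_dvd.2 (hlP.trans hPd))
    rwa [← huniq l hl hle (hlP.trans hPd)]
  have hP0 : 0 < P := Nat.pos_of_dvd_of_pos hPd hΦ0
  have hprim : ∀ i : ℕ, 1 ≤ i → i < e → Nat.Coprime P (q ^ i - 1) := by
    intro i hi hie
    refine Nat.coprime_of_dvd fun l hl h1 h2 => ?_
    have h3 := (Cfsg.Agent.Arith.dvd_pow_sub_one_iff_orderOf_dvd (by omega : 0 < q) i).1 h2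
    rw [hord l hl h1] at h3
    have := Nat.le_of_dvd (by omega) h3
    omega
  by_cases hbig : 3 * e + 1 ≤ P
  · exact Or.inl ⟨P, hPd.trans (Cfsg.Agent.Arith.natAbs_cyclotomic_dvd_pow_sub_one (by omega) e), hprim, hbig⟩
  · right
    refine ⟨r, hr, hre, ?_⟩
    have hmod := modEq_one_of_primes e P hP0 (fun l hl hlP => by
      have : Fact l.Prime := ⟨hl⟩
      exact ((Nat.modEq_iff_dvd' hl.pos).2 (Cfsg.Agent.Arith.dvd_sub_one_of_orderOf_eq (by omega) (hord l hl hlP))).symm)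
    obtain ⟨k, hk⟩ := (Nat.modEq_iff_dvd' hP0).1 hmod.symm
    have hk3 : k < 3 := by
      by_contra h
      have := Nat.mul_le_mul_left e (le_of_not_gt h)
      omega
    have hle : P ≤ 2 * e + 1 := by
      have := Nat.mul_le_mul_left e (Nat.le_of_lt_succ hk3)
      omega
    have hΦP : Φ ≤ r * P := by
      rw [hP]; split_ifs with h
      · rw [Nat.mul_div_cancel' h]
      · exact Nat.le_mul_of_pos_left _ hr.pos
    exact hΦP.trans (Nat.mul_le_mul_left _ hle)

theorem small_bound {f : ℕ} : 17 ≤ f → 4 * (f + 1) * (4 * f ^ 2 + 1) < 2 ^ f := by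
  intro hf
  induction f, hf using Nat.le_induction with
  | base => norm_num
  | succ f hf ih =>
    rw [pow_succ 2 f]
    have : 4 * (f + 1 + 1) * (4 * (f + 1) ^ 2 + 1) ≤ 2 * (4 * (f + 1) * (4 * f ^ 2 + 1)) := by nlinarith [Nat.mul_le_mul_left (f ^ 2) hf, Nat.mul_le_mul_left f hf]
    omega

/-- Size of the primitive part of `q^e - 1`. For a prime power `q` and `e ≥ 3`, call a divisor of `q^e - 1` primitive when it is coprime to `q^i - 1` for every `1 ≤ i < e`; the primitive part is the largest primitive divisor. Apart from thirteen exceptional pairs, the primitive part is at least `3e + 1`: there is a primitive divisor `m ≥ 3e + 1` unless `(q, e)` is `(2, 6)` (where every primitive divisor is 1), one of `(2,4), (2,10), (2,12), (2,18), (3,4), (3,6), (5,6)` (where the primitive part is exactly `e + 1`), or one of `(2,3), (2,8), (2,20), (4,3), (4,6)` (where it is exactly `2e + 1`). The statement asserts the existence of a primitive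 divisor `m ≥ 3e + 1` outside the thirteen pairs, and that every primitive divisor is at most `2e + 1` for the thirteen pairs. -/
theorem result (q e : ℕ) (hq : IsPrimePow q) (he : 3 ≤ e) :
    ((q, e) ∉ [(2, 6), (2, 4), (2, 10), (2, 12), (2, 18), (3, 4), (3, 6), (5, 6), (2, 3), (2, 8), (2, 20), (4, 3), (4, 6)] →
      ∃ m : ℕ, m ∣ q ^ e - 1 ∧ (∀ i : ℕ, 1 ≤ i → i < e → Nat.Coprime m (q ^ i - 1)) ∧ 3 * e + 1 ≤ m) ∧
    ((q, e) ∈ [(2, 6), (2, 4), (2, 10), (2, 12), (2, 18), (3, 4), (3, 6), (5, 6), (2, 3), (2, 8), (2, 20), (4, 3), (4, 6)] →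
      ∀ m : ℕ, m ∣ q ^ e - 1 → (∀ i : ℕ, 1 ≤ i → i < e → Nat.Coprime m (q ^ i - 1)) → m ≤ 2 * e + 1) := by
  have hq2 : 2 ≤ q := hq.two_le
  refine ⟨fun hne => ?_, fun hmem m hm hcop => ?_⟩
  · rcases large_or_small q e hq2 he with h | ⟨r, hr, hre, hΦ⟩
    · exact h
    have hlow := pow_totient_le_cyclotomic hq2 (show 0 < e by omega)
    have hineq : q ^ e.totient ≤ 4 * r * (2 * e + 1) := by
      rw [mul_assoc]; exact hlow.trans (Nat.mul_le_mul_left 4 hΦ)
    have hrf : r ≤ e.totient + 1 := by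
      have h1 := Nat.le_of_dvd (Nat.totient_pos.2 (by omega)) (Nat.totient_dvd_of_dvd hre)
      rw [Nat.totient_prime hr] at h1
      omega
    have hsq := (le_totient_sq e).1
    have hf : e.totient ≤ 16 := by
      by_contra h
      have h1 := small_bound (by omega : 17 ≤ e.totient)
      have h2 : 2 ^ e.totient ≤ q ^ e.totient := Nat.pow_le_pow_left hq2 _
      have h3 : 4 * r * (2 * e + 1) ≤ 4 * (e.totient + 1) * (4 * e.totient ^ 2 + 1) :=
        Nat.mul_le_mul (Nat.mul_le_mul_left 4 hrf) (by omega)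
      omega
    have he60 : e ≤ 60 := totient_table e (by
      have h5 : e.totient ^ 2 ≤ 16 ^ 2 := Nat.pow_le_pow_left hf 2
      norm_num at h5
      omega) hf
    have hr18 : r < 18 := by omega
    have hf2 : 2 ≤ e.totient := by
      obtain ⟨t, ht⟩ := Nat.totient_even (by omega : 2 < e)
      have := Nat.totient_pos.2 (by omega : 0 < e)
      omega
    have hq100 : q < 100 := by
      by_contra h
      have h1 : 100 ^ 2 ≤ q ^ e.totient :=
        (Nat.pow_le_pow_left (by omega) 2).trans (Nat.pow_le_pow_right (by omega) hf2)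
      have h2 : 4 * r * (2 * e + 1) ≤ 4 * 17 * 121 := Nat.mul_le_mul (by omega) (by omega)
      norm_num at h1 h2
      omega
    have hc := candidates_complete (by omega) he hr18 hre hr hq100 hq2 hineq
    rcases candidates_split _ hc with h | h
    · exact absurd h hne
    obtain ⟨w, hw, hwe⟩ := List.mem_map.1 h
    obtain ⟨rfl, rfl⟩ := Prod.mk.inj hwe
    obtain ⟨h1, h2, h3⟩ := witness_spec w hw
    exact ⟨w.2.2, h1, fun i hi hie => h3 i hie hi, h2⟩
  · have key : ∀ P : ℕ, P ≤ 2 * e + 1 → P ∣ q ^ e - 1 → 0 < P →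
        (q ^ e - 1) / P ∣ ∏ i ∈ Finset.Icc 1 (e - 1), (q ^ i - 1) → m ≤ 2 * e + 1 := by
      intro P h1 h2 h3 h4
      have hc : Nat.Coprime m ((q ^ e - 1) / P) :=
        Nat.Coprime.coprime_dvd_right h4 (Nat.Coprime.prod_right fun i hi => by
          obtain ⟨hi1, hi2⟩ := Finset.mem_Icc.1 hi
          exact hcop i hi1 (by omega))
      have := hc.dvd_of_dvd_mul_right (show m ∣ P * ((q ^ e - 1) / P) by rwa [Nat.mul_div_cancel' h2])
      exact (Nat.le_of_dvd h3 this).trans h1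
    simp only [List.mem_cons, Prod.mk.injEq, List.not_mem_nil, or_false] at hmem
    have hs := exceptions_spec
    simp only [List.forall_mem_cons, List.not_mem_nil, IsEmpty.forall_iff, implies_true, and_true] at hs
    obtain ⟨a1, a2, a3, a4, a5, a6, a7, a8, a9, a10, a11, a12, a13⟩ := hs
    rcases hmem with h | h | h | h | h | h | h | h | h | h | h | h | h <;> obtain ⟨rfl, rfl⟩ := h
    exacts [key _ a1.1 a1.2.1 a1.2.2.1 a1.2.2.2, key _ a2.1 a2.2.1 a2.2.2.1 a2.2.2.2,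
      key _ a3.1 a3.2.1 a3.2.2.1 a3.2.2.2, key _ a4.1 a4.2.1 a4.2.2.1 a4.2.2.2,
      key _ a5.1 a5.2.1 a5.2.2.1 a5.2.2.2, key _ a6.1 a6.2.1 a6.2.2.1 a6.2.2.2,
      key _ a7.1 a7.2.1 a7.2.2.1 a7.2.2.2, key _ a8.1 a8.2.1 a8.2.2.1 a8.2.2.2,
      key _ a9.1 a9.2.1 a9.2.2.1 a9.2.2.2, key _ a10.1 a10.2.1 a10.2.2.1 a10.2.2.2,
      key _ a11.1 a11.2.1 a11.2.2.1 a11.2.2.2, key _ a12.1 a12.2.1 a12.2.2.1 a12.2.2.2,
      key _ a13.1 a13.2.1 a13.2.2.1 a13.2.2.2]

end Cfsg.Agent.S4423
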