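import Cfsg.Statements.S4424
import Cfsg.Agent.BlockVal.HeightZero

set_option autoImplicit false
open Cfsg

namespace Cfsg.Agent.S4424

/-- Let χ be an irreducible character of the finite group G lying in the p-block B (relative to a maximal ideal M of the algebraic integers containing p), and let p^a be the p-part of the order of G. Then the class function that equals p^a · χ on the p-regular elements and vanishes on the p-singular elements is an integer combination of the irreducible characters in B: there are integers a_ψ, zero for ψ outside B, with that function equal to Σ a_ψ ψ. -/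
theorem result {G : Type*} [Group G] [Finite G] (p : ℕ) [Fact p.Prime] (M : Ideal Cfsg.AlgInt) (hM : Cfsg.IsPModular p M) (B : Set (Cfsg.IrrCharacter G)) (hB : Cfsg.IsPBlock M B) (χ : Cfsg.IrrCharacter G) (hχ : χ ∈ B) : ∃ a : Cfsg.IrrCharacter G → ℤ, (∀ ψ, ψ ∉ B → a ψ = 0) ∧ (fun x : G => if p ∣ orderOf x then (0 : ℂ) else ((p ^ (Nat.card G).factorization p : ℕ) : ℂ) * (χ : G → ℂ) x) = fun x => ∑ᶠ ψ : Cfsg.IrrCharacter G, (a ψ : ℂ) * (ψ : G → ℂ) x := by
  classical
  haveI := Fintype.ofFinite G
  haveI : M.IsPrime := hM.2.1.isPrime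
  choose n hn using fun ψ : Cfsg.IrrCharacter G => BlockVal.cReg_int_left (p := p) χ ψ
  refine ⟨n, fun ψ hψ => ?_, funext fun x => ?_⟩
  · have h := (hn ψ).1
    rw [BlockVal.cReg_eq_zero_of_notMem hM hB hχ hψ] at h
    exact Int.cast_eq_zero.mp h.symm
  · let F : G → ℂ := fun x : G => if p ∣ orderOf x then (0 : ℂ) else
      ((p ^ (Nat.card G).factorization p : ℕ) : ℂ) * (χ : G → ℂ) x
    have hF : Cfsg.IsClassFunction G F := fun g h => by
      have ho : orderOf (h * g * h⁻¹) = orderOf g := by
        rw [← MulAut.conj_apply, MulEquiv.orderOf_eq]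
      simp only [F, ho, Char.irr_isClassFunction χ.2 g h]
    have h := congrFun (Char.eq_sum_classInner_smul hF) x
    simp only [Finset.sum_apply, Pi.smul_apply, smul_eq_mul] at h
    rw [finsum_eq_sum_of_fintype]
    show F x = _
    rw [h]
    exact Finset.sum_congr rfl fun ψ _ => by rw [← (hn ψ).1, BlockVal.cReg_eq_classInner]

end Cfsg.Agent.S4424
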