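import Cfsg.Statements.S4425
import Cfsg.Agent.BlockVal.HeightZero

set_option autoImplicit false
open Cfsg

namespace Cfsg.Agent.S4425

/-- Let χ be an irreducible character of the finite group G, p a prime, p^a the p-part of the order of G and p^b the p-part of the degree χ(1). Let χ̃ be the class function equal to p^a · χ on p-regular elements and zero on p-singular elements. Then p^(−b) · χ̃ is a generalized character of G, while p^(−(b+1)) · χ̃ is not. -/
theorem result {G : Type*} [Group G] [Finite G] (p : ℕ) [Fact p.Prime] (χ : Cfsg.IrrCharacter G) : Cfsg.IsGeneralizedCharacter G (fun x : G => if p ∣ orderOf x then (0 : ℂ) else ((p ^ ((Nat.card G).factorization p - (Cfsg.charDegree (χ : G → ℂ)).factorization p) : ℕ) : ℂ) * (χ : G → ℂ) x) ∧ ¬ Cfsg.IsGeneralizedCharacter G (fun x : G => if p ∣ orderOf x then (0 : ℂ) else ((p ^ (Nat.card G).factorization p : ℕ) : ℂ) / ((p ^ ((Cfsg.charDegree (χ : G → ℂ)).factorization p + 1) : ℕ) : ℂ) * (χ : G → ℂ) x) := by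
  classical
  haveI := Fintype.ofFinite G
  refine ⟨BlockVal.genChar_reg χ, fun h => ?_⟩
  have hp : p.Prime := Fact.out
  obtain ⟨ψ, n, hn, hnd⟩ := BlockVal.exists_not_dvd (p := p) χ
  obtain ⟨k, hk⟩ := (Char.isGeneralizedCharacter_iff_classInner_int.mp h).2 ψ
  refine hnd ⟨k, ?_⟩
  rw [BlockVal.cReg_eq_classInner] at hn
  apply Int.cast_injective (α := ℂ)
  rw [← hn, Int.cast_mul, ← hk]
  unfold Cfsg.classInner
  rw [Finset.mul_sum, Finset.mul_sum, Finset.mul_sum]
  refine Finset.sum_congr rfl fun x _ => ?_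
  have hpC : (p : ℂ) ≠ 0 := Nat.cast_ne_zero.mpr hp.ne_zero
  dsimp only
  by_cases h' : p ∣ orderOf x
  · simp [h']
  · rw [if_neg h', if_neg h']
    push_cast
    field_simp

end Cfsg.Agent.S4425
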