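import Cfsg.Statements.S4426
import Cfsg.Agent.BlockVal.HeightZero

set_option autoImplicit false
open Cfsg

namespace Cfsg.Agent.S4426

/-- Let χ be an irreducible character in the p-block B of the finite group G (relative to a maximal ideal M of the algebraic integers containing p), let p^a be the p-part of the order of G, and let χ̃ be the class function equal to p^a · χ on p-regular elements and zero elsewhere. For ξ ∈ B the inner product [χ̃, ξ] is an integer. The following are equivalent: (a) χ has height zero in B; (b) for some ξ ∈ B the integer [χ̃, ξ] is nonzero and the exact power of p dividing it equals the exact power of p dividing ξ(1); (c) the same holds for every ξ ∈ B. -/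
theorem result {G : Type*} [Group G] [Fintype G] (p : ℕ) [Fact p.Prime] (M : Ideal Cfsg.AlgInt) (hM : Cfsg.IsPModular p M) (B : Set (Cfsg.IrrCharacter G)) (hB : Cfsg.IsPBlock M B) (χ : Cfsg.IrrCharacter G) (hχ : χ ∈ B) : (Cfsg.blockHeight p B (χ : G → ℂ) = 0 ↔ ∃ ξ ∈ B, ∃ n : ℤ, Cfsg.classInner (fun x : G => if p ∣ orderOf x then (0 : ℂ) else ((p ^ (Nat.card G).factorization p : ℕ) : ℂ) * (χ : G → ℂ) x) (ξ : G → ℂ) = (n : ℂ) ∧ n ≠ 0 ∧ padicValInt p n = (Cfsg.charDegree (ξ : G → ℂ)).factorization p) ∧ (Cfsg.blockHeight p B (χ : G → ℂ) = 0 ↔ ∀ ξ ∈ B, ∃ n : ℤ, Cfsg.classInner (fun x : G => if p ∣ orderOf x then (0 : ℂ) else ((p ^ (Nat.card G).factorization p : ℕ) : ℂ) * (χ : G → ℂ) x) (ξ : G → ℂ) = (n : ℂ) ∧ n ≠ 0 ∧ padicValInt p n = (Cfsg.charDegree (ξ : G → ℂ)).factorization p) := by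
  classical
  have hp : p.Prime := Fact.out
  have key : ∀ ξ ∈ B, ∀ n : ℤ, BlockVal.cReg p (χ : G → ℂ) (ξ : G → ℂ) = (n : ℂ) →
      ((n ≠ 0 ∧ padicValInt p n = (Cfsg.charDegree (ξ : G → ℂ)).factorization p) ↔
        ¬ (p : ℤ) ^ ((Cfsg.charDegree (ξ : G → ℂ)).factorization p + 1) ∣ n) := by
    intro ξ hξ n hn
    obtain ⟨m, hm, -, h2⟩ := BlockVal.cReg_int (p := p) χ ξ
    obtain rfl : m = n := Int.cast_injective (α := ℂ) (hm.symm.trans hn)
    rw [padicValInt_dvd_iff] at h2 ⊢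
    constructor
    · rintro ⟨h0, hv⟩ (h | h)
      · exact h0 h
      · omega
    · intro h
      push Not at h
      refine ⟨h.1, ?_⟩
      rcases h2 with h2 | h2
      · exact absurd h2 h.1
      · omega
  have fwd : Cfsg.blockHeight p B (χ : G → ℂ) = 0 → ∀ ξ ∈ B, ∃ n : ℤ,
      BlockVal.cReg p (χ : G → ℂ) (ξ : G → ℂ) = (n : ℂ) ∧ n ≠ 0 ∧
        padicValInt p n = (Cfsg.charDegree (ξ : G → ℂ)).factorization p := by
    intro h0 ξ hξ
    obtain ⟨n, hn, -⟩ := BlockVal.cReg_int (p := p) χ ξ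
    exact ⟨n, hn, (key ξ hξ n hn).mpr (BlockVal.not_dvd_succ_of_height_zero hM hB hχ h0 hξ hn)⟩
  have bwd : (∃ ξ ∈ B, ∃ n : ℤ, BlockVal.cReg p (χ : G → ℂ) (ξ : G → ℂ) = (n : ℂ) ∧ n ≠ 0 ∧
        padicValInt p n = (Cfsg.charDegree (ξ : G → ℂ)).factorization p) →
      Cfsg.blockHeight p B (χ : G → ℂ) = 0 := by
    rintro ⟨ξ, hξ, n, hn, h⟩
    exact BlockVal.height_zero_of_not_dvd_succ hM hB hχ hξ hn ((key ξ hξ n hn).mp h)
  simp only [BlockVal.cReg_eq_classInner] at fwd bwd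
  exact ⟨⟨fun h => ⟨χ, hχ, fwd h χ hχ⟩, bwd⟩, ⟨fwd, fun h => bwd ⟨χ, hχ, h χ hχ⟩⟩⟩

end Cfsg.Agent.S4426
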