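import Cfsg.Statements.S4429
import Cfsg.Agent.Recog.OrderM11.Main
import Cfsg.Agent.NSE.MathieuEleven
import Cfsg.Agent.Char.Linear
import Cfsg.Agent.M11Deg.Search
import Cfsg.Agent.M11Deg.Columns
-- import your own Cfsg.Agent.* helpers here

set_option autoImplicit false
open Cfsg

namespace Cfsg.Agent.S4429

open Cfsg.Agent.Recog.OrderM11 Cfsg.Agent.M11Deg Subgroup
open scoped ComplexConjugate

/-- An element with small centraliser and large normaliser is conjugate to some other power. -/
theorem exists_conj_pow {G : Type*} [Group G] [Finite G] {p : ℕ} [Fact p.Prime] {x : G}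
    (hx : orderOf x = p) (hC : Nat.card (centralizer ({x} : Set G)) = p) (P : Sylow p G)
    (hP : (P : Subgroup G) = zpowers x)
    (hN : 2 * p < Nat.card (normalizer ((P : Subgroup G) : Set G))) :
    ∃ k < p, k ≠ 0 ∧ k ≠ 1 ∧ k ≠ p - 1 ∧ IsConj x (x ^ k) := by
  classical
  have hpos : 0 < p := (Fact.out : p.Prime).pos
  by_contra hno
  push Not at hno
  set N := normalizer ((P : Subgroup G) : Set G) with hNdef
  have hcl : ∀ n : N, (n : G) * x * (n : G)⁻¹ = x ∨ (n : G) * x * (n : G)⁻¹ = x ^ (p - 1) := by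
    intro n
    have hmem : (n : G) * x * (n : G)⁻¹ ∈ zpowers x := by
      rw [← hP]
      exact (Subgroup.mem_normalizer_iff.mp n.2 x).mp (hP ▸ mem_zpowers x)
    obtain ⟨j, hj⟩ := (Submonoid.mem_powers_iff _ _).mp
      ((isOfFinOrder_of_finite x).mem_powers_iff_mem_zpowers.mpr hmem)
    have hj' : (n : G) * x * (n : G)⁻¹ = x ^ (j % p) := by rw [← hx, pow_mod_orderOf, hj]
    have hconj : IsConj x (x ^ (j % p)) := isConj_iff.mpr ⟨n, hj'⟩
    have h0 : j % p ≠ 0 := by
      intro h0
      rw [h0, pow_zero, conj_eq_one_iff] at hj'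
      rw [hj', orderOf_one] at hx
      exact (Fact.out : p.Prime).one_lt.ne hx
    by_cases h1 : j % p = 1
    · exact Or.inl (by rw [hj', h1, pow_one])
    by_cases h2 : j % p = p - 1
    · exact Or.inr (by rw [hj', h2])
    exact absurd hconj (hno _ (Nat.mod_lt _ hpos) h0 h1 h2)
  have hinj : Nat.card N ≤ Nat.card (Fin 2 × centralizer ({x} : Set G)) := by
    by_cases hb : ∃ b : G, b * x * b⁻¹ = x ^ (p - 1)
    · obtain ⟨b, hb⟩ := hb
      refine Nat.card_le_card_of_injective (fun n : N =>
        if h : (n : G) * x * (n : G)⁻¹ = x then ((0 : Fin 2), (⟨(n : G), ?_⟩ : centralizer ({x} : Set G)))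
        else ((1 : Fin 2), ⟨b⁻¹ * (n : G), ?_⟩)) ?_
      · rw [mem_centralizer_singleton_iff]
        exact mul_inv_eq_iff_eq_mul.mp h
      · rw [mem_centralizer_singleton_iff]
        have h' := (hcl n).resolve_left h
        rw [← hb] at h'
        have e1 : b⁻¹ * (n : G) * x * (b⁻¹ * (n : G))⁻¹ = x := by
          calc b⁻¹ * (n : G) * x * (b⁻¹ * (n : G))⁻¹
              = b⁻¹ * ((n : G) * x * (n : G)⁻¹) * b := by group
            _ = x := by rw [h']; group
        exact mul_inv_eq_iff_eq_mul.mp e1
      · intro m n e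
        simp only at e
        split_ifs at e <;> simp only [Prod.mk.injEq, Subtype.mk.injEq, mul_right_inj] at e
        · exact Subtype.ext e.2
        · exact absurd e.1 (by decide)
        · exact absurd e.1 (by decide)
        · exact Subtype.ext e.2
    · push Not at hb
      refine Nat.card_le_card_of_injective (fun n : N =>
        ((0 : Fin 2), (⟨(n : G), ?_⟩ : centralizer ({x} : Set G)))) ?_
      · rw [mem_centralizer_singleton_iff]
        exact mul_inv_eq_iff_eq_mul.mp ((hcl n).resolve_right (hb n))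
      · intro m n e
        simp only [Prod.mk.injEq, Subtype.mk.injEq] at e
        exact Subtype.ext e.2
  rw [Nat.card_prod, Nat.card_fin, hC] at hinj
  omega

theorem isConj_pow_pow {G : Type*} [Group G] {x : G} {k : ℕ} (h : IsConj x (x ^ k)) :
    ∀ j : ℕ, IsConj x (x ^ k ^ j) := by
  intro j
  induction j with
  | zero => rw [pow_zero, pow_one]
  | succ j ih =>
    rw [pow_succ, pow_mul]
    exact h.trans (IsConj.pow k ih)

theorem isConj_target {G : Type*} [Group G] {x : G} {p k t : ℕ} (hx : orderOf x = p)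
    (h : IsConj x (x ^ k)) (j : ℕ) (hj : k ^ j % p = t) : IsConj x (x ^ t) := by
  rw [← hj, ← hx, pow_mod_orderOf]
  exact isConj_pow_pow h j

theorem five_facts {G : Type*} [Group G] [Finite G] (h : Hyp G) :
    ∃ x : G, orderOf x = 5 ∧ Nat.card (centralizer ({x} : Set G)) = 5 ∧ IsConj x (x ^ 2) := by
  have : Fact (Nat.Prime 5) := ⟨by decide⟩
  obtain ⟨x, hx⟩ := exists_prime_orderOf_dvd_card' (G := G) 5 (by rw [h.card]; norm_num)
  obtain ⟨f⟩ := h.nonempty_equiv_M11
  have hC : Nat.card (centralizer ({x} : Set G)) = 5 := by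
    rw [card_centralizer_congr f x]
    exact NSE.M11_eleven.centralizer_card_five (by rw [MulEquiv.orderOf_eq, hx])
  obtain ⟨-, hY, hN, -, -⟩ := h.five
  obtain ⟨P, hP⟩ := (IsPGroup.of_card (G := zpowers x) (n := 1) (p := 5)
    (by rw [Nat.card_zpowers, hx, pow_one])).exists_le_sylow
  have hP' := (Subgroup.eq_of_le_of_card_ge hP (by rw [hY, Nat.card_zpowers, hx])).symm
  obtain ⟨k, hk5, hk0, hk1, hk4, hk⟩ := exists_conj_pow hx hC P hP' (by rw [hN]; norm_num)
  refine ⟨x, hx, hC, ?_⟩
  interval_cases k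
  · exact absurd rfl hk0
  · exact absurd rfl hk1
  · exact hk
  · exact isConj_target hx hk 3 (by norm_num)
  · exact absurd rfl hk4

theorem eleven_facts {G : Type*} [Group G] [Finite G] (h : Hyp G) :
    ∃ x : G, orderOf x = 11 ∧ Nat.card (centralizer ({x} : Set G)) = 11 ∧ IsConj x (x ^ 3) := by
  have : Fact (Nat.Prime 11) := ⟨by decide⟩
  obtain ⟨x, hx⟩ := exists_prime_orderOf_dvd_card' (G := G) 11 (by rw [h.card]; norm_num)
  obtain ⟨-, hY, -, hN⟩ := h.eleven
  obtain ⟨P, hP⟩ := (IsPGroup.of_card (G := zpowers x) (n := 1) (p := 11)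
    (by rw [Nat.card_zpowers, hx, pow_one])).exists_le_sylow
  have hP' := (Subgroup.eq_of_le_of_card_ge hP (by rw [hY, Nat.card_zpowers, hx])).symm
  obtain ⟨k, hk11, hk0, hk1, hk10, hk⟩ :=
    exists_conj_pow hx (h.card_centralizer_eleven hx) P hP' (by rw [hN]; norm_num)
  have key : ∀ k < 11, k ≠ 0 → k ≠ 1 → k ≠ 11 - 1 → ∃ j < 11, k ^ j % 11 = 3 := by decide
  obtain ⟨j, -, hj⟩ := key k hk11 hk0 hk1 hk10
  exact ⟨x, hx, h.card_centralizer_eleven hx, isConj_target hx hk j hj⟩


/-- Let G be a simple group of order 7920. Then G has exactly ten irreducible complex characters, and their degrees, listed with multiplicity, are 1, 10, 10, 10, 11, 16, 16, 44, 45, 55: for every natural number n, the number of irreducible characters of degree n is 1 if n ∈ {1, 11, 44, 45, 55}, 3 if n = 10, 2 if n = 16, and 0 otherwise. -/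
theorem result {G : Type*} [Group G] [Finite G] [IsSimpleGroup G] (hG : Nat.card G = 7920) : Nat.card (Cfsg.IrrCharacter G) = 10 ∧ ∀ n : ℕ, Nat.card {χ : Cfsg.IrrCharacter G // Cfsg.charDegree (χ : G → ℂ) = n} = (if n = 1 ∨ n = 11 ∨ n = 44 ∨ n = 45 ∨ n = 55 then 1 else if n = 10 then 3 else if n = 16 then 2 else 0) := by
  classical
  have h : Hyp G := ⟨inferInstance, hG⟩
  have : Fintype G := Fintype.ofFinite G
  choose d hd0 hd hdvd using fun χ : IrrCharacter G => Char.irr_degree_dvd_card χ.2
  have hcd : ∀ χ : IrrCharacter G, charDegree (χ : G → ℂ) = d χ := fun χ => by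
    rw [charDegree, hd, Complex.natCast_re, Nat.floor_natCast]
  obtain ⟨x, hx, hxC, hxcl⟩ := five_facts h
  obtain ⟨y, hy, hyC, hycl⟩ := eleven_facts h
  choose v hv hvdvd hvpow using fun χ : IrrCharacter G =>
    five_value (Char.isCharacter_of_irr χ.2) hx hxcl (hd χ)
  choose a b c habc hsum using fun χ : IrrCharacter G =>
    eleven_value (Char.isCharacter_of_irr χ.2) hy hycl (hd χ)
  -- the trivial character
  obtain ⟨one, hone⟩ : ∃ one : IrrCharacter G, ∀ g, (one : G → ℂ) g = 1 :=
    ⟨⟨_, Char.isIrrCharacter_monoidHom (1 : G →* ℂˣ)⟩, fun g => by simp⟩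
  have huniq : ∀ χ : IrrCharacter G, d χ = 1 → χ = one := by
    intro χ h1
    have hcomm : commutator G = ⊤ := by
      rcases (inferInstance : (commutator G).Normal).eq_bot_or_eq_top with e | e
      · refine absurd ⟨⟨fun g g' => ?_⟩⟩ h.nc
        have := Subgroup.commutator_mem_commutator (Subgroup.mem_top g) (Subgroup.mem_top g')
        rw [← commutator_def, e, Subgroup.mem_bot] at this
        exact commutatorElement_eq_one_iff_mul_comm.mp this
      · exact e
    refine Subtype.ext (funext fun g => ?_)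
    rw [hone, Char.linear_eq_one_of_mem_commutator (Char.isCharacter_of_irr χ.2)
      (by rw [hd, h1, Nat.cast_one]) (by rw [hcomm]; exact Subgroup.mem_top g)]
  have hd1 : d one = 1 := by
    have := hd one
    rw [hone] at this
    exact_mod_cast this.symm
  have hv1 : v one = 1 := by
    have := hv one
    rw [hone] at this
    exact_mod_cast this.symm
  -- the four relations
  have e1 : ∑ χ, d χ * d χ = 7920 := by
    have := Char.sum_irr_degree_sq (G := G)
    simp_rw [hd, sq, hG] at this
    exact_mod_cast this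
  have e2 : ∑ χ, (v χ).natAbs * (v χ).natAbs = 5 := by
    have := Char.sum_irr_mul_conj (G := G) x x
    rw [if_pos (IsConj.refl x), hxC] at this
    simp_rw [hv, map_intCast] at this
    have h' : ∑ χ : IrrCharacter G, v χ * v χ = 5 := by exact_mod_cast this
    have h'' : ((∑ χ, (v χ).natAbs * (v χ).natAbs : ℕ) : ℤ) = 5 := by
      rw [← h']
      push_cast
      exact Finset.sum_congr rfl fun χ _ => abs_mul_abs_self (v χ)
    exact_mod_cast h''
  have e3 : ∑ χ, (d χ : ℤ) * v χ = 0 := by
    have hne : x ≠ 1 := fun e => by rw [e, orderOf_one] at hx; norm_num at hx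
    have := Char.sum_irr_degree_mul (G := G) x
    rw [if_neg hne] at this
    simp_rw [hd, hv] at this
    exact_mod_cast this
  let T : IrrCharacter G → ℕ := fun χ => 11 * (c χ * c χ + 5 * (a χ * a χ) + 5 * (b χ * b χ))
  have e4 : ∑ χ, T χ = 7920 + 110 := by
    have hcen : ∀ n < 11, ∑ χ : IrrCharacter G, (χ : G → ℂ) (y ^ n) * conj ((χ : G → ℂ) (y ^ n)) =
        if n = 0 then (7920 : ℂ) else 11 := by
      intro n hn
      rw [Char.sum_irr_mul_conj, if_pos (IsConj.refl _)]
      split_ifs with h0
      · rw [h0, pow_zero, show centralizer ({1} : Set G) = ⊤ by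
          rw [Subgroup.eq_top_iff']; intro g; simp [Subgroup.mem_centralizer_iff],
          Subgroup.card_top, hG]
        norm_num
      · rw [h.card_centralizer_eleven]
        · norm_num
        · rw [Nat.Coprime.orderOf_pow]
          · exact hy
          · rw [hy]
            exact (Nat.Prime.coprime_iff_not_dvd (by norm_num)).mpr
              (fun hdd => by have := Nat.le_of_dvd (by omega) hdd; omega)
    have h' : ((∑ χ, T χ : ℕ) : ℂ) = 7920 + 10 * 11 := by
      push_cast [T]
      rw [← Finset.sum_congr rfl fun χ _ => (hsum χ).trans (by push_cast; ring), Finset.sum_comm,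
        Finset.sum_congr rfl fun n hn => hcen n (Finset.mem_range.mp hn)]
      norm_num [Finset.sum_range_succ]
    exact_mod_cast h'
  -- the nontrivial characters
  set S : Finset (IrrCharacter G) := Finset.univ.erase one with hS
  have s1 : ∑ χ ∈ S, d χ * d χ = 7919 := by
    have := Finset.add_sum_erase Finset.univ (fun χ => d χ * d χ) (Finset.mem_univ one)
    rw [e1, hd1, ← hS] at this
    omega
  have s2 : ∑ χ ∈ S, (v χ).natAbs * (v χ).natAbs = 4 := by
    have := Finset.add_sum_erase Finset.univ (fun χ => (v χ).natAbs * (v χ).natAbs)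
      (Finset.mem_univ one)
    simp only [e2, hv1, ← hS, Int.natAbs_one] at this
    omega
  have s3 : ∑ χ ∈ S, (d χ : ℤ) * v χ = -1 := by
    have := Finset.add_sum_erase Finset.univ (fun χ => (d χ : ℤ) * v χ) (Finset.mem_univ one)
    simp only [e3, hv1, hd1, ← hS] at this
    omega
  have s4 : ∑ χ ∈ S, T χ ≤ 7919 + 100 := by
    have := Finset.add_sum_erase Finset.univ T (Finset.mem_univ one)
    have hT1 : 11 ≤ T one := by
      have h1 := habc one
      rw [hd1] at h1
      have : a one = 0 ∧ b one = 0 ∧ c one = 1 := by omega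
      simp [T, this]
    rw [e4, ← hS] at this
    omega
  have hitem : ∀ χ ∈ S, ∃ e ∈ items, e.1 = d χ := by
    intro χ hχ
    have hsq : d χ * d χ ≤ 7919 := s1 ▸ Finset.single_le_sum (f := fun χ => d χ * d χ) (by simp) hχ
    refine mem_items_of_dvd ?_ ?_ (hG ▸ hdvd χ)
    · rcases Nat.lt_or_ge (d χ) 2 with hl | hl
      · exact absurd (huniq χ (by have := hd0 χ; omega)) (Finset.mem_erase.mp hχ).1
      · exact hl
    · by_contra hl
      have := Nat.mul_le_mul (not_lt.mp hl) (not_lt.mp hl)
      omega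
  choose! it hit hit1 using hitem
  have hval : ∀ χ ∈ S, v χ = (it χ).2.2 := by
    intro χ hχ
    obtain ⟨h5, hl, hu⟩ := items_value _ (hit χ hχ)
    have hle : (v χ).natAbs * (v χ).natAbs ≤ 4 :=
      s2 ▸ Finset.single_le_sum (f := fun χ => (v χ).natAbs * (v χ).natAbs) (by simp) hχ
    have : (v χ).natAbs ≤ 2 := by
      by_contra hc
      have := Nat.mul_le_mul (not_le.mp hc) (not_le.mp hc)
      omega
    have h5' := hvdvd χ
    rw [hit1 χ hχ] at h5
    omega
  have hW : ∀ χ ∈ S, (it χ).2.1 + d χ * d χ ≤ T χ := by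
    intro χ hχ
    have h1 := habc χ
    have hsq : d χ * d χ ≤ 7919 := s1 ▸ Finset.single_le_sum (f := fun χ => d χ * d χ) (by simp) hχ
    have hlt : d χ < 90 := by
      by_contra hl
      have := Nat.mul_le_mul (not_lt.mp hl) (not_lt.mp hl)
      omega
    have := items_bound _ (hit χ hχ) (a χ) (by omega) (b χ) (by omega) (by rw [hit1 χ hχ]; omega)
    rwa [hit1 χ hχ, show d χ - 5 * a χ - 5 * b χ = c χ by omega] at this
  -- multiplicities
  let cnt : ℕ → ℕ := fun n => (S.filter fun χ => d χ = n).card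
  have hgroup : ∀ {M : Type} [AddCommMonoid M] (F : ℕ × ℕ × ℤ → M),
      ∑ χ ∈ S, F (it χ) = (items.map fun e => cnt e.1 • F e).sum := by
    intro M _ F
    have hnd : items.Nodup := List.Nodup.of_map _ items_nodup
    rw [← List.sum_toFinset _ hnd,
      ← Finset.sum_fiberwise_of_maps_to (g := it) (t := items.toFinset)
        (fun χ hχ => List.mem_toFinset.mpr (hit χ hχ))]
    refine Finset.sum_congr rfl fun e he => ?_
    rw [Finset.sum_congr rfl (g := fun _ => F e) (fun χ hχ => by rw [(Finset.mem_filter.mp hχ).2]),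
      Finset.sum_const]
    congr 2
    refine Finset.filter_congr fun χ hχ => ?_
    constructor
    · intro e1
      rw [← e1, hit1 χ hχ]
    · intro e1
      exact List.inj_on_of_nodup_map items_nodup (hit χ hχ) (List.mem_toFinset.mp he)
        ((hit1 χ hχ).trans e1)
  have hmain := search_complete cnt items (by decide) 7919 100 4 (-1)
    (by
      rw [← s1, Finset.sum_congr rfl fun χ hχ => by rw [← hit1 χ hχ],
        hgroup fun e => e.1 * e.1]
      simp [smul_eq_mul])
    (by
      have h1 : ∑ χ ∈ S, (it χ).2.1 ≤ 100 := by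
        have h2 := (Finset.sum_le_sum hW).trans s4
        rw [Finset.sum_add_distrib, s1] at h2
        omega
      rw [hgroup fun e => e.2.1] at h1
      simpa [smul_eq_mul] using h1)
    (by
      rw [← s2, Finset.sum_congr rfl fun χ hχ => by rw [hval χ hχ],
        hgroup fun e => e.2.2.natAbs * e.2.2.natAbs]
      simp [smul_eq_mul])
    (by
      rw [← s3, Finset.sum_congr rfl fun χ hχ => by rw [hval χ hχ, ← hit1 χ hχ],
        hgroup fun e => (e.1 : ℤ) * e.2.2]
      simp)
  rw [search_eq, List.mem_singleton] at hmain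
  have hcnt := List.map_inj_left.mp hmain
  have hout : ∀ n, n ∉ degrees → cnt n = 0 := by
    intro n hn
    refine Finset.card_eq_zero.mpr (Finset.filter_eq_empty_iff.mpr fun χ hχ e => hn ?_)
    exact List.mem_toFinset.mpr (List.mem_map.mpr ⟨_, hit χ hχ, (hit1 χ hχ).trans e⟩)
  refine ⟨?_, fun n => ?_⟩
  · have h9 : S.card = 9 := by
      rw [Finset.card_eq_sum_ones, hgroup fun _ => (1 : ℕ),
        List.map_congr_left (g := fun e => (if e.1 = 11 ∨ e.1 = 44 ∨ e.1 = 45 ∨ e.1 = 55 then 1
          else if e.1 = 10 then 3 else if e.1 = 16 then 2 else 0) • (1 : ℕ))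
          fun e he => by rw [hcnt e he]]
      decide
    rw [hS, Finset.card_erase_of_mem (Finset.mem_univ _), Finset.card_univ] at h9
    rw [Nat.card_eq_fintype_card]
    have : 0 < Fintype.card (IrrCharacter G) := Fintype.card_pos_iff.mpr ⟨one⟩
    omega
  · rw [Nat.card_eq_fintype_card, Fintype.card_subtype]
    simp only [hcd]
    by_cases h1 : n = 1
    · rw [if_pos (Or.inl h1), Finset.card_eq_one]
      exact ⟨one, Finset.ext fun χ => by
        simp only [Finset.mem_filter, Finset.mem_univ, true_and, Finset.mem_singleton, h1]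
        exact ⟨huniq χ, fun e => e ▸ hd1⟩⟩
    have hcntn : (Finset.univ.filter fun χ => d χ = n).card = cnt n := by
      refine congrArg Finset.card (Finset.ext fun χ => ?_)
      simp only [hS, Finset.mem_filter, Finset.mem_univ, true_and, Finset.mem_erase, and_true]
      exact ⟨fun e => ⟨fun e' => h1 (by rw [← e, e', hd1]), e⟩, fun e => e.2⟩
    rw [hcntn]
    by_cases hn : n ∈ degrees
    · obtain ⟨e, he, rfl⟩ := List.mem_map.mp (List.mem_toFinset.mp hn)
      rw [hcnt e he]
      simp [h1]
    · rw [hout n hn]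
      have : ∀ m ∈ [11, 44, 45, 55, 10, 16], m ∈ degrees := by decide
      have hne : ∀ m ∈ [11, 44, 45, 55, 10, 16], n ≠ m := fun m hm e => hn (e ▸ this m hm)
      simp [h1, hne 11 (by simp), hne 44 (by simp), hne 45 (by simp), hne 55 (by simp),
        hne 10 (by simp), hne 16 (by simp)]

end Cfsg.Agent.S4429
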