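import Cfsg.Statements.S4430
import Cfsg.Agent.BlockVal.HeightZero
import Cfsg.Agent.CharInd.Induced

set_option autoImplicit false
open Cfsg

namespace Cfsg.Agent.S4430

/-- Let H be a subgroup of the finite group G, b a block of H whose induced block B₀ in G is defined (relative to a maximal ideal M of the algebraic integers containing p), and ξ ∈ b. For a block B of G let n_B be the value at 1 of the B-part of the induced character ξ^G (a natural number: the sum over χ ∈ B of the multiplicity of χ in ξ^G times χ(1)). Then for B = B₀ the exact power of p dividing n_B equals the exact power of p dividing ξ^G(1), while for every other block B either n_B = 0 or n_B is divisible by a strictly higher power of p than ξ^G(1). -/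
theorem result {G : Type*} [Group G] [Fintype G] (p : ℕ) [Fact p.Prime] (M : Ideal Cfsg.AlgInt) (hM : Cfsg.IsPModular p M) (H : Subgroup G) [Fintype H] (b : Set (Cfsg.IrrCharacter H)) (B₀ : Set (Cfsg.IrrCharacter G)) (hind : Cfsg.IsInducedBlock M H b B₀) (ξ : Cfsg.IrrCharacter H) (hξ : ξ ∈ b) : (∃ n : ℕ, Cfsg.blockPart B₀ (Cfsg.indFun H (ξ : H → ℂ)) 1 = (n : ℂ) ∧ n ≠ 0 ∧ n.factorization p = (Cfsg.charDegree (Cfsg.indFun H (ξ : H → ℂ))).factorization p) ∧ ∀ B : Set (Cfsg.IrrCharacter G), Cfsg.IsPBlock M B → B ≠ B₀ → ∃ n : ℕ, Cfsg.blockPart B (Cfsg.indFun H (ξ : H → ℂ)) 1 = (n : ℂ) ∧ (n = 0 ∨ (Cfsg.charDegree (Cfsg.indFun H (ξ : H → ℂ))).factorization p < n.factorization p) := by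
  classical
  haveI : M.IsPrime := hM.2.1.isPrime
  obtain ⟨hb, hB₀, -⟩ := id hind
  set θ := Cfsg.indFun H (ξ : H → ℂ) with hθdef
  have hθ : Cfsg.IsCharacter G θ := CharInd.isCharacter_indFun H (Char.isCharacter_of_irr ξ.2)
  choose m hm using fun χ : Cfsg.IrrCharacter G => Char.isCharacter_classInner_nat hθ χ
  obtain ⟨hξ1, hξ0⟩ := BlockVal.irr_one_eq_charDegree ξ
  set D := H.index * Cfsg.charDegree (ξ : H → ℂ) with hDdef
  have hD : D ≠ 0 := mul_ne_zero Subgroup.index_ne_zero_of_finite hξ0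
  have hθ1 : θ 1 = (D : ℂ) := by
    rw [hθdef, CharInd.indFun_one_apply, hξ1, hDdef]; push_cast; rfl
  have hdeg : Cfsg.charDegree θ = D := by
    rw [Cfsg.charDegree, hθ1]; simp
  rw [hdeg]
  obtain ⟨χ₀, hχ₀⟩ := Block.pBlock_nonempty hB₀
  have hn : ∀ B : Set (Cfsg.IrrCharacter G), Cfsg.blockPart B θ 1 =
      ((∑ χ ∈ Finset.univ.filter (· ∈ B), m χ * Cfsg.charDegree (χ : G → ℂ) : ℕ) : ℂ) := by
    intro B
    unfold Cfsg.blockPart
    rw [finsum_mem_eq_toFinset_sum, show B.toFinset = Finset.univ.filter (· ∈ B) by ext; simp]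
    push_cast
    refine Finset.sum_congr rfl fun χ _ => ?_
    rw [← hm χ, ← (BlockVal.irr_one_eq_charDegree χ).1]
    congr 1
    unfold Cfsg.classInner
    congr 1
    exact Finset.sum_congr (by ext; simp) fun _ _ => rfl
  have hmod : ∀ B : Set (Cfsg.IrrCharacter G), Cfsg.IsPBlock M B →
      Cfsg.MemLocalIdeal M
        (((∑ χ ∈ Finset.univ.filter (· ∈ B), m χ * Cfsg.charDegree (χ : G → ℂ) : ℕ) : ℂ) / (D : ℂ)
          - if χ₀ ∈ B then 1 else 0) := by
    intro B hB
    have h := Brauer.omega_restr_sub_mem_of_induced H hind hξ hχ₀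
      (Block.idemS_isCentralElt (M := M) B)
    rw [Block.omega_idemS hB χ₀] at h
    convert h using 2
    rw [Block.omega_eq_sum]
    have hc : ∀ x : H, (Block.toC M (Block.restr H (Block.idemS M B))).coeff x =
        Cfsg.blockCoeff B (x : G) := fun x => by
      rw [Block.mapR_restr, Block.coeff_restr]
      have := congrArg (fun z => z.coeff (x : G)) (Block.toC_idemS (M := M) hB)
      simpa [Block.coeff_blockIdem] using this
    simp only [hc]
    have hstep : ∑ g : G, Cfsg.blockCoeff B g * θ g =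
        (H.index : ℂ) * ∑ x : H, Cfsg.blockCoeff B (x : G) * (ξ : H → ℂ) x := by
      have e0 : ∀ g : G, Cfsg.extendByZero H (fun x : H => Cfsg.blockCoeff B (x : G) *
          (ξ : H → ℂ) x) g = Cfsg.blockCoeff B g * Cfsg.extendByZero H (ξ : H → ℂ) g := by
        intro g
        by_cases hg : g ∈ H
        · rw [CharInd.extendByZero_mem H _ hg, CharInd.extendByZero_mem H _ hg]
        · rw [CharInd.extendByZero_notMem H _ hg, CharInd.extendByZero_notMem H _ hg, mul_zero]
      have e1 : ∀ x : G, ∑ g : G, Cfsg.blockCoeff B g *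
          Cfsg.extendByZero H (ξ : H → ℂ) (x⁻¹ * g * x) =
          ∑ g : G, Cfsg.blockCoeff B g * Cfsg.extendByZero H (ξ : H → ℂ) g := by
        intro x
        refine Fintype.sum_equiv (MulAut.conj x⁻¹).toEquiv _ _ fun g => ?_
        simp only [MulEquiv.toEquiv_eq_coe, EquivLike.coe_coe, MulAut.conj_apply, inv_inv]
        congr 1
        rw [show x⁻¹ * g * x = x⁻¹ * g * x⁻¹⁻¹ by rw [inv_inv], Block.blockCoeff_conj_invariant]
      rw [← CharInd.sum_extendByZero]
      simp only [e0, hθdef, CharInd.indFun_apply, Finset.mul_sum]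
      rw [Finset.sum_comm]
      simp only [mul_left_comm (Cfsg.blockCoeff B _), ← Finset.mul_sum, e1, Finset.sum_const,
        Finset.card_univ, nsmul_eq_mul]
      rw [← Nat.card_eq_fintype_card (α := G), ← Subgroup.card_mul_index H]
      have hH : (Nat.card H : ℂ) ≠ 0 := Nat.cast_ne_zero.mpr Nat.card_pos.ne'
      push_cast
      field_simp
    have hsum : ((∑ χ ∈ Finset.univ.filter (· ∈ B), m χ * Cfsg.charDegree (χ : G → ℂ) : ℕ) : ℂ) =
        ∑ g : G, Cfsg.blockCoeff B g * θ g := by
      simp only [Block.blockCoeff_eq_sum, Finset.mul_sum, Finset.sum_mul]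
      rw [Finset.sum_comm]
      push_cast
      refine Finset.sum_congr rfl fun χ _ => ?_
      rw [← hm χ, ← (BlockVal.irr_one_eq_charDegree χ).1, Cfsg.classInner, Finset.mul_sum,
        Finset.sum_mul]
      exact Finset.sum_congr rfl fun g _ => by ring
    rw [hsum, hstep, hξ1, hDdef]
    have h1 : (H.index : ℂ) ≠ 0 := Nat.cast_ne_zero.mpr Subgroup.index_ne_zero_of_finite
    push_cast
    rw [mul_div_mul_left _ _ h1]
  have key : ∀ n : ℕ, Cfsg.MemLocalIdeal M ((n : ℂ) / (D : ℂ)) ↔
      n = 0 ∨ D.factorization p < n.factorization p := by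
    intro n
    rw [show (n : ℂ) = ((n : ℤ) : ℂ) by simp, BlockVal.memLocalIdeal_int_div_nat_iff hM _ hD]
    rw [← Nat.cast_pow, Int.natCast_dvd_natCast]
    rcases eq_or_ne n 0 with rfl | hn0
    · simp
    · rw [hM.1.pow_dvd_iff_le_factorization hn0]
      simp [hn0]
  have hpow : ∀ n : ℕ, Cfsg.MemLocalRing M ((n : ℂ) / (D : ℂ)) → n = 0 ∨
      D.factorization p ≤ n.factorization p := by
    intro n h
    rcases eq_or_ne n 0 with rfl | hn0
    · exact Or.inl rfl
    · exact Or.inr ((Block.memLocalRing_natCast_div_iff hM hn0 hD).mp h)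
  constructor
  · refine ⟨_, hn B₀, ?_⟩
    have h := hmod B₀ hB₀
    rw [if_pos hχ₀] at h
    set n := ∑ χ ∈ Finset.univ.filter (· ∈ B₀), m χ * Cfsg.charDegree (χ : G → ℂ)
    have hnot : ¬ Cfsg.MemLocalIdeal M ((n : ℂ) / (D : ℂ)) := fun h' =>
      Block.not_memLocalIdeal_one (M := M) (by simpa using Block.memLocalIdeal_sub h' h)
    have hring : Cfsg.MemLocalRing M ((n : ℂ) / (D : ℂ)) := by
      have := (Block.localRing M).add_mem (Block.memLocalRing_of_memLocalIdeal h)
        (Block.localRing M).one_mem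
      simpa using this
    rw [key] at hnot
    push Not at hnot
    refine ⟨hnot.1, le_antisymm hnot.2 ?_⟩
    exact (hpow n hring).resolve_left hnot.1
  · intro B hB hne
    refine ⟨_, hn B, ?_⟩
    have h := hmod B hB
    rw [if_neg (fun hc => hne (Block.pBlock_eq_of_mem hB hB₀ hc hχ₀)), sub_zero] at h
    exact (key _).mp h

end Cfsg.Agent.S4430
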