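import Cfsg.Statements.S4431
import Cfsg.Agent.BlockVal.HeightZero

set_option autoImplicit false
open Cfsg

namespace Cfsg.Agent.S4431

/-- Let H be a subgroup of the finite group G and b a block of H whose induced block B₀ in G is defined (relative to a maximal ideal M of the algebraic integers containing p). Let χ be an irreducible character of G, ψ ∈ b, and let η be the class function on H equal to p^a · χ on the p-regular elements of H and zero elsewhere, p^a being the p-part of the order of H. Then (a) if χ ∉ B₀, the number [η, ψ]/ψ(1) lies in the local ideal at M; (b) if χ ∈ B₀ has height zero, it does not. -/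
theorem result {G : Type*} [Group G] [Fintype G] (p : ℕ) [Fact p.Prime] (M : Ideal Cfsg.AlgInt) (hM : Cfsg.IsPModular p M) (H : Subgroup G) [Fintype H] (b : Set (Cfsg.IrrCharacter H)) (B₀ : Set (Cfsg.IrrCharacter G)) (hind : Cfsg.IsInducedBlock M H b B₀) (χ : Cfsg.IrrCharacter G) (ψ : Cfsg.IrrCharacter H) (hψ : ψ ∈ b) : (χ ∉ B₀ → Cfsg.MemLocalIdeal M (Cfsg.classInner (fun h : H => if p ∣ orderOf h then (0 : ℂ) else ((p ^ (Nat.card H).factorization p : ℕ) : ℂ) * (χ : G → ℂ) h) (ψ : H → ℂ) / (ψ : H → ℂ) 1)) ∧ (χ ∈ B₀ → Cfsg.blockHeight p B₀ (χ : G → ℂ) = 0 → ¬ Cfsg.MemLocalIdeal M (Cfsg.classInner (fun h : H => if p ∣ orderOf h then (0 : ℂ) else ((p ^ (Nat.card H).factorization p : ℕ) : ℂ) * (χ : G → ℂ) h) (ψ : H → ℂ) / (ψ : H → ℂ) 1)) := by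
  classical
  haveI : M.IsPrime := hM.2.1.isPrime
  obtain ⟨hb, hB₀, -⟩ := id hind
  set res : H → ℂ := fun h : H => (χ : G → ℂ) (h : G) with hres
  have hresc : Cfsg.IsCharacter H res := Char.isCharacter_restrict (Char.isCharacter_of_irr χ.2) H
  obtain ⟨hψ1, hψ0⟩ := BlockVal.irr_one_eq_charDegree ψ
  set aH := (Nat.card H).factorization p
  -- the restriction of the regular element
  have hrestr : Block.restr H (Brauer.regElt M p (χ : G → ℂ)) = Brauer.regElt M p res := by
    refine Block.groupAlgebra_ext fun x => Subtype.ext ?_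
    rw [Block.coeff_restr, Brauer.coeff_regElt (Char.isCharacter_of_irr χ.2),
      Brauer.coeff_regElt hresc]
    simp only [Subgroup.orderOf_coe, res, Subgroup.coe_inv]
  have key : ∀ φ ∈ B₀, Cfsg.MemLocalIdeal M
      (Brauer.regSum p (ψ : H → ℂ) res / (ψ : H → ℂ) 1 -
        Brauer.regSum p (φ : G → ℂ) (χ : G → ℂ) / (φ : G → ℂ) 1) := by
    intro φ hφ
    have := Brauer.omega_restr_sub_mem_of_induced H hind hψ hφ
      (Brauer.isCentralElt_regElt (p := p) (Char.isCharacter_of_irr χ.2))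
    rwa [hrestr, Brauer.omega_toC_regElt hresc,
      Brauer.omega_toC_regElt (Char.isCharacter_of_irr χ.2)] at this
  -- the inner product is real
  obtain ⟨ι, hι⟩ : ∃ q : ℂ, q = Cfsg.classInner (fun h : H => if p ∣ orderOf h then (0 : ℂ) else
      ((p ^ aH : ℕ) : ℂ) * (χ : G → ℂ) h) (ψ : H → ℂ) := ⟨_, rfl⟩
  rw [← hι]
  have hval : ι = BlockVal.cReg p res (ψ : H → ℂ) := by
    rw [hι, BlockVal.cReg_eq_classInner]
  obtain ⟨m, hm, -⟩ := Char.isCharacter_exists_coeff hresc
  have hreal : BlockVal.cReg p res (ψ : H → ℂ) = BlockVal.cReg p (ψ : H → ℂ) res := by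
    have hlin : BlockVal.cReg p res (ψ : H → ℂ) =
        ∑ φ : Cfsg.IrrCharacter H, (m φ : ℂ) * BlockVal.cReg p (φ : H → ℂ) (ψ : H → ℂ) := by
      simp only [BlockVal.cReg, Brauer.regSum, Finset.mul_sum, Finset.sum_div]
      rw [Finset.sum_comm]
      refine Finset.sum_congr rfl fun x _ => ?_
      have hx := congrFun hm x
      simp only [Finset.sum_apply, Pi.smul_apply, smul_eq_mul] at hx
      rw [hx, Finset.sum_mul, Finset.mul_sum, Finset.sum_div]
      exact Finset.sum_congr rfl fun φ _ => by simp [nsmul_eq_mul]; ring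
    rw [← BlockVal.cReg_conj p res (ψ : H → ℂ), hlin, map_sum]
    refine Finset.sum_congr rfl fun φ _ => ?_
    obtain ⟨n, hn, -⟩ := BlockVal.cReg_int_left (p := p) φ ψ
    rw [map_mul, hn, Complex.conj_natCast, map_intCast]
  rw [hval, hreal, BlockVal.cReg, mul_div_assoc, mul_comm, div_mul_eq_mul_div, mul_div_assoc,
    mul_div_assoc]
  set u : ℂ := ((p ^ aH : ℕ) : ℂ) / (Nat.card H : ℂ)
  have hu : Cfsg.MemLocalRing M u := BlockVal.pPart_div_card_memLocalRing hM
  have hunit : ∀ z : ℂ, Cfsg.MemLocalRing M z →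
      (Cfsg.MemLocalIdeal M (u * z) ↔ Cfsg.MemLocalIdeal M z) := by
    intro z hz
    refine ⟨fun h => ?_, fun h => Block.memLocalIdeal_mul_left hu h⟩
    have hui : Cfsg.MemLocalRing M ((Nat.card H : ℂ) / ((p ^ aH : ℕ) : ℂ)) := by
      rw [Block.memLocalRing_natCast_div_iff hM Nat.card_pos.ne' (pow_ne_zero _ hM.1.ne_zero),
        hM.1.factorization_pow, Finsupp.single_eq_same]
    have := Block.memLocalIdeal_mul_left hui h
    have e : (Nat.card H : ℂ) / ((p ^ aH : ℕ) : ℂ) * (u * z) = z := by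
      have h1 : ((p ^ aH : ℕ) : ℂ) ≠ 0 := Nat.cast_ne_zero.mpr (pow_ne_zero _ hM.1.ne_zero)
      have h2 : (Nat.card H : ℂ) ≠ 0 := Nat.cast_ne_zero.mpr Nat.card_pos.ne'
      simp only [u]
      field_simp
    rwa [e] at this
  have hring : Cfsg.MemLocalRing M (Brauer.regSum p (ψ : H → ℂ) res / (ψ : H → ℂ) 1) :=
    Brauer.regSum_div_memLocalRing hM hresc ψ
  have hgoal : ((p ^ aH : ℕ) : ℂ) * (Brauer.regSum p (ψ : H → ℂ) res / (Nat.card H : ℂ)) /
      (ψ : H → ℂ) 1 = u * (Brauer.regSum p (ψ : H → ℂ) res / (ψ : H → ℂ) 1) := by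
    simp only [u]; ring
  refine ⟨fun hχ => ?_, fun hχ h0 h => ?_⟩
  · suffices Cfsg.MemLocalIdeal M (u * (Brauer.regSum p (ψ : H → ℂ) res / (ψ : H → ℂ) 1)) by
      convert this using 1; simp only [u]; ring
    rw [hunit _ hring]
    obtain ⟨φ, hφ⟩ := Block.pBlock_nonempty hB₀
    have h2 := key φ hφ
    rwa [Brauer.regSum_eq_zero_of_integral hM B₀ (Block.blockCoeff_memLocalRing hB₀) hφ hχ,
      zero_div, sub_zero] at h2
  · have h1 : Cfsg.MemLocalIdeal M (u * (Brauer.regSum p (ψ : H → ℂ) res / (ψ : H → ℂ) 1)) := by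
      convert h using 1; simp only [u]; ring
    rw [hunit _ hring] at h1
    have h2 := Block.memLocalIdeal_sub h1 (key χ hχ)
    rw [sub_sub_cancel] at h2
    have h3 := Block.memLocalIdeal_mul_left (BlockVal.pPart_div_card_memLocalRing (G := G) hM) h2
    obtain ⟨n, hn, -⟩ := BlockVal.cReg_int_left (p := p) χ χ
    refine BlockVal.not_dvd_succ_of_height_zero hM hB₀ hχ h0 hχ hn ?_
    rw [← BlockVal.memLocalIdeal_int_div_nat_iff hM n (BlockVal.irr_one_eq_charDegree χ).2,
      ← (BlockVal.irr_one_eq_charDegree χ).1, ← hn]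
    convert h3 using 1
    rw [BlockVal.cReg]
    ring

end Cfsg.Agent.S4431
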