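import Cfsg.Statements.S4433
import Cfsg.Agent.BlockCover.Quotient

set_option linter.style.haveILetI false

set_option autoImplicit false
open Cfsg

namespace Cfsg.Agent.S4433

/-- Let N be a normal subgroup of the finite group G and write Ḡ = G/N; fix a maximal ideal M of the algebraic integers containing p. Let B̄ be a block of Ḡ contained in the block B of G, in the sense that the inflation of every member of B̄ lies in B, and let D̄ be a defect group of B̄. Then B has a defect group P whose image in Ḡ contains D̄. -/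
theorem result {G : Type*} [Group G] [Finite G] (p : ℕ) [Fact p.Prime] (M : Ideal Cfsg.AlgInt) (hM : Cfsg.IsPModular p M) (N : Subgroup G) [N.Normal] (Bbar : Set (Cfsg.IrrCharacter (G ⧸ N))) (hBbar : Cfsg.IsPBlock M Bbar) (B : Set (Cfsg.IrrCharacter G)) (hB : Cfsg.IsPBlock M B) (hsub : ∀ χ ∈ Bbar, ∀ ψ : Cfsg.IrrCharacter G, (ψ : G → ℂ) = (χ : G ⧸ N → ℂ) ∘ QuotientGroup.mk → ψ ∈ B) (Dbar : Subgroup (G ⧸ N)) (hDbar : Cfsg.IsDefectGroup p M Bbar Dbar) : ∃ P : Subgroup G, Cfsg.IsDefectGroup p M B P ∧ Dbar ≤ P.map (QuotientGroup.mk' N) := by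
  haveI := Fintype.ofFinite G
  haveI := Fintype.ofFinite (G ⧸ N)
  haveI : M.IsPrime := hM.2.1.isPrime
  obtain ⟨P, hP⟩ := Block.exists_isDefectGroup (p := p) (M := M) hB
  obtain ⟨y, hy⟩ := BlockCover.exists_defectGroup_ge_quot N hM hBbar hB hsub hDbar hP
  obtain ⟨x, rfl⟩ := QuotientGroup.mk_surjective y
  refine ⟨P.map (MulAut.conj x⁻¹).toMonoidHom, Block.isDefectGroup_conj hP x⁻¹, fun d hd => ?_⟩
  obtain ⟨u, hu, hue⟩ := hy ⟨d, hd, rfl⟩
  refine ⟨_, ⟨u, hu, rfl⟩, ?_⟩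
  change QuotientGroup.mk' N u = (x : G ⧸ N) * d * (x : G ⧸ N)⁻¹ at hue
  change QuotientGroup.mk' N (x⁻¹ * u * x⁻¹⁻¹) = d
  simp only [inv_inv, map_mul, map_inv, hue, QuotientGroup.mk'_apply]
  group

end Cfsg.Agent.S4433
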