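import Cfsg.Statements.S4442
import Cfsg.Agent.DefOne.Structure

set_option autoImplicit false
open Cfsg

namespace Cfsg.Agent.S4442

/-- Blocks of defect one. Let p be an odd prime and G a finite group whose Sylow p-subgroup P has order p; let C = C_G(P) and N = N_G(P), and fix a maximal ideal M of the algebraic integers containing p. Let B be a block of G with defect group P, b a block of C inducing B, and θ the member of b having P in its kernel (there is exactly one). Let T be the stabilizer of θ in N (the elements g ∈ N with θ(g c g⁻¹) = θ(c) for all c ∈ C) and e the index of C in T. Then e divides p − 1 and B contains exactly e + (p − 1)/e irreducible characters. Moreover B is the disjoint union of a set X of e characters and a set Y of (p − 1)/e characters such that, with f the index of C in N: every χ ∈ X has χ(1) ≡ ±(f/e)·θ(1) (mod p), there is one sign ε with ψ(1) ≡ ε f θ(1) (mod p) for all ψ ∈ Y, and all members of Y agree on the p-regular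 elements of G. -/
theorem result {G : Type*} [Group G] [Finite G] (p : ℕ) [Fact p.Prime] (M : Ideal Cfsg.AlgInt) (hM : Cfsg.IsPModular p M) (hodd : p ≠ 2) (P : Sylow p G) (hP : Nat.card P = p) (B : Set (Cfsg.IrrCharacter G)) (hB : Cfsg.IsPBlock M B) (hBP : Cfsg.IsDefectGroup p M B P) (b : Set (Cfsg.IrrCharacter (Subgroup.centralizer ((P : Subgroup G) : Set G)))) (hind : Cfsg.IsInducedBlock M (Subgroup.centralizer ((P : Subgroup G) : Set G)) b B) (θ : Cfsg.IrrCharacter (Subgroup.centralizer ((P : Subgroup G) : Set G))) (hθ : θ ∈ b) (hθP : ∀ x : Subgroup.centralizer ((P : Subgroup G) : Set G), (x : G) ∈ (P : Subgroup G) → (θ : Subgroup.centralizer ((P : Subgroup G) : Set G) → ℂ) x = (θ : Subgroup.centralizer ((P : Subgroup G) : Set G) → ℂ) 1) (T : Subgroup G) (hT : ∀ g : G, g ∈ T ↔ (g ∈ Subgroup.normalizer ((P : Subgroup G) : Set G) ∧ ∀ c c' : Subgroup.centralizer ((P : Subgroup G) : Set G), (c' : G) = g * c * g⁻¹ → (θ : Subgroup.centralizer ((P : Subgroup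 G) : Set G) → ℂ) c' = (θ : Subgroup.centralizer ((P : Subgroup G) : Set G) → ℂ) c)) (e f : ℕ) (he : (Subgroup.centralizer ((P : Subgroup G) : Set G)).relIndex T = e) (hf : (Subgroup.centralizer ((P : Subgroup G) : Set G)).relIndex (Subgroup.normalizer ((P : Subgroup G) : Set G)) = f) : e ∣ p - 1 ∧ Nat.card B = e + (p - 1) / e ∧ ∃ X Y : Set (Cfsg.IrrCharacter G), B = X ∪ Y ∧ Disjoint X Y ∧ Nat.card X = e ∧ Nat.card Y = (p - 1) / e ∧ (∀ χ ∈ X, (Cfsg.charDegree (χ : G → ℂ) : ℤ) ≡ ((f / e * Cfsg.charDegree (θ : Subgroup.centralizer ((P : Subgroup G) : Set G) → ℂ) : ℕ) : ℤ) [ZMOD p] ∨ (Cfsg.charDegree (χ : G → ℂ) : ℤ) ≡ -((f / e * Cfsg.charDegree (θ : Subgroup.centralizer ((P : Subgroup G) : Set G) → ℂ) : ℕ) : ℤ) [ZMOD p]) ∧ (∃ ε : ℤ, (ε = 1 ∨ ε = -1) ∧ ∀ ψ ∈ Y, (Cfsg.charDegree (ψ : G → ℂ) : ℤ) ≡ ε * ((f * Cfsg.charDegree (θ : Subgroup.centralizer ((P : Subgroup G) : Set G) → ℂ) : ℕ) : ℤ) [ZMOD p]) ∧ ∀ ψ ∈ Y, ∀ ψ' ∈ Y, ∀ g : G, ¬ p ∣ orderOf g → (ψ :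 G → ℂ) g = (ψ' : G → ℂ) g := by
  classical
  letI := Fintype.ofFinite G
  letI : M.IsPrime := hM.2.1.isPrime
  obtain ⟨L⟩ := DefOne.exists_loc P hP
  have hθt : L.Triv (θ : DefOne.CP P → ℂ) := L.triv_of_apply θ.2 hθP
  obtain ⟨Y, δ, ε, hYi, hYB, hcard, hδ, hε, hX, hY, hrel, hagree⟩ :=
    L.exists_data hM hB hBP hind hθ hθt
  -- the indices
  have hTN : T ≤ DefOne.NP P := fun g hg => ((hT g).1 hg).1
  have hCN : DefOne.CP P ≤ DefOne.NP P := Subgroup.centralizer_le_normalizer _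
  have hstab : L.stab θ = T.subgroupOf (DefOne.NP P) := by
    ext n
    rw [L.mem_stab, Subgroup.mem_subgroupOf, hT]
    constructor
    · intro h
      refine ⟨n.2, fun c c' hcc => ?_⟩
      have h' := congrFun (congrArg Subtype.val h) c
      rw [DefOne.Loc.tw_apply] at h'
      rw [← h']
      exact congrArg _ (Subtype.ext (hcc.trans (L.coe_cjC n c).symm))
    · rintro ⟨-, h⟩
      exact Subtype.ext (funext fun c => h c _ (L.coe_cjC n c))
  have hCT : DefOne.CP P ≤ T := by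
    intro g hg
    refine (hT g).2 ⟨hCN hg, fun c c' hcc => ?_⟩
    rw [show c' = (⟨g, hg⟩ : DefOne.CP P) * c * (⟨g, hg⟩ : DefOne.CP P)⁻¹ from Subtype.ext hcc]
    exact Char.irr_isClassFunction θ.2 c _
  have hecard : Nat.card (L.autG θ) = e := by
    rw [L.card_autG_eq, hstab, Subgroup.relIndex_subgroupOf hTN]
    exact he
  set k := (L.stab θ).index with hk
  have hfek : f = e * k := by
    rw [hk, hstab, ← he, ← hf]
    exact (Subgroup.relIndex_mul_relIndex _ _ _ hCT hTN).symm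
  have hepos : 0 < e := hecard ▸ Nat.card_pos
  have hmul := L.card_Exc_mul θ
  rw [hecard] at hmul
  have hte : (p - 1) / e = Nat.card (L.Exc θ) := by
    rw [← hmul, Nat.mul_div_cancel _ hepos]
  have hfe : f / e = k := by rw [hfek, Nat.mul_div_cancel_left _ hepos]
  refine ⟨Dvd.intro_left _ hmul, by rw [hte, hcard, hecard],
    B \ Set.range Y, Set.range Y, ?_, Set.disjoint_sdiff_left, ?_, ?_, ?_, ?_, ?_⟩
  · rw [Set.sdiff_union_self]
    exact (Set.union_eq_left.2 (by rintro _ ⟨q, rfl⟩; exact hYB q)).symm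
  · rw [Nat.card_coe_set_eq, Set.ncard_sdiff (by rintro _ ⟨q, rfl⟩; exact hYB q),
      ← Nat.card_coe_set_eq, ← Nat.card_coe_set_eq, hcard, Nat.card_range_of_injective hYi, hecard,
      Nat.add_sub_cancel]
  · rw [hte, Nat.card_range_of_injective hYi]
  · rintro χ ⟨hχB, hχY⟩
    have hs : ∑ c : (ZMod p)ˣ, L.row (χ : G → ℂ) θ c = ((((p : ℤ) - 1) * δ χ : ℤ) : ℂ) := by
      rw [Finset.sum_congr rfl fun c _ => hX χ hχB hχY c, Finset.sum_const, Finset.card_univ,
        ZMod.card_units_eq_totient, Nat.totient_prime (Fact.out : p.Prime), nsmul_eq_mul,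
        Nat.cast_sub (Fact.out : p.Prime).one_le]
      push_cast
      ring
    obtain ⟨m, hm⟩ := L.exists_degree hM hB hBP hind hθ hθt hχB hs
    rw [hfe]
    rcases hδ χ hχB with h | h
    · refine Or.inr (Int.modEq_iff_dvd.2 ⟨-(m + ((k * charDegree (θ : DefOne.CP P → ℂ) : ℕ) : ℤ)), ?_⟩)
      rw [hm, h, hk]
      ring
    · refine Or.inl (Int.modEq_iff_dvd.2 ⟨-m + ((k * charDegree (θ : DefOne.CP P → ℂ) : ℕ) : ℤ), ?_⟩)
      rw [hm, h, hk]
      ring
  · refine ⟨ε, ?_, ?_⟩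
    · rw [← hε ((1 : (ZMod p)ˣ) : L.Exc θ)]
      exact hδ _ (hYB _)
    rintro ψ ⟨q, rfl⟩
    have hs : ∑ c : (ZMod p)ˣ, L.row (Y q : G → ℂ) θ c = (((e : ℤ) * ε : ℤ) : ℂ) := by
      rw [Finset.sum_congr rfl fun c _ => hY q c, ← Finset.sum_filter, Finset.sum_const,
        nsmul_eq_mul, hε q]
      have : (Finset.univ.filter fun c : (ZMod p)ˣ => (c : L.Exc θ) = q).card = e := by
        rw [← hecard, ← Nat.card_eq_finsetCard]
        refine Nat.card_congr
          { toFun := fun c => ⟨q.out⁻¹ * c.1,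
              QuotientGroup.eq.1 (q.out_eq'.trans (Finset.mem_filter.1 c.2).2.symm)⟩
            invFun := fun h => ⟨q.out * (h : (ZMod p)ˣ), Finset.mem_filter.2 ⟨Finset.mem_univ _, ?_⟩⟩
            left_inv := fun c => Subtype.ext (mul_inv_cancel_left _ _)
            right_inv := fun h => Subtype.ext (inv_mul_cancel_left _ _) }
        rw [QuotientGroup.mk_mul, QuotientGroup.out_eq', (QuotientGroup.eq_one_iff _).2 h.2, mul_one]
      rw [this]
      push_cast
      ring
    obtain ⟨m, hm⟩ := L.exists_degree hM hB hBP hind hθ hθt (hYB q) hs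
    refine Int.modEq_iff_dvd.2 ⟨-m, ?_⟩
    rw [hm, hfek, hk]
    push_cast
    ring
  · rintro _ ⟨q, rfl⟩ _ ⟨q', rfl⟩ g hg
    exact hagree g hg q q'

end Cfsg.Agent.S4442
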