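import Cfsg.Agent.Char.GlaubermanSolv

set_option autoImplicit false
open Cfsg

namespace Cfsg.Agent.S4444

/-- The Glauberman correspondence for a p-group of operators. Inside a finite group Γ let S normalise G with the orders of G and S coprime, S a p-group, and let C = G ⊓ C(S) be the fixed points. Call an irreducible character χ of G S-invariant when χ(s g s⁻¹) = χ(g) for s ∈ S, g ∈ G. Then: (i) for every S-invariant χ there is exactly one irreducible character β of C whose multiplicity [χ_C, β] in the restriction of χ is not divisible by p; (ii) that multiplicity is ≡ 1 or ≡ −1 (mod p); (iii) distinct S-invariant χ give distinct β; (iv) every irreducible character of C arises in this way. So χ ↦ β is a bijection from the S-invariant irreducible characters of G onto the irreducible characters of C. -/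
theorem result {Γ : Type*} [Group Γ] [Fintype Γ] (G S : Subgroup Γ) [Fintype G] (hnorm : ∀ s ∈ S, ∀ g ∈ G, s * g * s⁻¹ ∈ G) (hcop : (Nat.card G).Coprime (Nat.card S)) (p : ℕ) (hp : p.Prime) (hS : IsPGroup p S) (C : Subgroup Γ) [Fintype C] (hC : C = G ⊓ Subgroup.centralizer (S : Set Γ)) (hCG : C ≤ G) : (∀ χ : Cfsg.IrrCharacter G, (∀ s ∈ S, ∀ g g' : G, (g' : Γ) = s * g * s⁻¹ → (χ : G → ℂ) g' = (χ : G → ℂ) g) → ∃! β : Cfsg.IrrCharacter C, ∃ m : ℕ, Cfsg.classInner (fun c : C => (χ : G → ℂ) ⟨c, hCG c.2⟩) (β : C → ℂ) = (m : ℂ) ∧ ¬ p ∣ m) ∧ (∀ χ : Cfsg.IrrCharacter G, (∀ s ∈ S, ∀ g g' : G, (g' : Γ) = s * g * s⁻¹ → (χ : G → ℂ) g' = (χ : G → ℂ) g) → ∀ β : Cfsg.IrrCharacter C, ∀ m : ℕ, Cfsg.classInner (fun c : C => (χ : G → ℂ) ⟨c, hCG c.2⟩) (β : C → ℂ) = (m : ℂ) → ¬ p ∣ m → ((m : ℤ) ≡ 1 [ZMOD p] ∨ (m : ℤ) ≡ -1 [ZMOD p])) ∧ (∀ χ χ' : Cfsg.IrrCharacter G, (∀ s ∈ S, ∀ g g' : G, (g' : Γ) = s * g * s⁻¹ → (χ : G →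 ℂ) g' = (χ : G → ℂ) g) → (∀ s ∈ S, ∀ g g' : G, (g' : Γ) = s * g * s⁻¹ → (χ' : G → ℂ) g' = (χ' : G → ℂ) g) → ∀ β : Cfsg.IrrCharacter C, ∀ m m' : ℕ, Cfsg.classInner (fun c : C => (χ : G → ℂ) ⟨c, hCG c.2⟩) (β : C → ℂ) = (m : ℂ) → ¬ p ∣ m → Cfsg.classInner (fun c : C => (χ' : G → ℂ) ⟨c, hCG c.2⟩) (β : C → ℂ) = (m' : ℂ) → ¬ p ∣ m' → χ = χ') ∧ (∀ β : Cfsg.IrrCharacter C, ∃ χ : Cfsg.IrrCharacter G, (∀ s ∈ S, ∀ g g' : G, (g' : Γ) = s * g * s⁻¹ → (χ : G → ℂ) g' = (χ : G → ℂ) g) ∧ ∃ m : ℕ, Cfsg.classInner (fun c : C => (χ : G → ℂ) ⟨c, hCG c.2⟩) (β : C → ℂ) = (m : ℂ) ∧ ¬ p ∣ m) := by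
  classical
  haveI : Fact p.Prime := ⟨hp⟩
  let φ := Cfsg.Agent.Glauberman.conjHom G S hnorm
  let ι : C →* G := Subgroup.inclusion hCG
  have hι : Cfsg.Agent.Glauberman.IsFixedEmb φ ι := by
    refine ⟨Subgroup.inclusion_injective hCG, fun g => ?_⟩
    constructor
    · rintro ⟨c, rfl⟩ s
      have hc : (c : Γ) ∈ Subgroup.centralizer (S : Set Γ) := by
        exact (hC.le c.2).2
      apply Subtype.ext
      show (s : Γ) * c * (s : Γ)⁻¹ = c
      rw [hc s s.2, mul_inv_cancel_right]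
    · intro h
      refine ⟨⟨g, ?_⟩, rfl⟩
      refine hC.ge ⟨g.2, fun s hs => ?_⟩
      exact mul_inv_eq_iff_eq_mul.1 (congrArg Subtype.val (h ⟨s, hs⟩))
  have hI : ∀ χ : Cfsg.IrrCharacter G,
      (∀ s ∈ S, ∀ g g' : G, (g' : Γ) = s * g * s⁻¹ → (χ : G → ℂ) g' = (χ : G → ℂ) g) ↔
        Cfsg.Agent.Glauberman.IsInv φ (χ : G → ℂ) := fun χ => by
    constructor
    · exact fun h s g => h s s.2 g _ rfl
    · intro h s hs g g' hg'
      have : g' = φ ⟨s, hs⟩ g := Subtype.ext hg'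
      rw [this]
      exact h ⟨s, hs⟩ g
  have hm : ∀ (χ : Cfsg.IrrCharacter G) (β : Cfsg.IrrCharacter C) (m : ℕ),
      Cfsg.classInner (fun c : C => (χ : G → ℂ) ⟨c, hCG c.2⟩) (β : C → ℂ) = (m : ℂ) ↔
        m = Cfsg.Agent.Glauberman.mult ι χ β := fun χ β m =>
    ⟨fun h => (Cfsg.Agent.Glauberman.mult_eq ι h).symm,
      fun h => h ▸ Cfsg.Agent.Glauberman.mult_spec ι χ β⟩
  suffices H : (∀ χ : Cfsg.IrrCharacter G, Cfsg.Agent.Glauberman.IsInv φ (χ : G → ℂ) → ∃ β : Cfsg.IrrCharacter C,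
        ((Cfsg.Agent.Glauberman.mult ι χ β : ZMod p) = 1 ∨
          (Cfsg.Agent.Glauberman.mult ι χ β : ZMod p) = -1) ∧
        ∀ β', β' ≠ β → (Cfsg.Agent.Glauberman.mult ι χ β' : ZMod p) = 0) ∧
      (∀ (χ χ' : Cfsg.IrrCharacter G) (β : Cfsg.IrrCharacter C), Cfsg.Agent.Glauberman.IsInv φ (χ : G → ℂ) →
        Cfsg.Agent.Glauberman.IsInv φ (χ' : G → ℂ) →
        (Cfsg.Agent.Glauberman.mult ι χ β : ZMod p) ≠ 0 →
        (Cfsg.Agent.Glauberman.mult ι χ' β : ZMod p) ≠ 0 → χ = χ') ∧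
      (∀ β : Cfsg.IrrCharacter C, ∃ χ : Cfsg.IrrCharacter G, Cfsg.Agent.Glauberman.IsInv φ (χ : G → ℂ) ∧
        (Cfsg.Agent.Glauberman.mult ι χ β : ZMod p) ≠ 0) by
    obtain ⟨h1, h2, h3⟩ := H
    simp only [hI, hm, ← ZMod.intCast_eq_intCast_iff, Int.cast_natCast, Int.cast_one,
      Int.cast_neg, exists_eq_left]
    simp only [ne_eq, ZMod.natCast_eq_zero_iff] at h1 h2 h3
    refine ⟨fun χ hχ => ?_, fun χ hχ β m hme hnm => ?_, ?_, fun β => ?_⟩
    · obtain ⟨β, hb, hu⟩ := h1 χ hχ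
      refine ⟨β, fun hd => ?_, fun β' hn => ?_⟩
      · rw [← ZMod.natCast_eq_zero_iff] at hd
        rw [hd] at hb
        rcases hb with hb | hb
        · exact zero_ne_one hb
        · exact zero_ne_one (neg_eq_zero.1 hb.symm).symm
      · by_contra hne
        exact hn (hu β' hne)
    · subst hme
      obtain ⟨β₀, hb, hu⟩ := h1 χ hχ
      obtain rfl : β = β₀ := by
        by_contra hne
        exact hnm (hu β hne)
      exact hb
    · intro χ χ' hχ hχ' β m m' hme hn hme' hn'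
      subst hme hme'
      exact h2 χ χ' β hχ hχ' hn hn'
    · obtain ⟨χ, hχ, hn⟩ := h3 β
      exact ⟨χ, hχ, hn⟩
  rcases subsingleton_or_nontrivial S with hS1 | hS1
  · have hsurj : Function.Surjective ι := fun g => (hι.2 g).2 fun s => by
      rw [Subsingleton.elim s 1, map_one]; rfl
    have hms := Cfsg.Agent.Glauberman.mult_of_surjective hι hsurj
    refine ⟨fun χ _ => ⟨⟨_, Cfsg.Agent.Char.isIrrCharacter_comp χ.2 ι hsurj⟩, Or.inl ?_,
      fun β' hne => ?_⟩, fun χ χ' β _ _ h h' => ?_, fun β => ?_⟩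
    · rw [hms, if_pos rfl, Nat.cast_one]
    · rw [hms, if_neg (fun h => hne (Subtype.ext h.symm)), Nat.cast_zero]
    · rw [hms] at h h'
      split_ifs at h h' with e e'
      · apply Subtype.ext
        funext g
        obtain ⟨c, rfl⟩ := hsurj g
        exact congrFun (e.trans e'.symm) c
      all_goals simp at *
    · let e : C ≃* G := MulEquiv.ofBijective ι ⟨hι.1, hsurj⟩
      refine ⟨⟨_, Cfsg.Agent.Char.isIrrCharacter_comp_mulEquiv β.2 e.symm⟩,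
        fun s g => by rw [Subsingleton.elim s 1, map_one]; rfl, ?_⟩
      rw [hms, if_pos, Nat.cast_one]
      · exact one_ne_zero
      · funext c
        show (β : C → ℂ) (e.symm (e c)) = _
        rw [MulEquiv.symm_apply_apply]
  · have hpG : ¬ p ∣ Nat.card G := by
      intro hd
      obtain ⟨n, hn⟩ := hS.exists_card_eq
      have hn0 : n ≠ 0 := fun h => by
        rw [h, pow_zero] at hn
        exact not_subsingleton S (Nat.card_eq_one_iff_unique.1 hn).1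
      exact hp.not_dvd_one (hcop ▸ Nat.dvd_gcd hd (hn ▸ dvd_pow_self p hn0))
    exact ⟨fun χ hχ => Cfsg.Agent.Glauberman.exists_corr hS hι hpG hχ,
      fun χ χ' β hχ hχ' h h' => Cfsg.Agent.Glauberman.corr_injective hS hι hpG hχ hχ' h h',
      Cfsg.Agent.Glauberman.corr_surjective hS hι hpG⟩

end Cfsg.Agent.S4444
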