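import Cfsg.Statements.S4446
import Cfsg.Agent.CharExt.CyclicCorr

set_option autoImplicit false
set_option linter.style.haveILetI false
open Cfsg Cfsg.Agent
open scoped Classical

namespace Cfsg.Agent.S4446

/-- Let the finite group Γ be generated by a normal subgroup G and a cyclic subgroup S of coprime orders, C = G ⊓ C(S), and let χ be an S-invariant irreducible character of G with canonical extension χ̂ to Γ (the extension whose determinantal order is coprime to the order of S). Then there are exactly one irreducible character β of C and one sign ε such that χ̂(c s) = ε β(c) for every c ∈ C and every generator s of S; this β is a constituent of the restriction of χ to C; distinct S-invariant χ give distinct β; and every irreducible character of C arises in this way. -/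
theorem result {Γ : Type*} [Group Γ] [Fintype Γ] (G S : Subgroup Γ) [Fintype G] (hnorm : ∀ s ∈ S, ∀ g ∈ G, s * g * s⁻¹ ∈ G) (hcop : (Nat.card G).Coprime (Nat.card S)) (htop : G ⊔ S = ⊤) (hcyc : IsCyclic S) (C : Subgroup Γ) [Fintype C] (hC : C = G ⊓ Subgroup.centralizer (S : Set Γ)) (hCG : C ≤ G) : (∀ (χ : Cfsg.IrrCharacter G) (χh : Cfsg.IrrCharacter Γ), (∀ s ∈ S, ∀ g g' : G, (g' : Γ) = s * g * s⁻¹ → (χ : G → ℂ) g' = (χ : G → ℂ) g) → (∀ g : G, (χh : Γ → ℂ) g = (χ : G → ℂ) g) → (Cfsg.detOrder (χh : Γ → ℂ)).Coprime (Nat.card S) → (∃! βε : Cfsg.IrrCharacter C × ℤ, (βε.2 = 1 ∨ βε.2 = -1) ∧ ∀ c : C, ∀ s : Γ, Subgroup.zpowers s = S → (χh : Γ → ℂ) ((c : Γ) * s) = (βε.2 : ℂ) * (βε.1 : C → ℂ) c) ∧ ∀ β : Cfsg.IrrCharacter C, ∀ ε : ℤ, (ε = 1 ∨ ε = -1) → (∀ c : C, ∀ s : Γ, Subgroup.zpowers s = S → (χh : Γ → ℂ) ((c : Γ) * s) = (ε : ℂ) * (β : C → ℂ) c) → Cfsg.classInner (fun c : C => (χ : G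 → ℂ) ⟨c, hCG c.2⟩) (β : C → ℂ) ≠ 0) ∧ (∀ (χ χ' : Cfsg.IrrCharacter G) (χh χh' : Cfsg.IrrCharacter Γ), (∀ s ∈ S, ∀ g g' : G, (g' : Γ) = s * g * s⁻¹ → (χ : G → ℂ) g' = (χ : G → ℂ) g) → (∀ s ∈ S, ∀ g g' : G, (g' : Γ) = s * g * s⁻¹ → (χ' : G → ℂ) g' = (χ' : G → ℂ) g) → (∀ g : G, (χh : Γ → ℂ) g = (χ : G → ℂ) g) → (∀ g : G, (χh' : Γ → ℂ) g = (χ' : G → ℂ) g) → (Cfsg.detOrder (χh : Γ → ℂ)).Coprime (Nat.card S) → (Cfsg.detOrder (χh' : Γ → ℂ)).Coprime (Nat.card S) → ∀ β : Cfsg.IrrCharacter C, ∀ ε ε' : ℤ, (ε = 1 ∨ ε = -1) → (ε' = 1 ∨ ε' = -1) → (∀ c : C, ∀ s : Γ, Subgroup.zpowers s = S → (χh : Γ → ℂ) ((c : Γ) * s) = (ε : ℂ) * (β : C → ℂ) c) → (∀ c : C, ∀ s : Γ, Subgroup.zpowers s = S → (χh' : Γ → ℂ) ((c : Γ) * s) = (ε' : ℂ) * (β : C → ℂ) c) → χ = χ') ∧ (∀ β : Cfsg.IrrCharacter C, ∃ (χ : Cfsg.IrrCharacter G) (χh : Cfsg.IrrCharacter Γ) (ε : ℤ), (∀ s ∈ S, ∀ g g' : G, (g' : Γ) = s * g * s⁻¹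 → (χ : G → ℂ) g' = (χ : G → ℂ) g) ∧ (∀ g : G, (χh : Γ → ℂ) g = (χ : G → ℂ) g) ∧ (Cfsg.detOrder (χh : Γ → ℂ)).Coprime (Nat.card S) ∧ (ε = 1 ∨ ε = -1) ∧ ∀ c : C, ∀ s : Γ, Subgroup.zpowers s = S → (χh : Γ → ℂ) ((c : Γ) * s) = (ε : ℂ) * (β : C → ℂ) c) := by
  obtain ⟨s₀, hs₀⟩ := hcyc.exists_generator
  letI := Fintype.ofFinite S
  have h : CyclicCorr.Hyp G S := ⟨hnorm, hcop, htop, hcyc⟩
  have hCS : C ≤ Subgroup.centralizer (S : Set Γ) := hC.le.trans inf_le_right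
  have htop' : Subgroup.zpowers s₀ = ⊤ := eq_top_iff.2 fun x _ => hs₀ x
  have hgen : Subgroup.zpowers (s₀ : Γ) = S := by
    rw [show (s₀ : Γ) = S.subtype s₀ from rfl, ← MonoidHom.map_zpowers, htop',
      ← MonoidHom.range_eq_map, Subgroup.range_subtype]
  have hCt : ∀ t : S, Subgroup.zpowers (t : Γ) = S →
      G ⊓ Subgroup.centralizer ({(t : Γ)} : Set Γ) = C := fun t ht => by
    rw [hC]
    conv_rhs => rw [← ht, Subgroup.zpowers_eq_closure, Subgroup.centralizer_closure]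
  have hzp : ∀ t : S, Subgroup.zpowers (t : Γ) = S → Subgroup.zpowers t = ⊤ := fun t ht => by
    apply Subgroup.map_injective S.subtype_injective
    rw [MonoidHom.map_zpowers, ← MonoidHom.range_eq_map, Subgroup.range_subtype]
    exact ht
  refine ⟨fun χ χh hinv hres hdet => ?_, fun χ χ' χh χh' hinv hinv' hres hres' hdet hdet' β ε ε'
    hε hε' hb hb' => ?_, fun β => ?_⟩
  · obtain ⟨β, ε, hε, hv⟩ := CyclicCorr.exists_signed h hCG hCS χ.2 χh.2 hres hdet htop'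
      (hCt s₀ hgen)
    have hall : ∀ c : C, ∀ s : Γ, Subgroup.zpowers s = S →
        (χh : Γ → ℂ) ((c : Γ) * s) = (ε : ℂ) * (β : C → ℂ) c := by
      intro c s hs
      have hsS : s ∈ S := hs ▸ Subgroup.mem_zpowers s
      obtain ⟨k, hk, e⟩ := CyclicCorr.exists_pow_of_gen htop' (hzp ⟨s, hsS⟩ hs)
      rw [show s = ((s₀ ^ k : S) : Γ) from congrArg Subtype.val e, ← hv c]
      exact CyclicCorr.value_pow h χ.2 (Char.isCharacter_of_irr χh.2) hres hdet hk ⟨c, hCG c.2⟩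
        s₀ (Subgroup.mem_centralizer_iff.1 (hCS c.2) s₀ s₀.2).symm
    refine ⟨⟨(β, ε), ⟨hε, hall⟩, ?_⟩, fun β' ε' hε' hb' => ?_⟩
    · rintro ⟨β', ε'⟩ ⟨hε', hb'⟩
      obtain ⟨rfl, rfl⟩ := CyclicCorr.eq_of_signed hε hε' fun c => (hall c s₀ hgen).symm.trans
        (hb' c s₀ hgen)
      rfl
    · have h1 := CyclicCorr.coef_of_signed (ψ := (χh : Γ → ℂ)) (t := s₀) (β := β') (ε := ε')
        fun c => hb' c s₀ hgen
      have h2 := CyclicCorr.constituent h hCS (Char.isCharacter_of_irr χh.2) β' s₀ (by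
        rw [h1]; rcases hε' with rfl | rfl <;> norm_num)
      rwa [show (fun c : C => (χh : Γ → ℂ) c) = fun c : C => (χ : G → ℂ) ⟨c, hCG c.2⟩ from
        funext fun c => hres ⟨c, hCG c.2⟩] at h2
  · apply Subtype.ext
    have := CyclicCorr.signed_injective h (hCt s₀ hgen) χh.2 χh'.2 hε hε'
      (fun c => hb c s₀ hgen) (fun c => hb' c s₀ hgen)
    funext g
    have := congrFun this g
    show (χ : G → ℂ) g = (χ' : G → ℂ) g
    rwa [hres, hres'] at this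
  · obtain ⟨χ, χh, ε, hinv, hres, hdet, hε, hv⟩ :=
      CyclicCorr.signed_surjective h hCG hCS htop' (hCt s₀ hgen) β
    refine ⟨χ, χh, ε, hinv, hres, hdet, hε, fun c s hs => ?_⟩
    have hsS : s ∈ S := hs ▸ Subgroup.mem_zpowers s
    obtain ⟨k, hk, e⟩ := CyclicCorr.exists_pow_of_gen htop' (hzp ⟨s, hsS⟩ hs)
    rw [show s = ((s₀ ^ k : S) : Γ) from congrArg Subtype.val e, ← hv c]
    exact CyclicCorr.value_pow h χ.2 (Char.isCharacter_of_irr χh.2) hres hdet hk ⟨c, hCG c.2⟩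
      s₀ (Subgroup.mem_centralizer_iff.1 (hCS c.2) s₀ s₀.2).symm

end Cfsg.Agent.S4446
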