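import Cfsg.Statements.S4447
import Cfsg.Agent.CharExt.InvConstituent
import Cfsg.Agent.Char.GlaubermanSolv

set_option autoImplicit false
open Cfsg

namespace Cfsg.Agent.S4447

/-- Inside a finite group Γ let S normalise G and also normalise a normal subgroup N of G, with the order of S coprime to the index of N in G and S or G/N solvable. Then for every S-invariant irreducible character χ of G, the restriction of χ to N has an S-invariant irreducible constituent. -/
theorem result {Γ : Type*} [Group Γ] [Fintype Γ] (G S N : Subgroup Γ) [Fintype G] [Fintype N] (hnorm : ∀ s ∈ S, ∀ g ∈ G, s * g * s⁻¹ ∈ G) (hNG : N ≤ G) [hNn : (N.subgroupOf G).Normal] (hNS : ∀ s ∈ S, ∀ n ∈ N, s * n * s⁻¹ ∈ N) (hcop : (N.relIndex G).Coprime (Nat.card S)) (hsolv : Group.IsSolvable S ∨ Group.IsSolvable (G ⧸ N.subgroupOf G)) (χ : Cfsg.IrrCharacter G) (hinv : (∀ s ∈ S, ∀ g g' : G, (g' : Γ) = s * g * s⁻¹ → (χ : G → ℂ) g' = (χ : G → ℂ) g)) : ∃ θ : Cfsg.IrrCharacter N, Cfsg.classInner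 (fun n : N => (χ : G → ℂ) ⟨n, hNG n.2⟩) (θ : N → ℂ) ≠ 0 ∧ (∀ s ∈ S, ∀ g g' : N, (g' : Γ) = s * g * s⁻¹ → (θ : N → ℂ) g' = (θ : N → ℂ) g) := by
  classical
  set T := G ⊔ S with hT
  have hGT : G ≤ T := le_sup_left
  have hST : S ≤ T := le_sup_right
  have hNT : N ≤ T := hNG.trans hGT
  have norm_of : ∀ X : Subgroup Γ, (∀ g ∈ G, ∀ x ∈ X, g * x * g⁻¹ ∈ X) →
      (∀ s ∈ S, ∀ x ∈ X, s * x * s⁻¹ ∈ X) → T ≤ Subgroup.normalizer (X : Set Γ) := by
    intro X h1 h2
    refine sup_le (fun a ha => ?_) (fun a ha => ?_) <;> rw [Subgroup.mem_normalizer_iff] <;>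
      intro x
    · exact ⟨h1 a ha x, fun h => by simpa [mul_assoc] using h1 a⁻¹ (inv_mem ha) _ h⟩
    · exact ⟨h2 a ha x, fun h => by simpa [mul_assoc] using h2 a⁻¹ (inv_mem ha) _ h⟩
  haveI hKn : (G.subgroupOf T).Normal := Subgroup.normal_subgroupOf_of_le_normalizer
    (norm_of G (fun g hg x hx => mul_mem (mul_mem hg hx) (inv_mem hg)) hnorm)
  haveI hNn' : (N.subgroupOf T).Normal := Subgroup.normal_subgroupOf_of_le_normalizer
    (norm_of N (fun g hg x hx => hNn.conj_mem ⟨x, hNG hx⟩ hx ⟨g, hg⟩) hNS)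
  letI := Fintype.ofFinite T
  letI := Fintype.ofFinite (G.subgroupOf T)
  letI := Fintype.ofFinite (N.subgroupOf T)
  let eG : G.subgroupOf T ≃* G := Subgroup.subgroupOfEquivOfLe hGT
  let eN : N.subgroupOf T ≃* N := Subgroup.subgroupOfEquivOfLe hNT
  let π := QuotientGroup.mk' (N.subgroupOf T)
  have hcop' : (Nat.card ((S.subgroupOf T).map π)).Coprime
      (Nat.card ((G.subgroupOf T).map π)) := by
    have h1 : Nat.card ((S.subgroupOf T).map π) ∣ Nat.card S :=
      (Subgroup.card_map_dvd _ _).trans (Nat.card_congr (Subgroup.subgroupOfEquivOfLe hST).toEquiv).dvd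
    refine (hcop.symm.coprime_dvd_left h1).coprime_dvd_right ?_
    rw [← Subgroup.relIndex_subgroupOf hGT, ← Subgroup.relIndex_ker (G.subgroupOf T) π]
    rw [QuotientGroup.ker_mk']
  have hsolv' : Group.IsSolvable (S.subgroupOf T) ∨
      Group.IsSolvable (G.subgroupOf T ⧸ (N.subgroupOf T).subgroupOf (G.subgroupOf T)) := by
    rcases hsolv with h | h
    · haveI := h
      exact Or.inl (Group.isSolvable_of_surjective
        (f := (Subgroup.subgroupOfEquivOfLe hST).symm.toMonoidHom) (MulEquiv.surjective _))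
    · haveI := h
      refine Or.inr (Group.isSolvable_of_surjective
        (f := QuotientGroup.map (N.subgroupOf G) ((N.subgroupOf T).subgroupOf (G.subgroupOf T))
          eG.symm.toMonoidHom (le_of_eq rfl)) fun q => ?_)
      induction q using QuotientGroup.induction_on with
      | _ y => exact ⟨QuotientGroup.mk (eG y), congrArg QuotientGroup.mk (eG.symm_apply_apply y)⟩
  let χ' : Cfsg.IrrCharacter (G.subgroupOf T) :=
    ⟨_, Cfsg.Agent.Char.isIrrCharacter_comp_mulEquiv χ.2 eG⟩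
  obtain ⟨θ, hm, hθ⟩ := Cfsg.Agent.CharExt.exists_inv_under (G.subgroupOf T) (N.subgroupOf T)
    (S.subgroupOf T) (fun x hx => hNG hx)
    (by rw [sup_comm, ← Subgroup.subgroupOf_sup hGT hST, Subgroup.subgroupOf_self])
    hcop' hsolv' χ' (fun a ha => funext fun g => hinv a ha (eG g) _ rfl)
  refine ⟨⟨_, Cfsg.Agent.Char.isIrrCharacter_comp_mulEquiv θ.2 eN.symm⟩, fun h0 => hm ?_,
    fun s hs g g' hg' => ?_⟩
  · rw [← h0]
    unfold Cfsg.classInner
    rw [Nat.card_congr eN.toEquiv]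
    congr 1
    exact Fintype.sum_equiv eN.toEquiv _ _ fun x => rfl
  · have h1 := congrFun (hθ ⟨s, hST hs⟩ hs) (eN.symm g)
    refine Eq.trans ?_ h1
    show (θ : N.subgroupOf T → ℂ) (eN.symm g') = (θ : N.subgroupOf T → ℂ) _
    exact congrArg _ (Subtype.ext (Subtype.ext hg'))

end Cfsg.Agent.S4447
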