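import Cfsg.Statements.S4448
import Cfsg.Agent.CharExt.InvConstituent
import Cfsg.Agent.Char.GlaubermanSolv

set_option autoImplicit false
open Cfsg

namespace Cfsg.Agent.S4448

/-- Inside a finite group Γ let S normalise G and also normalise a normal subgroup N of G, with the order of S coprime to the index of N in G and G/N solvable. Then for every S-invariant irreducible character ϑ of N, the induced character ϑ^G has an S-invariant irreducible constituent. -/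
theorem result {Γ : Type*} [Group Γ] [Fintype Γ] (G S N : Subgroup Γ) [Fintype G] [Fintype N] (hnorm : ∀ s ∈ S, ∀ g ∈ G, s * g * s⁻¹ ∈ G) (hNG : N ≤ G) [hNn : (N.subgroupOf G).Normal] (hNS : ∀ s ∈ S, ∀ n ∈ N, s * n * s⁻¹ ∈ N) (hcop : (N.relIndex G).Coprime (Nat.card S)) (hsolv : Group.IsSolvable (G ⧸ N.subgroupOf G)) (θ : Cfsg.IrrCharacter N) (hinv : (∀ s ∈ S, ∀ g g' : N, (g' : Γ) = s * g * s⁻¹ → (θ : N → ℂ) g' = (θ : N → ℂ) g)) : ∃ χ : Cfsg.IrrCharacter G, Cfsg.classInner (fun n : N => (χ : G → ℂ) ⟨n, hNG n.2⟩) (θ : N → ℂ) ≠ 0 ∧ (∀ s ∈ S, ∀ g g' : G, (g' : Γ) = s * g * s⁻¹ → (χ : G → ℂ) g' = (χ : G → ℂ) g) := by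
  classical
  let φ := Cfsg.Agent.Glauberman.conjHom G S hnorm
  letI := Fintype.ofFinite (N.subgroupOf G)
  let e : N.subgroupOf G ≃* N := Subgroup.subgroupOfEquivOfLe hNG
  let θ' : Cfsg.IrrCharacter (N.subgroupOf G) :=
    ⟨_, Cfsg.Agent.Char.isIrrCharacter_comp_mulEquiv θ.2 e⟩
  obtain ⟨χ, hm, hχ⟩ := Cfsg.Agent.CharExt.exists_inv_over_solvable (⊥ : Subgroup S) φ
    (N.subgroupOf G) (fun s x hx => hNS s s.2 _ hx)
    (fun s hs => ⟨1, one_mem _, fun g => by simp [Subgroup.mem_bot.1 hs]⟩) hsolv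
    (by rw [Subgroup.index_bot]; exact hcop.symm) θ' (fun s n => hinv s s.2 (e n) _ rfl)
  refine ⟨χ, fun h0 => hm ?_, fun s hs g g' hg' => ?_⟩
  · rw [← h0]
    unfold Cfsg.classInner
    rw [Nat.card_congr e.toEquiv]
    congr 1
    exact Fintype.sum_equiv e.toEquiv _ _ fun x => rfl
  · have : g' = φ ⟨s, hs⟩ g := Subtype.ext hg'
    rw [this]
    exact hχ _ g

end Cfsg.Agent.S4448
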