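import Cfsg.Agent.Char.GlaubermanConstituent

set_option autoImplicit false
open Cfsg

namespace Cfsg.Agent.S4449

/-- Inside a finite group Γ let the solvable subgroup S normalise G with the orders of G and S coprime, and let N be a normal subgroup of G normalised by S. Then for every S-invariant irreducible character ϑ of N, the induced character ϑ^G has an S-invariant irreducible constituent. -/
theorem result {Γ : Type*} [Group Γ] [Fintype Γ] (G S N : Subgroup Γ) [Fintype G] [Fintype N] (hnorm : ∀ s ∈ S, ∀ g ∈ G, s * g * s⁻¹ ∈ G) (hNG : N ≤ G) (hNnormal : ∀ g ∈ G, ∀ n ∈ N, g * n * g⁻¹ ∈ N) (hNS : ∀ s ∈ S, ∀ n ∈ N, s * n * s⁻¹ ∈ N) (hcop : (Nat.card G).Coprime (Nat.card S)) (hsolv : Group.IsSolvable S) (θ : Cfsg.IrrCharacter N) (hinv : (∀ s ∈ S, ∀ g g' : N, (g' : Γ) = s * g * s⁻¹ → (θ : N → ℂ) g' = (θ : N → ℂ) g)) : ∃ χ : Cfsg.IrrCharacter G, Cfsg.classInner (fun n : N => (χ : G → ℂ) ⟨n, hNG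 n.2⟩) (θ : N → ℂ) ≠ 0 ∧ (∀ s ∈ S, ∀ g g' : G, (g' : Γ) = s * g * s⁻¹ → (χ : G → ℂ) g' = (χ : G → ℂ) g) := by
  classical
  let φ := Cfsg.Agent.Glauberman.conjHom G S hnorm
  haveI : (N.subgroupOf G).Normal := ⟨fun n hn g => hNnormal g g.2 n hn⟩
  letI := Fintype.ofFinite (N.subgroupOf G)
  let e : N.subgroupOf G ≃* N := Subgroup.subgroupOfEquivOfLe hNG
  haveI := hsolv
  have hAN : ∀ a ∈ φ.range, ∀ x ∈ N.subgroupOf G, a x ∈ N.subgroupOf G := by
    rintro _ ⟨s, rfl⟩ x hx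
    exact hNS s s.2 _ hx
  let θ' : Cfsg.IrrCharacter (N.subgroupOf G) :=
    ⟨_, Cfsg.Agent.Char.isIrrCharacter_comp_mulEquiv θ.2 e⟩
  obtain ⟨χ, hχ, hm⟩ := Cfsg.Agent.Glauberman.exists_inv_over φ.range (N.subgroupOf G)
    (Group.isSolvable_of_surjective φ.rangeRestrict_surjective)
    (hcop.coprime_dvd_right (Subgroup.card_range_dvd φ)) hAN θ' (by
      rintro _ ⟨s, rfl⟩ x
      exact hinv s s.2 (e x) _ rfl)
  refine ⟨χ, fun h0 => hm (Cfsg.Agent.Glauberman.mult_eq _ ?_), fun s hs g g' hg' => ?_⟩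
  · rw [Nat.cast_zero, ← h0]
    unfold Cfsg.classInner
    rw [Nat.card_congr e.toEquiv]
    congr 1
    exact Fintype.sum_equiv e.toEquiv _ _ fun x => rfl
  · have : g' = φ ⟨s, hs⟩ g := Subtype.ext hg'
    rw [this]
    exact hχ _ ⟨⟨s, hs⟩, rfl⟩ g

end Cfsg.Agent.S4449
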