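import Cfsg.Statements.S4450
import Cfsg.Agent.CharExt.InvCoprime

set_option autoImplicit false
set_option linter.style.haveILetI false
open Cfsg Subgroup Cfsg.Agent
open scoped Classical

namespace Cfsg.Agent.S4450

/-- Let N ≤ G be normal subgroups of the finite group Γ with the index of G in Γ coprime to the index of N in G, and Γ/G or G/N solvable. Then for every irreducible character ϑ of N invariant under conjugation by Γ, the induced character ϑ^G has an irreducible constituent invariant under conjugation by Γ. -/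
theorem result {Γ : Type*} [Group Γ] [Fintype Γ] (G N : Subgroup Γ) [hG : G.Normal] [hN : N.Normal] [Fintype G] [Fintype N] (hNG : N ≤ G) (hcop : (G.index).Coprime (N.relIndex G)) (hsolv : Group.IsSolvable (Γ ⧸ G) ∨ Group.IsSolvable (G ⧸ N.subgroupOf G)) (θ : Cfsg.IrrCharacter N) (hinv : ∀ (x : Γ) (n : N), (θ : N → ℂ) ⟨x * n * x⁻¹, hN.conj_mem n n.2 x⟩ = (θ : N → ℂ) n) : ∃ χ : Cfsg.IrrCharacter G, Cfsg.classInner (fun n : N => (χ : G → ℂ) ⟨n, hNG n.2⟩) (θ : N → ℂ) ≠ 0 ∧ ∀ (x : Γ) (g : G), (χ : G → ℂ) ⟨x * g * x⁻¹, hG.conj_mem g g.2 x⟩ = (χ : G → ℂ) g := by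
  obtain ⟨X, _, _, f, N', δ, hf, hN'n, hmap, hcent, hmeet, hδ, hδN, hδθ⟩ :=
    CharDeep.exists_cover N θ.2 hinv
  let Gh := G.comap f
  have hN'G : N' ≤ Gh := fun x hx => hNG (hmap ▸ mem_map_of_mem f hx)
  let π := QuotientGroup.mk' N'
  have hπ : Function.Surjective π := QuotientGroup.mk'_surjective N'
  let E := Gh.map π
  haveI : E.Normal := (hG.comap f).map π hπ
  let Z := f.ker.map π
  have hkG : f.ker ≤ Gh := fun x hx => show f x ∈ G by
    rw [show f x = 1 from hx]; exact G.one_mem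
  have hZE : Z ≤ E := map_mono hkG
  have hZc : Z ≤ center (X ⧸ N') := by
    rintro _ ⟨z, hz, rfl⟩
    refine mem_center_iff.2 fun y => ?_
    obtain ⟨y, rfl⟩ := hπ y
    rw [← map_mul, ← map_mul, hcent z hz y]
  have hZ' : Z = (N.comap f).map π := by
    rw [← hmap, comap_map_eq, Subgroup.map_sup]
    conv_rhs => rw [show N'.map π = ⊥ by
      rw [eq_bot_iff]; rintro _ ⟨x, hx, rfl⟩; exact (QuotientGroup.eq_one_iff x).2 hx]
    exact (bot_sup_eq _).symm
  have hπker : π.ker = N' := QuotientGroup.ker_mk' N'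
  have hEi : E.index = G.index := by
    rw [index_map_eq _ hπ (hπker.le.trans hN'G), index_comap_of_surjective _ hf]
  have hZi : Z.index = N.index := by
    rw [hZ', index_map_eq _ hπ (hπker.le.trans (map_le_iff_le_comap.1 hmap.le)),
      index_comap_of_surjective _ hf]
  have hcop' : E.index.Coprime (Z.relIndex E) := by
    have h1 := relIndex_mul_index hZE
    rw [hEi, hZi, ← relIndex_mul_index hNG] at h1
    rw [hEi, mul_right_cancel₀ (index_ne_zero_of_finite (H := G)) h1]
    exact hcop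
  -- the two solvable cases
  have hsolv' : Group.IsSolvable ((X ⧸ N') ⧸ E) ∨
      ∃ (Q : _) (_ : Group Q) (_ : Group.IsSolvable Q) (q : E →* Q), q.ker ≤ Z.subgroupOf E := by
    rcases hsolv with hs | hs
    · left
      let r₀ : X ⧸ N' →* Γ ⧸ G := QuotientGroup.lift N' ((QuotientGroup.mk' G).comp f)
        fun x hx => (QuotientGroup.eq_one_iff _).2 (show f x ∈ G from hN'G hx)
      have hr₀ : r₀.ker = E := by
        ext y
        obtain ⟨x, rfl⟩ := hπ y
        show QuotientGroup.mk' G (f x) = 1 ↔ _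
        rw [QuotientGroup.mk'_apply, QuotientGroup.eq_one_iff]
        refine ⟨fun hx => mem_map_of_mem π (show x ∈ Gh from hx), ?_⟩
        rintro ⟨w, hw, hwx⟩
        have h1 : w⁻¹ * x ∈ Gh := hN'G (QuotientGroup.eq.1 hwx)
        have h2 := Gh.mul_mem hw h1
        rwa [mul_inv_cancel_left] at h2
      refine Group.isSolvable_of_isSolvable_injective
        (f := QuotientGroup.lift E r₀ hr₀.ge) ?_
      rw [← MonoidHom.ker_eq_bot_iff, QuotientGroup.ker_lift, hr₀, QuotientGroup.map_mk'_self]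
    · right
      let r₁ : X ⧸ N' →* Γ ⧸ N := QuotientGroup.lift N' ((QuotientGroup.mk' N).comp f)
        fun x hx => (QuotientGroup.eq_one_iff _).2 (hmap ▸ mem_map_of_mem f hx)
      let S := G.map (QuotientGroup.mk' N)
      haveI : Group.IsSolvable S := Group.isSolvable_of_surjective
        (f := QuotientGroup.lift (N.subgroupOf G) ((QuotientGroup.mk' N).subgroupMap G)
          (fun g hg => Subtype.ext ((QuotientGroup.eq_one_iff _).2 hg)))
        (fun y => by
          obtain ⟨_, g, hg, rfl⟩ := y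
          exact ⟨(⟨g, hg⟩ : G), rfl⟩)
      have hmem : ∀ e : E, r₁ e ∈ S := by
        rintro ⟨_, x, hx, rfl⟩
        exact mem_map_of_mem _ hx
      refine ⟨S, inferInstance, inferInstance, (r₁.comp E.subtype).codRestrict S hmem, ?_⟩
      rintro ⟨_, x, hx, rfl⟩ he
      have h1 : f x ∈ N := (QuotientGroup.eq_one_iff _).1 (congrArg Subtype.val he)
      show π x ∈ Z
      rw [hZ']
      exact mem_map_of_mem π h1
  -- the scalar of the kernel
  obtain ⟨c, hc⟩ := CharExt.exists_central_hom hδ f.ker fun z hz =>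
    mem_center_iff.2 fun y => (hcent z hz y).symm
  let i : f.ker ≃* Z := MulEquiv.ofBijective (π.subgroupMap f.ker)
    ⟨(injective_iff_map_eq_one _).2 fun z hz => Subtype.ext (hmeet z
      ((QuotientGroup.eq_one_iff _).1 (congrArg Subtype.val hz)) z.2),
      MonoidHom.subgroupMap_surjective π f.ker⟩
  letI := Fintype.ofFinite E
  letI := Fintype.ofFinite Gh
  letI := Fintype.ofFinite (X ⧸ N')
  obtain ⟨β, hβ, hβinv, hβμ⟩ := CharExt.exists_inv_central E Z hZE hZc hcop' hsolv'
    ((c⁻¹).comp i.symm.toMonoidHom)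
  -- the product on the preimage
  let p : Gh →* E := π.subgroupMap Gh
  have hp : Function.Surjective p := MonoidHom.subgroupMap_surjective π Gh
  let M := N'.subgroupOf Gh
  letI := Fintype.ofFinite M
  letI := Fintype.ofFinite N'
  have hδG : IsIrrCharacter Gh (fun x : Gh => δ x) :=
    CharDeep.irr_res_of_le (Char.isCharacter_of_irr hδ) N' Gh hN'G hδN
  have hδM : IsIrrCharacter M (fun x : M => δ ((x : Gh) : X)) :=
    Char.isIrrCharacter_comp_mulEquiv hδN (subgroupOfEquivOfLe hN'G)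
  have hprod := CharExt.isIrrCharacter_mul M (fun x : Gh => δ x) hδG hδM
    (β := fun x => β (p x)) (CharInd.irr_comp_surjective p hp hβ) (fun m g => by
      show β (p ((m : Gh) * g)) = β (p g)
      rw [map_mul, show p (m : Gh) = 1 from Subtype.ext ((QuotientGroup.eq_one_iff _).2 m.2),
        one_mul])
  let fG : Gh →* G := (f.comp Gh.subtype).codRestrict G fun x => x.2
  have hfG : Function.Surjective fG := fun g => by
    obtain ⟨x, hx⟩ := hf g
    exact ⟨⟨x, show f x ∈ G by rw [hx]; exact g.2⟩, Subtype.ext hx⟩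
  have hconst : ∀ z ∈ fG.ker, ((fun x : Gh => β (p x)) * fun x : Gh => δ x) z =
      ((fun x : Gh => β (p x)) * fun x : Gh => δ x) 1 := by
    intro z hz
    let z₀ : f.ker := ⟨(z : X), congrArg Subtype.val hz⟩
    have h1 : p z = inclusion hZE (i z₀) * 1 := by rw [mul_one]; rfl
    have h2 := hc z₀ 1
    rw [mul_one] at h2
    show β (p z) * δ ((z : Gh) : X) = β (p 1) * δ ((1 : Gh) : X)
    rw [h1, hβμ, map_one, OneMemClass.coe_one, show ((z : Gh) : X) = ((z₀ : f.ker) : X) from rfl,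
      h2, MonoidHom.comp_apply, MulEquiv.coe_toMonoidHom, MulEquiv.symm_apply_apply,
      MonoidHom.inv_apply]
    have : (((c z₀)⁻¹ : ℂˣ) : ℂ) * (c z₀ : ℂ) = 1 := Units.inv_mul _
    linear_combination (β 1 * δ 1) * this
  obtain ⟨ψ₀, hψ₀, hψ₀e⟩ := Char.irr_exists_descend hprod fG.ker hconst
  let eG := QuotientGroup.quotientKerEquivOfSurjective fG hfG
  let ψ : IrrCharacter G := ⟨ψ₀ ∘ eG.symm, Char.isIrrCharacter_comp_mulEquiv hψ₀ eG.symm⟩
  have hψ : ∀ y : Gh, (ψ : G → ℂ) (fG y) = β (p y) * δ y := fun y => by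
    show ψ₀ (eG.symm (fG y)) = _
    rw [show eG.symm (fG y) = (y : Gh ⧸ fG.ker) from eG.symm_apply_apply (y : Gh ⧸ fG.ker)]
    exact (hψ₀e y).symm
  refine ⟨ψ, ?_, ?_⟩
  · have hres : (fun n : N => (ψ : G → ℂ) ⟨n, hNG n.2⟩) = β 1 • (θ : N → ℂ) := by
      funext n
      obtain ⟨x, hx, hxn⟩ : (n : Γ) ∈ N'.map f := hmap.symm ▸ n.2
      have h1 := hψ ⟨x, hN'G hx⟩
      rw [show fG ⟨x, hN'G hx⟩ = ⟨(n : Γ), hNG n.2⟩ from Subtype.ext hxn,
        show p ⟨x, hN'G hx⟩ = 1 from Subtype.ext ((QuotientGroup.eq_one_iff _).2 hx)] at h1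
      rw [h1, Pi.smul_apply, smul_eq_mul]
      congr 1
      rw [show δ x = _ from hδθ ⟨x, hx⟩ (hxn ▸ n.2)]
      exact congrArg _ (Subtype.ext hxn)
    rw [hres, CharInd.classInner_smul_left, Char.classInner_irr_self θ.2, mul_one]
    exact Char.irr_one_ne_zero hβ
  · intro y g
    obtain ⟨x, rfl⟩ := hf y
    obtain ⟨g, rfl⟩ := hfG g
    let g' : Gh := ⟨x * g * x⁻¹, (hG.comap f).conj_mem g g.2 x⟩
    rw [show (⟨f x * (fG g : Γ) * (f x)⁻¹, hG.conj_mem _ (fG g).2 _⟩ : G) = fG g' from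
      Subtype.ext (show f x * f g * (f x)⁻¹ = f (x * g * x⁻¹) by rw [map_mul, map_mul, map_inv]), hψ, hψ]
    congr 1
    · rw [show p g' = CharExt.cj E (π x) (p g) from Subtype.ext (by
        show π (x * g * x⁻¹) = π x * π g * (π x)⁻¹
        rw [map_mul, map_mul, map_inv])]
      exact hβinv _ _
    · exact Char.irr_isClassFunction hδ (g : X) x

end Cfsg.Agent.S4450
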