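import Cfsg.Statements.S4451
import Cfsg.Agent.CharExt.CyclicCorr

set_option autoImplicit false
set_option linter.style.haveILetI false
open Cfsg Cfsg.Agent
open scoped Classical

namespace Cfsg.Agent.S4451

/-- Let the finite group Γ be generated by a normal subgroup G and a cyclic subgroup S of coprime orders such that every non-identity element of S has the same centraliser C = G ⊓ C(S) in G. Let χ be an S-invariant irreducible character of G, χ̂ its canonical extension to Γ (determinantal order coprime to the order of S), and β the irreducible character of C with χ̂(c s) = ε₀ β(c) for c ∈ C and generators s of S (ε₀ = ±1). Then there are a sign ε = ±1, which may differ from ε₀, and a linear character μ of S with μ² = 1, such that: (a) χ̂(c x) = ε β(c) μ(x) for all c ∈ C and all x ∈ S other than 1; (b) the restriction of χ to C equals |S|·ϑ + ε β for some character ϑ of C or ϑ = 0; (c) |S| divides χ(1) − ε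 β(1). -/
theorem result {Γ : Type*} [Group Γ] [Fintype Γ] (G S : Subgroup Γ) [Fintype G] (hnorm : ∀ s ∈ S, ∀ g ∈ G, s * g * s⁻¹ ∈ G) (hcop : (Nat.card G).Coprime (Nat.card S)) (htop : G ⊔ S = ⊤) (hcyc : IsCyclic S) (C : Subgroup Γ) [Fintype C] (hC : C = G ⊓ Subgroup.centralizer (S : Set Γ)) (hCG : C ≤ G) (hfpf : ∀ x ∈ S, x ≠ 1 → G ⊓ Subgroup.centralizer ({x} : Set Γ) = C) (χ : Cfsg.IrrCharacter G) (hinv : (∀ s ∈ S, ∀ g g' : G, (g' : Γ) = s * g * s⁻¹ → (χ : G → ℂ) g' = (χ : G → ℂ) g)) (χh : Cfsg.IrrCharacter Γ) (hext : (∀ g : G, (χh : Γ → ℂ) g = (χ : G → ℂ) g)) (hdet : (Cfsg.detOrder (χh : Γ → ℂ)).Coprime (Nat.card S)) (β : Cfsg.IrrCharacter C) (ε₀ : ℤ) (hε₀ : ε₀ = 1 ∨ ε₀ = -1) (hβ : ∀ c : C, ∀ s : Γ, Subgroup.zpowers s = S → (χh : Γ → ℂ) ((c : Γ) * s) = (ε₀ : ℂ) * (β : C → ℂ) c) : ∃ ε : ℤ, (ε = 1 ∨ ε = -1) ∧ (∃ μ : S → ℂ, Cfsg.IsCharacter S μ ∧ μ 1 = 1 ∧ (∀ x : S, μ x * μ x = 1) ∧ ∀ c : C, ∀ x : S, x ≠ 1 → (χh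 : Γ → ℂ) ((c : Γ) * x) = (ε : ℂ) * (β : C → ℂ) c * μ x) ∧ (∃ ϑ : C → ℂ, Cfsg.IsCharacter C ϑ ∧ (fun c : C => (χ : G → ℂ) ⟨c, hCG c.2⟩) = fun c => (Nat.card S : ℂ) * ϑ c + (ε : ℂ) * (β : C → ℂ) c) ∧ (Nat.card S : ℤ) ∣ (Cfsg.charDegree (χ : G → ℂ) : ℤ) - ε * (Cfsg.charDegree (β : C → ℂ) : ℤ) := by
  obtain ⟨s₀, hs₀⟩ := hcyc.exists_generator
  letI := Fintype.ofFinite S
  have h : CyclicCorr.Hyp G S := ⟨hnorm, hcop, htop, hcyc⟩
  have hCS : C ≤ Subgroup.centralizer (S : Set Γ) := hC.le.trans inf_le_right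
  have htop' : Subgroup.zpowers s₀ = ⊤ := eq_top_iff.2 fun x _ => hs₀ x
  have hgen : Subgroup.zpowers (s₀ : Γ) = S := by
    rw [show (s₀ : Γ) = S.subtype s₀ from rfl, ← MonoidHom.map_zpowers, htop',
      ← MonoidHom.range_eq_map, Subgroup.range_subtype]
  obtain ⟨a, ha0, ha⟩ := Char.irr_one_pos χ.2
  obtain ⟨b, hb0, hb⟩ := Char.irr_one_pos β.2
  have hdeg : ∀ {H : Type _} [Group H] (F : H → ℂ) (d : ℕ), F 1 = d →
      Cfsg.charDegree F = d := fun F d h => by simp [Cfsg.charDegree, h]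
  rw [hdeg _ a ha, hdeg _ b hb]
  rcases Nat.lt_or_ge 1 (Nat.card S) with hn | hn
  · obtain ⟨β', ε, f, hε, hval, ϑ, hϑ, hres⟩ := CyclicCorr.fixedPointFree h hCS hn
      (fun t ht => hfpf t t.2 (fun h1 => ht (Subtype.ext h1))) χh.2
      ((funext hext : (fun y : G => (χh : Γ → ℂ) y) = (χ : G → ℂ)) ▸ χ.2)
    have hs1 : s₀ ≠ 1 := fun h1 => by
      rw [h1, Subgroup.zpowers_one_eq_bot] at htop'
      rw [← Subgroup.card_top, ← htop', Subgroup.card_bot] at hn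
      exact lt_irrefl 1 hn
    have h1 : ∀ c : C, (ε : ℂ) * (f s₀ : ℂ) * (β' : C → ℂ) c = (ε₀ : ℂ) * (β : C → ℂ) c :=
      fun c => by rw [← hβ c s₀ hgen, hval c s₀ hs1]; ring
    have hbeq : β = β' ∧ (ε : ℂ) * (f s₀ : ℂ) = ε₀ := by
      have hz : classInner (fun c : C => (ε₀ : ℂ) * (β : C → ℂ) c) (β' : C → ℂ) =
          (ε : ℂ) * (f s₀ : ℂ) := by
        rw [← funext h1]
        show classInner (((ε : ℂ) * (f s₀ : ℂ)) • (β' : C → ℂ)) _ = _
        rw [CharInd.classInner_smul_left, Char.classInner_irr_self β'.2, mul_one]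
      rw [show (fun c : C => (ε₀ : ℂ) * (β : C → ℂ) c) = (ε₀ : ℂ) • (β : C → ℂ) from rfl,
        CharInd.classInner_smul_left] at hz
      by_cases he : β = β'
      · subst he
        rw [Char.classInner_irr_self β.2, mul_one] at hz
        exact ⟨rfl, hz.symm⟩
      · rw [Char.classInner_irr_ne β.2 β'.2 (fun e => he (Subtype.ext e)), mul_zero] at hz
        exact absurd hz.symm (mul_ne_zero (by rcases hε with rfl | rfl <;> norm_num)
          (Units.ne_zero _))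
    obtain ⟨rfl, hf0⟩ := hbeq
    have hsq : ∀ x : S, (f x : ℂ) * f x = 1 := by
      intro x
      obtain ⟨k, rfl⟩ := Subgroup.mem_zpowers_iff.1 (hs₀ x)
      have h2 : f s₀ * f s₀ = 1 := Units.ext (by
        rw [Units.val_mul, Units.val_one]
        have e : ((ε : ℂ) * ε) * ((f s₀ : ℂ) * f s₀) = (ε₀ : ℂ) * ε₀ := by
          rw [← hf0]; ring
        rcases hε with rfl | rfl <;> rcases hε₀ with rfl | rfl <;> simpa using e)
      rw [← Units.val_mul, ← map_mul, ← (Commute.refl s₀).mul_zpow, map_zpow, map_mul, h2, one_zpow,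
        Units.val_one]
    refine ⟨ε, hε, ⟨fun x => (f x : ℂ), Char.isCharacter_of_irr (Char.isIrrCharacter_monoidHom f),
      by simp, hsq, hval⟩, ⟨ϑ, hϑ, funext fun c => ?_⟩, ?_⟩
    · rw [← hext ⟨c, hCG c.2⟩]
      exact hres c
    · obtain ⟨d, hd⟩ := Char.isCharacter_one_nat hϑ
      have h1 := hres 1
      rw [OneMemClass.coe_one, show (χh : Γ → ℂ) 1 = (χ : G → ℂ) 1 from hext 1, ha, hb, hd] at h1
      refine ⟨(d : ℤ), ?_⟩
      have h2 : ((a : ℤ) : ℂ) = (((Nat.card S : ℤ) * d + ε * b : ℤ) : ℂ) := by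
        push_cast; exact h1
      have h3 : (a : ℤ) = (Nat.card S : ℤ) * d + ε * b := by exact_mod_cast h2
      linarith
  · have hS1 : Nat.card S = 1 := le_antisymm hn Nat.card_pos
    haveI := (Nat.card_eq_one_iff_unique.1 hS1).1
    have hc : ∀ c : C, (χ : G → ℂ) ⟨c, hCG c.2⟩ = (ε₀ : ℂ) * (β : C → ℂ) c := fun c => by
      rw [← hext ⟨c, hCG c.2⟩, ← hβ c s₀ hgen, show s₀ = 1 from Subsingleton.elim _ _,
        OneMemClass.coe_one, mul_one]
    refine ⟨ε₀, hε₀, ⟨fun _ => 1, Char.isCharacter_const_one, rfl, fun _ => one_mul 1,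
      fun c x hx => absurd (Subsingleton.elim x 1) hx⟩, ⟨0, Char.isCharacter_zero,
      funext fun c => by simp [hc c]⟩, ?_⟩
    rw [hS1, Nat.cast_one]
    exact one_dvd _

end Cfsg.Agent.S4451
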