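import Cfsg.Statements.S4452
import Cfsg.Agent.S4445
import Cfsg.Agent.S0867
import Cfsg.Agent.GlauberCorr.HomMult
import Cfsg.Agent.CharGraph.Dichotomy
import Cfsg.Agent.Coprime.Action

set_option autoImplicit false
set_option linter.style.haveILetI false
set_option linter.unusedSectionVars false

namespace Cfsg.Agent.S4452

open Cfsg Cfsg.Agent Subgroup
open scoped Classical

universe u

section
variable {G : Type u} [Group G] [Finite G] (K H : Subgroup G) [K.Normal]

theorem aux_complement (hKH : K ⊔ H = ⊤) (hcop : (Nat.card K).Coprime (Nat.card H)) :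
    H.IsComplement' K := by
  refine Subgroup.isComplement'_of_disjoint_and_mul_eq_univ ?_ ?_
  · exact disjoint_iff.2 (Subgroup.inf_eq_bot_of_coprime hcop.symm)
  · rw [← Subgroup.mul_normal, sup_comm, hKH, Subgroup.coe_top]

/-- Invariance under `H` is invariance under `G`. -/
theorem aux_inv (hKH : K ⊔ H = ⊤) {θ : K → ℂ} (hθ : IsClassFunction K θ)
    (hinv : ∀ s ∈ H, ∀ g g' : K, (g' : G) = s * g * s⁻¹ → θ g' = θ g) (x : G) (n : K) :
    θ ⟨x * n * x⁻¹, (inferInstance : K.Normal).conj_mem (n : G) n.2 x⟩ = θ n := by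
  obtain ⟨k, hk, h, hh, rfl⟩ : ∃ k ∈ K, ∃ h ∈ H, k * h = x := by
    have hx : x ∈ K ⊔ H := hKH ▸ Subgroup.mem_top x
    rw [← SetLike.mem_coe, Subgroup.normal_mul] at hx
    exact Set.mem_mul.1 hx
  have hm : h * n * h⁻¹ ∈ K := (inferInstance : K.Normal).conj_mem _ n.2 h
  refine Eq.trans ?_ (hinv h hh n ⟨_, hm⟩ rfl)
  rw [← hθ ⟨_, hm⟩ ⟨k, hk⟩]
  congr 1
  exact Subtype.ext (by simp [mul_assoc])

/-- Irreducible characters of degree prime to `|H|`: invariant characters of `K` times linear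
characters of `H`. -/
theorem card_coprime_degree (hKH : K ⊔ H = ⊤) (hcop : (Nat.card K).Coprime (Nat.card H)) :
    Nat.card {χ : IrrCharacter G // (charDegree (χ : G → ℂ)).Coprime (Nat.card H)} =
      Nat.card {θ : IrrCharacter K // ∀ s ∈ H, ∀ g g' : K, (g' : G) = s * g * s⁻¹ →
        (θ : K → ℂ) g' = (θ : K → ℂ) g} * Nat.card (H →* ℂˣ) := by
  classical
  letI := Fintype.ofFinite G
  letI := Fintype.ofFinite K
  have hc := aux_complement K H hKH hcop
  have hidx : K.index = Nat.card H := hc.index_eq_card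
  let e : G ⧸ K ≃* H := hc.QuotientMulEquiv
  let π : G →* H := e.toMonoidHom.comp (QuotientGroup.mk' K)
  have hπK : ∀ k : K, π k = 1 := fun k => by
    show e (QuotientGroup.mk' K k) = 1
    rw [show QuotientGroup.mk' K (k : G) = 1 from (QuotientGroup.eq_one_iff _).2 k.2, map_one]
  have hπ : Function.Surjective π := e.surjective.comp (QuotientGroup.mk'_surjective K)
  let I := {θ : IrrCharacter K // ∀ s ∈ H, ∀ g g' : K, (g' : G) = s * g * s⁻¹ →
    (θ : K → ℂ) g' = (θ : K → ℂ) g}
  have hext : ∀ θ : I, ∃ χ : IrrCharacter G, ∀ n : K, (χ : G → ℂ) n = (θ.1 : K → ℂ) n := by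
    intro θ
    obtain ⟨d, -, hd, hdvd⟩ := Char.irr_degree_dvd_card θ.1.2
    have hl := CharExt.detChar_isLin (θ.1 : K → ℂ)
    have hdet : detOrder (θ.1 : K → ℂ) ∣ Nat.card K := by
      rw [detOrder, hl.orderOf_eq]
      exact orderOf_dvd_of_pow_eq_one (MonoidHom.ext fun k => by
        rw [MonoidHom.pow_apply, ← map_pow, pow_card_eq_one', map_one, MonoidHom.one_apply])
    obtain ⟨χ, ⟨h1, h2, -⟩, -⟩ := S0867.result K (θ.1 : K → ℂ) θ.1.2
      (aux_inv K H hKH (Char.irr_isClassFunction θ.1.2) θ.2) d hd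
      (by rw [hidx]; exact (hcop.symm.coprime_dvd_right hdet).mul_right (hcop.symm.coprime_dvd_right hdvd))
    exact ⟨⟨χ, h1⟩, h2⟩
  choose ext hext using hext
  have hres : ∀ θ : I, IsIrrCharacter K (fun n : K => (ext θ : G → ℂ) n) := fun θ => by
    rw [show (fun n : K => (ext θ : G → ℂ) n) = (θ.1 : K → ℂ) from funext (hext θ)]
    exact θ.1.2
  let lf : (H →* ℂˣ) → G → ℂ := fun l g => ((l (π g) : ℂˣ) : ℂ)
  have hlinv : ∀ l (n : K) g, lf l ((n : G) * g) = lf l g := fun l n g => by
    simp [lf, map_mul, hπK]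
  have hlirr : ∀ l, IsIrrCharacter G (lf l) := fun l =>
    Char.isIrrCharacter_monoidHom (l.comp π)
  let F : I × (H →* ℂˣ) → {χ : IrrCharacter G // (charDegree (χ : G → ℂ)).Coprime (Nat.card H)} :=
    fun x => ⟨⟨lf x.2 * (ext x.1 : G → ℂ),
      CharExt.isIrrCharacter_mul K _ (ext x.1).2 (hres x.1) (hlirr x.2) (hlinv x.2)⟩, by
      obtain ⟨d, -, hd, hdvd⟩ := Char.irr_degree_dvd_card x.1.1.2
      have : (lf x.2 * (ext x.1 : G → ℂ)) 1 = (d : ℂ) := by
        have h1 := hext x.1 1
        rw [OneMemClass.coe_one] at h1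
        simp [lf, h1, hd]
      show (charDegree (lf x.2 * (ext x.1 : G → ℂ))).Coprime _
      rw [Char.charDegree_of_eq this]
      exact hcop.coprime_dvd_left hdvd⟩
  rw [← Nat.card_prod]
  refine (Nat.card_eq_of_bijective F ⟨?_, ?_⟩).symm
  · rintro ⟨θ, l⟩ ⟨θ', l'⟩ h
    have h' : lf l * (ext θ : G → ℂ) = lf l' * (ext θ' : G → ℂ) :=
      congrArg (fun χ => (χ.1 : G → ℂ)) h
    have hθ : θ = θ' := by
      refine Subtype.ext (Subtype.ext (funext fun n => ?_))
      have := congrFun h' n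
      simpa [lf, hπK, hext] using this
    subst hθ
    have hl : lf l = lf l' := by
      by_contra hne
      have h1 := CharExt.classInner_mul_mul K _ (ext θ).2 (hres θ) (lf l) (lf l') (hlinv l) (hlinv l')
      rw [h', Char.classInner_irr_self
        (CharExt.isIrrCharacter_mul K _ (ext θ).2 (hres θ) (hlirr l') (hlinv l')),
        Char.classInner_irr_ne (hlirr l) (hlirr l') hne] at h1
      exact one_ne_zero h1
    refine Prod.ext rfl (MonoidHom.ext fun x => ?_)
    obtain ⟨g, rfl⟩ := hπ x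
    exact Units.ext (congrFun hl g)
  · rintro ⟨χ, hχ⟩
    have hr : IsIrrCharacter K (fun n : K => (χ : G → ℂ) n) :=
      CharGraph.isIrr_restrict_of_coprime K χ.2 (by rwa [hidx])
    let θ : I := ⟨⟨_, hr⟩, fun s _ g g' he => by
      show (χ : G → ℂ) g' = (χ : G → ℂ) g
      rw [he]; exact Char.irr_isClassFunction χ.2 _ _⟩
    obtain ⟨β, hβ⟩ := GlauberCorr.exists_gallagher K θ.1 (ext θ) (hext θ) χ (by
      intro h0
      have h1 := GlauberCorr.classInner_comp_eq_homMult K.subtype χ θ.1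
      rw [h0] at h1
      have h2 : classInner (fun n : K => (χ : G → ℂ) n) (θ.1 : K → ℂ) = 1 :=
        Char.classInner_irr_self hr
      exact one_ne_zero (h2.symm.trans (h1.trans Nat.cast_zero)))
    obtain ⟨b, -, hb, hbdvd⟩ := Char.irr_degree_dvd_card β.2
    obtain ⟨d, -, hd, hdvd⟩ := Char.irr_degree_dvd_card θ.1.2
    have hχ1 : (χ : G → ℂ) 1 = ((b * d : ℕ) : ℂ) := by
      have h1 := hext θ 1
      rw [OneMemClass.coe_one] at h1
      rw [hβ, h1, hd, QuotientGroup.mk_one, hb]; push_cast; ring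
    rw [Char.charDegree_of_eq hχ1] at hχ
    have hb1 : b = 1 := by
      have hbH : b ∣ Nat.card H := by rwa [Nat.card_congr e.toEquiv] at hbdvd
      exact Nat.eq_one_of_dvd_coprimes (hχ.coprime_dvd_left (Dvd.intro _ rfl)) dvd_rfl hbH
    obtain ⟨f, hf⟩ := Char.exists_monoidHom_of_degree_one (Char.isCharacter_of_irr β.2)
      (by rw [hb, hb1, Nat.cast_one])
    refine ⟨⟨θ, f.comp e.symm.toMonoidHom⟩, Subtype.ext (Subtype.ext (funext fun g => ?_))⟩
    show ((f (e.symm (e (QuotientGroup.mk' K g))) : ℂˣ) : ℂ) * (ext θ : G → ℂ) g = _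
    rw [MulEquiv.symm_apply_apply, ← hf, QuotientGroup.mk'_apply, ← hβ]

/-- Invariant classes of `K` meet the fixed points in a single class. -/
theorem card_inv_classes (hKH : K ⊔ H = ⊤) (hcop : (Nat.card K).Coprime (Nat.card H))
    (hsolv : Group.IsSolvable H) :
    Nat.card {C : ConjClasses K // ∀ s ∈ H, ∀ g g' : K, (g' : G) = s * g * s⁻¹ →
      ConjClasses.mk g = C → ConjClasses.mk g' = C} =
      Nat.card (ConjClasses ↥(K ⊓ centralizer (H : Set G))) := by
  classical
  have hnorm : H ≤ normalizer (K : Set G) := le_normalizer_of_normal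
  set D := K ⊓ centralizer (H : Set G)
  let i : D →* K := Subgroup.inclusion inf_le_left
  have himg : ∀ c : ConjClasses D, ∀ s ∈ H, ∀ g g' : K, (g' : G) = s * g * s⁻¹ →
      ConjClasses.mk g = ConjClasses.map i c → ConjClasses.mk g' = ConjClasses.map i c := by
    intro c
    obtain ⟨x, rfl⟩ := ConjClasses.mk_surjective c
    intro s hs g g' he hg
    change ConjClasses.mk g = ConjClasses.mk (i x) at hg
    show ConjClasses.mk g' = ConjClasses.mk (i x)
    rw [ConjClasses.mk_eq_mk_iff_isConj, isConj_iff] at hg ⊢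
    obtain ⟨k, hk⟩ := hg
    have hk' : (k : G) * g * (k : G)⁻¹ = x := congrArg Subtype.val hk
    have hx : s * (x : G) = x * s := (Subgroup.mem_inf.1 x.2).2 s hs
    refine ⟨⟨s * k * s⁻¹, (inferInstance : K.Normal).conj_mem _ k.2 s⟩, Subtype.ext ?_⟩
    show s * (k : G) * s⁻¹ * g' * (s * (k : G) * s⁻¹)⁻¹ = (x : G)
    rw [he, show s * (k : G) * s⁻¹ * (s * g * s⁻¹) * (s * (k : G) * s⁻¹)⁻¹ =
      s * ((k : G) * g * (k : G)⁻¹) * s⁻¹ by group, hk', hx, mul_inv_cancel_right]
  refine (Nat.card_eq_of_bijective (fun c => ⟨ConjClasses.map i c, himg c⟩) ⟨?_, ?_⟩).symm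
  · intro c c' hcc
    obtain ⟨x, rfl⟩ := ConjClasses.mk_surjective c
    obtain ⟨y, rfl⟩ := ConjClasses.mk_surjective c'
    have h1 : ConjClasses.mk (i x) = ConjClasses.mk (i y) := congrArg Subtype.val hcc
    rw [ConjClasses.mk_eq_mk_iff_isConj, isConj_iff] at h1 ⊢
    obtain ⟨k, hk⟩ := h1
    have hk' : (k : G) * x * (k : G)⁻¹ = y := congrArg Subtype.val hk
    set N := K ⊓ centralizer ({(x : G)} : Set G)
    have hHN : H ≤ normalizer (N : Set G) := by
      intro s hs
      have key : ∀ t ∈ H, ∀ n ∈ N, t * n * t⁻¹ ∈ N := fun t ht n hn => by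
        obtain ⟨h1, h2⟩ := Subgroup.mem_inf.1 hn
        refine Subgroup.mem_inf.2 ⟨(inferInstance : K.Normal).conj_mem _ h1 t, ?_⟩
        rw [mem_centralizer_singleton_iff] at h2 ⊢
        have hx : t * (x : G) = x * t := (Subgroup.mem_inf.1 x.2).2 t ht
        have hx' : t⁻¹ * (x : G) = x * t⁻¹ := (Subgroup.mem_inf.1 x.2).2 t⁻¹ (inv_mem ht)
        calc t * n * t⁻¹ * (x : G) = t * (n * (x : G)) * t⁻¹ := by
              rw [mul_assoc (t * n), hx']; group
          _ = t * ((x : G) * n) * t⁻¹ := by rw [h2]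
          _ = (x : G) * (t * n * t⁻¹) := by rw [← mul_assoc, hx]; group
      rw [mem_normalizer_iff]
      exact fun n => ⟨key s hs n, fun h => by simpa [mul_assoc] using key s⁻¹ (inv_mem hs) _ h⟩
    obtain ⟨z, hz, hzN⟩ := Coprime.exists_fixed_mem_coset (A := H) (K := K) (N := N) hHN
      (hcop.symm.coprime_dvd_right (Subgroup.card_dvd_of_le inf_le_left)) (Or.inl hsolv) inf_le_left
      k.2 (fun s hs => by
        refine Subgroup.mem_inf.2 ⟨?_, ?_⟩
        · have := (inferInstance : K.Normal).conj_mem _ k.2 s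
          simpa [mul_assoc] using mul_mem (inv_mem k.2) this
        · rw [mem_centralizer_singleton_iff]
          have hx : s * (x : G) = x * s := (Subgroup.mem_inf.1 x.2).2 s hs
          have hy : s * (y : G) = y * s := (Subgroup.mem_inf.1 y.2).2 s hs
          have hx' : s⁻¹ * (x : G) = x * s⁻¹ := (Subgroup.mem_inf.1 x.2).2 s⁻¹ (inv_mem hs)
          calc (k : G)⁻¹ * s * k * s⁻¹ * (x : G) = (k : G)⁻¹ * (s * ((k : G) * x * (k : G)⁻¹)) * k * s⁻¹ := by
                rw [mul_assoc _ s⁻¹ (x : G), hx']; group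
            _ = (k : G)⁻¹ * ((y : G) * s) * k * s⁻¹ := by rw [hk', hy]
            _ = (x : G) * ((k : G)⁻¹ * s * k * s⁻¹) := by rw [← hk']; group)
    obtain ⟨-, hzx⟩ := Subgroup.mem_inf.1 hzN
    rw [mem_centralizer_singleton_iff] at hzx
    refine ⟨⟨z, hz⟩, Subtype.ext ?_⟩
    show z * (x : G) * z⁻¹ = y
    calc z * (x : G) * z⁻¹ = (k : G) * ((k : G)⁻¹ * z * x) * z⁻¹ := by group
      _ = (k : G) * ((x : G) * ((k : G)⁻¹ * z)) * z⁻¹ := by rw [hzx]
      _ = y := by rw [← hk']; group
  · rintro ⟨C, hC⟩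
    obtain ⟨g, rfl⟩ := ConjClasses.mk_surjective C
    set S := centralizer ({(g : G)} : Set G)
    have hS : S ⊔ K = H ⊔ K := by
      rw [sup_comm H, hKH, eq_top_iff, ← hKH]
      refine sup_le le_sup_right fun s hs => ?_
      have h1 := hC s hs g ⟨s * g * s⁻¹, (inferInstance : K.Normal).conj_mem _ g.2 s⟩ rfl rfl
      rw [ConjClasses.mk_eq_mk_iff_isConj, isConj_iff] at h1
      obtain ⟨k, hk⟩ := h1
      have hk' : (k : G) * (s * g * s⁻¹) * (k : G)⁻¹ = g := congrArg Subtype.val hk
      have hm : (k : G) * s ∈ S := by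
        rw [mem_centralizer_singleton_iff]
        conv_rhs => rw [← hk']
        group
      have : s = (k : G)⁻¹ * ((k : G) * s) := by group
      rw [this]
      exact mul_mem (Subgroup.mem_sup_right (inv_mem k.2)) (Subgroup.mem_sup_left hm)
    obtain ⟨k, hk, hle⟩ := Coprime.exists_le_conj (A := H) (K := K) (S := S) hnorm hcop.symm
      (Or.inl hsolv) (by rw [sup_comm, hKH]; exact le_top) hS
    have hd : k * (g : G) * k⁻¹ ∈ centralizer (H : Set G) := by
      intro s hs
      obtain ⟨t, ht, hts⟩ := Subgroup.mem_pointwise_smul_iff_inv_smul_mem.1 (hle hs) |> fun h =>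
        (⟨_, h, rfl⟩ : ∃ t ∈ S, t = (MulAut.conj k)⁻¹ • s)
      rw [mem_centralizer_singleton_iff] at ht
      have e2 : s = k * t * k⁻¹ := by
        rw [hts]; simp [MulAut.smul_def, mul_assoc]
      rw [e2]
      calc k * t * k⁻¹ * (k * (g : G) * k⁻¹) = k * (t * g) * k⁻¹ := by group
        _ = k * (g * t) * k⁻¹ := by rw [ht]
        _ = k * (g : G) * k⁻¹ * (k * t * k⁻¹) := by group
    refine ⟨ConjClasses.mk ⟨k * g * k⁻¹, Subgroup.mem_inf.2 ⟨mul_mem (mul_mem hk g.2) (inv_mem hk), hd⟩⟩, Subtype.ext ?_⟩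
    show ConjClasses.mk (i _) = ConjClasses.mk g
    rw [ConjClasses.mk_eq_mk_iff_isConj, isConj_iff]
    exact ⟨⟨k, hk⟩⁻¹, Subtype.ext (by show k⁻¹ * (k * (g : G) * k⁻¹) * k⁻¹⁻¹ = g; group)⟩

end

theorem card_conjClasses_congr {A B : Type*} [Group A] [Group B] (e : A ≃* B) :
    Nat.card (ConjClasses A) = Nat.card (ConjClasses B) := by
  refine Nat.card_eq_of_bijective (ConjClasses.map e.toMonoidHom) ⟨?_, ?_⟩
  · intro a b h
    obtain ⟨x, rfl⟩ := ConjClasses.mk_surjective a
    obtain ⟨y, rfl⟩ := ConjClasses.mk_surjective b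
    have h1 : ConjClasses.mk (e x) = ConjClasses.mk (e y) := h
    rw [ConjClasses.mk_eq_mk_iff_isConj] at h1 ⊢
    simpa using MonoidHom.map_isConj e.symm.toMonoidHom h1
  · exact ConjClasses.map_surjective e.surjective

/-- Let the finite group G be the product of a normal subgroup K and a solvable subgroup H of coprime orders, and let N = N_G(H). Then the number of irreducible characters of G of degree coprime to the order of H equals the number of irreducible characters of N of degree coprime to the order of H. (The two sets are in fact in a canonical bijection; only the equality of their sizes is stated here.) -/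
theorem result {G : Type*} [Group G] [Finite G] (K H : Subgroup G) [K.Normal] (hKH : K ⊔ H = ⊤) (hcop : (Nat.card K).Coprime (Nat.card H)) (hsolv : Group.IsSolvable H) : Nat.card {χ : Cfsg.IrrCharacter G // (Cfsg.charDegree (χ : G → ℂ)).Coprime (Nat.card H)} = Nat.card {η : Cfsg.IrrCharacter (Subgroup.normalizer (H : Set G)) // (Cfsg.charDegree (η : Subgroup.normalizer (H : Set G) → ℂ)).Coprime (Nat.card H)} := by
  classical
  letI := Fintype.ofFinite G
  set N := Subgroup.normalizer (H : Set G)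
  letI := Fintype.ofFinite N
  have hHN : H ≤ N := Subgroup.le_normalizer
  let eH : H.subgroupOf N ≃* H := Subgroup.subgroupOfEquivOfLe hHN
  have hcH : Nat.card (H.subgroupOf N) = Nat.card H := Nat.card_congr eH.toEquiv
  have hcK : Nat.card (K.subgroupOf N) ∣ Nat.card K :=
    Subgroup.card_comap_dvd_of_injective K N.subtype N.subtype_injective
  have hKH' : K.subgroupOf N ⊔ H.subgroupOf N = ⊤ := by
    rw [eq_top_iff]
    intro n _
    have hn : (n : G) ∈ K ⊔ H := hKH ▸ Subgroup.mem_top _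
    rw [← SetLike.mem_coe, Subgroup.normal_mul] at hn
    obtain ⟨k, hk, s, hs, he⟩ := Set.mem_mul.1 hn
    have hkN : k ∈ N := by
      rw [show k = (n : G) * s⁻¹ from eq_mul_inv_of_mul_eq he]
      exact mul_mem n.2 (inv_mem (hHN hs))
    rw [show n = (⟨k, hkN⟩ : N) * ⟨s, hHN hs⟩ from Subtype.ext he.symm]
    exact mul_mem (Subgroup.mem_sup_left (Subgroup.mem_subgroupOf.2 hk))
      (Subgroup.mem_sup_right (Subgroup.mem_subgroupOf.2 hs))
  have hcop' : (Nat.card (K.subgroupOf N)).Coprime (Nat.card (H.subgroupOf N)) := by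
    rw [hcH]; exact hcop.coprime_dvd_left hcK
  have hbot := Subgroup.inf_eq_bot_of_coprime hcop
  have hcent : ∀ k : N, k ∈ K.subgroupOf N → (k : G) ∈ centralizer (H : Set G) := by
    intro k hk s hs
    have h1 : (k : G) * s * (k : G)⁻¹ * s⁻¹ ∈ K ⊓ H := by
      refine Subgroup.mem_inf.2 ⟨?_, mul_mem ((mem_normalizer_iff.1 k.2 s).1 hs) (inv_mem hs)⟩
      have h2 := (inferInstance : K.Normal).conj_mem _ (inv_mem (Subgroup.mem_subgroupOf.1 hk)) s
      simpa [mul_assoc] using mul_mem (Subgroup.mem_subgroupOf.1 hk) h2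
    rw [hbot, Subgroup.mem_bot, mul_inv_eq_one, mul_inv_eq_iff_eq_mul] at h1
    exact h1.symm
  have hinvN : ∀ (θ : IrrCharacter (K.subgroupOf N)), ∀ s ∈ H.subgroupOf N,
      ∀ g g' : K.subgroupOf N, (g' : N) = s * g * s⁻¹ →
        (θ : K.subgroupOf N → ℂ) g' = (θ : K.subgroupOf N → ℂ) g := by
    intro θ s hs g g' he
    refine congrArg _ (Subtype.ext (Subtype.ext ?_))
    rw [he, Subgroup.coe_mul, Subgroup.coe_mul, Subgroup.coe_inv,
      hcent g g.2 s (Subgroup.mem_subgroupOf.1 hs), mul_inv_cancel_right]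
  let eD : K.subgroupOf N ≃* ↥(K ⊓ centralizer (H : Set G)) :=
    { toFun := fun k => ⟨((k : N) : G), Subgroup.mem_inf.2 ⟨k.2, hcent k k.2⟩⟩
      invFun := fun c => ⟨⟨(c : G), Subgroup.centralizer_le_normalizer (H : Set G) (Subgroup.mem_inf.1 c.2).2⟩,
        (Subgroup.mem_inf.1 c.2).1⟩
      left_inv := fun _ => rfl
      right_inv := fun _ => rfl
      map_mul' := fun _ _ => rfl }
  rw [card_coprime_degree K H hKH hcop]
  conv_rhs => rw [← hcH, card_coprime_degree (K.subgroupOf N) (H.subgroupOf N) hKH' hcop']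
  congr 1
  · rw [Nat.card_congr (Equiv.subtypeUnivEquiv (α := IrrCharacter (K.subgroupOf N)) hinvN),
      Char.card_irr_eq_card_conjClasses, card_conjClasses_congr eD,
      ← card_inv_classes K H hKH hcop hsolv]
    letI := Fintype.ofFinite K
    exact S4445.result K H (fun s _ g hg => (inferInstance : K.Normal).conj_mem g hg s) hcop hsolv
  · exact Nat.card_congr
      { toFun := fun l => l.comp eH.toMonoidHom
        invFun := fun l => l.comp eH.symm.toMonoidHom
        left_inv := fun l => by ext x; simp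
        right_inv := fun l => by ext x; simp }

end Cfsg.Agent.S4452
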