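import Cfsg.Statements.S4454
import Cfsg.Agent.CharExt.CentralModel
import Cfsg.Agent.CharExt.CyclicCorr
import Cfsg.Agent.PGroup.Basic

set_option autoImplicit false
set_option linter.style.haveILetI false
open Cfsg Subgroup Cfsg.Agent
open scoped Classical

namespace Cfsg.Agent.S4454

/-- A normal subgroup on which no outer element fixes a non-identity element has order prime to its
index. -/
theorem coprime_of_free {Q : Type*} [Group Q] [Finite Q] (K : Subgroup Q) [K.Normal]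
    (h : ∀ x ∉ K, ∀ g ∈ K, x * g = g * x → g = 1) : (Nat.card K).Coprime K.index := by
  refine Nat.coprime_of_dvd fun p hp hpK hpi => ?_
  haveI := Fact.mk hp
  obtain ⟨k, hk⟩ := exists_prime_orderOf_dvd_card' p hpK
  obtain ⟨P, hP⟩ := (IsPGroup.of_card (n := 1) (by
    rw [pow_one, Nat.card_zpowers, Subgroup.orderOf_coe, hk] :
      Nat.card (zpowers (k : Q)) = p ^ 1)).exists_le_sylow
  have hne : K.subgroupOf (P : Subgroup Q) ≠ ⊥ := fun hb => by
    have h1 : (⟨(k : Q), hP (mem_zpowers _)⟩ : (P : Subgroup Q)) ∈ K.subgroupOf (P : Subgroup Q) :=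
      k.2
    rw [hb, Subgroup.mem_bot] at h1
    have h2 : k = 1 := Subtype.ext (congrArg Subtype.val h1 : (k : Q) = 1)
    rw [h2, orderOf_one] at hk
    exact hp.one_lt.ne hk
  obtain ⟨x, hxP, hxK⟩ : ∃ x ∈ (P : Subgroup Q), x ∉ K := by
    by_contra hc
    push Not at hc
    exact P.not_dvd_index (hpi.trans (index_dvd_of_le hc))
  have hcen := PGroup.inf_center_ne_bot P.isPGroup' (K.subgroupOf (P : Subgroup Q)) hne
  obtain ⟨⟨z, hz⟩, hz1⟩ := (Subgroup.ne_bot_iff_exists_ne_one).1 hcen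
  refine hz1 (Subtype.ext (Subtype.ext (h x hxK (z : Q) (mem_inf.1 hz).1 ?_)))
  exact congrArg Subtype.val (mem_center_iff.1 (mem_inf.1 hz).2 ⟨x, hxP⟩)

/-- Let N ≤ G be normal subgroups of the finite group Γ with Γ/G cyclic and Γ/N a Frobenius group with kernel G/N: G ≠ Γ, N ≠ G, and no element of Γ outside G fixes a non-identity coset of N in G under conjugation. Let ϑ be an irreducible character of N invariant under conjugation by Γ and suppose ϑ is fully ramified in G: the character of G induced from ϑ equals e·χ for an irreducible character χ of G and a natural number e. Then the index of G in Γ divides e − 1 or e + 1. -/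
theorem result {Γ : Type*} [Group Γ] [Fintype Γ] (G N : Subgroup Γ) [hG : G.Normal] [hN : N.Normal] [Fintype G] [Fintype N] (hNG : N ≤ G) (hGlt : G ≠ ⊤) (hNlt : N ≠ G) (hcyc : IsCyclic (Γ ⧸ G)) (hfrob : ∀ x : Γ, x ∉ G → ∀ g : Γ, g ∈ G → x * g * x⁻¹ * g⁻¹ ∈ N → g ∈ N) (θ : Cfsg.IrrCharacter N) (hinv : ∀ (x : Γ) (n : N), (θ : N → ℂ) ⟨x * n * x⁻¹, hN.conj_mem n n.2 x⟩ = (θ : N → ℂ) n) (χ : Cfsg.IrrCharacter G) (e : ℕ) (hram : Cfsg.indFun (N.subgroupOf G) (fun n : N.subgroupOf G => (θ : N → ℂ) ⟨(n : G), n.2⟩) = fun g => (e : ℂ) * (χ : G → ℂ) g) : (G.index : ℤ) ∣ (e : ℤ) - 1 ∨ (G.index : ℤ) ∣ (e : ℤ) + 1 := by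
  have hcop : G.index.Coprime (N.relIndex G) := by
    have hK := coprime_of_free (G.map (QuotientGroup.mk' N)) (fun x hx g hg hxg => by
      obtain ⟨x, rfl⟩ := QuotientGroup.mk'_surjective N x
      obtain ⟨g, hgG, rfl⟩ := hg
      refine (QuotientGroup.eq_one_iff g).2 (hfrob x (fun hxG => hx (mem_map_of_mem _ hxG)) g hgG ?_)
      apply (QuotientGroup.eq_one_iff _).1
      show QuotientGroup.mk' N (x * g * x⁻¹ * g⁻¹) = 1
      rw [map_mul, map_mul, map_mul, map_inv, map_inv, hxg, mul_inv_cancel_right, mul_inv_cancel])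
    rw [index_map_eq _ (QuotientGroup.mk'_surjective N) (by rw [QuotientGroup.ker_mk']; exact hNG),
      ← relIndex_ker, QuotientGroup.ker_mk'] at hK
    exact hK.symm
  obtain ⟨X, _, _, r, E, hZE, μ, hr, hZc, hEdef, hEi, hrel, hdesc⟩ :=
    CharExt.exists_central_model G N hNG θ hinv
  haveI : E.Normal := hEdef ▸ (hG.map _ (QuotientGroup.mk'_surjective N)).comap r
  -- the quotient by `E` is cyclic
  let w : X →* Γ ⧸ G := (QuotientGroup.map N G (MonoidHom.id Γ) hNG).comp r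
  have hw : ∀ x, w x = 1 ↔ x ∈ E := by
    intro x
    obtain ⟨y, hy⟩ := QuotientGroup.mk'_surjective N (r x)
    show QuotientGroup.map N G (MonoidHom.id Γ) hNG (r x) = 1 ↔ _
    rw [hEdef, mem_comap, ← hy]
    show (y : Γ ⧸ G) = 1 ↔ _
    rw [QuotientGroup.eq_one_iff]
    refine ⟨fun h => mem_map_of_mem _ h, ?_⟩
    rintro ⟨g, hg, hgy⟩
    have h1 := G.mul_mem hg (hNG (QuotientGroup.eq.1 hgy))
    rwa [mul_inv_cancel_left] at h1
  have hwker : w.ker = E := Subgroup.ext hw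
  haveI : IsCyclic (X ⧸ E) := isCyclic_of_injective (QuotientGroup.lift E w hwker.ge) (by
    rw [← MonoidHom.ker_eq_bot_iff, QuotientGroup.ker_lift, hwker, QuotientGroup.map_mk'_self])
  have hsolv : Group.IsSolvable (X ⧸ E) :=
    Group.isSolvable_of_comm fun a b => IsMulCommutative.is_comm.comm a b
  letI := Fintype.ofFinite E
  obtain ⟨β, hβ, hβinv, hβμ⟩ := CharExt.exists_inv_central E r.ker hZE hZc
    (by rw [hEi, hrel]; exact hcop) (Or.inl hsolv) μ
  obtain ⟨ψ, hψN, -⟩ := hdesc inferInstance β hβ hβμ fun x g g' e => by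
    rw [show g' = CharExt.cj E x g from Subtype.ext e]
    exact hβinv x g
  -- its degree is `e`
  have hβ1 : β 1 = (e : ℂ) := by
    obtain ⟨b, hb0, hb⟩ := Char.irr_one_pos hβ
    letI := Fintype.ofFinite (N.subgroupOf G)
    have h1 := CharInd.classInner_indFun_left (N.subgroupOf G)
      (fun n : N.subgroupOf G => (θ : N → ℂ) ⟨(n : G), n.2⟩)
      (Char.irr_isClassFunction ψ.2)
    rw [hram] at h1
    have e2 : classInner (fun n : N.subgroupOf G => (θ : N → ℂ) ⟨(n : G), n.2⟩)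
        (fun n : N.subgroupOf G => (ψ : G → ℂ) n) = (b : ℂ) := by
      have e3 : classInner (θ : N → ℂ) (fun n : N => (ψ : G → ℂ) ⟨n, hNG n.2⟩) = (b : ℂ) := by
        rw [show (fun n : N => (ψ : G → ℂ) ⟨n, hNG n.2⟩) = (b : ℂ) • (θ : N → ℂ) from
          funext fun n => by rw [hψN, hb]; rfl, CharInd.classInner_smul_right,
          Char.classInner_irr_self θ.2, mul_one, Complex.conj_natCast]
      rw [← e3]
      unfold classInner
      rw [Nat.card_congr (subgroupOfEquivOfLe hNG).toEquiv]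
      congr 1
      exact Fintype.sum_equiv (subgroupOfEquivOfLe hNG).toEquiv _ _ fun n => rfl
    rw [e2, show (fun g => (e : ℂ) * (χ : G → ℂ) g) = (e : ℂ) • (χ : G → ℂ) from rfl,
      CharInd.classInner_smul_left] at h1
    by_cases hψχ : (χ : G → ℂ) = (ψ : G → ℂ)
    · rw [← hψχ, Char.classInner_irr_self χ.2, mul_one] at h1
      rw [hb, h1]
    · rw [Char.classInner_irr_ne χ.2 ψ.2 hψχ, mul_zero] at h1
      exact absurd h1.symm (Nat.cast_ne_zero.2 hb0.ne')
  -- split off the part for the primes of the index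
  obtain ⟨T, E₁, hTZ, hE₁E, hE₁n, hdec, hdisj, hE₁cop, hE₁n'⟩ :=
    CharExt.exists_split E r.ker hZE hZc (by rw [hEi, hrel]; exact hcop)
  haveI := hE₁n
  have hTc : T ≤ center X := hTZ.trans hZc
  haveI : T.Normal := ⟨fun t ht g => by
    rw [mem_center_iff.1 (hTc ht) g, mul_inv_cancel_right]; exact ht⟩
  letI := Fintype.ofFinite E₁
  let R : Subgroup E := E₁.subgroupOf E
  letI := Fintype.ofFinite R
  have hRirr : IsIrrCharacter R (fun x : R => β x) := by
    obtain ⟨k, ρ, hρ, hρc⟩ := hβ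
    refine ⟨k, ρ.comp R.subtype, ?_, by subst hρc; rfl⟩
    obtain ⟨hne, hforall⟩ := (Char.isIrreducible_iff_forall ρ).1 hρ
    refine (Char.isIrreducible_iff_forall _).2 ⟨hne, fun p hp => hforall p fun g v hv => ?_⟩
    obtain ⟨t, ht, g₁, hg₁, e'⟩ := hdec g g.2
    haveI := hρ
    obtain ⟨ω, hω⟩ := Char.exists_smul_of_mem_center ρ (z := (⟨t, hZE (hTZ ht)⟩ : E))
      (mem_center_iff.2 fun y => Subtype.ext (mem_center_iff.1 (hTc ht) y))
    rw [show g = ⟨t, hZE (hTZ ht)⟩ * ⟨g₁, hE₁E hg₁⟩ from Subtype.ext e'.symm, map_mul, hω,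
      Module.End.mul_apply]
    exact p.smul_mem ω (hp ⟨⟨g₁, hE₁E hg₁⟩, hg₁⟩ v hv)
  -- pass to the quotient by the central part
  let q := QuotientGroup.mk' T
  have hq : Function.Surjective q := QuotientGroup.mk'_surjective T
  have hq1 : ∀ t ∈ T, q t = 1 := fun t ht => (QuotientGroup.eq_one_iff t).2 ht
  let G' := E₁.map q
  letI := Fintype.ofFinite G'
  letI := Fintype.ofFinite (X ⧸ T)
  haveI : G'.Normal := hE₁n.map q hq
  have hqinj : Function.Injective (q.subgroupMap E₁) := (injective_iff_map_eq_one _).2 fun g hg =>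
    Subtype.ext (hdisj _ ((QuotientGroup.eq_one_iff _).1 (congrArg Subtype.val hg)) g.2)
  let i : E₁ ≃* G' := MulEquiv.ofBijective _ ⟨hqinj, MonoidHom.subgroupMap_surjective q E₁⟩
  have hEG' : ∀ g ∈ E, q g ∈ G' := fun g hg => by
    obtain ⟨t, ht, g₁, hg₁, rfl⟩ := hdec g hg
    rw [map_mul, hq1 t ht, one_mul]
    exact mem_map_of_mem q hg₁
  have hG'c : ∀ x, q x ∈ G' ↔ x ∈ E := fun x => by
    refine ⟨fun ⟨g, hg, hgx⟩ => ?_, hEG' x⟩
    have h1 := E.mul_mem (hE₁E hg) ((hTZ.trans hZE) (QuotientGroup.eq.1 hgx))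
    rwa [mul_inv_cancel_left] at h1
  have hG'i : G'.index = G.index := by
    rw [← hEi, ← index_comap_of_surjective G' hq]
    exact congrArg _ (Subgroup.ext hG'c)
  have hcardG' : Nat.card G' = Nat.card E₁ := Nat.card_congr i.symm.toEquiv
  obtain ⟨a₀, ha₀⟩ := (inferInstance : IsCyclic (X ⧸ E)).exists_generator
  obtain ⟨a₁, rfl⟩ := QuotientGroup.mk'_surjective E a₀
  obtain ⟨k, hk0, hk1⟩ := Nat.chineseRemainder hE₁n' 0 1
  let a := a₁ ^ k
  have haE : QuotientGroup.mk' E a = QuotientGroup.mk' E a₁ := by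
    have := pow_eq_pow_iff_modEq.2 (hk1.of_dvd
      (orderOf_dvd_natCard (QuotientGroup.mk' E a₁) |>.trans (index_eq_card E).symm.dvd))
    rw [pow_one, ← map_pow] at this
    exact this
  let S := zpowers (q a)
  have hSn : ∀ s ∈ S, orderOf s ∣ G'.index := by
    intro s hs
    refine ((Subgroup.orderOf_coe (⟨s, hs⟩ : S)).symm ▸ orderOf_dvd_natCard _ :
      orderOf s ∣ Nat.card S).trans ?_
    rw [Nat.card_zpowers]
    refine orderOf_dvd_of_pow_eq_one ?_
    have h1 : q a₁ ^ G'.index ∈ G' := G'.pow_index_mem _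
    obtain ⟨l, hl⟩ : Nat.card G' ∣ k := hcardG' ▸ Nat.modEq_zero_iff_dvd.1 hk0
    have h2 : (q a₁ ^ G'.index) ^ Nat.card G' = 1 :=
      congrArg Subtype.val (pow_card_eq_one' (x := (⟨_, h1⟩ : G')))
    show q (a₁ ^ k) ^ G'.index = 1
    rw [map_pow, ← pow_mul, mul_comm, pow_mul, hl, pow_mul, h2, one_pow]
  have hcopS : (Nat.card G').Coprime (Nat.card S) := by
    rw [hcardG', Nat.card_zpowers]
    refine hE₁n'.coprime_dvd_right ?_
    rw [hEi, ← hG'i]
    exact hSn _ (mem_zpowers _)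
  have htop : G' ⊔ S = ⊤ := by
    refine eq_top_iff.2 fun y _ => ?_
    obtain ⟨x, rfl⟩ := hq y
    obtain ⟨j, hj⟩ := mem_zpowers_iff.1 (ha₀ (QuotientGroup.mk' E x))
    rw [← haE, ← map_zpow] at hj
    have h1 : (a ^ j)⁻¹ * x ∈ E := QuotientGroup.eq.1 hj
    rw [show x = a ^ j * ((a ^ j)⁻¹ * x) from (mul_inv_cancel_left _ _).symm, map_mul, map_zpow]
    exact mul_mem (mem_sup_right (zpow_mem (mem_zpowers (q a)) j)) (mem_sup_left (hEG' _ h1))
  have h : CyclicCorr.Hyp G' S :=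
    ⟨fun s _ g hg => (inferInstance : G'.Normal).conj_mem g hg s, hcopS, htop, inferInstance⟩
  letI := Fintype.ofFinite S
  let C := G' ⊓ centralizer (S : Set (X ⧸ T))
  letI := Fintype.ofFinite C
  have hScard : Nat.card S = G.index := by rw [← h.index_eq, hG'i]
  have hn1 : 1 < Nat.card S := by
    rw [hScard]
    exact Nat.one_lt_iff_ne_zero_and_ne_one.2
      ⟨index_ne_zero_of_finite, fun h1 => hGlt (index_eq_one.1 h1)⟩
  have hdis := disjoint_of_coprime_natCard hcopS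
  -- commuting with a non-identity element of `S`
  have hkey : ∀ (t : S), t ≠ 1 → ∀ y ∈ G', (t : X ⧸ T) * y = y * t →
      y ∈ center (X ⧸ T) := by
    intro t ht y hy hty
    obtain ⟨g, hg, rfl⟩ := hy
    obtain ⟨x, hx⟩ := hq (t : X ⧸ T)
    have hxE : x ∉ E := fun hxE => ht (Subtype.ext (hdis.le_bot
      (mem_inf.2 ⟨hx ▸ hEG' x hxE, t.2⟩)))
    rw [← hx, ← map_mul, ← map_mul] at hty
    have h1 : r ((x * g)⁻¹ * (g * x)) = 1 := hTZ (QuotientGroup.eq.1 hty)
    obtain ⟨x₀, hx₀⟩ := QuotientGroup.mk'_surjective N (r x)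
    obtain ⟨g₀, hg₀, hg₀'⟩ : r g ∈ G.map (QuotientGroup.mk' N) := by
      have := hE₁E hg
      rwa [hEdef] at this
    have hx₀G : x₀ ∉ G := fun hc => hxE (by
      rw [hEdef, mem_comap, ← hx₀]; exact mem_map_of_mem _ hc)
    have hg₀N : g₀ ∈ N := hfrob x₀ hx₀G g₀ hg₀ (by
      apply (QuotientGroup.eq_one_iff _).1
      show QuotientGroup.mk' N (x₀ * g₀ * x₀⁻¹ * g₀⁻¹) = 1
      rw [map_mul, map_mul, map_mul, map_inv, map_inv, hx₀, hg₀']
      rw [map_mul, map_inv, map_mul, map_mul, inv_mul_eq_one] at h1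
      rw [h1, mul_inv_cancel_right, mul_inv_cancel])
    have hgz : g ∈ center X := hZc (show r g = 1 by
      rw [← hg₀']; exact (QuotientGroup.eq_one_iff g₀).2 hg₀N)
    refine mem_center_iff.2 fun z => ?_
    obtain ⟨z, rfl⟩ := hq z
    rw [← map_mul, ← map_mul, mem_center_iff.1 hgz z]
  obtain ⟨s₁, hs₁⟩ : ∃ s₁ : S, s₁ ≠ 1 := by
    haveI : Nontrivial S := Finite.one_lt_card_iff_nontrivial.1 hn1
    exact exists_ne 1
  have hCc : C ≤ center (X ⧸ T) := fun y hy =>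
    hkey s₁ hs₁ y (mem_inf.1 hy).1 (mem_centralizer_iff.1 (mem_inf.1 hy).2 _ s₁.2)
  have hfpf : ∀ t : S, t ≠ 1 → G' ⊓ centralizer ({(t : X ⧸ T)} : Set (X ⧸ T)) = C := by
    intro t ht
    refine le_antisymm (fun y hy => mem_inf.2 ⟨(mem_inf.1 hy).1, ?_⟩)
      (inf_le_inf_left _ (centralizer_le (Set.singleton_subset_iff.2 t.2)))
    exact mem_centralizer_iff.2 fun z _ => mem_center_iff.1 (hkey t ht y (mem_inf.1 hy).1
      (mem_centralizer_iff.1 (mem_inf.1 hy).2 _ rfl)) z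
  -- the character on the quotient
  let χ' : G' → ℂ := fun y => β ⟨(i.symm y : X), hE₁E (i.symm y).2⟩
  have hχ' : IsIrrCharacter G' χ' :=
    Char.isIrrCharacter_comp_mulEquiv (Char.isIrrCharacter_comp_mulEquiv hRirr
      (subgroupOfEquivOfLe hE₁E).symm) i.symm
  obtain ⟨χh, hres, -⟩ := CyclicCorr.exists_canonical h hχ' (fun s _ g g' e' => by
    obtain ⟨x, rfl⟩ := hq s
    obtain ⟨g, rfl⟩ := i.surjective g
    let g₂ : E₁ := ⟨x * g * x⁻¹, hE₁n.conj_mem g g.2 x⟩
    have h1 : g' = i g₂ := Subtype.ext (e'.trans (show q x * q g * (q x)⁻¹ = q (x * g * x⁻¹) by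
      rw [map_mul, map_mul, map_inv]))
    show β ⟨(i.symm g' : X), _⟩ = β ⟨(i.symm (i g) : X), _⟩
    rw [h1]
    simp only [MulEquiv.symm_apply_apply]
    exact hβinv x ⟨(g : X), hE₁E g.2⟩)
  obtain ⟨γ, ε, fS, hε, -, ϑ, hϑ, hdeg⟩ := CyclicCorr.fixedPointFree h inf_le_right hn1 hfpf χh.2
    ((funext hres : (fun y : G' => (χh : X ⧸ T → ℂ) y) = χ') ▸ hχ')
  have hγ : (γ : C → ℂ) 1 = 1 := Char.irr_degree_one_of_comm
    (fun u v => Subtype.ext (mem_center_iff.1 (hCc v.2) u)) γ.2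
  obtain ⟨d, hd⟩ := Char.isCharacter_one_nat hϑ
  have h1 := hdeg 1
  have hχ1 : χ' 1 = β 1 := congrArg β (Subtype.ext (by simp))
  rw [OneMemClass.coe_one, show (χh : X ⧸ T → ℂ) 1 = χ' 1 from hres 1, hχ1, hβ1, hd, hγ, mul_one,
    hScard] at h1
  have h2 : ((e : ℤ) : ℂ) = (((G.index : ℤ) * d + ε : ℤ) : ℂ) := by push_cast; exact h1
  have h3 : (e : ℤ) = (G.index : ℤ) * d + ε := by exact_mod_cast h2
  rcases hε with rfl | rfl
  · exact Or.inl ⟨d, by linarith⟩
  · exact Or.inr ⟨d, by linarith⟩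

end Cfsg.Agent.S4454
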