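import Cfsg.Agent.Char.ThompsonSum

set_option autoImplicit false
open Cfsg

namespace Cfsg.Agent.S4455

/-- Fix a prime p and a finite group G. Let s be the sum of χ(1)² over the irreducible characters χ of G whose degree is not divisible by p and whose determinantal order o(χ) is not divisible by p. Then the order of O^p(G), the subgroup generated by the elements of order prime to p, is congruent to s modulo p. -/
theorem result {G : Type*} [Group G] [Finite G] (p : ℕ) (hp : p.Prime) : (Nat.card (Cfsg.pResidual p G) : ℤ) ≡ (∑ᶠ χ ∈ {χ : Cfsg.IrrCharacter G | ¬ p ∣ Cfsg.charDegree (χ : G → ℂ) ∧ ¬ p ∣ Cfsg.detOrder (χ : G → ℂ)}, (Cfsg.charDegree (χ : G → ℂ) : ℤ) ^ 2) [ZMOD p] := by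
  classical
  haveI : Fact p.Prime := ⟨hp⟩
  letI := Fintype.ofFinite (Cfsg.IrrCharacter G)
  rw [finsum_mem_eq_sum_of_inter_support_eq
    (s := {χ : Cfsg.IrrCharacter G | ¬ p ∣ Cfsg.charDegree (χ : G → ℂ) ∧
      ¬ p ∣ Cfsg.detOrder (χ : G → ℂ)})
    (fun χ : Cfsg.IrrCharacter G => (Cfsg.charDegree (χ : G → ℂ) : ℤ) ^ 2)
    (t := Finset.univ.filter fun χ : Cfsg.IrrCharacter G =>
      ¬ p ∣ Cfsg.charDegree (χ : G → ℂ) ∧ ¬ p ∣ Cfsg.detOrder (χ : G → ℂ)) (by simp),
    ← ZMod.intCast_eq_intCast_iff]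
  push_cast
  exact Cfsg.Agent.Char.card_pResidual_modEq_sum

end Cfsg.Agent.S4455
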