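import Cfsg.Statements.S4458
import Cfsg.Agent.CharDeg.PrimeDegrees

set_option autoImplicit false
open Cfsg

namespace Cfsg.Agent.S4458

/-- If a finite group has exactly two irreducible character degrees, 1 and m with m ≠ 1, then its commutator subgroup is abelian. -/
theorem result {G : Type*} [Group G] [Finite G] (m : ℕ) (hcd : ∀ χ : Cfsg.IrrCharacter G, Cfsg.charDegree (χ : G → ℂ) = 1 ∨ Cfsg.charDegree (χ : G → ℂ) = m) (hm : ∃ χ : Cfsg.IrrCharacter G, Cfsg.charDegree (χ : G → ℂ) = m) (hm1 : m ≠ 1) : ∀ a ∈ commutator G, ∀ b ∈ commutator G, a * b = b * a := by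
  classical
  rcases Cfsg.Agent.CharDeg.two_degrees_structure hcd hm hm1 with ⟨A, hAn, hAc, hAi⟩ | ⟨p, e, hp, -, P, A, hPn, hAn, hPp, hAc, hd, hs⟩
  · haveI := hAn
    have hle : commutator G ≤ A := by
      have hm2 : 2 ≤ m := by
        obtain ⟨χ, hχ⟩ := hm
        have := Cfsg.Agent.CharDeg.deg_pos χ
        omega
      have hc : ∀ a b : G ⧸ A, a * b = b * a := Cfsg.Agent.CharDeg.comm_of_forall_linear fun β => by
        refine (Cfsg.Agent.CharDeg.degrees_quotient hcd A β).resolve_right fun h => ?_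
        have h1 := Cfsg.Agent.CharDeg.deg_sq_le_card β
        rw [h, ← Subgroup.index_eq_card, hAi] at h1
        nlinarith
      rw [commutator_def, Subgroup.commutator_le]
      intro a _ b _
      rw [← QuotientGroup.eq_one_iff, commutatorElement_def, QuotientGroup.mk_mul,
        QuotientGroup.mk_mul, QuotientGroup.mk_mul, QuotientGroup.mk_inv, QuotientGroup.mk_inv,
        mul_inv_eq_one, mul_inv_eq_iff_eq_mul]
      exact hc _ _
    exact fun a ha b hb => hAc a (hle ha) b (hle hb)
  · haveI : Fact p.Prime := ⟨hp⟩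
    have hZ := Cfsg.Agent.CharDeg.isPGroup_quotient_center_of_prod P A hPn hAn hPp hAc hd hs
    haveI : Group.IsNilpotent G := Group.of_quotient_center_nilpotent hZ.isNilpotent
    exact Cfsg.Agent.CharDeg.commutator_comm_of_monomial (fun {_} χ hχ =>
      Cfsg.Agent.CharInd.monomial_of_nilpotent (Nat.card G) G rfl χ hχ) hcd

end Cfsg.Agent.S4458
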