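import Cfsg.Statements.S4459
import Cfsg.Agent.CharDeg.PrimeDegrees

set_option autoImplicit false
open Cfsg

namespace Cfsg.Agent.S4459

/-- Let G be a non-abelian finite group and p a prime. Then the irreducible character degrees of G are exactly 1 and p if and only if either G has an abelian normal subgroup of index p or the centre of G has index p³. -/
theorem result {G : Type*} [Group G] [Finite G] (hG : ∃ a b : G, a * b ≠ b * a) (p : ℕ) (hp : p.Prime) : ((∀ χ : Cfsg.IrrCharacter G, Cfsg.charDegree (χ : G → ℂ) = 1 ∨ Cfsg.charDegree (χ : G → ℂ) = p) ∧ ∃ χ : Cfsg.IrrCharacter G, Cfsg.charDegree (χ : G → ℂ) = p) ↔ ((∃ A : Subgroup G, A.Normal ∧ (∀ a ∈ A, ∀ b ∈ A, a * b = b * a) ∧ A.index = p) ∨ (Subgroup.center G).index = p ^ 3) := by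
  classical
  haveI : Fact p.Prime := ⟨hp⟩
  have hex : ∃ χ : Cfsg.IrrCharacter G, Cfsg.charDegree (χ : G → ℂ) ≠ 1 := by
    by_contra hc
    push Not at hc
    obtain ⟨a, b, hab⟩ := hG
    exact hab (Cfsg.Agent.CharDeg.comm_of_forall_linear hc a b)
  constructor
  · rintro ⟨hcd, hm⟩
    rw [or_iff_not_imp_left]
    intro hno
    rcases Cfsg.Agent.CharDeg.two_degrees_structure hcd hm hp.ne_one with h | ⟨q, e, hq, hqe, P, A, hPn, hAn, hPp, hAc, hd, hs⟩
    · exact absurd h hno
    · have hqp : p = q := (Nat.prime_dvd_prime_iff_eq hp hq).1 (hp.dvd_of_dvd_pow (n := e) (dvd_of_eq hqe))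
      subst hqp
      exact Cfsg.Agent.CharDeg.center_index_eq_cube
        (Cfsg.Agent.CharDeg.isPGroup_quotient_center_of_prod P A hPn hAn hPp hAc hd hs) hcd hG hno
  · intro h
    have hcd : ∀ χ : Cfsg.IrrCharacter G,
        Cfsg.charDegree (χ : G → ℂ) = 1 ∨ Cfsg.charDegree (χ : G → ℂ) = p := by
      intro χ
      rcases h with ⟨A, hAn, hAc, hAi⟩ | hZ
      · haveI := hAn
        have h1 := Cfsg.Agent.CharDeg.charDegree_dvd_index A hAc χ
        rw [hAi] at h1
        exact (Nat.dvd_prime hp).1 h1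
      · have h1 := Cfsg.Agent.CharDeg.charDegree_dvd_index (Subgroup.center G)
          (fun a _ b hb => Subgroup.mem_center_iff.1 hb a) χ
        have h2 := Cfsg.Agent.CharDeg.deg_sq_mul_center_le χ
        rw [← (Subgroup.center G).card_mul_index, hZ, mul_comm] at h2
        have h3 := Nat.le_of_mul_le_mul_left h2 Nat.card_pos
        rw [hZ] at h1
        obtain ⟨j, -, hj⟩ := (Nat.dvd_prime_pow hp).1 h1
        rw [hj, ← pow_mul] at h3
        have := (Nat.pow_le_pow_iff_right hp.one_lt).1 h3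
        rcases (show j = 0 ∨ j = 1 by omega) with rfl | rfl
        · exact Or.inl (by simpa using hj)
        · exact Or.inr (by simpa using hj)
    obtain ⟨χ, hχ⟩ := hex
    exact ⟨hcd, χ, (hcd χ).resolve_left hχ⟩

end Cfsg.Agent.S4459
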