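import Cfsg.Statements.S4460
import Cfsg.Agent.CharDeg.ThreeDegrees

set_option autoImplicit false
open Cfsg

namespace Cfsg.Agent.S4460

/-- A finite group with exactly three distinct irreducible character degrees is solvable of derived length at most 3: its third derived subgroup is trivial. -/
theorem result {G : Type*} [Group G] [Finite G] (hcd : Nat.card {n : ℕ // ∃ χ : Cfsg.IrrCharacter G, Cfsg.charDegree (χ : G → ℂ) = n} = 3) : derivedSeries G 3 = ⊥ := by
  classical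
  have h1 : (1 : ℕ) ∈ {n : ℕ | ∃ χ : Cfsg.IrrCharacter G, Cfsg.charDegree (χ : G → ℂ) = n} :=
    ⟨⟨fun _ => 1, Cfsg.Agent.Char.isIrrCharacter_const_one⟩, by simp [Cfsg.charDegree]⟩
  have hcard : ({n : ℕ | ∃ χ : Cfsg.IrrCharacter G, Cfsg.charDegree (χ : G → ℂ) = n} \ {1}).ncard = 2 := by
    rw [Set.ncard_sdiff_singleton_of_mem h1, ← Nat.card_coe_set_eq]
    exact Nat.sub_eq_of_eq_add hcd
  obtain ⟨a, b, -, hab⟩ := Set.ncard_eq_two.1 hcard
  refine Cfsg.Agent.CharDeg.derived_three_eq_bot (Nat.card G) G le_rfl a b fun χ => ?_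
  by_cases h : Cfsg.charDegree (χ : G → ℂ) = 1
  · exact Or.inl h
  · have hm : Cfsg.charDegree (χ : G → ℂ) ∈
        {n : ℕ | ∃ χ : Cfsg.IrrCharacter G, Cfsg.charDegree (χ : G → ℂ) = n} \ {1} := ⟨⟨χ, rfl⟩, h⟩
    rw [hab] at hm
    exact Or.inr hm

end Cfsg.Agent.S4460
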