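import Cfsg.Statements.S4461
import Cfsg.Agent.CharExt.Gallagher
import Cfsg.Agent.CharExt.RelativeM
import Cfsg.Agent.CharDeep.Mult
import Cfsg.Agent.Char.Kernel
import Cfsg.Agent.Cores.Fitting

set_option autoImplicit false
set_option linter.style.haveILetI false
open Cfsg Subgroup Cfsg.Agent
open scoped Classical ComplexConjugate commutatorElement

namespace Cfsg.Agent.S4461

universe u

/-- Either some character of larger degree has a smaller kernel, or `χ` vanishes on `H` off its
core. -/
theorem larger_or_vanish {G : Type u} [Group G] [Fintype G] (χ : IrrCharacter G) (K : Subgroup G)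
    [K.Normal] (hK : ∀ g : G, g ∈ K ↔ (χ : G → ℂ) g = (χ : G → ℂ) 1) (H : Subgroup G)
    (hmax : IsCoatom H) (hKH : H ⊔ K = ⊤) :
    (∃ ψ : IrrCharacter G, charDegree (χ : G → ℂ) < charDegree (ψ : G → ℂ) ∧
      ∃ L : Subgroup G, (∀ g : G, g ∈ L ↔ (ψ : G → ℂ) g = (ψ : G → ℂ) 1) ∧ L < K) ∨
    ∀ h ∈ H, (χ : G → ℂ) h ≠ 0 → h ∈ H.normalCore := by
  classical
  letI := Fintype.ofFinite H
  have hKnot : ¬ K ≤ H := fun hle => hmax.1 (by rw [← hKH, sup_eq_left.2 hle])
  let θ : IrrCharacter H := ⟨fun h : H => (χ : G → ℂ) h,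
    CharDeep.irr_res_of_sup χ.2 K H (fun r hr => (hK r).1 hr) hKH⟩
  have hθ1 : (θ : H → ℂ) 1 = (χ : G → ℂ) 1 := by simp [θ]
  have hresH : ∀ ψ : IrrCharacter G, IsCharacter H (fun h : H => (ψ : G → ℂ) h) := fun ψ =>
    Char.isCharacter_restrict (Char.isCharacter_of_irr ψ.2) H
  have hdeg : ∀ {f : G → ℂ} {d : ℕ}, f 1 = d → charDegree f = d := fun h => by
    simp [charDegree, h]
  by_cases hbig : ∃ ψ : IrrCharacter G,
      classInner (fun h : H => (ψ : G → ℂ) h) (θ : H → ℂ) ≠ 0 ∧
      (ψ : G → ℂ) 1 ≠ (χ : G → ℂ) 1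
  · left
    obtain ⟨ψ, hψθ, hψ1⟩ := hbig
    obtain ⟨a, ha0, ha⟩ := Char.irr_one_pos χ.2
    obtain ⟨b, hb0, hb⟩ := Char.irr_one_pos ψ.2
    obtain ⟨m, hm, hm'⟩ := Char.isCharacter_exists_coeff (hresH ψ)
    choose d hd0 hd using fun φ : IrrCharacter H => Char.irr_one_pos φ.2
    have hexp : ∀ x : H, (ψ : G → ℂ) x = ∑ φ, (m φ : ℂ) * (φ : H → ℂ) x := fun x => by
      have := congrFun hm x
      simpa [Finset.sum_apply, nsmul_eq_mul] using this
    have hmθ : 0 < m θ := by
      refine Nat.pos_of_ne_zero fun h0 => hψθ ?_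
      rw [hm', h0, Nat.cast_zero]
    have hbsum : b = ∑ φ, m φ * d φ := by
      have := hexp 1
      rw [OneMemClass.coe_one, hb] at this
      simp only [hd] at this
      exact_mod_cast this
    have hda : d θ = a := Nat.cast_injective (R := ℂ) (by rw [← hd, hθ1, ha])
    have hab : a ≤ b := by
      rw [hbsum, ← hda]
      exact (Nat.le_mul_of_pos_left _ hmθ).trans
        (Finset.single_le_sum (f := fun φ => m φ * d φ) (fun _ _ => Nat.zero_le _)
          (Finset.mem_univ θ))
    have hne : a ≠ b := fun e => hψ1 (by rw [ha, hb, e])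
    refine ⟨ψ, by rw [hdeg ha, hdeg hb]; omega, ?_⟩
    obtain ⟨L, hLn, hL⟩ := Char.isCharacter_exists_kernel (Char.isCharacter_of_irr ψ.2)
    have hLH : L ≤ H := by
      by_contra hc
      have htop : H ⊔ L = ⊤ := hmax.2 _ (left_lt_sup.2 hc)
      have hirr := CharDeep.irr_res_of_sup ψ.2 L H (fun r hr => (hL r).1 hr) htop
      by_cases he : (fun h : H => (ψ : G → ℂ) h) = (θ : H → ℂ)
      · exact hψ1 (by simpa [θ] using congrFun he 1)
      · exact hψθ (Char.classInner_irr_ne hirr θ.2 he)
    refine ⟨L, hL, lt_of_le_of_ne (fun g hg => (hK g).2 ?_) fun e => hKnot (e ▸ hLH)⟩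
    -- `g` acts trivially on the constituent
    let x : H := ⟨g, hLH hg⟩
    have hg1 : ∑ φ, (m φ : ℝ) * ((φ : H → ℂ) x).re = ∑ φ, (m φ : ℝ) * d φ := by
      have h1 := congrArg Complex.re ((hexp x).symm.trans (((hL g).1 hg).trans
        ((congrArg (ψ : G → ℂ) (OneMemClass.coe_one H).symm).trans (hexp 1))))
      simpa [hd, Complex.re_sum, Complex.mul_re] using h1
    have hle : ∀ φ : IrrCharacter H, ‖(φ : H → ℂ) x‖ ≤ d φ := fun φ => by
      have h1 := Char.isCharacter_norm_le (Char.isCharacter_of_irr φ.2) x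
      simpa [hd] using h1
    have hre := (Finset.sum_eq_sum_iff_of_le fun φ _ => mul_le_mul_of_nonneg_left
      ((Complex.re_le_norm _).trans (hle φ)) (Nat.cast_nonneg (m φ))).1 hg1 θ (Finset.mem_univ θ)
    have hre' : ((θ : H → ℂ) x).re = a := by
      rw [← hda]
      exact mul_left_cancel₀ (Nat.cast_ne_zero.2 hmθ.ne') hre
    have him : ((θ : H → ℂ) x).im = 0 := by
      have h1 := Complex.sq_norm ((θ : H → ℂ) x)
      rw [Complex.normSq_apply, hre'] at h1
      have h2 := hle θ
      rw [hda] at h2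
      nlinarith [norm_nonneg ((θ : H → ℂ) x), mul_self_nonneg ((θ : H → ℂ) x).im]
    show (θ : H → ℂ) x = _
    rw [ha]
    exact Complex.ext (by simp [hre']) (by simp [him])
  · right
    push Not at hbig
    intro h hh hne
    have hT := CharInd.isCharacter_indFun H (Char.isCharacter_of_irr θ.2)
    obtain ⟨m, hm, hm'⟩ := Char.isCharacter_exists_coeff hT
    have hval : ∀ ψ : IrrCharacter G, m ψ ≠ 0 → ∀ x : H,
        (ψ : G → ℂ) x = (θ : H → ℂ) x := by
      intro ψ hψ
      have h1 : classInner (fun y : H => (ψ : G → ℂ) y) (θ : H → ℂ) ≠ 0 := fun h0 => by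
        have h2 := hm' ψ
        rw [CharInd.classInner_indFun_left H _ (Char.irr_isClassFunction ψ.2),
          ← Char.classInner_conj, h0, map_zero] at h2
        exact hψ (Nat.cast_eq_zero.1 h2.symm)
      exact fun x => congrFun (CharDeep.eq_of_inner_of_degree (hresH ψ) θ.2 h1 (by
        rw [OneMemClass.coe_one, hθ1]; exact hbig ψ h1)) x
    have hTh : ∀ x : H, indFun H (θ : H → ℂ) x = (H.index : ℂ) * (θ : H → ℂ) x := by
      intro x
      have e : ∀ y : H, indFun H (θ : H → ℂ) y = (∑ ψ, (m ψ : ℂ)) * (θ : H → ℂ) y := by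
        intro y
        rw [congrFun hm y, Finset.sum_apply, Finset.sum_mul]
        refine Finset.sum_congr rfl fun ψ _ => ?_
        rw [Pi.smul_apply, nsmul_eq_mul]
        rcases Nat.eq_zero_or_pos (m ψ) with h0 | h0
        · simp [h0]
        · rw [hval ψ h0.ne']
      have h1 := e 1
      rw [OneMemClass.coe_one, CharInd.indFun_one_apply] at h1
      rw [e, mul_right_cancel₀ (Char.irr_one_ne_zero θ.2) h1]
    have key := hTh ⟨h, hh⟩
    rw [CharInd.indFun_apply] at key
    have hext : ∀ x : G, extendByZero H (θ : H → ℂ) (x⁻¹ * h * x) =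
        if x⁻¹ * h * x ∈ H then (χ : G → ℂ) h else 0 := by
      intro x
      split_ifs with hx
      · rw [CharInd.extendByZero_mem H _ hx]
        show (χ : G → ℂ) (x⁻¹ * h * x) = _
        simpa using Char.irr_isClassFunction χ.2 h x⁻¹
      · exact CharInd.extendByZero_notMem H _ hx
    simp only [hext, ← Finset.sum_filter, Finset.sum_const, nsmul_eq_mul] at key
    change _ = (H.index : ℂ) * (χ : G → ℂ) h at key
    rw [inv_mul_eq_iff_eq_mul₀ (Nat.cast_ne_zero.2 Nat.card_pos.ne'), ← mul_assoc,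
      ← Nat.cast_mul, H.card_mul_index] at key
    have h2 := mul_right_cancel₀ hne key
    rw [Nat.cast_inj, Nat.card_eq_fintype_card] at h2
    have hall := Finset.eq_univ_of_card _ h2
    intro y
    have := Finset.mem_univ y⁻¹
    rw [← hall, Finset.mem_filter, inv_inv] at this
    exact this.2

/-- Frattini: a Sylow subgroup of `M` inside the core of `H` contradicts `N(P) ≤ H`. -/
theorem frattini_false {G : Type u} [Group G] [Finite G] {p : ℕ} [Fact p.Prime] (M H : Subgroup G)
    [M.Normal] (hH : H ≠ ⊤) (P : Sylow p M) (hcore : M ⊓ H ≤ H.normalCore)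
    (hN : normalizer (((P : Subgroup M).map M.subtype : Subgroup G) : Set G) ≤ H) : False := by
  set M' := M ⊓ H.normalCore
  have hP : (P : Subgroup M).map M.subtype ≤ M' := fun x hx => by
    have hxM : x ∈ M := map_subtype_le _ hx
    exact mem_inf.2 ⟨hxM, hcore (mem_inf.2 ⟨hxM, hN (le_normalizer hx)⟩)⟩
  have hM' : M' ≤ M := inf_le_left
  let P' : Sylow p M' := P.comapOfInjective (inclusion hM') (inclusion_injective hM')
    fun x hx => ⟨⟨(x : G), hP (mem_map_of_mem M.subtype hx)⟩, Subtype.ext rfl⟩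
  have hmap : (P' : Subgroup M').map M'.subtype = (P : Subgroup M).map M.subtype := by
    ext x
    refine ⟨?_, fun hx => ?_⟩
    · rintro ⟨y, hy, rfl⟩
      exact ⟨inclusion hM' y, hy, rfl⟩
    · obtain ⟨y, hy, rfl⟩ := hx
      exact ⟨⟨y, hP (mem_map_of_mem M.subtype hy)⟩,
        (show inclusion hM' ⟨y, _⟩ ∈ (P : Subgroup M) from hy), rfl⟩
  have h := Sylow.normalizer_sup_eq_top P'
  rw [hmap] at h
  exact hH (eq_top_iff.2 (h ▸ sup_le hN (inf_le_right.trans H.normalCore_le)))

/-- Let χ be an irreducible character of the finite group G and K its kernel (the elements where χ takes the value χ(1)). Suppose either that K is not contained in the Fitting subgroup F(G), or that K = F(G) with G/K solvable and K ≠ G. Then there is an irreducible character ψ of G with ψ(1) > χ(1) whose kernel is properly contained in K. -/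
theorem result {G : Type*} [Group G] [Finite G] (χ : Cfsg.IrrCharacter G) (K : Subgroup G) [K.Normal] (hK : (∀ g : G, g ∈ K ↔ (χ : G → ℂ) g = (χ : G → ℂ) 1)) (h : ¬ K ≤ Cfsg.fittingSubgroup G ∨ (K = Cfsg.fittingSubgroup G ∧ Group.IsSolvable (G ⧸ K) ∧ K ≠ ⊤)) : ∃ ψ : Cfsg.IrrCharacter G, Cfsg.charDegree (χ : G → ℂ) < Cfsg.charDegree (ψ : G → ℂ) ∧ ∃ L : Subgroup G, (∀ g : G, g ∈ L ↔ (ψ : G → ℂ) g = (ψ : G → ℂ) 1) ∧ L < K := by
  letI := Fintype.ofFinite G
  have hmain : ∀ (M : Subgroup G) [M.Normal], K ≤ M → ¬ Group.IsNilpotent M →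
      (∀ (p : ℕ) (_ : Fact p.Prime) (P : Sylow p M), ¬ (P : Subgroup M).Normal →
        normalizer (((P : Subgroup M).map M.subtype : Subgroup G) : Set G) ⊔ K = ⊤) →
      (∀ H : Subgroup G, H ⊔ K = ⊤ → (∀ h ∈ H, (χ : G → ℂ) h ≠ 0 → h ∈ H.normalCore) →
        M ⊓ H ≤ H.normalCore) →
      ∃ ψ : IrrCharacter G, charDegree (χ : G → ℂ) < charDegree (ψ : G → ℂ) ∧
        ∃ L : Subgroup G, (∀ g : G, g ∈ L ↔ (ψ : G → ℂ) g = (ψ : G → ℂ) 1) ∧ L < K := by
    intro M _ hKM hnil hsup hcore
    obtain ⟨p, hp, P, hP⟩ : ∃ (p : ℕ) (_ : Fact p.Prime) (P : Sylow p M),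
        ¬ (P : Subgroup M).Normal := by
      by_contra hc
      push Not at hc
      exact hnil (((Group.isNilpotent_of_finite_tfae (G := M)).out 0 3).2 fun p hp P => hc p hp P)
    have hne : normalizer (((P : Subgroup M).map M.subtype : Subgroup G) : Set G) ≠ ⊤ := by
      intro htop
      apply hP
      have hn := normalizer_eq_top_iff.1 htop
      have h1 := hn.comap M.subtype
      rwa [comap_map_eq_self_of_injective M.subtype_injective] at h1
    obtain ⟨H, hH, hNH⟩ := (eq_top_or_exists_le_coatom _).resolve_left hne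
    have hHK : H ⊔ K = ⊤ := eq_top_iff.2 (hsup p hp P hP ▸ sup_le_sup_right hNH K)
    exact (larger_or_vanish χ K hK H hH hHK).resolve_right fun hv =>
      (frattini_false M H hH.1 P (hcore H hHK hv) hNH).elim
  rcases h with h | ⟨hKF, hsolv, hKtop⟩
  · refine hmain K le_rfl (fun hn => h (le_sSup ⟨inferInstance, hn⟩))
      (fun p _ P _ => Sylow.normalizer_sup_eq_top P) fun H _ hv x hx => hv x (mem_inf.1 hx).2 ?_
    rw [(hK x).1 (mem_inf.1 hx).1]
    exact Char.irr_one_ne_zero χ.2
  · haveI := hsolv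
    obtain ⟨M, ⟨hMn, hKM⟩, hMmin⟩ := ({M : Subgroup G | M.Normal ∧ K < M}).toFinite.exists_minimal
      ⟨⊤, show (⊤ : Subgroup G).Normal ∧ K < ⊤ from ⟨inferInstance, lt_top_iff_ne_top.2 hKtop⟩⟩
    haveI := hMn
    have hchief : ∀ A : Subgroup G, A.Normal → K ≤ A → A ≤ M → A ≠ K → A = M := fun A hA hKA hAM hne =>
      le_antisymm hAM (hMmin ⟨hA, lt_of_le_of_ne hKA (Ne.symm hne)⟩ hAM)
    have hab : ⁅M, M⁆ ≤ K := by
      by_contra hc
      have e := hchief (⁅M, M⁆ ⊔ K) inferInstance le_sup_right
        (sup_le (commutator_le_self M) hKM.le) (fun e => hc (e ▸ le_sup_left))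
      have h1 : M.map (QuotientGroup.mk' K) ≤
          ⁅M.map (QuotientGroup.mk' K), M.map (QuotientGroup.mk' K)⁆ := by
        rw [← map_commutator]
        conv_lhs => rw [← e]
        rw [Subgroup.map_sup, QuotientGroup.map_mk'_self, sup_bot_eq]
      have h2 := CharExt.eq_bot_of_le_commutator h1
      rw [Subgroup.map_eq_bot_iff, QuotientGroup.ker_mk'] at h2
      exact not_le_of_gt hKM h2
    refine hmain M hKM.le (fun hn => not_le_of_gt hKM (hKF ▸ le_sSup ⟨hMn, hn⟩)) ?_ ?_
    · intro p _ P hP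
      set Q := (P : Subgroup M).map M.subtype
      have hQK : ¬ Q ≤ K := by
        intro hle
        apply hP
        have hnil : Group.IsNilpotent K := by
          rw [hKF]
          exact Cores.fittingSubgroup_isNilpotent
        let P' : Sylow p K := P.comapOfInjective (inclusion hKM.le) (inclusion_injective _)
          fun x hx => ⟨⟨(x : G), hle (mem_map_of_mem M.subtype hx)⟩, Subtype.ext rfl⟩
        haveI : (P' : Subgroup K).Normal :=
          (((Group.isNilpotent_of_finite_tfae (G := K)).out 0 3 rfl rfl).1 hnil) p inferInstance P'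
        haveI : (P' : Subgroup K).Characteristic := P'.characteristic_of_normal inferInstance
        have hmap : (P' : Subgroup K).map K.subtype = Q := by
          ext x
          refine ⟨?_, fun hx => ?_⟩
          · rintro ⟨y, hy, rfl⟩
            exact ⟨inclusion hKM.le y, hy, rfl⟩
          · obtain ⟨y, hy, rfl⟩ := hx
            exact ⟨⟨y, hle (mem_map_of_mem M.subtype hy)⟩,
              (show inclusion hKM.le ⟨y, _⟩ ∈ (P : Subgroup M) from hy), rfl⟩
        have hQn : Q.Normal := hmap ▸ inferInstance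
        have h1 := hQn.comap M.subtype
        rwa [comap_map_eq_self_of_injective M.subtype_injective] at h1
      have hfr := Sylow.normalizer_sup_eq_top P
      have hQKn : (Q ⊔ K).Normal := by
        refine normalizer_eq_top_iff.1 (eq_top_iff.2 (hfr ▸ sup_le ?_ fun m hm => ?_))
        · exact (le_inf le_rfl le_normalizer_of_normal).trans
            (normalizer_inf_normalizer_le_normalizer_sup Q K)
        · have hc : ∀ y ∈ Q ⊔ K, m * y * m⁻¹ ∈ Q ⊔ K := fun y hy => by
            have hyM : y ∈ M := sup_le (map_subtype_le _) hKM.le hy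
            rw [show m * y * m⁻¹ = ⁅m, y⁆ * y by rw [commutatorElement_def]; group]
            exact mul_mem (mem_sup_right (hab (commutator_mem_commutator hm hyM))) hy
          refine mem_normalizer_iff.2 fun y => ⟨hc y, fun hy => ?_⟩
          have hyM : m * y * m⁻¹ ∈ M := sup_le (map_subtype_le _) hKM.le hy
          have hcom : m⁻¹ * (m * y * m⁻¹) * m = ⁅m⁻¹, m * y * m⁻¹⁆ * (m * y * m⁻¹) := by
            rw [commutatorElement_def]; group
          have := mul_mem (mem_sup_right (S := Q)
            (hab (commutator_mem_commutator (inv_mem hm) hyM))) hy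
          rw [← hcom] at this
          simpa [mul_assoc] using this
      have hQKM : Q ⊔ K = M := hchief _ hQKn le_sup_right
        (sup_le (map_subtype_le _) hKM.le) fun e => hQK (e ▸ le_sup_left)
      refine eq_top_iff.2 (hfr ▸ sup_le le_sup_left ?_)
      conv_lhs => rw [← hQKM]
      exact sup_le_sup_right le_normalizer K
    · intro H hHK hv
      have hKN : ∀ x ∈ K, x ∈ H → x ∈ H.normalCore := fun x hxK hxH => hv x hxH (by
        rw [(hK x).1 hxK]; exact Char.irr_one_ne_zero χ.2)
      set A := (H.normalCore ⊔ K) ⊓ M with hA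
      by_cases hAK : A = K
      · exfalso
        have hvan : ∀ x ∈ M, x ∉ K → (χ : G → ℂ) x = 0 := by
          intro x hxM hxK
          by_contra hne
          have hx : x ∈ H ⊔ K := hHK ▸ mem_top x
          rw [mem_sup_of_normal_right] at hx
          obtain ⟨y, hy, k, hk, rfl⟩ := hx
          have hyx : (χ : G → ℂ) y = (χ : G → ℂ) (y * k) := by
            rw [Char.isClassFunction_mul_comm (Char.irr_isClassFunction χ.2) y k,
              (Char.isCharacter_mul_of_mem_ker (Char.isCharacter_of_irr χ.2) ((hK k).1 hk) y).1]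
          apply hxK
          rw [← hAK]
          exact mem_inf.2 ⟨mul_mem (mem_sup_left (hv y hy (hyx ▸ hne))) (mem_sup_right hk), hxM⟩
        letI := Fintype.ofFinite M
        have hav : CharExt.avgN M (χ : G → ℂ) 1 ≠ 0 := by
          unfold CharExt.avgN
          rw [Finset.sum_congr rfl fun (x : M) _ => show (χ : G → ℂ) ((x : G) * 1) =
            if (x : G) ∈ K then (χ : G → ℂ) 1 else 0 by
              rw [mul_one]
              split_ifs with hx
              · exact (hK x).1 hx
              · exact hvan x x.2 hx, ← Finset.sum_filter, Finset.sum_const, nsmul_eq_mul]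
          refine mul_ne_zero (inv_ne_zero (Nat.cast_ne_zero.2 Nat.card_pos.ne'))
            (mul_ne_zero (Nat.cast_ne_zero.2 ?_) (Char.irr_one_ne_zero χ.2))
          exact Finset.card_ne_zero_of_mem (a := (1 : M)) (Finset.mem_filter.2
            ⟨Finset.mem_univ _, by rw [OneMemClass.coe_one]; exact K.one_mem⟩)
        refine not_le_of_gt hKM fun x hx => (hK x).2 ?_
        have h1 := congrFun (CharExt.avgN_irr M χ.2) ((⟨x, hx⟩ : M) * 1)
        have h2 := congrFun (CharExt.avgN_irr M χ.2) 1
        rw [CharExt.avgN_mul] at h1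
        have h3 := h1.symm.trans h2
        simp only [Pi.smul_apply, smul_eq_mul, mul_one] at h3
        exact mul_left_cancel₀ (div_ne_zero hav (Char.irr_one_ne_zero χ.2)) h3
      · have hle : K ≤ A := le_inf le_sup_right hKM.le
        have hAM := hchief A inferInstance hle inf_le_right hAK
        intro x hx
        obtain ⟨hxM, hxH⟩ := mem_inf.1 hx
        have hxA : x ∈ H.normalCore ⊔ K := inf_le_left (a := H.normalCore ⊔ K) (hAM.symm ▸ hxM)
        rw [mem_sup_of_normal_right] at hxA
        obtain ⟨y, hy, k, hk, rfl⟩ := hxA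
        refine mul_mem hy (hKN k hk ?_)
        have := mul_mem (inv_mem (H.normalCore_le hy)) hxH
        rwa [inv_mul_cancel_left] at this

end Cfsg.Agent.S4461
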