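import Cfsg.Statements.S4462
import Cfsg.Agent.CharDeg.Garrison

set_option autoImplicit false
open Cfsg

namespace Cfsg.Agent.S4462

/-- Let G be a finite solvable group with exactly n distinct irreducible character degrees. Then G has normal subgroups 1 = N₀ ≤ N₁ ≤ ⋯ ≤ Nₙ = G with every quotient N_{i+1}/N_i nilpotent (the nilpotent length of G is at most n). -/
theorem result {G : Type*} [Group G] [Finite G] (hsolv : Group.IsSolvable G) (n : ℕ) (hcd : Nat.card {d : ℕ // ∃ χ : Cfsg.IrrCharacter G, Cfsg.charDegree (χ : G → ℂ) = d} = n) : ∃ N : Fin (n + 1) → Subgroup G, N 0 = ⊥ ∧ N (Fin.last n) = ⊤ ∧ Monotone N ∧ (∀ i, (N i).Normal) ∧ ∀ i : Fin n, ∀ h : (N i.castSucc).subgroupOf (N i.succ) |>.Normal, Group.IsNilpotent (↥(N i.succ) ⧸ (N i.castSucc).subgroupOf (N i.succ)) := by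
  obtain ⟨f, h0, ht, hm, hn, hf⟩ :=
    Cfsg.Agent.CharDeg.hasNilSeries_card_degrees (Nat.card G) G rfl hsolv
  have hD : {d : ℕ | ∃ χ : Cfsg.IrrCharacter G, Cfsg.charDegree (χ : G → ℂ) = d}.ncard = n := by
    rw [← Nat.card_coe_set_eq]; exact hcd
  refine ⟨fun j => f (j : ℕ), by simpa using h0, ?_, fun i j hij => hm hij, fun i => hn _, ?_⟩
  · exact ht _ (by rw [hD, Fin.val_last])
  intro i hi
  obtain ⟨c, hc⟩ := hf i
  refine Subgroup.nilpotent_iff_lowerCentralSeries.2 ⟨c, ?_⟩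
  rw [← Subgroup.map_top_of_surjective _ (QuotientGroup.mk'_surjective
    ((f (i.castSucc : Fin (n + 1))).subgroupOf (f (i.succ : Fin (n + 1))))),
    ← Subgroup.map_lowerCentralSeries, Subgroup.map_eq_bot_iff, QuotientGroup.ker_mk']
  intro x hx
  rw [Subgroup.mem_subgroupOf]
  have h1 : (x : G) ∈ (f (i.succ : Fin (n + 1))).lowerCentralSeries c := by
    rw [← Subgroup.top_subtype_lowerCentralSeries]
    exact Subgroup.mem_map_of_mem _ hx
  simp only [Fin.val_castSucc, Fin.val_succ] at h1 ⊢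
  exact hc h1

end Cfsg.Agent.S4462
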