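import Cfsg.Statements.S4467
import Cfsg.Agent.LinearBound.Winter

set_option autoImplicit false
open Cfsg

namespace Cfsg.Agent.S4467

/-- Let the finite solvable group G have a faithful irreducible character of degree n, and suppose that for the prime p a Sylow p-subgroup of G is not normal. Then n is divisible by a prime power q > 1 with q congruent to −1, 0 or 1 modulo p. -/
theorem result {G : Type*} [Group G] [Finite G] (χ : Cfsg.IrrCharacter G) (hfaith : ∀ g : G, (χ : G → ℂ) g = (χ : G → ℂ) 1 → g = 1) (n : ℕ) (hn : Cfsg.charDegree (χ : G → ℂ) = n) (hsolv : Group.IsSolvable G) (p : ℕ) (hp : p.Prime) (P : Sylow p G) (hP : ¬ (P : Subgroup G).Normal) : ∃ q : ℕ, IsPrimePow q ∧ q ∣ n ∧ ((q : ℤ) ≡ -1 [ZMOD p] ∨ (q : ℤ) ≡ 0 [ZMOD p] ∨ (q : ℤ) ≡ 1 [ZMOD p]) := by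
  haveI := Fact.mk hp
  have hc := Cfsg.Agent.Char.isCharacter_of_irr χ.2
  by_cases h1 : n = 1
  · exfalso
    obtain ⟨f, hf⟩ := Cfsg.Agent.Char.exists_monoidHom_of_degree_one hc
      (by rw [LinearBound.apply_one hc, hn, h1, Nat.cast_one])
    refine hP ⟨fun y hy g => ?_⟩
    have h2 : g * y * g⁻¹ * y⁻¹ = 1 := hfaith _ (by
      rw [hf, hf]
      simp only [map_mul, map_inv, map_one, mul_comm (f g) (f y), mul_inv_cancel_right,
        mul_inv_cancel])
    rw [mul_inv_eq_one.1 h2]
    exact hy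
  · by_contra hcon
    have hgood : LinearBound.GoodDeg p n := fun q hq hqn h => hcon ⟨q, hq, hqn, h⟩
    have hp2 : p ≠ 2 := by
      rintro rfl
      have hq := Nat.minFac_prime h1
      refine hgood _ hq.isPrimePow (Nat.minFac_dvd n) ?_
      rcases Int.emod_two_eq (n.minFac : ℤ) with h | h
      · exact Or.inr (Or.inl h)
      · exact Or.inr (Or.inr h)
    exact hP (LinearBound.sylow_normal_of_goodDeg hp2 G hsolv _ χ.2 hfaith (hn.symm ▸ hgood) P)

end Cfsg.Agent.S4467
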