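import Cfsg.Statements.S4471
import Cfsg.Agent.LinearBound.DegreeLtTwoP

set_option autoImplicit false
open Cfsg

namespace Cfsg.Agent.S4471

/-- Let p ≥ 7 be a prime and let the finite group G have a faithful irreducible character of degree n with n < 2p and n ≠ p. If the Sylow p-subgroups of G are non-abelian then p² does not divide the index of O_p(G) in G; consequently, in every case G/O_p(G) has abelian Sylow p-subgroups. -/
theorem result {G : Type*} [Group G] [Finite G] (χ : Cfsg.IrrCharacter G) (hfaith : ∀ g : G, (χ : G → ℂ) g = (χ : G → ℂ) 1 → g = 1) (n : ℕ) (hn : Cfsg.charDegree (χ : G → ℂ) = n) (p : ℕ) (hp : p.Prime) (h7 : 7 ≤ p) (hn2 : n < 2 * p) (hnp : n ≠ p) : ((∃ P : Sylow p G, ∃ x ∈ (P : Subgroup G), ∃ y ∈ (P : Subgroup G), x * y ≠ y * x) → ¬ p ^ 2 ∣ (Cfsg.pCore p G).index) ∧ ∀ Q : Sylow p (G ⧸ Cfsg.pCore p G), ∀ x ∈ (Q : Subgroup (G ⧸ Cfsg.pCore p G)), ∀ y ∈ (Q : Subgroup (G ⧸ Cfsg.pCore p G)), x * y = y * x :=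 by
  haveI := Fact.mk hp
  subst hn
  have key := fun h => LinearBound.not_sq_dvd_index_pCore h7 χ.2 hfaith hn2 hnp h
  refine ⟨key, fun Q x hx y hy => ?_⟩
  haveI := Cfsg.pCore_normal p G
  by_cases hna : ∃ P : Sylow p G, ∃ x ∈ (P : Subgroup G), ∃ y ∈ (P : Subgroup G), x * y ≠ y * x
  · have hle : (Cfsg.pCore p G).index.factorization p ≤ 1 := by
      by_contra h
      exact key hna ((hp.pow_dvd_iff_le_factorization Subgroup.index_ne_zero_of_finite).2 (by omega))
    have hQ := Q.card_eq_multiplicity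
    rw [← Subgroup.index_eq_card] at hQ
    have hcyc : IsCyclic (Q : Subgroup (G ⧸ Cfsg.pCore p G)) := by
      rcases Nat.le_one_iff_eq_zero_or_eq_one.1 hle with h | h <;> rw [h] at hQ
      · haveI := (Nat.card_eq_one_iff_unique.1 (by simpa using hQ :
          Nat.card (Q : Subgroup (G ⧸ Cfsg.pCore p G)) = 1)).1
        infer_instance
      · exact isCyclic_of_prime_card (p := p) (by simpa using hQ)
    haveI := hcyc
    obtain ⟨g, hg⟩ := IsCyclic.exists_generator (α := (Q : Subgroup (G ⧸ Cfsg.pCore p G)))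
    obtain ⟨i, hi⟩ := Subgroup.mem_zpowers_iff.1 (hg ⟨x, hx⟩)
    obtain ⟨j, hj⟩ := Subgroup.mem_zpowers_iff.1 (hg ⟨y, hy⟩)
    have h1 : (⟨x, hx⟩ : (Q : Subgroup (G ⧸ Cfsg.pCore p G))) * ⟨y, hy⟩ = ⟨y, hy⟩ * ⟨x, hx⟩ := by
      rw [← hi, ← hj, ← zpow_add, ← zpow_add, add_comm]
    exact congrArg Subtype.val h1
  · push Not at hna
    obtain ⟨P, rfl⟩ := Sylow.mapSurjective_surjective
      (QuotientGroup.mk'_surjective (Cfsg.pCore p G)) p Q
    rw [Sylow.coe_mapSurjective] at hx hy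
    obtain ⟨a, ha, rfl⟩ := hx
    obtain ⟨b, hb, rfl⟩ := hy
    rw [← map_mul, ← map_mul, hna P a ha b hb]

end Cfsg.Agent.S4471
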