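import Cfsg.Agent.RealChar.Indicator

set_option autoImplicit false
open Cfsg

namespace Cfsg.Agent.S4475

/-- Let ρ be an irreducible representation of the finite group G on the coordinate space Fin n → ℂ whose character χ is real-valued, and let ν be the Frobenius–Schur indicator of χ (the average of χ(s²)). Writing X(g) for the matrix of ρ(g), there is a nonzero matrix M with X(g)ᵀ M X(g) = M for all g ∈ G; and every such M (zero or not) satisfies Mᵀ = ν·M. -/
theorem result {G : Type*} [Group G] [Fintype G] (n : ℕ) (ρ : Representation ℂ G (Fin n → ℂ)) (hirr : ρ.IsIrreducible) (hreal : ∀ g : G, (ρ.character g).im = 0) : (∃ M : Matrix (Fin n) (Fin n) ℂ, M ≠ 0 ∧ ∀ g : G, (LinearMap.toMatrix' (ρ g)).transpose * M * LinearMap.toMatrix' (ρ g) = M) ∧ ∀ M : Matrix (Fin n) (Fin n) ℂ, (∀ g : G, (LinearMap.toMatrix' (ρ g)).transpose * M * LinearMap.toMatrix' (ρ g) = M) → M.transpose = ((Nat.card G : ℂ)⁻¹ * ∑ s : G, ρ.character (s * s)) • M := by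
  classical
  let X : G →* Matrix (Fin n) (Fin n) ℂ :=
    (LinearMap.toMatrixAlgEquiv' (R := ℂ) (n := Fin n)).toMulEquiv.toMonoidHom.comp ρ
  have hX : ∀ g, X g = LinearMap.toMatrix' (ρ g) := fun g => rfl
  have htr : ∀ g, (1 * X g).trace = ρ.character g := fun g => by
    rw [one_mul, hX]
    show Matrix.trace (LinearMap.toMatrix' (ρ g)) = LinearMap.trace ℂ _ (ρ g)
    rw [LinearMap.trace_eq_matrix_trace ℂ (Pi.basisFun ℂ (Fin n)),
      LinearMap.toMatrix_eq_toMatrix']
  have hirr' : Cfsg.IsIrrCharacter G ρ.character := by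
    haveI := hirr
    exact Cfsg.Agent.Char.isIrrCharacter_character ρ
  rcases Cfsg.Agent.RealChar.formProj_cases X 1 (one_mul 1) (fun g => by simp) ρ.character
      hirr' htr with ⟨⟨g, hg⟩, -⟩ | ⟨-, c, Y, -, hν, hY0, hYfix, hall⟩
  · exact absurd (Complex.conj_eq_iff_im.2 (hreal g)) hg
  rw [Cfsg.Agent.RealChar.fsNu_eq_sum] at hν
  simp only [← hX]
  have hfixed : ∀ Z : Matrix (Fin n) (Fin n) ℂ,
      (∀ g, (X g).transpose * Z * X g = Z) → Cfsg.Agent.RealChar.formProj X 1 Z = Z := by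
    intro Z hZ
    simp only [Cfsg.Agent.RealChar.formProj_apply, one_mul, hZ, Finset.sum_const, Finset.card_univ,
      ← Nat.card_eq_fintype_card, ← Nat.cast_smul_eq_nsmul ℂ, smul_smul,
      inv_mul_cancel₀ (Nat.cast_ne_zero.mpr Nat.card_pos.ne' : (Nat.card G : ℂ) ≠ 0), one_smul]
  refine ⟨⟨Y, hY0, fun k => ?_⟩, fun Z hZ => hν ▸ hall Z (hfixed Z hZ)⟩
  rw [Cfsg.Agent.RealChar.formProj_apply] at hYfix
  conv_rhs => rw [← hYfix]
  conv_lhs => rw [← hYfix]
  simp only [one_mul, Matrix.mul_smul, Matrix.smul_mul, Matrix.mul_sum, Matrix.sum_mul]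
  congr 1
  refine Fintype.sum_equiv (Equiv.mulRight k) _ _ fun g => ?_
  rw [Equiv.coe_mulRight, map_mul, Matrix.transpose_mul]
  noncomm_ring

end Cfsg.Agent.S4475
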