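import Cfsg.Statements.S4478

import Cfsg.Agent.Block.Degrees
import Cfsg.Agent.Char.DefectZero
import Cfsg.Agent.Char.FrobeniusSchur

set_option autoImplicit false
open Cfsg
open Cfsg.Agent

namespace Cfsg.Agent.S4478


open scoped Classical in
open Cfsg.Agent in
theorem aux {G : Type*} [Group G] [Fintype G] (heven : Even (Nat.card G)) (χ : Cfsg.IrrCharacter G)
    (h2 : 2 ^ (Nat.card G).factorization 2 ∣ Cfsg.charDegree (χ : G → ℂ))
    (hp : ∀ p : ℕ, p.Prime → p ≠ 2 → (∃ g : G, orderOf g = 2 * p) →
      p ^ (Nat.card G).factorization p ∣ Cfsg.charDegree (χ : G → ℂ)) :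
    (∀ s t : G, orderOf s = 2 → orderOf t = 2 → IsConj s t) ∧
    (∀ s : G, orderOf s = 2 → Nat.card (Subgroup.centralizer ({s} : Set G)) =
        Cfsg.charDegree (χ : G → ℂ) ∧ (Nat.card (Subgroup.centralizer ({s} : Set G))).Coprime
        (Subgroup.centralizer ({s} : Set G)).index) ∧
    (Nat.card G : ℂ)⁻¹ * ∑ g : G, (χ : G → ℂ) (g * g) = 1 := by
  obtain ⟨hd1, hdpos, m, hm⟩ := Block.irr_one_eq_charDegree χ.2
  obtain ⟨x, hx⟩ : ∃ x, x = Cfsg.charDegree (χ : G → ℂ) := ⟨_, rfl⟩
  rw [← hx] at hd1 hdpos hm h2 hp ⊢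
  -- the primes of defect zero
  have hpm : ∀ p : ℕ, p.Prime → p ^ (Nat.card G).factorization p ∣ x → ¬ p ∣ m := by
    intro p hp' hdvd hpm
    refine Nat.pow_succ_factorization_not_dvd (n := Nat.card G) Nat.card_pos.ne' hp' ?_
    rw [pow_succ]
    exact (mul_dvd_mul hdvd hpm).trans hm.symm.dvd
  have hfull : ∀ p : ℕ, p.Prime → (p = 2 ∨ ∃ g : G, orderOf g = 2 * p) →
      p ^ (Nat.card G).factorization p ∣ x := fun p hp' h => by
    rcases eq_or_ne p 2 with rfl | hne
    · exact h2
    · exact hp p hp' hne (h.resolve_left hne)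
  have hvan : ∀ p : ℕ, p.Prime → (p = 2 ∨ ∃ g : G, orderOf g = 2 * p) →
      ∀ g : G, p ∣ orderOf g → (χ : G → ℂ) g = 0 := fun p hp' h =>
    Char.irr_defect_zero_vanish χ.2 hp' hd1 hm (hpm p hp' (hfull p hp' h))
  have hne1 : (χ : G → ℂ) ≠ fun _ => 1 := fun e => by
    rw [e] at hd1
    have hx1 : x = 1 := by simpa using hd1.symm
    refine hpm 2 Nat.prime_two h2 ?_
    rw [hx1, one_mul] at hm
    exact hm ▸ heven.two_dvd
  -- squares
  obtain ⟨O, hO⟩ : ∃ O, O = Finset.univ.filter fun g : G => Odd (orderOf g) := ⟨_, rfl⟩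
  have hodd : ∑ g ∈ O, (χ : G → ℂ) (g * g) = 0 := by
    rw [← Char.irr_sum_eq_zero χ.2 hne1]
    trans ∑ g ∈ O, (χ : G → ℂ) g
    · refine Finset.sum_nbij (fun g => g * g) (fun g hg => ?_) (fun a ha b hb hab => ?_)
        (fun g hg => ?_) (fun g _ => rfl)
      · simp only [hO, Finset.mem_filter, Finset.mem_univ, true_and] at hg ⊢
        rwa [← pow_two, Nat.Coprime.orderOf_pow hg.coprime_two_right]
      · simp only [hO, Finset.coe_filter, Finset.mem_univ, true_and, Set.mem_ofPred_eq] at ha hb
        have key : ∀ c : G, Odd (orderOf c) →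
            c = (c * c) ^ ((orderOf c + 1) / 2) := fun c hc => by
          rw [← pow_two, ← pow_mul, Nat.two_mul_div_two_of_even (hc.add_odd odd_one), pow_succ,
            pow_orderOf_eq_one, one_mul]
        have ho : orderOf a = orderOf b := by
          have h1 := Nat.Coprime.orderOf_pow (y := a) (m := 2) ha.coprime_two_right
          have h2 := Nat.Coprime.orderOf_pow (y := b) (m := 2) hb.coprime_two_right
          have hab' : a ^ 2 = b ^ 2 := by simpa only [pow_two] using hab
          rw [← h1, ← h2, hab']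
        have hab' : a * a = b * b := hab
        rw [key a ha, key b hb, hab', ho]
      · simp only [hO, Finset.coe_filter, Finset.mem_univ, true_and, Set.mem_ofPred_eq] at hg
        refine ⟨g ^ ((orderOf g + 1) / 2), ?_, ?_⟩
        · simp only [hO, Finset.coe_filter, Finset.mem_univ, true_and, Set.mem_ofPred_eq]
          exact hg.of_dvd_nat (orderOf_pow_dvd _)
        · show g ^ _ * g ^ _ = g
          rw [← pow_add, ← two_mul, Nat.two_mul_div_two_of_even (hg.add_odd odd_one), pow_succ,
            pow_orderOf_eq_one, one_mul]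
    · refine Finset.sum_subset (Finset.subset_univ _) fun g _ hg => ?_
      simp only [hO, Finset.mem_filter, Finset.mem_univ, true_and, Nat.not_odd_iff_even] at hg
      exact hvan 2 Nat.prime_two (Or.inl rfl) g hg.two_dvd
  obtain ⟨I, hI⟩ : ∃ I, I = Finset.univ.filter fun g : G => orderOf g = 2 := ⟨_, rfl⟩
  have hsum : ∑ g : G, (χ : G → ℂ) (g * g) = (I.card : ℂ) * x := by
    have hdis : Disjoint O I := by
      rw [hO, hI, Finset.disjoint_filter]
      intro g _ h h'
      rw [h'] at h
      exact absurd h (by decide)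
    rw [← Finset.sum_subset (Finset.subset_univ (O ∪ I)), Finset.sum_union hdis, hodd, zero_add,
      Finset.sum_congr rfl (g := fun _ => (x : ℂ)), Finset.sum_const, nsmul_eq_mul]
    · intro g hg
      simp only [hI, Finset.mem_filter, Finset.mem_univ, true_and] at hg
      rw [← pow_two, ← hg, pow_orderOf_eq_one, hd1]
    intro g _ hg
    simp only [hO, hI, Finset.mem_union, Finset.mem_filter, Finset.mem_univ, true_and, not_or,
      Nat.not_odd_iff_even] at hg
    obtain ⟨⟨k, hk⟩, hne⟩ := hg
    have hkpos : 0 < k := by have := orderOf_pos g; omega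
    have hsq : orderOf (g * g) = k := by
      rw [← pow_two, orderOf_pow' g two_ne_zero, Nat.gcd_eq_right (by omega : 2 ∣ orderOf g)]
      omega
    rcases Nat.even_or_odd k with hke | hko
    · exact hvan 2 Nat.prime_two (Or.inl rfl) _ (hsq ▸ hke.two_dvd)
    · obtain ⟨p, hp', hpk⟩ := Nat.exists_prime_and_dvd (n := k) (by omega)
      refine hvan p hp' (Or.inr ⟨g ^ (k / p), ?_⟩) _ (hsq ▸ hpk)
      obtain ⟨j, rfl⟩ := hpk
      have hjpos : 0 < j := Nat.pos_of_mul_pos_left hkpos
      rw [Nat.mul_div_cancel_left _ hp'.pos, orderOf_pow' g hjpos.ne',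
        Nat.gcd_eq_right ⟨2 * p, by rw [hk]; ring⟩, hk,
        show p * j + p * j = j * (2 * p) by ring, Nat.mul_div_cancel_left _ hjpos]
  -- the centraliser of an involution has order dividing the degree
  have hCdvd : ∀ s : G, orderOf s = 2 → Nat.card (Subgroup.centralizer ({s} : Set G)) ∣ x := by
    intro s hs
    obtain ⟨t, ht, htsum⟩ := Block.exists_isIntegral_sum_mul (Char.isCharacter_of_irr χ.2)
      (Subgroup.centralizer ({s} : Set G)) (g := 1) (Subgroup.one_mem _)
    rw [Finset.sum_eq_single (1 : Subgroup.centralizer ({s} : Set G))] at htsum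
    · simp only [OneMemClass.coe_one, one_mul, hd1] at htsum
      refine Char.dvd_of_isIntegral_div Nat.card_pos.ne' ?_
      rw [htsum, mul_div_cancel_left₀ _ (Nat.cast_ne_zero.2 Nat.card_pos.ne')]
      exact ht
    · rintro ⟨c, hc⟩ _ hc1
      rw [mul_one]
      have hc1' : c ≠ 1 := fun e => hc1 (Subtype.ext e)
      obtain ⟨p, hp', hpd⟩ := Nat.exists_prime_and_dvd (n := orderOf c)
        (fun h => hc1' (orderOf_eq_one_iff.1 h))
      refine hvan p hp' ?_ c hpd
      by_cases hp2 : p = 2
      · exact Or.inl hp2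
      refine Or.inr ⟨s * c ^ (orderOf c / p), ?_⟩
      have hop : orderOf (c ^ (orderOf c / p)) = p := orderOf_pow_orderOf_div (orderOf_pos c).ne' hpd
      rw [Commute.orderOf_mul_eq_mul_orderOf_of_coprime
        ((Commute.symm (Subgroup.mem_centralizer_singleton_iff.1 hc)).pow_right _), hs, hop]
      rw [hs, hop]
      exact (Nat.coprime_primes Nat.prime_two hp').2 (Ne.symm hp2)
    · simp
  obtain ⟨s₀, hs₀⟩ := exists_prime_orderOf_dvd_card' (G := G) 2 heven.two_dvd
  have hIpos : 0 < I.card := Finset.card_pos.2 ⟨s₀, by simp [hI, hs₀]⟩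
  have hν : (Nat.card G : ℂ)⁻¹ * ∑ g : G, (χ : G → ℂ) (g * g) = 1 ∧ I.card * x = Nat.card G := by
    have hr : ((I.card * x : ℕ) : ℝ) / (Nat.card G : ℝ) =
        ((Nat.card G : ℂ)⁻¹ * ∑ g : G, (χ : G → ℂ) (g * g)).re := by
      rw [hsum, ← Nat.cast_mul, ← Complex.ofReal_natCast, ← Complex.ofReal_natCast, ← Complex.ofReal_inv,
        ← Complex.ofReal_mul, Complex.ofReal_re, div_eq_inv_mul]
    have hpos : (0 : ℝ) < ((I.card * x : ℕ) : ℝ) / (Nat.card G : ℝ) :=
      div_pos (Nat.cast_pos.2 (Nat.mul_pos hIpos hdpos)) (Nat.cast_pos.2 Nat.card_pos)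
    rcases (Char.frobeniusSchur_trichotomy χ.2).1 with h | h | h <;> rw [h] at hr
    · rw [hr] at hpos; simp at hpos
    · refine ⟨h, ?_⟩
      rw [Complex.one_re, div_eq_one_iff_eq (Nat.cast_ne_zero.2 Nat.card_pos.ne')] at hr
      exact_mod_cast hr
    · rw [hr] at hpos; simp at hpos; linarith
  have hcls : ∀ s : G, orderOf s = 2 → (Subgroup.centralizer ({s} : Set G)).index = I.card ∧
      ∀ t ∈ I, IsConj s t := by
    intro s hs
    have hidx : (Subgroup.centralizer ({s} : Set G)).index =
        (Finset.univ.filter fun t : G => IsConj s t).card := by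
      have h := MulAction.index_stabilizer (ConjAct G) s
      have e : MulAction.orbit (ConjAct G) s =
          ((Finset.univ.filter fun t : G => IsConj s t : Finset G) : Set G) := by
        ext t
        simp only [ConjAct.mem_orbit_conjAct, Finset.coe_filter, Finset.mem_univ, true_and,
          Set.mem_ofPred_eq]
        exact isConj_comm
      rw [e, Set.ncard_coe_finset] at h
      rw [← h, ConjAct.stabilizer_eq_centralizer]
      rfl
    have hsub : (Finset.univ.filter fun t : G => IsConj s t) ⊆ I := by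
      intro t ht
      obtain ⟨c, hc⟩ := isConj_iff.1 (Finset.mem_filter.1 ht).2
      simp [hI, ← hc, ← MulAut.conj_apply, MulEquiv.orderOf_eq, hs]
    have hge : I.card ≤ (Finset.univ.filter fun t : G => IsConj s t).card := by
      rw [← hidx]
      refine Nat.le_of_mul_le_mul_left ?_ hdpos
      rw [mul_comm x I.card, hν.2, ← Subgroup.card_mul_index (Subgroup.centralizer ({s} : Set G))]
      exact Nat.mul_le_mul_right _ (Nat.le_of_dvd hdpos (hCdvd s hs))
    have := Finset.eq_of_subset_of_card_le hsub hge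
    refine ⟨by rw [hidx, this], fun t ht => ?_⟩
    rw [← this] at ht
    exact (Finset.mem_filter.1 ht).2
  refine ⟨fun s t hs ht => (hcls s hs).2 t (by simp [hI, ht]), fun s hs => ?_, hν.1⟩
  have hC : Nat.card (Subgroup.centralizer ({s} : Set G)) = x := by
    have := Subgroup.card_mul_index (Subgroup.centralizer ({s} : Set G))
    rw [(hcls s hs).1, ← hν.2, mul_comm I.card x] at this
    exact Nat.eq_of_mul_eq_mul_right hIpos this
  refine ⟨hC, Nat.coprime_of_dvd fun p hp' hpC hpi => ?_⟩
  have hfullp : p ^ (Nat.card G).factorization p ∣ x := by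
    refine hfull p hp' ?_
    by_cases hp2 : p = 2
    · exact Or.inl hp2
    obtain ⟨c, hc⟩ := exists_prime_orderOf_dvd_card' (hp := ⟨hp'⟩) p hpC
    refine Or.inr ⟨s * (c : G), ?_⟩
    rw [← Subgroup.orderOf_coe] at hc
    rw [Commute.orderOf_mul_eq_mul_orderOf_of_coprime
      (Commute.symm (Subgroup.mem_centralizer_singleton_iff.1 c.2)), hs, hc]
    rw [hs, hc]
    exact (Nat.coprime_primes Nat.prime_two hp').2 (Ne.symm hp2)
  refine hpm p hp' hfullp ?_
  have := Subgroup.card_mul_index (Subgroup.centralizer ({s} : Set G))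
  rw [hC, hm] at this
  rwa [← Nat.eq_of_mul_eq_mul_left hdpos this]


/-- Let G be a finite group of even order and χ an irreducible character of G whose degree x is divisible by the full power of 2 dividing the order of G and, for every odd prime p such that G has an element of order 2p, by the full power of p dividing the order of G. Then all involutions of G are conjugate, the centralizer of every involution has order exactly x with x coprime to its index, and the Frobenius–Schur indicator of χ equals 1. -/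
theorem result {G : Type*} [Group G] [Fintype G] (heven : Even (Nat.card G)) (χ : Cfsg.IrrCharacter G) (h2 : 2 ^ (Nat.card G).factorization 2 ∣ Cfsg.charDegree (χ : G → ℂ)) (hp : ∀ p : ℕ, p.Prime → p ≠ 2 → (∃ g : G, orderOf g = 2 * p) → p ^ (Nat.card G).factorization p ∣ Cfsg.charDegree (χ : G → ℂ)) : (∀ s t : G, orderOf s = 2 → orderOf t = 2 → IsConj s t) ∧ (∀ s : G, orderOf s = 2 → Nat.card (Subgroup.centralizer ({s} : Set G)) = Cfsg.charDegree (χ : G → ℂ) ∧ (Nat.card (Subgroup.centralizer ({s} : Set G))).Coprime (Subgroup.centralizer ({s} : Set G)).index) ∧ (Nat.card G : ℂ)⁻¹ * ∑ g : G, (χ : G → ℂ) (g * g) = 1 := by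
  exact aux heven χ h2 hp

end Cfsg.Agent.S4478
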