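import Cfsg.Statements.S4480
import Cfsg.Agent.DihBlock.Klein

set_option autoImplicit false
open Cfsg

namespace Cfsg.Agent.S4480

/-- Same setting as the Klein-four order formula: G of order 4·g₀ (g₀ odd) with no normal 2-complement, P a Sylow 2-subgroup, J an involution of P, M over 2, principal 2-block {1, χ₁, χ₂, χ₃} with χ_i(J) = ε_i = ±1. Suppose ε₁ε₂ε₃ = −1 and ε₃ = −1, and put q = x₃ = χ₃(1). Then there is a natural number m with 4·c(J) = m·c(P)·(q + 1), and the order of G equals (m³·c(P)/4)·(q³ − q)/2, that is 8·#G = m³·c(P)·(q³ − q). -/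
theorem result {G : Type*} [Group G] [Finite G] (M : Ideal Cfsg.AlgInt) (hM : Cfsg.IsPModular 2 M) (g₀ : ℕ) (hg₀ : Odd g₀) (hG : Nat.card G = 4 * g₀) (hnc : ¬ ∃ N : Subgroup G, N.Normal ∧ Nat.card N = g₀) (P : Sylow 2 G) (J : G) (hJ : J ∈ (P : Subgroup G)) (hJ2 : orderOf J = 2) (χ₁ χ₂ χ₃ : Cfsg.IrrCharacter G) (ε₁ ε₂ ε₃ : ℤ) (hB : Cfsg.principalBlock M G = {χ : Cfsg.IrrCharacter G | (χ : G → ℂ) = (fun _ => 1) ∨ χ = χ₁ ∨ χ = χ₂ ∨ χ = χ₃}) (hdist : (χ₁ : G → ℂ) ≠ (fun _ => 1) ∧ (χ₂ : G → ℂ) ≠ (fun _ => 1) ∧ (χ₃ : G → ℂ) ≠ (fun _ => 1) ∧ χ₁ ≠ χ₂ ∧ χ₁ ≠ χ₃ ∧ χ₂ ≠ χ₃) (hε : (ε₁ = 1 ∨ ε₁ = -1) ∧ (ε₂ = 1 ∨ ε₂ = -1) ∧ (ε₃ = 1 ∨ ε₃ = -1)) (hval : (χ₁ : G → ℂ) J = ε₁ ∧ (χ₂ : G → ℂ) J = ε₂ ∧ (χ₃ : G → ℂ) J = ε₃) (hprod : ε₁ * ε₂ * ε₃ = -1) (hε₃ : ε₃ = -1) : ∃ m : ℕ, 4 * Nat.card (Subgroup.centralizer ({J} : Set G)) = m * Nat.card (Subgroup.centralizer ((P : Subgroup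 G) : Set G)) * (Cfsg.charDegree (χ₃ : G → ℂ) + 1) ∧ 8 * Nat.card G = m ^ 3 * Nat.card (Subgroup.centralizer ((P : Subgroup G) : Set G)) * (Cfsg.charDegree (χ₃ : G → ℂ) ^ 3 - Cfsg.charDegree (χ₃ : G → ℂ)) := by
  classical
  haveI := Fintype.ofFinite G
  obtain ⟨τ, D, hone⟩ := DihBlock.klein_setup hg₀ hG hnc P hJ hJ2
  obtain ⟨hr, he⟩ := DihBlock.klein_equation hM D hone hB hdist hε hval
  subst hε₃
  obtain ⟨p₁, p₂, p₃⟩ : 0 < Cfsg.charDegree (χ₁ : G → ℂ) ∧ 0 < Cfsg.charDegree (χ₂ : G → ℂ) ∧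
      0 < Cfsg.charDegree (χ₃ : G → ℂ) :=
    ⟨(Char.irr_charDegree_spec χ₁.2).1, (Char.irr_charDegree_spec χ₂.2).1,
      (Char.irr_charDegree_spec χ₃.2).1⟩
  obtain ⟨rfl, rfl⟩ : ε₁ = 1 ∧ ε₂ = 1 := by
    rcases hε with ⟨rfl | rfl, rfl | rfl, -⟩ <;> simp_all
    omega
  obtain ⟨heq, r, hq⟩ := DihBlock.klein_degrees_eq hM D hone hB hdist (by simpa using hval)
  set q := Cfsg.charDegree (χ₃ : G → ℂ)
  set x := Cfsg.charDegree (χ₁ : G → ℂ)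
  rw [← heq] at hr he
  have hqx : q = 2 * x + 1 := by omega
  set c := Nat.card (Subgroup.centralizer ({J} : Set G))
  set cP := Nat.card (Subgroup.centralizer ((P : Subgroup G) : Set G))
  obtain ⟨k, hk⟩ : cP ∣ c := Subgroup.card_dvd_of_le (Subgroup.centralizer_le (Set.singleton_subset_iff.mpr hJ))
  obtain ⟨i, hi⟩ : c ∣ Nat.card G := Subgroup.card_subgroup_dvd_card _
  have hcP : 0 < cP := Nat.card_pos
  have hk0 : 0 < k := Nat.pos_of_ne_zero fun h => by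
    have : 0 < c := Nat.card_pos
    rw [hk, h, mul_zero] at this
    omega
  have hmain : i * (q + 1) ^ 2 = 8 * k ^ 2 * q * (q - 1) := by
    have hx0 : (x : ℚ) ≠ 0 := Nat.cast_ne_zero.mpr p₁.ne'
    have hq0 : (q : ℚ) ≠ 0 := Nat.cast_ne_zero.mpr p₃.ne'
    have hcP0 : (cP : ℚ) ≠ 0 := Nat.cast_ne_zero.mpr hcP.ne'
    have hk0' : (k : ℚ) ≠ 0 := Nat.cast_ne_zero.mpr hk0.ne'
    rw [hi, hk] at he
    push_cast at he
    have hq' : (q : ℚ) = 2 * x + 1 := by exact_mod_cast hqx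
    field_simp at he
    have : (i : ℚ) * (q + 1) ^ 2 = 8 * k ^ 2 * q * (q - 1) := by
      refine mul_left_cancel₀ hx0 ?_
      rw [hq'] at he ⊢
      linear_combination 2 * (x : ℚ) * he
    rw [← Nat.cast_one, ← Nat.cast_sub (by omega : 1 ≤ q)] at this
    exact_mod_cast this
  have hr0 : 0 < r := by omega
  have hdiv : r ∣ k := by
    obtain ⟨s, rfl⟩ : ∃ s, r = s + 1 := ⟨r - 1, by omega⟩
    have e1 : q = 4 * s + 3 := by omega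
    rw [e1, show 4 * s + 3 - 1 = 2 * (2 * s + 1) by omega] at hmain
    have e2 : i * (s + 1) ^ 2 = k ^ 2 * ((4 * s + 3) * (2 * s + 1)) := by nlinarith
    have hcop : ((s + 1) ^ 2).Coprime ((4 * s + 3) * (2 * s + 1)) := by
      refine Nat.Coprime.pow_left 2 (Nat.Coprime.mul_right ?_ ?_)
      · refine Nat.coprime_of_dvd fun p hp h1 h2 => ?_
        have h3 : p ∣ 4 * (s + 1) := h1.mul_left 4
        have h4 := Nat.dvd_sub h3 h2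
        rw [show 4 * (s + 1) - (4 * s + 3) = 1 by omega] at h4
        exact hp.not_dvd_one h4
      · refine Nat.coprime_of_dvd fun p hp h1 h2 => ?_
        have h3 : p ∣ 2 * (s + 1) := h1.mul_left 2
        have h4 := Nat.dvd_sub h3 h2
        rw [show 2 * (s + 1) - (2 * s + 1) = 1 by omega] at h4
        exact hp.not_dvd_one h4
    exact (Nat.pow_dvd_pow_iff two_ne_zero).mp (hcop.dvd_of_dvd_mul_right ⟨i, by rw [← e2]; ring⟩)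
  obtain ⟨m, rfl⟩ := hdiv
  refine ⟨m, ?_, ?_⟩
  · rw [hk, hq]; ring
  · rw [hi, hk]
    obtain ⟨s, rfl⟩ : ∃ s, r = s + 1 := ⟨r - 1, by omega⟩
    have e1 : q = 4 * s + 3 := by omega
    rw [e1, show 4 * s + 3 - 1 = 2 * (2 * s + 1) by omega] at hmain
    have h3 : i = m ^ 2 * ((4 * s + 3) * (2 * s + 1)) :=
      mul_right_cancel₀ (pow_ne_zero 2 (Nat.succ_ne_zero s)) (by nlinarith : i * (s + 1) ^ 2
        = m ^ 2 * ((4 * s + 3) * (2 * s + 1)) * (s + 1) ^ 2)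
    rw [e1, show (4 * s + 3) ^ 3 - (4 * s + 3) = 8 * ((s + 1) * (4 * s + 3) * (2 * s + 1)) from
      Nat.sub_eq_of_eq_add (by ring), h3]
    ring

end Cfsg.Agent.S4480
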