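import Cfsg.Statements.S4490
import Cfsg.Agent.BlockVal.Principal

set_option autoImplicit false
open Cfsg

namespace Cfsg.Agent.S4490

/-- Let G be a finite group and M a maximal ideal of the algebraic integers containing 2. Every 2-block B of G whose defect groups are the Sylow 2-subgroups of G (a block of full defect) and which is not the principal block is different from its complex-conjugate block, the block formed by the complex conjugates of the members of B. -/
theorem result {G : Type*} [Group G] [Finite G] (M : Ideal Cfsg.AlgInt) (hM : Cfsg.IsPModular 2 M) (B : Set (Cfsg.IrrCharacter G)) (hB : Cfsg.IsPBlock M B) (P : Sylow 2 G) (hfull : Cfsg.IsDefectGroup 2 M B (P : Subgroup G)) (hnp : B ≠ Cfsg.principalBlock M G) : {ψ : Cfsg.IrrCharacter G | ∃ χ ∈ B, (ψ : G → ℂ) = fun g => (starRingEnd ℂ) ((χ : G → ℂ) g)} ≠ B := by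
  classical
  haveI := Fintype.ofFinite G
  haveI : M.IsPrime := hM.2.1.isPrime
  haveI : Fact (Nat.Prime 2) := ⟨Nat.prime_two⟩
  intro hstab
  apply hnp
  obtain ⟨χ, hχ, h0⟩ := BlockVal.exists_height_zero (p := 2) (Block.pBlock_nonempty hB)
  have hd := BlockVal.blockDefect_eq hχ h0
  have hfullcard := BlockVal.card_defectGroup hM hB hfull
  rw [P.card_eq_multiplicity] at hfullcard
  have hda := Nat.pow_right_injective le_rfl hfullcard
  have hodd : Odd (Cfsg.charDegree (χ : G → ℂ)) := by
    rw [← Nat.not_even_iff_odd, even_iff_two_dvd]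
    intro h
    have h1 := Nat.Prime.factorization_pos_of_dvd Nat.prime_two
      (BlockVal.irr_one_eq_charDegree χ).2 h
    have h2 := BlockVal.factorization_degree_le 2 χ
    omega
  obtain ⟨ψ, hψmem, hψv⟩ : ∃ ψ : Cfsg.IrrCharacter G, ψ ∈ B ∧
      (ψ : G → ℂ) = fun g => (starRingEnd ℂ) ((χ : G → ℂ) g) := by
    refine ⟨⟨_, Char.isIrrCharacter_conjFun χ.2⟩, ?_, rfl⟩
    rw [← hstab]
    exact ⟨χ, hχ, rfl⟩
  refine Block.pBlock_eq_of_mem hB ⟨Char.trivialIrr G, rfl⟩ hχ ?_
  refine BlockVal.mem_principalBlock_of_odd hM χ hodd fun x hx => ?_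
  have e : Cfsg.centralChar (ψ : G → ℂ) x = Cfsg.centralChar (χ : G → ℂ) x⁻¹ := by
    have hc : Subgroup.centralizer ({x⁻¹} : Set G) = Subgroup.centralizer ({x} : Set G) := by
      ext y
      simp only [Subgroup.mem_centralizer_singleton_iff]
      exact ⟨fun h => (Commute.inv_right_iff.mp (show Commute y x⁻¹ from h)),
        fun h => (Commute.inv_right_iff.mpr (show Commute y x from h))⟩
    rw [Cfsg.centralChar, Cfsg.centralChar, hc, hψv]
    simp only [← Char.irr_inv χ.2, inv_one]
  rw [← e]
  exact Block.pBlock_sameBlock hB hχ hψmem x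

end Cfsg.Agent.S4490
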