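import Cfsg.Statements.S4495
import Cfsg.Agent.BlockVal.SelfCentralizing

set_option autoImplicit false
open Cfsg

namespace Cfsg.Agent.S4495

/-- Let the finite group G contain an element x of prime order p with C_G(x) = ⟨x⟩, and let t be the number of conjugacy classes of elements of order p. If t ≠ p − 1 then the commutator subgroup has index at most (p − 1)/t; if t = p − 1 it has index exactly p. -/
theorem result {G : Type*} [Group G] [Finite G] (p : ℕ) (hp : p.Prime) (x : G) (hx : orderOf x = p) (hC : Subgroup.centralizer ({x} : Set G) = Subgroup.zpowers x) (t : ℕ) (ht : Nat.card {C : ConjClasses G // ∃ g ∈ C.carrier, orderOf g = p} = t) : (t ≠ p - 1 → (commutator G).index * t ≤ p - 1) ∧ (t = p - 1 → (commutator G).index = p) := by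
  haveI : Fact p.Prime := ⟨hp⟩
  have hmul := SelfCent.classes_mul_relIndex hx hC
  rw [ht] at hmul
  set e := (Subgroup.zpowers x).relIndex (Subgroup.normalizer ((Subgroup.zpowers x : Subgroup G) : Set G))
    with he
  have hp2 := hp.two_le
  refine ⟨fun htne => ?_, fun hteq => ?_⟩
  · have he1 : e ≠ 1 := fun h => htne (by rw [h, mul_one] at hmul; exact hmul)
    have hd := SelfCent.dvd_card_commutator hx hC he1
    have hxG' := SelfCent.mem_of_dvd_card hx hC hd
    have hsup : commutator G ⊔ Subgroup.normalizer ((Subgroup.zpowers x : Subgroup G) : Set G) = ⊤ := by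
      rw [sup_comm, ← SelfCent.coe_theSylow hx hC]
      exact Sylow.normalizer_sup_eq_top' (SelfCent.theSylow hx hC)
        (by rw [SelfCent.coe_theSylow]; exact Subgroup.zpowers_le.mpr hxG')
    have hidx : (commutator G).index ∣ e := by
      rw [← Subgroup.relIndex_top_right, ← hsup, sup_comm, Subgroup.relIndex_sup_right]
      have h1 : Subgroup.zpowers x ≤
          commutator G ⊓ Subgroup.normalizer ((Subgroup.zpowers x : Subgroup G) : Set G) :=
        le_inf (Subgroup.zpowers_le.mpr hxG') Subgroup.le_normalizer
      rw [← Subgroup.inf_relIndex_right]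
      exact Dvd.intro_left _ (Subgroup.relIndex_mul_relIndex _ _ _ h1 inf_le_right)
    have hepos : 0 < e := Nat.pos_of_ne_zero fun h => by rw [h, mul_zero] at hmul; omega
    calc (commutator G).index * t ≤ e * t := Nat.mul_le_mul_right _ (Nat.le_of_dvd hepos hidx)
      _ = p - 1 := by rw [mul_comm]; exact hmul
  · have he1 : e = 1 := by
      rw [hteq] at hmul
      exact mul_left_cancel₀ (by omega : p - 1 ≠ 0) (hmul.trans (mul_one _).symm)
    exact (SelfCent.commutator_of_relIndex_one hx hC he1).2

end Cfsg.Agent.S4495
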