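import Cfsg.Statements.S4497
import Cfsg.Agent.BlockVal.SelfCentralizing

set_option autoImplicit false
open Cfsg

namespace Cfsg.Agent.S4497

/-- Let the finite group G contain an element x of prime order p with C_G(x) = ⟨x⟩, let t be the number of conjugacy classes of elements of order p, and let S* = O_{p′}(G) be the largest normal subgroup of order prime to p. Then S* ≤ G′; if t ≠ p − 1 the quotient G′/S* is simple (in particular non-trivial); if t = p − 1 then G′ = S*. -/
theorem result {G : Type*} [Group G] [Finite G] (p : ℕ) (hp : p.Prime) (x : G) (hx : orderOf x = p) (hC : Subgroup.centralizer ({x} : Set G) = Subgroup.zpowers x) (t : ℕ) (ht : Nat.card {C : ConjClasses G // ∃ g ∈ C.carrier, orderOf g = p} = t) : Cfsg.pPrimeCore p G ≤ commutator G ∧ (t ≠ p - 1 → ∀ h : ((Cfsg.pPrimeCore p G).subgroupOf (commutator G)).Normal, IsSimpleGroup (↥(commutator G) ⧸ (Cfsg.pPrimeCore p G).subgroupOf (commutator G))) ∧ (t = p - 1 → commutator G = Cfsg.pPrimeCore p G) := by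
  haveI : Fact p.Prime := ⟨hp⟩
  have hmul := SelfCent.classes_mul_relIndex hx hC
  rw [ht] at hmul
  have hp2 := hp.two_le
  have hK := SelfCent.pPrimeCore_le_commutator (p := p) hx hC
  refine ⟨hK, fun htne hnormal => ?_, fun hteq => ?_⟩
  swap
  · rw [hteq] at hmul
    have he1 := mul_left_cancel₀ (by omega : p - 1 ≠ 0) (hmul.trans (mul_one _).symm)
    exact le_antisymm (Cores.le_pPrimeCore_of_not_dvd inferInstance
      (SelfCent.commutator_of_relIndex_one hx hC he1).1) hK
  have hd := SelfCent.dvd_card_commutator hx hC fun h => htne (by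
    rw [h, mul_one] at hmul; exact hmul)
  have hxG' := SelfCent.mem_of_dvd_card hx hC hd
  set C := commutator G with hCdef
  set K := Cfsg.pPrimeCore p G
  have hKp : ¬ p ∣ Nat.card K := Cores.not_dvd_card_pPrimeCore
  -- the element inside the derived subgroup
  set xC : C := ⟨x, hxG'⟩
  have hxC : orderOf xC = p := by rw [← Subgroup.orderOf_coe]; exact hx
  have hCC : Subgroup.centralizer ({xC} : Set C) = Subgroup.zpowers xC := by
    refine le_antisymm (fun y hy => ?_) (Subgroup.zpowers_le.mpr (by
      rw [Subgroup.mem_centralizer_singleton_iff]))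
    rw [Subgroup.mem_centralizer_singleton_iff] at hy
    obtain ⟨i, hi⟩ := Subgroup.mem_zpowers_iff.mp
      (SelfCent.mem_P_of_mem_centralizer hC (congrArg Subtype.val hy))
    exact Subgroup.mem_zpowers_iff.mpr ⟨i, Subtype.ext (by simpa [xC] using hi)⟩
  refine (isSimpleGroup_iff _).mpr ⟨?_, fun H hH => ?_⟩
  · rw [← Subgroup.nontrivial_iff, Subgroup.nontrivial_iff]
    refine ⟨⟨(QuotientGroup.mk xC : C ⧸ K.subgroupOf C), 1, fun h => ?_⟩⟩
    rw [QuotientGroup.eq_one_iff, Subgroup.mem_subgroupOf] at h
    exact hKp (hx ▸ Subgroup.orderOf_dvd_natCard K h)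
  set L := H.comap (QuotientGroup.mk' (K.subgroupOf C)) with hL
  haveI : L.Normal := hH.comap _
  have hKL : K.subgroupOf C ≤ L := fun y hy => by
    show QuotientGroup.mk' (K.subgroupOf C) y ∈ H
    show (QuotientGroup.mk y : C ⧸ K.subgroupOf C) ∈ H
    rw [(QuotientGroup.eq_one_iff y).mpr hy]
    exact H.one_mem
  have hmapH : L.map (QuotientGroup.mk' (K.subgroupOf C)) = H :=
    Subgroup.map_comap_eq_self_of_surjective (QuotientGroup.mk'_surjective _) H
  by_cases hLp : p ∣ Nat.card L
  · right
    have hxL : xC ∈ L := SelfCent.mem_of_dvd_card hxC hCC hLp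
    have h2 := SelfCent.commutator_le_of_dvd hxC hCC L hLp
    have hLtop : L = ⊤ := by
      rw [eq_top_iff]
      intro y _
      rcases SelfCent.commutator_cases hx hC hd with heq | ⟨-, hcard, hDK⟩
      · have hy : (y : G) ∈ (commutator C).map C.subtype := by
          rw [Subgroup.map_subtype_commutator]
          have hy2 : (y : G) ∈ derivedSeries G 2 := by rw [heq, derivedSeries_one]; exact y.2
          rwa [derivedSeries_succ, derivedSeries_one] at hy2
        obtain ⟨z, hz, hzy⟩ := hy
        rw [← Subtype.ext hzy]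
        exact h2 hz
      · -- the derived subgroup is `K` extended by `x`
        have hle : (K.subgroupOf C) ⊔ Subgroup.zpowers xC ≤ L :=
          sup_le hKL (Subgroup.zpowers_le.mpr hxL)
        refine hle ?_
        have hdisj : Disjoint (K.subgroupOf C) (Subgroup.zpowers xC) := by
          rw [disjoint_iff, eq_bot_iff]
          rintro z ⟨hz1, hz2⟩
          refine Subgroup.mem_bot.mpr (orderOf_eq_one_iff.mp ?_)
          have h3 : orderOf z ∣ p := hxC ▸ orderOf_dvd_of_mem_zpowers hz2
          rcases (Nat.dvd_prime hp).mp h3 with h | h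
          · exact h
          · refine absurd ?_ hKp
            have : orderOf (z : G) ∣ Nat.card K :=
              Subgroup.orderOf_dvd_natCard K (Subgroup.mem_subgroupOf.mp hz1)
            rwa [Subgroup.orderOf_coe, h] at this
        have hcomp : Subgroup.IsComplement' (K.subgroupOf C) (Subgroup.zpowers xC) := by
          refine Subgroup.isComplement'_of_card_mul_and_disjoint ?_ hdisj
          rw [Nat.card_congr (Subgroup.subgroupOfEquivOfLe hK).toEquiv, Nat.card_zpowers, hxC]
          show Nat.card K * p = Nat.card (commutator G)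
          rw [hcard, hDK, mul_comm]
        rw [hcomp.sup_eq_top]
        trivial
    rw [← hmapH, hLtop, ← MonoidHom.range_eq_map, MonoidHom.range_eq_top.mpr
      (QuotientGroup.mk'_surjective _)]
  · left
    have h1 : L ≤ Cfsg.pPrimeCore p C := Cores.le_pPrimeCore_of_not_dvd inferInstance hLp
    have h2 : (Cfsg.pPrimeCore p C).map C.subtype ≤ K := Cores.map_subtype_pPrimeCore_le
    have hLK : L = K.subgroupOf C := le_antisymm
      (fun y hy => Subgroup.mem_subgroupOf.mpr (h2 ⟨y, h1 hy, rfl⟩)) hKL
    rw [← hmapH, hLK, QuotientGroup.map_mk'_self]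

end Cfsg.Agent.S4497
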