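import Cfsg.Statements.S4498
import Cfsg.Agent.Brauer.RegElement
import Cfsg.Agent.Block.Idempotent
import Cfsg.Agent.Char.Virtual

set_option autoImplicit false
open Cfsg

namespace Cfsg.Agent.S4498

/-- Let p and q be distinct primes dividing the order of the finite group G, and suppose G has no element of order p·q. Fix maximal ideals M_p over p and M_q over q of the algebraic integers. Then the principal p-block and the principal q-block of G have a non-principal irreducible character in common. -/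
theorem result {G : Type*} [Group G] [Finite G] (p q : ℕ) [Fact p.Prime] [Fact q.Prime] (hpq : p ≠ q) (hp : p ∣ Nat.card G) (hq : q ∣ Nat.card G) (hno : ∀ g : G, orderOf g ≠ p * q) (Mp Mq : Ideal Cfsg.AlgInt) (hMp : Cfsg.IsPModular p Mp) (hMq : Cfsg.IsPModular q Mq) : ∃ χ : Cfsg.IrrCharacter G, (χ : G → ℂ) ≠ (fun _ => 1) ∧ χ ∈ Cfsg.principalBlock Mp G ∧ χ ∈ Cfsg.principalBlock Mq G := by
  classical
  haveI := Fintype.ofFinite G
  haveI : Mp.IsPrime := hMp.2.1.isPrime
  haveI : Mq.IsPrime := hMq.2.1.isPrime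
  have hpp : p.Prime := Fact.out
  have hqq : q.Prime := Fact.out
  have hdisj : ∀ g : G, q ∣ orderOf g → ¬ p ∣ orderOf g := by
    intro g hgq hgp
    have hd : p * q ∣ orderOf g :=
      Nat.Coprime.mul_dvd_of_dvd_of_dvd ((Nat.coprime_primes hpp hqq).mpr hpq) hgp hgq
    refine hno (g ^ (orderOf g / (p * q))) ?_
    rw [orderOf_pow_orderOf_div (orderOf_pos g).ne' hd]
  by_contra hcon
  push Not at hcon
  set Bp := Cfsg.principalBlock Mp G with hBp
  set Bq := Cfsg.principalBlock Mq G with hBq
  have hBp' : Cfsg.IsPBlock Mp Bp := ⟨Char.trivialIrr G, rfl⟩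
  have hBq' : Cfsg.IsPBlock Mq Bq := ⟨Char.trivialIrr G, rfl⟩
  have htp : Char.trivialIrr G ∈ Bp := by
    rw [hBp, Brauer.principalBlock_eq_blockOf_trivial]
    exact Block.mem_blockOf_self (M := Mp) _
  have htq : Char.trivialIrr G ∈ Bq := by
    rw [hBq, Brauer.principalBlock_eq_blockOf_trivial]
    exact Block.mem_blockOf_self (M := Mq) _
  set Q := Finset.univ.filter (fun g : G => q ∣ orderOf g) with hQdef
  set Sp := Finset.univ.filter (fun χ : Cfsg.IrrCharacter G => χ ∈ Bp)
  set Sq := Finset.univ.filter (fun χ : Cfsg.IrrCharacter G => χ ∈ Bq)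
  let s : Cfsg.IrrCharacter G → ℂ := fun χ => ∑ g ∈ Q, (starRingEnd ℂ) ((χ : G → ℂ) g)
  let f1 : G → ℂ := fun y => ∑ η ∈ Sq, s η * (η : G → ℂ) y
  have hf1 : ∀ y : G, ¬ q ∣ orderOf y → f1 y = 0 := by
    intro y hy
    simp only [f1, s, Finset.sum_mul]
    rw [Finset.sum_comm]
    refine Finset.sum_eq_zero fun g hg => ?_
    have := Brauer.weakOrth_of_integral hMq Bq (Block.blockCoeff_memLocalRing hBq') hy
      (show q ∣ orderOf g by simpa [hQdef] using hg)
    rw [finsum_mem_eq_toFinset_sum, show Bq.toFinset = Sq by ext; simp [Sq]] at this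
    rw [← this]
    exact Finset.sum_congr rfl fun η _ => mul_comm _ _
  obtain ⟨x, hx⟩ := exists_prime_orderOf_dvd_card' p hp
  have hxp : p ∣ orderOf x := hx ▸ dvd_rfl
  let f2 : ℂ := ∑ χ ∈ Sp, (∑ g : G, f1 g * (starRingEnd ℂ) ((χ : G → ℂ) g)) * (χ : G → ℂ) x
  have hzero : f2 = 0 := by
    simp only [f2, Finset.sum_mul]
    rw [Finset.sum_comm]
    refine Finset.sum_eq_zero fun g _ => ?_
    by_cases hgq : q ∣ orderOf g
    · have := Brauer.weakOrth_of_integral hMp Bp (Block.blockCoeff_memLocalRing hBp')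
        (hdisj g hgq) hxp
      rw [finsum_mem_eq_toFinset_sum, show Bp.toFinset = Sp by ext; simp [Sp]] at this
      have h2 := congrArg (starRingEnd ℂ) this
      rw [map_zero, map_sum] at h2
      simp only [map_mul, Complex.conj_conj] at h2
      simp only [mul_assoc]
      rw [← Finset.mul_sum, h2, mul_zero]
    · simp [hf1 g hgq]
  have hval : f2 = (Nat.card G : ℂ) * ∑ χ ∈ Sp, if χ ∈ Bq then s χ * (χ : G → ℂ) x else 0 := by
    rw [Finset.mul_sum]
    refine Finset.sum_congr rfl fun χ _ => ?_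
    have : ∑ g : G, f1 g * (starRingEnd ℂ) ((χ : G → ℂ) g) =
        if χ ∈ Bq then (Nat.card G : ℂ) * s χ else 0 := by
      simp only [f1, Finset.sum_mul]
      rw [Finset.sum_comm]
      have e : ∀ η : Cfsg.IrrCharacter G, ∑ g : G, s η * ((η : G → ℂ) g * (starRingEnd ℂ) ((χ : G → ℂ) g)) =
          s η * ((Nat.card G : ℂ) * if η = χ then 1 else 0) := by
        intro η
        rw [← Finset.mul_sum, Char.sum_mul_conj_eq_card_mul_classInner, Char.classInner_irrCharacter]
      simp only [← mul_assoc] at e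
      rw [Finset.sum_congr rfl fun η _ => e η]
      by_cases hq' : χ ∈ Bq
      · rw [if_pos hq', Finset.sum_eq_single χ (fun η _ hne => by rw [if_neg hne, mul_zero])
          (fun h => absurd (by simp [Sq, hq']) h), if_pos rfl]
        ring
      · rw [if_neg hq']
        refine Finset.sum_eq_zero fun η hη => ?_
        rw [if_neg (fun h : η = χ => hq' (h ▸ (by simpa [Sq] using hη))), mul_zero]
    rw [this]
    split_ifs <;> ring
  rw [hval, Finset.sum_eq_single (Char.trivialIrr G)] at hzero
  · have e1 : ∀ g : G, ((Char.trivialIrr G : Cfsg.IrrCharacter G) : G → ℂ) g = 1 := fun _ => rfl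
    rw [if_pos htq, e1, mul_one,
      mul_eq_zero] at hzero
    rcases hzero with h | h
    · exact Nat.cast_ne_zero.mpr Nat.card_pos.ne' h
    · simp only [s, e1, map_one, Finset.sum_const, nsmul_eq_mul, mul_one, Nat.cast_eq_zero,
        Finset.card_eq_zero] at h
      obtain ⟨y, hy⟩ := exists_prime_orderOf_dvd_card' q hq
      exact Finset.notMem_empty y (h ▸ (by simp [hQdef, hy] : y ∈ Q))
  · intro χ hχ hne
    rw [if_neg]
    intro hq'
    exact hcon χ (fun h => hne (Subtype.ext h)) (by simpa [Sp] using hχ) hq'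
  · intro h
    exact absurd (show Char.trivialIrr G ∈ Sp by
      simp only [Sp, Finset.mem_filter, Finset.mem_univ, true_and]
      exact htp) h

end Cfsg.Agent.S4498
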