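import Cfsg.Statements.S4499
import Cfsg.Agent.BlockVal.HeightZero

set_option autoImplicit false
open Cfsg

namespace Cfsg.Agent.S4499

/-- Let G be a finite group whose order has p-part p^a (a ≥ 1), and fix a maximal ideal M of the algebraic integers containing p. If the degree of one irreducible character of a p-block B is divisible by p^(a−1), then the degree of every irreducible character in B is divisible by p^(a−1) (so B has defect at most 1). -/
theorem result {G : Type*} [Group G] [Finite G] (p : ℕ) [Fact p.Prime] (M : Ideal Cfsg.AlgInt) (hM : Cfsg.IsPModular p M) (hpa : p ∣ Nat.card G) (B : Set (Cfsg.IrrCharacter G)) (hB : Cfsg.IsPBlock M B) (χ : Cfsg.IrrCharacter G) (hχ : χ ∈ B) (hdiv : p ^ ((Nat.card G).factorization p - 1) ∣ Cfsg.charDegree (χ : G → ℂ)) (ψ : Cfsg.IrrCharacter G) (hψ : ψ ∈ B) : p ^ ((Nat.card G).factorization p - 1) ∣ Cfsg.charDegree (ψ : G → ℂ) := by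
  classical
  haveI := Fintype.ofFinite G
  have hp : p.Prime := Fact.out
  rw [hp.pow_dvd_iff_le_factorization (BlockVal.irr_one_eq_charDegree χ).2] at hdiv
  rw [hp.pow_dvd_iff_le_factorization (BlockVal.irr_one_eq_charDegree ψ).2]
  exact hdiv.trans ((BlockVal.blockHeight_eq_zero_iff hχ).mp
    (BlockVal.dvd_degree_of_pow_pred_dvd hM hB hχ hdiv) ψ hψ)

end Cfsg.Agent.S4499
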