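import Cfsg.Statements.S4501
import Cfsg.Agent.SmallGroups.KleinThreePrimes
import Cfsg.Agent.SmallGroups.ThreeTwoPowSquare
import Cfsg.Agent.SmallGroups.SelfCentPrime.Cofactor.Main
import Cfsg.Agent.Linear.SmallIso
import Cfsg.Agent.S0495
-- import your own Cfsg.Agent.* helpers here

set_option autoImplicit false
open Cfsg

namespace Cfsg.Agent.S4501

universe u

/-- Simple groups of order `3 * 2 ^ i * r`. -/
theorem three_two_pow_prime {G : Type u} [Group G] [Finite G] [IsSimpleGroup G]
    (hG : ¬ IsMulCommutative G) {r i : ℕ} (hr : r.Prime) (hr5 : 5 ≤ r)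
    (hcard : Nat.card G = 3 * 2 ^ i * r) :
    Nonempty (G ≃* alternatingGroup (Fin 5)) ∨
      Nonempty (G ≃* Matrix.ProjectiveSpecialLinearGroup (Fin 2) (ZMod 7)) := by
  haveI := Fact.mk hr
  obtain ⟨⟨k, hk⟩, hc⟩ := SmallGroups.SelfCentPrime.Cofactor.conclusion_of_card hG
    Nat.prime_two (show r ≠ 2 by omega) (g₀ := 3) (b := i) (by rw [hcard]; ring) (by omega)
  rcases hc with ⟨F, i1, i2, hF, -, ⟨f⟩⟩ | ⟨m, F, i1, i2, hF, hrm, -, ⟨f⟩⟩
  · have h := Cfsg.Agent.Linear.card_PSL_two_of_odd (F := F)
      (by rw [hF]; exact hr.odd_of_ne_two (by omega))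
    rw [← Nat.card_congr f.toEquiv, hcard, hF] at h
    have h' : (r - 1) * (r + 1) = 3 * 2 ^ (i + 1) := by
      refine Nat.eq_of_mul_eq_mul_left hr.pos ?_
      rw [← mul_assoc, ← h]; ring
    obtain ⟨j, rfl⟩ : ∃ j, k = j + 2 := ⟨k - 2, by
      have h1 : r + 1 = 2 ^ k ∨ r = 2 ^ k + 1 := by omega
      have h4 : k ≥ 2 := by
        by_contra hcon
        have : 2 ^ k ≤ 2 ^ 1 := Nat.pow_le_pow_right (by norm_num) (by omega)
        omega
      omega⟩
    rcases hk with hk | hk
    · -- `r = 2 ^ (j + 2) + 1`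
      have h2 : 2 ^ (j + 1) + 1 ∣ 3 := by
        have h3 : 2 ^ (j + 1) + 1 ∣ 3 * 2 ^ (i + 1) := by
          rw [← h']
          refine Dvd.dvd.mul_left ⟨2, ?_⟩ _
          rw [hk]; ring
        refine (Nat.Coprime.pow_right _ ?_).dvd_of_dvd_mul_right h3
        exact Nat.coprime_two_right.mpr ⟨2 ^ j, by ring⟩
      have h5 := Nat.le_of_dvd (by norm_num) h2
      have hj : j = 0 := by
        by_contra hj
        have : 2 ^ 2 ≤ 2 ^ (j + 1) := Nat.pow_le_pow_right (by norm_num) (by omega)
        omega
      subst hj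
      norm_num at hk
      subst hk
      refine Or.inl (Cfsg.Agent.Linear.simple_order_sixty_iso ?_)
      rw [hcard]; norm_num at h; omega
    · -- `r + 1 = 2 ^ (j + 2)`
      obtain ⟨s, hs⟩ : ∃ s, 2 ^ (j + 1) = s + 1 :=
        ⟨2 ^ (j + 1) - 1, by have := Nat.one_le_two_pow (n := j + 1); omega⟩
      have hr' : r - 1 = 2 * s := by rw [pow_succ, hs] at hk; omega
      have h2 : s ∣ 3 := by
        have h3 : s ∣ 3 * 2 ^ (i + 1) := by
          rw [← h', hr']
          exact (dvd_mul_left s 2).mul_right _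
        refine (Nat.Coprime.pow_right _ ?_).dvd_of_dvd_mul_right h3
        refine Nat.coprime_two_right.mpr ⟨2 ^ j - 1, ?_⟩
        have := Nat.one_le_two_pow (n := j)
        rw [pow_succ] at hs
        omega
      have hs13 : s = 1 ∨ s = 3 := (Nat.dvd_prime Nat.prime_three).mp h2
      have hr7 : r = 7 := by omega
      subst hr7
      refine Or.inr (Cfsg.Agent.S0495.result ?_ (ZMod.card 7))
      rw [hcard]; norm_num at h; omega
  · have hm1 : 1 ≤ m := by
      by_contra hm
      rw [show m = 0 by omega] at hrm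
      omega
    have h := Cfsg.Agent.Linear.card_PSL_two_of_even (F := F)
      (by rw [hF]; exact Nat.even_pow.mpr ⟨even_two, by omega⟩)
    rw [← Nat.card_congr f.toEquiv, hcard, hF, ← hrm] at h
    have h' : 2 ^ m * (2 ^ m - 1) = 3 * 2 ^ i := Nat.eq_of_mul_eq_mul_right hr.pos h.symm
    have h2 : 2 ^ m - 1 ∣ 3 := by
      refine (Nat.Coprime.pow_right _ ?_).dvd_of_dvd_mul_right (n := 2 ^ i)
        (h' ▸ dvd_mul_left _ _)
      obtain ⟨l, rfl⟩ := Nat.exists_eq_add_of_le' hm1
      refine Nat.coprime_two_right.mpr ⟨2 ^ l - 1, ?_⟩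
      have := Nat.one_le_two_pow (n := l)
      rw [pow_succ]
      omega
    have hs13 : 2 ^ m - 1 = 1 ∨ 2 ^ m - 1 = 3 := (Nat.dvd_prime Nat.prime_three).mp h2
    have hr5' : r = 5 := by omega
    subst hr5'
    refine Or.inl (Cfsg.Agent.Linear.simple_order_sixty_iso ?_)
    rw [hcard, h, show 2 ^ m = 4 by omega]

/-- Let G be a non-abelian finite simple group and p, q distinct primes. If the order of G is 4·p^a·q^b with a ≤ 2, then G is isomorphic to the alternating group of degree 5. If the order of G is 3·p^a·q^b with a ≤ 2, then G is isomorphic to the alternating group of degree 5 or to PSL(2,7). -/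
theorem result {G : Type*} [Group G] [Finite G] [IsSimpleGroup G] (hna : ∃ x y : G, x * y ≠ y * x) (p q a b : ℕ) (hp : p.Prime) (hq : q.Prime) (hpq : p ≠ q) (ha : a ≤ 2) : (Nat.card G = 4 * p ^ a * q ^ b → Nonempty (G ≃* alternatingGroup (Fin 5))) ∧ (Nat.card G = 3 * p ^ a * q ^ b → Nonempty (G ≃* alternatingGroup (Fin 5)) ∨ Nonempty (G ≃* Matrix.ProjectiveSpecialLinearGroup (Fin 2) (ZMod 7))) := by
  have hG : ¬ IsMulCommutative G := fun h => by
    obtain ⟨x, y, hxy⟩ := hna
    exact hxy (h.is_comm.comm x y)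
  have hsolv : ∀ s t : ℕ, s.Prime → t.Prime →
      (∀ u : ℕ, u.Prime → u ∣ Nat.card G → u = s ∨ u = t) → False := fun s t hs ht h => by
    have hsol : Group.IsSolvable G :=
      Char.solvable_of_card_eq_pow_mul_pow s t hs ht _ rfl h
    exact hG ⟨⟨IsSimpleGroup.comm_iff_isSolvable.mpr hsol⟩⟩
  have hdiv : ∀ c u : ℕ, u.Prime → u ∣ c * p ^ a * q ^ b → u ∣ c ∨ u = p ∨ u = q :=
    fun c u hu hd => by
      rcases hu.dvd_mul.mp hd with h | h
      · rcases hu.dvd_mul.mp h with h | h
        · exact Or.inl h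
        · exact Or.inr (Or.inl ((Nat.prime_dvd_prime_iff_eq hu hp).mp (hu.dvd_of_dvd_pow h)))
      · exact Or.inr (Or.inr ((Nat.prime_dvd_prime_iff_eq hu hq).mp (hu.dvd_of_dvd_pow h)))
  constructor
  · intro hcard
    have hfour : ∀ u : ℕ, u.Prime → u ∣ 4 → u = 2 := fun u hu h =>
      (Nat.prime_dvd_prime_iff_eq hu Nat.prime_two).mp
        (hu.dvd_of_dvd_pow (show u ∣ 2 ^ 2 by simpa using h))
    have hp2 : p ≠ 2 := fun e => hsolv 2 q Nat.prime_two hq fun u hu hd => by
      rcases hdiv 4 u hu (hcard ▸ hd) with h | h | h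
      · exact Or.inl (hfour u hu h)
      · exact Or.inl (h.trans e)
      · exact Or.inr h
    have hq2 : q ≠ 2 := fun e => hsolv 2 p Nat.prime_two hp fun u hu hd => by
      rcases hdiv 4 u hu (hcard ▸ hd) with h | h | h
      · exact Or.inl (hfour u hu h)
      · exact Or.inr h
      · exact Or.inl (h.trans e)
    -- three divides the order
    have h3 : p = 3 ∨ q = 3 := by
      have heven : Even (Nat.card G) := by rw [hcard]; exact ⟨2 * p ^ a * q ^ b, by ring⟩
      have h8 : ¬ 8 ∣ Nat.card G := fun h => by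
        rw [hcard, mul_assoc, show (8 : ℕ) = 4 * 2 from rfl] at h
        have h2 := Nat.dvd_of_mul_dvd_mul_left (by norm_num) h
        rcases Nat.prime_two.dvd_mul.mp h2 with h | h
        · exact hp2 ((Nat.prime_dvd_prime_iff_eq Nat.prime_two hp).mp
            (Nat.prime_two.dvd_of_dvd_pow h)).symm
        · exact hq2 ((Nat.prime_dvd_prime_iff_eq Nat.prime_two hq).mp
            (Nat.prime_two.dvd_of_dvd_pow h)).symm
      obtain ⟨P⟩ := (inferInstance : Nonempty (Sylow 2 G))
      have hrel := (S0992.result hG heven h8 P).2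
      have h : 3 ∣ Nat.card G := by
        rw [← hrel]
        exact (Subgroup.index_dvd_card _).trans (Subgroup.card_subgroup_dvd_card _)
      rcases hdiv 4 3 Nat.prime_three (hcard ▸ h) with h | h | h
      · norm_num at h
      · exact Or.inl h.symm
      · exact Or.inr h.symm
    rcases h3 with rfl | rfl
    · exact SmallGroups.KleinThreePrimes.nonempty_equiv hG (r := q) (i := a) (j := b) hq
        (by have := hq.two_le; rcases (show q = 4 ∨ q ≠ 4 from em _) with rfl | h
            · norm_num at hq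
            · omega) (by rw [hcard]; ring)
    · exact SmallGroups.KleinThreePrimes.nonempty_equiv hG (r := p) (i := b) (j := a) hp
        (by have := hp.two_le; rcases (show p = 4 ∨ p ≠ 4 from em _) with rfl | h
            · norm_num at hp
            · omega) (by rw [hcard]; ring)
  · intro hcard
    have hthree : ∀ u : ℕ, u.Prime → u ∣ 3 → u = 3 := fun u hu h =>
      (Nat.prime_dvd_prime_iff_eq hu Nat.prime_three).mp h
    have hp3 : p ≠ 3 := fun e => hsolv 3 q Nat.prime_three hq fun u hu hd => by
      rcases hdiv 3 u hu (hcard ▸ hd) with h | h | h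
      · exact Or.inl (hthree u hu h)
      · exact Or.inl (h.trans e)
      · exact Or.inr h
    have hq3 : q ≠ 3 := fun e => hsolv 3 p Nat.prime_three hp fun u hu hd => by
      rcases hdiv 3 u hu (hcard ▸ hd) with h | h | h
      · exact Or.inl (hthree u hu h)
      · exact Or.inr h
      · exact Or.inl (h.trans e)
    have h9 : ¬ 9 ∣ Nat.card G := fun h => by
      rw [hcard, mul_assoc, show (9 : ℕ) = 3 * 3 from rfl] at h
      have h2 := Nat.dvd_of_mul_dvd_mul_left (by norm_num) h
      rcases Nat.prime_three.dvd_mul.mp h2 with h | h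
      · exact hp3 ((Nat.prime_dvd_prime_iff_eq Nat.prime_three hp).mp
          (Nat.prime_three.dvd_of_dvd_pow h)).symm
      · exact hq3 ((Nat.prime_dvd_prime_iff_eq Nat.prime_three hq).mp
          (Nat.prime_three.dvd_of_dvd_pow h)).symm
    -- the order is even
    have h2 : 2 ∣ Nat.card G := by
      by_contra hodd
      haveI : Fact (Nat.Prime 3) := ⟨Nat.prime_three⟩
      have hmin : (Nat.card G).minFac = 3 := by
        have hne : Nat.card G ≠ 1 := by
          have : 3 ∣ Nat.card G := by rw [hcard, mul_assoc]; exact dvd_mul_right _ _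
          intro e; rw [e] at this; norm_num at this
        have h1 : (Nat.card G).minFac ≤ 3 := Nat.minFac_le_of_dvd (by norm_num)
          (by rw [hcard, mul_assoc]; exact dvd_mul_right _ _)
        have h2' := (Nat.minFac_prime hne).two_le
        have h3' : (Nat.card G).minFac ≠ 2 := fun e => hodd (e ▸ Nat.minFac_dvd _)
        omega
      obtain ⟨P⟩ := (inferInstance : Nonempty (Sylow 3 G))
      have hP : Nat.card (P : Subgroup G) = 3 :=
        (SmallGroups.card_sylow_subgroup (a := 1) (m := p ^ a * q ^ b)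
          (by rw [hcard]; ring) (fun h => h9 (by
            rw [hcard, mul_assoc, show (9 : ℕ) = 3 * 3 from rfl]
            exact mul_dvd_mul_left 3 h)) P).trans (pow_one 3)
      exact SmallGroups.not_isCyclic_sylow_minFac hG hmin P
        (isCyclic_of_prime_card hP)
    have h4 : 4 ∣ Nat.card G := SmallGroups.four_dvd_card hG h2
    rcases hdiv 3 2 Nat.prime_two (hcard ▸ h2) with h | rfl | rfl
    · norm_num at h
    · -- `p = 2`
      have ha2 : a = 2 := by
        by_contra hne
        rw [hcard] at h4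
        have h4' : 2 ^ 2 ∣ 2 ^ a := by
          refine (Nat.Coprime.dvd_of_dvd_mul_left (k := 2 ^ 2) (m := 3 * q ^ b) ?_ ?_)
          · refine Nat.Coprime.pow_left 2 (Nat.Coprime.mul_right (by norm_num) ?_)
            exact ((Nat.coprime_primes Nat.prime_two hq).mpr hpq).pow_right b
          · rw [show 3 * q ^ b * 2 ^ a = 3 * 2 ^ a * q ^ b by ring]; simpa using h4
        have := (Nat.pow_dvd_pow_iff_le_right (by norm_num : 1 < 2)).mp h4'
        omega
      subst ha2
      refine Or.inl (SmallGroups.KleinThreePrimes.nonempty_equiv hG (r := q) (i := 1) (j := b) hq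
        ?_ (by rw [hcard]; ring))
      have := hq.two_le
      rcases (show q = 4 ∨ q ≠ 4 from em _) with rfl | h
      · norm_num at hq
      · omega
    · -- `q = 2`
      have hp5 : 5 ≤ p := by
        have := hp.two_le
        rcases (show p = 4 ∨ p ≠ 4 from em _) with rfl | h
        · norm_num at hp
        · omega
      rcases (show a = 0 ∨ a = 1 ∨ a = 2 by omega) with rfl | rfl | rfl
      · exact (hsolv 2 3 Nat.prime_two Nat.prime_three fun u hu hd => by
          rw [hcard, pow_zero, mul_one] at hd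
          rcases hu.dvd_mul.mp hd with h | h
          · exact Or.inr (hthree u hu h)
          · exact Or.inl ((Nat.prime_dvd_prime_iff_eq hu Nat.prime_two).mp
              (hu.dvd_of_dvd_pow h))).elim
      · exact three_two_pow_prime (i := b) hG hp hp5 (by rw [hcard]; ring)
      · exact (SmallGroups.ThreeTwoPowSquare.no_simple hG (r := p) (i := b) hp hp5
          (by rw [hcard]; ring)).elim

end Cfsg.Agent.S4501
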