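import Cfsg.Statements.S4504
import Cfsg.Agent.SL2Mod.Central
import Cfsg.Agent.Char.Basic

set_option autoImplicit false
open Cfsg

namespace Cfsg.Agent.S4504

/-- Let G be a finite group whose order is divisible by the prime p exactly once and which has no normal subgroup of order p. If G has a faithful character of degree exactly (p − 1)/2, then G modulo its centre is isomorphic to PSL(2, p). -/
theorem result {G : Type*} [Group G] [Finite G] (p : ℕ) (hp : p.Prime) (hdiv : p ∣ Nat.card G) (hsq : ¬ p ^ 2 ∣ Nat.card G) (hnn : ∀ H : Subgroup G, H.Normal → Nat.card H ≠ p) (χ : G → ℂ) (hχ : Cfsg.IsCharacter G χ) (hfaith : ∀ g : G, χ g = χ 1 → g = 1) (hdeg : 2 * Cfsg.charDegree χ + 1 = p) : Nonempty ((G ⧸ Subgroup.center G) ≃* Matrix.ProjectiveSpecialLinearGroup (Fin 2) (ZMod p)) := by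
  haveI : Fact p.Prime := ⟨hp⟩
  obtain ⟨P⟩ := (inferInstance : Nonempty (Sylow p G))
  obtain ⟨a, ha⟩ := P.2.exists_card_eq
  have hPc : Nat.card P = p := by
    have h1 : a = 1 := by
      have h2 := P.dvd_card_of_dvd_card hdiv
      rcases a with _ | _ | a
      · rw [ha, pow_zero, Nat.dvd_one] at h2; exact absurd h2 hp.one_lt.ne'
      · rfl
      · exact absurd ((pow_dvd_pow p (by omega : 2 ≤ a + 1 + 1)).trans
          (ha ▸ Subgroup.card_subgroup_dvd_card _)) hsq
    rw [ha, h1, pow_one]
  have hPn : ¬ (P : Subgroup G).Normal := fun h => hnn _ h hPc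
  have hp5 : 5 ≤ p := by
    rcases Nat.lt_or_ge p 5 with h | h
    · exfalso
      obtain ⟨n, ρ, hρ⟩ := hχ
      have hn : n = 1 := by
        have : charDegree χ = n := by
          rw [charDegree, ← hρ, Representation.char_one]; simp
        have := hp.two_le
        interval_cases p <;> omega
      subst hn
      have hcomm : ∀ x y : G, x * y = y * x := by
        intro x y
        have hc : Commute (ρ x) (ρ y) := by
          ext v i
          obtain rfl : i = 0 := Fin.fin_one_eq_zero i
          have key : ∀ (f : (Fin 1 → ℂ) →ₗ[ℂ] (Fin 1 → ℂ)) (w : Fin 1 → ℂ),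
              f w 0 = f 1 0 * w 0 := by
            intro f w
            have e : w = w 0 • (1 : Fin 1 → ℂ) := by
              ext j; obtain rfl : j = 0 := Fin.fin_one_eq_zero j; simp
            conv_lhs => rw [e, map_smul]
            simp [mul_comm]
          change ρ x (ρ y (Pi.single _ _)) 0 = ρ y (ρ x (Pi.single _ _)) 0
          rw [key (ρ x) (ρ y _), key (ρ y) (Pi.single v 1), key (ρ y) (ρ x _), key (ρ x) (Pi.single v 1)]
          ring
        have h2 : ρ (x * y * x⁻¹ * y⁻¹) = 1 := by
          rw [map_mul, map_mul, map_mul, hc.eq, mul_assoc (ρ y), ← map_mul, mul_inv_cancel, map_one,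
            mul_one, ← map_mul, mul_inv_cancel, map_one]
        have h3 := hfaith (x * y * x⁻¹ * y⁻¹) (by
          rw [← hρ]; simp only [Representation.character, h2, map_one])
        rw [mul_inv_eq_one, mul_inv_eq_iff_eq_mul] at h3
        exact h3
      exact hPn ⟨fun m hm g => by rw [hcomm g m, mul_assoc, mul_inv_cancel, mul_one]; exact hm⟩
    · exact h
  exact SL2Mod.psl_of_faithful_half hp5 hsq P hPc hPn hχ hfaith hdeg

end Cfsg.Agent.S4504
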