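import Cfsg.Statements.S4505
import Cfsg.Agent.BlockVal.SquareSum

set_option autoImplicit false
open Cfsg

namespace Cfsg.Agent.S4505

/-- Let G be a finite group, p a prime and M a maximal ideal of the algebraic integers containing p. For every σ, the number of p-blocks of defect exactly σ is at most the number of conjugacy classes of p-regular elements whose centralizer has order divisible by p^σ but not by p^(σ+1). -/
theorem result {G : Type*} [Group G] [Finite G] (p : ℕ) [Fact p.Prime] (M : Ideal Cfsg.AlgInt) (hM : Cfsg.IsPModular p M) (σ : ℕ) : Nat.card {B : Set (Cfsg.IrrCharacter G) // Cfsg.IsPBlock M B ∧ Cfsg.blockDefect p B = σ} ≤ Nat.card {C : ConjClasses G // ∃ g : G, ConjClasses.mk g = C ∧ ¬ p ∣ orderOf g ∧ (Nat.card (Subgroup.centralizer ({g} : Set G))).factorization p = σ} := by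
  classical
  haveI := Fintype.ofFinite G
  haveI : M.IsPrime := hM.2.1.isPrime
  haveI := Fintype.ofFinite (ConjClasses G)
  set Bs := {B : Set (Cfsg.IrrCharacter G) // Cfsg.IsPBlock M B ∧ Cfsg.blockDefect p B = σ}
  set Cs := {C : ConjClasses G // ∃ g : G, ConjClasses.mk g = C ∧ ¬ p ∣ orderOf g ∧
      (Nat.card (Subgroup.centralizer ({g} : Set G))).factorization p = σ}
  haveI := Fintype.ofFinite Bs
  haveI := Fintype.ofFinite Cs
  choose χ hχ using fun B : Bs => Block.pBlock_nonempty B.2.1
  let v : Bs → Cs → Block.ResF M := fun B C => Block.redC M (Cfsg.blockCoeff B.1 C.1.out)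
  have pair : ∀ B B' : Bs, ∑ C : Cs,
      Block.redC M (Cfsg.centralChar (χ B : G → ℂ) C.1.out) * v B' C =
        if B = B' then 1 else 0 := by
    intro B B'
    have hfull := Block.omega_idemS (M := M) B'.2.1 (χ B)
    rw [Block.omega_toC_eq (χ B).2 (Block.idemS_isCentralElt B'.1)] at hfull
    have hcoef : ∀ g : G, ((Block.idemS M B'.1).coeff g : ℂ) = Cfsg.blockCoeff B'.1 g := fun g => by
      have := congrArg (fun z => z.coeff g) (Block.toC_idemS (M := M) B'.2.1)
      simpa [Block.coeff_blockIdem] using this
    simp only [hcoef] at hfull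
    have hterm : ∀ c : ConjClasses G, Cfsg.MemLocalRing M
        (Cfsg.blockCoeff B'.1 c.out * Cfsg.centralChar (χ B : G → ℂ) c.out) := fun c =>
      (Block.localRing M).mul_mem (Block.blockCoeff_memLocalRing B'.2.1 _)
        (Block.centralChar_memLocalRing (χ B).2 _)
    have hr := congrArg (Block.redC M) hfull
    rw [Block.redC_sum _ _ fun c _ => hterm c] at hr
    have hzero : ∀ c : ConjClasses G,
        c ∉ Finset.univ.image (fun C : Cs => C.1) →
        Block.redC M (Cfsg.blockCoeff B'.1 c.out * Cfsg.centralChar (χ B : G → ℂ) c.out) = 0 := by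
      intro c hc
      rw [Block.redC_eq_zero_iff (hterm c)]
      by_cases h1 : Cfsg.MemLocalIdeal M (Cfsg.blockCoeff B'.1 c.out)
      · exact Block.memLocalIdeal_mul_right h1 (Block.centralChar_memLocalRing (χ B).2 _)
      refine Block.memLocalIdeal_mul_left (Block.blockCoeff_memLocalRing B'.2.1 _) ?_
      by_contra h2
      obtain ⟨hreg, hle⟩ := BlockVal.defect_le_of_blockCoeff_unit hM B'.2.1 h1
      have hge := BlockVal.defect_ge_of_centralChar_unit hM B.2.1 (hχ B) h2
      rw [B'.2.2] at hle
      rw [B.2.2] at hge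
      exact hc (Finset.mem_image.mpr ⟨⟨c, c.out, Quotient.out_eq c, hreg, le_antisymm hle hge⟩,
        Finset.mem_univ _, rfl⟩)
    rw [← Finset.sum_subset (Finset.subset_univ (Finset.univ.image fun C : Cs => C.1))
      (fun c _ hc => hzero c hc), Finset.sum_image (fun a _ b _ h => Subtype.ext h)] at hr
    rw [Finset.sum_congr rfl fun C _ => ?_, hr]
    · by_cases h : B = B'
      · subst h
        rw [if_pos (hχ B), if_pos rfl, Block.redC_one]
      · rw [if_neg (fun hc => h (Subtype.ext (Block.pBlock_eq_of_mem B.2.1 B'.2.1 (hχ B) hc))),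
          if_neg h, Block.redC_zero]
    · rw [Block.redC_mul (Block.blockCoeff_memLocalRing B'.2.1 _)
        (Block.centralChar_memLocalRing (χ B).2 _), mul_comm]
  have hli : LinearIndependent (Block.ResF M) v := by
    rw [Fintype.linearIndependent_iff]
    intro a ha B
    have h : ∑ C : Cs, Block.redC M (Cfsg.centralChar (χ B : G → ℂ) C.1.out) *
        (∑ B' : Bs, a B' • v B') C = 0 := by
      exact Finset.sum_eq_zero fun C _ => by rw [ha]; simp
    simp only [Finset.sum_apply, Pi.smul_apply, smul_eq_mul, Finset.mul_sum] at h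
    rw [Finset.sum_comm] at h
    simp only [mul_left_comm _ (a _), ← Finset.mul_sum, pair, mul_ite, mul_one, mul_zero] at h
    rw [Finset.sum_eq_single B (fun x _ hx => if_neg (fun e => hx e.symm))
      (fun hh => absurd (Finset.mem_univ B) hh), if_pos rfl] at h
    exact h
  have h := hli.fintype_card_le_finrank
  rw [Module.finrank_pi] at h
  rw [Nat.card_eq_fintype_card, Nat.card_eq_fintype_card]
  exact h

end Cfsg.Agent.S4505
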