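import Cfsg.Statements.S4507
import Cfsg.Agent.DefOne.Galois

set_option autoImplicit false
open Cfsg

namespace Cfsg.Agent.S4507

/-- Let G be a finite group whose order g is divisible by the prime p exactly once, g′ = g/p, and fix a maximal ideal M of the algebraic integers containing p. Call two irreducible characters p-conjugate when a field automorphism of ℂ fixing the g′-th roots of unity carries one to the other. Let B be a p-block of positive defect (its defect group is a Sylow p-subgroup). Then B contains a subset Y (the exceptional family) such that: Y is a full p-conjugacy class (its members are pairwise p-conjugate and every p-conjugate of a member of Y lies in Y); every member of B outside Y is p-conjugate only to itself; the size t of Y divides p − 1 and B has exactly t + (p − 1)/t members; and there are signs δ_χ = ±1 (χ ∈ B) such that for every p-regular element x and every θ ∈ Y, Σ_{χ ∈ B ∖ Y} δ_χ χ(x) + δ_θ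 θ(x) = 0. -/
theorem result {G : Type*} [Group G] [Finite G] (p : ℕ) [Fact p.Prime] (M : Ideal Cfsg.AlgInt) (hM : Cfsg.IsPModular p M) (hdiv : p ∣ Nat.card G) (hsq : ¬ p ^ 2 ∣ Nat.card G) (B : Set (Cfsg.IrrCharacter G)) (hB : Cfsg.IsPBlock M B) (hd : 0 < Cfsg.blockDefect p B) : ∃ Y : Set (Cfsg.IrrCharacter G), Y ⊆ B ∧ Y.Nonempty ∧ (∀ θ ∈ Y, ∀ ψ : Cfsg.IrrCharacter G, (∃ σ : ℂ ≃+* ℂ, σ (Complex.exp (2 * Real.pi * Complex.I / ((Nat.card G / p ^ (Nat.card G).factorization p) : ℕ))) = Complex.exp (2 * Real.pi * Complex.I / ((Nat.card G / p ^ (Nat.card G).factorization p) : ℕ)) ∧ (ψ : G → ℂ) = fun g => σ ((θ : G → ℂ) g)) ↔ ψ ∈ Y) ∧ (∀ χ ∈ B, χ ∉ Y → ∀ ψ : Cfsg.IrrCharacter G, (∃ σ : ℂ ≃+* ℂ, σ (Complex.exp (2 * Real.pi * Complex.I / ((Nat.card G / p ^ (Nat.card G).factorization p) : ℕ))) = Complex.exp (2 * Real.pi * Complex.I / ((Nat.card G / p ^ (Nat.card G).factorization p) : ℕ)) ∧ (ψ : G → ℂ) = fun g => σ ((χ : G → ℂ) g)) → ψ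 = χ) ∧ Nat.card Y ∣ p - 1 ∧ Nat.card B = Nat.card Y + (p - 1) / Nat.card Y ∧ ∃ δ : Cfsg.IrrCharacter G → ℤ, (∀ χ ∈ B, δ χ = 1 ∨ δ χ = -1) ∧ ∀ x : G, ¬ p ∣ orderOf x → ∀ θ ∈ Y, (∑ᶠ χ ∈ B \ Y, (δ χ : ℂ) * (χ : G → ℂ) x) + (δ θ : ℂ) * (θ : G → ℂ) x = 0 := by
  classical
  letI := Fintype.ofFinite G
  letI : M.IsPrime := hM.2.1.isPrime
  have hp : p.Prime := Fact.out
  have hfac : (Nat.card G).factorization p = 1 := by
    refine le_antisymm ?_ (hp.factorization_pos_of_dvd Nat.card_pos.ne' hdiv)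
    by_contra h
    exact hsq ((pow_dvd_pow p (not_le.1 h)).trans (Nat.ordProj_dvd _ _))
  set m := Nat.card G / p ^ (Nat.card G).factorization p with hm_def
  haveI : NeZero m := ⟨(Nat.ordCompl_pos p Nat.card_pos.ne').ne'⟩
  have hpm : p.Coprime m := Nat.coprime_ordCompl hp Nat.card_pos.ne'
  have hm : ∀ {H : Type _} [Group H] [Finite H] (g : H),
      Nat.card H ∣ Nat.card G → ¬ p ∣ orderOf g → orderOf g ∣ m := by
    intro H _ _ g hH hg
    exact Nat.dvd_ordCompl_of_dvd_not_dvd ((orderOf_dvd_natCard g).trans hH) hg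
  -- the defect group is a Sylow subgroup
  obtain ⟨Q, hQ⟩ := Block.exists_isDefectGroup (p := p) (M := M) hB
  have hd1 : Cfsg.blockDefect p B = 1 := by
    have h : Cfsg.blockDefect p B ≤ (Nat.card G).factorization p := Nat.sub_le _ _
    omega
  have hQc : Nat.card Q = p := by rw [BlockVal.card_defectGroup hM hB hQ, hd1, pow_one]
  obtain ⟨P, hQP⟩ := (Block.isDefectGroup_isPGroup hQ).exists_le_sylow
  have hPc : Nat.card P = p := by rw [P.card_eq_multiplicity, hfac, pow_one]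
  have hQeq : Q = (P : Subgroup G) := Subgroup.eq_of_le_of_card_ge hQP (by rw [hQc, hPc])
  subst hQeq
  obtain ⟨L⟩ := DefOne.exists_loc P hPc
  obtain ⟨b, hb, θ, hθ, hθt⟩ := L.exists_root hM hB hQ
  obtain ⟨Y, δ, ε, hYi, hYB, hcard, hδ, hε, hX, hY, hrel, hagree⟩ :=
    L.exists_data hM hB hQ hb hθ hθt
  have hXfix : ∀ σ : ℂ ≃+* ℂ, σ (GalAvg.zeta m) = GalAvg.zeta m → ∀ χ ∈ B, χ ∉ Set.range Y →
      ∀ ψ : IrrCharacter G, (ψ : G → ℂ) = (fun g => σ ((χ : G → ℂ) g)) → ψ = χ := by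
    intro σ hσ χ hχ hχY ψ hψ
    refine Subtype.ext (hψ.trans (funext fun g => ?_))
    exact L.map_eq_of_row hM hB hQ hb hθ hθt hsq hm σ.toRingHom hσ hχ (hX χ hχ hχY) g
  have hrow : ∀ (σ : ℂ ≃+* ℂ) (k : (ZMod p)ˣ) (q : L.Exc θ), σ (GalAvg.zeta m) = GalAvg.zeta m →
      (∀ x : ZMod p, σ (ZMod.stdAddChar x) = ZMod.stdAddChar ((k : ZMod p) * x)) →
      ∀ ψ : IrrCharacter G, (ψ : G → ℂ) = (fun g => σ ((Y q : G → ℂ) g)) →
      ψ = Y ((k : L.Exc θ) * q) := by
    intro σ k q hσ hk ψ hψ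
    have hψB : ψ ∈ B := L.map_mem hM hB hQ hb hθ hθt hm σ.toRingHom hσ (hYB q) hψ
    by_cases hψY : ψ ∈ Set.range Y
    · obtain ⟨q', rfl⟩ := hψY
      have h := L.row_map hm σ.toRingHom hσ hk (Y q : G → ℂ) θ (q.out : ZMod p)
      have e : (fun g => σ.toRingHom ((Y q : G → ℂ) g)) = (Y q' : G → ℂ) := hψ.symm
      rw [e, ← Units.val_mul, hY q', hY q, QuotientGroup.out_eq', if_pos rfl, map_intCast] at h
      congr 1
      by_contra hne
      rw [if_neg ?_] at h
      · rcases hδ _ (hYB q) with a | a <;> simp [a] at h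
      · rw [QuotientGroup.mk_mul, QuotientGroup.out_eq']
        exact fun h' => hne h'.symm
    · -- a fixed character cannot be the image
      exfalso
      have hfix := fun g => L.map_eq_of_row hM hB hQ hb hθ hθt hsq hm σ.toRingHom hσ hψB
        (hX ψ hψB hψY) g
      refine hψY ⟨q, Subtype.ext (funext fun g => σ.injective ?_)⟩
      exact (congrFun hψ g).symm.trans (hfix g).symm
  have hte : (p - 1) / Nat.card (L.Exc θ) = Nat.card (L.autG θ) := by
    rw [← L.card_Exc_mul θ, Nat.mul_div_cancel_left _ Nat.card_pos]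
  refine ⟨Set.range Y, by rintro _ ⟨q, rfl⟩; exact hYB q,
    ⟨_, ((1 : (ZMod p)ˣ) : L.Exc θ), rfl⟩, ?_, ?_, ?_, ?_, δ, hδ, ?_⟩
  · rintro _ ⟨q, rfl⟩ ψ
    constructor
    · rintro ⟨σ, hσ, hψ⟩
      obtain ⟨k, hk⟩ := DefOne.exists_map_std (p := p) σ.toRingHom
      exact ⟨_, (hrow σ k q hσ hk ψ hψ).symm⟩
    · rintro ⟨q', rfl⟩
      obtain ⟨k, rfl⟩ : ∃ k : (ZMod p)ˣ, (k : L.Exc θ) * q = q' :=
        ⟨(q' * q⁻¹).out, by rw [QuotientGroup.out_eq', inv_mul_cancel_right]⟩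
      obtain ⟨σ, hσ, hσk⟩ := DefOne.exists_autC_std hpm k
      refine ⟨σ, hσ, ?_⟩
      have hk : ∀ x : ZMod p, σ (ZMod.stdAddChar x) = ZMod.stdAddChar ((k : ZMod p) * x) := by
        intro x
        conv_lhs => rw [show x = x.val • (1 : ZMod p) by rw [nsmul_one, ZMod.natCast_zmod_val],
          AddChar.map_nsmul_eq_pow, map_pow, hσk, ← AddChar.map_nsmul_eq_pow]
        rw [nsmul_eq_mul, ZMod.natCast_zmod_val, mul_comm]
      have hirr := OddChar.irr_map σ.toRingHom (Y q).2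
      have h := hrow σ k q hσ hk ⟨_, hirr⟩ rfl
      exact (congrArg Subtype.val h).symm
  · intro χ hχ hχY ψ hψ
    obtain ⟨σ, hσ, hψ⟩ := hψ
    exact hXfix σ hσ χ hχ hχY ψ hψ
  · rw [Nat.card_range_of_injective hYi]
    exact Dvd.intro _ (L.card_Exc_mul θ)
  · rw [Nat.card_range_of_injective hYi, hte, hcard, add_comm]
  · rintro x hx _ ⟨q, rfl⟩
    rw [← hrel x hx q, finsum_mem_eq_toFinset_sum]
    congr 1
    exact Finset.sum_congr (by ext χ; simp) fun _ _ => rfl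

end Cfsg.Agent.S4507
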