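import Cfsg.Statements.S4508
import Cfsg.Agent.BlockVal.TISylow
import Cfsg.Agent.BlockVal.SelfCentralizing
import Cfsg.Agent.BlockVal.TIMain
import Cfsg.Agent.CharExt.DetChar

set_option autoImplicit false
open Cfsg

namespace Cfsg.Agent.S4508

/-- An element of two-power order of the normaliser meeting `P` trivially in all powers. -/
theorem exists_two_elt {G : Type*} [Group G] [Finite G] {p : ℕ} [Fact p.Prime] {x : G}
    (hx : orderOf x = p) (hC : Subgroup.centralizer ({x} : Set G) = Subgroup.zpowers x) {r : ℕ}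
    (hr : r ∣ (Subgroup.zpowers x).relIndex
      (Subgroup.normalizer ((Subgroup.zpowers x : Subgroup G) : Set G))) :
    ∃ w ∈ Subgroup.normalizer ((Subgroup.zpowers x : Subgroup G) : Set G), orderOf w = r := by
  classical
  set P := Subgroup.zpowers x
  set N := Subgroup.normalizer ((P : Subgroup G) : Set G)
  let f := Subgroup.normalizerMonoidHom P
  have hker : f.ker = P.subgroupOf N := by
    rw [Subgroup.normalizerMonoidHom_ker]
    congr 1
    refine le_antisymm (fun g hg => ?_) (fun g hg => ?_)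
    · exact SelfCent.mem_P_of_mem_centralizer hC
        (Subgroup.mem_centralizer_iff.mp hg x (Subgroup.mem_zpowers x)).symm
    · rw [Subgroup.mem_centralizer_iff]
      intro h hh
      obtain ⟨i, rfl⟩ := Subgroup.mem_zpowers_iff.mp hh
      obtain ⟨j, rfl⟩ := Subgroup.mem_zpowers_iff.mp hg
      rw [← zpow_add, ← zpow_add, add_comm]
  have hPc : Nat.card P = p := SelfCent.card_zpowers_eq hx
  haveI : IsCyclic (ZMod (Nat.card P))ˣ := by
    rw [hPc]; infer_instance
  haveI : IsCyclic (MulAut P) :=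
    isCyclic_of_injective (IsCyclic.mulAutMulEquiv P).toMonoidHom
      (IsCyclic.mulAutMulEquiv P).injective
  haveI : IsCyclic f.range := inferInstance
  obtain ⟨g, hg⟩ := IsCyclic.exists_ofOrder_eq_natCard (α := f.range)
  obtain ⟨n, hn⟩ := g.2
  have hcard : Nat.card f.range = P.relIndex N := by
    rw [← Subgroup.index_ker, hker]; rfl
  have h1 : r ∣ orderOf n := by
    refine hr.trans ?_
    rw [← hcard, ← hg, ← Subgroup.orderOf_coe, ← hn]
    exact orderOf_map_dvd f n
  obtain ⟨k, hk⟩ := h1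
  refine ⟨(n : G) ^ k, N.pow_mem n.2 k, ?_⟩
  have hk0 : 0 < r * k := hk ▸ orderOf_pos n
  have hn' : orderOf (n : G) = r * k := by rw [Subgroup.orderOf_coe]; exact hk
  rw [orderOf_pow' _ (by rintro rfl; simp at hk0), hn', Nat.gcd_eq_right (dvd_mul_left k r),
    Nat.mul_div_cancel _ (Nat.pos_of_ne_zero (by rintro rfl; simp at hk0))]

/-- The product of a full system of roots of unity repeated an odd number of times. -/
theorem prod_roots {a m : ℕ} (ha : 0 < a) (hm : Odd m) {ζ : ℂ}
    (hζ : IsPrimitiveRoot ζ (2 * a)) : ∏ i : Fin (2 * a * m), ζ ^ (i : ℕ) = -1 := by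
  have hneg : ζ ^ a = -1 :=
    (hζ.pow (by omega) (mul_comm 2 a) : IsPrimitiveRoot (ζ ^ a) 2).eq_neg_one_of_two_right
  have hsum : ∑ i ∈ Finset.range (2 * a * m), i = a * (m * (2 * a * m - 1)) := by
    have h := Finset.sum_range_id_mul_two (2 * a * m)
    have h2 : a * (m * (2 * a * m - 1)) * 2 = 2 * a * m * (2 * a * m - 1) := by ring
    omega
  rw [Fin.prod_univ_eq_prod_range (fun i => ζ ^ i) (2 * a * m), Finset.prod_pow_eq_pow_sum, hsum,
    pow_mul, hneg]
  refine Odd.neg_one_pow (hm.mul ?_)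
  have h1 : 0 < 2 * a * m := Nat.mul_pos (by omega) hm.pos
  exact Nat.Even.sub_odd h1 ⟨a * m, by ring⟩ odd_one

/-- The local data: the trivial character of `P` does not occur. -/
theorem sum_P_eq_zero {G : Type*} [Group G] [Fintype G] {p : ℕ} [Fact p.Prime] {x : G}
    (hx : orderOf x = p) (hC : Subgroup.centralizer ({x} : Set G) = Subgroup.zpowers x)
    (he : 2 ≤ (Subgroup.zpowers x).relIndex
      (Subgroup.normalizer ((Subgroup.zpowers x : Subgroup G) : Set G)))
    {χ : G → ℂ} (hχ : Cfsg.IsIrrCharacter G χ) (hd : χ 1 = ((p - 1 : ℕ) : ℂ)) :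
    ∑ c : Subgroup.zpowers x, χ c = 0 := by
  classical
  set P := Subgroup.zpowers x with hP
  set N := Subgroup.normalizer ((P : Subgroup G) : Set G)
  have hcentP : Subgroup.centralizer ((P : Subgroup G) : Set G) = P := by
    refine le_antisymm (fun g hg => SelfCent.mem_P_of_mem_centralizer hC
      (Subgroup.mem_centralizer_iff.mp hg x (Subgroup.mem_zpowers x)).symm) (fun g hg => ?_)
    rw [Subgroup.mem_centralizer_iff]
    intro h hh
    obtain ⟨i, rfl⟩ := Subgroup.mem_zpowers_iff.mp hh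
    obtain ⟨j, rfl⟩ := Subgroup.mem_zpowers_iff.mp hg
    rw [← zpow_add, ← zpow_add, add_comm]
  have hstar : ∀ y ∈ (SelfCent.theSylow hx hC : Subgroup G), y ≠ 1 →
      Subgroup.centralizer ({y} : Set G) =
        Subgroup.centralizer ((SelfCent.theSylow hx hC : Subgroup G) : Set G) := by
    intro y hy hy1
    have hy' : y ∈ P := hy
    show Subgroup.centralizer ({y} : Set G) = Subgroup.centralizer ((P : Subgroup G) : Set G)
    rw [hcentP]
    have hord : orderOf y = p := ((Nat.dvd_prime (Fact.out : p.Prime)).mp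
      (hx ▸ orderOf_dvd_of_mem_zpowers hy')).resolve_left
        fun h => hy1 (orderOf_eq_one_iff.mp h)
    have hzy : Subgroup.zpowers y = P := Subgroup.eq_of_le_of_card_ge
      (Subgroup.zpowers_le.mpr hy') (le_of_eq (by rw [hP, Nat.card_zpowers, Nat.card_zpowers, hx, hord]))
    refine le_antisymm (fun g hg => ?_) (fun g hg => ?_)
    · rw [Subgroup.mem_centralizer_singleton_iff] at hg
      apply SelfCent.mem_P_of_mem_centralizer hC
      obtain ⟨k, hk⟩ := Subgroup.mem_zpowers_iff.mp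
        (show x ∈ Subgroup.zpowers y by rw [hzy]; exact Subgroup.mem_zpowers x)
      rw [← hk]
      exact (show Commute g y from hg).zpow_right k
    · rw [← hcentP] at hg
      rw [Subgroup.mem_centralizer_singleton_iff]
      exact (Subgroup.mem_centralizer_iff.mp hg y hy').symm
  have hne : (SelfCent.theSylow hx hC : Subgroup G) ≠ ⊥ := by
    show P ≠ ⊥
    intro h
    have := SelfCent.card_zpowers_eq hx
    rw [← hP, h, Subgroup.card_bot] at this
    exact (Fact.out : p.Prime).one_lt.ne this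
  obtain ⟨S, hSQ, hSC⟩ := TICent.exists_setup (SelfCent.theSylow hx hC) hne hstar
  replace hSQ : S.Q = P := hSQ
  replace hSC : S.C = P := hSC.trans hcentP
  have hPc : Nat.card P = p := SelfCent.card_zpowers_eq hx
  have hq : S.q = p := by rw [TICent.Setup.q, hSQ, hPc]
  have hK : Subsingleton S.K := by
    have h := S.card_C
    have hCQ : Nat.card S.C = Nat.card P ∧ Nat.card S.Q = Nat.card P :=
      ⟨by rw [hSC], by rw [hSQ]⟩
    rw [hCQ.1, hCQ.2] at h
    exact (Nat.card_eq_one_iff_unique.mp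
      (Nat.eq_of_mul_eq_mul_left (Nat.card_pos (α := P)) (h.symm.trans (mul_one _).symm))).1
  haveI hsub : Subsingleton (Cfsg.IrrCharacter S.K) := ⟨fun a b => by
    obtain ⟨f, hf⟩ := Char.irr_exists_monoidHom_of_comm (fun _ _ => Subsingleton.elim _ _) a.2
    obtain ⟨g, hg⟩ := Char.irr_exists_monoidHom_of_comm (fun _ _ => Subsingleton.elim _ _) b.2
    refine Subtype.ext (funext fun y => ?_)
    rw [hf, hg, Subsingleton.elim y 1]
    simp⟩
  have he' : S.e = P.relIndex N := by
    have h := S.e_mul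
    rw [hSC, TICent.Setup.N, hSQ, hPc, SelfCent.card_normalizer_eq hx, mul_comm p] at h
    exact Nat.eq_of_mul_eq_mul_right (Fact.out : p.Prime).pos h
  set μ : (S.Q →* ℂˣ) → ℤ := fun l => S.m χ (S.lin l) with hμ
  have hχc := Char.isCharacter_of_irr hχ
  have hdK : S.dK S.oneK = 1 := by
    have h : (1 : ℂ) = ((S.dK S.oneK : ℕ) : ℂ) := S.dK_eq S.oneK
    exact_mod_cast h.symm
  have hsum : ∑ l, μ l = ((p - 1 : ℕ) : ℤ) := by
    have h := S.degree_eq hχc
    rw [hd, Fintype.sum_prod_type] at h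
    rw [← Int.cast_natCast (R := ℂ), Int.cast_inj] at h
    rw [h]
    refine Finset.sum_congr rfl fun l _ => ?_
    rw [Fintype.sum_subsingleton _ S.oneK, hdK, Nat.cast_one, mul_one]
    rfl
  have hT := S.T_oneK_le hχ
  rw [hq, TICent.Setup.T, hq] at hT
  change (p : ℤ) * ∑ l, μ l ^ 2 - (∑ l, μ l) ^ 2 < (S.e : ℤ) * p at hT
  rw [hsum] at hT
  have hp1 : 1 ≤ p := (Fact.out : p.Prime).pos
  have hcp : (((p - 1 : ℕ) : ℤ)) = (p : ℤ) - 1 := by omega
  rw [hcp] at hT hsum
  have hsq : ∑ l, (μ l ^ 2 - μ l) ≤ (S.e : ℤ) - 1 := by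
    rw [Finset.sum_sub_distrib, hsum]
    set A := ∑ l, μ l ^ 2
    have hp0 : (0 : ℤ) < p := by exact_mod_cast hp1
    by_contra hcon
    push Not at hcon
    have : (S.e : ℤ) + p - 1 ≤ A := by omega
    nlinarith [mul_le_mul_of_nonneg_left this hp0.le]
  have hnn : ∀ l, 0 ≤ μ l ^ 2 - μ l := fun l => by
    have h0 : 0 ≤ μ l := S.m_nonneg hχc _
    rcases eq_or_lt_of_le h0 with h | h
    · rw [← h]; norm_num
    · nlinarith
  have horb : ∀ l, l ≠ 1 → ∀ l' ∈ S.orbL l, μ l' = μ l := fun l _ l' hl' =>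
    S.m_of_mem_orb hχc (S.mem_orbL.mp hl')
  have hle1 : ∀ l, l ≠ 1 → μ l = 0 ∨ μ l = 1 := by
    intro l hl
    have h1 : ∑ l' ∈ S.orbL l, (μ l' ^ 2 - μ l') ≤ ∑ l', (μ l' ^ 2 - μ l') :=
      Finset.sum_le_sum_of_subset_of_nonneg (Finset.subset_univ _) fun i _ _ => hnn i
    rw [Finset.sum_congr rfl (fun l' hl' => by rw [horb l hl l' hl']), Finset.sum_const,
      S.card_orbL hl, nsmul_eq_mul] at h1
    have h2 : (S.e : ℤ) * (μ l ^ 2 - μ l) ≤ (S.e : ℤ) - 1 := h1.trans hsq
    have h0 : 0 ≤ μ l := S.m_nonneg hχc _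
    by_contra hcon
    push Not at hcon
    have h3 : 2 ≤ μ l := by omega
    have h4 : 1 ≤ μ l ^ 2 - μ l := by nlinarith
    have h5 := mul_le_mul_of_nonneg_left h4 (Int.natCast_nonneg S.e)
    linarith
  -- the ones form full orbits
  set A := Finset.univ.filter fun l => l ≠ 1 ∧ μ l = 1 with hA
  have hdiv : S.e ∣ A.card := by
    rw [Finset.card_eq_sum_card_image (fun l => S.orbL l) A]
    refine Finset.dvd_sum fun o ho => ?_
    obtain ⟨l, hl, rfl⟩ := Finset.mem_image.mp ho
    obtain ⟨hl1, hl2⟩ := (Finset.mem_filter.mp hl).2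
    have : A.filter (fun r => S.orbL r = S.orbL l) = S.orbL l := by
      ext r
      simp only [hA, Finset.mem_filter, Finset.mem_univ, true_and]
      constructor
      · rintro ⟨-, h⟩; rw [← h]; exact S.self_mem_orbL r
      · exact fun h => ⟨⟨S.ne_one_of_mem_orbL hl1 h, by rw [horb l hl1 r h, hl2]⟩,
          S.orbL_eq_of_mem h⟩
    rw [this, S.card_orbL hl1]
  have hsplit : μ 1 + (A.card : ℤ) = (p : ℤ) - 1 := by
    rw [← hsum, ← Finset.add_sum_erase Finset.univ μ (Finset.mem_univ 1)]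
    congr 1
    rw [← Finset.sum_filter_add_sum_filter_not (Finset.univ.erase 1) (fun l => μ l = 1)]
    have e1 : (Finset.univ.erase 1).filter (fun l => μ l = 1) = A := by
      ext l; simp [hA]
    rw [e1, Finset.sum_congr rfl (fun l hl => (Finset.mem_filter.mp hl).2.2), Finset.sum_const,
      Finset.sum_eq_zero (fun l hl => ?_)]
    · simp
    · simp only [Finset.mem_filter, Finset.mem_erase] at hl
      exact (hle1 l hl.1.1).resolve_right hl.2
  have hmul := SelfCent.classes_mul_relIndex hx hC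
  rw [← he'] at hmul
  have hediv : (S.e : ℤ) ∣ μ 1 := by
    have h1 : (S.e : ℤ) ∣ (p : ℤ) - 1 := by
      rw [← hcp, ← hmul]; exact_mod_cast dvd_mul_left _ _
    have h2 : μ 1 = ((p : ℤ) - 1) - (A.card : ℤ) := by omega
    rw [h2]
    exact dvd_sub h1 (by exact_mod_cast hdiv)
  have h10 : μ 1 = 0 := by
    have h1 : μ 1 ^ 2 - μ 1 ≤ (S.e : ℤ) - 1 :=
      (Finset.single_le_sum (fun i _ => hnn i) (Finset.mem_univ 1)).trans hsq
    obtain ⟨k, hk⟩ := hediv
    have he2 : (2 : ℤ) ≤ S.e := by rw [he']; exact_mod_cast he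
    have h0 : 0 ≤ μ 1 := S.m_nonneg hχc _
    rw [hk] at h1 h0 ⊢
    by_contra hcon
    have hk1 : 1 ≤ k := by
      by_contra hk'
      push Not at hk'
      rcases lt_or_eq_of_le (show k ≤ 0 by omega) with h | h
      · nlinarith
      · exact hcon (by rw [h, mul_zero])
    nlinarith [mul_le_mul_of_nonneg_left hk1 (by linarith : (0 : ℤ) ≤ S.e)]
  have hin := S.inner_ch hχc (S.lin 1)
  rw [show S.m χ (S.lin 1) = 0 from h10, S.ch_lin, Int.cast_zero, Cfsg.classInner,
    mul_eq_zero] at hin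
  have hz := hin.resolve_left (by simp [Nat.card_pos.ne'])
  rw [← hz]
  refine Fintype.sum_equiv (Equiv.subtypeEquivRight fun g => by rw [hSC]) _ _ fun c => ?_
  simp [TICent.Setup.res]

/-- Outside `P` the normaliser meets no zero of the fixed space. -/
theorem vanish {G : Type*} [Group G] [Fintype G] {p : ℕ} [Fact p.Prime] {x : G}
    (hx : orderOf x = p) (hC : Subgroup.centralizer ({x} : Set G) = Subgroup.zpowers x)
    {χ : G → ℂ} (hχ : Cfsg.IsCharacter G χ) (h0 : ∑ c : Subgroup.zpowers x, χ c = 0)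
    {w : G} (hwN : w ∈ Subgroup.normalizer ((Subgroup.zpowers x : Subgroup G) : Set G))
    (hwP : w ∉ Subgroup.zpowers x) : χ w = 0 := by
  classical
  set P := Subgroup.zpowers x
  obtain ⟨n, ρ, rfl⟩ := hχ
  set E : (Fin n → ℂ) →ₗ[ℂ] (Fin n → ℂ) := (Nat.card P : ℂ)⁻¹ • ∑ c : P, ρ c with hE
  have hsq : (∑ c : P, ρ c) * ∑ c : P, ρ c = (Nat.card P : ℂ) • ∑ c : P, ρ c := by
    rw [Finset.sum_mul, Finset.sum_congr rfl (fun a _ => ?_), Finset.sum_const, Finset.card_univ,
      ← Nat.card_eq_fintype_card, Nat.cast_smul_eq_nsmul]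
    rw [Finset.mul_sum]
    refine Fintype.sum_equiv (Equiv.mulLeft a) _ _ fun c => ?_
    rw [← map_mul]
    rfl
  have hidem : IsIdempotentElem E := by
    show E * E = E
    rw [hE, smul_mul_smul_comm, hsq, smul_smul, mul_assoc,
      inv_mul_cancel₀ (by exact_mod_cast (Nat.card_pos (α := P)).ne'), mul_one]
  have hE0 : E = 0 := by
    apply (LinearMap.IsIdempotentElem.trace_eq_zero_iff hidem).mp
    rw [hE, map_smul, map_sum]
    exact smul_eq_zero.mpr (Or.inr h0)
  have hs0 : ∑ c : P, ρ c = 0 := by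
    rw [hE, smul_eq_zero] at hE0
    exact hE0.resolve_left (inv_ne_zero (by exact_mod_cast (Nat.card_pos (α := P)).ne'))
  have hconj : ∀ c : P, ρ.character (w * c) = ρ.character w := by
    let f : P → P := fun v => ⟨w⁻¹ * v * w * (v : G)⁻¹,
      mul_mem (by simpa using (Subgroup.mem_normalizer_iff.mp (inv_mem hwN) v).mp v.2)
        (inv_mem v.2)⟩
    have hinj : Function.Injective f := by
      intro a b hab
      have h' : w⁻¹ * (a : G) * w * (a : G)⁻¹ = w⁻¹ * (b : G) * w * (b : G)⁻¹ :=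
        congrArg Subtype.val hab
      by_contra hne
      apply hwP
      have hc : ((b⁻¹ * a : P) : G) * w = w * ((b⁻¹ * a : P) : G) := by
        have hcomm : ∀ u v : P, (u : G) * v = v * u := by
          rintro ⟨u, hu⟩ ⟨v, hv⟩
          obtain ⟨i, rfl⟩ := Subgroup.mem_zpowers_iff.mp hu
          obtain ⟨j, rfl⟩ := Subgroup.mem_zpowers_iff.mp hv
          rw [← zpow_add, ← zpow_add, add_comm]
        have h1 : (a : G) * w * (a : G)⁻¹ = (b : G) * w * (b : G)⁻¹ := by
          simpa [mul_assoc] using h'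
        push_cast
        calc (b : G)⁻¹ * a * w = (b : G)⁻¹ * ((a : G) * w * (a : G)⁻¹) * a := by group
          _ = w * ((b : G)⁻¹ * a) := by rw [h1]; group
      refine SelfCent.mem_P_of_mem_centralizer hC ?_
      have hu1 : ((b⁻¹ * a : P) : G) ≠ 1 := fun h =>
        hne (inv_mul_eq_one.mp (Subtype.ext h : b⁻¹ * a = 1)).symm
      have hord : orderOf ((b⁻¹ * a : P) : G) = p := ((Nat.dvd_prime (Fact.out : p.Prime)).mp
        (hx ▸ orderOf_dvd_of_mem_zpowers (b⁻¹ * a : P).2)).resolve_left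
          fun h => hu1 (orderOf_eq_one_iff.mp h)
      have hzy : x ∈ Subgroup.zpowers ((b⁻¹ * a : P) : G) := by
        rw [Subgroup.eq_of_le_of_card_ge (Subgroup.zpowers_le.mpr (b⁻¹ * a : P).2)
          (le_of_eq (by rw [Nat.card_zpowers, Nat.card_zpowers, hx, hord]))]
        exact Subgroup.mem_zpowers x
      obtain ⟨k, hk⟩ := Subgroup.mem_zpowers_iff.mp hzy
      rw [← hk]
      exact (show Commute w _ from hc.symm).zpow_right k
    intro c
    obtain ⟨v, hv⟩ := Finite.surjective_of_injective hinj c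
    rw [← hv]
    show ρ.character (w * (w⁻¹ * v * w * (v : G)⁻¹)) = _
    rw [show w * (w⁻¹ * v * w * (v : G)⁻¹) = v * w * (v : G)⁻¹ by group, ρ.char_conj]
  have hfin : ∑ c : P, ρ.character (w * c) = 0 := by
    simp only [Representation.character, map_mul, ← map_sum, ← Finset.mul_sum, hs0, mul_zero,
      map_zero]
  simp only [hconj, Finset.sum_const, Finset.card_univ, nsmul_eq_mul] at hfin
  exact (mul_eq_zero.mp hfin).resolve_left (Nat.cast_ne_zero.mpr Fintype.card_ne_zero)


/-- Let the finite group G contain an element x of prime order p with C_G(x) = ⟨x⟩, and let t be the number of conjugacy classes of elements of order p. If G has an irreducible character of degree p − 1, then t is even or the commutator subgroup has even index. -/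
theorem result {G : Type*} [Group G] [Finite G] (p : ℕ) (hp : p.Prime) (x : G) (hx : orderOf x = p) (hC : Subgroup.centralizer ({x} : Set G) = Subgroup.zpowers x) (t : ℕ) (ht : Nat.card {C : ConjClasses G // ∃ g ∈ C.carrier, orderOf g = p} = t) (χ : Cfsg.IrrCharacter G) (hχ : Cfsg.charDegree (χ : G → ℂ) + 1 = p) : Even t ∨ Even (commutator G).index := by
  classical
  haveI : Fact p.Prime := ⟨hp⟩
  letI := Fintype.ofFinite G
  set P := Subgroup.zpowers x with hP
  set N := Subgroup.normalizer ((P : Subgroup G) : Set G)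
  have hmul := SelfCent.classes_mul_relIndex hx hC
  rw [ht] at hmul
  by_cases hteven : Even t
  · exact Or.inl hteven
  right
  by_cases he1 : P.relIndex N = 1
  · obtain ⟨-, hidx⟩ := SelfCent.commutator_of_relIndex_one hx hC he1
    rw [hidx]
    rcases hp.eq_two_or_odd' with h | h
    · rw [h]; exact even_two
    · rw [he1, mul_one] at hmul
      exact absurd (hmul ▸ Nat.Odd.sub_odd h odd_one) hteven
  have htodd : Odd t := Nat.not_even_iff_odd.mp hteven
  have hp1 : 1 < p := hp.one_lt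
  have hp2 : p ≠ 2 := by
    rintro rfl
    rw [show (2 : ℕ) - 1 = 1 by norm_num, mul_eq_one] at hmul
    exact he1 hmul.2
  have hpm : p - 1 ≠ 0 := by omega
  obtain ⟨v, m, hm2, hv⟩ := Nat.exists_eq_pow_mul_and_not_dvd hpm 2 (by norm_num)
  have hmodd : Odd m := Nat.odd_iff.mpr (by omega)
  have hv0 : v ≠ 0 := by
    rintro rfl
    have : Odd p := hp.odd_of_ne_two hp2
    obtain ⟨k, hk⟩ := this
    simp only [pow_zero, one_mul] at hv
    omega
  obtain ⟨v, rfl⟩ := Nat.exists_eq_succ_of_ne_zero hv0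
  set a := 2 ^ v with ha
  have hr2 : 2 ^ (v + 1) = 2 * a := by rw [ha, pow_succ, mul_comm]
  rw [hr2] at hv
  have hrdvd : 2 * a ∣ P.relIndex N := by
    refine (Nat.Coprime.dvd_of_dvd_mul_left ?_ (hmul.symm ▸ Dvd.intro m hv.symm : 2 * a ∣ t * _))
    rw [← hr2]
    exact Nat.Coprime.pow_left _ (Nat.coprime_two_left.mpr htodd)
  obtain ⟨w, hwN, hw⟩ := exists_two_elt hx hC hrdvd
  have hd : (χ : G → ℂ) 1 = ((p - 1 : ℕ) : ℂ) := by
    obtain ⟨d, -, hd⟩ := Char.irr_one_pos χ.2
    rw [TICent.charDegree_eq hd] at hχ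
    rw [hd, show d = p - 1 by omega]
  have he2 : 2 ≤ P.relIndex N := by
    have : P.relIndex N ≠ 0 := fun h => by rw [h, mul_zero] at hmul; omega
    omega
  have h0 := sum_P_eq_zero hx hC he2 χ.2 hd
  -- the spectrum of `w`
  obtain ⟨n, ρ, hρ⟩ := Char.isCharacter_of_irr χ.2
  obtain ⟨b, ε, hb, -⟩ := Char.exists_eigenbasis ρ w
  have hn : Module.finrank ℂ (Fin n → ℂ) = 2 * a * m := by
    have h := congrFun hρ 1
    rw [ρ.char_one, hd, Nat.cast_inj] at h
    rw [h, hv]
  have hdet : LinearMap.det (ρ w) = ∏ i, ε i := by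
    rw [← LinearMap.det_toMatrix b, ← Matrix.det_diagonal]
    congr 1
    ext i j
    rw [LinearMap.toMatrix_apply, hb j, map_smul, Module.Basis.repr_self]
    by_cases hij : i = j
    · subst hij; simp
    · simp [hij, Ne.symm hij]
  have ha0 : 0 < a := Nat.two_pow_pos v
  obtain ⟨ζ, hζ⟩ : ∃ ζ : ℂ, IsPrimitiveRoot ζ (2 * a) :=
    ⟨_, Complex.isPrimitiveRoot_exp _ (by omega)⟩
  have hpows : ∀ k : ℕ, ∑ i, ε i ^ k = ∑ i, (ζ ^ ((finCongr hn i : Fin _) : ℕ)) ^ k := by
    intro k
    rw [← Char.character_pow_eq_sum ρ hb k, hρ,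
      (finCongr hn).sum_comp (fun i : Fin (2 * a * m) => (ζ ^ (i : ℕ)) ^ k),
      Fin.sum_univ_eq_sum_range (fun i => (ζ ^ i) ^ k) (2 * a * m)]
    simp only [← pow_mul, mul_comm _ k]
    simp only [pow_mul]
    by_cases hk : 2 * a ∣ k
    · rw [(hζ.pow_eq_one_iff_dvd k).mpr hk, orderOf_dvd_iff_pow_eq_one.mp (hw.symm ▸ hk), hd, hv]
      simp
    · have hzk : ζ ^ k ≠ 1 := fun h => hk ((hζ.pow_eq_one_iff_dvd k).mp h)
      have hwk : w ^ k ∉ P := by
        intro hmem
        have h1 : orderOf (w ^ k) ∣ p := hx ▸ orderOf_dvd_of_mem_zpowers hmem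
        have h2 : orderOf (w ^ k) ∣ 2 ^ (v + 1) := hr2 ▸ hw ▸ orderOf_pow_dvd k
        have h3 : orderOf (w ^ k) = 1 := Nat.eq_one_of_dvd_coprimes
          (Nat.Coprime.pow_right _ ((Nat.coprime_primes hp Nat.prime_two).mpr hp2)) h1 h2
        exact hk (hw ▸ orderOf_dvd_of_pow_eq_one (orderOf_eq_one_iff.mp h3))
      rw [vanish hx hC (Char.isCharacter_of_irr χ.2) h0 (N.pow_mem hwN k) hwk, geom_sum_eq hzk,
        ← pow_mul, (hζ.pow_eq_one_iff_dvd _).mpr ((dvd_mul_right _ m).mul_left k), sub_self,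
        zero_div]
  have hdm1 : LinearMap.det (ρ w) = -1 := by
    rw [hdet, CharExt.prod_eq_of_power_sums_eq _ _ hpows,
      (finCongr hn).prod_comp (fun i : Fin (2 * a * m) => ζ ^ (i : ℕ)), prod_roots ha0 hmodd hζ]
  let f : G →* ℂˣ := MonoidHom.toHomUnits (LinearMap.det.comp ρ)
  have hf : f w ≠ 1 ∧ f w ^ 2 = 1 := by
    have hval : (f w : ℂ) = -1 := hdm1
    refine ⟨fun h => ?_, Units.ext ?_⟩
    · rw [h, Units.val_one] at hval; norm_num at hval
    · rw [Units.val_pow_eq_pow_val, hval]; norm_num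
  let q : G ⧸ commutator G →* ℂˣ := Abelianization.lift f
  rw [even_iff_two_dvd, Subgroup.index]
  have h2 : orderOf (f w) = 2 := orderOf_eq_prime hf.2 hf.1
  refine h2 ▸ dvd_trans ?_ (orderOf_dvd_natCard (QuotientGroup.mk w : G ⧸ commutator G))
  exact orderOf_map_dvd q (QuotientGroup.mk w)

end Cfsg.Agent.S4508
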