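import Cfsg.Statements.S4509
import Cfsg.Agent.BlockVal.SelfCentralizing

set_option autoImplicit false
open Cfsg

namespace Cfsg.Agent.S4509

/-- Let the finite group G contain an element x of prime order p with C_G(x) = ⟨x⟩; let t be the number of conjugacy classes of elements of order p and 1 + n·p the number of subgroups of order p. Then G has a normal subgroup of order 1 + n·p if and only if either t = p − 1, or t < p − 1 and G″ ≠ G′. Moreover, if t = p − 1 then G′ has order 1 + n·p and G/G′ is cyclic of order p; and if t < p − 1 and G″ ≠ G′ then G″ has order 1 + n·p and G′ has order p·(1 + n·p). -/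
theorem result {G : Type*} [Group G] [Finite G] (p : ℕ) (hp : p.Prime) (x : G) (hx : orderOf x = p) (hC : Subgroup.centralizer ({x} : Set G) = Subgroup.zpowers x) (t : ℕ) (ht : Nat.card {C : ConjClasses G // ∃ g ∈ C.carrier, orderOf g = p} = t) (n : ℕ) (hn : Nat.card {H : Subgroup G // Nat.card H = p} = 1 + n * p) : ((∃ S : Subgroup G, S.Normal ∧ Nat.card S = 1 + n * p) ↔ (t = p - 1 ∨ (t < p - 1 ∧ derivedSeries G 2 ≠ derivedSeries G 1))) ∧ (t = p - 1 → Nat.card (commutator G) = 1 + n * p ∧ IsCyclic (G ⧸ commutator G) ∧ (commutator G).index = p) ∧ (t < p - 1 → derivedSeries G 2 ≠ derivedSeries G 1 → Nat.card (derivedSeries G 2) = 1 + n * p ∧ Nat.card (commutator G) = p * (1 + n * p)) := by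
  haveI : Fact p.Prime := ⟨hp⟩
  have hmul := SelfCent.classes_mul_relIndex hx hC
  rw [ht] at hmul
  have hp2 := hp.two_le
  rw [SelfCent.card_subgroups_of_card hx hC] at hn
  set N := Subgroup.normalizer ((Subgroup.zpowers x : Subgroup G) : Set G) with hN
  set e := (Subgroup.zpowers x).relIndex N
  have hcardG : N.index * Nat.card N = Nat.card G := SelfCent.index_mul_card_normalizer
  have hNcard : Nat.card N = p * e := SelfCent.card_normalizer_eq hx
  have hNle : N.index ≠ 0 := Subgroup.index_ne_zero_of_finite
  have part1 : t = p - 1 → Nat.card (commutator G) = 1 + n * p ∧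
      IsCyclic (G ⧸ commutator G) ∧ (commutator G).index = p := by
    intro hteq
    rw [hteq] at hmul
    have he1 : e = 1 := mul_left_cancel₀ (by omega : p - 1 ≠ 0) (hmul.trans (mul_one _).symm)
    obtain ⟨-, hidx⟩ := SelfCent.commutator_of_relIndex_one hx hC he1
    refine ⟨?_, isCyclic_of_prime_card (p := p) hidx, hidx⟩
    have h := Subgroup.card_mul_index (commutator G)
    rw [hidx, ← hcardG, hNcard, he1, mul_one] at h
    rw [← hn]
    exact Nat.eq_of_mul_eq_mul_right hp.pos h
  have part2 : t < p - 1 → derivedSeries G 2 ≠ derivedSeries G 1 →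
      Nat.card (derivedSeries G 2) = 1 + n * p ∧ Nat.card (commutator G) = p * (1 + n * p) := by
    intro htlt hne
    have he1 : e ≠ 1 := fun h => by rw [h, mul_one] at hmul; omega
    have hd := SelfCent.dvd_card_commutator hx hC he1
    obtain ⟨hDp, hcard, -⟩ := (SelfCent.commutator_cases hx hC hd).resolve_left hne
    obtain ⟨hdiv, -, -, -, hdisj⟩ := SelfCent.normal_coprime hx hC (derivedSeries G 2) hDp
    have hxG' := SelfCent.mem_of_dvd_card hx hC hd
    have hsup : commutator G ⊔ N = ⊤ := by
      rw [sup_comm, hN, ← SelfCent.coe_theSylow hx hC]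
      exact Sylow.normalizer_sup_eq_top' (SelfCent.theSylow hx hC)
        (by rw [SelfCent.coe_theSylow]; exact Subgroup.zpowers_le.mpr hxG')
    have hind : (commutator G).index ∣ e := by
      rw [← Subgroup.relIndex_top_right, ← hsup, sup_comm, Subgroup.relIndex_sup_right]
      have h1 : Subgroup.zpowers x ≤ commutator G ⊓ N :=
        le_inf (Subgroup.zpowers_le.mpr hxG') Subgroup.le_normalizer
      rw [← Subgroup.inf_relIndex_right]
      exact Dvd.intro_left _ (Subgroup.relIndex_mul_relIndex _ _ _ h1 inf_le_right)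
    have hGd : N.index ∣ Nat.card (derivedSeries G 2) := by
      obtain ⟨k, hk⟩ := hind
      refine ⟨k, ?_⟩
      have h := Subgroup.card_mul_index (commutator G)
      rw [hcard, ← hcardG, hNcard, hk] at h
      have hc0 : (commutator G).index ≠ 0 := Subgroup.index_ne_zero_of_finite
      apply Nat.eq_of_mul_eq_mul_left (Nat.mul_pos hp.pos (Nat.pos_of_ne_zero hc0))
      calc p * (commutator G).index * Nat.card (derivedSeries G 2)
          = p * Nat.card (derivedSeries G 2) * (commutator G).index := by ring
        _ = N.index * (p * ((commutator G).index * k)) := h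
        _ = _ := by ring
    have heq : Nat.card (derivedSeries G 2) = 1 + n * p := hn ▸ Nat.dvd_antisymm hdiv hGd
    exact ⟨heq, by rw [hcard, heq]⟩
  refine ⟨⟨?_, ?_⟩, part1, part2⟩
  · rintro ⟨S, hSn, hS⟩
    haveI := hSn
    by_cases hteq : t = p - 1
    · exact Or.inl hteq
    right
    have htle : t ≤ p - 1 := by
      rw [← hmul]
      refine Nat.le_mul_of_pos_right t (Nat.pos_of_ne_zero fun h => ?_)
      rw [h, mul_zero] at hmul; omega
    refine ⟨lt_of_le_of_ne htle hteq, fun heq => ?_⟩
    have hSp : ¬ p ∣ Nat.card S := by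
      rw [hS]
      intro h
      have : p ∣ 1 := (Nat.dvd_add_left (dvd_mul_left p n)).mp h
      exact hp.one_lt.ne' (Nat.dvd_one.mp this)
    obtain ⟨-, -, -, -, hdisj⟩ := SelfCent.normal_coprime hx hC S hSp
    -- the second derived subgroup lies in `S`
    have hSN : S ⊔ N = ⊤ := by
      refine (Subgroup.isComplement'_of_card_mul_and_disjoint ?_ (disjoint_iff.mpr hdisj)).sup_eq_top
      rw [hS, ← hn, hcardG]
    have h2 : derivedSeries G 2 ≤ S := by
      rw [← QuotientGroup.ker_mk' S, ← Subgroup.map_eq_bot_iff, map_derivedSeries_eq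
        (QuotientGroup.mk'_surjective S), eq_bot_iff, derivedSeries_succ, Subgroup.commutator_le]
      intro a ha b hb
      have h1 : derivedSeries (G ⧸ S) 1 ≤
          (Subgroup.zpowers x).map (QuotientGroup.mk' S) := by
        rw [derivedSeries_one, commutator_def, ← MonoidHom.range_eq_top.mpr
          (QuotientGroup.mk'_surjective S), MonoidHom.range_eq_map, ← hSN, Subgroup.map_sup,
          QuotientGroup.map_mk'_self, bot_sup_eq, ← Subgroup.map_commutator]
        refine Subgroup.map_mono ((Subgroup.commutator_le).mpr fun u hu v hv => ?_)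
        exact SelfCent.commutatorElement_mem_zpowers hC hu hv
      obtain ⟨u, hu, rfl⟩ := h1 ha
      obtain ⟨v, hv, rfl⟩ := h1 hb
      rw [Subgroup.mem_bot, ← map_commutatorElement]
      obtain ⟨i, rfl⟩ := Subgroup.mem_zpowers_iff.mp hu
      obtain ⟨j, rfl⟩ := Subgroup.mem_zpowers_iff.mp hv
      rw [commutatorElement_eq_one_iff_mul_comm.mpr (by rw [← zpow_add, ← zpow_add, add_comm]),
        map_one]
    rw [heq, derivedSeries_one] at h2
    have he1 : e ≠ 1 := fun h => by rw [h, mul_one] at hmul; exact hteq hmul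
    exact hSp ((SelfCent.dvd_card_commutator hx hC he1).trans (Subgroup.card_dvd_of_le h2))
  · rintro (hteq | ⟨htlt, hne⟩)
    · exact ⟨commutator G, inferInstance, (part1 hteq).1⟩
    · exact ⟨derivedSeries G 2, inferInstance, (part2 htlt hne).1⟩

end Cfsg.Agent.S4509
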