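import Cfsg.Statements.S4510
import Cfsg.Agent.BlockVal.SquareSum

set_option autoImplicit false
open Cfsg

namespace Cfsg.Agent.S4510

/-- Let G be a finite group, p a prime, M a maximal ideal of the algebraic integers containing p, and call the defect of a conjugacy class the exponent of p in the order of the centralizer of its elements. Two irreducible characters lying in p-blocks of defect exactly d lie in the same block if and only if their central characters (class size times χ(x)/χ(1)) agree modulo the local ideal at M at every p-regular element x whose class has defect exactly d. -/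
theorem result {G : Type*} [Group G] [Finite G] (p : ℕ) [Fact p.Prime] (M : Ideal Cfsg.AlgInt) (hM : Cfsg.IsPModular p M) (d : ℕ) (χ ψ : Cfsg.IrrCharacter G) (hχ : Cfsg.blockDefect p (Cfsg.blockOf M (χ : G → ℂ)) = d) (hψ : Cfsg.blockDefect p (Cfsg.blockOf M (ψ : G → ℂ)) = d) : Cfsg.SameBlock M (χ : G → ℂ) (ψ : G → ℂ) ↔ ∀ x : G, ¬ p ∣ orderOf x → (Nat.card (Subgroup.centralizer ({x} : Set G))).factorization p = d → Cfsg.MemLocalIdeal M (Cfsg.centralChar (χ : G → ℂ) x - Cfsg.centralChar (ψ : G → ℂ) x) := by
  classical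
  haveI := Fintype.ofFinite G
  haveI : M.IsPrime := hM.2.1.isPrime
  refine ⟨fun h x _ _ => h x, fun h => ?_⟩
  set B := Cfsg.blockOf M (χ : G → ℂ) with hBdef
  have hB : Cfsg.IsPBlock M B := ⟨χ, rfl⟩
  have h1 := Block.omega_idemS (M := M) hB χ
  rw [if_pos (show χ ∈ B from Block.mem_blockOf_self χ)] at h1
  by_contra hne
  have h2 := Block.omega_idemS (M := M) hB ψ
  rw [if_neg (show ψ ∉ B from hne)] at h2
  haveI := Fintype.ofFinite (ConjClasses G)
  rw [Block.omega_toC_eq χ.2 (Block.idemS_isCentralElt B)] at h1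
  rw [Block.omega_toC_eq ψ.2 (Block.idemS_isCentralElt B)] at h2
  refine Block.not_memLocalIdeal_one (M := M) ?_
  have e : (1 : ℂ) = ∑ c : ConjClasses G, ((Block.idemS M B).coeff c.out : ℂ) *
      (Cfsg.centralChar (χ : G → ℂ) c.out - Cfsg.centralChar (ψ : G → ℂ) c.out) := by
    simp only [mul_sub, Finset.sum_sub_distrib, h1, h2, sub_zero]
  rw [e]
  refine Block.memLocalIdeal_sum _ _ fun c _ => ?_
  have hcoef : ((Block.idemS M B).coeff c.out : ℂ) = Cfsg.blockCoeff B c.out := by
    have := congrArg (fun z => z.coeff c.out) (Block.toC_idemS (M := M) hB)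
    simpa [Block.coeff_blockIdem] using this
  rw [hcoef]
  by_cases hu : Cfsg.MemLocalIdeal M (Cfsg.blockCoeff B c.out)
  · exact Block.memLocalIdeal_mul_right hu ((Block.localRing M).sub_mem
      (Block.centralChar_memLocalRing χ.2 _) (Block.centralChar_memLocalRing ψ.2 _))
  obtain ⟨hreg, hle⟩ := BlockVal.defect_le_of_blockCoeff_unit hM hB hu
  rw [hχ] at hle
  rcases hle.eq_or_lt with heq | hlt
  · exact Block.memLocalIdeal_mul_left (Block.blockCoeff_memLocalRing hB _) (h _ hreg heq)
  · have hz : ∀ φ : Cfsg.IrrCharacter G, Cfsg.blockDefect p (Cfsg.blockOf M (φ : G → ℂ)) = d →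
        Cfsg.MemLocalIdeal M (Cfsg.centralChar (φ : G → ℂ) c.out) := fun φ hφ => by
      by_contra hn
      have := BlockVal.defect_ge_of_centralChar_unit hM ⟨φ, rfl⟩ (Block.mem_blockOf_self φ) hn
      omega
    exact Block.memLocalIdeal_mul_left (Block.blockCoeff_memLocalRing hB _)
      (Block.memLocalIdeal_sub (hz χ hχ) (hz ψ hψ))

end Cfsg.Agent.S4510
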