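import Cfsg.Statements.S4512
import Cfsg.Agent.BlockVal.SectionCount
import Cfsg.Agent.Brauer.KleinFour
import Cfsg.Agent.S0948

set_option autoImplicit false
open Cfsg

namespace Cfsg.Agent.S4512

/-- If G is a finite group with a Sylow 2-subgroup that is a Klein four-group and a single conjugacy class of involutions, then its principal 2-block (relative to a maximal ideal M of the algebraic integers containing 2) has 2-regular rank 3: the restrictions of its irreducible characters to the elements of odd order span a space of dimension 3 (it has three irreducible Brauer characters). -/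
theorem result {G : Type*} [Group G] [Finite G] (M : Ideal Cfsg.AlgInt) (hM : Cfsg.IsPModular 2 M) (P : Sylow 2 G)
    (hP : Nat.card P = 4) (hexp : ∀ x : P, x * x = 1)
    (hone : ∀ s t : G, orderOf s = 2 → orderOf t = 2 → IsConj s t) :
    Cfsg.blockRank 2 (Cfsg.principalBlock M G) = 3 := by
  classical
  haveI := Fintype.ofFinite G
  haveI : M.IsPrime := hM.2.1.isPrime
  haveI : Fact (Nat.Prime 2) := ⟨Nat.prime_two⟩
  haveI hV : IsKleinFour (P : Subgroup G) := by
    refine ⟨hP, ?_⟩
    refine (Nat.prime_two.eq_one_or_self_of_dvd _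
      (Monoid.exponent_dvd_of_forall_pow_eq_one fun x => by rw [sq]; exact hexp x)).resolve_left
      fun h => ?_
    haveI := Monoid.exp_eq_one_iff.1 h
    have := Nat.card_of_subsingleton (1 : (P : Subgroup G))
    omega
  set B := principalBlock M G with hBdef
  have hB : IsPBlock M B := ⟨Char.trivialIrr G, rfl⟩
  -- four members
  obtain ⟨z2, z3, z4, e, he, h21, h31, h23, h24, h34, hBset, hval, -⟩ := S0948.result M hM P hV hone
  haveI : Nontrivial (P : Subgroup G) := Finite.one_lt_card_iff_nontrivial.mp (by omega)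
  obtain ⟨z₀, hz₀⟩ := exists_ne (1 : (P : Subgroup G))
  set z : G := (z₀ : G) with hzdef
  have hzP : z ∈ (P : Subgroup G) := z₀.2
  have hz1 : z ≠ 1 := fun h => hz₀ (Subtype.ext h)
  have hzo : orderOf z = 2 := orderOf_eq_prime (by rw [sq]; exact Brauer.kleinFour_sq hV hzP) hz1
  have h41 : (z4 : G → ℂ) ≠ fun _ => 1 := by
    intro h
    have := (hval z hzo).2.2
    rw [h] at this
    norm_num at this
  have hcard : (Finset.univ.filter (· ∈ B)).card = 4 := by
    have : Finset.univ.filter (· ∈ B) = {Char.trivialIrr G, z2, z3, z4} := by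
      ext χ
      simp only [Finset.mem_filter, Finset.mem_univ, true_and, Finset.mem_insert,
        Finset.mem_singleton, hBdef, hBset, Set.mem_setOf_eq]
      refine or_congr_left ⟨fun h => Subtype.ext h, fun h => h ▸ rfl⟩
    rw [this]
    have n1 : ∀ ζ : IrrCharacter G, (ζ : G → ℂ) ≠ (fun _ => 1) → Char.trivialIrr G ≠ ζ :=
      fun ζ h h' => h (h' ▸ rfl)
    simp [n1 z2 h21, n1 z3 h31, n1 z4 h41, h23, h24, h34]
  -- total and the two sections
  have hX : ∀ x ∈ ({1, z} : Finset G), ∃ k : ℕ, orderOf x = 2 ^ k := by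
    intro x hx
    rcases Finset.mem_insert.1 hx with rfl | hx
    · exact ⟨0, by simp⟩
    · exact ⟨1, by rw [Finset.mem_singleton.1 hx, hzo, pow_one]⟩
  have hXrep : ∀ g : G, (∃ k : ℕ, orderOf g = 2 ^ k) →
      ∃! x, x ∈ ({1, z} : Finset G) ∧ IsConj g x := by
    rintro g ⟨k, hk⟩
    by_cases h1 : g = 1
    · refine ⟨1, ⟨by simp, h1 ▸ IsConj.refl _⟩, fun x hx => ?_⟩
      exact isConj_one_right.1 (h1 ▸ hx.2)
    · have h2 : 2 ∣ orderOf g := by
        rw [hk]; refine dvd_pow_self 2 fun h => h1 ?_
        rwa [h, pow_zero, orderOf_eq_one_iff] at hk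
      have hg2 : orderOf g = 2 := by
        have := Brauer.orderOf_pPart_two P hV h2
        rwa [(Element.pPart_eq_self Nat.prime_two hk).1] at this
      refine ⟨z, ⟨by simp, hone g z hg2 hzo⟩, fun x hx => ?_⟩
      rcases Finset.mem_insert.1 hx.1 with rfl | hx'
      · exact absurd (isConj_one_left.1 hx.2) h1
      · exact Finset.mem_singleton.1 hx'
  set F : G → ℂ := fun g => ∑ χ ∈ Finset.univ.filter (· ∈ B),
    (χ : G → ℂ) g * starRingEnd ℂ ((χ : G → ℂ) g) with hF
  have hFc : IsClassFunction G F := fun g h => Finset.sum_congr rfl fun χ _ => by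
    rw [Char.irr_isClassFunction χ.2 g h]
  have htot : ∑ g : G, F g = (Nat.card G : ℂ) * 4 := by
    rw [hF, Finset.sum_comm, Finset.sum_congr rfl (g := fun _ => (Nat.card G : ℂ)) fun χ _ => ?_,
      Finset.sum_const, hcard, nsmul_eq_mul, mul_comm]
    · norm_num
    · rw [Char.sum_mul_conj_eq_card_mul_classInner, Char.classInner_irrCharacter, if_pos rfl,
        mul_one]
  rw [SecCount.sum_eq_sum_sections Nat.prime_two _ hX hXrep hFc,
    Finset.sum_pair (Ne.symm hz1)] at htot
  have hone' : ((Subgroup.centralizer ({1} : Set G)).index : ℂ) *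
      ∑ᶠ y ∈ {y : Subgroup.centralizer ({1} : Set G) | ¬ 2 ∣ orderOf y}, F (1 * (y : G))
      = (Nat.card G : ℂ) * (blockRank 2 B : ℂ) := by
    have htop : Subgroup.centralizer ({1} : Set G) = ⊤ := eq_top_iff.mpr fun x _ => by
      simp [Subgroup.mem_centralizer_singleton_iff]
    rw [BrauerPairs.card_mul_blockRank hM hB,
      show (Subgroup.centralizer ({1} : Set G)).index = 1 by rw [htop, Subgroup.index_top],
      Nat.cast_one, one_mul]
    haveI := Fintype.ofFinite (Subgroup.centralizer ({1} : Set G))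
    simp only [hF, Brauer.regSum, one_mul]
    rw [finsum_mem_eq_toFinset_sum, Finset.sum_comm]
    refine Finset.sum_congr rfl fun χ _ => ?_
    refine Finset.sum_bij' (fun y _ => (y : G)) (fun g _ => ⟨g, htop.symm ▸ Subgroup.mem_top g⟩)
      ?_ ?_ (fun _ _ => rfl) (fun _ _ => rfl) (fun _ _ => rfl)
    · intro y hy
      simpa [Subgroup.orderOf_coe] using hy
    · intro g hg
      simp only [Set.mem_toFinset, Set.mem_setOf_eq, Subgroup.orderOf_mk]
      simpa using hg
  haveI := Fintype.ofFinite (Subgroup.centralizer ({z} : Set G))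
  obtain ⟨N, hNn, hodd, hidx, hregN⟩ :=
    Brauer.exists_complement_centralizer P hV hzP (Subgroup.centralizer ({z} : Set G)) rfl hz1
  haveI := hNn
  have hNreg : ∀ y ∈ N, ¬ 2 ∣ orderOf y := fun y hy h =>
    hodd (h.trans (Subgroup.orderOf_dvd_natCard _ hy))
  have htwo : ((Subgroup.centralizer ({z} : Set G)).index : ℂ) *
      ∑ᶠ y ∈ {y : Subgroup.centralizer ({z} : Set G) | ¬ 2 ∣ orderOf y}, F (z * (y : G))
      = (Nat.card G : ℂ) := by
    have hterm : ∀ y : Subgroup.centralizer ({z} : Set G), ¬ 2 ∣ orderOf y →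
        F (z * (y : G)) = 4 := by
      intro y hy
      have h := Brauer.principal_column_section hM (k := 1) (by rw [pow_one]; exact hzo)
        (Subgroup.centralizer ({z} : Set G)) rfl y y hy hy
      rw [Brauer.sum_sq_principalBlock_of_complement hM N hodd hidx (hregN y hy) (hregN y hy),
        finsum_mem_eq_toFinset_sum] at h
      norm_num at h
      rw [← h, hF]
      exact Finset.sum_congr (by ext χ; simp [hBdef]) fun _ _ => rfl
    rw [finsum_mem_eq_toFinset_sum, Finset.sum_congr rfl (g := fun _ => (4 : ℂ)) fun y hy => hterm y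
      (by simpa using hy), Finset.sum_const, nsmul_eq_mul]
    have hset : ({y : Subgroup.centralizer ({z} : Set G) | ¬ 2 ∣ orderOf y}.toFinset).card
        = Nat.card N := by
      rw [Nat.card_eq_fintype_card, ← Fintype.card_coe]
      exact Fintype.card_congr (Equiv.subtypeEquivRight fun y => by
        simp only [Set.mem_toFinset, Set.mem_setOf_eq]
        exact ⟨hregN y, hNreg y⟩)
    rw [hset]
    have h1 := Subgroup.index_mul_card (Subgroup.centralizer ({z} : Set G))
    have h2 := Subgroup.index_mul_card N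
    rw [hidx] at h2
    rw [← h1, ← h2]
    push_cast
    ring
  rw [hone', htwo] at htot
  have hG : (Nat.card G : ℂ) ≠ 0 := Nat.cast_ne_zero.mpr Nat.card_pos.ne'
  have : (Nat.card G : ℂ) * ((blockRank 2 B : ℂ) + 1) = (Nat.card G : ℂ) * 4 := by
    rw [← htot]; ring
  have := mul_left_cancel₀ hG this
  have h3 : (blockRank 2 B : ℂ) = 3 := by linear_combination this
  exact_mod_cast h3

end Cfsg.Agent.S4512
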