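import Cfsg.Statements.S4513
import Cfsg.Agent.BlockVal.DefectOne

set_option autoImplicit false
open Cfsg

namespace Cfsg.Agent.S4513

/-- Blocks of defect one for p = 2. Let M be a maximal ideal of the algebraic integers containing 2, B a 2-block of the finite group G whose defect group is the subgroup generated by an involution x, C = C_G(x), b a block of C inducing B and θ a member of b taking the same value at x as at 1 (there is exactly one). Then B consists of exactly two irreducible characters, which agree on every element of odd order, and they can be labelled χ₁, χ₂ with signs ε₁, ε₂ = ±1, ε₁ε₂ = −1, such that χᵢ(x y) = εᵢ θ(y) for every element y of C of odd order. -/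
theorem result {G : Type*} [Group G] [Finite G] (M : Ideal Cfsg.AlgInt) (hM : Cfsg.IsPModular 2 M) (x : G) (hx : orderOf x = 2)
    (B : Set (Cfsg.IrrCharacter G)) (hB : Cfsg.IsPBlock M B) (hBD : Cfsg.IsDefectGroup 2 M B (Subgroup.zpowers x))
    (b : Set (Cfsg.IrrCharacter ↥(Subgroup.centralizer ({x} : Set G)))) (hb : Cfsg.IsInducedBlock M (Subgroup.centralizer ({x} : Set G)) b B)
    (θ : Cfsg.IrrCharacter ↥(Subgroup.centralizer ({x} : Set G))) (hθ : θ ∈ b)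
    (hθx : ∀ z : ↥(Subgroup.centralizer ({x} : Set G)), (z : G) = x → (θ : ↥(Subgroup.centralizer ({x} : Set G)) → ℂ) z = (θ : ↥(Subgroup.centralizer ({x} : Set G)) → ℂ) 1) :
    Nat.card B = 2 ∧ (∀ χ ∈ B, ∀ ψ ∈ B, ∀ g : G, ¬ 2 ∣ orderOf g → (χ : G → ℂ) g = (ψ : G → ℂ) g) ∧
      ∃ χ₁ ∈ B, ∃ χ₂ ∈ B, χ₁ ≠ χ₂ ∧ ∃ ε₁ ε₂ : ℤ, (ε₁ = 1 ∨ ε₁ = -1) ∧ (ε₂ = 1 ∨ ε₂ = -1) ∧ ε₁ * ε₂ = -1 ∧
        ∀ y : ↥(Subgroup.centralizer ({x} : Set G)), ¬ 2 ∣ orderOf y →
          (χ₁ : G → ℂ) (x * y) = (ε₁ : ℂ) * (θ : ↥(Subgroup.centralizer ({x} : Set G)) → ℂ) y ∧ (χ₂ : G → ℂ) (x * y) = (ε₂ : ℂ) * (θ : ↥(Subgroup.centralizer ({x} : Set G)) → ℂ) y := by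
  classical
  haveI : M.IsPrime := hM.2.1.isPrime
  haveI : Fact (Nat.Prime 2) := ⟨Nat.prime_two⟩
  haveI := Fintype.ofFinite G
  haveI := Fintype.ofFinite (Subgroup.centralizer ({x} : Set G))
  have hx1 : x ≠ 1 := DefectOne.orderOf_prime_ne_one Nat.prime_two hx
  have htwo : ∀ u ∈ Subgroup.zpowers x, u ≠ 1 → u = x := by
    intro u hu hu1
    obtain ⟨j, hj⟩ := (mem_powers_iff_mem_zpowers (G := G)).2 hu
    simp only at hj
    rw [← pow_mod_orderOf, hx] at hj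
    rcases Nat.mod_two_eq_zero_or_one j with h | h <;> rw [h] at hj
    · exact absurd (by rw [← hj, pow_zero]) hu1
    · rw [← hj, pow_one]
  have huniq : ∀ b', Cfsg.IsInducedBlock M (Subgroup.centralizer ({x} : Set G)) b' B → b' = b := fun b' hb' =>
    DefectOne.induced_unique hM hB hBD (fun n hn => by
      rw [Brauer.centralizer_zpowers_eq, Subgroup.mem_centralizer_singleton_iff]
      have hmem := (Subgroup.mem_normalizer_iff.1 hn x).1 (Subgroup.mem_zpowers x)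
      exact mul_inv_eq_iff_eq_mul.1 (htwo _ hmem fun h => hx1 (conj_eq_one_iff.1 h)))
      (Brauer.centralizer_zpowers_eq x).symm hb hb'
  have hθP : ∀ u ∈ (Subgroup.zpowers x).subgroupOf (Subgroup.centralizer ({x} : Set G)),
      (θ : (Subgroup.centralizer ({x} : Set G)) → ℂ) u = (θ : (Subgroup.centralizer ({x} : Set G)) → ℂ) 1 := by
    intro u hu
    by_cases h : (u : G) = 1
    · rw [show u = 1 from Subtype.ext h]
    · exact hθx u (htwo _ (Subgroup.mem_subgroupOf.1 hu) h)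
  have hval : ∀ χ : IrrCharacter G, χ ∈ B → ∃ a : ℤ, ∀ y : (Subgroup.centralizer ({x} : Set G)), ¬ 2 ∣ orderOf y →
      (χ : G → ℂ) (x * (y : G)) = (a : ℂ) * (θ : (Subgroup.centralizer ({x} : Set G)) → ℂ) y := by
    intro χ hχ
    obtain ⟨A, ⟨n, ω, hω, hA⟩, hAy⟩ :=
      DefectOne.exists_section_value hM hx hB hBD rfl hb huniq hθ hθx hχ
    obtain ⟨a, ha⟩ : A ∈ (Int.castRingHom ℂ).range := by
      rw [hA]
      refine Subring.sum_mem _ fun η _ => Subring.mul_mem _ (natCast_mem _ _) ?_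
      rcases sq_eq_one_iff.1 (hω η) with h | h
      · exact ⟨1, by simp [h]⟩
      · exact ⟨-1, by simp [h]⟩
    exact ⟨a, fun y hy => by rw [hAy y hy, ← ha]; rfl⟩
  choose! a ha using hval
  have hne : ∀ χ ∈ B, a χ ≠ 0 := by
    intro χ hχ h0
    obtain ⟨y, hc, hy, hne⟩ := DefectOne.section_value_ne_zero hM hx hB hBD
      (fun u hu h1 => htwo u hu h1 ▸ IsConj.refl u) hχ
    refine hne ?_
    have := ha χ hχ ⟨y, Subgroup.mem_centralizer_singleton_iff.2 hc.eq.symm⟩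
      (by rwa [Subgroup.orderOf_mk])
    rw [h0, Int.cast_zero, zero_mul] at this
    exact this
  have hsum : ∑ χ ∈ Finset.univ.filter (· ∈ B), a χ * a χ = 2 := by
    have h := DefectOne.sum_section_value hM hx hB hBD rfl hb huniq hθ hθP (fun χ => (a χ : ℂ))
      (fun χ hχ y hy => ha χ hχ y hy)
    simp only [map_intCast] at h
    norm_cast at h
  set s := Finset.univ.filter (· ∈ B) with hs
  have hpos : ∀ χ ∈ s, 1 ≤ a χ * a χ := fun χ hχ =>
    Int.add_one_le_of_lt (mul_self_pos.2 (hne χ (Finset.mem_filter.1 hχ).2))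
  have hsne : s.Nonempty := by
    obtain ⟨χ, hχ⟩ := Block.pBlock_nonempty hB
    exact ⟨χ, Finset.mem_filter.2 ⟨Finset.mem_univ _, hχ⟩⟩
  have hcard : s.card = 2 := by
    have h1 := Finset.card_nsmul_le_sum s _ 1 hpos
    rw [hsum, nsmul_eq_mul, mul_one] at h1
    rcases Nat.lt_or_ge s.card 2 with h | h
    · have h' : s.card = 1 := by have := hsne.card_pos; omega
      obtain ⟨χ, hχ⟩ := Finset.card_eq_one.1 h'
      rw [hχ, Finset.sum_singleton] at hsum
      exfalso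
      have hle : a χ ≤ 1 := by nlinarith
      have hge : -1 ≤ a χ := by nlinarith
      interval_cases (a χ) <;> simp at hsum
    · omega
  obtain ⟨χ₁, χ₂, h12, hs2⟩ := Finset.card_eq_two.1 hcard
  have hm1 : χ₁ ∈ B := (Finset.mem_filter.1 (hs2 ▸ Finset.mem_insert_self _ _ : χ₁ ∈ s)).2
  have hm2 : χ₂ ∈ B := (Finset.mem_filter.1
    (hs2 ▸ Finset.mem_insert_of_mem (Finset.mem_singleton_self _) : χ₂ ∈ s)).2
  rw [hs2, Finset.sum_pair h12] at hsum
  have hq1 := hpos χ₁ (by rw [hs2]; simp)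
  have hq2 := hpos χ₂ (by rw [hs2]; simp)
  have hu1 : a χ₁ = 1 ∨ a χ₁ = -1 := mul_self_eq_one_iff.1 (by linarith)
  have hu2 : a χ₂ = 1 ∨ a χ₂ = -1 := mul_self_eq_one_iff.1 (by linarith)
  -- orthogonality with the section of x
  have hrel : ∀ g : G, ¬ 2 ∣ orderOf g →
      (a χ₁ : ℂ) * (χ₁ : G → ℂ) g + (a χ₂ : ℂ) * (χ₂ : G → ℂ) g = 0 := by
    intro g hg
    have h := Brauer.weakOrth_of_integral hM B (Block.blockCoeff_memLocalRing hB) hg
      (y := x) (by rw [hx])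
    rw [finsum_mem_eq_toFinset_sum, show B.toFinset = s by ext χ; simp [hs], hs2,
      Finset.sum_pair h12] at h
    obtain ⟨d, hd0, hd⟩ := Char.irr_one_pos θ.2
    have hx1' : ∀ χ ∈ B, (χ : G → ℂ) x = (a χ : ℂ) * d := fun χ hχ => by
      have := ha χ hχ 1 (by simp)
      rwa [OneMemClass.coe_one, mul_one, hd] at this
    rw [hx1' χ₁ hm1, hx1' χ₂ hm2] at h
    simp only [map_mul, map_intCast, map_natCast] at h
    have hd' : (d : ℂ) ≠ 0 := Nat.cast_ne_zero.2 hd0.ne'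
    have : (d : ℂ) * ((a χ₁ : ℂ) * (χ₁ : G → ℂ) g + (a χ₂ : ℂ) * (χ₂ : G → ℂ) g) = 0 := by
      linear_combination h
    exact (mul_eq_zero.1 this).resolve_left hd'
  have hopp : a χ₁ * a χ₂ = -1 := by
    obtain ⟨d1, h1, e1⟩ := Char.irr_one_pos χ₁.2
    obtain ⟨d2, h2, e2⟩ := Char.irr_one_pos χ₂.2
    have h := hrel 1 (by simp)
    rw [e1, e2] at h
    have h' : a χ₁ * (d1 : ℤ) + a χ₂ * (d2 : ℤ) = 0 := by exact_mod_cast h
    rcases hu1 with u1 | u1 <;> rcases hu2 with u2 | u2 <;> rw [u1, u2] at h' ⊢ <;> omega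
  have heq : ∀ g : G, ¬ 2 ∣ orderOf g → (χ₁ : G → ℂ) g = (χ₂ : G → ℂ) g := by
    intro g hg
    have h := hrel g hg
    have hc : (a χ₁ : ℂ) * (a χ₂ : ℂ) = -1 := by exact_mod_cast hopp
    have hs1 : (a χ₁ : ℂ) * (a χ₁ : ℂ) = 1 := by
      rcases hu1 with u | u <;> simp [u]
    linear_combination (a χ₁ : ℂ) * h - (χ₂ : G → ℂ) g * hc - (χ₁ : G → ℂ) g * hs1
  have hmem : ∀ χ ∈ B, χ = χ₁ ∨ χ = χ₂ := fun χ hχ => by
    have h : χ ∈ s := Finset.mem_filter.2 ⟨Finset.mem_univ χ, hχ⟩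
    rw [hs2, Finset.mem_insert, Finset.mem_singleton] at h
    exact h
  refine ⟨?_, fun χ hχ ψ hψ g hg => ?_, χ₁, hm1, χ₂, hm2, h12, a χ₁, a χ₂, hu1, hu2, hopp,
    fun y hy => ⟨ha χ₁ hm1 y hy, ha χ₂ hm2 y hy⟩⟩
  · rw [Nat.card_eq_fintype_card, Fintype.card_subtype]
    exact hcard
  · rcases hmem χ hχ with rfl | rfl <;> rcases hmem ψ hψ with rfl | rfl
    exacts [rfl, heq g hg, (heq g hg).symm, rfl]

end Cfsg.Agent.S4513
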