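import Cfsg.Statements.S4633
import Cfsg.Agent.BrauerPairs.AbelianLocal
import Cfsg.Agent.BrauerPairs.CyclicAct
-- import your own Cfsg.Agent.* helpers here

set_option autoImplicit false
open Cfsg

namespace Cfsg.Agent.S4633

/-- Let B be a block of the finite group G relative to a maximal ideal M of the algebraic integers containing the prime p, with a nontrivial cyclic defect group P. Let c be a block of C_G(P) inducing B and T the stabilizer of c in N_G(P) (the elements of N_G(P) conjugating c to itself); T contains C_G(P). Then T/C_G(P) is cyclic of order dividing p − 1, and it acts freely on the non-identity elements of P: an element of T fixing some non-identity element of P under conjugation lies in C_G(P). -/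
theorem result {G : Type*} [Group G] [Finite G] (p : ℕ) [Fact p.Prime] (M : Ideal Cfsg.AlgInt) (hM : Cfsg.IsPModular p M) (B : Set (Cfsg.IrrCharacter G)) (hB : Cfsg.IsPBlock M B) (P : Subgroup G) (hPD : Cfsg.IsDefectGroup p M B P) (hP1 : P ≠ ⊥) (hcyc : IsCyclic P) (c : Set (Cfsg.IrrCharacter (Subgroup.centralizer (P : Set G)))) (hc : Cfsg.IsInducedBlock M (Subgroup.centralizer (P : Set G)) c B) (T : Subgroup G) (hT : ∀ g : G, g ∈ T ↔ (g ∈ Subgroup.normalizer (P : Set G) ∧ Cfsg.StabilizesBlock (Subgroup.centralizer (P : Set G)) c g)) [hn : ((Subgroup.centralizer (P : Set G)).subgroupOf T).Normal] : IsCyclic (T ⧸ (Subgroup.centralizer (P : Set G)).subgroupOf T) ∧ (Subgroup.centralizer (P : Set G)).relIndex T ∣ p - 1 ∧ ∀ g ∈ T, ∀ x ∈ P, x ≠ 1 → g * x * g⁻¹ = x → g ∈ Subgroup.centralizer (P : Set G) := by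
  haveI : M.IsPrime := Cfsg.Agent.Block.isPrime_of_isPModular hM
  haveI := Cfsg.Agent.Block.charP_resF hM
  have hP : IsPGroup p P := Cfsg.Agent.Block.isDefectGroup_isPGroup hPD
  have hm := Cfsg.Agent.BrauerPairs.isMaximalBrauerPair_of_isInducedBlock hM hB hPD hP ⟨c, hc.1⟩ hc
  have hTs : T = Cfsg.Agent.BrauerPairs.stab (M := M)
      (⟨P, ⟨c, hc.1⟩⟩ : Cfsg.Agent.BrauerPairs.PairIdx M G) :=
    Cfsg.Agent.BrauerPairs.eq_stab hT
  subst hTs
  haveI := hcyc
  have hab : ∀ x ∈ P, ∀ y ∈ P, x * y = y * x := fun x hx y hy => by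
    have := IsCyclic.commutative (α := P)
    exact congrArg Subtype.val (mul_comm' (⟨x, hx⟩ : P) ⟨y, hy⟩)
  have he := Cfsg.Agent.BrauerPairs.not_dvd_relIndex_stab hm hab
  have hTN := Cfsg.Agent.BrauerPairs.stab_le_normalizer (M := M)
    (⟨P, ⟨c, hc.1⟩⟩ : Cfsg.Agent.BrauerPairs.PairIdx M G)
  obtain ⟨h1, h2⟩ := Cfsg.Agent.BrauerPairs.CyclicAct.isCyclic_quotient hP hP1 hTN he
  exact ⟨h1, h2, fun g hg x hx hx1 hfix =>
    Cfsg.Agent.BrauerPairs.CyclicAct.mem_centralizer_of_fix hP hTN he hg hx hx1 hfix⟩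

end Cfsg.Agent.S4633
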