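import Cfsg.Statements.S4634
import Cfsg.Agent.CycIso.Perfect
import Cfsg.Agent.BlockCount.CyclicMain
import Cfsg.Agent.BlockCount.CyclicRows

set_option autoImplicit false
open Cfsg

namespace Cfsg.Agent.S4634

/-- Let B be a block of the finite group G relative to a maximal ideal M of the algebraic integers containing the prime p, with a nontrivial cyclic defect group P, let c be a block of C_G(P) inducing B, T the stabilizer of c in N_G(P) and e the index of C_G(P) in T. Let F be any finite group of order #P · e having a cyclic subgroup Q of order #P that is its own centralizer (F is then the semidirect product of Q by a cyclic group of order e acting faithfully). Then there is a perfect isometry from the set of all irreducible characters of F onto B whose signs agree on all the characters of F that do not contain Q in their kernel. -/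
theorem result {G : Type*} [Group G] [Finite G] (p : ℕ) [Fact p.Prime] (M : Ideal Cfsg.AlgInt) (hM : Cfsg.IsPModular p M) (B : Set (Cfsg.IrrCharacter G)) (hB : Cfsg.IsPBlock M B) (P : Subgroup G) (hPD : Cfsg.IsDefectGroup p M B P) (hP1 : P ≠ ⊥) (hcyc : IsCyclic P) (c : Set (Cfsg.IrrCharacter (Subgroup.centralizer (P : Set G)))) (hc : Cfsg.IsInducedBlock M (Subgroup.centralizer (P : Set G)) c B) (T : Subgroup G) (hT : ∀ g : G, g ∈ T ↔ (g ∈ Subgroup.normalizer (P : Set G) ∧ Cfsg.StabilizesBlock (Subgroup.centralizer (P : Set G)) c g)) (e : ℕ) (he : (Subgroup.centralizer (P : Set G)).relIndex T = e) (F : Type*) [Group F] [Finite F] (hF : Nat.card F = Nat.card P * e) (Q : Subgroup F) (hQ : IsCyclic Q) (hQcard : Nat.card Q = Nat.card P) (hQC : Subgroup.centralizer (Q : Set F) = Q) : ∃ (I : Cfsg.IrrCharacter F → Cfsg.IrrCharacter G) (ε : Cfsg.IrrCharacter F → ℤ), Cfsg.IsPerfectIsometry p M (Set.univ : Set (Cfsg.IrrCharacter F)) B I ε ∧ ∀ η η' : Cfsg.IrrCharacter F, (∃ x ∈ Q, (η : F → ℂ) x ≠ (η :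 F → ℂ) 1) → (∃ x ∈ Q, (η' : F → ℂ) x ≠ (η' : F → ℂ) 1) → ε η = ε η' := by
  haveI : M.IsPrime := Cfsg.Agent.Block.isPrime_of_isPModular hM
  haveI := Cfsg.Agent.Block.charP_resF hM
  haveI := Fintype.ofFinite G
  haveI := Fintype.ofFinite F
  have hP : IsPGroup p P := Block.isDefectGroup_isPGroup hPD
  obtain ⟨a, ha⟩ := IsPGroup.iff_card.1 hP
  have ha1 : 1 ≤ a := by
    rcases Nat.eq_zero_or_pos a with rfl | h
    · exact absurd (Subgroup.card_eq_one.1 (by rw [ha, pow_zero])) hP1
    · exact h
  obtain ⟨K, rfl, hKb, hrel⟩ := BlockCount.exists_cycData hM hcyc ha1 ha hB hPD hc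
    (fun g => (hT g).trans (and_congr_right fun hg =>
      (BlockCount.mem_iff_stabilizesBlock g hg).symm))
  subst hKb
  rw [he] at hrel
  subst hrel
  haveI : NeZero (p ^ K.b) := ⟨pow_ne_zero _ (Fact.out : p.Prime).ne_zero⟩
  obtain ⟨D, hDQ⟩ := CycIso.exists_frobData K.E K.card_E_dvd (fun r hr l hl h => K.free hr hl h)
    (by rw [hF, ha]) Q hQ (hQcard.trans ha) hQC
  obtain ⟨S⟩ := CycIso.exists_signedMatch K D K.card_block_eq
  have hnt : ∀ η : Cfsg.IrrCharacter F, (∃ x ∈ Q, (η : F → ℂ) x ≠ (η : F → ℂ) 1) →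
      ¬ D.IsTriv η := by
    rintro η ⟨x, hx, hne⟩ hη
    rw [← hDQ] at hx
    obtain ⟨j, rfl⟩ := D.mem_Q.1 hx
    exact hne (hη j)
  exact ⟨S.I, S.ε, S.isPerfectIsometry, fun η η' h h' => S.const η η' (hnt η h) (hnt η' h')⟩

end Cfsg.Agent.S4634
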