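import Cfsg.Statements.S4635
import Cfsg.Agent.CycIso.Perfect
import Cfsg.Agent.CycIso.Compose
import Cfsg.Agent.CycIso.Corresp
import Cfsg.Agent.BlockCount.CyclicRows
import Cfsg.Agent.BlockCount.CyclicMain

set_option autoImplicit false
open Cfsg

namespace Cfsg.Agent.S4635

/-- Let B be a block of the finite group G relative to a maximal ideal M of the algebraic integers containing the prime p, with a nontrivial cyclic defect group P; let Z be the subgroup of order p of P and H = N_G(Z), which contains N_G(P). Let c be the block of H with defect group P that induces B. Then B and c contain the same number of irreducible characters, have the same p-regular rank, and there is a perfect isometry from c onto B. -/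
theorem result {G : Type*} [Group G] [Finite G] (p : ℕ) [Fact p.Prime] (M : Ideal Cfsg.AlgInt) (hM : Cfsg.IsPModular p M) (B : Set (Cfsg.IrrCharacter G)) (hB : Cfsg.IsPBlock M B) (P : Subgroup G) (hPD : Cfsg.IsDefectGroup p M B P) (hP1 : P ≠ ⊥) (hcyc : IsCyclic P) (Z : Subgroup G) (hZ : Z ≤ P) (hZcard : Nat.card Z = p) (H : Subgroup G) (hH : H = Subgroup.normalizer (Z : Set G)) (c : Set (Cfsg.IrrCharacter H)) (hcD : Cfsg.IsDefectGroup p M c (P.subgroupOf H)) (hc : Cfsg.IsInducedBlock M H c B) : Nat.card c = Nat.card B ∧ Cfsg.blockRank p c = Cfsg.blockRank p B ∧ ∃ (I : Cfsg.IrrCharacter H → Cfsg.IrrCharacter G) (ε : Cfsg.IrrCharacter H → ℤ), Cfsg.IsPerfectIsometry p M c B I ε := by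
  haveI : M.IsPrime := Cfsg.Agent.Block.isPrime_of_isPModular hM
  haveI := Cfsg.Agent.Block.charP_resF hM
  haveI := Fintype.ofFinite G
  haveI := Fintype.ofFinite H
  have hN : Subgroup.normalizer (P : Set G) ≤ H := by
    intro g hg
    have hsub : Z.map (MulAut.conj g).toMonoidHom = Z := by
      haveI := hcyc
      refine OddLocal.eq_of_le_cyclic_of_card_eq (W := P) ?_ hZ
        (Subgroup.card_map_of_injective (MulAut.conj g).injective)
      rintro _ ⟨z, hz, rfl⟩
      exact (Subgroup.mem_normalizer_iff.1 hg z).1 (hZ hz)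
    rw [hH]
    refine Subgroup.mem_normalizer_iff.2 fun z => ⟨fun hz => ?_, fun hz => ?_⟩
    · rw [← hsub]
      exact ⟨z, hz, rfl⟩
    · rw [← hsub] at hz
      obtain ⟨w, hw, he⟩ := hz
      exact (MulAut.conj g).injective he ▸ hw
  obtain ⟨b, x, x', f, f', hxP, hb, hxo, hxo', hxx, hmax, hmax', hl⟩ :=
    CycIso.exists_cycData_pair hcyc hP1 hB hPD hN hcD hc
  let KG : BlockCount.CycData p M G := ⟨⟨B, hB⟩, x, b, f, hM, hmax, hxo, hb⟩
  let KH : BlockCount.CycData p M H := ⟨⟨c, hc.1⟩, x', b, f', hM, hmax', hxo', hb⟩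
  haveI : NeZero (p ^ b) := ⟨pow_ne_zero _ (Fact.out : p.Prime).ne_zero⟩
  have hel : ∀ j : ZMod (p ^ b), ((KH.el j : H) : G) = KG.el j := by
    intro j
    show ((x' ^ j.val : H) : G) = x ^ j.val
    rw [Subgroup.coe_pow, hxx]
  have hstab : ∀ t : H, t ∈ KH.T ↔ (t : G) ∈ KG.T := fun t => BrauerPairs.mem_stab_lifts hl t
  have hPN : Subgroup.normalizer (Subgroup.zpowers x : Set G) ≤ H := by
    rw [hxP]
    exact hN
  have hE : KG.E = KH.E := by
    ext r
    constructor
    · rintro ⟨t, ht, htj⟩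
      refine ⟨⟨t, hPN (KG.T_le ht)⟩, (hstab _).2 ht, fun j => Subtype.ext ?_⟩
      simp only [Subgroup.coe_mul, Subgroup.coe_inv, hel]
      exact htj j
    · rintro ⟨t, ht, htj⟩
      refine ⟨t, (hstab t).1 ht, fun j => ?_⟩
      rw [← hel, ← hel, ← htj, Subgroup.coe_mul, Subgroup.coe_mul, Subgroup.coe_inv]
  have hcard : Nat.card c = Nat.card B := by
    show Nat.card KH.β.1 = Nat.card KG.β.1
    rw [KH.card_block_eq, KG.card_block_eq]
    show _ = Nat.card KG.E + (p ^ b - 1) / Nat.card KG.E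
    rw [hE]
  have hrank : Cfsg.blockRank p c = Cfsg.blockRank p B := by
    show Cfsg.blockRank p KH.β.1 = Cfsg.blockRank p KG.β.1
    obtain ⟨-, -, -, -, -, -, -, -, -, -, -, -, -, -, h1⟩ := KH.exists_structure
    obtain ⟨-, -, -, -, -, -, -, -, -, -, -, -, -, -, h2⟩ := KG.exists_structure
    rw [h1, h2, hE]
  have DG : CycIso.FrobData (p ^ b) KG.E (CycIso.FrobGroup KH.E) := by
    rw [hE]
    exact CycIso.frobGroupData KH.E fun r hr l hl h => KH.free hr hl h
  obtain ⟨SH⟩ := CycIso.exists_signedMatch KH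
    (CycIso.frobGroupData KH.E fun r hr l hl h => KH.free hr hl h) KH.card_block_eq
  obtain ⟨SG⟩ := CycIso.exists_signedMatch KG DG KG.card_block_eq
  exact ⟨hcard, hrank,
    CycIso.exists_perfectIsometry_comp SG.isPerfectIsometry SH.isPerfectIsometry⟩

end Cfsg.Agent.S4635
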