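import Cfsg.Statements.S4636
import Cfsg.Agent.OddLocal.Basic

set_option autoImplicit false
open scoped Pointwise
open Cfsg

namespace Cfsg.Agent.S4636

/-- Let P be a nontrivial cyclic p-subgroup of the finite group G and Z its subgroup of order p. For every x outside N_G(Z), P meets its conjugate xPx⁻¹ trivially; consequently N_G(Q) ≤ N_G(Z) for every nontrivial subgroup Q of P. -/
theorem result {G : Type*} [Group G] [Finite G] (p : ℕ) [Fact p.Prime] (P : Subgroup G) (hP : IsPGroup p P) (hP1 : P ≠ ⊥) (hcyc : IsCyclic P) (Z : Subgroup G) (hZ : Z ≤ P) (hZcard : Nat.card Z = p) : (∀ x : G, x ∉ Subgroup.normalizer (Z : Set G) → P ⊓ MulAut.conj x • P = ⊥) ∧ ∀ Q : Subgroup G, Q ≤ P → Q ≠ ⊥ → Subgroup.normalizer (Q : Set G) ≤ Subgroup.normalizer (Z : Set G) := by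
  have hZp : ∀ R : Subgroup G, R ≤ P → R ≠ ⊥ → Z ≤ R := by
    intro R hR hR1
    haveI := hcyc
    obtain ⟨x, hxR, hx1⟩ := R.ne_bot_iff_exists_ne_one.1 hR1 |> fun ⟨⟨x, hx⟩, h⟩ =>
      (⟨x, hx, fun h1 => h (Subtype.ext h1)⟩ : ∃ x, x ∈ R ∧ x ≠ 1)
    have hRp : IsPGroup p R := hP.to_le hR
    obtain ⟨n, hn⟩ := IsPGroup.iff_card.1 hRp
    have hdvd : p ∣ Nat.card R := by
      rcases n with _ | n
      · exfalso
        rw [pow_zero, Nat.card_eq_one_iff_unique] at hn
        exact hx1 (congrArg Subtype.val (hn.1.elim (⟨x, hxR⟩ : R) 1))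
      · exact hn ▸ dvd_pow_self p n.succ_ne_zero
    obtain ⟨⟨z, hz⟩, hzord⟩ := exists_prime_orderOf_dvd_card' p hdvd
    have hZ' : Subgroup.zpowers z = Z := by
      apply OddLocal.eq_of_le_cyclic_of_card_eq (W := P) ((Subgroup.zpowers_le).2 (hR hz)) hZ
      rw [Nat.card_zpowers, hZcard, ← hzord,
        ← orderOf_injective R.subtype Subtype.val_injective ⟨z, hz⟩]
      rfl
    exact hZ' ▸ (Subgroup.zpowers_le).2 hz
  have hmap : ∀ x : G, Z.map (MulAut.conj x).toMonoidHom = Z →
      x ∈ Subgroup.normalizer (Z : Set G) := by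
    intro x hx
    refine Subgroup.mem_normalizer_iff.mpr fun g => ?_
    conv_rhs => rw [← hx]
    constructor
    · exact fun hg => ⟨g, hg, rfl⟩
    · rintro ⟨y, hy, he⟩
      have : y = g := (MulAut.conj x).injective he
      exact this ▸ hy
  refine ⟨fun x hx => by_contra fun hne => hx ?_, fun Q hQ hQ1 x hx => ?_⟩
  · apply hmap
    have h1 : Z ≤ P ⊓ MulAut.conj x • P := hZp _ inf_le_left hne
    set R := (P ⊓ MulAut.conj x • P).map (MulAut.conj x⁻¹).toMonoidHom with hR
    have hRP : R ≤ P := by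
      rintro _ ⟨y, ⟨-, hy⟩, rfl⟩
      obtain ⟨w, hw, rfl⟩ := hy
      simpa [mul_assoc] using hw
    have hR1 : R ≠ ⊥ := fun h => hne ((Subgroup.map_eq_bot_iff_of_injective _
      (MulAut.conj x⁻¹).injective).1 h)
    have h2 : Z.map (MulAut.conj x).toMonoidHom ≤ P ⊓ MulAut.conj x • P := by
      refine (Subgroup.map_mono (hZp R hRP hR1)).trans (le_of_eq ?_)
      rw [hR, Subgroup.map_map]
      convert Subgroup.map_id _
      ext y
      simp [mul_assoc]
    have h3 : Z ≤ Z.map (MulAut.conj x).toMonoidHom := by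
      refine hZp _ (h2.trans inf_le_left) fun h => ?_
      have := (Subgroup.map_eq_bot_iff_of_injective _ (MulAut.conj x).injective).1 h
      rw [this, Subgroup.card_bot] at hZcard
      exact (Fact.out : p.Prime).ne_one hZcard.symm
    exact (Subgroup.eq_of_le_of_card_ge h3
      (Subgroup.card_map_of_injective (MulAut.conj x).injective).le).symm
  · apply hmap
    refine (Subgroup.eq_of_le_of_card_ge (hZp _ ?_ ?_)
      (Subgroup.card_map_of_injective (MulAut.conj x).injective).le).symm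
    · rintro _ ⟨z, hz, rfl⟩
      exact hQ ((Subgroup.mem_normalizer_iff.mp hx z).1 (hZp Q hQ hQ1 hz))
    · intro h
      have := (Subgroup.map_eq_bot_iff_of_injective _ (MulAut.conj x).injective).1 h
      rw [this, Subgroup.card_bot] at hZcard
      exact (Fact.out : p.Prime).ne_one hZcard.symm

end Cfsg.Agent.S4636
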