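import Cfsg.Statements.S4638
import Cfsg.Agent.BlockCover.KleinGlue

set_option autoImplicit false
open Cfsg

namespace Cfsg.Agent.S4638

/-- Let B be a block of the finite group G relative to a maximal ideal M of the algebraic integers containing 2, with a Klein four defect group P, and let c be its Brauer correspondent: the block of N_G(P) with defect group P that induces B. Then there is a perfect isometry from c onto B. -/
theorem result {G : Type*} [Group G] [Finite G] (M : Ideal Cfsg.AlgInt) (hM : Cfsg.IsPModular 2 M) (B : Set (Cfsg.IrrCharacter G)) (hB : Cfsg.IsPBlock M B) (P : Subgroup G) (hPD : Cfsg.IsDefectGroup 2 M B P) (hV : IsKleinFour P) (c : Set (Cfsg.IrrCharacter (Subgroup.normalizer (P : Set G)))) (hcD : Cfsg.IsDefectGroup 2 M c (P.subgroupOf (Subgroup.normalizer (P : Set G)))) (hc : Cfsg.IsInducedBlock M (Subgroup.normalizer (P : Set G)) c B) : ∃ (I : Cfsg.IrrCharacter (Subgroup.normalizer (P : Set G)) → Cfsg.IrrCharacter G) (ε : Cfsg.IrrCharacter (Subgroup.normalizer (P : Set G)) → ℤ), Cfsg.IsPerfectIsometry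 2 M c B I ε := by
  classical
  letI := Fintype.ofFinite G
  haveI := hV
  obtain ⟨hl, h13⟩ := KleinIso.blockRank_correspondent hM hB hPD hV rfl hcD hc
  have h4 : Nat.card P = 4 := IsKleinFour.card_four
  have hsq : ∀ x ∈ P, x * x = 1 := fun x hx => Brauer.kleinFour_sq hV hx
  have hPN : P ≤ Subgroup.normalizer (P : Set G) := Subgroup.le_normalizer
  haveI := Fintype.ofFinite (Subgroup.normalizer (P : Set G))
  obtain ⟨hkB, hdB, hsB⟩ := KleinIso.hasSignData_of_defect hM hB hPD h4 hsq
  obtain ⟨hkc, hdc, hsc⟩ := KleinIso.hasSignData_of_defect hM hc.1 hcD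
    ((Nat.card_congr (Subgroup.subgroupOfEquivOfLe hPN).toEquiv).trans h4)
    (fun x hx => Subtype.ext (hsq x hx))
  exact KleinIso.exists_isPerfectIsometry hM hB hc.1 hkB hkc hdB hdc hl h13 hsB hsc

end Cfsg.Agent.S4638
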