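import Cfsg.Statements.S4640
import Cfsg.Agent.BlockCover.AbelianExtendChar

set_option autoImplicit false
open Cfsg

namespace Cfsg.Agent.S4640

/-- Let N be a normal subgroup of the finite group G of index a power of the prime p, M a maximal ideal of the algebraic integers containing p, b a block of N stabilized by every element of G, and B a block of G covering b (some member of B has a member of b as a constituent of its restriction to N). Suppose that B has a commutative defect group P. Then G = NP and P ∩ N is a defect group of b; every member of B restricts to a member of b; every member of b is the restriction of exactly [G : N] members of B; B contains exactly [G : N] times as many irreducible characters as b; and B and b have the same p-regular rank. -/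
theorem result {G : Type*} [Group G] [Fintype G] (p : ℕ) [Fact p.Prime] (M : Ideal Cfsg.AlgInt) (hM : Cfsg.IsPModular p M) (N : Subgroup G) [N.Normal] [Fintype N] (hNi : ∃ k : ℕ, N.index = p ^ k) (b : Set (Cfsg.IrrCharacter N)) (hb : Cfsg.IsPBlock M b) (hstab : ∀ g : G, Cfsg.StabilizesBlock N b g) (B : Set (Cfsg.IrrCharacter G)) (hB : Cfsg.IsPBlock M B) (hcov : ∃ χ ∈ B, ∃ θ ∈ b, Cfsg.classInner (fun n : N => (χ : G → ℂ) n) (θ : N → ℂ) ≠ 0) (P : Subgroup G) (hPD : Cfsg.IsDefectGroup p M B P) (hPab : ∀ x ∈ P, ∀ y ∈ P, x * y = y * x) : N ⊔ P = ⊤ ∧ Cfsg.IsDefectGroup p M b ((P ⊓ N).subgroupOf N) ∧ (∀ χ ∈ B, ∃ θ ∈ b, ∀ n : N, (χ : G → ℂ) n = (θ : N → ℂ) n) ∧ (∀ θ ∈ b, Nat.card {χ : Cfsg.IrrCharacter G // χ ∈ B ∧ ∀ n : N, (χ : G → ℂ) n = (θ : N → ℂ) n} = N.index) ∧ Nat.card B = N.index * Nat.card b ∧ Cfsg.blockRank p B = Cfsg.blockRank p b := by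
  classical
  haveI : M.IsPrime := hM.2.1.isPrime
  haveI := Block.charP_resF (M := M) hM
  obtain ⟨m, hm⟩ := hNi
  set cb : BrauerPairs.Blk M N := ⟨b, hb⟩ with hcb
  set Bk : BrauerPairs.Blk M G := ⟨B, hB⟩ with hBk
  have hfix : BrauerPairs.Fixed ⊤ ((BrauerPairs.blockSys M N).idem cb) :=
    BrauerPairs.fixed_iff_cj.2 fun x _ => ((BrauerPairs.stabilizesBlock_iff cb x).1 (hstab x)).2
  obtain ⟨B0, hB0⟩ := BlockCover.exists_blk_eq hM ⟨m, hm⟩ hfix
  have hof : ∀ C : BrauerPairs.Blk M G, BlockCover.Covers C cb → C = B0 := fun C hC =>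
    by_contra fun hne => hC (by rw [← hB0, (BrauerPairs.blockSysTop M).idem_mul_ne C B0 hne])
  have hcovB : BlockCover.Covers Bk cb := (BlockCover.covers_iff Bk cb).2 hcov
  obtain rfl : Bk = B0 := hof Bk hcovB
  have hP := (BrauerPairs.isDefectGroup_iff Bk P).1 hPD
  obtain ⟨htop, hD⟩ := BlockCover.sup_eq_top_and_isDefIn (p := p) ⟨m, hm⟩ hB0 hP
  have hcomm := BlockCover.quotient_comm_of_sup hPab htop
  -- restriction
  have hres : ∀ χ ∈ B, ∃ θ ∈ b, ∀ n : N, (χ : G → ℂ) n = (θ : N → ℂ) n := by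
    intro χ hχ
    have hirr := BlockCover.isIrr_restrict_of_nonvanishing hcomm χ.2
      (fun g => BlockCover.exists_ne_zero_coset hM hm hP hPab htop (χ := χ) hχ g)
    refine ⟨⟨_, hirr⟩, ?_, fun n => rfl⟩
    set c : BrauerPairs.Blk M N := ⟨blockOf M (fun n : N => (χ : G → ℂ) n), Block.isPBlock_blockOf ⟨_, hirr⟩⟩ with hc
    have hmem : (⟨_, hirr⟩ : IrrCharacter N) ∈ c.1 := Block.mem_blockOf_self ⟨_, hirr⟩
    have hcov' : BlockCover.Covers Bk c := (BlockCover.covers_iff Bk c).2 ⟨χ, hχ, ⟨_, hirr⟩, hmem,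
      by rw [Char.classInner_irr_self hirr]; exact one_ne_zero⟩
    have hcc : c = cb := by_contra fun hne => hcov' (by
      rw [hB0, (BrauerPairs.blockSys M N).idem_mul_ne cb c (Ne.symm hne)])
    rw [hcc] at hmem
    exact hmem
  have hover : ∀ θ ∈ b, ∀ χ : IrrCharacter G,
      classInner (fun n : N => (χ : G → ℂ) n) (θ : N → ℂ) ≠ 0 →
        χ ∈ B ∧ ∀ n : N, (χ : G → ℂ) n = (θ : N → ℂ) n := by
    intro θ hθ χ hne
    have hχB : χ ∈ B := by
      have h1 : χ ∈ (⟨blockOf M (χ : G → ℂ), Block.isPBlock_blockOf χ⟩ : BrauerPairs.Blk M G).1 :=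
        Block.mem_blockOf_self χ
      rw [hof _ ((BlockCover.covers_iff _ cb).2 ⟨χ, h1, θ, hθ, hne⟩)] at h1
      exact h1
    refine ⟨hχB, ?_⟩
    obtain ⟨θ', -, hθ'⟩ := hres χ hχB
    have he : θ' = θ := by_contra fun hn => hne (by
      rw [show (fun n : N => (χ : G → ℂ) n) = (θ' : N → ℂ) from funext hθ',
        Char.classInner_irr_ne θ'.2 θ.2 fun h => hn (Subtype.ext h)])
    exact he ▸ hθ'
  have hfib : ∀ θ ∈ b, Nat.card {χ : IrrCharacter G //
      χ ∈ B ∧ ∀ n : N, (χ : G → ℂ) n = (θ : N → ℂ) n} = N.index := by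
    intro θ hθ
    rw [← BlockCover.card_over_of_restrict_eq θ fun χ hne => (hover θ hθ χ hne).2]
    refine Nat.card_congr (Equiv.subtypeEquivRight fun χ => ⟨And.right, fun h => ⟨?_, h⟩⟩)
    refine (hover θ hθ χ ?_).1
    rw [show (fun n : N => (χ : G → ℂ) n) = (θ : N → ℂ) from funext h,
      Char.classInner_irr_self θ.2]
    exact one_ne_zero
  refine ⟨htop, ?_, hres, hfib, ?_, ?_⟩
  · refine (BrauerPairs.isDefectGroup_subgroupOf_iff cb).2 ?_
    rw [inf_assoc, inf_idem]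
    exact hD
  · refine BlockCover.natCard_eq_mul_of_fibres
      (r := fun (χ : B) (θ : b) => ∀ n : N, ((χ.1 : IrrCharacter G) : G → ℂ) n =
        ((θ.1 : IrrCharacter N) : N → ℂ) n)
      (fun χ => by obtain ⟨θ, hθ, h⟩ := hres χ.1 χ.2; exact ⟨⟨θ, hθ⟩, h⟩)
      (fun χ θ θ' h h' => Subtype.ext (Subtype.ext (funext fun n => (h n).symm.trans (h' n))))
      fun θ => ?_
    rw [← hfib θ.1 θ.2]
    exact Nat.card_congr (Equiv.subtypeSubtypeEquivSubtypeInter (fun χ => χ ∈ B)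
      (fun χ : IrrCharacter G => ∀ n : N, (χ : G → ℂ) n = ((θ.1 : IrrCharacter N) : N → ℂ) n))
  · refine BlockCover.blockRank_eq_of_restrict (Fact.out : p.Prime) hm hres fun θ hθ => ?_
    obtain ⟨⟨χ, hχ, h⟩⟩ := (Nat.card_pos_iff.1 (by
      rw [hfib θ hθ]; exact Nat.pos_of_ne_zero Subgroup.index_ne_zero_of_finite)).1
    exact ⟨χ, hχ, h⟩

end Cfsg.Agent.S4640
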