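import Cfsg.Statements.S4642
import Cfsg.Agent.BlockCover.PrincipalType
import Cfsg.Agent.Block.Covering
import Cfsg.Agent.PSolv.HallHigman

set_option autoImplicit false
open Cfsg

namespace Cfsg.Agent.S4642

/-- Let G be a finite group, p a prime, M a maximal ideal of the algebraic integers containing p, K the largest normal subgroup of G of order prime to p, and L the preimage in G of the largest normal p-subgroup of G/K. Let Q be a Sylow p-subgroup of L and suppose C_G(Q) ≤ L. Let θ be an irreducible character of K invariant under conjugation by every element of G, and let B be the set of irreducible characters of G whose restriction to K contains θ. Then B is a block of G, every Sylow p-subgroup of G is a defect group of B, and B is of principal type: for every p-subgroup R of G exactly one block of C_G(R) induces B. -/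
theorem result {G : Type*} [Group G] [Fintype G] (p : ℕ) [Fact p.Prime] (M : Ideal Cfsg.AlgInt) (hM : Cfsg.IsPModular p M) (K : Subgroup G) (hK : K = Cfsg.pPrimeCore p G) [Fintype K] (L : Subgroup G) (hL : L = Cfsg.pPrimePCore p G) (Q : Subgroup G) (hQL : Q ≤ L) (hQp : IsPGroup p Q) (hQS : ¬ p ∣ Q.relIndex L) (hCQ : Subgroup.centralizer (Q : Set G) ≤ L) (θ : Cfsg.IrrCharacter K) (hθ : ∀ g : G, Cfsg.IsConjCharOf K g (θ : K → ℂ) (θ : K → ℂ)) (B : Set (Cfsg.IrrCharacter G)) (hBdef : ∀ χ : Cfsg.IrrCharacter G, χ ∈ B ↔ Cfsg.classInner (fun k : K => (χ : G → ℂ) k) (θ : K → ℂ) ≠ 0) : Cfsg.IsPBlock M B ∧ (∀ S : Sylow p G, Cfsg.IsDefectGroup p M B S) ∧ ∀ R : Subgroup G, IsPGroup p R → ∃! f : Set (Cfsg.IrrCharacter (Subgroup.centralizer (R : Set G))), Cfsg.IsInducedBlock M (Subgroup.centralizer (R : Set G)) f B := by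
  classical
  haveI : M.IsPrime := hM.2.1.isPrime
  haveI := Cfsg.Agent.Block.charP_resF (M := M) hM
  haveI hKn : K.Normal := hK ▸ Cfsg.pPrimeCore_normal p G
  haveI hLn : L.Normal := hL ▸ PSolv.pPrimePCore_normal p G
  have hp := hM.1
  have hKp : ¬ p ∣ Nat.card K :=
    hp.coprime_iff_not_dvd.1 (Nat.coprime_comm.1 (hK ▸ PSolv.coprime_card_pPrimeCore p G))
  have hKL : K ≤ L := hK ▸ hL ▸ PSolv.pPrimeCore_le_pPrimePCore
  obtain ⟨m, hm⟩ : ∃ m, K.relIndex L = p ^ m := by
    subst hK hL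
    set π := QuotientGroup.mk' (pPrimeCore p G)
    obtain ⟨m, hm⟩ := IsPGroup.iff_card.1 (PSolv.isPGroup_pCore p (G ⧸ pPrimeCore p G))
    refine ⟨m, ?_⟩
    have h1 := Subgroup.relIndex_comap (pPrimeCore p G |>.map π) π (pPrimePCore p G)
    rw [PSolv.map_pPrimePCore, Subgroup.comap_map_eq, QuotientGroup.ker_mk', sup_idem,
      QuotientGroup.map_mk'_self, Subgroup.relIndex_bot_left, hm] at h1
    exact h1
  have hLKQ : L = K ⊔ Q := by
    refine le_antisymm ?_ (sup_le hKL hQL)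
    rw [← Subgroup.relIndex_eq_one]
    obtain ⟨l, -, hl⟩ := (Nat.dvd_prime_pow hp).1
      ((Subgroup.relIndex_dvd_of_le_left L (le_sup_left : K ≤ K ⊔ Q)).trans (dvd_of_eq hm))
    rcases Nat.eq_zero_or_pos l with rfl | hlpos
    · rw [hl, pow_zero]
    · exact absurd ((hl ▸ dvd_pow_self p hlpos.ne').trans
        (Subgroup.relIndex_dvd_of_le_left L le_sup_right)) hQS
  haveI : (K ⊔ Q).Normal := hLKQ ▸ hLn
  rw [hLKQ] at hCQ
  let c : BrauerPairs.Blk M K := ⟨Cfsg.blockOf M (θ : K → ℂ), Block.isPBlock_blockOf θ⟩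
  have hsing : ∀ η ∈ c.1, η = θ := fun η hη =>
    Brauer.eq_of_sameBlock_of_not_dvd_card hM hKp hη
  have hfix : BrauerPairs.Fixed (⊤ : Subgroup G) ((BrauerPairs.blockSys M K).idem c) := by
    refine BrauerPairs.fixed_iff_cj.2 fun x _ => ((BrauerPairs.stabilizesBlock_iff c x).1
      ⟨by rw [Subgroup.normalizer_eq_top K]; exact Subgroup.mem_top x, fun η hη => ?_⟩).2
    exact ⟨θ, Block.mem_blockOf_self θ, by rw [hsing η hη]; exact hθ x⟩
  obtain ⟨B₀, hB₀⟩ := BlockCover.exists_blk_eq_of_constrained hM hKp hfix hQp hCQ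
  have hcov : ∀ B' : BrauerPairs.Blk M G, BlockCover.Covers B' c ↔ B' = B₀ := by
    intro B'
    show (BrauerPairs.blockSysTop M).idem B' * _ ≠ 0 ↔ _
    rw [← hB₀]
    refine ⟨fun h => by_contra fun hne => h ((BrauerPairs.blockSysTop M).idem_mul_ne B' B₀ hne),
      fun h => ?_⟩
    rw [h, (BrauerPairs.blockSysTop M).idem_mul_self]
    exact (BrauerPairs.blockSysTop M).idem_ne_zero B₀
  have hBeq : B = B₀.1 := by
    ext χ
    rw [hBdef]
    obtain ⟨χ₀, hχ₀, θ₀, hθ₀, hne⟩ := (BlockCover.covers_iff B₀ c).1 ((hcov B₀).2 rfl)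
    rw [hsing θ₀ hθ₀] at hne
    constructor
    · intro h
      have := (hcov ⟨_, Block.isPBlock_blockOf χ⟩).1 ((BlockCover.covers_iff _ c).2
        ⟨χ, Block.mem_blockOf_self χ, θ, Block.mem_blockOf_self θ, h⟩)
      rw [← this]
      exact Block.mem_blockOf_self χ
    · intro h
      exact (Block.classInner_res_ne_zero_iff_of_sameBlock hM K hKp θ.2 χ₀.2 χ.2
        (Block.pBlock_sameBlock B₀.2 hχ₀ h)).1 hne
  subst hBeq
  refine ⟨B₀.2, fun S => (BrauerPairs.isDefectGroup_iff B₀ _).2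
    (BlockCover.isDef_sylow_of_idem_eq hM hKp hB₀ S), fun R hR => ?_⟩
  obtain ⟨f, hf, hu⟩ := BlockCover.existsUnique_pairOf_of_constrained hM hKp hB₀ hQp hCQ hR
  refine ⟨f.1, (BlockCover.isInducedBlock_iff_pairOf hR f B₀).2 hf, fun f' hf' => ?_⟩
  exact congrArg Subtype.val
    (hu ⟨f', hf'.1⟩ ((BlockCover.isInducedBlock_iff_pairOf hR ⟨f', hf'.1⟩ B₀).1 hf'))

end Cfsg.Agent.S4642
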