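import Cfsg.Statements.S4644
import Cfsg.Agent.BlkWat.Main

set_option autoImplicit false
set_option linter.style.haveILetI false
open Cfsg

namespace Cfsg.Agent.S4644

/-- Let B be a block of the finite group G relative to a maximal ideal M of the algebraic integers containing the prime p, with a commutative defect group P; let c be a block of C_G(P) inducing B and T the stabilizer of c in N_G(P). Let u be an element of P fixed under conjugation by every element of T, H = C_G(u) (so C_G(P) ≤ H), and f the block of H induced by c inside H. Then B and f have the same p-regular rank and the same number of irreducible characters. -/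
theorem result {G : Type*} [Group G] [Finite G] (p : ℕ) [Fact p.Prime] (M : Ideal Cfsg.AlgInt) (hM : Cfsg.IsPModular p M) (B : Set (Cfsg.IrrCharacter G)) (hB : Cfsg.IsPBlock M B) (P : Subgroup G) (hPD : Cfsg.IsDefectGroup p M B P) (hPab : ∀ x ∈ P, ∀ y ∈ P, x * y = y * x) (c : Set (Cfsg.IrrCharacter (Subgroup.centralizer (P : Set G)))) (hc : Cfsg.IsInducedBlock M (Subgroup.centralizer (P : Set G)) c B) (T : Subgroup G) (hT : ∀ g : G, g ∈ T ↔ (g ∈ Subgroup.normalizer (P : Set G) ∧ Cfsg.StabilizesBlock (Subgroup.centralizer (P : Set G)) c g)) (u : G) (hu : u ∈ P) (huT : ∀ g ∈ T, g * u * g⁻¹ = u) (H : Subgroup G) (hH : H = Subgroup.centralizer ({u} : Set G)) (f : Set (Cfsg.IrrCharacter H)) (hf : Cfsg.IsInducedBlockIn M H (Subgroup.centralizer (P : Set G)) c f) : Cfsg.blockRank p B = Cfsg.blockRank p f ∧ Nat.card B = Nat.card f := by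
  classical
  letI := Fintype.ofFinite G
  haveI : M.IsPrime := hM.2.1.isPrime
  haveI := Agent.Block.charP_resF hM
  have hP : IsPGroup p P := Agent.Block.isDefectGroup_isPGroup hPD
  let cB : BrauerPairs.Blk M (Subgroup.centralizer (P : Set G)) := ⟨c, hc.1⟩
  have hm : Cfsg.IsMaximalBrauerPair p M B P cB.1 :=
    BrauerPairs.isMaximalBrauerPair_of_isInducedBlock hM hB hPD hP cB hc
  obtain rfl : H = Subgroup.centralizer (Subgroup.zpowers u : Set G) := by
    rw [hH, Brauer.centralizer_zpowers_eq]
  have huP : Subgroup.zpowers u ≤ P := Subgroup.zpowers_le.2 hu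
  let fB : BrauerPairs.Blk M (Subgroup.centralizer (Subgroup.zpowers u : Set G)) := ⟨f, hf.2.1⟩
  have hn := (BrauerPairs.isInducedBlockIn_iff_nsub hP huP
    (BrauerPairs.le_centralizer_of_abelian hPab huP) fB cB).1 hf
  have hh := BlkWat.blockRank_and_card_eq (p := p) (B := B) (P := P) (e := cB) (f := fB) hM hm hPab hu
    (fun t ht => huT t ((hT t).2 ((BrauerPairs.mem_stab_iff_stabilizesBlock cB t).1 ht))) hn
  exact hh

end Cfsg.Agent.S4644
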