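import Cfsg.Statements.S4645
import Cfsg.Agent.BrauerPairs.Nil.Main
import Cfsg.Agent.BrauerPairs.AbelianLocal
import Cfsg.Agent.BrauerPairs.CyclicAct
import Cfsg.Agent.Lib.FrobeniusComplement
-- import your own Cfsg.Agent.* helpers here

set_option autoImplicit false
open Cfsg

namespace Cfsg.Agent.S4645

/-- Let B be a block of the finite group G relative to a maximal ideal M of the algebraic integers containing the prime p, with a nontrivial cyclic defect group P; let c be a block of C_G(P) inducing B and T the stabilizer of c in N_G(P). Let Q be a nontrivial subgroup of P (so C_G(P) ≤ C_G(Q)), f the block of C_G(Q) induced by c inside C_G(Q), and T' the stabilizer of f in N_G(Q). Then T' = T·C_G(Q), the index of C_G(Q) in T' equals the index of C_G(P) in T, f has p-regular rank 1, and f is a nilpotent block of C_G(Q). -/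
theorem result {G : Type*} [Group G] [Finite G] (p : ℕ) [Fact p.Prime] (M : Ideal Cfsg.AlgInt) (hM : Cfsg.IsPModular p M) (B : Set (Cfsg.IrrCharacter G)) (hB : Cfsg.IsPBlock M B) (P : Subgroup G) (hPD : Cfsg.IsDefectGroup p M B P) (hP1 : P ≠ ⊥) (hcyc : IsCyclic P) (c : Set (Cfsg.IrrCharacter (Subgroup.centralizer (P : Set G)))) (hc : Cfsg.IsInducedBlock M (Subgroup.centralizer (P : Set G)) c B) (T : Subgroup G) (hT : ∀ g : G, g ∈ T ↔ (g ∈ Subgroup.normalizer (P : Set G) ∧ Cfsg.StabilizesBlock (Subgroup.centralizer (P : Set G)) c g)) (Q : Subgroup G) (hQP : Q ≤ P) (hQ1 : Q ≠ ⊥) (f : Set (Cfsg.IrrCharacter (Subgroup.centralizer (Q : Set G)))) (hf : Cfsg.IsInducedBlockIn M (Subgroup.centralizer (Q : Set G)) (Subgroup.centralizer (P : Set G)) c f) (T' : Subgroup G) (hT' : ∀ g : G, g ∈ T' ↔ (g ∈ Subgroup.normalizer (Q : Set G) ∧ Cfsg.StabilizesBlock (Subgroup.centralizer (Q : Set G)) f g)) : T' = T ⊔ Subgroup.centralizer (Q : Set G) ∧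 (Subgroup.centralizer (Q : Set G)).relIndex T' = (Subgroup.centralizer (P : Set G)).relIndex T ∧ Cfsg.blockRank p f = 1 ∧ Cfsg.IsNilpotentBlock p M f := by
  haveI : M.IsPrime := Cfsg.Agent.Block.isPrime_of_isPModular hM
  haveI := Cfsg.Agent.Block.charP_resF hM
  have hP : IsPGroup p P := Cfsg.Agent.Block.isDefectGroup_isPGroup hPD
  have hab : ∀ x ∈ P, ∀ y ∈ P, x * y = y * x := fun x hx y hy => by
    haveI := hcyc
    letI := IsCyclic.commGroup (α := P)
    exact congrArg Subtype.val (mul_comm (⟨x, hx⟩ : P) ⟨y, hy⟩)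
  have hm := Cfsg.Agent.BrauerPairs.isMaximalBrauerPair_of_isInducedBlock hM hB hPD hP ⟨c, hc.1⟩ hc
  obtain rfl : T = Cfsg.Agent.BrauerPairs.stab (M := M)
      (⟨P, ⟨c, hc.1⟩⟩ : Cfsg.Agent.BrauerPairs.PairIdx M G) :=
    Cfsg.Agent.BrauerPairs.eq_stab hT
  obtain rfl : T' = Cfsg.Agent.BrauerPairs.stab (M := M)
      (⟨Q, ⟨f, hf.2.1⟩⟩ : Cfsg.Agent.BrauerPairs.PairIdx M G) :=
    Cfsg.Agent.BrauerPairs.eq_stab hT'
  set T := Cfsg.Agent.BrauerPairs.stab (M := M)
      (⟨P, ⟨c, hc.1⟩⟩ : Cfsg.Agent.BrauerPairs.PairIdx M G) with hTdef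
  have hPC := Cfsg.Agent.BrauerPairs.le_centralizer_of_abelian hab hQP
  have hn := (Cfsg.Agent.BrauerPairs.isInducedBlockIn_iff_nsub hP hQP hPC ⟨f, hf.2.1⟩ ⟨c, hc.1⟩).1 hf
  have hsle : Cfsg.Agent.BrauerPairs.SLE (Cfsg.Agent.BrauerPairs.pairSys M G) p
      ⟨Q, ⟨f, hf.2.1⟩⟩ ⟨P, ⟨c, hc.1⟩⟩ := Relation.ReflTransGen.single hn
  have hTN : T ≤ Subgroup.normalizer (P : Set G) := Cfsg.Agent.BrauerPairs.stab_le_normalizer (⟨P, ⟨c, hc.1⟩⟩ : Cfsg.Agent.BrauerPairs.PairIdx M G)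
  have hCT : Subgroup.centralizer (P : Set G) ≤ T := Cfsg.Agent.BrauerPairs.centralizer_le_stab (⟨P, ⟨c, hc.1⟩⟩ : Cfsg.Agent.BrauerPairs.PairIdx M G)
  haveI : ((Subgroup.centralizer (P : Set G)).subgroupOf T).Normal :=
    (Subgroup.normal_subgroupOf_iff_le_normalizer hCT).2
      (hTN.trans (Cfsg.Agent.BrauerPairs.normalizer_le_normalizer_centralizer P))
  have he := Cfsg.Agent.BrauerPairs.not_dvd_relIndex_stab hm hab
  haveI := hcyc
  have hfree : T ⊓ Subgroup.centralizer (Q : Set G) = Subgroup.centralizer (P : Set G) := by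
    refine le_antisymm ?_ (le_inf hCT (Cfsg.Agent.BrauerPairs.centralizer_anti hQP))
    rintro g ⟨hg, hgQ⟩
    obtain ⟨x, hx, hx1⟩ := Q.bot_or_exists_ne_one.resolve_left hQ1
    refine Cfsg.Agent.BrauerPairs.CyclicAct.mem_centralizer_of_fix hP hTN he hg (hQP hx) hx1 ?_
    rw [← Subgroup.mem_centralizer_iff.1 hgQ x hx, mul_inv_cancel_right]
  have hTQ : T ≤ Subgroup.normalizer (Q : Set G) := by
    intro t ht
    have hmap : Q.map (MulAut.conj t).toMonoidHom = Q := by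
      have hle : Q.map (MulAut.conj t).toMonoidHom ≤ P := by
        rintro _ ⟨z, hz, rfl⟩
        exact (Subgroup.mem_normalizer_iff.1 (hTN ht) z).1 (hQP hz)
      have h1 : (Q.map (MulAut.conj t).toMonoidHom).subgroupOf P = Q.subgroupOf P :=
        Cfsg.Agent.FrobeniusCompl.eq_of_card_eq (by
          rw [Nat.card_congr (Subgroup.subgroupOfEquivOfLe hle).toEquiv,
            Nat.card_congr (Subgroup.subgroupOfEquivOfLe hQP).toEquiv,
            Subgroup.card_map_of_injective (MulAut.conj t).injective])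
      rw [← Subgroup.map_subgroupOf_eq_of_le hle, h1, Subgroup.map_subgroupOf_eq_of_le hQP]
    refine Subgroup.mem_normalizer_iff.2 fun z => ⟨fun hz => ?_, fun hz => ?_⟩
    · rw [← hmap]
      exact ⟨z, hz, by simp⟩
    · rw [← hmap] at hz
      obtain ⟨w, hw, hwz⟩ := hz
      have : w = z := by simpa using hwz
      rwa [← this]
  have hnil := (Cfsg.Agent.BrauerPairs.isNilpotentBlock_local_iff hm hab hn).2 hfree.le
  refine ⟨?_, ?_, ?_, hnil⟩
  · refine le_antisymm (fun x hx => ?_) (sup_le (fun y hy => ?_)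
      (Cfsg.Agent.BrauerPairs.centralizer_le_stab (⟨Q, ⟨f, hf.2.1⟩⟩ : Cfsg.Agent.BrauerPairs.PairIdx M G)))
    · obtain ⟨y, hy, z, hz, rfl⟩ := Cfsg.Agent.BrauerPairs.exists_factor hm hab hsle hx
      exact Subgroup.mul_mem_sup hy hz
    · exact Cfsg.Agent.BrauerPairs.mem_stab_of_mem_stab_top hP hsle hy (hTQ hy)
  · rw [Cfsg.Agent.BrauerPairs.relIndex_stab_eq hm hab hsle, inf_eq_left.2 hTQ, hfree]
  · haveI := Fintype.ofFinite (Subgroup.centralizer (Q : Set G))
    obtain ⟨d, hd⟩ := Cfsg.Agent.Block.exists_isDefectClass hf.2.1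
    obtain ⟨S⟩ := (inferInstance : Nonempty (Sylow p
      (Subgroup.centralizer ({d} : Set (Subgroup.centralizer (Q : Set G))))))
    obtain ⟨D, hDB, -⟩ := Cfsg.Agent.BrauerPairs.Nil.exists_nilData hM ⟨f, hf.2.1⟩ hnil
      ⟨d, hd, S, rfl⟩
    rw [show f = D.B.1 by rw [hDB]]
    exact Cfsg.Agent.BrauerPairs.Nil.blockRank_eq_one D

end Cfsg.Agent.S4645
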