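import Cfsg.Statements.S4647
import Cfsg.Agent.BrauerPairs.MinimalBlock
-- import your own Cfsg.Agent.* helpers here

set_option autoImplicit false
open Cfsg

namespace Cfsg.Agent.S4647

/-- Let B be a block of the finite group G relative to a maximal ideal M of the algebraic integers containing the prime p, p^a the p-part of the order of G and p^d the order of a defect group D of B. If Σ_{χ ∈ B} χ(1)² = p^(2a−d) (the least possible value), then B is nilpotent. -/
theorem result {G : Type*} [Group G] [Finite G] (p : ℕ) [Fact p.Prime] (M : Ideal Cfsg.AlgInt) (hM : Cfsg.IsPModular p M) (B : Set (Cfsg.IrrCharacter G)) (hB : Cfsg.IsPBlock M B) (D : Subgroup G) (hD : Cfsg.IsDefectGroup p M B D) (a d : ℕ) (ha : (Nat.card G).factorization p = a) (hd : Nat.card D = p ^ d) (hmin : ∑ᶠ χ ∈ B, Cfsg.charDegree (χ : G → ℂ) ^ 2 = p ^ (2 * a - d)) : Cfsg.IsNilpotentBlock p M B := by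
  haveI : M.IsPrime := Cfsg.Agent.Block.isPrime_of_isPModular hM
  haveI := Cfsg.Agent.Block.charP_resF hM
  haveI := Fintype.ofFinite G
  have hD' := Cfsg.Agent.BrauerPairs.isDef_of_isDefectGroup (B := (⟨B, hB⟩ :
    Cfsg.Agent.BrauerPairs.Blk M G)) hD
  refine Cfsg.Agent.BrauerPairs.MinBlock.isNilpotentBlock_of_minimal hM ⟨B, hB⟩ hD' fun S => ?_
  have hda : d ≤ a := by
    rw [← ha, ← (Fact.out : p.Prime).pow_dvd_iff_le_factorization Nat.card_pos.ne', ← hd]
    exact Subgroup.card_subgroup_dvd_card D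
  classical
  have hset : Finset.univ.filter (fun χ : Cfsg.IrrCharacter G => χ ∈ B) = B.toFinset := by ext; simp
  rw [finsum_mem_eq_toFinset_sum] at hmin
  rw [show ∀ t : Finset (Cfsg.IrrCharacter G), t = B.toFinset → ∑ χ ∈ t, Cfsg.charDegree (χ : G → ℂ) ^ 2 = p ^ (2 * a - d) from fun t ht => ht ▸ hmin]
  swap
  · ext; simp
  rw [ hd, S.card_eq_multiplicity, ha, ← pow_add, ← pow_add]
  congr 1
  omega

end Cfsg.Agent.S4647
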