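import Cfsg.Statements.S4649
import Cfsg.Agent.BrauerPairs.CyclicDefect.OneGen
import Cfsg.Agent.BrauerPairs.CyclicDefect.Count
-- import your own Cfsg.Agent.* helpers here

set_option autoImplicit false
open Cfsg

namespace Cfsg.Agent.S4649

/-- A block with cyclic defect group, of a finite group relative to a maximal ideal M of the algebraic integers containing the prime p, is nilpotent if and only if its p-regular rank is 1 (it has a unique irreducible Brauer character). -/
theorem result {G : Type*} [Group G] [Finite G] (p : ℕ) [Fact p.Prime] (M : Ideal Cfsg.AlgInt) (hM : Cfsg.IsPModular p M) (B : Set (Cfsg.IrrCharacter G)) (hB : Cfsg.IsPBlock M B) (P : Subgroup G) (hPD : Cfsg.IsDefectGroup p M B P) (hcyc : IsCyclic P) : Cfsg.IsNilpotentBlock p M B ↔ Cfsg.blockRank p B = 1 := by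
  haveI : M.IsPrime := Cfsg.Agent.Block.isPrime_of_isPModular hM
  haveI := Cfsg.Agent.Block.charP_resF hM
  haveI := Fintype.ofFinite G
  have hD := Cfsg.Agent.BrauerPairs.isDef_of_isDefectGroup
    (B := (⟨B, hB⟩ : Cfsg.Agent.BrauerPairs.Blk M G)) hPD
  constructor
  · intro hnil
    obtain ⟨D, hDB, -⟩ := Cfsg.Agent.BrauerPairs.Nil.exists_nilData hM ⟨B, hB⟩ hnil hPD
    rw [show B = D.B.1 by rw [hDB]]
    exact Cfsg.Agent.BrauerPairs.Nil.blockRank_eq_one D
  · intro hl
    obtain ⟨e, hm⟩ := Cfsg.Agent.BrauerPairs.exists_maxPair_of_isDef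
      (S := Cfsg.Agent.BrauerPairs.pairSys M G) hD
    have hmax := (Cfsg.Agent.BrauerPairs.isMaximalBrauerPair_iff ⟨B, hB⟩ ⟨P, e⟩).2 hm
    refine (Cfsg.Agent.BrauerPairs.isNilpotentBlock_iff_abelian hmax
      (Cfsg.Agent.BrauerPairs.CyclicDefect.comm_of_isCyclic hcyc)).2 fun t ht => ?_
    rw [Subgroup.mem_centralizer_iff]
    intro u hu
    by_contra hne
    have hlt := Cfsg.Agent.BrauerPairs.CyclicDefect.card_lt hM hm hcyc hl ht hu
      (fun h => hne (mul_inv_eq_iff_eq_mul.1 h).symm)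
    exact absurd (Cfsg.Agent.BrauerPairs.CyclicDefect.card_ge hM hB hPD hcyc hl) (not_le.2 hlt)

end Cfsg.Agent.S4649
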