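import Cfsg.Statements.S4650
import Cfsg.Agent.BrauerPairs.AbelianLocal
-- import your own Cfsg.Agent.* helpers here

set_option autoImplicit false
open Cfsg

namespace Cfsg.Agent.S4650

/-- Let B be a block of the finite group G relative to a maximal ideal M of the algebraic integers containing the prime p, with a nontrivial commutative defect group P; let c be a block of C_G(P) inducing B and T the stabilizer of c in N_G(P). Then T/C_G(P) acts freely on the non-identity elements of P (an element of T fixing a non-identity element of P under conjugation lies in C_G(P)) if and only if, for every nontrivial subgroup Q of P, the block of C_G(Q) induced by c inside C_G(Q) is a nilpotent block of C_G(Q). -/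
theorem result {G : Type*} [Group G] [Finite G] (p : ℕ) [Fact p.Prime] (M : Ideal Cfsg.AlgInt) (hM : Cfsg.IsPModular p M) (B : Set (Cfsg.IrrCharacter G)) (hB : Cfsg.IsPBlock M B) (P : Subgroup G) (hPD : Cfsg.IsDefectGroup p M B P) (hPab : ∀ x ∈ P, ∀ y ∈ P, x * y = y * x) (hP1 : P ≠ ⊥) (c : Set (Cfsg.IrrCharacter (Subgroup.centralizer (P : Set G)))) (hc : Cfsg.IsInducedBlock M (Subgroup.centralizer (P : Set G)) c B) (T : Subgroup G) (hT : ∀ g : G, g ∈ T ↔ (g ∈ Subgroup.normalizer (P : Set G) ∧ Cfsg.StabilizesBlock (Subgroup.centralizer (P : Set G)) c g)) : (∀ g ∈ T, ∀ x ∈ P, x ≠ 1 → g * x * g⁻¹ = x → g ∈ Subgroup.centralizer (P : Set G)) ↔ ∀ Q : Subgroup G, Q ≤ P → Q ≠ ⊥ → ∀ f : Set (Cfsg.IrrCharacter (Subgroup.centralizer (Q : Set G))), Cfsg.IsInducedBlockIn M (Subgroup.centralizer (Q : Set G)) (Subgroup.centralizer (P : Set G)) c f → Cfsg.IsNilpotentBlock p M f := by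
  haveI : M.IsPrime := Cfsg.Agent.Block.isPrime_of_isPModular hM
  haveI := Cfsg.Agent.Block.charP_resF hM
  have hm0 : IsPGroup p P := Cfsg.Agent.Block.isDefectGroup_isPGroup hPD
  have hm := Cfsg.Agent.BrauerPairs.isMaximalBrauerPair_of_isInducedBlock hM hB hPD hm0 ⟨c, hc.1⟩ hc
  have hTs : T = Cfsg.Agent.BrauerPairs.stab (M := M)
      (⟨P, ⟨c, hc.1⟩⟩ : Cfsg.Agent.BrauerPairs.PairIdx M G) :=
    Cfsg.Agent.BrauerPairs.eq_stab hT
  subst hTs
  constructor
  · intro hfree Q hQP hQ1 f hf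
    have hn := (Cfsg.Agent.BrauerPairs.isInducedBlockIn_iff_nsub hm0 hQP
      (Cfsg.Agent.BrauerPairs.le_centralizer_of_abelian hPab hQP) ⟨f, hf.2.1⟩ ⟨c, hc.1⟩).1 hf
    refine (Cfsg.Agent.BrauerPairs.isNilpotentBlock_local_iff hm hPab hn).2 ?_
    rintro g ⟨hg, hgQ⟩
    obtain ⟨x, hx, hx1⟩ := Q.bot_or_exists_ne_one.resolve_left hQ1
    refine hfree g hg x (hQP hx) hx1 ?_
    rw [← Subgroup.mem_centralizer_iff.1 hgQ x hx, mul_inv_cancel_right]
  · intro hnil g hg x hx hx1 hfix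
    have hQP : Subgroup.zpowers x ≤ P := Subgroup.zpowers_le.2 hx
    have hPC := Cfsg.Agent.BrauerPairs.le_centralizer_of_abelian hPab hQP
    obtain ⟨f, hn, -⟩ := Cfsg.Agent.BrauerPairs.existsUnique_nsub
      (Cfsg.Agent.BrauerPairs.pairSys M G) (b := ⟨P, ⟨c, hc.1⟩⟩) (Q := Subgroup.zpowers x) hm0 hQP
      (hPC.trans (Subgroup.centralizer_le_normalizer _))
    have hin := (Cfsg.Agent.BrauerPairs.isInducedBlockIn_iff_nsub hm0 hQP hPC f ⟨c, hc.1⟩).2 hn
    have hnf := hnil _ hQP (fun h => hx1 (Subgroup.zpowers_eq_bot.1 h)) f.1 hin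
    refine (Cfsg.Agent.BrauerPairs.isNilpotentBlock_local_iff hm hPab hn).1 hnf ⟨hg, ?_⟩
    show g ∈ Subgroup.centralizer (Subgroup.zpowers x : Set G)
    rw [Subgroup.mem_centralizer_iff]
    intro y hy
    obtain ⟨k, rfl⟩ := Subgroup.mem_zpowers_iff.1 hy
    exact (Commute.zpow_right (mul_inv_eq_iff_eq_mul.1 hfix : Commute g x) k).symm.eq

end Cfsg.Agent.S4650
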