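import Cfsg.Statements.S4654
import Cfsg.Agent.BrauerPairs.Orbit
-- import your own Cfsg.Agent.* helpers here

set_option autoImplicit false
open Cfsg

namespace Cfsg.Agent.S4654

/-- Fix a prime p and a maximal ideal M of the algebraic integers containing p. Let P be a normal p-subgroup of the finite group G, B a p-block of G and e a p-block of C_G(P) such that (P, e) is a Brauer pair of B (as P is normal, this says that e occurs in the idempotent of B, which is supported on C_G(P)). Let T be the stabilizer of e in G under conjugation. Then the idempotent of e is a block idempotent of T: some block E of T has, at every element of T, the same idempotent coefficient as e (zero off C_G(P)); and the idempotent of B is the sum of the distinct G-conjugates of the idempotent of e: its coefficient at g is the sum over all x in G of the coefficient of e at x⁻¹ g x, divided by the order of T. -/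
theorem result {G : Type*} [Group G] [Fintype G] (p : ℕ) [Fact p.Prime] (M : Ideal Cfsg.AlgInt) (hM : Cfsg.IsPModular p M) (P : Subgroup G) [P.Normal] (hP : IsPGroup p P) (B : Set (Cfsg.IrrCharacter G)) (e : Set (Cfsg.IrrCharacter (Subgroup.centralizer (P : Set G)))) (hBe : Cfsg.IsBrauerPairOf p M B P e) (T : Subgroup G) (hT : ∀ x : G, x ∈ T ↔ Cfsg.StabilizesBlock (Subgroup.centralizer (P : Set G)) e x) : (∃ E : Set (Cfsg.IrrCharacter T), Cfsg.IsPBlock M E ∧ ∀ t : T, Cfsg.blockCoeff E t = Cfsg.subgroupBlockCoeff (Subgroup.centralizer (P : Set G)) e (t : G)) ∧ ∀ g : G, Cfsg.blockCoeff B g = (Nat.card T : ℂ)⁻¹ * ∑ x : G, Cfsg.subgroupBlockCoeff (Subgroup.centralizer (P : Set G)) e (x⁻¹ * g * x) := by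
  haveI : M.IsPrime := Cfsg.Agent.Block.isPrime_of_isPModular hM
  haveI := Cfsg.Agent.Block.charP_resF hM
  obtain ⟨⟨-, he⟩, hB, -⟩ := id hBe
  have h := (Cfsg.Agent.BrauerPairs.isBrauerPairOf_iff ⟨B, hB⟩ P ⟨e, he⟩).1 hBe
  have hN : Subgroup.normalizer (P : Set G) = (⊤ : Subgroup G) := Subgroup.normalizer_eq_top P
  have hNC : ∀ x : G, x ∈ Subgroup.normalizer (Subgroup.centralizer (P : Set G) : Set G) := fun x =>
    Cfsg.Agent.BrauerPairs.normalizer_le_normalizer_centralizer P (by rw [hN]; exact Subgroup.mem_top x)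
  have hT' : ∀ x, x ∈ T ↔ Cfsg.Agent.BrauerPairs.cj x
      ((Cfsg.Agent.BrauerPairs.pairSys M G P).idem ⟨e, he⟩) =
        (Cfsg.Agent.BrauerPairs.pairSys M G P).idem ⟨e, he⟩ := fun x =>
    (hT x).trans (Cfsg.Agent.BrauerPairs.stabilizesBlock_centralizer_iff ⟨e, he⟩
      (by rw [hN]; exact Subgroup.mem_top x))
  have hCc := (Cfsg.Agent.BrauerPairs.pairSys M G P).central_idem ⟨e, he⟩
  have hCT : Subgroup.centralizer (P : Set G) ≤ T := fun x hx =>
    (hT' x).2 (Cfsg.Agent.BrauerPairs.fixed_iff_cj.1 hCc.fixed x hx)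
  have hPT : P ≤ T := fun x hx => (hT' x).2 (Cfsg.Agent.BrauerPairs.fixed_iff_cj.1
    (Cfsg.Agent.BrauerPairs.fixed_self_of_suppIn hCc.supp) x hx)
  obtain ⟨E, -, hE⟩ := Cfsg.Agent.BrauerPairs.exists_blk_coeff_of_fixed
    (C := Subgroup.centralizer (P : Set G)) (H := T) hP hPT (by rw [hN]; exact le_top) hCT
    inf_le_right (fun x _ => hNC x) ⟨e, he⟩
    (Cfsg.Agent.BrauerPairs.fixed_iff_cj.2 fun x hx => (hT' x).1 hx)
  refine ⟨⟨E.1, E.2, hE⟩, fun g => ?_⟩
  rw [Cfsg.Agent.BrauerPairs.sum_subgroupBlockCoeff_conj (⟨e, he⟩ :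
      Cfsg.Agent.BrauerPairs.Blk M (Subgroup.centralizer (P : Set G))) T hT' g,
    ← Cfsg.Agent.BrauerPairs.blockCoeff_eq_orbit_sum h g, ← mul_assoc,
    inv_mul_cancel₀ (Nat.cast_ne_zero.2 Nat.card_pos.ne'), one_mul]

end Cfsg.Agent.S4654
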