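import Cfsg.Statements.S4655
import Cfsg.Agent.BrauerPairs.Bridge
-- import your own Cfsg.Agent.* helpers here

set_option autoImplicit false
open Cfsg

namespace Cfsg.Agent.S4655

/-- Fix a prime p and a maximal ideal M of the algebraic integers containing p. Let (P, e) be a Brauer pair of the finite group G (P a p-subgroup, e a p-block of C_G(P)) and Q a subgroup of P. Then there is exactly one p-block f of C_G(Q) such that the Brauer pair (Q, f) lies below (P, e). -/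
theorem result {G : Type*} [Group G] [Fintype G] (p : ℕ) [Fact p.Prime] (M : Ideal Cfsg.AlgInt) (hM : Cfsg.IsPModular p M) (P Q : Subgroup G) (e : Set (Cfsg.IrrCharacter (Subgroup.centralizer (P : Set G)))) (hPe : Cfsg.IsBrauerPair p M P e) (hQP : Q ≤ P) : ∃! f : Set (Cfsg.IrrCharacter (Subgroup.centralizer (Q : Set G))), Cfsg.IsPBlock M f ∧ Cfsg.SubpairLE p M Q f P e := by
  haveI : M.IsPrime := Cfsg.Agent.Block.isPrime_of_isPModular hM
  haveI := Cfsg.Agent.Block.charP_resF hM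
  obtain ⟨f, hf, huniq⟩ := Cfsg.Agent.BrauerPairs.existsUnique_sle
    (S := Cfsg.Agent.BrauerPairs.pairSys M G) (p := p) (b := ⟨P, ⟨e, hPe.2⟩⟩) hPe.1 hQP
  refine ⟨f.1, ⟨f.2, Cfsg.Agent.BrauerPairs.subpairLE_of_sle hf⟩, fun f' hf' => ?_⟩
  exact congrArg Subtype.val (huniq ⟨f', hf'.1⟩
    ((Cfsg.Agent.BrauerPairs.subpairLE_iff ⟨Q, ⟨f', hf'.1⟩⟩ ⟨P, ⟨e, hPe.2⟩⟩).1 hf'.2))

end Cfsg.Agent.S4655
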