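import Cfsg.Statements.S4656
import Cfsg.Agent.BrauerPairs.Bridge
-- import your own Cfsg.Agent.* helpers here

set_option autoImplicit false
open Cfsg

namespace Cfsg.Agent.S4656

/-- Fix a prime p and a maximal ideal M of the algebraic integers containing p. Let (P, e) be a Brauer pair of the finite group G and Q a normal subgroup of P. Then there is exactly one p-block f of C_G(Q) that is stable under conjugation by P and such that e occurs in the Brauer-map image at P of the idempotent of f; that is, exactly one f with (Q, f) normally below (P, e). -/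
theorem result {G : Type*} [Group G] [Fintype G] (p : ℕ) [Fact p.Prime] (M : Ideal Cfsg.AlgInt) (hM : Cfsg.IsPModular p M) (P Q : Subgroup G) (e : Set (Cfsg.IrrCharacter (Subgroup.centralizer (P : Set G)))) (hPe : Cfsg.IsBrauerPair p M P e) (hQP : Q ≤ P) (hPN : P ≤ Subgroup.normalizer (Q : Set G)) : ∃! f : Set (Cfsg.IrrCharacter (Subgroup.centralizer (Q : Set G))), Cfsg.IsNormalSubpair p M Q f P e := by
  haveI : M.IsPrime := Cfsg.Agent.Block.isPrime_of_isPModular hM
  haveI := Cfsg.Agent.Block.charP_resF hM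
  obtain ⟨f, hf, huniq⟩ := Cfsg.Agent.BrauerPairs.existsUnique_nsub
    (Cfsg.Agent.BrauerPairs.pairSys M G) (p := p) (b := ⟨P, ⟨e, hPe.2⟩⟩) hPe.1 hQP hPN
  refine ⟨f.1, (Cfsg.Agent.BrauerPairs.isNormalSubpair_iff ⟨Q, f⟩ ⟨P, ⟨e, hPe.2⟩⟩).2 hf,
    fun f' hf' => ?_⟩
  exact congrArg Subtype.val (huniq ⟨f', hf'.1.2⟩
    ((Cfsg.Agent.BrauerPairs.isNormalSubpair_iff ⟨Q, ⟨f', hf'.1.2⟩⟩ ⟨P, ⟨e, hPe.2⟩⟩).1 hf'))

end Cfsg.Agent.S4656
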