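import Cfsg.Statements.S4657
import Cfsg.Agent.BrauerPairs.Bridge
-- import your own Cfsg.Agent.* helpers here

set_option autoImplicit false
open Cfsg

namespace Cfsg.Agent.S4657

/-- Fix a prime p and a maximal ideal M of the algebraic integers containing p. Every Brauer pair (P, e) of the finite group G is a Brauer pair of exactly one p-block B of G. -/
theorem result {G : Type*} [Group G] [Fintype G] (p : ℕ) [Fact p.Prime] (M : Ideal Cfsg.AlgInt) (hM : Cfsg.IsPModular p M) (P : Subgroup G) (e : Set (Cfsg.IrrCharacter (Subgroup.centralizer (P : Set G)))) (hPe : Cfsg.IsBrauerPair p M P e) : ∃! B : Set (Cfsg.IrrCharacter G), Cfsg.IsBrauerPairOf p M B P e := by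
  haveI : M.IsPrime := Cfsg.Agent.Block.isPrime_of_isPModular hM
  haveI := Cfsg.Agent.Block.charP_resF hM
  obtain ⟨B, hB, huniq⟩ := Cfsg.Agent.BrauerPairs.existsUnique_pairOf
    (Cfsg.Agent.BrauerPairs.blockSysTop M) (Cfsg.Agent.BrauerPairs.pairSys M G) (p := p)
    (a := ⟨P, ⟨e, hPe.2⟩⟩) hPe.1
  refine ⟨B.1, (Cfsg.Agent.BrauerPairs.isBrauerPairOf_iff B P ⟨e, hPe.2⟩).2 hB, fun B' hB' => ?_⟩
  exact congrArg Subtype.val (huniq ⟨B', hB'.2.1⟩
    ((Cfsg.Agent.BrauerPairs.isBrauerPairOf_iff ⟨B', hB'.2.1⟩ P ⟨e, hPe.2⟩).1 hB'))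

end Cfsg.Agent.S4657
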