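import Cfsg.Statements.S4661
import Cfsg.Agent.BrauerPairs.Local
-- import your own Cfsg.Agent.* helpers here

set_option autoImplicit false
open Cfsg

namespace Cfsg.Agent.S4661

/-- Fix a prime p and a maximal ideal M of the algebraic integers containing p. Let (P, e) be a maximal Brauer pair of the p-block B of the finite group G, Q ≤ P, and f the p-block of C_G(Q) with (Q, f) ≤ (P, e). Then C_P(Q) is contained in a defect group of f (as a block of the group C_G(Q)); and for some x in G the conjugate pair (x Q x⁻¹, conjugate of f) again lies below (P, e) and C_P(x Q x⁻¹) is a defect group of the conjugate of f in C_G(x Q x⁻¹). -/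
theorem result {G : Type*} [Group G] [Fintype G] (p : ℕ) [Fact p.Prime] (M : Ideal Cfsg.AlgInt) (hM : Cfsg.IsPModular p M) (B : Set (Cfsg.IrrCharacter G)) (P Q : Subgroup G) (e : Set (Cfsg.IrrCharacter (Subgroup.centralizer (P : Set G)))) (f : Set (Cfsg.IrrCharacter (Subgroup.centralizer (Q : Set G)))) (hmax : Cfsg.IsMaximalBrauerPair p M B P e) (hQP : Q ≤ P) (hf : Cfsg.IsPBlock M f) (hle : Cfsg.SubpairLE p M Q f P e) : (∃ D : Subgroup (Subgroup.centralizer (Q : Set G)), Cfsg.IsDefectGroup p M f D ∧ (P ⊓ Subgroup.centralizer (Q : Set G)).subgroupOf (Subgroup.centralizer (Q : Set G)) ≤ D) ∧ ∃ x : G, Cfsg.SubpairLE p M (Q.map (MulAut.conj x).toMonoidHom) (Cfsg.conjBlock Q x f) P e ∧ Cfsg.IsDefectGroup p M (Cfsg.conjBlock Q x f) ((P ⊓ Subgroup.centralizer ((Q.map (MulAut.conj x).toMonoidHom) : Set G)).subgroupOf (Subgroup.centralizer ((Q.map (MulAut.conj x).toMonoidHom) : Set G))) := by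
  haveI : M.IsPrime := Cfsg.Agent.Block.isPrime_of_isPModular hM
  haveI := Cfsg.Agent.Block.charP_resF hM
  have hsle := (Cfsg.Agent.BrauerPairs.subpairLE_iff ⟨Q, ⟨f, hf⟩⟩ ⟨P, ⟨e, hmax.1.1.2⟩⟩).1 hle
  refine ⟨Cfsg.Agent.BrauerPairs.exists_defect_ge ⟨f, hf⟩ inf_le_right
    (hmax.1.1.1.to_le inf_le_left)
    (Cfsg.Agent.BrauerPairs.trunc_inf_ne_zero hmax.1.1.1 hsle
      (Subgroup.centralizer_le_normalizer _)).1, ?_⟩
  obtain ⟨x, ⟨Q', f'⟩, hb, hb', hD⟩ :=
    Cfsg.Agent.BrauerPairs.exists_conj_centralizer_defect (e := ⟨e, hmax.1.1.2⟩) hmax hsle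
  obtain rfl := hb.1.symm
  have hcb := Cfsg.Agent.BrauerPairs.conjBlock_eq x ⟨f, hf⟩ f' hb
  refine ⟨x, ?_, ?_⟩
  · rw [hcb]
    exact Cfsg.Agent.BrauerPairs.subpairLE_of_sle hb'
  · rw [hcb]
    exact hD

end Cfsg.Agent.S4661
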