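import Cfsg.Statements.S4662
import Cfsg.Agent.BrauerPairs.Local
-- import your own Cfsg.Agent.* helpers here

set_option autoImplicit false
open Cfsg

namespace Cfsg.Agent.S4662

/-- Fix a prime p and a maximal ideal M of the algebraic integers containing p. Let (P, e) be a maximal Brauer pair of the p-block B of the finite group G, Q ≤ P, and f the p-block of C_G(Q) with (Q, f) ≤ (P, e). Let T be the stabilizer of f in N_G(Q). Then the idempotent of f is a block idempotent of T, and N_P(Q) is contained in a defect group of that block of T; moreover for some x in G the conjugate pair (x Q x⁻¹, conjugate of f) again lies below (P, e) and, with T' the stabilizer of the conjugate of f in N_G(x Q x⁻¹), N_P(x Q x⁻¹) is a defect group of the block of T' whose idempotent is that of the conjugate of f. -/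
theorem result {G : Type*} [Group G] [Fintype G] (p : ℕ) [Fact p.Prime] (M : Ideal Cfsg.AlgInt) (hM : Cfsg.IsPModular p M) (B : Set (Cfsg.IrrCharacter G)) (P Q : Subgroup G) (e : Set (Cfsg.IrrCharacter (Subgroup.centralizer (P : Set G)))) (f : Set (Cfsg.IrrCharacter (Subgroup.centralizer (Q : Set G)))) (hmax : Cfsg.IsMaximalBrauerPair p M B P e) (hQP : Q ≤ P) (hf : Cfsg.IsPBlock M f) (hle : Cfsg.SubpairLE p M Q f P e) (T : Subgroup G) (hT : ∀ y : G, y ∈ T ↔ y ∈ Subgroup.normalizer (Q : Set G) ∧ Cfsg.StabilizesBlock (Subgroup.centralizer (Q : Set G)) f y) : (∃ F : Set (Cfsg.IrrCharacter T), Cfsg.IsPBlock M F ∧ (∀ t : T, Cfsg.blockCoeff F t = Cfsg.subgroupBlockCoeff (Subgroup.centralizer (Q : Set G)) f (t : G)) ∧ ∃ D : Subgroup T, Cfsg.IsDefectGroup p M F D ∧ (P ⊓ Subgroup.normalizer (Q : Set G)).subgroupOf T ≤ D) ∧ ∃ x : G, Cfsg.SubpairLE p M (Q.map (MulAut.conj x).toMonoidHom) (Cfsg.conjBlock Q x f) P e ∧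 ∀ (T' : Subgroup G), (∀ y : G, y ∈ T' ↔ y ∈ Subgroup.normalizer ((Q.map (MulAut.conj x).toMonoidHom) : Set G) ∧ Cfsg.StabilizesBlock (Subgroup.centralizer ((Q.map (MulAut.conj x).toMonoidHom) : Set G)) (Cfsg.conjBlock Q x f) y) → ∃ F' : Set (Cfsg.IrrCharacter T'), Cfsg.IsPBlock M F' ∧ (∀ t : T', Cfsg.blockCoeff F' t = Cfsg.subgroupBlockCoeff (Subgroup.centralizer ((Q.map (MulAut.conj x).toMonoidHom) : Set G)) (Cfsg.conjBlock Q x f) (t : G)) ∧ Cfsg.IsDefectGroup p M F' ((P ⊓ Subgroup.normalizer ((Q.map (MulAut.conj x).toMonoidHom) : Set G)).subgroupOf T') := by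
  haveI : M.IsPrime := Cfsg.Agent.Block.isPrime_of_isPModular hM
  haveI := Cfsg.Agent.Block.charP_resF hM
  have hsle := (Cfsg.Agent.BrauerPairs.subpairLE_iff ⟨Q, ⟨f, hf⟩⟩ ⟨P, ⟨e, hmax.1.1.2⟩⟩).1 hle
  have hQ : IsPGroup p Q := hmax.1.1.1.to_le hQP
  obtain rfl := Cfsg.Agent.BrauerPairs.eq_stab (f := (⟨f, hf⟩ : Cfsg.Agent.BrauerPairs.Blk M _)) hT
  refine ⟨?_, ?_⟩
  · obtain ⟨E, hE, hE'⟩ := Cfsg.Agent.BrauerPairs.exists_blk_stab (a := ⟨Q, ⟨f, hf⟩⟩) hQ
      (Cfsg.Agent.BrauerPairs.centralizer_le_stab _) (Cfsg.Agent.BrauerPairs.self_le_stab _) le_rfl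
    refine ⟨E.1, E.2, hE', Cfsg.Agent.BrauerPairs.exists_defect_ge E
      (Cfsg.Agent.BrauerPairs.inf_normalizer_le_stab hmax.1.1.1 hsle)
      (hmax.1.1.1.to_le inf_le_left) ?_⟩
    rw [hE]
    exact (Cfsg.Agent.BrauerPairs.trunc_inf_ne_zero hmax.1.1.1 hsle le_rfl).1
  obtain ⟨x, ⟨Q', f'⟩, hb, hb', hD⟩ :=
    Cfsg.Agent.BrauerPairs.exists_conj_stab_defect (e := ⟨e, hmax.1.1.2⟩) hmax hsle
  obtain rfl := hb.1.symm
  have hcb := Cfsg.Agent.BrauerPairs.conjBlock_eq x ⟨f, hf⟩ f' hb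
  refine ⟨x, ?_, ?_⟩
  · rw [hcb]
    exact Cfsg.Agent.BrauerPairs.subpairLE_of_sle hb'
  · rw [hcb]
    intro T' hT'
    obtain rfl := Cfsg.Agent.BrauerPairs.eq_stab (f := f') hT'
    obtain ⟨E, hE, hE'⟩ := Cfsg.Agent.BrauerPairs.exists_blk_stab (a := ⟨_, f'⟩)
      (hmax.1.1.1.to_le hb'.le)
      (Cfsg.Agent.BrauerPairs.centralizer_le_stab _) (Cfsg.Agent.BrauerPairs.self_le_stab _) le_rfl
    refine ⟨E.1, E.2, hE', ?_⟩
    rw [Cfsg.Agent.BrauerPairs.isDefectGroup_subgroupOf_iff,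
      inf_of_le_left (Cfsg.Agent.BrauerPairs.inf_normalizer_le_stab hmax.1.1.1 hb'), hE]
    exact hD

end Cfsg.Agent.S4662
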