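import Cfsg.Statements.S4663
import Cfsg.Agent.BrauerPairs.Bridge
-- import your own Cfsg.Agent.* helpers here

set_option autoImplicit false
open Cfsg

namespace Cfsg.Agent.S4663

/-- Fix a prime p and a maximal ideal M of the algebraic integers containing p. Brauer's Third Main Theorem in the language of Brauer pairs: for the principal p-block B₀ of the finite group G and any p-subgroup Q, a p-block e of C_G(Q) makes (Q, e) a Brauer pair of B₀ if and only if e is the principal p-block of C_G(Q). Equivalently, modulo M the truncation to C_G(Q) of the idempotent of B₀ is the idempotent of the principal block of C_G(Q). -/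
theorem result {G : Type*} [Group G] [Fintype G] (p : ℕ) [Fact p.Prime] (M : Ideal Cfsg.AlgInt) (hM : Cfsg.IsPModular p M) (Q : Subgroup G) (hQ : IsPGroup p Q) (e : Set (Cfsg.IrrCharacter (Subgroup.centralizer (Q : Set G)))) (he : Cfsg.IsPBlock M e) : Cfsg.IsBrauerPairOf p M (Cfsg.principalBlock M G) Q e ↔ e = Cfsg.principalBlock M (Subgroup.centralizer (Q : Set G)) := by
  haveI : M.IsPrime := Cfsg.Agent.Block.isPrime_of_isPModular hM
  haveI := Cfsg.Agent.Block.charP_resF hM
  have key := Cfsg.Agent.BrauerPairs.isBrauerPairOf_iff (p := p)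
    (Cfsg.Agent.BrauerPairs.princBlk M G) Q ⟨e, he⟩
  refine key.trans ⟨fun h => ?_, fun h => ?_⟩
  · exact congrArg Subtype.val (Cfsg.Agent.BrauerPairs.eq_principal_of_pairOf
      (S₀ := Cfsg.Agent.BrauerPairs.blockSysTop M) (S := Cfsg.Agent.BrauerPairs.pairSys M G) (p := p)
      (B₀ := Cfsg.Agent.BrauerPairs.princBlk M G) (Q := Q) (e := ⟨e, he⟩)
      (fun a ha => Cfsg.Agent.BrauerPairs.lam_principal_top ha)
      (fun P => Cfsg.Agent.BrauerPairs.princBlk M (Subgroup.centralizer (P : Set G)))
      (fun P a ha => Cfsg.Agent.BrauerPairs.lam_principal_sub ha) h)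
  · subst h
    exact Cfsg.Agent.BrauerPairs.pairOf_principal
      (S₀ := Cfsg.Agent.BrauerPairs.blockSysTop M) (S := Cfsg.Agent.BrauerPairs.pairSys M G) (p := p)
      (B₀ := Cfsg.Agent.BrauerPairs.princBlk M G)
      (fun a ha => Cfsg.Agent.BrauerPairs.lam_principal_top ha)
      (fun P => Cfsg.Agent.BrauerPairs.princBlk M (Subgroup.centralizer (P : Set G)))
      (fun P a ha => Cfsg.Agent.BrauerPairs.lam_principal_sub ha) hQ

end Cfsg.Agent.S4663
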