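import Cfsg.Statements.S4664
import Cfsg.Agent.Brauer.WeakOrth
import Cfsg.Agent.Char.Basic
import Cfsg.Agent.Block.Idempotent
import Cfsg.Agent.Block.DefectGroup
-- import your own Cfsg.Agent.* helpers here

set_option autoImplicit false
open Cfsg

namespace Cfsg.Agent.S4664

/-- Fix a prime p and a maximal ideal M of the algebraic integers containing p, and let B be a p-block of the finite group G. Let m be the p'-part of the order of G and η = exp(2πi/m). Then every coefficient of the idempotent of B lies in the cyclotomic field ℚ(η). -/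
theorem result {G : Type*} [Group G] [Fintype G] (p : ℕ) [Fact p.Prime] (M : Ideal Cfsg.AlgInt) (hM : Cfsg.IsPModular p M) (B : Set (Cfsg.IrrCharacter G)) (hB : Cfsg.IsPBlock M B) (g : G) : Cfsg.blockCoeff B g ∈ IntermediateField.adjoin ℚ ({Complex.exp (2 * Real.pi * Complex.I / ((Nat.card G / p ^ (Nat.card G).factorization p : ℕ) : ℂ))} : Set ℂ) := by
  classical
  haveI : M.IsPrime := hM.2.1.isPrime
  set m := Nat.card G / p ^ (Nat.card G).factorization p with hm
  set K := IntermediateField.adjoin ℚ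
    ({Complex.exp (2 * Real.pi * Complex.I / (m : ℂ))} : Set ℂ) with hK
  by_cases hg : p ∣ orderOf g
  · rw [Cfsg.Agent.Brauer.blockCoeff_eq_zero_of_integral hM B
      (Cfsg.Agent.Block.blockCoeff_memLocalRing hB) hg]
    exact K.zero_mem
  · have hp : p.Prime := Fact.out
    have hm0 : m ≠ 0 := (Nat.div_pos (Nat.ordProj_le p Nat.card_pos.ne') (pow_pos hp.pos _)).ne'
    haveI : NeZero m := ⟨hm0⟩
    have hord : orderOf g ∣ m := by
      refine (Nat.Coprime.pow_right _ ?_).dvd_of_dvd_mul_left
        (m := p ^ (Nat.card G).factorization p) ?_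
      · exact Nat.coprime_comm.1 (hp.coprime_iff_not_dvd.2 hg)
      · rw [hm, Nat.mul_div_cancel' (Nat.ordProj_dvd _ _)]
        exact orderOf_dvd_natCard g
    have hroot : ∀ z : ℂ, z ^ m = 1 → z ∈ K := fun z hz => by
      obtain ⟨i, -, rfl⟩ := (Complex.isPrimitiveRoot_exp m hm0).eq_pow_of_pow_eq_one hz
      exact K.pow_mem (IntermediateField.subset_adjoin ℚ _ rfl) i
    have hval : ∀ χ : Cfsg.IrrCharacter G, (χ : G → ℂ) 1 ∈ K ∧
        starRingEnd ℂ ((χ : G → ℂ) g) ∈ K := by
      intro χ
      obtain ⟨n, ρ, -, hρ⟩ := χ.2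
      obtain ⟨ε, hε, hsum⟩ := Cfsg.Agent.Char.exists_character_eq_sum_roots ρ g
      have h1 := hsum 1
      have h0 := hsum 0
      rw [pow_one, hρ] at h1
      rw [pow_zero, hρ] at h0
      refine ⟨?_, ?_⟩
      · rw [h0]
        simp only [pow_zero]
        exact sum_mem fun _ _ => one_mem K
      · rw [h1, map_sum]
        refine sum_mem fun i _ => hroot _ ?_
        rw [pow_one, ← map_pow, orderOf_dvd_iff_pow_eq_one.1
          ((orderOf_dvd_of_pow_eq_one (hε i)).trans hord), map_one]
    rw [Cfsg.blockCoeff, finsum_mem_eq_toFinset_sum]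
    exact K.mul_mem (K.inv_mem (natCast_mem K _))
      (sum_mem fun χ _ => K.mul_mem (hval χ).1 (hval χ).2)

end Cfsg.Agent.S4664
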