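import Cfsg.Statements.S4665
import Cfsg.Agent.BlockVal.HeightZero
-- import your own Cfsg.Agent.* helpers here

set_option autoImplicit false
open Cfsg

namespace Cfsg.Agent.S4665

/-- Fix a prime p, a maximal ideal M of the algebraic integers containing p, and a p-block B of the finite group G, and let p^a be the p-part of the order of G. Let χ be an integer combination of the irreducible characters in B. If the function that agrees with χ on p-regular elements and vanishes on p-singular elements is again an integer combination of the irreducible characters in B, then p^a divides χ(1). -/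
theorem result {G : Type*} [Group G] [Fintype G] (p : ℕ) [Fact p.Prime] (M : Ideal Cfsg.AlgInt) (hM : Cfsg.IsPModular p M) (B : Set (Cfsg.IrrCharacter G)) (hB : Cfsg.IsPBlock M B) (χ : G → ℂ) (hχ : (∃ n : Cfsg.IrrCharacter G → ℤ, ∀ g : G, χ g = ∑ᶠ ψ ∈ B, (n ψ : ℂ) * (ψ : G → ℂ) g)) (h0 : (∃ n : Cfsg.IrrCharacter G → ℤ, ∀ g : G, Cfsg.pRegularPart p χ g = ∑ᶠ ψ ∈ B, (n ψ : ℂ) * (ψ : G → ℂ) g)) : ∃ k : ℤ, χ 1 = (p ^ (Nat.card G).factorization p : ℂ) * k := by
  classical
  haveI : M.IsPrime := hM.2.1.isPrime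
  obtain ⟨n, hn⟩ := h0
  obtain ⟨P⟩ : Nonempty (Sylow p G) := inferInstance
  haveI := Fintype.ofFinite (P : Subgroup G)
  choose c hc using fun ψ : Cfsg.IrrCharacter G =>
    Cfsg.Agent.Char.isCharacter_classInner_nat
      (Cfsg.Agent.Char.isCharacter_restrict (Cfsg.Agent.Char.isCharacter_of_irr ψ.2)
        (P : Subgroup G)) (Cfsg.Agent.Char.trivialIrr (P : Subgroup G))
  refine ⟨∑ ψ ∈ B.toFinset, n ψ * (c ψ : ℤ), ?_⟩
  have hPc : Nat.card (P : Subgroup G) = p ^ (Nat.card G).factorization p := P.card_eq_multiplicity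
  have hP0 : (Nat.card (P : Subgroup G) : ℂ) ≠ 0 := Nat.cast_ne_zero.mpr Nat.card_pos.ne'
  have hs : ∀ ψ : Cfsg.IrrCharacter G, (∑ x : (P : Subgroup G), (ψ : G → ℂ) (x : G)) =
      (Nat.card (P : Subgroup G) : ℂ) * (c ψ : ℂ) := by
    intro ψ
    rw [← hc ψ, Cfsg.classInner, ← mul_assoc, mul_inv_cancel₀ hP0, one_mul]
    refine Finset.sum_congr rfl fun x _ => ?_
    rw [show ((Cfsg.Agent.Char.trivialIrr (P : Subgroup G) :
      Cfsg.IrrCharacter (P : Subgroup G)) : ↥(P : Subgroup G) → ℂ) x = 1 from rfl, map_one, mul_one]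
  calc χ 1 = ∑ x : (P : Subgroup G), Cfsg.pRegularPart p χ (x : G) := by
        rw [Finset.sum_eq_single 1]
        · rw [Cfsg.pRegularPart, if_pos]
          · rfl
          · rw [Cfsg.IsPRegular, Subgroup.coe_one, orderOf_one]
            exact hM.1.not_dvd_one
        · intro x _ hx
          rw [Cfsg.pRegularPart, if_neg]
          intro hreg
          obtain ⟨i, hi⟩ := IsPGroup.iff_orderOf.mp P.isPGroup' x
          rw [Cfsg.IsPRegular, Subgroup.orderOf_coe, hi] at hreg
          refine hreg (dvd_pow_self p fun h0 => hx ?_)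
          rw [h0, pow_zero] at hi
          exact orderOf_eq_one_iff.mp hi
        · exact fun h => absurd (Finset.mem_univ _) h
    _ = ∑ ψ ∈ B.toFinset, (n ψ : ℂ) * ∑ x : (P : Subgroup G), (ψ : G → ℂ) (x : G) := by
        simp only [hn, finsum_mem_eq_toFinset_sum, Finset.mul_sum]
        rw [Finset.sum_comm]
    _ = _ := by
        simp only [hs, hPc]
        push_cast
        rw [Finset.mul_sum]
        exact Finset.sum_congr rfl fun ψ _ => by ring

end Cfsg.Agent.S4665
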