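import Cfsg.Statements.S4666
import Cfsg.Agent.BlockVal.HeightZero
-- import your own Cfsg.Agent.* helpers here

set_option autoImplicit false
open Cfsg

namespace Cfsg.Agent.S4666

/-- Fix a prime p and a maximal ideal M of the algebraic integers containing p, and a p-block B of the finite group G of defect d. For every integer combination χ of the irreducible characters in B, p^d times the function that agrees with χ on p-regular elements and vanishes elsewhere is again an integer combination of the irreducible characters in B. -/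
theorem result {G : Type*} [Group G] [Fintype G] (p : ℕ) [Fact p.Prime] (M : Ideal Cfsg.AlgInt) (hM : Cfsg.IsPModular p M) (B : Set (Cfsg.IrrCharacter G)) (hB : Cfsg.IsPBlock M B) (χ : G → ℂ) (hχ : (∃ n : Cfsg.IrrCharacter G → ℤ, ∀ g : G, χ g = ∑ᶠ ψ ∈ B, (n ψ : ℂ) * (ψ : G → ℂ) g)) : (∃ n : Cfsg.IrrCharacter G → ℤ, ∀ g : G, (p ^ Cfsg.blockDefect p B : ℂ) * Cfsg.pRegularPart p χ g = ∑ᶠ ψ ∈ B, (n ψ : ℂ) * (ψ : G → ℂ) g) := by
  classical
  haveI : M.IsPrime := hM.2.1.isPrime
  obtain ⟨n, hn⟩ := hχ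
  obtain ⟨χ₀, hχ₀, h₀⟩ := Cfsg.Agent.BlockVal.exists_height_zero (p := p)
    (Cfsg.Agent.Block.pBlock_nonempty hB)
  have hd := Cfsg.Agent.BlockVal.blockDefect_eq (p := p) hχ₀ h₀
  set d := Cfsg.blockDefect p B
  have hex : ∀ η : Cfsg.IrrCharacter G, ∃ m : Cfsg.IrrCharacter G → ℤ, η ∈ B → ∀ g : G,
      (p ^ d : ℂ) * Cfsg.pRegularPart p (η : G → ℂ) g =
        ∑ᶠ ψ ∈ B, (m ψ : ℂ) * (ψ : G → ℂ) g := by
    intro η
    set a := (Nat.card G).factorization p
    set b := (Cfsg.charDegree (η : G → ℂ)).factorization p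
    choose c hc hcl _hcr using fun ψ : Cfsg.IrrCharacter G =>
      Cfsg.Agent.BlockVal.cReg_int (p := p) η ψ
    choose k hk using hcl
    refine ⟨fun ψ => (p : ℤ) ^ (d - (a - b)) * k ψ, fun hη g => ?_⟩
    have hdb : a - b ≤ d := by
      have := (Cfsg.Agent.BlockVal.blockHeight_eq_zero_iff hχ₀).1 h₀ η hη
      omega
    have hba : b ≤ a := Cfsg.Agent.BlockVal.factorization_degree_le p η
    let f : G → ℂ := fun x => if p ∣ orderOf x then (0 : ℂ) else
      ((p ^ a : ℕ) : ℂ) * (η : G → ℂ) x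
    have hf : Cfsg.IsClassFunction G f := fun g h => by
      have ho : orderOf (h * g * h⁻¹) = orderOf g := by
        rw [← MulAut.conj_apply, MulEquiv.orderOf_eq]
      simp only [f, ho, Cfsg.Agent.Char.irr_isClassFunction η.2 g h]
    have h := congrFun (Cfsg.Agent.Char.eq_sum_classInner_smul hf) g
    simp only [Finset.sum_apply, Pi.smul_apply, smul_eq_mul] at h
    have hfg : f g = ((p ^ a : ℕ) : ℂ) * Cfsg.pRegularPart p (η : G → ℂ) g := by
      by_cases hg' : p ∣ orderOf g <;> simp [f, Cfsg.pRegularPart, Cfsg.IsPRegular, hg']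
    rw [finsum_mem_eq_toFinset_sum, show B.toFinset = Finset.univ.filter (· ∈ B) from by ext ψ; simp,
      Finset.sum_filter]
    have hpb : ((p : ℂ) ^ b) ≠ 0 := pow_ne_zero _ (Nat.cast_ne_zero.mpr hM.1.ne_zero)
    apply mul_left_cancel₀ hpb
    rw [Finset.mul_sum, ← mul_assoc, ← pow_add, show b + d = (d - (a - b)) + a by omega, pow_add,
      mul_assoc, show ((p : ℂ) ^ a) = ((p ^ a : ℕ) : ℂ) by push_cast; rfl, ← hfg, h, Finset.mul_sum]
    refine Finset.sum_congr rfl fun ψ _ => ?_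
    have h2 : Cfsg.classInner f (ψ : G → ℂ) = (c ψ : ℂ) := by
      rw [← hc ψ, Cfsg.Agent.BlockVal.cReg_eq_classInner]
    rw [h2]
    split_ifs with hψ
    · rw [hk ψ]; push_cast; ring
    · have h3 := hc ψ
      rw [Cfsg.Agent.BlockVal.cReg_eq_zero_of_notMem hM hB hη hψ] at h3
      rw [← h3]; simp
  choose m hm using hex
  refine ⟨fun ψ => ∑ η ∈ B.toFinset, n η * m η ψ, fun g => ?_⟩
  have h1 : Cfsg.pRegularPart p χ g =
      ∑ η ∈ B.toFinset, (n η : ℂ) * Cfsg.pRegularPart p (η : G → ℂ) g := by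
    unfold Cfsg.pRegularPart
    split_ifs with hg
    · rw [hn g, finsum_mem_eq_toFinset_sum]
    · simp
  rw [h1, Finset.mul_sum, finsum_mem_eq_toFinset_sum]
  calc ∑ η ∈ B.toFinset, (p : ℂ) ^ d * ((n η : ℂ) * Cfsg.pRegularPart p (η : G → ℂ) g)
      = ∑ η ∈ B.toFinset, ∑ ψ ∈ B.toFinset, (n η : ℂ) * ((m η ψ : ℂ) * (ψ : G → ℂ) g) := by
        refine Finset.sum_congr rfl fun η hη => ?_
        rw [← mul_left_comm, hm η (Set.mem_toFinset.1 hη) g, finsum_mem_eq_toFinset_sum,
          Finset.mul_sum]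
    _ = _ := by
        rw [Finset.sum_comm]
        refine Finset.sum_congr rfl fun ψ _ => ?_
        push_cast
        rw [Finset.sum_mul]
        exact Finset.sum_congr rfl fun η _ => by ring

end Cfsg.Agent.S4666
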