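import Cfsg.Statements.S4668
import Cfsg.Agent.BrauerPairs.Lift
import Cfsg.Agent.BrauerPairs.RegSupport
-- import your own Cfsg.Agent.* helpers here

set_option autoImplicit false
open Cfsg

namespace Cfsg.Agent.S4668

universe u

/-- A `p`-regular element centralizing `U` and the centralizer of `U` in the `p`-group `S`
centralizes `S`. -/
theorem centralizes_of_centralizes_centralizer {p : ℕ} [Fact p.Prime] {G : Type u} [Group G]
    [Finite G] {S U : Subgroup G} (hS : IsPGroup p S) (hUS : U ≤ S) {x : G}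
    (hxS : x ∈ Subgroup.normalizer (S : Set G)) (hreg : ¬ p ∣ orderOf x)
    (hU : ∀ u ∈ U, x * u = u * x)
    (hC : ∀ s ∈ S, s ∈ Subgroup.centralizer (U : Set G) → x * s = s * x) :
    ∀ s ∈ S, x * s = s * x := by
  haveI : Group.IsNilpotent S := hS.isNilpotent
  let C : Subgroup S := (Subgroup.centralizer ({x} : Set G)).subgroupOf S
  have hCmem : ∀ s : S, s ∈ C ↔ x * (s : G) = (s : G) * x := fun s => by
    simp only [C, Subgroup.mem_subgroupOf, Subgroup.mem_centralizer_singleton_iff, eq_comm]
  have hself : Subgroup.normalizer (C : Set S) = C := by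
    refine le_antisymm (fun r hr => ?_) Subgroup.le_normalizer
    rw [hCmem]
    have hxr : x * (r : G) * x⁻¹ ∈ S := (Subgroup.mem_normalizer_iff.1 hxS _).1 r.2
    set z : G := (r : G)⁻¹ * (x * (r : G) * x⁻¹) with hz
    have hzS : z ∈ S := S.mul_mem (S.inv_mem r.2) hxr
    have hzU : z ∈ Subgroup.centralizer (U : Set G) := by
      rw [Subgroup.mem_centralizer_iff]
      intro c hc
      have hcC : (⟨c, hUS hc⟩ : S) ∈ C := (hCmem _).2 (hU c hc)
      have h1 : x * ((r : G) * c * (r : G)⁻¹) = (r : G) * c * (r : G)⁻¹ * x :=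
        (hCmem _).1 ((Subgroup.mem_normalizer_iff.1 hr _).1 hcC)
      calc c * z = (r : G)⁻¹ * (((r : G) * c * (r : G)⁻¹) * x) * (r : G) * x⁻¹ := by
            rw [hz]; group
        _ = (r : G)⁻¹ * (x * ((r : G) * c * (r : G)⁻¹)) * (r : G) * x⁻¹ := by rw [h1]
        _ = (r : G)⁻¹ * x * (r : G) * (c * x⁻¹) := by group
        _ = z * c := by
            rw [show c * x⁻¹ = x⁻¹ * c from
              ((show Commute x c from hU c hc).inv_left).eq.symm, hz]
            group
    have hzx : x * z = z * x := hC z hzS hzU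
    have hpow : ∀ n : ℕ, x ^ n * (r : G) = (r : G) * z ^ n * x ^ n := by
      intro n
      induction n with
      | zero => simp
      | succ n ih =>
        have hxrz : x * (r : G) = (r : G) * z * x := by rw [hz]; group
        calc x ^ (n + 1) * (r : G) = x * (x ^ n * (r : G)) := by rw [pow_succ', mul_assoc]
          _ = x * (r : G) * z ^ n * x ^ n := by rw [ih]; group
          _ = (r : G) * z * (x * z ^ n) * x ^ n := by rw [hxrz]; group
          _ = (r : G) * z * (z ^ n * x) * x ^ n := by
              rw [((show Commute x z from hzx).pow_right n).eq]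
          _ = (r : G) * z ^ (n + 1) * x ^ (n + 1) := by rw [pow_succ' z, pow_succ' x]; group
    have hz1 : z ^ orderOf x = 1 := by
      have := hpow (orderOf x)
      rwa [pow_orderOf_eq_one, one_mul, mul_one, left_eq_mul] at this
    obtain ⟨i, hi⟩ := IsPGroup.iff_orderOf.1 hS ⟨z, hzS⟩
    rw [Subgroup.orderOf_mk] at hi
    have hd : orderOf z ∣ 1 := by
      have h1 := Nat.dvd_gcd (hi ▸ dvd_refl (orderOf z) : orderOf z ∣ p ^ i)
        (orderOf_dvd_of_pow_eq_one hz1)
      rwa [(((Fact.out : p.Prime).coprime_iff_not_dvd.2 hreg).pow_left i).gcd_eq_one] at h1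
    have hzone : z = 1 := orderOf_eq_one_iff.1 (Nat.dvd_one.1 hd)
    rw [hz, inv_mul_eq_one] at hzone
    calc x * (r : G) = x * (r : G) * x⁻¹ * x := by group
      _ = (r : G) * x := by rw [← hzone]
  have htop : C = ⊤ := normalizerCondition_iff_only_full_group_self_normalizing.1
    Group.normalizerCondition_of_isNilpotent C hself
  intro s hs
  exact (hCmem ⟨s, hs⟩).1 (htop ▸ Subgroup.mem_top _)

/-- Fix a prime p and a maximal ideal M of the algebraic integers containing p. Let Q₀ < Q₁ < ⋯ < Q_m be a strictly increasing chain of p-subgroups of the finite group G and N the intersection of their normalizers. Then every block idempotent of N is supported on C_G(Q_m): for every p-block E of N, the idempotent coefficient of E vanishes at every element of N outside C_G(Q_m). -/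
theorem result {G : Type*} [Group G] [Fintype G] (p : ℕ) [Fact p.Prime] (M : Ideal Cfsg.AlgInt) (hM : Cfsg.IsPModular p M) (m : ℕ) (Q : Fin (m + 1) → Subgroup G) (hQ : StrictMono Q) (hQp : ∀ i, IsPGroup p (Q i)) (N : Subgroup G) (hN : ∀ g : G, g ∈ N ↔ ∀ i, g ∈ Subgroup.normalizer (Q i : Set G)) (E : Set (Cfsg.IrrCharacter N)) (hE : Cfsg.IsPBlock M E) (n : N) (hn : (n : G) ∉ Subgroup.centralizer (Q (Fin.last m) : Set G)) : Cfsg.blockCoeff E n = 0 := by
  classical
  haveI : M.IsPrime := Cfsg.Agent.Block.isPrime_of_isPModular hM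
  haveI := Cfsg.Agent.Block.charP_resF hM
  haveI := Fintype.ofFinite N
  by_cases hreg : p ∣ orderOf (n : G)
  · refine Cfsg.Agent.Brauer.blockCoeff_eq_zero_of_integral hM E
      (fun x => Cfsg.Agent.Block.blockCoeff_memLocalRing hE x) ?_
    rwa [← Subgroup.orderOf_coe]
  let S : Subgroup G := Q (Fin.last m)
  let P' : Subgroup N := S.subgroupOf N
  haveI : P'.Normal := ⟨fun v hv y => by
    rw [Subgroup.mem_subgroupOf] at hv ⊢
    exact ((Subgroup.mem_normalizer_iff.1 ((hN y).1 y.2 (Fin.last m))) _).1 hv⟩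
  have hP' : IsPGroup p P' := (hQp _).comap_subtype
  obtain ⟨e, he⟩ := Cfsg.Agent.BrauerPairs.exists_pairOf_normal (M := M) hP' ⟨E, hE⟩
  rw [Cfsg.Agent.BrauerPairs.blockCoeff_eq_orbit_sum (B := ⟨E, hE⟩) he n]
  refine Finset.sum_eq_zero fun i _ => ?_
  unfold Cfsg.subgroupBlockCoeff
  rw [dif_neg]
  intro hc
  apply hn
  have hcN : ∀ s ∈ S, s ∈ N → (n : G) * s = s * (n : G) := fun s hs hsN =>
    (congrArg Subtype.val (Subgroup.mem_centralizer_iff.1 hc ⟨s, hsN⟩ hs)).symm
  have hmono : ∀ i : Fin (m + 1), Q i ≤ S := fun i => hQ.monotone (Fin.le_last i)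
  have key : ∀ i : Fin (m + 1), ∀ s ∈ Q i, (n : G) * s = s * (n : G) := by
    intro i
    induction i using Fin.induction with
    | zero =>
      refine fun s hs => hcN s (hmono 0 hs) ((hN s).2 fun j => ?_)
      exact Subgroup.le_normalizer (hQ.monotone (Fin.zero_le j) hs)
    | succ i ih =>
      refine centralizes_of_centralizes_centralizer (hQp _)
        (hQ.monotone (Fin.castSucc_lt_succ (i := i)).le) ((hN n).1 n.2 _) hreg ih fun s hs hsU => ?_
      refine hcN s (hmono _ hs) ((hN s).2 fun j => ?_)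
      rcases le_or_gt i.succ j with hj | hj
      · exact Subgroup.le_normalizer (hQ.monotone hj hs)
      · exact Subgroup.centralizer_le_normalizer _ (Subgroup.centralizer_le
          (hQ.monotone (Fin.le_castSucc_iff.2 hj)) hsU)
  exact Subgroup.mem_centralizer_iff.2 fun s hs => (key _ s hs).symm

end Cfsg.Agent.S4668
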