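import Cfsg.Statements.S4669
import Cfsg.Agent.Brauer.CentralDefect
import Cfsg.Agent.BlockVal.SquareSum
import Cfsg.Agent.BrauerPairs.Rank
-- import your own Cfsg.Agent.* helpers here

set_option autoImplicit false
open Cfsg

namespace Cfsg.Agent.S4669

open Cfsg.Agent in
open Cfsg.Agent.BlockVal in
universe u in
/-- With a central defect group every character of the block is proportional on regular elements
to one of height zero. -/
theorem exists_proportional {G : Type u} [Group G] [Fintype G] {p : ℕ} [Fact p.Prime]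
    {M : Ideal AlgInt} (hM : IsPModular p M) {B : Set (IrrCharacter G)} (hB : IsPBlock M B)
    {P : Subgroup G} (hD : IsDefectGroup p M B P) (hPZ : P ≤ Subgroup.center G) :
    ∃ χ ∈ B, ∀ ψ ∈ B, ∃ c : ℂ, ∀ y : G, ¬ p ∣ orderOf y → (ψ : G → ℂ) y = c * (χ : G → ℂ) y := by
  classical
  haveI : M.IsPrime := hM.2.1.isPrime
  haveI := Fintype.ofFinite P
  have hp := hM.1
  obtain ⟨χ, hχ, h0⟩ := exists_height_zero (p := p) (Block.pBlock_nonempty hB)
  refine ⟨χ, hχ, fun ψ hψ => ?_⟩
  have hcard := card_defectGroup hM hB hD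
  have hPp : IsPGroup p P := IsPGroup.of_card hcard
  rw [blockDefect_eq hχ h0] at hcard
  set a := (Nat.card G).factorization p
  set b := (charDegree (χ : G → ℂ)).factorization p
  have hba : b ≤ a := factorization_degree_le p χ
  obtain ⟨n, hn, hnl, -⟩ := cReg_int (p := p) χ ψ
  obtain ⟨k, hk⟩ := hnl
  have hk0 : k ≠ 0 := fun h => not_dvd_succ_of_height_zero hM hB hχ h0 hψ hn (by
    rw [hk, h, mul_zero]; exact dvd_zero _)
  set R := Finset.univ.filter (fun y : G => ¬ p ∣ orderOf y)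
  have hle : ∀ η : IrrCharacter G, (Nat.card P : ℝ) * ∑ y ∈ R, Complex.normSq ((η : G → ℂ) y) ≤
      (Nat.card G : ℝ) := by
    intro η
    rw [← Brauer.sum_normSq_central_sections P hPp hPZ η]
    refine (Finset.sum_le_univ_sum_of_nonneg fun x => Complex.normSq_nonneg _).trans (le_of_eq ?_)
    have h : ((∑ x : G, Complex.normSq ((η : G → ℂ) x) : ℝ) : ℂ) = (Nat.card G : ℂ) := by
      have h2 := Char.classInner_irr_self η.2
      rw [classInner, inv_mul_eq_iff_eq_mul₀ (Nat.cast_ne_zero.mpr Nat.card_pos.ne'), mul_one] at h2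
      rw [← h2, Complex.ofReal_sum]
      exact Finset.sum_congr rfl fun x _ => (Complex.mul_conj _).symm
    exact_mod_cast h
  have hcross : (Nat.card P : ℂ) * Brauer.regSum p (χ : G → ℂ) (ψ : G → ℂ) =
      (k : ℂ) * (Nat.card G : ℂ) := by
    have h1 := hn
    rw [cReg, div_eq_iff (Nat.cast_ne_zero.mpr Nat.card_pos.ne'), hk] at h1
    apply mul_left_cancel₀ (pow_ne_zero b (Nat.cast_ne_zero.mpr hp.ne_zero) : ((p : ℂ) ^ b) ≠ 0)
    rw [hcard, ← mul_assoc]
    push_cast at h1 ⊢
    rw [← pow_add, show b + (a - b) = a by omega, h1]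
    ring
  have hre : (Nat.card P : ℝ) * ∑ y ∈ R, ((χ : G → ℂ) y * starRingEnd ℂ ((ψ : G → ℂ) y)).re =
      (k : ℝ) * (Nat.card G : ℝ) := by
    have := congrArg Complex.re hcross
    simpa [Brauer.regSum, Complex.mul_re, Finset.mul_sum] using this
  have hsum : ∑ y ∈ R, Complex.normSq ((χ : G → ℂ) y - (k : ℂ) * (ψ : G → ℂ) y) = 0 := by
    refine le_antisymm ?_ (Finset.sum_nonneg fun y _ => Complex.normSq_nonneg _)
    have hexp : ∑ y ∈ R, Complex.normSq ((χ : G → ℂ) y - (k : ℂ) * (ψ : G → ℂ) y) =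
        (∑ y ∈ R, Complex.normSq ((χ : G → ℂ) y)) +
          (k : ℝ) ^ 2 * (∑ y ∈ R, Complex.normSq ((ψ : G → ℂ) y)) -
          2 * (k : ℝ) * ∑ y ∈ R, ((χ : G → ℂ) y * starRingEnd ℂ ((ψ : G → ℂ) y)).re := by
      rw [Finset.mul_sum, Finset.mul_sum, ← Finset.sum_add_distrib, ← Finset.sum_sub_distrib]
      refine Finset.sum_congr rfl fun y _ => ?_
      simp only [Complex.normSq_apply, Complex.sub_re, Complex.sub_im, Complex.mul_re,
        Complex.mul_im, Complex.conj_re, Complex.conj_im, Complex.intCast_re, Complex.intCast_im]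
      ring
    have hP : (0 : ℝ) < (Nat.card P : ℝ) := by exact_mod_cast Nat.card_pos
    have hk1 : (1 : ℝ) ≤ (k : ℝ) ^ 2 := by
      exact_mod_cast Int.add_one_le_iff.mpr (lt_of_le_of_ne (sq_nonneg k) (pow_ne_zero 2 hk0).symm)
    have h3 := mul_le_mul_of_nonneg_left (hle ψ) (sq_nonneg (k : ℝ))
    have h4 := hle χ
    refine nonpos_of_mul_nonpos_right ?_ hP
    rw [hexp]
    have h5 : (k : ℝ) * ((Nat.card P : ℝ) *
        ∑ y ∈ R, ((χ : G → ℂ) y * starRingEnd ℂ ((ψ : G → ℂ) y)).re) =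
          (k : ℝ) * ((k : ℝ) * (Nat.card G : ℝ)) := by rw [hre]
    have h6 : 0 ≤ ((k : ℝ) ^ 2 - 1) * (Nat.card G : ℝ) :=
      mul_nonneg (sub_nonneg.2 hk1) (Nat.cast_nonneg _)
    ring_nf at h3 h4 h5 h6 ⊢
    linarith
  refine ⟨(k : ℂ)⁻¹, fun y hy => ?_⟩
  have h := Complex.normSq_eq_zero.mp ((Finset.sum_eq_zero_iff_of_nonneg
    fun z _ => Complex.normSq_nonneg _).mp hsum y (by simp [R, hy]))
  rw [sub_eq_zero.mp h, ← mul_assoc, inv_mul_cancel₀ (Int.cast_ne_zero.mpr hk0), one_mul]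

/-- Fix a prime p and a maximal ideal M of the algebraic integers containing p. If the p-block B of the finite group G has a defect group P contained in the centre of G, then B has p-regular rank one (a single irreducible Brauer character). -/
theorem result {G : Type*} [Group G] [Fintype G] (p : ℕ) [Fact p.Prime] (M : Ideal Cfsg.AlgInt) (hM : Cfsg.IsPModular p M) (B : Set (Cfsg.IrrCharacter G)) (hB : Cfsg.IsPBlock M B) (P : Subgroup G) (hD : Cfsg.IsDefectGroup p M B P) (hPZ : P ≤ Subgroup.center G) : Cfsg.blockRank p B = 1 := by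
  classical
  haveI : M.IsPrime := hM.2.1.isPrime
  obtain ⟨χ, hχ, h⟩ := exists_proportional hM hB hD hPZ
  have hspan : Submodule.span ℂ ((fun ψ : Cfsg.IrrCharacter G => Cfsg.pRegularPart p (ψ : G → ℂ)) '' B)
      = Submodule.span ℂ {Cfsg.pRegularPart p (χ : G → ℂ)} := by
    refine le_antisymm (Submodule.span_le.2 ?_) (Submodule.span_le.2 ?_)
    · rintro _ ⟨ψ, hψ, rfl⟩
      obtain ⟨c, hc⟩ := h ψ hψ
      refine Submodule.mem_span_singleton.2 ⟨c, funext fun y => ?_⟩
      by_cases hy : p ∣ orderOf y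
      · simp [Cfsg.pRegularPart, Cfsg.IsPRegular, hy]
      · simp [Cfsg.pRegularPart, Cfsg.IsPRegular, hy, hc y hy]
    · rintro _ rfl
      exact Submodule.subset_span ⟨χ, hχ, rfl⟩
  unfold Cfsg.blockRank
  rw [hspan]
  refine finrank_span_singleton fun h0 => Cfsg.Agent.Char.irr_one_ne_zero χ.2 ?_
  have := congrFun h0 1
  simpa [Cfsg.pRegularPart, Cfsg.IsPRegular, (Fact.out : p.Prime).ne_one] using this

end Cfsg.Agent.S4669
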