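import Cfsg.Statements.S4670
import Cfsg.Agent.BrauerPairs.Correspondence
-- import your own Cfsg.Agent.* helpers here

set_option autoImplicit false
open Cfsg

namespace Cfsg.Agent.S4670

open Cfsg.Agent.BrauerPairs in
universe u in
theorem trunc_eq_iff {p : ℕ} [Fact p.Prime] {M : Ideal AlgInt} [M.IsPrime]
    [CharP (Cfsg.Agent.Block.ResF M) p] {G : Type u} [Group G] [Finite G] {P H : Subgroup G}
    (B : Blk M G) (c : Blk M H) :
    trunc P ((blockSysTop M).idem B) = trunc P ((blockSys M H).idem c) ↔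
      ∀ x : G, x ∈ Subgroup.centralizer (P : Set G) →
        MemLocalIdeal M (blockCoeff B.1 x - subgroupBlockCoeff H c.1 x) := by
  haveI := Fintype.ofFinite G
  have key : ∀ x, MemLocalIdeal M (blockCoeff B.1 x - subgroupBlockCoeff H c.1 x) ↔
      ((blockSysTop M).idem B).coeff x = ((blockSys M H).idem c).coeff x := fun x => by
    rw [coeff_blockSysTop_idem, coeff_blockSys_idem]
    exact (Cfsg.Agent.Block.redC_eq_iff (Cfsg.Agent.Block.blockCoeff_memLocalRing B.2 x)
      (memLocalRing_subgroupBlockCoeff c x)).symm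
  constructor
  · intro h x hx
    rw [key, ← coeff_trunc_mem (P := P) _ hx, h, coeff_trunc_mem _ hx]
  · intro h
    refine Cfsg.Agent.Block.groupAlgebra_ext fun x => ?_
    by_cases hx : x ∈ Subgroup.centralizer (P : Set G)
    · rw [coeff_trunc_mem _ hx, coeff_trunc_mem _ hx]
      exact (key x).1 (h x hx)
    · rw [coeff_trunc_notMem _ hx, coeff_trunc_notMem _ hx]

/-- Fix a prime p and a maximal ideal M of the algebraic integers containing p. Let P be a p-subgroup of the finite group G and H a subgroup containing N_G(P). For every p-block B of G with defect group P there is exactly one p-block c of H with defect group P whose idempotent agrees with that of B, modulo the local ideal at M, at every element of C_G(P) (their Brauer-map images at P coincide); and every p-block c of H with defect group P arises in this way from exactly one such B. This is the Brauer correspondence over H. -/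
theorem result {G : Type*} [Group G] [Fintype G] (p : ℕ) [Fact p.Prime] (M : Ideal Cfsg.AlgInt) (hM : Cfsg.IsPModular p M) (P H : Subgroup G) (hP : IsPGroup p P) (hH : Subgroup.normalizer (P : Set G) ≤ H) : (∀ B : Set (Cfsg.IrrCharacter G), Cfsg.IsPBlock M B → Cfsg.IsDefectGroup p M B P → ∃! c : Set (Cfsg.IrrCharacter H), Cfsg.IsPBlock M c ∧ Cfsg.IsDefectGroup p M c (P.subgroupOf H) ∧ ∀ x : G, x ∈ Subgroup.centralizer (P : Set G) → Cfsg.MemLocalIdeal M (Cfsg.blockCoeff B x - Cfsg.subgroupBlockCoeff H c x)) ∧ (∀ c : Set (Cfsg.IrrCharacter H), Cfsg.IsPBlock M c → Cfsg.IsDefectGroup p M c (P.subgroupOf H) → ∃! B : Set (Cfsg.IrrCharacter G), Cfsg.IsPBlock M B ∧ Cfsg.IsDefectGroup p M B P ∧ ∀ x : G, x ∈ Subgroup.centralizer (P : Set G) → Cfsg.MemLocalIdeal M (Cfsg.blockCoeff B x - Cfsg.subgroupBlockCoeff H c x)) := by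
  haveI : M.IsPrime := Cfsg.Agent.Block.isPrime_of_isPModular hM
  haveI := Cfsg.Agent.Block.charP_resF hM
  constructor
  · intro B hB hBD
    obtain ⟨c, ⟨h1, h2⟩, hu⟩ := Cfsg.Agent.BrauerPairs.existsUnique_down hP hH ⟨B, hB⟩
      ((Cfsg.Agent.BrauerPairs.isDefectGroup_iff ⟨B, hB⟩ P).1 hBD)
    refine ⟨c.1, ⟨c.2, (Cfsg.Agent.BrauerPairs.isDefectGroup_iff c _).2 h1,
      (trunc_eq_iff ⟨B, hB⟩ c).1 h2⟩, fun c' hc' => ?_⟩
    exact congrArg Subtype.val (hu ⟨c', hc'.1⟩
      ⟨(Cfsg.Agent.BrauerPairs.isDefectGroup_iff ⟨c', hc'.1⟩ _).1 hc'.2.1,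
        (trunc_eq_iff ⟨B, hB⟩ ⟨c', hc'.1⟩).2 hc'.2.2⟩)
  · intro c hc hcD
    obtain ⟨B, ⟨h1, h2⟩, hu⟩ := Cfsg.Agent.BrauerPairs.existsUnique_up hP hH ⟨c, hc⟩
      ((Cfsg.Agent.BrauerPairs.isDefectGroup_iff ⟨c, hc⟩ _).1 hcD)
    refine ⟨B.1, ⟨B.2, (Cfsg.Agent.BrauerPairs.isDefectGroup_iff B _).2 h1,
      (trunc_eq_iff B ⟨c, hc⟩).1 h2⟩, fun B' hB' => ?_⟩
    exact congrArg Subtype.val (hu ⟨B', hB'.1⟩
      ⟨(Cfsg.Agent.BrauerPairs.isDefectGroup_iff ⟨B', hB'.1⟩ _).1 hB'.2.1,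
        (trunc_eq_iff ⟨B', hB'.1⟩ ⟨c, hc⟩).2 hB'.2.2⟩)

end Cfsg.Agent.S4670
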