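import Cfsg.Statements.S4673
import Cfsg.Agent.BlockCover.Covers

set_option autoImplicit false
open Cfsg

namespace Cfsg.Agent.S4673

/-- Fix a prime p and a maximal ideal M of the algebraic integers containing p. Let N ≤ L be normal subgroups of the finite group G with L/N a p-group, let B be a p-block of G covering the p-block c of N (some member of B has a constituent in c on restriction to N), and suppose that N contains a defect group of B. Then the stabilizer T of c in G satisfies T ∩ L = N. -/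
theorem result {G : Type*} [Group G] [Fintype G] (p : ℕ) [Fact p.Prime] (M : Ideal Cfsg.AlgInt) (hM : Cfsg.IsPModular p M) (N L : Subgroup G) [N.Normal] [L.Normal] [Fintype N] (hNL : N ≤ L) (hLN : ∃ k : ℕ, (N.subgroupOf L).index = p ^ k) (B : Set (Cfsg.IrrCharacter G)) (hB : Cfsg.IsPBlock M B) (c : Set (Cfsg.IrrCharacter N)) (hc : Cfsg.IsPBlock M c) (hcov : (∃ χ ∈ B, ∃ θ ∈ c, Cfsg.classInner (fun n : N => (χ : G → ℂ) n) (θ : N → ℂ) ≠ 0)) (hD : ∃ D : Subgroup G, Cfsg.IsDefectGroup p M B D ∧ D ≤ N) (T : Subgroup G) (hT : ∀ x : G, x ∈ T ↔ Cfsg.StabilizesBlock N c x) : T ⊓ L = N := by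
  haveI : M.IsPrime := hM.2.1.isPrime
  haveI := Cfsg.Agent.Block.charP_resF (M := M) hM
  obtain ⟨D, hD, hDN⟩ := hD
  have hcov' : BlockCover.Covers (N := N) ⟨B, hB⟩ ⟨c, hc⟩ := (BlockCover.covers_iff _ _).2 hcov
  have hT' : ∀ x : G, x ∈ T ↔
      BrauerPairs.cj x ((BrauerPairs.blockSys M N).idem ⟨c, hc⟩) =
        (BrauerPairs.blockSys M N).idem ⟨c, hc⟩ := fun x =>
    ((hT x).trans (BrauerPairs.stabilizesBlock_iff ⟨c, hc⟩ x)).trans
      (and_iff_right (by rw [Subgroup.normalizer_eq_top N]; exact Subgroup.mem_top x))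
  have hNT : N ≤ T := fun x hx => (hT' x).2
    (BrauerPairs.fixed_iff_cj.1 ((BrauerPairs.blockSys M N).central_idem ⟨c, hc⟩).fixed x hx)
  refine le_antisymm ?_ (le_inf hNT hNL)
  exact BlockCover.le_of_fixed_of_defect_le hM hNL hLN hcov'
    ((BrauerPairs.isDefectGroup_iff ⟨B, hB⟩ D).1 hD) hDN (le_inf hNT hNL) inf_le_right
    (BrauerPairs.fixed_iff_cj.2 fun x hx => (hT' x).1 hx.1)

end Cfsg.Agent.S4673
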