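import Cfsg.Statements.S4674
import Cfsg.Agent.BlockCover.HarrisKnorr

set_option autoImplicit false
open Cfsg

namespace Cfsg.Agent.S4674

/-- Fix a prime p and a maximal ideal M of the algebraic integers containing p. Let N be a normal subgroup of the finite group G, Q a p-subgroup of N, H = N_G(Q) and L = H ∩ N = N_N(Q). Let d be a p-block of N with defect group Q and e the p-block of L with defect group Q that induces d inside N (its Brauer correspondent). Then block induction from H to G is a bijection from the p-blocks of H covering e onto the p-blocks of G covering d: every block of H covering e induces exactly one block of G, and that block covers d; and every block of G covering d is induced by exactly one block of H covering e. -/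
theorem result {G : Type*} [Group G] [Fintype G] (p : ℕ) [Fact p.Prime] (M : Ideal Cfsg.AlgInt) (hM : Cfsg.IsPModular p M) (N : Subgroup G) [N.Normal] [Fintype N] (Q : Subgroup G) (hQ : IsPGroup p Q) (hQN : Q ≤ N) [Fintype ↥(Subgroup.normalizer (Q : Set G) ⊓ N)] (d : Set (Cfsg.IrrCharacter N)) (hd : Cfsg.IsPBlock M d) (hdQ : Cfsg.IsDefectGroup p M d (Q.subgroupOf N)) (e : Set (Cfsg.IrrCharacter ↥(Subgroup.normalizer (Q : Set G) ⊓ N))) (he : Cfsg.IsPBlock M e) (heQ : Cfsg.IsDefectGroup p M e (Q.subgroupOf (Subgroup.normalizer (Q : Set G) ⊓ N))) (hed : Cfsg.IsInducedBlockIn M N (Subgroup.normalizer (Q : Set G) ⊓ N) e d) : (∀ c : Set (Cfsg.IrrCharacter ↥(Subgroup.normalizer (Q : Set G))), Cfsg.IsPBlock M c → (∃ ψ ∈ c, ∃ ξ ∈ e, Cfsg.classInner (fun l : ↥(Subgroup.normalizer (Q : Set G) ⊓ N) => (ψ : ↥(Subgroup.normalizer (Q : Set G)) → ℂ) (Subgroup.inclusion inf_le_left l)) (ξ : ↥(Subgroup.normalizer (Q : Set G) ⊓ N) → ℂ) ≠ 0) → ∃! B : Set (Cfsg.IrrCharacter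 G), Cfsg.IsInducedBlock M (Subgroup.normalizer (Q : Set G)) c B ∧ (∃ χ ∈ B, ∃ θ ∈ d, Cfsg.classInner (fun n : N => (χ : G → ℂ) n) (θ : N → ℂ) ≠ 0)) ∧ (∀ B : Set (Cfsg.IrrCharacter G), Cfsg.IsPBlock M B → (∃ χ ∈ B, ∃ θ ∈ d, Cfsg.classInner (fun n : N => (χ : G → ℂ) n) (θ : N → ℂ) ≠ 0) → ∃! c : Set (Cfsg.IrrCharacter ↥(Subgroup.normalizer (Q : Set G))), (Cfsg.IsPBlock M c ∧ ∃ ψ ∈ c, ∃ ξ ∈ e, Cfsg.classInner (fun l : ↥(Subgroup.normalizer (Q : Set G) ⊓ N) => (ψ : ↥(Subgroup.normalizer (Q : Set G)) → ℂ) (Subgroup.inclusion inf_le_left l)) (ξ : ↥(Subgroup.normalizer (Q : Set G) ⊓ N) → ℂ) ≠ 0) ∧ Cfsg.IsInducedBlock M (Subgroup.normalizer (Q : Set G)) c B) := by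
  classical
  haveI : M.IsPrime := hM.2.1.isPrime
  haveI := Cfsg.Agent.Block.charP_resF (M := M) hM
  let dd : BrauerPairs.Blk M N := ⟨d, hd⟩
  let ee : BrauerPairs.Blk M ↥(Subgroup.normalizer (Q : Set G) ⊓ N) := ⟨e, he⟩
  have hQL : Q ≤ Subgroup.normalizer (Q : Set G) ⊓ N := le_inf Subgroup.le_normalizer hQN
  have hdQ' := (BrauerPairs.isDefectGroup_subgroupOf_iff dd).1 hdQ
  rw [inf_eq_left.2 hQN] at hdQ'
  have heQ' := (BrauerPairs.isDefectGroup_subgroupOf_iff ee).1 heQ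
  rw [inf_eq_left.2 hQL] at heQ'
  have hde := BlockCover.trunc_idem_eq_correspondent (d := dd) (e := ee) hQ hQN heQ' hed
  have hLn : Subgroup.normalizer (Q : Set G) ≤
      Subgroup.normalizer ((Subgroup.normalizer (Q : Set G) ⊓ N : Subgroup G) : Set G) :=
    fun x hx => Subgroup.mem_normalizer_iff.2 fun y => by
      have h1 := Subgroup.mem_normalizer_iff.1 (Subgroup.le_normalizer hx :
        x ∈ Subgroup.normalizer ((Subgroup.normalizer (Q : Set G) : Subgroup G) : Set G)) y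
      have h2 := Subgroup.mem_normalizer_iff.1
        (show x ∈ Subgroup.normalizer (N : Set G) by
          rw [Subgroup.normalizer_eq_top N]; exact Subgroup.mem_top x) y
      exact and_congr h1 h2
  refine ⟨fun c hc hcov => ?_, fun B hB hcov => ?_⟩
  · have hce := (BlockCover.covers_sub_iff inf_le_left hLn ⟨c, hc⟩ ee).1 hcov
    obtain ⟨B, hB⟩ := BlockCover.exists_induced (Q := Q) hM hQ ⟨c, hc⟩
    haveI := Fintype.ofFinite G
    exact ⟨B.1, ⟨hB, (BlockCover.covers_iff B dd).1 (BlockCover.covers_of_induced hQ hQN hde hB hce)⟩,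
      fun B' hB' => Block.isInducedBlock_unique hB'.1 hB⟩
  · have hcov' := (BlockCover.covers_iff (⟨B, hB⟩ : BrauerPairs.Blk M G) dd).2 hcov
    obtain ⟨c, hcB, hce⟩ := BlockCover.exists_covering_inducing hM hQ hQN hde hcov'
    refine ⟨c.1, ⟨⟨c.2, (BlockCover.covers_sub_iff inf_le_left hLn c ee).2 hce⟩, hcB⟩,
      fun c' hc' => ?_⟩
    exact congrArg Subtype.val (BlockCover.eq_of_induced_covering (c := ⟨c', hc'.1.1⟩) (c' := c)
      hQ hQN hdQ' hcov' hc'.2 hcB)

end Cfsg.Agent.S4674
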