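import Cfsg.Statements.S4679
import Cfsg.Agent.BrauerPairs.Local
-- import your own Cfsg.Agent.* helpers here

set_option autoImplicit false
open Cfsg

namespace Cfsg.Agent.S4679

/-- Fix a prime p and a maximal ideal M of the algebraic integers containing p, a p-block B of the finite group G with maximal Brauer pair (P, e), its fusion system F on P, a Brauer pair (Q, f) ≤ (P, e), and let T be the stabilizer of f in N_G(Q). Then Q is fully normalized in F if and only if N_P(Q) is a defect group of the block of T whose idempotent is that of f. -/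
theorem result {G : Type*} [Group G] [Fintype G] (p : ℕ) [Fact p.Prime] (M : Ideal Cfsg.AlgInt) (hM : Cfsg.IsPModular p M) (B : Set (Cfsg.IrrCharacter G)) (P : Subgroup G) (e : Set (Cfsg.IrrCharacter (Subgroup.centralizer (P : Set G)))) (hmax : Cfsg.IsMaximalBrauerPair p M B P e) (F : Cfsg.FusionSystem P) (hF : Cfsg.IsBlockFusionSystemOn p M B P e F) (Q : Subgroup G) (f : Set (Cfsg.IrrCharacter (Subgroup.centralizer (Q : Set G)))) (hQP : Q ≤ P) (hf : Cfsg.IsPBlock M f) (hle : Cfsg.SubpairLE p M Q f P e) (T : Subgroup G) (hT : ∀ y : G, y ∈ T ↔ y ∈ Subgroup.normalizer (Q : Set G) ∧ Cfsg.StabilizesBlock (Subgroup.centralizer (Q : Set G)) f y) : F.IsFullyNormalized Q ↔ ∃ F' : Set (Cfsg.IrrCharacter T), Cfsg.IsPBlock M F' ∧ (∀ t : T, Cfsg.blockCoeff F' t = Cfsg.subgroupBlockCoeff (Subgroup.centralizer (Q : Set G)) f (t : G)) ∧ Cfsg.IsDefectGroup p M F' ((P ⊓ Subgroup.normalizer (Q : Set G)).subgroupOf T) :=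 by
  haveI : M.IsPrime := Cfsg.Agent.Block.isPrime_of_isPModular hM
  haveI := Cfsg.Agent.Block.charP_resF hM
  have hsle := (Cfsg.Agent.BrauerPairs.subpairLE_iff ⟨Q, ⟨f, hf⟩⟩ ⟨P, ⟨e, hmax.1.1.2⟩⟩).1 hle
  have hQ : IsPGroup p Q := hmax.1.1.1.to_le hQP
  obtain rfl := Cfsg.Agent.BrauerPairs.eq_stab (f := (⟨f, hf⟩ : Cfsg.Agent.BrauerPairs.Blk M _)) hT
  rw [Cfsg.Agent.BrauerPairs.isFullyNormalized_iff (e := ⟨e, hmax.1.1.2⟩) hF (f := ⟨f, hf⟩) hsle]
  have hinf : P ⊓ Subgroup.normalizer (Q : Set G) ⊓ Cfsg.Agent.BrauerPairs.stab ⟨Q, ⟨f, hf⟩⟩ =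
      P ⊓ Subgroup.normalizer (Q : Set G) :=
    inf_of_le_left (Cfsg.Agent.BrauerPairs.inf_normalizer_le_stab hmax.1.1.1 hsle)
  constructor
  · intro h
    obtain ⟨E, hE, hE'⟩ := Cfsg.Agent.BrauerPairs.exists_blk_stab (a := ⟨Q, ⟨f, hf⟩⟩) hQ
      (Cfsg.Agent.BrauerPairs.centralizer_le_stab _) (Cfsg.Agent.BrauerPairs.self_le_stab _) le_rfl
    refine ⟨E.1, E.2, hE', ?_⟩
    rw [Cfsg.Agent.BrauerPairs.isDefectGroup_subgroupOf_iff, hinf, hE]
    exact h
  · rintro ⟨F', hF', hco, hD⟩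
    have hid := Cfsg.Agent.BrauerPairs.idem_eq_of_blockCoeff (i := ⟨f, hf⟩) (E := ⟨F', hF'⟩)
      (Cfsg.Agent.BrauerPairs.centralizer_le_stab ⟨Q, ⟨f, hf⟩⟩) hco
    have hD' := (Cfsg.Agent.BrauerPairs.isDefectGroup_subgroupOf_iff ⟨F', hF'⟩).1 hD
    rw [hinf, hid] at hD'
    exact hD'

end Cfsg.Agent.S4679
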