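import Cfsg.Statements.S4683
import Cfsg.Agent.BlkChar.Major
import Cfsg.Prelude.Def_BrauerPairs
-- import your own Cfsg.Agent.* helpers here

set_option autoImplicit false
open Cfsg
open scoped ComplexConjugate

namespace Cfsg.Agent.S4683

/-- Fix a prime p and a maximal ideal M of the algebraic integers containing p, a p-block B of the finite group G, a p-element u and a p-block e of C = C_G(u) such that (⟨u⟩, e) is a Brauer pair of B (a Brauer element of B). For χ ∈ B let χ_u be the e-part of the class function c ↦ χ(u c) on C and χ_u' the e-part of c ↦ χ(u⁻¹ c). Then the sum over χ ∈ B and over the p-regular elements s of C of χ_u(s)·χ_u'(s⁻¹) equals the order of C times the p-regular rank of e (the number of irreducible Brauer characters of e). -/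
theorem result {G : Type*} [Group G] [Fintype G] (p : ℕ) [Fact p.Prime] (M : Ideal Cfsg.AlgInt) (hM : Cfsg.IsPModular p M) (B : Set (Cfsg.IrrCharacter G)) (u : G) (hu : ∃ k : ℕ, orderOf u = p ^ k) (e : Set (Cfsg.IrrCharacter (Subgroup.centralizer (Subgroup.zpowers u : Set G)))) (hBe : Cfsg.IsBrauerPairOf p M B (Subgroup.zpowers u) e) : ∑ᶠ χ ∈ B, ∑ᶠ s : Subgroup.centralizer (Subgroup.zpowers u : Set G), Cfsg.pRegularPart p (Cfsg.blockPart e (fun c : Subgroup.centralizer (Subgroup.zpowers u : Set G) => (χ : G → ℂ) (u * c))) s * Cfsg.blockPart e (fun c : Subgroup.centralizer (Subgroup.zpowers u : Set G) => (χ : G → ℂ) (u⁻¹ * c)) s⁻¹ = (Nat.card (Subgroup.centralizer (Subgroup.zpowers u : Set G)) : ℂ) * (Cfsg.blockRank p e : ℂ) := by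
  classical
  haveI : M.IsPrime := Block.isPrime_of_isPModular hM
  obtain ⟨i, hi⟩ := hu
  letI := Fintype.ofFinite (Subgroup.centralizer (Subgroup.zpowers u : Set G))
  have hS : BlkChar.Contrib.IsSection p (i + 1) u (Subgroup.centralizer (Subgroup.zpowers u : Set G)) :=
    ⟨fun g => by
      rw [Brauer.centralizer_zpowers_eq]; exact Subgroup.mem_centralizer_singleton_iff,
      orderOf_dvd_iff_pow_eq_one.1 (hi ▸ pow_dvd_pow p i.le_succ)⟩
  obtain ⟨⟨hQp, heb⟩, hB, hom⟩ := hBe
  -- the pair induces `B`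
  have hind : Cfsg.IsInducedBlock M (Subgroup.centralizer (Subgroup.zpowers u : Set G)) e B := by
    obtain ⟨B', hB'⟩ := Block.inducedBlockDefined_of_brauer (H := (Subgroup.centralizer (Subgroup.zpowers u : Set G))) hM hQp
      (Subgroup.zpowers_le.2 hS.mem) le_rfl (Subgroup.centralizer_le_normalizer _) heb
    obtain ⟨ξ, hξ⟩ := Block.pBlock_nonempty heb
    obtain ⟨χ, hχ⟩ := Block.pBlock_nonempty hB'.2.1
    have h := Brauer.omega_restr_sub_mem_of_induced (M := M) (Subgroup.centralizer (Subgroup.zpowers u : Set G)) hB' hξ hχ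
      (Block.idemS_isCentralElt B)
    have e1 : Block.omega (ξ : ↥(Subgroup.centralizer (Subgroup.zpowers u : Set G)) → ℂ) (Block.toC M (Block.restr (Subgroup.centralizer (Subgroup.zpowers u : Set G)) (Block.idemS M B))) =
        Cfsg.brauerOmega (Subgroup.zpowers u) (Cfsg.blockCoeff B) (ξ : ↥(Subgroup.centralizer (Subgroup.zpowers u : Set G)) → ℂ) := by
      rw [Cfsg.brauerOmega, finsum_eq_sum_of_fintype, Block.omega_eq_sum, Finset.sum_div]
      refine Finset.sum_congr rfl fun x _ => ?_
      rw [Block.coeff_mapR, Block.coeff_restr]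
      have h2 := congrArg (fun z => MonoidAlgebra.coeff z (x : G)) (Block.toC_idemS (M := M) hB)
      simp only [Block.coeff_mapR, Block.coeff_blockIdem] at h2
      rw [h2]
    rw [e1, Block.omega_idemS hB] at h
    have h2 := Block.memLocalIdeal_sub h (hom ξ hξ)
    by_cases hχB : χ ∈ B
    · rwa [Block.pBlock_eq_of_mem hB hB'.2.1 hχB hχ]
    · exfalso
      rw [if_neg hχB, sub_zero, sub_sub_cancel] at h2
      exact one_ne_zero ((Block.redC_one (M := M)).symm.trans
        ((Block.redC_eq_zero_iff (Block.localRing M).one_mem).2 h2))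
  haveI : Fact (1 < p ^ (i + 1)) := ⟨Nat.one_lt_pow i.succ_ne_zero (Fact.out : p.Prime).one_lt⟩
  -- the parts at `u` and at its inverse
  have hpart : ∀ (χ : Cfsg.IrrCharacter G) (j : ZMod (p ^ (i + 1))) (w : G) (y : (Subgroup.centralizer (Subgroup.zpowers u : Set G))),
      u ^ j.val = w →
      Cfsg.blockPart e (fun c : (Subgroup.centralizer (Subgroup.zpowers u : Set G)) => (χ : G → ℂ) (w * c)) y =
        ∑ η ∈ Finset.univ.filter (· ∈ e),
          BlkChar.Contrib.secCoeff hS χ j η * (η : ↥(Subgroup.centralizer (Subgroup.zpowers u : Set G)) → ℂ) y := by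
    intro χ j w y hw
    have hθ : (fun c : (Subgroup.centralizer (Subgroup.zpowers u : Set G)) => (χ : G → ℂ) (w * c)) =
        ∑ η : Cfsg.IrrCharacter (Subgroup.centralizer (Subgroup.zpowers u : Set G)), BlkChar.Contrib.secCoeff hS χ j η • (η : ↥(Subgroup.centralizer (Subgroup.zpowers u : Set G)) → ℂ) := by
      funext c
      rw [← hw]
      simp [BlkChar.Contrib.apply_section hS χ j c]
    rw [Cfsg.blockPart, hθ]
    simp only [finsum_mem_eq_toFinset_sum, Char.classInner_sum_left, Char.classInner_smul_left,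
      Char.classInner_irrCharacter, mul_ite, mul_one, mul_zero, Finset.sum_ite_eq',
      Finset.mem_univ, if_true]
    exact Finset.sum_congr (by ext; simp) fun _ _ => rfl
  have hneg : u ^ (-1 : ZMod (p ^ (i + 1))).val = u⁻¹ := by
    apply eq_inv_of_mul_eq_one_left
    rw [← pow_succ, ← orderOf_dvd_iff_pow_eq_one]
    refine (orderOf_dvd_of_pow_eq_one hS.pow_eq).trans ?_
    rw [← ZMod.natCast_eq_zero_iff]
    push_cast
    rw [ZMod.natCast_zmod_val, neg_add_cancel]
  have key : ∀ χ : Cfsg.IrrCharacter G, (∑ᶠ s : (Subgroup.centralizer (Subgroup.zpowers u : Set G)),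
      Cfsg.pRegularPart p (Cfsg.blockPart e (fun c : (Subgroup.centralizer (Subgroup.zpowers u : Set G)) => (χ : G → ℂ) (u * c))) s *
        Cfsg.blockPart e (fun c : (Subgroup.centralizer (Subgroup.zpowers u : Set G)) => (χ : G → ℂ) (u⁻¹ * c)) s⁻¹) =
      Brauer.regSum p (BlkChar.Contrib.part hS e χ 1) (BlkChar.Contrib.part hS e χ 1) := by
    intro χ
    rw [finsum_eq_sum_of_fintype, Brauer.regSum, Finset.sum_filter]
    refine Finset.sum_congr rfl fun s _ => ?_
    by_cases hs : p ∣ orderOf s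
    · simp [Cfsg.pRegularPart, Cfsg.IsPRegular, hs]
    · rw [if_pos hs]
      simp only [Cfsg.pRegularPart, Cfsg.IsPRegular, hs, not_false_eq_true, if_true]
      rw [hpart χ 1 u s (by rw [ZMod.val_one, pow_one]), hpart χ (-1) u⁻¹ s⁻¹ hneg]
      have h1 : BlkChar.Contrib.part hS e χ 1 s = ∑ η ∈ Finset.univ.filter (· ∈ e),
          BlkChar.Contrib.secCoeff hS χ 1 η * (η : ↥(Subgroup.centralizer (Subgroup.zpowers u : Set G)) → ℂ) s := by
        simp [BlkChar.Contrib.part, Cfsg.pRegularPart, Cfsg.IsPRegular, hs]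
      rw [h1, map_sum]
      congr 1
      refine Finset.sum_congr rfl fun η _ => ?_
      simp only [BlkChar.Contrib.secCoeff, map_mul, map_natCast, BlkChar.Cyclo.conj_stdAddChar,
        Char.isCharacter_inv (Char.isCharacter_of_irr η.2), neg_mul]
  rw [finsum_mem_eq_toFinset_sum, Finset.sum_congr (show B.toFinset = Finset.univ.filter (· ∈ B) by
    ext; simp) fun χ _ => key χ]
  have h := BlkChar.Contrib.sum_cM_diag_block hS hM hind
    (isUnit_one : IsUnit (1 : ZMod (p ^ (i + 1))))
  have hC0 : (Nat.card (Subgroup.centralizer (Subgroup.zpowers u : Set G)) : ℂ) ≠ 0 := Nat.cast_ne_zero.2 Nat.card_pos.ne'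
  simp only [BlkChar.Contrib.cM, ← Finset.mul_sum] at h
  rw [div_mul_eq_mul_div, div_eq_iff hC0, mul_assoc] at h
  have h2 := mul_left_cancel₀
    (Nat.cast_ne_zero.2 (pow_ne_zero _ (Fact.out : p.Prime).ne_zero)) h
  rw [h2, mul_comm]

end Cfsg.Agent.S4683
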