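import Cfsg.Statements.S4687
import Cfsg.Agent.BrauerPairs.AbelianDefect
-- import your own Cfsg.Agent.* helpers here

set_option autoImplicit false
open Cfsg

namespace Cfsg.Agent.S4687

/-- Fix a prime p and a maximal ideal M of the algebraic integers containing p, and a p-block B of the finite group G with maximal Brauer pair (P, e), P abelian. Then B is nilpotent if and only if its inertial quotient is trivial: every element of N_G(P) stabilizing e centralizes P. -/
theorem result {G : Type*} [Group G] [Fintype G] (p : ℕ) [Fact p.Prime] (M : Ideal Cfsg.AlgInt) (hM : Cfsg.IsPModular p M) (B : Set (Cfsg.IrrCharacter G)) (P : Subgroup G) (e : Set (Cfsg.IrrCharacter (Subgroup.centralizer (P : Set G)))) (hmax : Cfsg.IsMaximalBrauerPair p M B P e) (hab : ∀ x ∈ P, ∀ y ∈ P, x * y = y * x) : Cfsg.IsNilpotentBlock p M B ↔ ∀ x : G, x ∈ Subgroup.normalizer (P : Set G) → Cfsg.StabilizesBlock (Subgroup.centralizer (P : Set G)) e x → x ∈ Subgroup.centralizer (P : Set G) := by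
  haveI : M.IsPrime := Cfsg.Agent.Block.isPrime_of_isPModular hM
  haveI := Cfsg.Agent.Block.charP_resF hM
  rw [Cfsg.Agent.BrauerPairs.isNilpotentBlock_iff_abelian (e := ⟨e, hmax.1.1.2⟩) hmax hab]
  exact ⟨fun h x hx hst => h ((Cfsg.Agent.BrauerPairs.mem_stab_iff_stabilizesBlock
      (⟨e, hmax.1.1.2⟩ : Cfsg.Agent.BrauerPairs.Blk M _) x).2 ⟨hx, hst⟩),
    fun h x hx => h x hx.1 ((Cfsg.Agent.BrauerPairs.mem_stab_iff_stabilizesBlock
      (⟨e, hmax.1.1.2⟩ : Cfsg.Agent.BrauerPairs.Blk M _) x).1 hx).2⟩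

end Cfsg.Agent.S4687
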