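import Cfsg.Statements.S4693
import Cfsg.Agent.BrauerPairs.Local
import Cfsg.Agent.BrauerPairs.Nilpotent
import Cfsg.Agent.BrauerPairs.RegSupport
-- import your own Cfsg.Agent.* helpers here

set_option autoImplicit false
open Cfsg

namespace Cfsg.Agent.S4693

set_option maxHeartbeats 400000

open Cfsg.Agent.BrauerPairs in
universe u in
/-- A block of `Q ⊔ C_G(Q)` with the idempotent of a block of `C_G(Q)` of defect `Z(Q)` is
nilpotent. -/
theorem isNilpotentBlock_sup {p : ℕ} {M : Ideal AlgInt} [M.IsPrime] [Fact p.Prime]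
    [CharP (Cfsg.Agent.Block.ResF M) p] {G : Type u} [Group G] [Finite G] {Q : Subgroup G} [Q.Normal]
    (hQ : IsPGroup p Q) (f : Blk M (Subgroup.centralizer (Q : Set G)))
    (hD : IsDefectGroup p M f.1 ((Q ⊓ Subgroup.centralizer (Q : Set G)).subgroupOf
        (Subgroup.centralizer (Q : Set G))))
    (E : Blk M ↥(Q ⊔ Subgroup.centralizer (Q : Set G)))
    (hE : (blockSys M (Q ⊔ Subgroup.centralizer (Q : Set G))).idem E =
      (blockSys M (Subgroup.centralizer (Q : Set G))).idem f) :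
    IsNilpotentBlock p M E.1 := by
  rw [isDefectGroup_subgroupOf_iff, inf_assoc, inf_idem] at hD
  generalize hCdef : Subgroup.centralizer (Q : Set G) = C at *
  have hCN : C ≤ Subgroup.normalizer (Q : Set G) := hCdef ▸ Subgroup.centralizer_le_normalizer _
  have hCn : ∀ y ∈ Q ⊔ C, y ∈ Subgroup.normalizer (C : Set G) := fun y hy => by
    rw [← hCdef]
    exact normalizer_le_normalizer_centralizer _ (sup_le Subgroup.le_normalizer hCN hy)
  haveI : (C.subgroupOf (Q ⊔ C)).Normal :=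
    Subgroup.normal_subgroupOf_iff_le_normalizer le_sup_right |>.2 hCn
  obtain ⟨k, hk⟩ : ∃ k, (C.subgroupOf (Q ⊔ C)).index = p ^ k := by
    haveI : C.Normal := by
      rw [← hCdef]
      infer_instance
    have h1 : C.relIndex (Q ⊔ C) = C.relIndex Q := Subgroup.relIndex_sup_right Q C
    obtain ⟨n, hn⟩ := IsPGroup.iff_card.1 hQ
    have h2 : (C.subgroupOf Q).index ∣ p ^ n := hn ▸ Subgroup.index_dvd_card _
    obtain ⟨k, -, hk⟩ := (Nat.dvd_prime_pow (Fact.out : p.Prime)).1 h2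
    exact ⟨k, h1.trans hk⟩
  rw [isNilpotentBlock_iff]
  intro a ha x _ hreg
  have hxC : (x : G) ∈ C := mem_of_isPRegular (Fact.out : p.Prime) hk hreg
  -- the pair lies inside `Q`
  set R := a.1.map (Q ⊔ C).subtype with hR
  have hRp : IsPGroup p R := ha.1.map _
  have hRle : R ≤ Q ⊔ C := Subgroup.map_subtype_le _
  have hne : trunc R ((blockSys M C).idem f) ≠ 0 := by
    intro h0
    rw [← hE, show (blockSys M (Q ⊔ C)).idem E =
      Cfsg.Agent.Block.incl (Q ⊔ C) ((blockSysTop M).idem E) from rfl, hR, trunc_incl] at h0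
    have h1 : trunc a.1 ((blockSysTop M).idem E) = 0 :=
      Cfsg.Agent.Block.incl_injective _ (h0.trans (map_zero _).symm)
    have h2 := ha.mul_idem
    rw [h1, zero_mul] at h2
    exact (pairSys M _ a.1).idem_ne_zero a.2 h2.symm
  have hRN : R ≤ Subgroup.normalizer (Q : Set G) := hRle.trans (sup_le Subgroup.le_normalizer hCN)
  have hS : IsPGroup p ↥((Q ⊔ R) ⊓ C) :=
    (isPGroup_sup_of_le_normalizer hQ hRp hRN).to_le inf_le_left
  have hsplit : Q ⊔ (Q ⊔ R) ⊓ C = Q ⊔ R := by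
    refine le_antisymm (sup_le le_sup_left inf_le_left) fun y hy => ?_
    have hy' : y ∈ Q ⊔ C := sup_le le_sup_left hRle hy
    rw [← SetLike.mem_coe, Subgroup.coe_mul_of_left_le_normalizer_right Q C
      (hCdef ▸ fun q hq => normalizer_le_normalizer_centralizer _ (Subgroup.le_normalizer hq))] at hy'
    obtain ⟨q, hq, c, hc, rfl⟩ := hy'
    have hc' : c ∈ Q ⊔ R := by
      have := (Q ⊔ R).mul_mem ((Q ⊔ R).inv_mem (Subgroup.mem_sup_left hq)) hy
      simpa using this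
    exact Subgroup.mul_mem_sup hq (show c ∈ (Q ⊔ R) ⊓ C from ⟨hc', hc⟩)
  have hsupp : SuppIn (Subgroup.centralizer (Q : Set G)) ((blockSys M C).idem f) :=
    hCdef.symm ▸ ((blockSys M C).central_idem f).supp
  obtain ⟨y, hy, hle⟩ := hD.2.2.2 ((Q ⊔ R) ⊓ C) inf_le_right hS (by
    rw [← trunc_sup_eq hsupp, hsplit, trunc_sup_eq hsupp]
    exact hne)
  have hRQ : R ≤ Q := by
    have h1 : (Q ⊔ R) ⊓ C ≤ Q := by
      refine hle.trans (le_of_le_of_eq (Subgroup.map_mono inf_le_left) ?_)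
      exact map_conj_of_mem_normalizer (hCN hy)
    calc R ≤ Q ⊔ R := le_sup_right
      _ = Q ⊔ (Q ⊔ R) ⊓ C := hsplit.symm
      _ ≤ Q := sup_le le_rfl h1
  rw [Subgroup.mem_centralizer_iff]
  intro r hr
  refine Subtype.ext ?_
  have hxQ : (x : G) ∈ Subgroup.centralizer (Q : Set G) := le_of_eq hCdef.symm hxC
  exact Subgroup.mem_centralizer_iff.1 hxQ _ (hRQ ⟨r, hr, rfl⟩)

/-- Fix a prime p and a maximal ideal M of the algebraic integers containing p, a p-block B of the finite group G with maximal Brauer pair (P, e) and fusion system F on P, and a Brauer pair (Q, f) ≤ (P, e) with Q centric in F. Suppose every element of G normalizes Q and stabilizes f. Then the idempotent of B agrees with that of f modulo M at every element of G, and f is the idempotent of a nilpotent block of Q·C_G(Q): some p-block of Q·C_G(Q) has the idempotent coefficients of f and is nilpotent. -/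
theorem result {G : Type*} [Group G] [Fintype G] (p : ℕ) [Fact p.Prime] (M : Ideal Cfsg.AlgInt) (hM : Cfsg.IsPModular p M) (B : Set (Cfsg.IrrCharacter G)) (P : Subgroup G) (e : Set (Cfsg.IrrCharacter (Subgroup.centralizer (P : Set G)))) (hmax : Cfsg.IsMaximalBrauerPair p M B P e) (F : Cfsg.FusionSystem P) (hF : Cfsg.IsBlockFusionSystemOn p M B P e F) (Q : Subgroup G) (f : Set (Cfsg.IrrCharacter (Subgroup.centralizer (Q : Set G)))) (hQP : Q ≤ P) (hf : Cfsg.IsPBlock M f) (hle : Cfsg.SubpairLE p M Q f P e) (hcen : F.IsCentric Q) (hG : ∀ x : G, x ∈ Subgroup.normalizer (Q : Set G) ∧ Cfsg.StabilizesBlock (Subgroup.centralizer (Q : Set G)) f x) : (∀ g : G, Cfsg.MemLocalIdeal M (Cfsg.blockCoeff B g - Cfsg.subgroupBlockCoeff (Subgroup.centralizer (Q : Set G)) f g)) ∧ ∃ F' : Set (Cfsg.IrrCharacter ↥(Q ⊔ Subgroup.centralizer (Q : Set G))), Cfsg.IsPBlock M F' ∧ (∀ t : ↥(Q ⊔ Subgroup.centralizer (Q : Set G)), Cfsg.blockCoeff F' t = Cfsg.subgroupBlockCoeff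 (Subgroup.centralizer (Q : Set G)) f (t : G)) ∧ Cfsg.IsNilpotentBlock p M F' := by
  haveI : M.IsPrime := Cfsg.Agent.Block.isPrime_of_isPModular hM
  haveI := Cfsg.Agent.Block.charP_resF hM
  have hp : IsPGroup p P := hmax.1.1.1
  have hQp : IsPGroup p Q := hp.to_le hQP
  have hsle : Cfsg.Agent.BrauerPairs.SLE (Cfsg.Agent.BrauerPairs.pairSys M G) p
      ⟨Q, ⟨f, hf⟩⟩ ⟨P, ⟨e, hmax.1.1.2⟩⟩ :=
    (Cfsg.Agent.BrauerPairs.subpairLE_iff _ _).1 hle
  have hB : Cfsg.IsPBlock M B := hF.1.1.2.1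
  haveI : Q.Normal := Subgroup.normalizer_eq_top_iff.1
    (eq_top_iff.2 fun x _ => (hG x).1)
  have hpair := (hsle.pairOf_iff (S₀ := Cfsg.Agent.BrauerPairs.blockSysTop M) (B := ⟨B, hB⟩)).1
    (Cfsg.Agent.BrauerPairs.maxPair_of (e := ⟨e, hmax.1.1.2⟩) hF.1).1
  have hst : ∀ x : G, x ∈ Cfsg.Agent.BrauerPairs.stab
      (⟨Q, ⟨f, hf⟩⟩ : Cfsg.Agent.BrauerPairs.PairIdx M G) := fun x =>
    (Cfsg.Agent.BrauerPairs.mem_stab_iff_stabilizesBlock
      (⟨f, hf⟩ : Cfsg.Agent.BrauerPairs.Blk M _) x).2 (hG x)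
  constructor
  · intro g
    have h1 : Cfsg.Agent.BrauerPairs.orbitIdx (Cfsg.Agent.BrauerPairs.pairSys M G) Q ⟨f, hf⟩
        = {⟨f, hf⟩} := by
      refine Finset.eq_singleton_iff_unique_mem.2
        ⟨Cfsg.Agent.BrauerPairs.self_mem_orbitIdx _ _, fun j hj => ?_⟩
      obtain ⟨x, -, hx⟩ := Cfsg.Agent.BrauerPairs.mem_orbitIdx.1 hj
      exact (Cfsg.Agent.BrauerPairs.pairSys M G Q).idem_injective (hx.trans (hst x).2)
    rw [Cfsg.Agent.BrauerPairs.blockCoeff_eq_orbit_sum (B := ⟨B, hB⟩) hpair g, h1,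
      Finset.sum_singleton, sub_self]
    exact Cfsg.Agent.Block.memLocalIdeal_zero
  · obtain ⟨E, hE, hEc⟩ := Cfsg.Agent.BrauerPairs.exists_blk_stab
      (a := (⟨Q, ⟨f, hf⟩⟩ : Cfsg.Agent.BrauerPairs.PairIdx M G)) hQp
      (T := Q ⊔ Subgroup.centralizer (Q : Set G)) le_sup_right le_sup_left (fun x _ => hst x)
    exact ⟨E.1, E.2, hEc, isNilpotentBlock_sup hQp ⟨f, hf⟩
      ((Cfsg.Agent.BrauerPairs.isCentric_iff (e := ⟨e, hmax.1.1.2⟩) (f := ⟨f, hf⟩) hF hsle).1 hcen)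
      E hE⟩

end Cfsg.Agent.S4693
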