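import Cfsg.Statements.S4696
import Cfsg.Agent.BlockCount.CyclicMain

set_option autoImplicit false
open Cfsg

namespace Cfsg.Agent.S4696

/-- Let p be a prime, M a maximal ideal of the algebraic integers containing p, and B a p-block of the finite group G whose defect group D is cyclic of order p^a with a ≥ 1. Let C = C_G(D), let b be a block of C inducing B, let T be the stabilizer of b in N_G(D) (the elements g of N_G(D) such that the g-conjugate of every member of b is again in b), and let e be the index of C in T (the inertial index of B). Then e divides p − 1, every irreducible character in B has height zero, and B is the disjoint union of a set X of e characters and a set Y of (p^a − 1)/e characters, the members of Y agreeing on p-regular elements, for which there are signs δ_χ = ±1 (χ ∈ X) and δ₀ = ±1 such that: for every ψ ∈ Y and every p-regular g, δ₀ ψ(g) + Σ_{χ ∈ X} δ_χ χ(g) = 0; for all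 χ, χ' ∈ X the integers δ_χ χ(1) and δ_χ' χ'(1) are congruent modulo p^a; and for ψ ∈ Y and χ ∈ X, ψ(1) ≡ −e δ₀ δ_χ χ(1) modulo p^a. -/
theorem result {G : Type*} [Group G] [Finite G] (p : ℕ) [Fact p.Prime] (M : Ideal Cfsg.AlgInt) (hM : Cfsg.IsPModular p M) (D : Subgroup G) (hD : IsCyclic D) (a : ℕ) (ha : 1 ≤ a) (hDa : Nat.card D = p ^ a) (B : Set (Cfsg.IrrCharacter G)) (hB : Cfsg.IsPBlock M B) (hBD : Cfsg.IsDefectGroup p M B D) (b : Set (Cfsg.IrrCharacter (Subgroup.centralizer (D : Set G)))) (hind : Cfsg.IsInducedBlock M (Subgroup.centralizer (D : Set G)) b B) (T : Subgroup G) (hT : ∀ g : G, g ∈ T ↔ (g ∈ Subgroup.normalizer (D : Set G) ∧ ∀ θ ∈ b, ∀ θ' : Cfsg.IrrCharacter (Subgroup.centralizer (D : Set G)), (∀ h h' : Subgroup.centralizer (D : Set G), (h' : G) = g * h * g⁻¹ → (θ' : Subgroup.centralizer (D : Set G) → ℂ) h' = (θ : Subgroup.centralizer (D : Set G) → ℂ) h) → θ' ∈ b)) (e : ℕ) (he : (Subgroup.centralizer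 (D : Set G)).relIndex T = e) : e ∣ p - 1 ∧ (∀ χ ∈ B, Cfsg.blockHeight p B (χ : G → ℂ) = 0) ∧ ∃ X Y : Set (Cfsg.IrrCharacter G), B = X ∪ Y ∧ Disjoint X Y ∧ Nat.card X = e ∧ Nat.card Y = (p ^ a - 1) / e ∧ (∀ ψ ∈ Y, ∀ ψ' ∈ Y, ∀ g : G, ¬ p ∣ orderOf g → (ψ : G → ℂ) g = (ψ' : G → ℂ) g) ∧ ∃ (δ : Cfsg.IrrCharacter G → ℤ) (δ₀ : ℤ), (∀ χ ∈ X, δ χ = 1 ∨ δ χ = -1) ∧ (δ₀ = 1 ∨ δ₀ = -1) ∧ (∀ ψ ∈ Y, ∀ g : G, ¬ p ∣ orderOf g → (δ₀ : ℂ) * (ψ : G → ℂ) g + ∑ᶠ χ ∈ X, (δ χ : ℂ) * (χ : G → ℂ) g = 0) ∧ (∀ χ ∈ X, ∀ χ' ∈ X, δ χ * (Cfsg.charDegree (χ : G → ℂ) : ℤ) ≡ δ χ' * (Cfsg.charDegree (χ' : G → ℂ) : ℤ) [ZMOD (p : ℤ) ^ a]) ∧ (∀ ψ ∈ Y, ∀ χ ∈ X, (Cfsg.charDegree (ψ : G → ℂ) : ℤ) ≡ -((e : ℤ) * δ₀ * δ χ * (Cfsg.charDegree (χ : G → ℂ) : ℤ)) [ZMOD (p : ℤ) ^ a]) := by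
  classical
  haveI : M.IsPrime := Cfsg.Agent.Block.isPrime_of_isPModular hM
  haveI := Cfsg.Agent.Block.charP_resF hM
  haveI := Fintype.ofFinite G
  obtain ⟨K, rfl, rfl, hrel⟩ := BlockCount.exists_cycData hM hD ha hDa hB hBD hind hT
  obtain ⟨m, y, s, s₀, hm, hem, hy, hyB, hs, hs₀, hX, hreg, hcX, hcY, -⟩ := K.exists_structure
  rw [← hrel, he] at hem hX
  have hep : e ∣ p - 1 := he ▸ hrel ▸ K.card_E_dvd
  have he0 : 0 < e := Nat.pos_of_ne_zero fun h => by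
    have h2 := Nat.one_lt_pow (by omega : K.b ≠ 0) (Fact.out : p.Prime).one_lt
    rw [h, zero_mul] at hem; omega
  set N := (Nat.card G).factorization p
  have haN : K.b ≤ N := by
    have h := Subgroup.card_subgroup_dvd_card D
    rw [hDa] at h
    exact ((Fact.out : p.Prime).pow_dvd_iff_le_factorization Nat.card_pos.ne').1 h
  have hdvd : ∀ {z : ℤ}, (p : ℤ) ^ N ∣ z → (p : ℤ) ^ K.b ∣ z :=
    fun h => (pow_dvd_pow _ haN).trans h
  refine ⟨hep, ?_, {χ | χ ∈ K.β.1 ∧ ∀ i, y i ≠ χ}, Set.range y, ?_, ?_, hX, ?_, ?_,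
    s, s₀, fun χ _ => hs χ, hs₀, ?_, ?_, ?_⟩
  · -- heights
    have hm_p : ¬ (p : ℤ) ∣ (m : ℤ) := fun h => by
      have h1 : p ∣ e * m + 1 := hem ▸ dvd_pow_self p (by omega)
      have h2 : p ∣ e * m := dvd_mul_of_dvd_right (Int.natCast_dvd_natCast.1 h) _
      exact (Fact.out : p.Prime).not_dvd_one ((Nat.dvd_add_right h2).1 h1)
    obtain ⟨χ₀, hχ₀, h0⟩ := BlockVal.exists_height_zero (p := p) (Block.pBlock_nonempty K.β.2)
    set v := (charDegree (χ₀ : G → ℂ)).factorization p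
    have hv : v < N := by
      have h1 := Block.card_isDefectGroup K.isPModular K.β.2 hBD
      rw [hDa] at h1
      have h2 := Nat.pow_right_injective (Fact.out : p.Prime).two_le h1
      rw [BlockVal.blockDefect_eq hχ₀ h0] at h2
      omega
    have hstep : ∀ {c d : ℕ} {σ τ : ℤ}, c ≠ 0 → d ≠ 0 → ¬ (p : ℤ) ∣ σ → ¬ (p : ℤ) ∣ τ →
        (p : ℤ) ^ N ∣ σ * c - τ * d → c.factorization p = v → d.factorization p = v := by
      intro c d σ τ hc hd hσ hτ hdiv hcv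
      have hpp : Prime (p : ℤ) := Nat.prime_iff_prime_int.1 Fact.out
      have key : ∀ j, j ≤ N → ((p : ℤ) ^ j ∣ (c : ℤ) ↔ (p : ℤ) ^ j ∣ (d : ℤ)) := by
        intro j hj
        have hj' := (pow_dvd_pow (p : ℤ) hj).trans hdiv
        constructor
        · intro h
          have h3 : (p : ℤ) ^ j ∣ τ * d := by
            have := dvd_sub (dvd_mul_of_dvd_right h σ) hj'
            simpa using this
          exact hpp.pow_dvd_of_dvd_mul_left _ hτ h3
        · intro h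
          have h3 : (p : ℤ) ^ j ∣ σ * c := by
            have := dvd_add hj' (dvd_mul_of_dvd_right h τ)
            simpa using this
          exact hpp.pow_dvd_of_dvd_mul_left _ hσ h3
      have hiff : ∀ j, j ≤ N → (j ≤ v ↔ j ≤ d.factorization p) := by
        intro j hj
        rw [← hcv, ← (Fact.out : p.Prime).pow_dvd_iff_le_factorization hc,
          ← (Fact.out : p.Prime).pow_dvd_iff_le_factorization hd]
        have := key j hj
        exact_mod_cast this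
      have := hiff v hv.le
      have := hiff (v + 1) hv
      omega
    have hdeg : ∀ χ : IrrCharacter G, charDegree (χ : G → ℂ) ≠ 0 :=
      fun χ => (BlockVal.irr_one_eq_charDegree χ).2
    have hsu : ∀ {σ : ℤ}, (σ = 1 ∨ σ = -1) → ¬ (p : ℤ) ∣ σ := by
      intro σ h hd
      have h1 : (p : ℤ) ∣ 1 := by rcases h with rfl | rfl <;> simpa using hd
      exact (Fact.out : p.Prime).not_dvd_one (by exact_mod_cast h1)
    have hms : ¬ (p : ℤ) ∣ (m : ℤ) * s₀ := fun h =>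
      ((Nat.prime_iff_prime_int.1 Fact.out).dvd_mul.1 h).elim hm_p (hsu hs₀)
    obtain ⟨χ₁, hχ₁, hχ₁y⟩ : ∃ χ₁, χ₁ ∈ K.β.1 ∧ ∀ i, y i ≠ χ₁ := by
      haveI : Nonempty {χ : IrrCharacter G | χ ∈ K.β.1 ∧ ∀ i, y i ≠ χ} :=
        (Nat.card_pos_iff.1 (by omega)).1
      obtain ⟨χ, hχ⟩ := Classical.arbitrary {χ : IrrCharacter G | χ ∈ K.β.1 ∧ ∀ i, y i ≠ χ}
      exact ⟨χ, hχ⟩
    have h1 : (charDegree (χ₁ : G → ℂ)).factorization p = v := by
      by_cases hk : ∀ i, y i ≠ χ₀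
      · exact hstep (hdeg _) (hdeg _) (hsu (hs _)) (hsu (hs _)) (hcX χ₀ hχ₀ hk χ₁ hχ₁ hχ₁y) rfl
      · push Not at hk
        obtain ⟨i, rfl⟩ := hk
        exact hstep (hdeg _) (hdeg _) hms (hsu (hs _)) (dvd_sub_comm.1 (hcY χ₁ hχ₁ hχ₁y i)) rfl
    intro χ hχ
    have h2 : (charDegree (χ : G → ℂ)).factorization p = v := by
      by_cases hk : ∀ i, y i ≠ χ
      · exact hstep (hdeg _) (hdeg _) (hsu (hs _)) (hsu (hs _)) (hcX χ₁ hχ₁ hχ₁y χ hχ hk) h1
      · push Not at hk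
        obtain ⟨i, rfl⟩ := hk
        exact hstep (hdeg _) (hdeg _) (hsu (hs _)) hms (hcY χ₁ hχ₁ hχ₁y i) h1
    rw [blockHeight, h2]
    exact h0
  · ext χ
    constructor
    · intro hχ
      by_cases hk : ∀ i, y i ≠ χ
      · exact Or.inl ⟨hχ, hk⟩
      · push Not at hk
        exact Or.inr hk
    · rintro (h | ⟨i, rfl⟩)
      · exact h.1
      · exact hyB i
  · rw [Set.disjoint_right]
    rintro _ ⟨i, rfl⟩ h
    exact h.2 i rfl
  · rw [Nat.card_range_of_injective hy, Nat.card_fin, ← hem, Nat.add_sub_cancel,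
      Nat.mul_div_cancel_left _ he0]
  · rintro _ ⟨i, rfl⟩ _ ⟨j, rfl⟩ g hg
    have h := (hreg i g hg).trans (hreg j g hg).symm
    rw [add_left_inj] at h
    refine mul_left_cancel₀ ?_ h
    rcases hs₀ with h | h <;> simp [h]
  · rintro _ ⟨i, rfl⟩ g hg
    rw [finsum_mem_eq_toFinset_sum]
    refine Eq.trans ?_ (hreg i g hg)
    congr 1
    exact Finset.sum_congr (by ext; simp) fun _ _ => rfl
  · intro χ hχ χ' hχ'
    exact (Int.modEq_iff_dvd.2 (hdvd (hcX χ' hχ'.1 hχ'.2 χ hχ.1 hχ.2)))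
  · rintro _ ⟨i, rfl⟩ χ hχ
    rw [Int.modEq_iff_dvd]
    have h1 : (p : ℤ) ^ K.b ∣ (e : ℤ) * m + 1 := by exact_mod_cast dvd_of_eq hem.symm
    have h2 := dvd_add ((hdvd (hcY χ hχ.1 hχ.2 i)).mul_left ((e : ℤ) * s₀))
      (h1.mul_right (charDegree (y i : G → ℂ) : ℤ))
    have hss : s₀ * s₀ = 1 := by rcases hs₀ with h | h <;> simp [h]
    rw [show -((e : ℤ) * s₀ * s χ * (charDegree (χ : G → ℂ) : ℤ)) - (charDegree (y i : G → ℂ) : ℤ) =
      -((e : ℤ) * s₀ * (s χ * (charDegree (χ : G → ℂ) : ℤ) -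
          (m : ℤ) * s₀ * (charDegree (y i : G → ℂ) : ℤ)) +
        ((e : ℤ) * m + 1) * (charDegree (y i : G → ℂ) : ℤ)) by
      linear_combination (-(e : ℤ) * m * (charDegree (y i : G → ℂ) : ℤ)) * hss]
    exact h2.neg_right

end Cfsg.Agent.S4696
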