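import Cfsg.Statements.S4699
import Cfsg.Agent.CyclicTI.TraceOps

set_option autoImplicit false
open Cfsg

namespace Cfsg.Agent.S4699

open Cfsg.Agent.CyclicTI Polynomial

/-- Let p be a prime and G a finite group whose Sylow p-subgroup P is cyclic of order p^n with n ≥ 2 and meets every other Sylow p-subgroup trivially. Then every faithful irreducible representation of G on a finite-dimensional space over a finite field of characteristic p has dimension at least p^n − (p − 1). -/
theorem result {G : Type*} [Group G] [Finite G] (p : ℕ) [Fact p.Prime] (P : Sylow p G) (hcyc : IsCyclic P) (n : ℕ) (hn : 2 ≤ n) (hPn : Nat.card P = p ^ n) (hTI : ∀ Q : Sylow p G, Q ≠ P → (P : Subgroup G) ⊓ (Q : Subgroup G) = ⊥) (F : Type*) [Field F] [Finite F] [CharP F p] (V : Type*) [AddCommGroup V] [Module F V] [FiniteDimensional F V] (ρ : Representation F G V) (hfaith : Function.Injective ρ) (hirr : ρ.IsIrreducible) : p ^ n - (p - 1) ≤ Module.finrank F V := by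
  classical
  by_contra hlt
  push Not at hlt
  have hprime : p.Prime := Fact.out
  set q := p ^ n with hq
  set D := Module.finrank F V with hD
  have hp1q : p - 1 < q := by
    calc p - 1 < p := by have := hprime.pos; omega
      _ ≤ p ^ n := Nat.le_self_pow (by omega) p
  obtain ⟨g₀, hg₀⟩ := hcyc.exists_generator
  set g : G := (g₀ : G) with hg
  have hord : orderOf g = q := by
    rw [hg, Subgroup.orderOf_coe, orderOf_eq_card_of_forall_mem_zpowers hg₀]; exact hPn
  have hgP : ∀ y ∈ (P : Subgroup G), ∃ a : ℕ, g ^ a = y := by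
    intro y hy
    obtain ⟨a, ha⟩ := ((isOfFinOrder_of_finite g₀).mem_powers_iff_mem_zpowers).mpr (hg₀ ⟨y, hy⟩)
    exact ⟨a, by simpa using congrArg (Subtype.val) ha⟩
  set u : Module.End F V := ρ g with hu
  set T : Module.End F V := u - 1 with hT
  have hTq : T ^ q = 0 := by
    have h := congrArg (fun f : F[X] => aeval u f)
      (sub_pow_char_pow (p := p) (n := n) (X : F[X]) 1)
    simp only [map_pow, map_sub, aeval_X, map_one, one_pow] at h
    rw [hT, hq, h, hu, ← map_pow, ← hq, ← hord, pow_orderOf_eq_one, map_one, sub_self]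
  have hTj : T ^ (p - 1) ≠ 0 := by
    intro h0
    have h1 : T ^ (p ^ (n - 1)) = 0 := by
      refine pow_eq_zero_of_le ?_ h0
      calc p - 1 ≤ p := Nat.sub_le _ _
        _ ≤ p ^ (n - 1) := Nat.le_self_pow (by omega) p
    have h := congrArg (fun f : F[X] => aeval u f)
      (sub_pow_char_pow (p := p) (n := n - 1) (X : F[X]) 1)
    simp only [map_pow, map_sub, aeval_X, map_one, one_pow] at h
    rw [← hT, h1, hu, ← map_pow, eq_comm, sub_eq_zero, ← map_one ρ] at h
    have h2 : g ^ p ^ (n - 1) = 1 := hfaith h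
    have h3 : q ∣ p ^ (n - 1) := hord ▸ orderOf_dvd_of_pow_eq_one h2
    have := (Nat.pow_dvd_pow_iff_le_right hprime.one_lt).mp h3
    omega
  have hTD : T ^ D = 0 := by
    have hc := LinearMap.aeval_self_charpoly T
    rw [IsNilpotent.charpoly_eq_X_pow_finrank (φ := T) ⟨q, hTq⟩] at hc
    simpa using hc
  set m := q - D with hm
  have hjm : p - 1 < m := by omega
  set u' : Module.End F V := ρ g⁻¹ with hu'
  have huu' : u * u' = 1 := by rw [hu, hu', ← map_mul, mul_inv_cancel, map_one]
  have hu'u : u' * u = 1 := by rw [hu, hu', ← map_mul, inv_mul_cancel, map_one]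
  -- the orbit of `g` under the normalizer of `P`
  set N : Subgroup G := Subgroup.normalizer ((P : Subgroup G) : Set G) with hN
  have hconjP : ∀ h ∈ N, ∀ y ∈ (P : Subgroup G), h * y * h⁻¹ ∈ (P : Subgroup G) :=
    fun h hh y hy => ((Subgroup.mem_set_normalizer_iff.mp hh) y).mp hy
  have hgmem : g ∈ (P : Subgroup G) := g₀.2
  let ex : G → ℕ := fun y => if hy : y ∈ (P : Subgroup G) then Classical.choose (hgP y hy) else 0
  have hex : ∀ y ∈ (P : Subgroup G), g ^ ex y = y := by
    intro y hy
    simp only [ex, dif_pos hy]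
    exact Classical.choose_spec (hgP y hy)
  have hcast : ∀ a b : ℕ, g ^ a = g ^ b → (a : F) = (b : F) := by
    intro a b hab
    rw [pow_eq_pow_iff_modEq, hord] at hab
    exact (CharP.natCast_eq_natCast F p).mpr
      (Nat.ModEq.of_dvd (dvd_pow_self p (by omega : n ≠ 0)) hab)
  let w : G → F := fun y => (ex y : F)
  have hwconj : ∀ h ∈ N, ∀ y ∈ (P : Subgroup G), w (h * y * h⁻¹) = w (h * g * h⁻¹) * w y := by
    intro h hh y hy
    show (ex _ : F) = (ex _ : F) * (ex y : F)
    rw [← Nat.cast_mul]
    apply hcast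
    rw [hex _ (hconjP h hh y hy), pow_mul, hex _ (hconjP h hh g hgmem), conj_pow, hex y hy]
  have hwne : ∀ h ∈ N, w (h * g * h⁻¹) ≠ 0 := by
    intro h hh h0
    have := hwconj h⁻¹ (inv_mem hh) (h * g * h⁻¹) (hconjP h hh g hgmem)
    rw [h0, mul_zero] at this
    have h1 : w g = 1 := by
      show ((ex g : ℕ) : F) = 1
      rw [← Nat.cast_one]
      exact hcast _ _ (by rw [hex g hgmem, pow_one])
    have e : h⁻¹ * (h * g * h⁻¹) * h⁻¹⁻¹ = g := by group
    rw [e, h1] at this
    exact one_ne_zero this
  -- the orbit as a finset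
  haveI := Fintype.ofFinite G
  let φN : ↥N → G := fun h => (h : G) * g * (h : G)⁻¹
  let O : Finset G := Finset.univ.image φN
  have hOP : ∀ y ∈ O, y ∈ (P : Subgroup G) ∧ w y ≠ 0 := by
    intro y hy
    obtain ⟨h, -, rfl⟩ := Finset.mem_image.mp hy
    exact ⟨hconjP h h.2 g hgmem, hwne h h.2⟩
  have hcardO : ¬ p ∣ O.card := by
    let C : Subgroup ↥N := (Subgroup.centralizer ({g} : Set G)).subgroupOf N
    have hPN : (P : Subgroup G) ≤ N := Subgroup.le_normalizer
    have hPC : ((P : Subgroup G).subgroupOf N) ≤ C := by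
      intro x hx
      simp only [C, Subgroup.mem_subgroupOf, Subgroup.mem_centralizer_singleton_iff] at hx ⊢
      obtain ⟨a, ha⟩ := hgP _ hx
      rw [← ha, ← pow_succ', ← pow_succ]
    have hOcard : O.card = C.index := by
      rw [Subgroup.index, ← Nat.card_eq_finsetCard]
      refine Nat.card_eq_of_bijective
        (f := fun y : {y // y ∈ O} =>
          (QuotientGroup.mk (Classical.choose (Finset.mem_image.mp y.2)) : ↥N ⧸ C)) ⟨?_, ?_⟩
      · intro y₁ y₂ hy
        have e1 := (Classical.choose_spec (Finset.mem_image.mp y₁.2)).2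
        have e2 := (Classical.choose_spec (Finset.mem_image.mp y₂.2)).2
        have hy' := QuotientGroup.eq.mp hy
        simp only [C, Subgroup.mem_subgroupOf, Subgroup.mem_centralizer_singleton_iff,
          Subgroup.coe_mul, Subgroup.coe_inv] at hy'
        apply Subtype.ext
        rw [← e1, ← e2]
        simp only [φN]
        generalize ((Classical.choose (Finset.mem_image.mp y₁.2) : ↥N) : G) = a at hy' ⊢
        generalize ((Classical.choose (Finset.mem_image.mp y₂.2) : ↥N) : G) = b at hy' ⊢
        calc a * g * a⁻¹ = a * (g * (a⁻¹ * b)) * b⁻¹ := by group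
          _ = a * ((a⁻¹ * b) * g) * b⁻¹ := by rw [hy']
          _ = b * g * b⁻¹ := by group
      · intro c
        induction c using QuotientGroup.induction_on with
        | H h =>
          have hmem : φN h ∈ O := Finset.mem_image.mpr ⟨h, Finset.mem_univ _, rfl⟩
          refine ⟨⟨φN h, hmem⟩, ?_⟩
          apply QuotientGroup.eq.mpr
          have e := (Classical.choose_spec (Finset.mem_image.mp hmem)).2
          simp only [φN] at e
          simp only [C, Subgroup.mem_subgroupOf, Subgroup.mem_centralizer_singleton_iff,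
            Subgroup.coe_mul, Subgroup.coe_inv]
          generalize ((Classical.choose (Finset.mem_image.mp hmem) : ↥N) : G) = a at e ⊢
          generalize (h : G) = b at e ⊢
          calc a⁻¹ * b * g = a⁻¹ * (b * g * b⁻¹) * b := by group
            _ = a⁻¹ * (a * g * a⁻¹) * b := by rw [e]
            _ = g * (a⁻¹ * b) := by group
    rw [hOcard]
    intro hdvd
    have hdvd' := hdvd.trans (Subgroup.index_dvd_of_le hPC)
    haveI : ((P.subtype hPN : Sylow p ↥N) : Subgroup ↥N).Normal := by
      rw [Sylow.coe_subtype]; exact Subgroup.normal_in_normalizer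
    exact (P.subtype hPN).not_dvd_index (by rwa [Sylow.coe_subtype])
  let t : Module.End F V := ∑ y ∈ O, (w y)⁻¹ • (ρ y - 1)
  have htconj : ∀ h ∈ N, ρ h * t = w (h * g * h⁻¹) • (t * ρ h) := by
    intro h hh
    simp only [t, Finset.mul_sum, Finset.sum_mul, Finset.smul_sum]
    refine Finset.sum_equiv (MulAut.conj h).toEquiv ?_ ?_
    · intro y
      simp only [O, φN, Finset.mem_image, Finset.mem_univ, true_and, MulEquiv.toEquiv_eq_coe,
        MulEquiv.coe_toEquiv, MulAut.conj_apply]
      constructor
      · rintro ⟨k, rfl⟩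
        exact ⟨⟨h * k, mul_mem hh k.2⟩, by simp only; group⟩
      · rintro ⟨k, hk⟩
        refine ⟨⟨h⁻¹ * k, mul_mem (inv_mem hh) k.2⟩, ?_⟩
        simp only
        calc h⁻¹ * ↑k * g * (h⁻¹ * ↑k)⁻¹ = h⁻¹ * (↑k * g * (↑k)⁻¹) * h := by group
          _ = h⁻¹ * (h * y * h⁻¹) * h := by rw [hk]
          _ = y := by group
    · intro y hy
      simp only [MulEquiv.toEquiv_eq_coe, MulEquiv.coe_toEquiv, MulAut.conj_apply]
      rw [hwconj h hh y (hOP y hy).1, mul_inv, smul_mul_assoc, mul_smul_comm, smul_smul,
        ← mul_assoc, mul_inv_cancel₀ (hwne h hh), one_mul, mul_sub, sub_mul, mul_one, one_mul,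
        ← map_mul, ← map_mul, inv_mul_cancel_right]
  have htpow : ∀ h ∈ N, ∀ j : ℕ, ρ h * t ^ j = w (h * g * h⁻¹) ^ j • (t ^ j * ρ h) := by
    intro h hh j
    induction j with
    | zero => simp
    | succ j ih =>
      rw [pow_succ t, ← mul_assoc, ih, smul_mul_assoc, mul_assoc (t ^ j) (ρ h) t, htconj h hh,
        mul_smul_comm, smul_smul, ← pow_succ, ← mul_assoc]
  set s : Module.End F V := t ^ (p - 1) with hs
  have hscomm : ∀ h ∈ N, ρ h * s = s * ρ h := by
    intro h hh
    have h1 : w (h * g * h⁻¹) ^ (p - 1) = 1 := by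
      have hne := hwne h hh
      simp only [w] at hne ⊢
      have hz : (ex (h * g * h⁻¹) : ZMod p) ≠ 0 := fun h0 =>
        hne (by rw [← map_natCast (ZMod.castHom dvd_rfl F), h0, map_zero])
      rw [← map_natCast (ZMod.castHom dvd_rfl F), ← map_pow, ZMod.pow_card_sub_one_eq_one hz,
        map_one]
    rw [hs, htpow h hh, h1, one_smul]
  -- `t` is `T` times a unit
  choose Q hQ using fun a : ℕ => sq_dvd_add_one_pow (F := F) a
  let Qs : F[X] := ∑ y ∈ O, C (w y)⁻¹ * Q (ex y)
  have ht : t = aeval T ((C (O.card : F) + X * Qs) * X) := by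
    have hY : ∀ y ∈ O, (w y)⁻¹ • (ρ y - 1) = aeval T (X + X ^ 2 * (C (w y)⁻¹ * Q (ex y))) := by
      intro y hy
      have h1 : ρ y - 1 = aeval T (((X : F[X]) + 1) ^ ex y - 1) := by
        simp only [map_sub, map_pow, map_add, aeval_X, map_one, hT, sub_add_cancel, hu,
          ← map_pow ρ, hex y (hOP y hy).1]
      have h2 : C (w y)⁻¹ * ((ex y : F[X]) * X) = X := by
        rw [← mul_assoc, ← map_natCast (C : F →+* F[X]), ← C_mul]
        rw [inv_mul_cancel₀ (hOP y hy).2, C_1, one_mul]
      rw [h1, ← map_smul, smul_eq_C_mul, hQ, mul_add, h2]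
      congr 1; ring
    simp only [t]
    rw [Finset.sum_congr rfl hY, ← map_sum, Finset.sum_add_distrib, Finset.sum_const,
      ← Finset.mul_sum]
    congr 1
    rw [nsmul_eq_mul, map_natCast]
    ring
  have hTaeval : ∀ R : F[X], Commute T (aeval T R) := fun R => by
    have h := (Commute.all (X : F[X]) R).map (aeval T)
    rwa [aeval_X] at h
  set U : Module.End F V := aeval T (C (O.card : F) + X * Qs) with hU
  have hUunit : IsUnit U := by
    rw [hU, map_add, map_mul, aeval_X, aeval_C]
    have hc : (O.card : F) ≠ 0 := by rw [Ne, CharP.cast_eq_zero_iff F p]; exact hcardO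
    have hcomm : Commute T (aeval T Qs) := hTaeval Qs
    exact IsNilpotent.isUnit_add_left_of_commute (hcomm.isNilpotent_mul_right ⟨q, hTq⟩)
      (((isUnit_iff_ne_zero.mpr hc)).map (algebraMap F (Module.End F V)))
      (Algebra.commute_algebraMap_right _ _)
  have hsU : s = U ^ (p - 1) * T ^ (p - 1) := by
    rw [hs, ht, map_mul, aeval_X, ← hU, Commute.mul_pow]
    exact hU ▸ (hTaeval _).symm
  -- the relative trace
  let f : G ⧸ N → Module.End F V := fun c => ρ c.out * s * ρ (c.out)⁻¹
  have hf : ∀ x : G, f (QuotientGroup.mk x) = ρ x * s * ρ x⁻¹ := by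
    intro x
    obtain ⟨h, hh⟩ := QuotientGroup.mk_out_eq_mul N x
    simp only [f, hh, mul_inv_rev, map_mul]
    calc ρ x * ρ (h : G) * s * (ρ (h : G)⁻¹ * ρ x⁻¹)
        = ρ x * (ρ (h : G) * s) * ρ (h : G)⁻¹ * ρ x⁻¹ := by simp only [mul_assoc]
      _ = ρ x * s * (ρ (h : G) * ρ (h : G)⁻¹) * ρ x⁻¹ := by
          rw [hscomm _ h.2]; simp only [mul_assoc]
      _ = _ := by rw [← map_mul, mul_inv_cancel, map_one, mul_one]
  have hfeq : ∀ (y : G) (c : G ⧸ N), f (y • c) = ρ y * f c * ρ y⁻¹ := by
    intro y c
    induction c using QuotientGroup.induction_on with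
    | H x =>
      rw [MulAction.Quotient.smul_mk, hf, hf, smul_eq_mul, mul_inv_rev, map_mul, map_mul]
      simp only [mul_assoc]
  haveI : Fintype (G ⧸ N) := Fintype.ofFinite _
  set Φ : Module.End F V := ∑ c : G ⧸ N, f c with hΦ
  have hΦcomm : ∀ y : G, ρ y * Φ = Φ * ρ y := by
    intro y
    have h1 : ρ y * Φ * ρ y⁻¹ = Φ := by
      rw [hΦ, Finset.mul_sum, Finset.sum_mul]
      simp only [← hfeq]
      exact Equiv.sum_comp (MulAction.toPerm y) f
    conv_rhs => rw [← h1]
    rw [mul_assoc _ (ρ y⁻¹), ← map_mul, inv_mul_cancel, map_one, mul_one]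
  -- the orbits of `P` off the trivial coset are regular
  let one : G ⧸ N := QuotientGroup.mk 1
  have hgone : g • one = one := by
    rw [MulAction.Quotient.smul_mk, QuotientGroup.eq]
    simpa [hN] using inv_mem (Subgroup.le_normalizer hgmem)
  have hfree : ∀ c : G ⧸ N, c ≠ one → ∀ y ∈ (P : Subgroup G), y • c = c → y = 1 := by
    intro c hc y hy hyc
    induction c using QuotientGroup.induction_on with
    | H x =>
      rw [MulAction.Quotient.smul_mk, QuotientGroup.eq] at hyc
      have hxN : x ∉ N := fun hx => hc (QuotientGroup.eq.mpr (by simpa using inv_mem hx))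
      have h1 : x⁻¹ * y * x ∈ N := by
        have := inv_mem hyc
        simpa [smul_eq_mul, mul_assoc] using this
      have h2 : x⁻¹ * y * x ∈ (P : Subgroup G) := by
        obtain ⟨k, hk⟩ := P.isPGroup' ⟨y, hy⟩
        have hp2 : IsPGroup p (Subgroup.zpowers (x⁻¹ * y * x)) := by
          intro z
          obtain ⟨z, i, rfl⟩ := z
          refine ⟨k, Subtype.ext ?_⟩
          have hk' : y ^ p ^ k = 1 := by simpa using congrArg Subtype.val hk
          have e : x⁻¹ * y * x = x⁻¹ * y * x⁻¹⁻¹ := by group
          show ((x⁻¹ * y * x) ^ i) ^ p ^ k = 1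
          rw [← zpow_natCast, ← zpow_mul, mul_comm, zpow_mul, zpow_natCast, e, conj_pow, hk']
          simp
        have := hp2.inf_normalizer_sylow P
        exact (this.le (Subgroup.mem_inf.mpr ⟨Subgroup.mem_zpowers _, h1⟩) :
          x⁻¹ * y * x ∈ Subgroup.zpowers _ ⊓ (P : Subgroup G)).2
      have hQ : x • P ≠ P := fun h => hxN (Sylow.smul_eq_iff_mem_normalizer.mp h)
      have h3 : y ∈ ((x • P : Sylow p G) : Subgroup G) := by
        rw [Sylow.coe_subgroup_smul]
        refine Subgroup.mem_pointwise_smul_iff_inv_smul_mem.mpr ?_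
        rw [← map_inv, MulAut.smul_def, MulAut.conj_apply, inv_inv]; exact h2
      have h4 := hTI (x • P) hQ
      have : y ∈ (P : Subgroup G) ⊓ ((x • P : Sylow p G) : Subgroup G) := ⟨hy, h3⟩
      rw [h4] at this
      exact this
  have horb : ∀ (v : V), (T ^ m) v = 0 → ∀ S : Finset (G ⧸ N), one ∉ S →
      (∀ c ∈ S, g • c ∈ S) → (∑ c ∈ S, f c) v = 0 := by
    intro v hv S
    induction S using Finset.strongInduction with
    | H S ih =>
      intro h1 hS
      rcases S.eq_empty_or_nonempty with rfl | ⟨c, hc⟩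
      · simp
      have hcone : c ≠ one := fun h => h1 (h ▸ hc)
      let e : ℕ → G ⧸ N := fun i => g ^ i • c
      have heS : ∀ i, e i ∈ S := by
        intro i
        induction i with
        | zero => simpa [e] using hc
        | succ i ih' =>
          have := hS _ ih'
          simpa [e, pow_succ', mul_smul] using this
      have hinj' : ∀ i j, i ≤ j → j < q → e i = e j → i = j := by
        intro i j hle hj hij
        have h5 : g ^ (j - i) • c = c := by
          have h6 : g ^ i • g ^ (j - i) • c = g ^ i • c := by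
            rw [← mul_smul, ← pow_add, Nat.add_sub_cancel' hle]; exact hij.symm
          exact MulAction.injective _ h6
        have h7 := hfree c hcone _ (pow_mem hgmem _) h5
        have h8 := orderOf_dvd_of_pow_eq_one h7
        rw [hord] at h8
        have := Nat.eq_zero_of_dvd_of_lt h8 (by omega)
        omega
      have hinj : Set.InjOn e (Finset.range q : Set ℕ) := by
        intro i hi j hj hij
        simp only [Finset.coe_range, Set.mem_Iio] at hi hj
        rcases le_total i j with hle | hle
        · exact hinj' i j hle hj hij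
        · exact (hinj' j i hle hi hij.symm).symm
      let Orb := (Finset.range q).image e
      have hsub : Orb ⊆ S := by
        intro d hd
        obtain ⟨i, -, rfl⟩ := Finset.mem_image.mp hd
        exact heS i
      have hqpos : 0 < q := by omega
      have hOrbne : Orb.Nonempty := ⟨e 0, Finset.mem_image.mpr ⟨0, Finset.mem_range.mpr hqpos, rfl⟩⟩
      have hgq : g ^ q = 1 := hord ▸ pow_orderOf_eq_one g
      have hinv : ∀ d, g • d ∈ Orb → d ∈ Orb := by
        intro d hd
        obtain ⟨i, hi, hid⟩ := Finset.mem_image.mp hd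
        refine Finset.mem_image.mpr ⟨(i + (q - 1)) % q, Finset.mem_range.mpr (Nat.mod_lt _ hqpos), ?_⟩
        have e1 : g ^ ((i + (q - 1)) % q) = g ^ (i + (q - 1)) := by
          rw [pow_eq_pow_iff_modEq, hord]; exact Nat.mod_modEq _ _
        simp only [e] at hid ⊢
        rw [e1, add_comm, pow_add, mul_smul, hid, ← mul_smul, ← pow_succ,
          Nat.sub_add_cancel hqpos, hgq, one_smul]
      rw [← Finset.sum_sdiff hsub, LinearMap.add_apply,
        ih _ (Finset.sdiff_ssubset hsub hOrbne) (fun h => h1 (Finset.mem_sdiff.mp h).1)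
          (fun d hd => by
            rw [Finset.mem_sdiff] at hd ⊢
            exact ⟨hS d hd.1, fun h => hd.2 (hinv d h)⟩), zero_add, Finset.sum_image hinj]
      have hterm : ∀ i, f (e i) = u ^ i * f c * u' ^ i := by
        intro i
        simp only [e]
        rw [hfeq, map_pow, ← inv_pow, map_pow]
      simp only [hterm]
      exact trace_kills_ker n u u' (f c) huu' hu'u D m hTD (by omega) v hv
  have hΦker : ∀ v : V, (T ^ m) v = 0 → Φ v = s v := by
    intro v hv
    rw [hΦ, ← Finset.add_sum_erase _ _ (Finset.mem_univ one), LinearMap.add_apply,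
      horb v hv _ (Finset.notMem_erase _ _) (fun c hc => by
        rw [Finset.mem_erase] at hc ⊢
        exact ⟨fun h => hc.1 (MulAction.injective g (h.trans hgone.symm)), Finset.mem_univ _⟩),
      add_zero, hf, inv_one, map_one, one_mul, mul_one]
  -- Schur
  haveI hnt : Nontrivial V := by
    by_contra hV
    rw [not_nontrivial_iff_subsingleton] at hV
    exact hTj (Subsingleton.elim _ _)
  have hΦ0 : Φ = 0 := by
    let K : Subrepresentation ρ :=
      ⟨LinearMap.ker Φ, fun y v hv => by
        simp only [LinearMap.mem_ker] at hv ⊢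
        have := LinearMap.congr_fun (hΦcomm y) v
        simp only [Module.End.mul_apply, hv, map_zero] at this
        exact this.symm⟩
    have hker : ∃ v : V, v ≠ 0 ∧ Φ v = 0 := by
      have hTnot : LinearMap.ker T ≠ ⊥ := by
        intro hbot
        have hinj := LinearMap.ker_eq_bot.mp hbot
        have : Function.Injective (⇑T)^[q] := hinj.iterate q
        rw [← Module.End.coe_pow, hTq] at this
        obtain ⟨a, b, hab⟩ := exists_pair_ne V
        exact hab (this rfl)
      obtain ⟨v, hv, hv0⟩ := Submodule.exists_mem_ne_zero_of_ne_bot hTnot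
      rw [LinearMap.mem_ker] at hv
      refine ⟨v, hv0, ?_⟩
      have hTk : ∀ k, 0 < k → (T ^ k) v = 0 := by
        intro k hk
        obtain ⟨k, rfl⟩ := Nat.exists_eq_succ_of_ne_zero (by omega : k ≠ 0)
        rw [pow_succ, Module.End.mul_apply, hv, map_zero]
      have hp2 := hprime.two_le
      rw [hΦker v (hTk m (by omega)), hsU, Module.End.mul_apply, hTk _ (by omega), map_zero]
    rcases hirr.eq_bot_or_eq_top K with hK | hK
    · exfalso
      obtain ⟨v, hv0, hv⟩ := hker
      have : v ∈ K.toSubmodule := hv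
      rw [hK] at this
      exact hv0 this
    · apply LinearMap.ext
      intro v
      have : v ∈ K.toSubmodule := by rw [hK]; trivial
      exact this
  obtain ⟨v, hvm, hvj⟩ := exists_ker_pow_not_ker_pow T hjm hTq hTj
  have h0 := hΦker v hvm
  rw [hΦ0, LinearMap.zero_apply, hsU, Module.End.mul_apply] at h0
  apply hvj
  obtain ⟨W, hW⟩ := hUunit.pow (p - 1)
  have h2 := congrArg (↑W⁻¹ : Module.End F V) h0
  rw [map_zero, ← Module.End.mul_apply, ← hW, Units.inv_mul, Module.End.one_apply] at h2
  exact h2.symm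

end Cfsg.Agent.S4699
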