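import Cfsg.Statements.S4701
import Cfsg.Agent.S0999
import Cfsg.Agent.Cores.Basic
import Cfsg.Agent.SmallGroups.Basic
import Cfsg.Agent.Linear.Orders

set_option autoImplicit false
open Cfsg

namespace Cfsg.Agent.S4701

/-- A perfect group has no non-trivial Sylow subgroup of prime order normal. -/
theorem not_normal_prime_sylow {H : Type*} [Group H] [Finite H] (hperf : commutator H = ⊤) {p : ℕ}
    [hp : Fact p.Prime] (P : Sylow p H) (hP : Nat.card ↥(P : Subgroup H) = p) :
    ¬ (P : Subgroup H).Normal := by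
  intro hn
  haveI : IsCyclic ↥(P : Subgroup H) := isCyclic_of_prime_card hP
  set f : H →* MulAut ↥(P : Subgroup H) := MulAut.conjNormal
  have hc : commutator H ≤ f.ker := by
    rw [commutator_def, Subgroup.commutator_le]
    intro a _ b _
    rw [MonoidHom.mem_ker, map_commutatorElement, commutatorElement_eq_one_iff_mul_comm]
    exact (IsCyclic.mulAutMulEquiv ↥(P : Subgroup H)).injective (by
      rw [map_mul, map_mul]; exact mul_comm _ _)
  rw [hperf, top_le_iff] at hc
  have hle : Subgroup.normalizer ((P : Subgroup H) : Set H) ≤ Subgroup.centralizer ((P : Subgroup H) : Set H) := by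
    intro g _ x hx
    have h1 : f g = 1 := MonoidHom.mem_ker.1 (hc ▸ Subgroup.mem_top g)
    have h2 := congrArg Subtype.val (DFunLike.congr_fun h1 ⟨x, hx⟩)
    simp only [f, MulAut.conjNormal_apply, MulAut.one_apply] at h2
    exact (mul_inv_eq_iff_eq_mul.1 h2).symm
  have hcompl := MonoidHom.ker_transferSylow_isComplement' P hle
  set K := (MonoidHom.transferSylow P hle).ker with hK
  have hKtop : K = ⊤ := top_le_iff.1 (hperf ▸ by
    rw [commutator_def, Subgroup.commutator_le]
    intro a _ b _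
    rw [hK, MonoidHom.mem_ker, map_commutatorElement, commutatorElement_eq_one_iff_mul_comm]
    haveI : IsMulCommutative ↥(P : Subgroup H) := inferInstance
    exact (IsMulCommutative.is_comm.comm _ _))
  have h := hcompl.card_mul_card
  rw [hKtop, Subgroup.card_top, hP] at h
  have := hp.out.two_le
  have := Nat.card_pos (α := H)
  nlinarith

/-- The projective and the special linear group coincide in characteristic two. -/
theorem psl_equiv_sl {F : Type*} [Field F] [Fintype F] {m : ℕ} (hF : Fintype.card F = 2 ^ m) :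
    Nonempty (Matrix.ProjectiveSpecialLinearGroup (Fin 2) F ≃* Matrix.SpecialLinearGroup (Fin 2) F) := by
  classical
  have hm : m ≠ 0 := fun h => by
    rw [h, pow_zero] at hF
    exact Fintype.one_lt_card.ne' hF
  have hgcd : Nat.gcd 2 (Fintype.card F - 1) = 1 := by
    rw [hF]
    refine (Nat.prime_two.coprime_iff_not_dvd).2 fun h => ?_
    have : 2 ∣ 2 ^ m := dvd_pow_self 2 hm
    have : 1 ≤ 2 ^ m := Nat.one_le_two_pow
    omega
  have h1 := Cfsg.Agent.Linear.card_PSL_two_mul (F := F)
  rw [hgcd, one_mul] at h1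
  have h2 := Cfsg.Agent.Linear.card_SL_two (F := F)
  have h3 : Nat.card (Subgroup.center (Matrix.SpecialLinearGroup (Fin 2) F)) = 1 := by
    have h := Subgroup.card_eq_card_quotient_mul_card_subgroup
      (Subgroup.center (Matrix.SpecialLinearGroup (Fin 2) F))
    change _ = Nat.card (Matrix.ProjectiveSpecialLinearGroup (Fin 2) F) * _ at h
    rw [h2, h1] at h
    have hq : 0 < Fintype.card F * (Fintype.card F - 1) * (Fintype.card F + 1) := by
      rw [← h1]; exact Nat.card_pos
    nlinarith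
  exact ⟨(QuotientGroup.quotientMulEquivOfEq (Subgroup.card_eq_one.1 h3)).trans QuotientGroup.quotientBot⟩

/-- Let G be a finite perfect group and p a prime dividing the order of G with p^3 larger than the order of G. Suppose a Sylow p-subgroup of G is not normal and G has no normal subgroup of order 2. Then p > 3 and G is isomorphic to PSL(2, p), or to SL(2, 2^m) with p = 2^m + 1. -/
theorem result {G : Type*} [Group G] [Finite G] (hperf : commutator G = ⊤) (p : ℕ) [Fact p.Prime] (hdvd : p ∣ Nat.card G) (hbig : Nat.card G < p ^ 3) (P : Sylow p G) (hP : ¬ (P : Subgroup G).Normal) (h2 : ∀ N : Subgroup G, N.Normal → Nat.card N ≠ 2) : (∃ (F : Type) (_ : Field F) (_ : Fintype F), Fintype.card F = p ∧ 3 < p ∧ Nonempty (G ≃* Matrix.ProjectiveSpecialLinearGroup (Fin 2) F)) ∨ (∃ (m : ℕ) (F : Type) (_ : Field F) (_ : Fintype F), Fintype.card F = 2 ^ m ∧ p = 2 ^ m + 1 ∧ 3 < p ∧ Nonempty (G ≃* Matrix.SpecialLinearGroup (Fin 2) F)) := by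
  classical
  have hp : p.Prime := Fact.out
  have hperf' : ∀ (N : Subgroup G) [N.Normal], commutator (G ⧸ N) = ⊤ := fun N _ => by
    rw [commutator_def, ← Subgroup.map_top_of_surjective _ (QuotientGroup.mk'_surjective N),
      ← Subgroup.map_commutator, ← commutator_def, hperf]
  -- the Sylow subgroups have order `p`
  have hcardP : Nat.card ↥(P : Subgroup G) = p := by
    obtain ⟨k, hk⟩ := P.2.exists_card_eq
    have h1 : p + 1 ≤ Nat.card (Sylow p G) := by
      have h2 := card_sylow_modEq_one p G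
      have h3 : Nat.card (Sylow p G) ≠ 1 := fun h => hP (by
        have := (Nat.card_eq_one_iff_unique.1 h).1
        exact P.normal_of_subsingleton)
      rw [Nat.ModEq, Nat.mod_eq_of_lt hp.one_lt] at h2
      have h4 : 0 < Nat.card (Sylow p G) := Nat.card_pos
      by_contra hlt
      rcases (show Nat.card (Sylow p G) = p ∨ Nat.card (Sylow p G) < p by omega) with h | h
      · rw [h, Nat.mod_self] at h2; omega
      · rw [Nat.mod_eq_of_lt h] at h2; omega
    have hk0 : k ≠ 0 := by
      rintro rfl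
      exact P.ne_bot_of_dvd_card hdvd (Subgroup.card_eq_one.1 (hk.trans (pow_zero p)))
    by_contra hne
    have hk2 : 2 ≤ k := by
      by_contra h
      exact hne (by rw [hk, show k = 1 by omega, pow_one])
    have h5 : (p + 1) * p ^ 2 ≤ Nat.card G := by
      rw [← SmallGroups.card_sylow_mul_card_normalizer P]
      refine Nat.mul_le_mul h1 ((Nat.pow_le_pow_right hp.pos hk2).trans ?_)
      rw [← hk]
      exact Nat.le_of_dvd Nat.card_pos (Subgroup.card_dvd_of_le Subgroup.le_normalizer)
    have : p ^ 3 = p * p ^ 2 := by ring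
    nlinarith
  have hp2 : ¬ p ^ 2 ∣ Nat.card G := fun h => by
    have := (P.pow_dvd_card_of_pow_dvd_card (n := 2) h)
    rw [hcardP] at this
    exact absurd (Nat.le_of_dvd hp.pos this) (by nlinarith [hp.two_le])
  set L := Cfsg.pPrimeCore p G with hL
  have hLp : ¬ p ∣ Nat.card L := Cores.not_dvd_card_pPrimeCore
  have hcard : Nat.card G = Nat.card (G ⧸ L) * Nat.card L := Subgroup.card_eq_card_quotient_mul_card_subgroup L
  have hpQ : p ∣ Nat.card (G ⧸ L) := ((hp.dvd_mul).1 (hcard ▸ hdvd)).resolve_right hLp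
  have hp2Q : ¬ p ^ 2 ∣ Nat.card (G ⧸ L) := fun h => hp2 (hcard ▸ Dvd.dvd.mul_right h _)
  have hbot : Cfsg.pPrimeCore p (G ⧸ L) = ⊥ := Cores.pPrimeCore_quotient_pPrimeCore_eq_bot
  have hQnn : ∀ R : Sylow p (G ⧸ L), ¬ (R : Subgroup (G ⧸ L)).Normal := fun R =>
    not_normal_prime_sylow (hperf' L) R (by
      obtain ⟨m, hm⟩ := hpQ
      exact (SmallGroups.card_sylow_subgroup (a := 1) (by rw [hm, pow_one])
        (fun h => hp2Q (by rw [hm, pow_two]; exact mul_dvd_mul_left p h)) R).trans (pow_one p))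
  haveI : Nontrivial (G ⧸ L) := Finite.one_lt_card_iff_nontrivial.1
    (lt_of_lt_of_le hp.one_lt (Nat.le_of_dvd Nat.card_pos hpQ))
  -- a minimal normal subgroup
  obtain ⟨N, ⟨hNn, hN⟩, hmin⟩ := exists_minimal_of_wellFoundedLT
    (fun K : Subgroup (G ⧸ L) => K.Normal ∧ K ≠ ⊥) ⟨⊤, inferInstance, top_ne_bot⟩
  haveI := hNn
  have hpN : p ∣ Nat.card N := by
    by_contra h
    exact hN (eq_bot_iff.2 (hbot ▸ Cores.le_pPrimeCore_of_not_dvd hNn h))
  have hclos : Subgroup.closure {x : G ⧸ L | x ∈ N ∧ x ^ p = 1} = N := by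
    have hle : Subgroup.closure {x : G ⧸ L | x ∈ N ∧ x ^ p = 1} ≤ N :=
      (Subgroup.closure_le _).2 fun x hx => hx.1
    refine le_antisymm hle (hmin ⟨⟨fun a ha g => ?_⟩, fun h => ?_⟩ hle)
    · refine Subgroup.closure_induction ?_ ?_ ?_ ?_ ha
      · intro x hx
        exact Subgroup.subset_closure ⟨hNn.conj_mem x hx.1 g, by rw [conj_pow, hx.2]; simp⟩
      · simp
      · intro x y _ _ hx hy
        simpa [mul_assoc] using mul_mem hx hy
      · intro x _ hx
        rw [show g * x⁻¹ * g⁻¹ = (g * x * g⁻¹)⁻¹ by group]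
        exact inv_mem hx
    · obtain ⟨y, hy⟩ := exists_prime_orderOf_dvd_card' (G := ↥N) p hpN
      have hy1 : (y : G ⧸ L) ∈ Subgroup.closure {x : G ⧸ L | x ∈ N ∧ x ^ p = 1} :=
        Subgroup.subset_closure ⟨y.2, congrArg Subtype.val (show y ^ p = 1 from orderOf_dvd_iff_pow_eq_one.1 hy.dvd)⟩
      rw [h, Subgroup.mem_bot] at hy1
      rw [← Subgroup.orderOf_coe, hy1, orderOf_one] at hy
      exact hp.ne_one hy.symm
  haveI : Nontrivial ↥N := (Subgroup.nontrivial_iff_ne_bot N).2 hN
  haveI : IsSimpleGroup ↥N := by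
    refine ⟨fun K hK => ?_⟩
    by_cases hpK : p ∣ Nat.card K
    · right
      refine top_le_iff.1 fun x _ => ?_
      have hNK : N ≤ K.map N.subtype := by
        conv_lhs => rw [← hclos]
        refine (Subgroup.closure_le _).2 fun z hz => ⟨⟨z, hz.1⟩, ?_, rfl⟩
        haveI := hK
        show (⟨z, hz.1⟩ : ↥N) ∈ K
        refine (QuotientGroup.eq_one_iff _).1 ?_
        rw [← orderOf_eq_one_iff]
        refine Nat.eq_one_of_dvd_coprimes (a := p) (b := Nat.card (↥N ⧸ K)) ?_
          (orderOf_dvd_of_pow_eq_one ?_) (orderOf_dvd_natCard _)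
        · refine hp.coprime_iff_not_dvd.2 fun h => hp2Q ?_
          refine dvd_trans ?_ N.card_subgroup_dvd_card
          rw [Subgroup.card_eq_card_quotient_mul_card_subgroup K, pow_two]
          exact Nat.mul_dvd_mul h hpK
        · rw [← QuotientGroup.mk_pow]
          exact (QuotientGroup.eq_one_iff _).2 (by
            have : (⟨z, hz.1⟩ : ↥N) ^ p = 1 := Subtype.ext hz.2
            rw [this]; exact one_mem K)
      obtain ⟨x', hx', he⟩ := hNK x.2
      rwa [← Subtype.ext he]
    · left
      have h1 : Cfsg.pPrimeCore p ↥N = ⊥ := by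
        have h2 := Cores.map_subtype_pPrimeCore_eq (p := p) (N := N)
        rw [hbot, inf_bot_eq] at h2
        exact (Subgroup.map_eq_bot_iff_of_injective _ N.subtype_injective).1 h2
      exact eq_bot_iff.2 (h1 ▸ Cores.le_pPrimeCore_of_not_dvd hK hpK)
  have hNc : ¬ IsMulCommutative ↥N := fun h => by
    have hNp := SmallGroups.prime_card_of_isMulCommutative h
    have hNeq : Nat.card ↥N = p := ((Nat.prime_dvd_prime_iff_eq hp hNp).1 hpN).symm
    obtain ⟨R, hR⟩ := (IsPGroup.of_card (p := p) (n := 1) (by rw [hNeq, pow_one]) :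
      IsPGroup p ↥N).exists_le_sylow
    obtain ⟨m, hm⟩ := hpQ
    have hRc : Nat.card ↥(R : Subgroup (G ⧸ L)) = p :=
      (SmallGroups.card_sylow_subgroup (a := 1) (by rw [hm, pow_one])
        (fun h => hp2Q (by rw [hm, pow_two]; exact mul_dvd_mul_left p h)) R).trans (pow_one p)
    exact hQnn R ((Subgroup.eq_of_le_of_card_ge hR (by rw [hRc, hNeq])) ▸ hNn)
  have hNG : Nat.card ↥N * (N.index * Nat.card L) = Nat.card G := by
    rw [← mul_assoc, N.card_mul_index, ← hcard]
  have hNlt : Nat.card ↥N < p ^ 3 := lt_of_le_of_lt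
    (Nat.le_of_dvd Nat.card_pos ⟨_, hNG.symm⟩) hbig
  have hfin : N.index * Nat.card L ≤ 2 → N = ⊤ ∧ L = ⊥ := fun h => by
    have h1 : 0 < N.index := Nat.pos_of_ne_zero Subgroup.index_ne_zero_of_finite
    have hpos : 0 < Nat.card L := Nat.card_pos
    have h3 : N.index = 1 := by
      by_contra h4
      have h5 : N.index = 2 := by
        have := Nat.le_mul_of_pos_right N.index hpos
        omega
      haveI : IsCyclic ((G ⧸ L) ⧸ N) := isCyclic_of_prime_card (p := 2) (by rw [← Subgroup.index_eq_card, h5])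
      have hp' : commutator ((G ⧸ L) ⧸ N) = ⊤ := by
        rw [commutator_def, ← Subgroup.map_top_of_surjective _ (QuotientGroup.mk'_surjective N),
          ← Subgroup.map_commutator, ← commutator_def, hperf' L]
      have hb : commutator ((G ⧸ L) ⧸ N) = ⊥ := by
        rw [eq_bot_iff, commutator_def, Subgroup.commutator_le]
        intro a _ b _
        rw [Subgroup.mem_bot, commutatorElement_eq_one_iff_mul_comm]
        exact IsMulCommutative.is_comm.comm a b
      have h6 := congrArg (fun K : Subgroup ((G ⧸ L) ⧸ N) => Nat.card K) (hp'.symm.trans hb)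
      simp only [Subgroup.card_top, Subgroup.card_bot, ← Subgroup.index_eq_card, h5] at h6
      omega
    rw [h3, one_mul] at h
    refine ⟨Subgroup.index_eq_one.1 h3, Subgroup.card_eq_one.1 ?_⟩
    have h7 : Nat.card L ≠ 2 := h2 _ inferInstance
    omega
  obtain h | ⟨m, F, iF, iFt, hF, hpm, hp3, ⟨e⟩⟩ :=
    S0999.result (G := ↥N) (fun h => hNc inferInstance) p hp hpN hNlt
  · obtain ⟨F, iF, iFt, hF, hp3, ⟨e⟩⟩ := h
    have hN2 := Cfsg.Agent.Linear.card_PSL_two_mul (F := F)
    rw [← Nat.card_congr e.toEquiv, hF] at hN2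
    have hsmall : N.index * Nat.card L ≤ 2 := by
      by_contra hlt
      have hg : Nat.gcd 2 (p - 1) ≤ 2 := Nat.gcd_le_left _ (by norm_num)
      have h1 := Nat.mul_le_mul_left (Nat.card ↥N) (show 3 ≤ N.index * Nat.card L by omega)
      rw [hNG] at h1
      have h2 := Nat.mul_le_mul_right (Nat.card ↥N) hg
      obtain ⟨s, rfl⟩ : ∃ s, p = s + 1 := ⟨p - 1, by omega⟩
      rw [Nat.add_sub_cancel] at hN2
      have h3 : (s + 1) * s * (s + 1 + 1) ≤ 2 * Nat.card ↥N := by rw [← hN2]; exact Nat.mul_le_mul_right _ (by simpa using hg)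
      nlinarith [Nat.mul_le_mul_left (s + 1) (Nat.mul_le_mul hp3.le hp3.le)]
    obtain ⟨hNt, hLb⟩ := hfin hsmall
    exact Or.inl ⟨F, iF, iFt, hF, hp3, ⟨((QuotientGroup.quotientBot.symm.trans
      (QuotientGroup.quotientMulEquivOfEq hLb.symm)).trans
      ((Subgroup.topEquiv.symm.trans (MulEquiv.subgroupCongr hNt.symm)).trans e))⟩⟩
  · have hN2 := Cfsg.Agent.Linear.card_PSL_two_mul (F := F)
    rw [← Nat.card_congr e.toEquiv, hF] at hN2
    have hsmall : N.index * Nat.card L ≤ 2 := by
      by_contra hlt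
      have hm2 : 2 ≤ m := by
        by_contra h
        interval_cases m <;> omega
      have hg : Nat.gcd 2 (2 ^ m - 1) = 1 := (Nat.prime_two.coprime_iff_not_dvd).2 fun h => by
        have : 2 ∣ 2 ^ m := dvd_pow_self 2 (by omega)
        have : 1 ≤ 2 ^ m := Nat.one_le_two_pow
        omega
      rw [hg, one_mul] at hN2
      have h4 : 4 ≤ 2 ^ m := by
        have := Nat.pow_le_pow_right (show 1 ≤ 2 by norm_num) hm2
        omega
      obtain ⟨s, hs⟩ : ∃ s, 2 ^ m = s + 4 := ⟨2 ^ m - 4, by omega⟩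
      rw [hs, show s + 4 - 1 = s + 3 by omega] at hN2
      have h1 := Nat.mul_le_mul_left (Nat.card ↥N) (show 3 ≤ N.index * Nat.card L by omega)
      rw [hNG, hN2] at h1
      have hps : p = s + 5 := by omega
      rw [hps] at hbig
      nlinarith
    obtain ⟨hNt, hLb⟩ := hfin hsmall
    obtain ⟨i⟩ := psl_equiv_sl (F := F) hF
    exact Or.inr ⟨m, F, iF, iFt, hF, hpm, hp3, ⟨((QuotientGroup.quotientBot.symm.trans
      (QuotientGroup.quotientMulEquivOfEq hLb.symm)).trans
      ((Subgroup.topEquiv.symm.trans (MulEquiv.subgroupCongr hNt.symm)).trans (e.trans i)))⟩⟩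

end Cfsg.Agent.S4701
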