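import Cfsg.Statements.S4709
import Cfsg.Agent.BlkChar.FrobeniusExceptional
-- import your own Cfsg.Agent.* helpers here

set_option autoImplicit false
set_option linter.style.haveILetI false
open Cfsg

namespace Cfsg.Agent.S4709

open Cfsg.Agent.BlkChar.FrobExceptional
open Cfsg.Agent.BlkChar.FreeOrbit Cfsg.Agent.BlkChar.SectionLift Cfsg.Agent.BlkChar.FrobSections
open scoped ComplexConjugate

set_option maxHeartbeats 2000000 in
/-- Let p be a prime, M a maximal ideal of the algebraic integers containing p, and G a finite group with a nontrivial abelian Sylow p-subgroup P; put N = N_G(P), C = C_G(P). Suppose N/C is cyclic of order m with 1 < m < #P − 1 (C has index m in N and N is generated by C and one element), and C_G(y) ∩ N = C for every non-identity y ∈ P. Put r = (#P − 1)/m. Then there is s ≤ m such that the principal p-block is the disjoint union of a set X of s characters containing the principal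 character and a set Y of r characters, with integers a_χ ≠ 0 (χ ∈ X), d and a sign δ = ±1, such that: every χ ∈ X takes the value a_χ at every element whose p-part is a non-identity element of P; there is a map ζ from the non-principal linear characters ψ of P onto Y, constant on N-conjugacy classes, with ζ_ψ(z) = d + δ·Σ ψ'(y) for every z whose p-part y is a non-identity element of P, the sum running over the N-conjugates ψ' of ψ; (d − δ)^2 + (r − 1) d^2 + Σ_{χ ∈ X} a_χ^2 = m + 1; all members of Y agree on p-regular elements; and (r d − δ) η(g) + Σ_{χ ∈ X} a_χ χ(g) = 0 for every η ∈ Y and every p-regular g. -/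
theorem result {G : Type*} [Group G] [Finite G] (p : ℕ) [Fact p.Prime] (M : Ideal Cfsg.AlgInt) (hM : Cfsg.IsPModular p M) (P : Sylow p G) (hab : IsMulCommutative P) (hP1 : Nat.card P ≠ 1) (m : ℕ) (hm1 : 1 < m) (hm2 : m + 1 < Nat.card P) (hCN : (Subgroup.centralizer ((P : Subgroup G) : Set G)).relIndex (Subgroup.normalizer ((P : Subgroup G) : Set G)) = m) (hcyc : ∃ g : G, g ∈ Subgroup.normalizer ((P : Subgroup G) : Set G) ∧ Subgroup.centralizer ((P : Subgroup G) : Set G) ⊔ Subgroup.zpowers g = Subgroup.normalizer ((P : Subgroup G) : Set G)) (hfrob : ∀ y : G, y ∈ (P : Subgroup G) → y ≠ 1 → Subgroup.centralizer ({y} : Set G) ⊓ Subgroup.normalizer ((P : Subgroup G) : Set G) = Subgroup.centralizer ((P : Subgroup G) : Set G)) : ∃ (s : ℕ) (X Y : Set (Cfsg.IrrCharacter G)), s ≤ m ∧ Cfsg.principalBlock M G = X ∪ Y ∧ Disjoint X Y ∧ Nat.card X = s ∧ Nat.card Y = (Nat.card P - 1) / m ∧ (∃ χ₁ ∈ X, (χ₁ : G → ℂ) = fun _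 => 1) ∧ ∃ (a : Cfsg.IrrCharacter G → ℤ) (d δ : ℤ) (ζ : (↥(P : Subgroup G) →* ℂˣ) → Cfsg.IrrCharacter G), (δ = 1 ∨ δ = -1) ∧ (∀ χ ∈ X, a χ ≠ 0 ∧ ∀ z y : G, Cfsg.IsPPart p z y → y ∈ (P : Subgroup G) → y ≠ 1 → (χ : G → ℂ) z = (a χ : ℂ)) ∧ (∀ ψ : ↥(P : Subgroup G) →* ℂˣ, ψ ≠ 1 → ζ ψ ∈ Y) ∧ (∀ η ∈ Y, ∃ ψ : ↥(P : Subgroup G) →* ℂˣ, ψ ≠ 1 ∧ ζ ψ = η) ∧ (∀ ψ ψ' : ↥(P : Subgroup G) →* ℂˣ, ψ ≠ 1 → (∃ n : G, n ∈ Subgroup.normalizer ((P : Subgroup G) : Set G) ∧ ∀ w w' : ↥(P : Subgroup G), (w' : G) = n * w * n⁻¹ → ψ' w' = ψ w) → ζ ψ' = ζ ψ) ∧ (∀ ψ : ↥(P : Subgroup G) →* ℂˣ, ψ ≠ 1 → ∀ (z : G) (y : ↥(P : Subgroup G)), Cfsg.IsPPart p z (y : G) → (y : G) ≠ 1 → (ζ ψ : G → ℂ) z = (d : ℂ) + (δ : ℂ) * ∑ᶠ ψ' ∈ {ψ' : ↥(P : Subgroup G) →* ℂˣ | ∃ n : G, n ∈ Subgroup.normalizer ((P : Subgroup G) : Set G) ∧ ∀ w w' : ↥(P : Subgroup G), (w' : G) = n * w * n⁻¹ → ψ' w' = ψ w}, ((ψ' y : ℂˣ) : ℂ)) ∧ ((d - δ) ^ 2 + ((Nat.card P - 1) / m -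 1 : ℤ) * d ^ 2 + ∑ᶠ χ ∈ X, a χ ^ 2 = (m : ℤ) + 1) ∧ (∀ η ∈ Y, ∀ η' ∈ Y, ∀ g : G, ¬ p ∣ orderOf g → (η : G → ℂ) g = (η' : G → ℂ) g) ∧ (∀ η ∈ Y, ∀ g : G, ¬ p ∣ orderOf g → ((((Nat.card P - 1) / m : ℕ) : ℂ) * d - δ) * (η : G → ℂ) g + ∑ᶠ χ ∈ X, (a χ : ℂ) * (χ : G → ℂ) g = 0) := by
  classical
  haveI : M.IsPrime := hM.2.1.isPrime
  letI := Fintype.ofFinite G
  letI := Fintype.ofFinite (P : Subgroup G)
  haveI := hab
  letI : CommGroup (P : Subgroup G) := commGroupSylow P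
  have h : Hyp P := ⟨hab, hfrob⟩
  letI : Fintype (autGroup P) := Fintype.ofFinite _
  letI : Fintype (↥(P : Subgroup G) →* ℂˣ) := Fintype.ofFinite _
  have hmI : indexM P = m := hCN
  obtain ⟨r, rep, hne, hrel, hcov, hrm, hsum⟩ := exists_reps h
  have hsum' : ∀ f : (↥(P : Subgroup G) →* ℂˣ) → ℂ,
      ∑ ψ, f ψ = f 1 + ∑ i, ∑ a : autGroup P, f (twist (rep i) a) := fun f => hsum f
  rw [hmI] at hrm
  have hr2 : 2 ≤ r := by
    by_contra hlt
    have : r * m ≤ 1 * m := Nat.mul_le_mul_right m (by omega)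
    omega
  have hrq : (Nat.card P - 1) / m = r := by
    rw [← hrm, Nat.add_sub_cancel, Nat.mul_div_cancel _ (by omega)]
  obtain ⟨δ, d, η, a, hδ, hηinj, hηB, hat, hηt, hnY, hnX, hreg, heqn⟩ :=
    exists_exceptional hM h hr2 rep hne hrel
  rw [hmI] at heqn
  set Xf : Finset (Cfsg.IrrCharacter G) :=
    Finset.univ.filter (fun χ => χ ∈ Cfsg.principalBlock M G ∧ ∀ k, η k ≠ χ) with hXf
  have hOall : ∀ y : ↥(P : Subgroup G), y ≠ 1 →
      ∑ i, osum (autGroup P) (rep i) y = -1 := by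
    intro y hy
    have e := sum_apply_eq_zero hy
    rw [hsum'] at e
    simp only [MonoidHom.one_apply, Units.val_one, twist_apply] at e
    exact eq_neg_of_add_eq_zero_right e
  have hsec : ∀ χ ∈ Cfsg.principalBlock M G, ∀ (z : G) (y : G), Cfsg.IsPPart p z y →
      y ∈ (P : Subgroup G) → y ≠ 1 → (χ : G → ℂ) z = (χ : G → ℂ) y := by
    intro χ hχ z y hz hy hy1
    obtain ⟨x, rfl, hc, -, hx⟩ := hz
    exact principal_const hM h hχ hy hy1 (Finset.mem_filter.2 ⟨Finset.mem_univ _, hc, hx⟩)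
  have hXval : ∀ χ ∈ Xf, ∀ y : ↥(P : Subgroup G), y ≠ 1 → (χ : G → ℂ) y = (a χ : ℂ) := by
    intro χ hχ y hy
    obtain ⟨-, hχB, hχY⟩ := Finset.mem_filter.1 hχ
    rw [apply_eq hM h rep hsum' hχB (fun _ => a χ) (hnX χ hχY) hy, ← Finset.mul_sum, hOall y hy]
    ring
  have hYval : ∀ k, ∀ y : ↥(P : Subgroup G), y ≠ 1 →
      (η k : G → ℂ) y = (d : ℂ) + (δ : ℂ) * osum (autGroup P) (rep k) y := by
    intro k y hy
    rw [apply_eq hM h rep hsum' (hηB k) _ (hnY k) hy]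
    push_cast
    simp only [sub_mul, Finset.sum_sub_distrib, ← Finset.mul_sum, hOall y hy, mul_ite, mul_one,
      mul_zero, ite_mul, zero_mul, Finset.sum_ite_eq', Finset.mem_univ, if_true]
    ring
  have ht0 : Char.trivialIrr G ∈ Cfsg.principalBlock M G :=
    Cfsg.Agent.Block.mem_blockOf_self (Char.trivialIrr G)
  have htX : Char.trivialIrr G ∈ Xf := by
    rw [hXf, Finset.mem_filter]
    exact ⟨Finset.mem_univ _, ht0, hηt⟩
  have hane : ∀ χ ∈ Xf, a χ ≠ 0 := by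
    intro χ hχ ha0
    by_cases h1 : (χ : G → ℂ) = fun _ => 1
    · have : χ = Char.trivialIrr G := Subtype.ext h1
      rw [this, hat] at ha0
      exact one_ne_zero ha0
    · obtain ⟨y, hy, hy'⟩ := exists_apply_ne_zero hM h (Finset.mem_filter.1 hχ).2.1 h1
      exact hy' (by rw [hXval χ hχ y hy, ha0, Int.cast_zero])
  let idx : ∀ ψ : ↥(P : Subgroup G) →* ℂˣ, ψ ≠ 1 → Fin r := fun ψ hψ => (hcov ψ hψ).choose
  have hidx : ∀ ψ hψ, Related (autGroup P) (rep (idx ψ hψ)) ψ := fun ψ hψ =>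
    (hcov ψ hψ).choose_spec
  let ζ : (↥(P : Subgroup G) →* ℂˣ) → Cfsg.IrrCharacter G := fun ψ =>
    if hψ : ψ ≠ 1 then η (idx ψ hψ) else η ⟨0, by omega⟩
  have hζ : ∀ ψ (hψ : ψ ≠ 1), ζ ψ = η (idx ψ hψ) := fun ψ hψ => dif_pos hψ
  have horbit : ∀ ψ ψ' : ↥(P : Subgroup G) →* ℂˣ,
      (∃ n : G, n ∈ Subgroup.normalizer ((P : Subgroup G) : Set G) ∧
        ∀ w w' : ↥(P : Subgroup G), (w' : G) = n * w * n⁻¹ → ψ' w' = ψ w) ↔
      ∃ b ∈ autGroup P, ψ' = twist ψ b := by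
    intro ψ ψ'
    constructor
    · rintro ⟨g, hg, hψg⟩
      refine ⟨((P : Subgroup G).normalizerMonoidHom ⟨g, hg⟩)⁻¹, inv_mem ⟨_, rfl⟩,
        MonoidHom.ext fun w => ?_⟩
      rw [twist_apply]
      refine hψg _ w ?_
      exact (congrArg Subtype.val
        (((P : Subgroup G).normalizerMonoidHom ⟨g, hg⟩).apply_symm_apply w)).symm
    · rintro ⟨c, hc, rfl⟩
      obtain ⟨g, hg, hga⟩ := (mem_autGroup P).1 (inv_mem hc)
      refine ⟨g, hg, fun w w' hw => ?_⟩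
      rw [twist_apply]
      congr 1
      rw [show w' = c⁻¹ w from Subtype.ext (hw.trans (hga w).symm)]
      exact c.apply_symm_apply w
  refine ⟨Xf.card, (Xf : Set _), (Finset.univ.image η : Finset _), ?_, ?_, ?_, ?_, ?_,
    ⟨_, htX, rfl⟩, a, d, δ, ζ, hδ, ?_, ?_, ?_, ?_, ?_, ?_, ?_, ?_⟩
  · have h1 : (Xf.card : ℤ) ≤ ∑ χ ∈ Xf, a χ ^ 2 := by
      rw [Finset.card_eq_sum_ones]
      push_cast
      exact Finset.sum_le_sum fun χ hχ => Int.add_one_le_iff.2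
        (lt_of_le_of_ne (sq_nonneg _) (Ne.symm (pow_ne_zero _ (hane χ hχ))))
    have h2 : (1 : ℤ) ≤ (d - δ) ^ 2 + ((r : ℤ) - 1) * d ^ 2 := by
      have hr' : (1 : ℤ) ≤ (r : ℤ) - 1 := by omega
      by_cases hd0 : d = 0
      · rw [hd0]
        rcases hδ with rfl | rfl <;> norm_num
      · have : (1 : ℤ) ≤ d ^ 2 := Int.add_one_le_iff.2
          (lt_of_le_of_ne (sq_nonneg _) (Ne.symm (pow_ne_zero _ hd0)))
        nlinarith [sq_nonneg (d - δ)]
    omega
  · ext χ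
    simp only [Set.mem_union, Finset.mem_coe, hXf, Finset.mem_filter, Finset.mem_univ, true_and,
      Finset.mem_image]
    constructor
    · intro hχ
      by_cases hY : ∃ k, η k = χ
      · exact Or.inr hY
      · exact Or.inl ⟨hχ, fun k hk => hY ⟨k, hk⟩⟩
    · rintro (⟨hχ, -⟩ | ⟨k, rfl⟩)
      · exact hχ
      · exact hηB k
  · rw [Finset.disjoint_coe, Finset.disjoint_left]
    intro χ hχ hY
    obtain ⟨k, -, hk⟩ := Finset.mem_image.1 hY
    exact (Finset.mem_filter.1 hχ).2.2 k hk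
  · rw [Nat.card_coe_set_eq, Set.ncard_coe_finset]
  · rw [Nat.card_coe_set_eq, Set.ncard_coe_finset, Finset.card_image_of_injective _ hηinj,
      Finset.card_univ, Fintype.card_fin, hrq]
  · intro χ hχ
    refine ⟨hane χ hχ, fun z y hz hy hy1 => ?_⟩
    rw [hsec χ (Finset.mem_filter.1 hχ).2.1 z y hz hy hy1]
    exact hXval χ hχ ⟨y, hy⟩ fun e => hy1 (congrArg Subtype.val e)
  · intro ψ hψ
    rw [hζ ψ hψ]
    exact Finset.mem_image.2 ⟨_, Finset.mem_univ _, rfl⟩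
  · intro χ hχ
    obtain ⟨k, -, rfl⟩ := Finset.mem_image.1 hχ
    refine ⟨rep k, hne k, ?_⟩
    rw [hζ _ (hne k)]
    congr 1
    exact hrel _ _ (hidx _ (hne k))
  · intro ψ ψ' hψ hc
    obtain ⟨b, hb, hbe⟩ := (horbit ψ ψ').1 hc
    have hψ' : ψ' ≠ 1 := hbe ▸ twist_ne_one hψ b
    rw [hζ ψ hψ, hζ ψ' hψ']
    congr 1
    exact hrel _ _ (related_trans (hidx ψ' hψ')
      (related_trans (related_symm ⟨b, hb, hbe⟩) (related_symm (hidx ψ hψ))))
  · intro ψ hψ z y hz hy1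
    have hy : y ≠ 1 := fun e => hy1 (by rw [e, Subgroup.coe_one])
    rw [hζ ψ hψ, hsec _ (hηB _) z y hz y.2 hy1, hYval _ y hy]
    congr 2
    obtain ⟨b, hb, hbe⟩ := hidx ψ hψ
    rw [show osum (autGroup P) (rep (idx ψ hψ)) y = osum (autGroup P) ψ y by
      conv_rhs => rw [hbe]
      rw [osum_twist _ hb]]
    have hset : {ψ' : ↥(P : Subgroup G) →* ℂˣ | ∃ g : G,
        g ∈ Subgroup.normalizer ((P : Subgroup G) : Set G) ∧
        ∀ w w' : ↥(P : Subgroup G), (w' : G) = g * w * g⁻¹ → ψ' w' = ψ w} =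
        ↑(Finset.univ.image (fun c : autGroup P => twist ψ c)) := by
      ext ψ'
      simp only [Set.mem_ofPred_eq, Finset.coe_image, Finset.coe_univ, Set.image_univ, Set.mem_range,
        horbit]
      exact ⟨fun ⟨c, hc, e⟩ => ⟨⟨c, hc⟩, e.symm⟩, fun ⟨c, e⟩ => ⟨c, c.2, e.symm⟩⟩
    rw [hset, finsum_mem_coe_finset, Finset.sum_image (fun c _ c' _ e =>
      Subtype.ext (twist_inj (free h) hψ c.2 c'.2 e))]
    rfl
  · rw [finsum_mem_coe_finset, ← heqn]
    have hm0 : (m : ℤ) ≠ 0 := by omega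
    have e : ((Nat.card P : ℤ) - 1) / (m : ℤ) = (r : ℤ) := by
      rw [← hrm]; push_cast
      rw [add_sub_cancel_right, Int.mul_ediv_cancel _ hm0]
    rw [e]
  · intro χ hχ χ' hχ' g hg
    obtain ⟨k, -, rfl⟩ := Finset.mem_image.1 hχ
    obtain ⟨k', -, rfl⟩ := Finset.mem_image.1 hχ'
    exact hreg g hg k k'
  · intro χ hχ g hg
    obtain ⟨k, -, rfl⟩ := Finset.mem_image.1 hχ
    rw [finsum_mem_coe_finset, hrq]
    have hL : ∀ i, Cfsg.classInner (lift P (gam (rep k))) (η i : G → ℂ) =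
        ((d - δ * (if k = i then 1 else 0) : ℤ) : ℂ) := fun i => hnY i k
    have e : lift P (gam (rep k)) g = 0 :=
      (lift_regular (gam_fused h _) hg).trans (gam_one _)
    rw [Char.eq_sum_classInner_smul (Char.isGeneralizedCharacter_isClassFunction
      (lift_gam_generalized h (rep k))), Finset.sum_apply] at e
    simp only [Pi.smul_apply, smul_eq_mul] at e
    rw [← Finset.sum_filter_add_sum_filter_not Finset.univ (fun χ => ∀ k, η k ≠ χ),
      show Finset.univ.filter (fun χ => ¬ ∀ k, η k ≠ χ) = Finset.univ.image η by ext χ; simp,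
      Finset.sum_image hηinj.injOn] at e
    have e2 : ∑ χ ∈ Finset.univ.filter (fun χ => ∀ k, η k ≠ χ),
        Cfsg.classInner (lift P (gam (rep k))) (χ : G → ℂ) * (χ : G → ℂ) g =
        ∑ χ ∈ Xf, (a χ : ℂ) * (χ : G → ℂ) g := by
      refine (Finset.sum_subset ?_ ?_).symm.trans (Finset.sum_congr rfl fun χ hχ => ?_)
      · intro χ hχ
        exact Finset.mem_filter.2 ⟨Finset.mem_univ _, (Finset.mem_filter.1 hχ).2.2⟩
      · intro χ hχ hX
        have hB' : χ ∉ Cfsg.principalBlock M G := fun hb => hX (Finset.mem_filter.2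
          ⟨Finset.mem_univ _, hb, (Finset.mem_filter.1 hχ).2⟩)
        rw [classInner_lift_eq_zero hM h (gam_fused h _) (gam_one _) hB', zero_mul]
      · rw [hnX χ (Finset.mem_filter.1 hχ).2.2]
    have e3 : ∑ i, Cfsg.classInner (lift P (gam (rep k))) (η i : G → ℂ) * (η i : G → ℂ) g =
        ((r : ℂ) * (d : ℂ) - (δ : ℂ)) * (η k : G → ℂ) g := by
      simp only [hL]
      rw [Finset.sum_congr rfl fun i _ => by rw [hreg g hg i k], ← Finset.sum_mul]
      push_cast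
      simp [Finset.sum_sub_distrib]
    rw [e2, e3] at e
    linear_combination e

end Cfsg.Agent.S4709
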