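import Cfsg.Statements.S4712
import Cfsg.Agent.BlkRat.Main

set_option autoImplicit false
open Cfsg

namespace Cfsg.Agent.S4712

/-- Let p be an odd prime, M a maximal ideal of the algebraic integers containing p, G a finite group of order n with p-part p^a, and B a p-block of G. Call an irreducible character χ p-rational when χ(g^k) = χ(g) for every g and every k coprime to n with k ≡ 1 modulo n/p^a (χ is fixed by the Galois automorphisms fixing the roots of unity of order prime to p). Then the number of p-rational irreducible characters in B is at least the p-regular rank of B (the number of irreducible Brauer characters in B). -/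
theorem result {G : Type*} [Group G] [Finite G] (p : ℕ) [Fact p.Prime] (hodd : p ≠ 2) (M : Ideal Cfsg.AlgInt) (hM : Cfsg.IsPModular p M) (B : Set (Cfsg.IrrCharacter G)) (hB : Cfsg.IsPBlock M B) : Cfsg.blockRank p B ≤ Nat.card {χ : Cfsg.IrrCharacter G // χ ∈ B ∧ ∀ k : ℕ, Nat.Coprime k (Nat.card G) → k ≡ 1 [MOD Nat.card G / p ^ (Nat.card G).factorization p] → ∀ g : G, (χ : G → ℂ) (g ^ k) = (χ : G → ℂ) g} := by
  haveI := Fintype.ofFinite G
  obtain ⟨k, hk, hk1, hgen⟩ := BlkRat.exists_gen_exponent (p := p) Fact.out hodd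
    (Nat.card_pos (α := G)).ne'
  have hkreg : ∀ y : G, ¬ p ∣ orderOf y → y ^ k = y := fun y hy => by
    have hd : orderOf y ∣ Nat.card G / p ^ (Nat.card G).factorization p := by
      refine Nat.dvd_ordCompl_of_dvd_not_dvd (orderOf_dvd_natCard y) hy
    conv_rhs => rw [← pow_one y]
    exact pow_eq_pow_iff_modEq.2 (hk1.of_dvd hd)
  refine (BlkRat.blockRank_le_card_fixed hM hB hk hkreg).trans
    (Nat.card_congr (Equiv.subtypeEquivRight fun χ => and_congr_right fun _ => ?_)).le
  refine ⟨fun h k' hk' hk'1 g => ?_, fun h => h k hk hk1⟩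
  obtain ⟨j, hj⟩ := hgen k' hk' hk'1
  have h2 : ∀ j : ℕ, (χ : G → ℂ) (g ^ (k ^ j)) = (χ : G → ℂ) g := by
    intro j
    induction j with
    | zero => rw [pow_zero, pow_one]
    | succ j ih => rw [pow_succ, pow_mul, h, ih]
  rw [pow_eq_pow_iff_modEq.2 (hj.of_dvd (orderOf_dvd_natCard g)), h2]

end Cfsg.Agent.S4712
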