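import Cfsg.Statements.S4713
import Cfsg.Agent.CharDeg.Basic
-- import your own Cfsg.Agent.* helpers here

set_option autoImplicit false
open Cfsg

namespace Cfsg.Agent.S4713

/-- Let p be a prime and G a finite p-solvable group. Then G has a normal abelian Sylow p-subgroup if and only if the degree of every irreducible character of G is prime to p. -/
theorem result {G : Type*} [Group G] [Finite G] (p : ℕ) [Fact p.Prime] (hsolv : Cfsg.IsPSolvable p G) (P : Sylow p G) : ((P : Subgroup G).Normal ∧ IsMulCommutative P) ↔ ∀ χ : Cfsg.IrrCharacter G, ¬ p ∣ Cfsg.charDegree (χ : G → ℂ) := by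
  haveI := Fintype.ofFinite G
  rw [← Cfsg.Agent.CharDeg.normal_abelian_sylow_iff hsolv]
  constructor
  · rintro ⟨hn, hc⟩
    exact ⟨P, hn, fun x hx y hy => congrArg Subtype.val (hc.is_comm.comm ⟨x, hx⟩ ⟨y, hy⟩),
      P.isPGroup', P.not_dvd_index⟩
  · rintro ⟨Q, hQn, hQc, hQp, hQi⟩
    haveI := hQn
    have hle : Q ≤ (P : Subgroup G) := by
      obtain ⟨S, hS⟩ := hQp.exists_le_sylow
      obtain ⟨g, hg⟩ := MulAction.exists_smul_eq G S P
      intro x hx
      rw [← hg, Sylow.coe_subgroup_smul]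
      have h1 := Subgroup.smul_mem_pointwise_smul (g⁻¹ * x * g) (MulAut.conj g) _
        (hS (show g⁻¹ * x * g ∈ Q by simpa using hQn.conj_mem x hx g⁻¹))
      simpa [mul_assoc] using h1
    have heq : (P : Subgroup G) = Q := by
      refine (Subgroup.eq_of_le_of_card_ge hle ?_).symm
      obtain ⟨n, hn⟩ := IsPGroup.iff_card.1 P.isPGroup'
      refine Nat.le_of_dvd Nat.card_pos ?_
      have h1 : p ^ n ∣ Nat.card Q * Q.index := by
        rw [Subgroup.card_mul_index, ← hn]
        exact Subgroup.card_subgroup_dvd_card _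
      rw [hn]
      exact (Nat.Coprime.pow_left n ((Fact.out : p.Prime).coprime_iff_not_dvd.2 hQi)).dvd_of_dvd_mul_right h1
    refine ⟨heq ▸ hQn, ⟨⟨fun x y => Subtype.ext ?_⟩⟩⟩
    exact hQc x (heq ▸ x.2) y (heq ▸ y.2)

end Cfsg.Agent.S4713
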