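import Cfsg.Statements.S4714
import Cfsg.Agent.Brauer.RootBlockCount
import Cfsg.Agent.Block.SecondMain

set_option autoImplicit false
open Cfsg

namespace Cfsg.Agent.S4714

/-- Let p be a prime, M a maximal ideal of the algebraic integers containing p, D a p-subgroup of the finite group G with G = D·C_G(D), and B a p-block with defect group D. Let χ be a member of B having D in its kernel (there is exactly one, the canonical character of B). Then the irreducible characters in B are exactly the functions θ on G for which there is an irreducible character ζ of D such that θ(yx) = ζ(y)χ(x) whenever y ∈ D, x has order prime to p and x commutes with y, and θ(z) = 0 whenever the p-part of z does not lie in D. -/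
theorem result {G : Type*} [Group G] [Finite G] (p : ℕ) [Fact p.Prime] (M : Ideal Cfsg.AlgInt) (hM : Cfsg.IsPModular p M) (D : Subgroup G) (hD : IsPGroup p D) (hG : D ⊔ Subgroup.centralizer (D : Set G) = ⊤) (B : Set (Cfsg.IrrCharacter G)) (hB : Cfsg.IsPBlock M B) (hBD : Cfsg.IsDefectGroup p M B D) (χ : Cfsg.IrrCharacter G) (hχ : χ ∈ B) (hχD : ∀ y ∈ D, (χ : G → ℂ) y = (χ : G → ℂ) 1) : (∀ θ : Cfsg.IrrCharacter G, θ ∈ B ↔ ∃ ζ : Cfsg.IrrCharacter D, (∀ (y : D) (x : G), ¬ p ∣ orderOf x → Commute (y : G) x → (θ : G → ℂ) ((y : G) * x) = (ζ : D → ℂ) y * (χ : G → ℂ) x) ∧ (∀ z : G, (∀ y : G, Cfsg.IsPPart p z y → y ∉ D) → (θ : G → ℂ) z = 0)) ∧ ∀ ζ : Cfsg.IrrCharacter D, ∃ θ ∈ B, (∀ (y : D) (x : G), ¬ p ∣ orderOf x → Commute (y : G) x → (θ : G → ℂ) ((y : G) * x) = (ζ : D → ℂ) y * (χ : G → ℂ) x) ∧ (∀ z : G, (∀ y : G, Cfsg.IsPPart p z y → y ∉ D) → (θ : G → ℂ) z = 0) := by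
  classical
  haveI : M.IsPrime := hM.2.1.isPrime
  haveI := Fintype.ofFinite G
  have R : Brauer.RootData M p D B := ⟨hM, hG, hB, hBD⟩
  have hp := hM.1
  have key : ∀ θ : Cfsg.IrrCharacter G, θ ∈ B → ∀ ζ : Cfsg.IrrCharacter D,
      Brauer.RootData.onDefect D (χ : G → ℂ) (θ : G → ℂ) = (ζ : D → ℂ) →
      (∀ (y : D) (x : G), ¬ p ∣ orderOf x → Commute (y : G) x →
          (θ : G → ℂ) ((y : G) * x) = (ζ : D → ℂ) y * (χ : G → ℂ) x) ∧
        (∀ z : G, (∀ y : G, Cfsg.IsPPart p z y → y ∉ D) → (θ : G → ℂ) z = 0) := by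
    intro θ hθ ζ hζ
    refine ⟨fun y x hx _ => ?_, fun z hz => R.vanish hθ (hz _ (Block.isPPart_pPart hp z))⟩
    rw [R.apply_section hχ hχD hθ y hx, ← hζ]
    rfl
  have hex : ∀ ζ : Cfsg.IrrCharacter D, ∃ θ ∈ B,
      (∀ (y : D) (x : G), ¬ p ∣ orderOf x → Commute (y : G) x →
          (θ : G → ℂ) ((y : G) * x) = (ζ : D → ℂ) y * (χ : G → ℂ) x) ∧
        (∀ z : G, (∀ y : G, Cfsg.IsPPart p z y → y ∉ D) → (θ : G → ℂ) z = 0) := by
    intro ζ
    obtain ⟨θ, hθ, hζ⟩ := R.exists_onDefect_eq hχ hχD ζ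
    exact ⟨θ, hθ, key θ hθ ζ hζ⟩
  refine ⟨fun θ => ⟨fun hθ => ?_, ?_⟩, hex⟩
  · exact ⟨⟨_, R.isIrrCharacter_onDefect hχ hχD hθ⟩, key θ hθ _ rfl⟩
  · rintro ⟨ζ, h1, h2⟩
    obtain ⟨θ', hθ', h1', h2'⟩ := hex ζ
    suffices h : θ = θ' from h ▸ hθ'
    refine Subtype.ext (funext fun z => ?_)
    by_cases hz : Element.pPart p z ∈ D
    · have hc : ¬ p ∣ orderOf (Element.pComplPart p z) :=
        hp.coprime_iff_not_dvd.1 (Element.coprime_orderOf_pComplPart hp z).symm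
      have e := Element.pPart_mul_pComplPart p z
      have hcomm := Element.commute_pPart_pComplPart p z
      rw [← e]
      exact (h1 ⟨_, hz⟩ _ hc hcomm).trans (h1' ⟨_, hz⟩ _ hc hcomm).symm
    · have hv : ∀ y : G, Cfsg.IsPPart p z y → y ∉ D := fun y hy =>
        Block.pPart_eq_of_isPPart hp hy ▸ hz
      rw [h2 z hv, h2' z hv]

end Cfsg.Agent.S4714
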