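import Cfsg.Statements.S4715
import Cfsg.Agent.BlockHeight.MajorPairs
import Cfsg.Agent.BlockCover.HarrisKnorr

set_option autoImplicit false
set_option linter.style.haveILetI false
open Cfsg

namespace Cfsg.Agent.S4715

/-- Let p be a prime, M a maximal ideal of the algebraic integers containing p, B a p-block of the finite group G with defect group D of order p^d, H = D·C_G(D), b a block of H inducing B, T the stabilizer of b in N_G(D) and e = [T : H] the inertial index of B; let n be the integer with p^n ≤ e < p^(n+1) and p^c the order of the centre of D. Then every irreducible character in B has height h with h + c ≤ n + d. -/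
theorem result {G : Type*} [Group G] [Finite G] (p : ℕ) [Fact p.Prime] (M : Ideal Cfsg.AlgInt) (hM : Cfsg.IsPModular p M) (B : Set (Cfsg.IrrCharacter G)) (hB : Cfsg.IsPBlock M B) (D : Subgroup G) (hBD : Cfsg.IsDefectGroup p M B D) (d : ℕ) (hDd : Nat.card D = p ^ d) (H : Subgroup G) (hH : H = D ⊔ Subgroup.centralizer (D : Set G)) (b : Set (Cfsg.IrrCharacter H)) (hind : Cfsg.IsInducedBlock M H b B) (T : Subgroup G) (hT : ∀ g : G, g ∈ T ↔ (g ∈ Subgroup.normalizer (D : Set G) ∧ ∀ θ ∈ b, ∀ θ' : Cfsg.IrrCharacter H, (∀ h h' : H, (h' : G) = g * h * g⁻¹ → (θ' : H → ℂ) h' = (θ : H → ℂ) h) → θ' ∈ b)) (e : ℕ) (he : H.relIndex T = e) (n : ℕ) (hn : p ^ n ≤ e ∧ e < p ^ (n + 1)) (c : ℕ) (hc : Nat.card (Subgroup.center D) = p ^ c) : ∀ χ ∈ B, Cfsg.blockHeight p B (χ : G → ℂ) + c ≤ n + d := by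
  intro χ hχ
  subst hH he
  haveI := Fintype.ofFinite G
  haveI : M.IsPrime := Block.isPrime_of_isPModular hM
  haveI := Block.charP_resF (M := M) hM
  obtain ⟨B, rfl⟩ : ∃ BB : BrauerPairs.Blk M G, BB.1 = B := ⟨⟨B, hB⟩, rfl⟩
  obtain ⟨b, rfl⟩ : ∃ bb : BrauerPairs.Blk M (D ⊔ Subgroup.centralizer (D : Set G) : Subgroup G),
      bb.1 = b := ⟨⟨b, hind.1⟩, rfl⟩
  have hdefB := (BrauerPairs.isDefectGroup_iff B D).1 hBD
  have hD : IsPGroup p D := hdefB.1
  have hCH : Subgroup.centralizer (D : Set G) ≤ D ⊔ Subgroup.centralizer (D : Set G) := le_sup_right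
  have hHN : D ⊔ Subgroup.centralizer (D : Set G) ≤ Subgroup.normalizer (D : Set G) :=
    sup_le Subgroup.le_normalizer (Subgroup.centralizer_le_normalizer _)
  set S := BrauerPairs.blockSys M (D ⊔ Subgroup.centralizer (D : Set G)) with hS
  set P := BrauerPairs.pairSys M G D with hP
  have htr : BrauerPairs.trunc D (S.idem b) = S.idem b :=
    BrauerPairs.trunc_idem_eq_self hD le_sup_left hHN (S.central_idem b) (S.idem_mul_self b)
  have haC : BrauerPairs.CentralIn (Subgroup.centralizer (D : Set G)) (S.idem b) :=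
    ⟨BrauerPairs.trunc_eq_self_iff.1 htr, (S.central_idem b).fixed.mono hCH⟩
  obtain ⟨c', hc'⟩ := P.exists_lam_one haC (S.idem_mul_self b) (S.idem_ne_zero b)
  obtain ⟨E, hE, -⟩ := BrauerPairs.exists_blk_stab (a := ⟨D, c'⟩) hD hCH le_sup_left
    (sup_le (BrauerPairs.self_le_stab (⟨D, c'⟩ : BrauerPairs.PairIdx M G)) (BrauerPairs.centralizer_le_stab (⟨D, c'⟩ : BrauerPairs.PairIdx M G)))
  have hEb : E = b := by
    by_contra hne
    have h1 : S.idem b * P.idem c' = P.idem c' :=
      P.mul_idem_eq_of_lam_one haC (S.idem_mul_self b) hc'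
    rw [← show S.idem E = P.idem c' from hE, S.idem_mul_ne b E (Ne.symm hne)] at h1
    exact S.idem_ne_zero E h1.symm
  subst hEb
  have hcb : S.idem E = P.idem c' := hE
  have hpair : BrauerPairs.PairOf (BrauerPairs.blockSysTop M) (BrauerPairs.pairSys M G) p B
      ⟨D, c'⟩ := by
    refine ⟨hD, ?_⟩
    have hfix : BrauerPairs.Fixed (D ⊔ Subgroup.centralizer (D : Set G))
        ((BrauerPairs.blockSysTop M).idem B) :=
      ((BrauerPairs.blockSysTop M).central_idem B).fixed.mono le_top
    haveI := Fintype.ofFinite (D ⊔ Subgroup.centralizer (D : Set G) : Subgroup G)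
    have h1 : S.lam E ((BrauerPairs.blockSysTop M).idem B) = 1 := by
      show Block.lam M _ (Block.restr _ _) = 1
      rw [Block.lam_restr_of_isInducedBlock hind (BrauerPairs.blkChar_mem M E)
        (BrauerPairs.blkChar_mem M B) (BrauerPairs.isCentralElt_of_centralIn_top
          ((BrauerPairs.blockSysTop M).central_idem B))]
      exact (BrauerPairs.blockSysTop M).lam_idem_self B
    rw [BlockCover.lam_eq_lam_trunc hD le_sup_left hHN E hfix fun g hg _ => hCH hg] at h1
    set a := BrauerPairs.trunc D ((BrauerPairs.blockSysTop M).idem B)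
    have haH : BrauerPairs.CentralIn (D ⊔ Subgroup.centralizer (D : Set G)) a :=
      ⟨fun g hg => BrauerPairs.coeff_trunc_notMem _ fun h => hg (hCH h), hfix.trunc hHN⟩
    have haC' : BrauerPairs.CentralIn (Subgroup.centralizer (D : Set G)) a :=
      ⟨fun g hg => BrauerPairs.coeff_trunc_notMem _ hg, haH.fixed.mono hCH⟩
    have h2 : a * a = a := by
      rw [← BrauerPairs.trunc_mul hD (hfix.mono le_sup_left) (hfix.mono le_sup_left),
        (BrauerPairs.blockSysTop M).idem_mul_self]
    have h3 := congrArg (P.lam c') (S.mul_idem_eq_of_lam_one haH h2 h1)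
    rw [P.lam_mul c' _ _ haC' haC, hc', mul_one] at h3
    exact h3
  have hmax := BrauerPairs.maxPair_of_isDef hpair hdefB
  have hT' : T = BrauerPairs.stab (⟨D, c'⟩ : BrauerPairs.PairIdx M G) := by
    ext g
    rw [hT]
    refine and_congr_right fun hg => ?_
    have hgH : g ∈ Subgroup.normalizer
        ((D ⊔ Subgroup.centralizer (D : Set G) : Subgroup G) : Set G) := by
      refine BlockHeight.mem_normalizer_sup hg ?_
      exact BrauerPairs.normalizer_le_normalizer_centralizer D hg
    show _ ↔ BrauerPairs.cj g (P.idem c') = P.idem c'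
    rw [← hcb]
    refine Iff.trans ?_ ((BrauerPairs.stabilizesBlock_iff E g).trans (and_iff_right hgH))
    have hmap := BrauerPairs.map_conj_of_mem_normalizer hgH
    constructor
    · intro h
      refine ⟨hgH, fun θ hθ => ?_⟩
      refine ⟨⟨_, BrauerPairs.isIrrCharacter_comp_conjEquiv g hmap θ.2⟩, h θ hθ _ fun k k' hk => ?_,
        fun k k' hk => ?_⟩ <;>
      · show (θ : _ → ℂ) ((BrauerPairs.conjEquiv g hmap).symm k') = (θ : _ → ℂ) k
        refine congrArg _ (Subtype.ext ?_)
        show g⁻¹ * (k' : G) * g = k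
        rw [hk]; group
    · intro h θ hθ θ' hrel
      obtain ⟨θ'', hθ'', hrel'⟩ := h.2 θ hθ
      have : θ' = θ'' := by
        refine Subtype.ext (funext fun k' => ?_)
        have hk : (k' : G) = g * (((BrauerPairs.conjEquiv g hmap).symm k' :
            (D ⊔ Subgroup.centralizer (D : Set G) : Subgroup G)) : G) * g⁻¹ := by
          show (k' : G) = g * (g⁻¹ * (k' : G) * g) * g⁻¹
          group
        rw [hrel _ k' hk, hrel' _ k' hk]
      rw [this]
      exact hθ''
  subst hT'
  have key := BlockHeight.pow_height_mul_center_le hM hmax hχ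
  have hd := Block.card_isDefectGroup hM B.2 hBD
  rw [hc, ← pow_add] at key
  rw [hDd] at hd
  rw [← Nat.pow_right_injective (Fact.out : p.Prime).two_le hd] at key
  have h4 : p ^ (blockHeight p B.1 (χ : G → ℂ) + c) < p ^ (n + 1 + d) := by
    rw [pow_add p (n + 1)]
    exact key.trans_lt (Nat.mul_lt_mul_of_pos_right hn.2 (pow_pos (Fact.out : p.Prime).pos d))
  have := (Nat.pow_lt_pow_iff_right (Fact.out : p.Prime).one_lt).1 h4
  omega

end Cfsg.Agent.S4715
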