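import Cfsg.Statements.S4717
import Cfsg.Agent.BrauerPairs.Local
import Cfsg.Agent.BlockVal.SquareSum
import Cfsg.Agent.Brauer.Sections
-- import your own Cfsg.Agent.* helpers here

set_option autoImplicit false
open Cfsg

namespace Cfsg.Agent.S4717

set_option maxHeartbeats 400000

open Cfsg.Agent.BrauerPairs
open Cfsg.Agent.Block (ResF)

universe u

variable {p : ℕ} [Fact p.Prime] {M : Ideal AlgInt} [M.IsPrime] [CharP (ResF M) p] {G : Type u}
  [Group G] [Finite G]

/-- A pair containing the given one gives a nonprincipal block of at least its defect. -/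
theorem exists_nonprincipal_above (hM : IsPModular p M) {Q : Subgroup G} (hQ : IsPGroup p Q)
    (e : Blk M (Subgroup.centralizer (Q : Set G)))
    (hne : e.1 ≠ principalBlock M (Subgroup.centralizer (Q : Set G))) :
    ∃ B : Blk M G, B.1 ≠ principalBlock M G ∧ blockDefect p e.1 ≤ blockDefect p B.1 := by
  classical
  haveI := Fintype.ofFinite G
  haveI := Fintype.ofFinite (Subgroup.centralizer (Q : Set G))
  obtain ⟨B, hB, -⟩ := existsUnique_pairOf (blockSysTop M) (pairSys M G) (p := p) (a := ⟨Q, e⟩) hQ
  refine ⟨B, fun hBp => hne ?_, ?_⟩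
  · obtain rfl : B = princBlk M G := Subtype.ext hBp
    exact congrArg Subtype.val (eq_principal_of_pairOf (S₀ := blockSysTop M) (S := pairSys M G)
      (B₀ := princBlk M G) (fun a ha => lam_principal_top ha)
      (fun P => princBlk M (Subgroup.centralizer (P : Set G)))
      (fun P a ha => lam_principal_sub ha) hB)
  · obtain ⟨D, hD⟩ := (pairSys M G Q).exists_isDefIn (p := p) e
    obtain ⟨hDC, hDp, hDne, -⟩ := id hD
    have hde : Nat.card D = p ^ blockDefect p e.1 := by
      rw [← Nat.card_congr (Subgroup.subgroupOfEquivOfLe hDC).toEquiv]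
      refine BlockVal.card_defectGroup hM e.2 ((isDefectGroup_subgroupOf_iff e).2 ?_)
      rwa [inf_of_le_left hDC]
    have hec := (pairSys M G Q).central_idem e
    have hDN : D ≤ Subgroup.normalizer (Q : Set G) :=
      hDC.trans (Subgroup.centralizer_le_normalizer _)
    have hR : IsPGroup p (Q ⊔ D : Subgroup G) := isPGroup_sup_of_le_normalizer hQ hDp hDN
    have hBc := (blockSysTop M).central_idem B
    have hne' : trunc (Q ⊔ D) ((blockSysTop M).idem B) ≠ 0 := by
      intro h0
      have hfix : Fixed (Q ⊔ D) ((pairSys M G Q).idem e) :=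
        fixed_sup (fixed_self_of_suppIn hec.supp) (hec.fixed.mono hDC)
      have hfixB : Fixed (Q ⊔ D) (trunc Q ((blockSysTop M).idem B)) :=
        (hBc.fixed.mono le_top).trunc (sup_le Subgroup.le_normalizer hDN)
      have h1 := congrArg (trunc (Q ⊔ D)) hB.mul_idem
      rw [trunc_mul hR hfixB hfix, trunc_trunc le_sup_left, h0, zero_mul, trunc_sup_eq hec.supp] at h1
      exact hDne h1.symm
    obtain ⟨P, b, hb⟩ : ∃ (P : Subgroup G) (b : Blk M (Subgroup.centralizer (P : Set G))),
        MaxPair (blockSysTop M) (pairSys M G) p B ⟨P, b⟩ := by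
      obtain ⟨a, ha⟩ := exists_pairOf (S₀ := blockSysTop M) (S := pairSys M G) (p := p) B
      obtain ⟨⟨P, b⟩, -, hb⟩ := exists_maxPair_above ha
      exact ⟨P, b, hb⟩
    have hP := BlockVal.card_defectGroup hM B.2 ((isDefectGroup_iff B P).2 hb.isDef)
    obtain ⟨x, hx⟩ := hb.isDef.conjLE hR hne'
    have h2 : Nat.card D ≤ Nat.card P := by
      refine le_trans (Subgroup.card_le_of_le le_sup_right) (le_trans (Subgroup.card_le_of_le hx) ?_)
      rw [Subgroup.card_map_of_injective (MulAut.conj x).injective]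
    rw [hde, hP] at h2
    exact (Nat.pow_le_pow_iff_right (Fact.out : p.Prime).one_lt).1 h2

/-- A nonprincipal block of positive defect gives one for the centralizer of an element of
order `p`. -/
theorem exists_nonprincipal_below (hM : IsPModular p M) (B : Blk M G)
    (hne : B.1 ≠ principalBlock M G) (hd : 0 < blockDefect p B.1) :
    ∃ y : G, orderOf y = p ∧ ∃ f : Blk M (Subgroup.centralizer (Subgroup.zpowers y : Set G)),
      f.1 ≠ principalBlock M (Subgroup.centralizer (Subgroup.zpowers y : Set G)) ∧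
      blockDefect p B.1 ≤ blockDefect p f.1 := by
  classical
  haveI := Fintype.ofFinite G
  have hp : p.Prime := Fact.out
  obtain ⟨a, ha⟩ := exists_pairOf (S₀ := blockSysTop M) (S := pairSys M G) (p := p) B
  obtain ⟨⟨P, b⟩, -, hb⟩ := exists_maxPair_above ha
  have hP := BlockVal.card_defectGroup hM B.2 ((isDefectGroup_iff B P).2 hb.isDef)
  have hPp : IsPGroup p P := hb.1.1
  haveI : Nontrivial P := by
    rw [← Finite.one_lt_card_iff_nontrivial, hP]
    exact Nat.one_lt_pow hd.ne' hp.one_lt
  haveI := hPp.center_nontrivial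
  obtain ⟨k, hk0, hk⟩ := (hPp.to_subgroup (Subgroup.center P)).nontrivial_iff_card.1 inferInstance
  obtain ⟨⟨⟨y, hyP⟩, hyc⟩, hy⟩ := exists_prime_orderOf_dvd_card' p
    (hk ▸ dvd_pow_self p hk0.ne' : p ∣ Nat.card (Subgroup.center P))
  rw [← Subgroup.orderOf_coe, ← Subgroup.orderOf_coe] at hy
  change orderOf y = p at hy
  set Q := Subgroup.zpowers y with hQdef
  have hQP : Q ≤ P := Subgroup.zpowers_le.2 hyP
  have hPC : P ≤ Subgroup.centralizer (Q : Set G) := by
    intro v hv
    rw [hQdef, Brauer.centralizer_zpowers_eq, Subgroup.mem_centralizer_singleton_iff]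
    exact congrArg Subtype.val (Subgroup.mem_center_iff.1 hyc ⟨v, hv⟩)
  obtain ⟨f, hf, -⟩ := existsUnique_sle (S := pairSys M G) (b := ⟨P, b⟩) hPp hQP
  have hfB := (hf.pairOf_iff (S₀ := blockSysTop M) (B := B)).1 hb.1
  refine ⟨y, hy, f, fun hfp => hne ?_, ?_⟩
  · have hQp : IsPGroup p Q := hPp.to_le hQP
    have h1 := pairOf_principal (S₀ := blockSysTop M) (S := pairSys M G) (p := p)
      (B₀ := princBlk M G) (fun a ha => lam_principal_top ha)
      (fun P => princBlk M (Subgroup.centralizer (P : Set G)))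
      (fun P a ha => lam_principal_sub ha) hQp
    obtain rfl : f = princBlk M (Subgroup.centralizer (Q : Set G)) := Subtype.ext hfp
    exact congrArg Subtype.val ((existsUnique_pairOf (blockSysTop M) (pairSys M G) (p := p)
      (a := ⟨Q, princBlk M _⟩) hQp).unique hfB h1)
  · haveI := Fintype.ofFinite (Subgroup.centralizer (Q : Set G))
    have hne2 : trunc (P ⊓ Subgroup.centralizer (Q : Set G)) ((pairSys M G Q).idem f) ≠ 0 :=
      (trunc_inf_ne_zero (H := Subgroup.centralizer (Q : Set G)) hPp hf
        (Subgroup.centralizer_le_normalizer _)).1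
    rw [inf_of_le_left hPC] at hne2
    obtain ⟨D, hD, hPD⟩ := exists_defect_ge f hPC hPp hne2
    have h2 := Subgroup.card_le_of_le hPD
    rw [BlockVal.card_defectGroup hM f.2 hD,
      Nat.card_congr (Subgroup.subgroupOfEquivOfLe hPC).toEquiv, hP] at h2
    exact (Nat.pow_le_pow_iff_right hp.one_lt).1 h2

/-- Let p be a prime, M a maximal ideal of the algebraic integers containing p, and r a natural number; say that a finite group X has deficiency class r when X has no non-principal p-block of defect ≥ r. If G has deficiency class r then so does the centralizer of every p-element of G; conversely, if r > 0 and the centralizer of every element of order p has deficiency class r, then G has deficiency class r. -/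
theorem result {G : Type*} [Group G] [Finite G] (p : ℕ) [Fact p.Prime] (M : Ideal Cfsg.AlgInt) (hM : Cfsg.IsPModular p M) (r : ℕ) : ((∀ B' : Set (Cfsg.IrrCharacter G), Cfsg.IsPBlock M B' → B' ≠ Cfsg.principalBlock M G → Cfsg.blockDefect p B' < r) → ∀ y : G, (∃ k : ℕ, orderOf y = p ^ k) → (∀ B' : Set (Cfsg.IrrCharacter ↥(Subgroup.centralizer ({y} : Set G))), Cfsg.IsPBlock M B' → B' ≠ Cfsg.principalBlock M ↥(Subgroup.centralizer ({y} : Set G)) → Cfsg.blockDefect p B' < r)) ∧ (0 < r → (∀ y : G, orderOf y = p → (∀ B' : Set (Cfsg.IrrCharacter ↥(Subgroup.centralizer ({y} : Set G))), Cfsg.IsPBlock M B' → B' ≠ Cfsg.principalBlock M ↥(Subgroup.centralizer ({y} : Set G)) → Cfsg.blockDefect p B' < r)) → (∀ B' : Set (Cfsg.IrrCharacter G), Cfsg.IsPBlock M B' → B' ≠ Cfsg.principalBlock M G → Cfsg.blockDefect p B' < r)) := by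
  haveI : M.IsPrime := Cfsg.Agent.Block.isPrime_of_isPModular hM
  haveI := Cfsg.Agent.Block.charP_resF hM
  haveI := Fintype.ofFinite G
  constructor
  · intro h y hy
    obtain ⟨k, hk⟩ := hy
    rw [← Cfsg.Agent.Brauer.centralizer_zpowers_eq]
    intro B' hB' hne
    obtain ⟨B, hB, hle⟩ := exists_nonprincipal_above hM
      (IsPGroup.of_card (n := k) (by rw [Nat.card_zpowers, hk]) : IsPGroup p (Subgroup.zpowers y))
      ⟨B', hB'⟩ hne
    exact hle.trans_lt (h B.1 B.2 hB)
  · intro hr h B' hB' hne
    by_contra hlt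
    obtain ⟨y, hy, f, hf, hle⟩ := exists_nonprincipal_below hM ⟨B', hB'⟩ hne
      (hr.trans_le (not_lt.1 hlt))
    have h' := h y hy
    rw [← Cfsg.Agent.Brauer.centralizer_zpowers_eq] at h'
    exact hlt (hle.trans_lt (h' f.1 f.2 hf))

end Cfsg.Agent.S4717
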