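import Cfsg.Statements.S4718
import Cfsg.Agent.BlocksChar.RegularAverage
import Cfsg.Agent.BlocksChar.Landau
-- import your own Cfsg.Agent.* helpers here

set_option autoImplicit false
universe u
open Cfsg

namespace Cfsg.Agent.S4718

/-- Let p be a prime and a a natural number. There is a bound N such that every finite group whose Sylow p-subgroups have order p^a and whose only p-block (relative to a maximal ideal of the algebraic integers containing p) is the principal block has order at most N. -/
theorem result (p : ℕ) [Fact p.Prime] (a : ℕ) : ∃ N : ℕ, ∀ (G : Type u) [Group G] [Finite G] (M : Ideal Cfsg.AlgInt), Cfsg.IsPModular p M → (Nat.card G).factorization p = a → (∀ B : Set (Cfsg.IrrCharacter G), Cfsg.IsPBlock M B → B = Cfsg.principalBlock M G) → Nat.card G ≤ N := by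
  obtain ⟨N, hN⟩ := Cfsg.Agent.BlocksChar.landau.{u} ((p ^ a) ^ 2)
  refine ⟨N, fun G _ _ M hM ha hone => hN G ?_⟩
  letI := Fintype.ofFinite G
  haveI : M.IsPrime := hM.2.1.isPrime
  have hall : Cfsg.principalBlock M G = Set.univ := Set.eq_univ_of_forall fun χ => by
    rw [← hone _ (Cfsg.Agent.Block.isPBlock_blockOf χ)]
    exact Cfsg.Agent.Block.mem_blockOf_self χ
  have h := Cfsg.Agent.BlocksChar.card_principalBlock_le (G := G) hM
  rw [hall, Nat.card_univ, ha, Cfsg.Agent.Char.card_irr_eq_card_conjClasses] at h
  exact h

end Cfsg.Agent.S4718
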