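import Cfsg.Statements.S4719
import Cfsg.Agent.S4718
import Cfsg.Agent.Block.Induced
import Cfsg.Agent.Brauer.RegElement
import Cfsg.Agent.BlockVal.SquareSum
import Cfsg.Agent.BlocksChar.BoundedInvolution

set_option autoImplicit false
universe u
open Cfsg

namespace Cfsg.Agent.S4719

open Cfsg.Agent.Block in
/-- A block of the centraliser of a `p`-subgroup larger than the defects of the non-principal
blocks is principal. -/
theorem eq_principal_of_defect_lt {G : Type u} [Group G] [Finite G] {p : ℕ} [Fact p.Prime]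
    {M : Ideal AlgInt} (hM : IsPModular p M) {r : ℕ}
    (hB : ∀ B : Set (IrrCharacter G), IsPBlock M B → B ≠ principalBlock M G → blockDefect p B < r)
    {F : Subgroup G} (hF : IsPGroup p F) (hFc : F ≤ Subgroup.centralizer (F : Set G))
    (hcard : p ^ r ∣ Nat.card F) {b : Set (IrrCharacter (Subgroup.centralizer (F : Set G)))}
    (hb : IsPBlock M b) : b = principalBlock M (Subgroup.centralizer (F : Set G)) := by
  classical
  letI := Fintype.ofFinite G
  haveI : M.IsPrime := hM.2.1.isPrime
  letI := Fintype.ofFinite (Subgroup.centralizer (F : Set G))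
  set C := Subgroup.centralizer (F : Set G) with hC
  have hCN : C ≤ Subgroup.normalizer (F : Set G) := fun c hc => by
    rw [Subgroup.mem_normalizer_iff]
    intro f
    have key : ∀ f' ∈ F, c * f' * c⁻¹ = f' := fun f' hf' => by
      rw [← hc f' hf', mul_inv_cancel_right]
    refine ⟨fun hf => by rw [key f hf]; exact hf, fun hf => ?_⟩
    have h2 := key _ hf
    have h3 : c * f * c⁻¹ = f := mul_left_cancel (a := c) (mul_right_cancel (b := c⁻¹) h2)
    rwa [h3] at hf
  obtain ⟨B, hind⟩ := inducedBlockDefined_of_brauer hM hF hFc le_rfl hCN hb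
  by_cases hBp : B = principalBlock M G
  · exact (Brauer.isInducedBlock_principal_iff hM C hind).mp hBp
  exfalso
  obtain ⟨ξ, hξ⟩ := pBlock_nonempty hb
  obtain ⟨χ, hχ⟩ := pBlock_nonempty hind.2.1
  have h1 := lam_restr_of_isInducedBlock hind hξ hχ (idemF_isCentralElt (M := M) B)
  rw [lam_idemF_of_mem hind.2.1 hχ,
    lam_restr_eq_lam_brauerRestr hM hF hFc hCN ξ.2 (idemF_isCentralElt B)] at h1
  have h0 : brauerRestr F C (idemF M B) = 0 := by
    refine groupAlgebra_ext fun x => ?_
    rw [brauerRestr, coeff_restr]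
    rw [coeff_trunc_of_mem _ x.2]
    change (idemF M B).coeff (x : G) = 0
    by_contra hne
    obtain ⟨-, hle⟩ := BlockVal.defect_le_of_blockCoeff_unit hM hind.2.1
      ((coeff_idemF_ne_zero_iff hind.2.1 (x : G)).1 hne)
    have hlt := hB B hind.2.1 hBp
    have hsub : F ≤ Subgroup.centralizer ({(x : G)} : Set G) :=
      le_centralizer_singleton_iff.2 x.2
    have hdvd : p ^ r ∣ Nat.card (Subgroup.centralizer ({(x : G)} : Set G)) :=
      hcard.trans (Subgroup.card_dvd_of_le hsub)
    have := ((Fact.out : p.Prime).pow_dvd_iff_le_factorization Nat.card_pos.ne').1 hdvd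
    omega
  rw [h0, lam_zero] at h1
  exact zero_ne_one h1

/-- Adjoining a commuting involution doubles a subgroup. -/
theorem card_sup_zpowers {G : Type u} [Group G] [Finite G] {F : Subgroup G} {x : G}
    (hxx : x * x = 1) (hx : x ∉ F) (hc : ∀ f ∈ F, f * x = x * f) :
    Nat.card ↥(F ⊔ Subgroup.zpowers x) = 2 * Nat.card F := by
  have hxinv : x⁻¹ = x := inv_eq_of_mul_eq_one_right hxx
  let K : Subgroup G :=
    { carrier := {u | u ∈ F ∨ u * x ∈ F}
      one_mem' := Or.inl F.one_mem
      mul_mem' := fun {u v} hu hv => by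
        have hcv : v * x ∈ F → x * v = v * x := fun h => by
          have h2 := hc _ h
          calc x * v = x * (v * x) * x⁻¹ := by group
            _ = (v * x) * x * x⁻¹ := by rw [h2]
            _ = v * x := by group
        rcases hu with hu | hu <;> rcases hv with hv | hv
        · exact Or.inl (F.mul_mem hu hv)
        · exact Or.inr (by rw [mul_assoc]; exact F.mul_mem hu hv)
        · refine Or.inr ?_
          rw [show u * v * x = (u * x) * (x⁻¹ * (v * x)) by group, hc v hv, inv_mul_cancel_left]
          exact F.mul_mem hu hv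
        · refine Or.inl ?_
          rw [show u * v = (u * x) * (x⁻¹ * v) by group, hxinv, hcv hv]
          exact F.mul_mem hu hv
      inv_mem' := fun {u} hu => by
        rcases hu with hu | hu
        · exact Or.inl (F.inv_mem hu)
        · refine Or.inr ?_
          rw [show u⁻¹ * x = x * (u * x)⁻¹ * x by group, ← hc _ (F.inv_mem hu), mul_assoc, hxx,
            mul_one]
          exact F.inv_mem hu }
  have hsup : F ⊔ Subgroup.zpowers x = K := by
    refine le_antisymm (sup_le (fun u hu => Or.inl hu)
      (Subgroup.zpowers_le.2 (Or.inr (hxx.symm ▸ F.one_mem)))) ?_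
    rintro u (hu | hu)
    · exact Subgroup.mem_sup_left hu
    · have := Subgroup.mul_mem_sup hu (Subgroup.inv_mem _ (Subgroup.mem_zpowers x))
      rwa [mul_inv_cancel_right] at this
  rw [hsup]
  classical
  have hcast : Nat.card K = Nat.card (F ⊕ F) := by
    refine (Nat.card_eq_of_bijective (Sum.elim (fun f : F => (⟨f, Or.inl f.2⟩ : K))
      (fun f : F => (⟨f * x, Or.inr (by rw [mul_assoc, hxx, mul_one]; exact f.2)⟩ : K))) ⟨?_, ?_⟩).symm
    · rintro (⟨f, hf⟩ | ⟨f, hf⟩) (⟨g, hg⟩ | ⟨g, hg⟩) h <;>
        have h' := congrArg Subtype.val h <;>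
        simp only [Sum.elim_inl, Sum.elim_inr] at h'
      · simp only [h']
      · exact absurd ((F.mul_mem_cancel_left hg).1 (h' ▸ hf)) hx
      · exact absurd ((F.mul_mem_cancel_left hf).1 (h'.symm ▸ hg)) hx
      · simp only [mul_right_cancel h']
    · rintro ⟨u, hu | hu⟩
      · exact ⟨Sum.inl ⟨u, hu⟩, rfl⟩
      · exact ⟨Sum.inr ⟨u * x, hu⟩, Subtype.ext (by simp [mul_assoc, hxx])⟩
  rw [hcast, Nat.card_sum, two_mul]

/-- For every natural number a there is a bound N with the following property. Let G be a finite group with Sylow 2-subgroups of order 2^a and r ≥ 0 such that G has no non-principal 2-block (relative to a maximal ideal of the algebraic integers containing 2) of defect ≥ r, and suppose a Sylow 2-subgroup of G contains an elementary abelian subgroup of order 2^(r+1). Then the order of G is at most N. -/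
theorem result (a : ℕ) : ∃ N : ℕ, ∀ (G : Type u) [Group G] [Finite G] (M : Ideal Cfsg.AlgInt) (r : ℕ) (P : Sylow 2 G), Cfsg.IsPModular 2 M → Nat.card P = 2 ^ a → (∀ B : Set (Cfsg.IrrCharacter G), Cfsg.IsPBlock M B → B ≠ Cfsg.principalBlock M G → Cfsg.blockDefect 2 B < r) → (∃ E : Subgroup G, E ≤ (P : Subgroup G) ∧ IsMulCommutative E ∧ (∀ x ∈ E, x * x = 1) ∧ Nat.card E = 2 ^ (r + 1)) → Nat.card G ≤ N := by
  haveI : Fact (Nat.Prime 2) := ⟨Nat.prime_two⟩
  choose N1 hN1 using fun a' : Fin (a + 1) => Cfsg.Agent.S4718.result.{u} 2 (a' : ℕ)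
  choose Bf hBf using fun m => Cfsg.Agent.BlocksChar.card_bounded.{u} a m
  let f : ℕ → ℕ := fun j => Bf^[j] (Finset.univ.sup N1)
  refine ⟨(Finset.range (a + 1)).sup f, ?_⟩
  rintro G _ _ M r P hM hP hdef ⟨E, hEP, hEc, hExx, hEcard⟩
  classical
  letI := Fintype.ofFinite G
  have hcomm : ∀ u ∈ E, ∀ v ∈ E, u * v = v * u := fun u hu v hv =>
    congrArg Subtype.val (mul_comm' (⟨u, hu⟩ : E) ⟨v, hv⟩)
  have hra : r < a := by
    have h1 := Subgroup.card_dvd_of_le hEP
    rw [hEcard, hP, Nat.pow_dvd_pow_iff_le_right (by norm_num)] at h1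
    omega
  have hG2 : (Nat.card G).factorization 2 = a := by
    have h1 := P.card_eq_multiplicity
    rw [hP] at h1
    exact (Nat.pow_right_injective le_rfl h1).symm
  have hEC : ∀ F : Subgroup G, F ≤ E → E ≤ Subgroup.centralizer (F : Set G) :=
    fun F hF u hu v hv => hcomm v (hF hv) u hu
  have hfac : ∀ C : Subgroup G, (Nat.card C).factorization 2 ≤ a := fun C => hG2 ▸
    (Nat.factorization_le_iff_dvd Nat.card_pos.ne' Nat.card_pos.ne').mpr
      (Subgroup.card_subgroup_dvd_card C) 2
  have main : ∀ j, j ≤ r → ∀ F : Subgroup G, F ≤ E → Nat.card F = 2 ^ (r - j) →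
      Nat.card (Subgroup.centralizer (F : Set G)) ≤ f j := by
    intro j
    induction j with
    | zero =>
      intro _ F hFE hFcard
      rw [Nat.sub_zero] at hFcard
      refine le_trans (hN1 ⟨_, Nat.lt_succ_of_le (hfac _)⟩ _ M hM rfl fun b hb => ?_)
        (Finset.le_sup (f := N1) (Finset.mem_univ _))
      exact eq_principal_of_defect_lt hM hdef (IsPGroup.of_card hFcard)
        (hFE.trans (hEC F hFE)) (hFcard.symm ▸ dvd_rfl) hb
    | succ j ih =>
      intro hj F hFE hFcard
      have hlt : ∀ K : Subgroup G, Nat.card K < Nat.card E → ∃ u ∈ E, u ∉ K := by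
        intro K hK
        by_contra hc
        push Not at hc
        exact absurd (Subgroup.card_le_of_le (hc : E ≤ K)) (not_le.2 hK)
      have h2 : Nat.card F * 2 = 2 ^ (r - j) := by
        rw [hFcard, ← pow_succ]; congr 1; omega
      have h3 : 2 ^ (r - j) < 2 ^ (r + 1) := Nat.pow_lt_pow_right (by norm_num) (by omega)
      obtain ⟨x, hxE, hxF⟩ := hlt F (by rw [hEcard]; omega)
      have hFx := card_sup_zpowers (hExx x hxE) hxF fun v hv => hcomm v (hFE hv) x hxE
      have hFxE : F ⊔ Subgroup.zpowers x ≤ E := sup_le hFE (Subgroup.zpowers_le.2 hxE)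
      obtain ⟨y, hyE, hyF⟩ := hlt (F ⊔ Subgroup.zpowers x) (by rw [hEcard, hFx]; omega)
      set C := Subgroup.centralizer (F : Set G) with hC
      have hmemC : ∀ u ∈ E, u ∈ C := fun u hu => hEC F hFE hu
      have hbound : ∀ v : G, ∀ hv : v ∈ E, v ∉ F →
          Nat.card ↥((⊤ : Subgroup C) ⊓
            Subgroup.centralizer ({(⟨v, hmemC v hv⟩ : C)} : Set C)) ≤ f j := by
        intro v hv hvF
        have hFv := card_sup_zpowers (hExx v hv) hvF fun w hw => hcomm w (hFE hw) v hv
        refine le_trans ?_ (ih (by omega) (F ⊔ Subgroup.zpowers v)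
          (sup_le hFE (Subgroup.zpowers_le.2 hv)) (by rw [hFv, mul_comm, h2]))
        refine Nat.card_le_card_of_injective (fun u => (⟨((u.1 : C) : G), ?_⟩ :
          ↥(Subgroup.centralizer ((F ⊔ Subgroup.zpowers v : Subgroup G) : Set G)))) ?_
        · have hu := congrArg Subtype.val (Subgroup.mem_centralizer_singleton_iff.1 u.2.2)
          have hle : F ⊔ Subgroup.zpowers v ≤
              Subgroup.centralizer ({((u.1 : C) : G)} : Set G) :=
            sup_le (Cfsg.Agent.Block.le_centralizer_singleton_iff.2 u.1.2)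
              (Subgroup.zpowers_le.2 (Subgroup.mem_centralizer_singleton_iff.2 hu.symm))
          exact fun w hw => Subgroup.mem_centralizer_singleton_iff.1 (hle hw)
        · intro u w huw
          exact Subtype.ext (Subtype.ext (congrArg Subtype.val huw : _))
      have hxy : x * y ∉ F := fun h => hyF (by
        have := Subgroup.mul_mem_sup h (Subgroup.one_mem (Subgroup.zpowers x))
        rw [mul_one] at this
        have h' := Subgroup.mul_mem (F ⊔ Subgroup.zpowers x)
          (Subgroup.inv_mem _ (Subgroup.mem_sup_right (Subgroup.mem_zpowers x))) this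
        rwa [inv_mul_cancel_left] at h')
      have hb := hBf (f j) C ⊤ ⟨x, hmemC x hxE⟩ ⟨y, hmemC y hyE⟩
        (Subtype.ext (hExx x hxE)) (Subtype.ext (hExx y hyE))
        (Subtype.ext (hcomm x hxE y hyE)) (by rw [Subgroup.card_top]; exact hfac C)
        (hbound x hxE hxF) (hbound y hyE fun h => hyF (Subgroup.mem_sup_left h))
        (hbound (x * y) (E.mul_mem hxE hyE) hxy)
      rw [Subgroup.card_top] at hb
      simpa only [f, Function.iterate_succ_apply'] using hb
  have h := main r le_rfl ⊥ bot_le (by simp)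
  refine le_trans ?_ (h.trans (Finset.le_sup (f := f) (Finset.mem_range.2 (by omega))))
  refine le_of_eq ?_
  rw [← Subgroup.card_top (G := G)]
  congr
  ext; simp [Subgroup.mem_centralizer_iff]

end Cfsg.Agent.S4719
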