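import Cfsg.Statements.S4721
import Cfsg.Agent.BlocksChar.IndexThreeInvolution
import Cfsg.Agent.BlocksChar.IndexThreeArith

set_option autoImplicit false
open Cfsg
open scoped ComplexConjugate

namespace Cfsg.Agent.S4721

set_option maxHeartbeats 1000000

/-- Let p be a prime, M a maximal ideal of the algebraic integers containing p, and G a finite group with a nontrivial abelian Sylow p-subgroup P, N = N_G(P), C = C_G(P), such that N/C is cyclic of order 3, #P > 4, and C_G(y) ∩ N = C for every non-identity y ∈ P. Then the principal p-block is the disjoint union of a set X of exactly 3 characters containing the principal character and a set Y of (#P − 1)/3 characters, with signs a_χ = ±1 (χ ∈ X, a = 1 at the principal character) and δ = ±1 such that every χ ∈ X takes the value a_χ at every element whose p-part is a non-identity element of P, and there is a map ζ from the non-principal linear characters of P onto Y, constant on N-conjugacy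 classes, with ζ_ψ(z) = δ·Σ ψ'(y) over the N-orbit of ψ, for z with p-part y ≠ 1 in P. If moreover G has an involution lying in no proper normal subgroup of G, then exactly two of the three numbers −δ and a_χ (χ ∈ X non-principal) equal −1, and the product of the degrees of the two non-principal members of X and of any member of Y is a perfect square. -/
theorem result {G : Type*} [Group G] [Finite G] (p : ℕ) [Fact p.Prime] (M : Ideal Cfsg.AlgInt) (hM : Cfsg.IsPModular p M) (P : Sylow p G) (hab : IsMulCommutative P) (hP1 : Nat.card P ≠ 1) (hCN : (Subgroup.centralizer ((P : Subgroup G) : Set G)).relIndex (Subgroup.normalizer ((P : Subgroup G) : Set G)) = 3) (hcyc : ∃ g : G, g ∈ Subgroup.normalizer ((P : Subgroup G) : Set G) ∧ Subgroup.centralizer ((P : Subgroup G) : Set G) ⊔ Subgroup.zpowers g = Subgroup.normalizer ((P : Subgroup G) : Set G)) (hm2 : 3 + 1 < Nat.card P) (hfrob : ∀ y : G, y ∈ (P : Subgroup G) → y ≠ 1 → Subgroup.centralizer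 ({y} : Set G) ⊓ Subgroup.normalizer ((P : Subgroup G) : Set G) = Subgroup.centralizer ((P : Subgroup G) : Set G)) : ∃ (X Y : Set (Cfsg.IrrCharacter G)), Cfsg.principalBlock M G = X ∪ Y ∧ Disjoint X Y ∧ Nat.card X = 3 ∧ Nat.card Y = (Nat.card P - 1) / 3 ∧ (∃ χ₁ ∈ X, (χ₁ : G → ℂ) = fun _ => 1) ∧ ∃ (a : Cfsg.IrrCharacter G → ℤ) (δ : ℤ) (ζ : (↥(P : Subgroup G) →* ℂˣ) → Cfsg.IrrCharacter G), (δ = 1 ∨ δ = -1) ∧ (∀ χ ∈ X, (a χ = 1 ∨ a χ = -1) ∧ ∀ z y : G, Cfsg.IsPPart p z y → y ∈ (P : Subgroup G) → y ≠ 1 → (χ : G → ℂ) z = (a χ : ℂ)) ∧ (∀ ψ : ↥(P : Subgroup G) →* ℂˣ, ψ ≠ 1 → ζ ψ ∈ Y) ∧ (∀ η ∈ Y, ∃ ψ : ↥(P : Subgroup G) →* ℂˣ, ψ ≠ 1 ∧ ζ ψ = η) ∧ (∀ ψ ψ' : ↥(P : Subgroup G) →* ℂˣ, ψ ≠ 1 → (∃ n : G, n ∈ Subgroup.normalizer ((P : Subgroup G) : Set G) ∧ ∀ w w' : ↥(P : Subgroup G), (w' : G) = n * w * n⁻¹ → ψ' w' = ψ w) → ζ ψ' = ζ ψ) ∧ (∀ ψ : ↥(P : Subgroup G) →* ℂˣ, ψ ≠ 1 → ∀ (z : G) (y : ↥(P : Subgroup G)), Cfsg.IsPPart p z (y : G) → (y : G) ≠ 1 →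 (ζ ψ : G → ℂ) z = (δ : ℂ) * ∑ᶠ ψ' ∈ {ψ' : ↥(P : Subgroup G) →* ℂˣ | ∃ n : G, n ∈ Subgroup.normalizer ((P : Subgroup G) : Set G) ∧ ∀ w w' : ↥(P : Subgroup G), (w' : G) = n * w * n⁻¹ → ψ' w' = ψ w}, ((ψ' y : ℂˣ) : ℂ)) ∧ ((∃ t : G, orderOf t = 2 ∧ ∀ K : Subgroup G, K.Normal → t ∈ K → K = ⊤) → Nat.card {χ : Cfsg.IrrCharacter G // χ ∈ X ∧ (χ : G → ℂ) ≠ (fun _ => 1) ∧ a χ = -1} + (if δ = 1 then 1 else 0) = 2 ∧ ∀ η ∈ Y, IsSquare (Cfsg.charDegree (η : G → ℂ) * ∏ᶠ χ ∈ {χ : Cfsg.IrrCharacter G | χ ∈ X ∧ (χ : G → ℂ) ≠ fun _ => 1}, Cfsg.charDegree (χ : G → ℂ))) := by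
  classical
  have hIT : BlocksChar.IndexThree P := ⟨hab, hCN, hfrob⟩
  letI := Fintype.ofFinite G
  haveI : M.IsPrime := hM.2.1.isPrime
  haveI : Finite (↥(P : Subgroup G) →* ℂˣ) := Char.monoidHom_complex_finite
  letI := Fintype.ofFinite (↥(P : Subgroup G) →* ℂˣ)
  haveI : Finite (IrrCharacter G) := CharInd.finite_irrCharacter
  letI := Fintype.ofFinite (IrrCharacter G)
  letI : Fintype (principalBlock M G) := Fintype.ofFinite _
  obtain ⟨K, s, e, ε, o, ho, hoK, hKcard, hso, hspm, hεpm, hev, heq, hcover, hcard⟩ :=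
    hIT.exists_decomp hM hm2
  let a : IrrCharacter G → ℤ := fun χ => if h : χ ∈ principalBlock M G then s ⟨χ, h⟩ else 1
  refine ⟨(fun χ : principalBlock M G => (χ : IrrCharacter G)) '' (K : Set (principalBlock M G)),
    (fun χ : principalBlock M G => (χ : IrrCharacter G)) '' {x | ∃ ψ, ψ ≠ 1 ∧ e ψ = x},
    ?_, ?_, ?_, ?_, ?_, a, -ε, fun ψ => (e ψ : IrrCharacter G), ?_, ?_, ?_, ?_, ?_, ?_, ?_⟩
  · ext χ
    constructor
    · intro hχ
      rcases hcover ⟨χ, hχ⟩ with h | h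
      · exact Or.inl ⟨_, h, rfl⟩
      · exact Or.inr ⟨_, h, rfl⟩
    · rintro (⟨x, -, rfl⟩ | ⟨x, -, rfl⟩) <;> exact x.2
  · rw [Set.disjoint_left]
    rintro χ ⟨x, hx, rfl⟩ ⟨y, ⟨ψ, hψ, rfl⟩, he⟩
    exact (hev ψ hψ).1 ((Subtype.ext he : e ψ = x) ▸ hx)
  · rw [Nat.card_image_of_injective Subtype.val_injective]
    simpa using hKcard
  · rw [Nat.card_image_of_injective Subtype.val_injective, ← hcard,
      Nat.mul_div_cancel_left _ (by norm_num : 0 < 3)]
    rfl
  · exact ⟨_, ⟨o, hoK, rfl⟩, by show ((o : IrrCharacter G) : G → ℂ) = _; rw [ho]; rfl⟩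
  · rcases hεpm with h | h <;> simp [h]
  · rintro _ ⟨x, hx, rfl⟩
    have hax : a x = s x := by simp [a, x.2]
    refine ⟨hax ▸ hspm x hx, fun z y hzy hy hy1 => ?_⟩
    have hne : (⟨y, hy⟩ : ↥(P : Subgroup G)) ≠ 1 := fun e => hy1 (congrArg Subtype.val e)
    rw [hax, hIT.value_eq hM x.2 hzy hy hy1,
      show y = ((⟨y, hy⟩ : ↥(P : Subgroup G)) : G) from rfl, hIT.apply_eq_neg_sum _ hne,
      Finset.sum_congr rfl (g := fun ψ : ↥(P : Subgroup G) →* ℂˣ =>
        (s x : ℂ) * (ψ ⟨y, hy⟩ : ℂ) - if ψ = 1 then (s x : ℂ) else 0) (fun ψ _ => by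
          split_ifs with h1
          · rw [h1, BlocksChar.oneSubInt_one]; simp
          · rw [(hev ψ h1).2.2.1 x hx, sub_zero])]
    rw [Finset.sum_sub_distrib, ← Finset.mul_sum, BlocksChar.sum_linear hIT.commute_sub,
      if_neg hne]
    simp
  · exact fun ψ hψ => ⟨_, ⟨ψ, hψ, rfl⟩, rfl⟩
  · rintro _ ⟨x, ⟨ψ, hψ, rfl⟩, rfl⟩
    exact ⟨ψ, hψ, rfl⟩
  · intro ψ ψ' hψ hrel
    show (e ψ' : IrrCharacter G) = (e ψ : IrrCharacter G)
    rw [show e ψ' = e ψ from
      ((heq ψ ψ' hψ (BlocksChar.ConjLin.ne_one hrel hψ)).2 hrel).symm]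
  · intro ψ hψ z y hzy hy
    have hne : y ≠ 1 := fun e => hy (by rw [e]; rfl)
    rw [hIT.value_eq hM (e ψ).2 hzy y.2 hy, hIT.apply_eq_neg_sum _ hne,
      finsum_mem_eq_toFinset_sum,
      Finset.sum_congr rfl (g := fun ψ' : ↥(P : Subgroup G) →* ℂˣ =>
        if BlocksChar.ConjLin P ψ ψ' then (ε : ℂ) * (ψ' y : ℂ) else 0) (fun ψ' _ => by
          split_ifs with hrel
          · have h1 := BlocksChar.ConjLin.ne_one hrel hψ
            rw [(heq ψ ψ' hψ h1).2 hrel, (hev ψ' h1).2.1]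
          · rcases eq_or_ne ψ' 1 with rfl | h1
            · rw [BlocksChar.oneSubInt_one]; simp
            · rw [(hev ψ' h1).2.2.2 (e ψ) (hev ψ hψ).1 (fun h => hrel ((heq ψ ψ' hψ h1).1 h))]
              simp),
      ← Finset.sum_filter, Finset.mul_sum, ← Finset.sum_neg_distrib]
    refine Finset.sum_congr ?_ fun ψ' _ => by push_cast; ring
    ext ψ'
    simp only [Finset.mem_filter, Finset.mem_univ, true_and, Set.mem_toFinset]
    rfl
  · rintro ⟨t, ht, htK⟩
    obtain ⟨ψ₀, hψ₀1, hψ₀W⟩ := hIT.exists_linear hm2 hcard ht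
    choose x hx using fun χ : IrrCharacter G => BlocksChar.exists_int_of_orderOf_two χ ht
    obtain ⟨hr2, hr3⟩ := hIT.sum_involution_eq_zero hM ht hψ₀W x hx
    obtain ⟨he4K, he4v, hs4, hz4⟩ := hev ψ₀ hψ₀1
    obtain ⟨x₂, x₃, hne23, hKeq⟩ := Finset.card_eq_two.1
      (show (K.erase o).card = 2 by rw [Finset.card_erase_of_mem hoK, hKcard])
    obtain ⟨hx2o, hx2K⟩ :=
      Finset.mem_erase.1 (hKeq ▸ Finset.mem_insert_self _ _ : x₂ ∈ K.erase o)
    obtain ⟨hx3o, hx3K⟩ := Finset.mem_erase.1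
      (hKeq ▸ Finset.mem_insert_of_mem (Finset.mem_singleton_self _) : x₃ ∈ K.erase o)
    have hx4o : e ψ₀ ≠ o := fun h => he4K (h ▸ hoK)
    have hfour : ∀ f : principalBlock M G → ℂ,
        ∑ χ : principalBlock M G, (BlocksChar.oneSubInt P ψ₀ χ : ℂ) * f χ =
        f o + ((s x₂ : ℂ) * f x₂ + (s x₃ : ℂ) * f x₃) + (ε : ℂ) * f (e ψ₀) := by
      intro f
      rw [← Finset.sum_subset (Finset.subset_univ (insert (e ψ₀) K)) (fun χ _ hχ => by
          simp only [Finset.mem_insert, not_or] at hχ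
          rw [hz4 χ hχ.2 hχ.1]; simp),
        Finset.sum_insert he4K, he4v, ← Finset.add_sum_erase _ _ hoK, hKeq, Finset.sum_pair hne23,
        hs4 o hoK, hs4 x₂ hx2K, hs4 x₃ hx3K, hso]
      push_cast
      ring
    have hd0 : charDegree ((o : IrrCharacter G) : G → ℂ) = 1 := by
      rw [ho]; simp [Char.trivialIrr, charDegree]
    have hxo : x (o : IrrCharacter G) = 1 := by
      have := hx (o : IrrCharacter G)
      rw [ho] at this ⊢
      simp [Char.trivialIrr] at this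
      exact_mod_cast this.symm
    have key : ∀ ψ, ψ ≠ 1 → ε * (charDegree ((e ψ : IrrCharacter G) : G → ℂ) : ℤ) =
        -∑ χ ∈ K, s χ * (charDegree ((χ : IrrCharacter G) : G → ℂ) : ℤ) := by
      intro ψ hψ
      obtain ⟨hK', hv', hs', hz'⟩ := hev ψ hψ
      have h := hIT.sum_degree_eq_zero hM ψ
      rw [← Finset.sum_subset (Finset.subset_univ (insert (e ψ) K)) (fun χ _ hχ => by
          simp only [Finset.mem_insert, not_or] at hχ
          rw [hz' χ hχ.2 hχ.1, zero_mul]),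
        Finset.sum_insert hK', hv', Finset.sum_congr rfl (fun χ hχ => by rw [hs' χ hχ])] at h
      linarith
    have hker : ∀ χ : principalBlock M G, χ ≠ o →
        x (χ : IrrCharacter G) ≠ (charDegree ((χ : IrrCharacter G) : G → ℂ) : ℤ) := by
      intro χ hχ h0
      have hval : ((χ : IrrCharacter G) : G → ℂ) t = ((χ : IrrCharacter G) : G → ℂ) 1 := by
        rw [hx, h0, ← BlocksChar.charDegree_eq, Int.cast_natCast]
      obtain ⟨L, hLn, hL⟩ :=
        CharInd.exists_charKer (Char.isCharacter_of_irr (χ : IrrCharacter G).2)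
      have htop := htK L hLn ((hL t).2 hval)
      have hcst : ∀ g : G, ((χ : IrrCharacter G) : G → ℂ) g = ((χ : IrrCharacter G) : G → ℂ) 1 :=
        fun g => (hL g).1 (htop ▸ Subgroup.mem_top g)
      have h := CharInd.classInner_irr_self (χ : IrrCharacter G).2
      simp only [classInner, hcst, finsum_eq_sum_of_fintype, Finset.sum_const, Finset.card_univ,
        nsmul_eq_mul, ← Nat.card_eq_fintype_card] at h
      rw [inv_mul_cancel_left₀ (Nat.cast_ne_zero.2 Nat.card_pos.ne'),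
        ← BlocksChar.charDegree_eq, Complex.conj_natCast] at h
      have hd1 : charDegree ((χ : IrrCharacter G) : G → ℂ) = 1 :=
        Nat.eq_one_of_mul_eq_one_right (by exact_mod_cast h :
          charDegree ((χ : IrrCharacter G) : G → ℂ) * charDegree ((χ : IrrCharacter G) : G → ℂ) = 1)
      refine hχ (Subtype.ext (Subtype.ext (funext fun g => ?_)))
      rw [hcst g, ← BlocksChar.charDegree_eq, hd1, ho]
      simp [Char.trivialIrr]
    have q1 : (1 : ℚ) + s x₂ * (charDegree ((x₂ : IrrCharacter G) : G → ℂ) : ℚ)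
        + s x₃ * (charDegree ((x₃ : IrrCharacter G) : G → ℂ) : ℚ)
        + ε * (charDegree ((e ψ₀ : IrrCharacter G) : G → ℂ) : ℚ) = 0 := by
      have h := hfour fun χ => (charDegree ((χ : IrrCharacter G) : G → ℂ) : ℂ)
      have h0 := congrArg (fun z : ℤ => (z : ℂ)) (hIT.sum_degree_eq_zero hM ψ₀)
      push_cast at h0
      rw [h0, hd0] at h
      apply Rat.cast_injective (α := ℂ)
      push_cast at h ⊢
      linear_combination -h
    have q2 : (1 : ℚ) + s x₂ * (x x₂ : ℚ) + s x₃ * (x x₃ : ℚ) + ε * (x (e ψ₀) : ℚ) = 0 := by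
      rw [← finsum_set_coe_eq_finsum_mem, finsum_eq_sum_of_fintype] at hr2
      have h := hfour fun χ => (x (χ : IrrCharacter G) : ℂ)
      rw [hr2, hxo] at h
      apply Rat.cast_injective (α := ℂ)
      push_cast at h ⊢
      linear_combination -h
    have q3 : (1 : ℚ)
        + s x₂ * ((x x₂ : ℚ) ^ 2 / (charDegree ((x₂ : IrrCharacter G) : G → ℂ) : ℚ))
        + s x₃ * ((x x₃ : ℚ) ^ 2 / (charDegree ((x₃ : IrrCharacter G) : G → ℂ) : ℚ))
        + ε * ((x (e ψ₀) : ℚ) ^ 2 / (charDegree ((e ψ₀ : IrrCharacter G) : G → ℂ) : ℚ)) = 0 := by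
      rw [← finsum_set_coe_eq_finsum_mem, finsum_eq_sum_of_fintype] at hr3
      have h := hfour fun χ => (x (χ : IrrCharacter G) : ℂ) ^ 2 /
        (charDegree ((χ : IrrCharacter G) : G → ℂ) : ℂ)
      rw [hr3, hxo, hd0] at h
      apply Rat.cast_injective (α := ℂ)
      push_cast at h ⊢
      linear_combination -h
    have hmain := BlocksChar.sign_count (BlocksChar.charDegree_pos _) (BlocksChar.charDegree_pos _)
      (BlocksChar.charDegree_pos _) (hspm x₂ hx2K) (hspm x₃ hx3K) hεpm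
      (hker x₂ hx2o) (hker x₃ hx3o) (hker _ hx4o) q1 q2 q3
    have hsetX : ∀ χ : IrrCharacter G,
        (χ ∈ (fun χ : principalBlock M G => (χ : IrrCharacter G)) '' (K : Set (principalBlock M G)) ∧
          (χ : G → ℂ) ≠ fun _ => 1) ↔
          (χ = (x₂ : IrrCharacter G) ∨ χ = (x₃ : IrrCharacter G)) := by
      intro χ
      constructor
      · rintro ⟨⟨y, hy, rfl⟩, hne⟩
        have hyo : y ≠ o := fun h => hne (by show ((y : IrrCharacter G) : G → ℂ) = _; rw [h, ho]; rfl)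
        have hym : y ∈ K.erase o := Finset.mem_erase.2 ⟨hyo, hy⟩
        rw [hKeq] at hym
        simpa [Subtype.ext_iff] using hym
      · rintro (rfl | rfl)
        · exact ⟨⟨x₂, hx2K, rfl⟩, fun h => hx2o (Subtype.ext ((Subtype.ext h).trans ho.symm))⟩
        · exact ⟨⟨x₃, hx3K, rfl⟩, fun h => hx3o (Subtype.ext ((Subtype.ext h).trans ho.symm))⟩
    have hne23' : (x₂ : IrrCharacter G) ≠ (x₃ : IrrCharacter G) := fun h => hne23 (Subtype.ext h)
    refine ⟨?_, ?_⟩
    · rw [Nat.card_eq_fintype_card, Fintype.card_subtype,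
        Finset.filter_congr (q := fun χ : IrrCharacter G =>
          (χ = (x₂ : IrrCharacter G) ∨ χ = (x₃ : IrrCharacter G)) ∧ a χ = -1)
          (fun χ _ => by rw [← and_assoc, hsetX])]
      have e5 : Finset.univ.filter (fun χ : IrrCharacter G =>
          (χ = (x₂ : IrrCharacter G) ∨ χ = (x₃ : IrrCharacter G)) ∧ a χ = -1) =
          ({(x₂ : IrrCharacter G), (x₃ : IrrCharacter G)} : Finset _).filter
            (fun χ => a χ = -1) := by
        ext χ; simp
      rw [e5, Finset.card_filter, Finset.sum_pair hne23']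
      simp only [a, x₂.2, x₃.2, dif_pos, Subtype.coe_eta]
      exact hmain.1
    · rintro _ ⟨y, ⟨ψ, hψ, rfl⟩, rfl⟩
      have hset : {χ : IrrCharacter G | χ ∈ (fun χ : principalBlock M G => (χ : IrrCharacter G)) ''
          (K : Set (principalBlock M G)) ∧ (χ : G → ℂ) ≠ fun _ => 1} =
          {(x₂ : IrrCharacter G), (x₃ : IrrCharacter G)} := by
        ext χ
        rw [Set.mem_setOf_eq, hsetX χ]
        simp
      rw [hset, finprod_mem_pair hne23']
      have h1 := (key ψ hψ).trans (key ψ₀ hψ₀1).symm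
      have hdeq : charDegree ((e ψ : IrrCharacter G) : G → ℂ) =
          charDegree ((e ψ₀ : IrrCharacter G) : G → ℂ) := by
        rcases hεpm with e' | e' <;> rw [e'] at h1 <;> omega
      show IsSquare (charDegree ((e ψ : IrrCharacter G) : G → ℂ) * _)
      rw [hdeq]
      exact hmain.2

end Cfsg.Agent.S4721
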