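import Cfsg.Statements.S4723
import Cfsg.Agent.BlocksChar.Covering
import Cfsg.Agent.BlockVal.HeightZero
import Cfsg.Agent.BlocksChar.Degree

set_option autoImplicit false
open Cfsg
open Cfsg.Agent

namespace Cfsg.Agent.S4723


open Cfsg.Agent.BrauerPairs MonoidAlgebra
set_option maxHeartbeats 800000

universe u

variable {G : Type u} [Group G] [Finite G] {p : ℕ} [Fact p.Prime] {M : Ideal AlgInt} [M.IsPrime]
  [CharP (Block.ResF M) p]

theorem centralIn_classSum_le {H T : Subgroup G} [H.Normal] (hHT : H ≤ T) {x : G} (hx : x ∈ H) :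
    CentralIn H (BrauerPairs.classSum (Block.ResF M) T x) := by
  refine ⟨fun g hg => ?_, (centralIn_classSum (hHT hx)).fixed.mono hHT⟩
  rw [BrauerPairs.coeff_classSum, Set.indicator_of_notMem]
  rintro ⟨h, -, rfl⟩
  exact hg (‹H.Normal›.conj_mem x hx h)

/-- A block of `T` above an invariant block `b`, with a common defect class. -/
theorem exists_above (H : Subgroup G) [H.Normal] (T : Subgroup G) (hHT : H ≤ T) (b : Blk M H)
    (hinv : ∀ t ∈ T, cj t ((blockSys M H).idem b) = (blockSys M H).idem b) :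
    ∃ (x : G) (hxH : x ∈ H) (B : Blk M T),
      IsDefectClass M b.1 ⟨x, hxH⟩ ∧ IsDefectClass M B.1 ⟨x, hHT hxH⟩ ∧
      (blockSys M T).lam B ((blockSys M H).idem b) = 1 ∧
      ¬ p ∣ (Nat.card (classSet T x) / Nat.card (classSet H x)) ∧
      Nat.card (classSet H x) ∣ Nat.card (classSet T x) := by
  classical
  letI := Fintype.ofFinite G
  set S := blockSys M H with hS
  set U := blockSys M T with hU
  set a := S.idem b with ha
  have haH : CentralIn H a := S.central_idem b
  have haT : CentralIn T a := ⟨fun g hg => haH.supp g fun h => hg (hHT h), fun t ht g => by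
    conv_lhs => rw [← hinv t ht]
    exact coeff_cj_conj t a g⟩
  obtain ⟨R, hR, -, hsum⟩ := exists_eq_sum_classSum haT.fixed
  have hRH : ∀ y ∈ R, y ∈ H := fun y hy => by
    by_contra h; exact hR y hy (haH.supp y h)
  have h1 : S.lam b a = 1 := S.lam_idem_self b
  have hsumlam := BlocksChar.lam_finset_sum S b R (fun y => BrauerPairs.classSum (Block.ResF M) T y)
    (fun y => a.coeff y) fun y hy => centralIn_classSum_le hHT (hRH y hy)
  rw [← hsum, h1] at hsumlam
  obtain ⟨x₀, hx₀R, hx₀⟩ : ∃ y ∈ R, S.lam b (BrauerPairs.classSum (Block.ResF M) T y) ≠ 0 := by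
    by_contra hcon
    push Not at hcon
    rw [Finset.sum_eq_zero fun y hy => by rw [hcon y hy, mul_zero]] at hsumlam
    exact one_ne_zero hsumlam
  -- split the class into classes of `H`
  obtain ⟨Q, hQ, -, hQsum⟩ := exists_eq_sum_classSum (k := ℕ) (H := H)
    (a := BrauerPairs.classSum ℕ T x₀) ((centralIn_classSum (hHT (hRH x₀ hx₀R))).fixed.mono hHT)
  have hQT : ∀ y ∈ Q, y ∈ classSet T x₀ := fun y hy => by
    by_contra h
    exact hQ y hy (by rw [BrauerPairs.coeff_classSum, Set.indicator_of_notMem h])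
  have hQ1 : ∀ y ∈ Q, (BrauerPairs.classSum ℕ T x₀).coeff y = 1 := fun y hy => by
    rw [BrauerPairs.coeff_classSum, Set.indicator_of_mem (hQT y hy)]
  rw [Finset.sum_congr rfl fun y hy => by rw [hQ1 y hy, one_smul]] at hQsum
  have hQk : BrauerPairs.classSum (Block.ResF M) T x₀ =
      ∑ y ∈ Q, BrauerPairs.classSum (Block.ResF M) H y := by
    have h := congrArg (MonoidAlgebra.mapRingHom G (Nat.castRingHom (Block.ResF M))) hQsum
    simpa [map_sum, mapRingHom_classSum] using h
  have hQH : ∀ y ∈ Q, y ∈ H := fun y hy => by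
    obtain ⟨h, -, rfl⟩ := hQT y hy
    exact ‹H.Normal›.conj_mem _ (hRH x₀ hx₀R) h
  have hlamT : S.lam b (BrauerPairs.classSum (Block.ResF M) T x₀) =
      ∑ y ∈ Q, S.lam b (BrauerPairs.classSum (Block.ResF M) H y) := by
    have h := BlocksChar.lam_finset_sum S b Q (fun y => BrauerPairs.classSum (Block.ResF M) H y)
      (fun _ => 1) fun y hy => centralIn_classSum (hQH y hy)
    simpa [← hQk] using h
  obtain ⟨x, hxQ, hx⟩ : ∃ y ∈ Q, S.lam b (BrauerPairs.classSum (Block.ResF M) H y) ≠ 0 := by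
    by_contra hcon
    push Not at hcon
    exact hx₀ (hlamT.trans (Finset.sum_eq_zero hcon))
  have hxH := hQH x hxQ
  have heq := classSet_eq_of_mem (hQT x hxQ)
  -- all classes of `H` in the class of `T` behave alike
  have hall : ∀ y ∈ Q, S.lam b (BrauerPairs.classSum (Block.ResF M) H y) =
      S.lam b (BrauerPairs.classSum (Block.ResF M) H x) ∧
      Nat.card (classSet H y) = Nat.card (classSet H x) := by
    intro y hy
    obtain ⟨t, ht, rfl⟩ : y ∈ classSet T x := by rw [heq]; exact hQT y hy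
    constructor
    · rw [BlocksChar.classSum_conj]
      have hN : H.map (MulAut.conj t).toMonoidHom = H :=
        map_conj_of_mem_normalizer (by rw [Subgroup.normalizer_eq_top H]; trivial)
      exact S.lam_cj S t hN (hinv t ht).symm (centralIn_classSum hxH)
    · rw [BlocksChar.card_classSet H ⟨_, ‹H.Normal›.conj_mem x hxH t⟩]
      have h := BlocksChar.card_classSet H ⟨x, hxH⟩
      have himg : classSet H (t * x * t⁻¹) = (fun g => t * g * t⁻¹) '' classSet H x := by
        ext g
        constructor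
        · rintro ⟨h, hh, rfl⟩
          exact ⟨t⁻¹ * h * t * x * (t⁻¹ * h * t)⁻¹, ⟨_, by
            simpa using ‹H.Normal›.conj_mem h hh t⁻¹, rfl⟩, by group⟩
        · rintro ⟨_, ⟨h, hh, rfl⟩, rfl⟩
          exact ⟨t * h * t⁻¹, ‹H.Normal›.conj_mem h hh t, by group⟩
      rw [← BlocksChar.card_classSet H ⟨_, ‹H.Normal›.conj_mem x hxH t⟩]
      show Nat.card (classSet H (t * x * t⁻¹)) = _
      rw [himg, Nat.card_image_of_injective]
      intro g g' h
      simpa using h
  have hcoef : a.coeff x ≠ 0 := by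
    obtain ⟨t, ht, rfl⟩ := hQT x hxQ
    rw [haT.fixed t ht]
    exact hR x₀ hx₀R
  have hn : ¬ p ∣ Q.card := by
    intro hd
    apply hx₀
    rw [hlamT, Finset.sum_congr rfl fun y hy => (hall y hy).1, Finset.sum_const, nsmul_eq_mul,
      (CharP.cast_eq_zero_iff (Block.ResF M) p _).2 hd, zero_mul]
  have hcard : Nat.card (classSet T x) = Q.card * Nat.card (classSet H x) := by
    have hind : ∀ (U : Subgroup G) (y : G),
        ∑ g : G, (BrauerPairs.classSum ℕ U y).coeff g = Nat.card (classSet U y) := by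
      intro U y
      simp only [BrauerPairs.coeff_classSum, Set.indicator_apply]
      rw [← Finset.sum_filter, Finset.sum_const, smul_eq_mul, mul_one, Nat.card_eq_fintype_card,
        Fintype.card_subtype]
    have h := congrArg (fun z : MonoidAlgebra ℕ G => ∑ g : G, z.coeff g) hQsum
    simp only [coeff_sum, Finsupp.coe_finsetSum, Finset.sum_apply] at h
    rw [Finset.sum_comm] at h
    simp only [hind] at h
    rw [heq, h, Finset.sum_congr rfl fun y hy => (hall y hy).2, Finset.sum_const, smul_eq_mul]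
  obtain ⟨B, hB1, hBx⟩ : ∃ B : Blk M T, U.lam B a = 1 ∧ (U.idem B).coeff x ≠ 0 := by
    have h := U.eq_sum_idem haT (S.idem_mul_self b)
    rw [h] at hcoef
    simp only [coeff_sum, Finsupp.coe_finsetSum, Finset.sum_apply] at hcoef
    obtain ⟨B, hB, hne⟩ := Finset.exists_ne_zero_of_sum_ne_zero hcoef
    exact ⟨B, (Finset.mem_filter.1 hB).2, hne⟩
  have hBlam : ∀ z, CentralIn T z → CentralIn H z → U.lam B z = S.lam b z := by
    intro z hzT hzH
    refine U.lam_eq_of_nilp B hzT _ ?_
    have h2 := S.isNilpotent_sub_lam b hzH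
    have h3 : U.idem B * (z - S.lam b z • (1 : MonoidAlgebra (Block.ResF M) G)) =
        U.idem B * (a * (z - S.lam b z • (1 : MonoidAlgebra (Block.ResF M) G))) := by
      rw [← mul_assoc]
      congr 1
      rw [← (CentralIn.commute haT.fixed (U.central_idem B).supp).eq]
      exact (U.mul_idem_eq_of_lam_one haT (S.idem_mul_self b) hB1).symm
    rw [h3]
    exact (CentralIn.commute (U.central_idem B).fixed
      ((haT.mul (hzT.sub (CentralIn.one.smul _))).supp)).isNilpotent_mul_left h2
  letI := Fintype.ofFinite H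
  letI := Fintype.ofFinite T
  have hTx : BrauerPairs.classSum (Block.ResF M) T x = BrauerPairs.classSum (Block.ResF M) T x₀ :=
    classSum_eq_of_mem (hQT x hxQ)
  refine ⟨x, hxH, B, ⟨?_, ?_, ?_⟩, ⟨?_, ?_, ?_⟩, hB1, ?_, ⟨Q.card, by rw [hcard, mul_comm]⟩⟩
  · exact Block.blockCoeff_memLocalRing b.2 _
  · intro hmem
    apply hcoef
    rw [ha, hS, coeff_blockSys_idem, subgroupBlockCoeff, dif_pos hxH,
      Block.redC_eq_zero_iff (Block.blockCoeff_memLocalRing b.2 _)]
    exact hmem
  · intro χ hχ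
    rw [← Block.lam_classSum_ne_zero_iff χ.2, ← BlocksChar.restr_classSum_eq]
    have h : Block.lam M (blkChar M b : H → ℂ)
        (Block.restr H (BrauerPairs.classSum (Block.ResF M) H x)) ≠ 0 := hx
    rwa [Block.lam_eq_of_sameBlock (blkChar M b).2 χ.2
      (Block.pBlock_sameBlock b.2 (blkChar_mem M b) hχ)] at h
  · exact Block.blockCoeff_memLocalRing B.2 _
  · intro hmem
    apply hBx
    rw [hU, coeff_blockSys_idem, subgroupBlockCoeff, dif_pos (hHT hxH),
      Block.redC_eq_zero_iff (Block.blockCoeff_memLocalRing B.2 _)]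
    exact hmem
  · intro χ hχ
    rw [← Block.lam_classSum_ne_zero_iff χ.2, ← BlocksChar.restr_classSum_eq]
    have h : Block.lam M (blkChar M B : T → ℂ)
        (Block.restr T (BrauerPairs.classSum (Block.ResF M) T x)) ≠ 0 := by
      show U.lam B _ ≠ 0
      rw [hBlam _ (centralIn_classSum (hHT hxH)) (centralIn_classSum_le hHT hxH), hTx]
      exact hx₀
    rwa [Block.lam_eq_of_sameBlock (blkChar M B).2 χ.2
      (Block.pBlock_sameBlock B.2 (blkChar_mem M B) hχ)] at h
  · rw [hcard, Nat.mul_div_cancel _ (by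
      haveI : Nonempty (classSet H x) := ⟨⟨x, mem_classSet_self H x⟩⟩
      exact Nat.card_pos)]
    exact hn

open scoped Classical in
/-- Central characters of a block of `T` at invariant subsets of `H` are those of the blocks below. -/
theorem lam_eq_below {H T : Subgroup G} [H.Normal] [Fintype H] [Fintype T] (hHT : H ≤ T) (B : Blk M T) {χ : IrrCharacter T}
    (hχ : χ ∈ B.1) (e : ℕ) (O : Finset (H → ℂ)) (θ : IrrCharacter H)
    (hres : ∀ h : H, (χ : T → ℂ) (Subgroup.inclusion hHT h) = (e : ℂ) * ∑ ψ ∈ O, ψ h)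
    (hO : ∀ ψ ∈ O, ∃ t ∈ T, ∀ h h' : H, (h' : G) = t * h * t⁻¹ → ψ h = (θ : H → ℂ) h')
    (β : Blk M H) (hθ : θ ∈ β.1) {a : MonoidAlgebra (Block.ResF M) G} (haT : CentralIn T a)
    (haH : CentralIn H a) : (blockSys M T).lam B a = (blockSys M H).lam β a := by
  classical
  obtain ⟨R, hR, -, hsum⟩ := exists_eq_sum_classSum haT.fixed
  have hRH : ∀ y ∈ R, y ∈ H := fun y hy => by
    by_contra h; exact hR y hy (haH.supp y h)
  rw [hsum, BlocksChar.lam_finset_sum _ _ R _ _ fun y hy => centralIn_classSum (hHT (hRH y hy)),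
    BlocksChar.lam_finset_sum _ _ R _ _ fun y hy => centralIn_classSum_le hHT (hRH y hy)]
  refine Finset.sum_congr rfl fun y hy => ?_
  congr 1
  have hinvT : ∀ u ∈ T, ∀ g, u * g * u⁻¹ ∈ classSet T y ↔ g ∈ classSet T y := fun u hu g =>
    ⟨fun h => by simpa [mul_assoc] using conj_mem_classSet (T.inv_mem hu) h,
      fun h => conj_mem_classSet hu h⟩
  have hsub : ∀ g ∈ classSet T y, g ∈ H := by
    rintro g ⟨t, -, rfl⟩
    exact ‹H.Normal›.conj_mem y (hRH y hy) t
  rw [BrauerPairs.classSum, BlocksChar.lam_indicator T B _ hinvT hχ,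
    BlocksChar.lam_indicator H β _ (fun u hu => hinvT u (hHT hu)) hθ]
  congr 1
  have hT' : ∑ v : T, (if (v : G) ∈ classSet T y then (χ : T → ℂ) v else 0) =
      ∑ h : H, if (h : G) ∈ classSet T y then (χ : T → ℂ) (Subgroup.inclusion hHT h) else 0 := by
    rw [← Finset.sum_filter, ← Finset.sum_filter]
    refine (Finset.sum_bij (fun h _ => Subgroup.inclusion hHT h) ?_ ?_ ?_ (fun _ _ => rfl)).symm
    · intro h hh
      exact Finset.mem_filter.2 ⟨Finset.mem_univ _, (Finset.mem_filter.1 hh).2⟩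
    · intro h₁ _ h₂ _ h
      exact Subgroup.inclusion_injective hHT h
    · intro v hv
      exact ⟨⟨v, hsub _ (Finset.mem_filter.1 hv).2⟩,
        Finset.mem_filter.2 ⟨Finset.mem_univ _, (Finset.mem_filter.1 hv).2⟩, rfl⟩
  have horb : ∀ ψ ∈ O, (∑ h : H, if (h : G) ∈ classSet T y then ψ h else 0) =
      ∑ h : H, if (h : G) ∈ classSet T y then (θ : H → ℂ) h else 0 := by
    intro ψ hψ
    obtain ⟨t, ht, hψθ⟩ := hO ψ hψ
    refine Fintype.sum_equiv (MulAut.conjNormal t : MulAut H).toEquiv _ _ fun h => ?_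
    refine if_congr (hinvT t ht h).symm (hψθ h _ (MulAut.conjNormal_apply t h)) rfl
  have h1 : (χ : T → ℂ) 1 = (e : ℂ) * (O.card * (θ : H → ℂ) 1) := by
    have h := hres 1
    rw [map_one] at h
    rw [h]
    congr 1
    rw [Finset.sum_congr rfl fun ψ hψ => by
      obtain ⟨t, -, hψθ⟩ := hO ψ hψ
      exact hψθ 1 1 (by simp), Finset.sum_const, nsmul_eq_mul]
  rw [hT', Finset.sum_congr rfl (g := fun h : H => (e : ℂ) *
    ∑ ψ ∈ O, if (h : G) ∈ classSet T y then ψ h else 0) fun h _ => by
      split_ifs with hh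
      · exact hres h
      · simp]
  rw [← Finset.mul_sum, Finset.sum_comm, Finset.sum_congr rfl horb, Finset.sum_const,
    nsmul_eq_mul, h1]
  have hne : (χ : T → ℂ) 1 ≠ 0 := Char.irr_one_ne_zero χ.2
  rw [h1] at hne
  have he : (e : ℂ) ≠ 0 := left_ne_zero_of_mul hne
  have hc : (O.card : ℂ) ≠ 0 := left_ne_zero_of_mul (right_ne_zero_of_mul hne)
  field_simp

/-- Let p be a prime, M a maximal ideal of the algebraic integers containing p, H a normal subgroup of the finite group G and b a p-block of H. Let T be the stabilizer of b in G. Then b contains a character θ of height zero whose own stabilizer in G (the elements g with θ(g h g⁻¹) = θ(h) for all h ∈ H) has index prime to p in T, i.e. contains a Sylow p-subgroup of T. -/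
theorem result {G : Type*} [Group G] [Finite G] (p : ℕ) [Fact p.Prime] (M : Ideal Cfsg.AlgInt) (hM : Cfsg.IsPModular p M) (H : Subgroup G) [H.Normal] (b : Set (Cfsg.IrrCharacter ↥H)) (hb : Cfsg.IsPBlock M b) (T : Subgroup G) (hT : (∀ g : G, g ∈ T ↔ ∀ θ ∈ b, ∀ θ' : Cfsg.IrrCharacter ↥H, (∀ h h' : ↥H, (h' : G) = g * h * g⁻¹ → (θ' : ↥H → ℂ) h' = (θ : ↥H → ℂ) h) → θ' ∈ b)) : ∃ θ ∈ b, Cfsg.blockHeight p b (θ : ↥H → ℂ) = 0 ∧ ∃ S : Subgroup G, S ≤ T ∧ (∀ g : G, g ∈ S ↔ (g ∈ T ∧ ∀ h h' : ↥H, (h' : G) = g * h * g⁻¹ → (θ : ↥H → ℂ) h' = (θ : ↥H → ℂ) h)) ∧ ¬ p ∣ S.relIndex T := by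
  classical
  haveI : M.IsPrime := hM.2.1.isPrime
  haveI := Block.charP_resF (M := M) hM
  letI := Fintype.ofFinite G
  letI := Fintype.ofFinite H
  letI := Fintype.ofFinite T
  have hHT : H ≤ T := fun g hg => (hT g).2 fun θ hθ θ' h => by
    have : θ' = θ := Subtype.ext (funext fun v => by
      have h1 := h ((⟨g, hg⟩ : H)⁻¹ * v * ⟨g, hg⟩) v (by simp [mul_assoc])
      rw [h1]
      have h2 := Char.irr_isClassFunction θ.2 v (⟨g, hg⟩ : H)⁻¹
      rwa [inv_inv] at h2)
    rw [this]; exact hθ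
  let b' : Blk M H := ⟨b, hb⟩
  have hinv : ∀ t ∈ T, cj t ((blockSys M H).idem b') = (blockSys M H).idem b' := by
    intro t ht
    have hN : H.map (MulAut.conj t).toMonoidHom = H :=
      map_conj_of_mem_normalizer (by rw [Subgroup.normalizer_eq_top H]; trivial)
    obtain ⟨j, hj, -⟩ := (blockSys M H).exists_idem_eq_cj (blockSys M H) t hN b'
    let ξ' : IrrCharacter H := ⟨_, isIrrCharacter_comp_conjEquiv t hN (blkChar M b').2⟩
    have hrel : ∀ c c' : H, (c' : G) = t * (c : G) * t⁻¹ →
        (ξ' : H → ℂ) c' = (blkChar M b' : H → ℂ) c := fun c c' h => by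
      have : c' = conjEquiv t hN c := Subtype.ext h
      subst this
      show (blkChar M b' : H → ℂ) ((conjEquiv t hN).symm _) = _
      rw [MulEquiv.symm_apply_apply]
    have hjb : j = b' := Subtype.ext (Block.pBlock_eq_of_mem j.2 b'.2
      (mem_of_cj t hN hj (blkChar_mem M b') hrel) ((hT t).1 ht _ (blkChar_mem M b') ξ' hrel))
    rw [← hj, hjb]
  obtain ⟨x, hxH, B, hbx, hBx, hB1, hn, hdvd⟩ := exists_above H T hHT b' hinv
  obtain ⟨χ, hχ, hχ0⟩ := BlockVal.exists_height_zero (p := p) (Block.pBlock_nonempty B.2)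
  let N : Subgroup T := H.subgroupOf T
  haveI : N.Normal := Subgroup.normal_subgroupOf
  let ε : N ≃* H := Subgroup.subgroupOfEquivOfLe hHT
  obtain ⟨η, e, hη, he, hres, hdeg⟩ := CharInd.clifford_exists N χ.2
  let θ : IrrCharacter H := ⟨fun h => η (ε.symm h),
    CharInd.irr_comp_surjective ε.symm.toMonoidHom ε.symm.surjective hη⟩
  let β : Blk M H := ⟨blockOf M (θ : H → ℂ), Block.isPBlock_blockOf θ⟩
  have hθβ : θ ∈ β.1 := Block.mem_blockOf_self θ
  let O : Finset (H → ℂ) := (CharInd.conjClass N η).image fun ψ => fun h => ψ (ε.symm h)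
  have hOinj : Set.InjOn (fun (ψ : N → ℂ) => fun h : H => ψ (ε.symm h))
      (CharInd.conjClass N η : Set (N → ℂ)) := fun ψ _ φ _ h => funext fun n => by
    have := congrFun h (ε n)
    simpa using this
  have key : (blockSys M T).lam B ((blockSys M H).idem b') =
      (blockSys M H).lam β ((blockSys M H).idem b') := by
    refine lam_eq_below hHT B hχ e O θ (fun h => ?_) (fun ψ hψ => ?_) β hθβ ?_
      ((blockSys M H).central_idem b')
    · rw [Finset.sum_image hOinj]
      have h1 := congrFun hres (ε.symm h)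
      simp only [Pi.smul_apply, Finset.sum_apply, smul_eq_mul] at h1
      rw [← h1]
      rfl
    · obtain ⟨φ, hφ, rfl⟩ := Finset.mem_image.1 hψ
      obtain ⟨t, rfl⟩ := (CharInd.mem_conjClass N).1 hφ
      refine ⟨t, t.2, fun h h' hh' => ?_⟩
      show CharInd.conjChar N t η (ε.symm h) = η (ε.symm h')
      rw [CharInd.conjChar_apply]
      exact congrArg η (Subtype.ext (Subtype.ext hh'.symm))
    · exact ⟨fun g hg => ((blockSys M H).central_idem b').supp g fun h => hg (hHT h),
        fun t ht g => by conv_lhs => rw [← hinv t ht]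
                         exact coeff_cj_conj t _ g⟩
  rw [hB1] at key
  have hβ : β = b' := by
    by_contra hne
    rw [(blockSys M H).lam_idem_ne hne] at key
    exact one_ne_zero key
  have hθb : θ ∈ b := by
    have h := hθβ
    rw [hβ] at h
    exact h
  -- degrees
  have hT1 := Block.sInf_degree_eq hM B.2 hBx
  have hH1 := Block.sInf_degree_eq hM hb hbx
  have hidxT := BlocksChar.card_classSet T ⟨x, hHT hxH⟩
  have hidxH := BlocksChar.card_classSet H ⟨x, hxH⟩
  have hm : (Subgroup.centralizer ({⟨x, hHT hxH⟩} : Set T)).index.factorization p =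
      (Subgroup.centralizer ({⟨x, hxH⟩} : Set H)).index.factorization p := by
    rw [← hidxT, ← hidxH]
    obtain ⟨n, hn'⟩ := hdvd
    haveI : Nonempty (classSet H x) := ⟨⟨x, mem_classSet_self H x⟩⟩
    have h0 : Nat.card (classSet H x) ≠ 0 := Nat.card_pos.ne'
    rw [hn', Nat.mul_div_cancel_left _ (Nat.pos_of_ne_zero h0)] at hn
    show (Nat.card (classSet T x)).factorization p = (Nat.card (classSet H x)).factorization p
    rw [hn', Nat.factorization_mul h0 (fun h => hn (by rw [h]; exact dvd_zero p)), Finsupp.add_apply,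
      Nat.factorization_eq_zero_of_not_dvd hn, add_zero]
  have hχv : (charDegree (χ : T → ℂ)).factorization p =
      (Subgroup.centralizer ({⟨x, hHT hxH⟩} : Set T)).index.factorization p := by
    rw [← hT1]
    exact le_antisymm (le_csInf ⟨_, χ, hχ, rfl⟩ (by
      rintro _ ⟨ψ, hψ, rfl⟩
      exact (BlockVal.blockHeight_eq_zero_iff hχ).1 hχ0 ψ hψ))
      (Nat.sInf_le ⟨χ, hχ, rfl⟩)
  have hθlow : (Subgroup.centralizer ({⟨x, hxH⟩} : Set H)).index.factorization p ≤
      (charDegree (θ : H → ℂ)).factorization p := by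
    rw [← hH1]; exact Nat.sInf_le ⟨θ, hθb, rfl⟩
  have hprod : charDegree (χ : T → ℂ) =
      e * ((BlocksChar.conjStab N η).index * charDegree (θ : H → ℂ)) := by
    have h1 : (charDegree (θ : H → ℂ) : ℂ) = η 1 := by
      rw [BlocksChar.charDegree_eq]; show η (ε.symm 1) = _; rw [map_one]
    rw [← BlocksChar.card_conjClass]
    rw [← BlocksChar.charDegree_eq, ← h1] at hdeg
    have : (charDegree (χ : T → ℂ) : ℂ) =
        ((e * ((CharInd.conjClass N η).card * charDegree (θ : H → ℂ)) : ℕ) : ℂ) := by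
      rw [hdeg]; push_cast; ring
    exact_mod_cast this
  have hθ0 : charDegree (θ : H → ℂ) ≠ 0 := (BlocksChar.charDegree_pos θ).ne'
  have hS0 : (BlocksChar.conjStab N η).index ≠ 0 := Subgroup.index_ne_zero_of_finite
  have hfac : (charDegree (χ : T → ℂ)).factorization p =
      (e * ((BlocksChar.conjStab N η).index * charDegree (θ : H → ℂ))).factorization p := by
    rw [hprod]
  rw [Nat.factorization_mul he.ne' (Nat.mul_ne_zero hS0 hθ0), Finsupp.add_apply,
    Nat.factorization_mul hS0 hθ0, Finsupp.add_apply] at hfac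
  refine ⟨θ, hθb, ?_, (BlocksChar.conjStab N η).map T.subtype, Subgroup.map_subtype_le _,
    fun g => ?_, ?_⟩
  · rw [blockHeight, hH1]
    omega
  · have htriv : ∀ t : T, t ∈ BlocksChar.conjStab N η ↔
        ∀ h h' : H, (h' : G) = t * h * (t : G)⁻¹ → (θ : H → ℂ) h' = (θ : H → ℂ) h := by
      intro t
      constructor
      · intro ht h h' hh'
        have h1 := congrFun (show CharInd.conjChar N t η = η from ht) (ε.symm h)
        rw [CharInd.conjChar_apply] at h1
        exact (congrArg η (Subtype.ext (Subtype.ext hh'))).trans h1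
      · intro ht
        show CharInd.conjChar N t η = η
        funext n
        rw [CharInd.conjChar_apply]
        exact ht (ε n) ⟨t * (n : T) * (t : G)⁻¹, ‹H.Normal›.conj_mem _ (ε n).2 t⟩ rfl
    constructor
    · rintro ⟨t, ht, rfl⟩
      exact ⟨t.2, (htriv t).1 ht⟩
    · rintro ⟨hg, hcond⟩
      exact ⟨⟨g, hg⟩, (htriv ⟨g, hg⟩).2 hcond, rfl⟩
  · rw [Subgroup.relIndex, Subgroup.subgroupOf,
      Subgroup.comap_map_eq_self_of_injective T.subtype_injective]
    intro hd
    have := (Fact.out : p.Prime).factorization_pos_of_dvd hS0 hd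
    omega

end Cfsg.Agent.S4723
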