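import Cfsg.Statements.S4725
import Cfsg.Agent.Block.Degrees
import Cfsg.Agent.BlockVal.HeightZero
import Cfsg.Agent.BlocksChar.ClassProd
import Cfsg.Agent.BlocksChar.Degree
import Cfsg.Agent.CharInd.Induced
import Cfsg.Agent.CharInd.GenChar

set_option autoImplicit false
open Cfsg
open scoped ComplexConjugate
open Cfsg.Agent

namespace Cfsg.Agent.S4725


universe u

open scoped Classical in
/-- The induced central character of a block inducing `B` is a unit at the idempotent of `B`. -/
theorem sum_blockCoeff_not_mem {G : Type u} [Group G] [Fintype G] {M : Ideal AlgInt} [M.IsPrime]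
    {H : Subgroup G} [Fintype H] {b : Set (IrrCharacter H)} {B : Set (IrrCharacter G)}
    (hind : IsInducedBlock M H b B) {ζ : IrrCharacter H} (hζ : ζ ∈ b) :
    ¬ MemLocalIdeal M ((∑ h : H, blockCoeff B (h : G) * (ζ : H → ℂ) h) / (ζ : H → ℂ) 1) := by
  obtain ⟨χ, hχ⟩ := Block.pBlock_nonempty hind.2.1
  intro hmem
  have h1 : (∑ g : G, blockCoeff B g * (χ : G → ℂ) g) / (χ : G → ℂ) 1 = 1 := by
    have h := Block.omega_blockIdem B χ
    rw [Block.omega_eq_sum, if_pos hχ] at h
    simpa only [Block.coeff_blockIdem] using h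
  haveI : Finite (ConjClasses G) := Finite.of_surjective _ ConjClasses.mk_surjective
  letI := Fintype.ofFinite (ConjClasses G)
  let r : ConjClasses G → G := fun C => Quotient.out C
  have hr : ∀ C : ConjClasses G, ∀ g : G, ConjClasses.mk g = C ↔ IsConj (r C) g := by
    intro C g
    rw [← ConjClasses.mk_eq_mk_iff_isConj, show ConjClasses.mk (r C) = C from Quotient.out_eq C,
      eq_comm]
  have hcoef : ∀ C : ConjClasses G, ∀ g : G, ConjClasses.mk g = C →
      blockCoeff B g = blockCoeff B (r C) := by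
    intro C g hg
    obtain ⟨c, hc⟩ := isConj_iff.1 ((hr C g).1 hg)
    rw [← hc, Block.blockCoeff_conj_invariant]
  have hG : (∑ g : G, blockCoeff B g * (χ : G → ℂ) g) / (χ : G → ℂ) 1 =
      ∑ C : ConjClasses G, blockCoeff B (r C) * centralChar (χ : G → ℂ) (r C) := by
    rw [← Finset.sum_fiberwise Finset.univ ConjClasses.mk, Finset.sum_div]
    refine Finset.sum_congr rfl fun C _ => ?_
    have hcard : (Finset.univ.filter fun g : G => ConjClasses.mk g = C).card =
        (Subgroup.centralizer ({r C} : Set G)).index := by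
      rw [← Char.card_isConj_eq_index, Finset.filter_congr fun g _ => hr C g]
      congr!
    rw [Finset.sum_congr rfl fun g hg => by
      rw [hcoef C g (Finset.mem_filter.1 hg).2, Char.isClassFunction_eq_of_isConj
        (Char.irr_isClassFunction χ.2) ((hr C g).1 (Finset.mem_filter.1 hg).2).symm],
      Finset.sum_const, nsmul_eq_mul, centralChar, hcard]
    ring
  have hH : (∑ h : H, blockCoeff B (h : G) * (ζ : H → ℂ) h) / (ζ : H → ℂ) 1 =
      ∑ C : ConjClasses G, blockCoeff B (r C) * inducedCentralChar H (ζ : H → ℂ) (r C) := by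
    rw [← Finset.sum_fiberwise Finset.univ (fun h : H => ConjClasses.mk (h : G)), Finset.sum_div]
    refine Finset.sum_congr rfl fun C _ => ?_
    rw [Finset.sum_congr rfl fun h hh => by rw [hcoef C (h : G) (Finset.mem_filter.1 hh).2],
      ← Finset.mul_sum, mul_div_assoc, Finset.sum_div, inducedCentralChar]
    congr 1
    rw [finsum_mem_eq_toFinset_sum]
    refine Finset.sum_congr ?_ fun _ _ => rfl
    ext h
    simp [hr C]
  have hd : MemLocalIdeal M ((∑ h : H, blockCoeff B (h : G) * (ζ : H → ℂ) h) / (ζ : H → ℂ) 1 - 1) := by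
    rw [← h1, hG, hH, ← Finset.sum_sub_distrib]
    refine Block.memLocalIdeal_sum _ _ fun C _ => ?_
    rw [← mul_sub]
    exact Block.memLocalIdeal_mul_left (Block.blockCoeff_memLocalRing hind.2.1 _)
      (hind.2.2 ζ hζ χ hχ (r C))
  have := Block.memLocalIdeal_sub hmem hd
  rw [sub_sub_cancel] at this
  exact Block.not_memLocalIdeal_one this

/-- Let p be a prime, M a maximal ideal of the algebraic integers containing p, H a subgroup of the finite group G, and b a p-block of H inducing the p-block B of G, with b and B of the same defect. Then for every height-zero ζ ∈ b there is a height-zero χ ∈ B whose multiplicity in the character induced from ζ is not divisible by p. -/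
theorem result {G : Type*} [Group G] [Fintype G] (p : ℕ) [Fact p.Prime] (M : Ideal Cfsg.AlgInt) (hM : Cfsg.IsPModular p M) (H : Subgroup G) (b : Set (Cfsg.IrrCharacter ↥H)) (B : Set (Cfsg.IrrCharacter G)) (hind : Cfsg.IsInducedBlock M H b B) (hdef : Cfsg.blockDefect p b = Cfsg.blockDefect p B) (ζ : Cfsg.IrrCharacter ↥H) (hζ : ζ ∈ b) (hζ0 : Cfsg.blockHeight p b (ζ : ↥H → ℂ) = 0) : ∃ χ ∈ B, Cfsg.blockHeight p B (χ : G → ℂ) = 0 ∧ ∃ a : ℕ, Cfsg.classInner (Cfsg.indFun H (ζ : ↥H → ℂ)) (χ : G → ℂ) = (a : ℂ) ∧ ¬ p ∣ a := by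
  classical
  haveI : M.IsPrime := hM.2.1.isPrime
  letI := Fintype.ofFinite H
  haveI : Finite (IrrCharacter G) := CharInd.finite_irrCharacter
  letI := Fintype.ofFinite (IrrCharacter G)
  have hΦ : Cfsg.IsCharacter G (indFun H (ζ : H → ℂ)) :=
    CharInd.isCharacter_indFun H (Char.isCharacter_of_irr ζ.2)
  choose a ha using fun χ : IrrCharacter G => Char.isCharacter_classInner_nat hΦ χ
  have hin : ∀ χ : IrrCharacter G, ∑ h : H, (ζ : H → ℂ) h * conj ((χ : G → ℂ) (h : G)) =
      (Nat.card H : ℂ) * (a χ : ℂ) := by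
    intro χ
    rw [← ha, CharInd.classInner_indFun_left H _ (Char.irr_isClassFunction χ.2), classInner,
      ← mul_assoc, mul_inv_cancel₀ (Nat.cast_ne_zero.2 Nat.card_pos.ne'), one_mul]
  have hω := sum_blockCoeff_not_mem hind hζ
  set S : ℕ := ∑ χ : IrrCharacter G with χ ∈ B, charDegree (χ : G → ℂ) * a χ with hSdef
  have hsum : (∑ h : H, blockCoeff B (h : G) * (ζ : H → ℂ) h) / (ζ : H → ℂ) 1 =
      (S : ℂ) / ((H.index * charDegree (ζ : H → ℂ) : ℕ) : ℂ) := by
    have hs : ∑ h : H, blockCoeff B (h : G) * (ζ : H → ℂ) h =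
        (Nat.card G : ℂ)⁻¹ * ((Nat.card H : ℂ) * S) := by
      simp only [Block.blockCoeff_eq_sum, hSdef, Nat.cast_sum, Nat.cast_mul, Finset.mul_sum,
        Finset.sum_mul]
      rw [Finset.sum_comm]
      refine Finset.sum_congr rfl fun χ _ => ?_
      rw [BlocksChar.charDegree_eq, show (Nat.card H : ℂ) * ((χ : G → ℂ) 1 * (a χ : ℂ)) =
        (χ : G → ℂ) 1 * ∑ h : H, (ζ : H → ℂ) h * conj ((χ : G → ℂ) (h : G)) by rw [hin]; ring,
        Finset.mul_sum, Finset.mul_sum]
      exact Finset.sum_congr rfl fun h _ => by ring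
    rw [hs, ← Subgroup.card_mul_index H, Nat.cast_mul, Nat.cast_mul, BlocksChar.charDegree_eq]
    have h1 : (Nat.card H : ℂ) ≠ 0 := Nat.cast_ne_zero.2 Nat.card_pos.ne'
    have h2 : (H.index : ℂ) ≠ 0 := Nat.cast_ne_zero.2 Subgroup.index_ne_zero_of_finite
    have h3 := Char.irr_one_ne_zero ζ.2
    field_simp
  rw [hsum] at hω
  -- the minimal exponent
  obtain ⟨χ₀, hχ₀, hh₀⟩ := BlockVal.exists_height_zero (p := p) (Block.pBlock_nonempty hind.2.1)
  set m := (charDegree (χ₀ : G → ℂ)).factorization p with hm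
  have hζd := BlockVal.blockDefect_eq hζ hζ0
  have hBd := BlockVal.blockDefect_eq hχ₀ hh₀
  have hle : ∀ {K : Type u_1} [Group K] [Fintype K] (ξ : IrrCharacter K),
      (charDegree (ξ : K → ℂ)).factorization p ≤ (Nat.card K).factorization p := fun ξ =>
    (Nat.factorization_le_iff_dvd (BlocksChar.charDegree_pos ξ).ne' Nat.card_pos.ne').2
      (BlocksChar.degree_dvd_card ξ) p
  have hd0 : charDegree (ζ : H → ℂ) ≠ 0 := (BlocksChar.charDegree_pos ζ).ne'
  have hi0 : H.index ≠ 0 := Subgroup.index_ne_zero_of_finite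
  have hexp : (H.index * charDegree (ζ : H → ℂ)).factorization p = m := by
    have h1 : (Nat.card G).factorization p =
        (Nat.card H).factorization p + H.index.factorization p := by
      rw [← Subgroup.card_mul_index H, Nat.factorization_mul Nat.card_pos.ne' hi0, Finsupp.add_apply]
    have h2 := hle ζ
    have h3 := hle χ₀
    rw [Nat.factorization_mul hi0 hd0, Finsupp.add_apply]
    omega
  have hp : p.Prime := Fact.out
  by_contra hcon
  push Not at hcon
  have hdiv : p ^ (m + 1) ∣ S := by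
    refine Finset.dvd_sum fun χ hχ => ?_
    have hχB := (Finset.mem_filter.1 hχ).2
    have hmin : m ≤ (charDegree (χ : G → ℂ)).factorization p :=
      (BlockVal.blockHeight_eq_zero_iff hχ₀).1 hh₀ χ hχB
    by_cases hlt : m < (charDegree (χ : G → ℂ)).factorization p
    · exact Dvd.dvd.mul_right ((hp.pow_dvd_iff_le_factorization
        (BlocksChar.charDegree_pos χ).ne').2 hlt) _
    · have h0 : blockHeight p B (χ : G → ℂ) = 0 :=
        (BlockVal.blockHeight_eq_zero_iff hχB).2 fun ψ hψ =>
          le_trans (Nat.le_of_not_lt hlt) ((BlockVal.blockHeight_eq_zero_iff hχ₀).1 hh₀ ψ hψ)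
      rw [pow_succ]
      exact mul_dvd_mul ((hp.pow_dvd_iff_le_factorization
        (BlocksChar.charDegree_pos χ).ne').2 hmin) (hcon χ hχB h0 (a χ) (ha χ))
  apply hω
  rcases Nat.eq_zero_or_pos S with hS | hS
  · rw [hS, Nat.cast_zero, zero_div]
    exact Block.memLocalIdeal_zero
  · refine Block.memLocalIdeal_natCast_div hM hS.ne' (Nat.mul_ne_zero hi0 hd0) ?_
    rw [hexp]
    exact (hp.pow_dvd_iff_le_factorization hS.ne').1 hdiv

end Cfsg.Agent.S4725
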