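import Cfsg.Statements.S4726
import Cfsg.Agent.BlocksChar.PairInduction
import Cfsg.Agent.Block.FirstMain

set_option autoImplicit false
set_option linter.style.haveILetI false
open Cfsg

namespace Cfsg.Agent.S4726

/-- Let p be a prime, M a maximal ideal of the algebraic integers containing p, H a subgroup of the finite group G and b a p-block of H with defect group D₀ such that C_G(D₀) ≤ H. Then b induces a block of G, and for every block B of G induced by b there is a defect group D of B with Z(D) ≤ Z(D₀) ≤ D₀ ≤ D (as subgroups of G). In particular, if the defect groups of B are abelian then D₀ is a defect group of B. -/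
theorem result {G : Type*} [Group G] [Finite G] (p : ℕ) [Fact p.Prime] (M : Ideal Cfsg.AlgInt) (hM : Cfsg.IsPModular p M) (H : Subgroup G) (b : Set (Cfsg.IrrCharacter ↥H)) (hb : Cfsg.IsPBlock M b) (D₀ : Subgroup ↥H) (hD₀ : Cfsg.IsDefectGroup p M b D₀) (hC : Subgroup.centralizer ((D₀.map H.subtype : Subgroup G) : Set G) ≤ H) : Cfsg.InducedBlockDefined M H b ∧ ∀ B : Set (Cfsg.IrrCharacter G), Cfsg.IsInducedBlock M H b B → (∃ D : Subgroup G, Cfsg.IsDefectGroup p M B D ∧ (Subgroup.center ↥D).map D.subtype ≤ ((Subgroup.center ↥D₀).map D₀.subtype).map H.subtype ∧ ((Subgroup.center ↥D₀).map D₀.subtype).map H.subtype ≤ D₀.map H.subtype ∧ D₀.map H.subtype ≤ D) ∧ (∀ D : Subgroup G, Cfsg.IsDefectGroup p M B D → IsMulCommutative ↥D → Cfsg.IsDefectGroup p M B (D₀.map H.subtype)) := by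
  classical
  haveI : M.IsPrime := hM.2.1.isPrime
  haveI := Cfsg.Agent.Block.charP_resF (M := M) hM
  letI := Fintype.ofFinite G
  let bb : BrauerPairs.Blk M H := ⟨b, hb⟩
  set P := D₀.map H.subtype with hPdef
  have hD : BrauerPairs.IsDefIn p H ((BrauerPairs.blockSys M H).idem bb) P :=
    (BrauerPairs.isDefectGroup_subgroup_iff bb D₀).1 hD₀
  have hP : IsPGroup p P := hD.2.1
  have hi := (BrauerPairs.blockSys M H).central_idem bb
  obtain ⟨e, he⟩ := (BrauerPairs.pairSys M G P).exists_lam_one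
    (a := BrauerPairs.trunc P ((BrauerPairs.blockSys M H).idem bb))
    ⟨BrauerPairs.suppIn_trunc _ _, (hi.fixed.mono hC).trunc (Subgroup.centralizer_le_normalizer _)⟩
    (by rw [← BrauerPairs.trunc_mul hP (hi.fixed.mono hD.1) (hi.fixed.mono hD.1),
      (BrauerPairs.blockSys M H).idem_mul_self]) hD.2.2.1
  obtain ⟨B₀, hB₀, -⟩ := BrauerPairs.existsUnique_pairOf (BrauerPairs.blockSysTop M)
    (BrauerPairs.pairSys M G) (p := p) (a := ⟨P, e⟩) hP
  have hind := BlocksChar.isInducedBlock_of_pairOf hP hD.1 hC bb B₀ he hB₀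
  refine ⟨⟨B₀.1, hind⟩, fun B hB => ?_⟩
  obtain rfl : B = B₀.1 := Block.isInducedBlock_unique hB hind
  obtain ⟨⟨D, eD⟩, hle, hmax⟩ := BrauerPairs.exists_maxPair_above hB₀
  have hPD : P ≤ D := hle.le
  have hDdef : IsDefectGroup p M B₀.1 D := (BrauerPairs.isDefectGroup_iff B₀ D).2 hmax.isDef
  have hR : D ⊓ Subgroup.centralizer (P : Set G) ≤ P :=
    BlocksChar.le_of_trunc_pair_ne_zero (BrauerPairs.blockSys M H) hP hC hD he inf_le_right
      (hmax.1.1.to_le inf_le_left)
      (BrauerPairs.trunc_inf_ne_zero hmax.1.1 hle (Subgroup.centralizer_le_normalizer _)).1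
  refine ⟨⟨D, hDdef, ?_, ?_, hPD⟩, fun D' hD' hab' => ?_⟩
  · rintro _ ⟨z, hz, rfl⟩
    have hzP : ((z : ↥D) : G) ∈ Subgroup.centralizer (P : Set G) := fun w hw =>
      congrArg Subtype.val (Subgroup.mem_center_iff.1 hz ⟨w, hPD hw⟩)
    obtain ⟨u, hu, hue⟩ := hR ⟨z.2, hzP⟩
    refine ⟨u, ⟨⟨u, hu⟩, Subgroup.mem_center_iff.2 fun v => Subtype.ext (Subtype.ext ?_), rfl⟩, hue⟩
    simp only [Subgroup.coe_mul]
    rw [show ((u : ↥H) : G) = ((z : ↥D) : G) from hue]
    exact hzP _ ⟨(v : ↥H), v.2, rfl⟩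
  · exact Subgroup.map_mono (Subgroup.map_subtype_le _)
  · obtain ⟨g, hg⟩ := hmax.isDef.exists_conj ((BrauerPairs.isDefectGroup_iff B₀ D').1 hD')
    have hDab : ∀ x ∈ D, ∀ y ∈ D, x * y = y * x := by
      intro x hx y hy
      have hm : ∀ z ∈ D, g * z * g⁻¹ ∈ D' := fun z hz => hg ▸ ⟨z, hz, rfl⟩
      have := congrArg Subtype.val
        (hab'.is_comm.comm (⟨_, hm x hx⟩ : D') ⟨_, hm y hy⟩)
      simp only [Subgroup.coe_mul] at this
      have e1 : g * (x * y) * g⁻¹ = g * (y * x) * g⁻¹ := by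
        calc g * (x * y) * g⁻¹ = g * x * g⁻¹ * (g * y * g⁻¹) := by group
          _ = g * y * g⁻¹ * (g * x * g⁻¹) := this
          _ = g * (y * x) * g⁻¹ := by group
      exact mul_left_cancel (mul_right_cancel e1)
    have hDP : D ≤ P := fun x hx => hR ⟨hx, fun w hw => hDab w (hPD hw) x hx⟩
    exact (le_antisymm hPD hDP : P = D) ▸ hDdef

end Cfsg.Agent.S4726
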