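import Cfsg.Statements.S4727
import Cfsg.Agent.BlocksChar.SectionConst

set_option autoImplicit false
open Cfsg
open Cfsg.Agent

namespace Cfsg.Agent.S4727

/-- Let p be a prime, π a set of primes containing p, M a maximal ideal of the algebraic integers containing p, and B a p-block of the finite group G with defect group D; let B₁ be the block of N_G(D) with defect group D that induces B (the Brauer correspondent of B). Suppose every element of O_π'(N_G(D)), the largest normal subgroup of N_G(D) whose order has no prime divisor in π, lies in the kernel of every member of B₁. If y is a p-element whose centralizer C has a normal Hall π'-subgroup (every element of C whose order has no prime divisor in π lies in O_π'(C)), then χ(y x) = χ(y) for every χ ∈ B and every x ∈ C whose order has no prime divisor in π. -/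
theorem result {G : Type*} [Group G] [Finite G] (p : ℕ) [Fact p.Prime] (M : Ideal Cfsg.AlgInt) (hM : Cfsg.IsPModular p M) (π : Set ℕ) (hpπ : p ∈ π) (B : Set (Cfsg.IrrCharacter G)) (hB : Cfsg.IsPBlock M B) (D : Subgroup G) (hBD : Cfsg.IsDefectGroup p M B D) (B₁ : Set (Cfsg.IrrCharacter ↥(Subgroup.normalizer (D : Set G)))) (hB₁ : Cfsg.IsInducedBlock M (Subgroup.normalizer (D : Set G)) B₁ B) (hB₁D : Cfsg.IsDefectGroup p M B₁ (D.subgroupOf (Subgroup.normalizer (D : Set G)))) (hker : ∀ n : ↥(Subgroup.normalizer (D : Set G)), n ∈ Cfsg.piCore {q | q ∉ π} ↥(Subgroup.normalizer (D : Set G)) → n ∈ Cfsg.blockKer B₁) (y : G) (hy : ∃ k : ℕ, orderOf y = p ^ k) (hC : ∀ x : ↥(Subgroup.centralizer ({y} : Set G)), (∀ q : ℕ, q.Prime → q ∣ orderOf x → q ∉ π) → x ∈ Cfsg.piCore {q | q ∉ π} ↥(Subgroup.centralizer ({y} : Set G))) : ∀ χ ∈ B, ∀ x : G, x ∈ Subgroup.centralizer ({y} : Set G) → (∀ q : ℕ, q.Prime → q ∣ orderOf x → q ∉ π) → (χ : G → ℂ) (y * x) = (χ : G → ℂ) y := by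
  classical
  haveI : M.IsPrime := hM.2.1.isPrime
  haveI := Block.charP_resF (M := M) hM
  letI := Fintype.ofFinite G
  obtain ⟨k, hk⟩ := hy
  intro χ hχ x hx hxπ
  have hCQ : Subgroup.centralizer (Subgroup.zpowers y : Set G) =
      Subgroup.centralizer ({y} : Set G) := Brauer.centralizer_zpowers_eq y
  have hxV : x ∈ BlocksChar.coreC π (Subgroup.zpowers y) := by
    show x ∈ Cfsg.piCoreOf {q | q ∉ π} (Subgroup.centralizer (Subgroup.zpowers y : Set G))
    rw [hCQ]
    exact (BlocksChar.mem_piCoreOf_coe (π := π) (⟨x, hx⟩ : Subgroup.centralizer ({y} : Set G))).2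
      (hC ⟨x, hx⟩ fun q hq hd => hxπ q hq (by rwa [Subgroup.orderOf_mk] at hd))
  refine BlocksChar.block_apply_mul hM hB hk (BlocksChar.coreC π (Subgroup.zpowers y))
    (hCQ ▸ BlocksChar.coreC_le _) (fun c hc v hv => ?_) (BlocksChar.not_dvd_coreC hpπ _) ?_ hχ hxV
  · exact (Subgroup.mem_normalizer_iff.1
      (BlocksChar.centralizer_le_normalizer_coreC (π := π) _ (hCQ.symm ▸ hc)) v).1 hv
  · have hP : IsPGroup p (Subgroup.zpowers y) :=
      IsPGroup.of_card (n := k) (by rw [Nat.card_zpowers, hk])
    let B' : BrauerPairs.Blk M G := ⟨B, hB⟩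
    show BrauerPairs.trunc (Subgroup.zpowers y) ((BrauerPairs.blockSysTop M).idem B') * _ =
      BrauerPairs.trunc (Subgroup.zpowers y) ((BrauerPairs.blockSysTop M).idem B')
    have hc := BrauerPairs.centralIn_trunc_of_top ((BrauerPairs.blockSysTop M).central_idem B')
      (Subgroup.zpowers y)
    have hfx := ((BrauerPairs.blockSysTop M).central_idem B').fixed.mono
      (le_top : Subgroup.zpowers y ≤ ⊤)
    have hid : BrauerPairs.trunc (Subgroup.zpowers y) ((BrauerPairs.blockSysTop M).idem B') *
        BrauerPairs.trunc (Subgroup.zpowers y) ((BrauerPairs.blockSysTop M).idem B') =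
        BrauerPairs.trunc (Subgroup.zpowers y) ((BrauerPairs.blockSysTop M).idem B') := by
      rw [← BrauerPairs.trunc_mul hP hfx hfx, BrauerPairs.BlockSys.idem_mul_self]
    rw [(BrauerPairs.pairSys M G (Subgroup.zpowers y)).eq_sum_idem hc hid, Finset.sum_mul]
    refine Finset.sum_congr rfl fun e he => ?_
    have ht := BlocksChar.kernel_descends hM hpπ B' hBD ⟨B₁, hB₁.1⟩ hB₁ hB₁D hker
      ⟨Subgroup.zpowers y, e⟩ ⟨hP, (Finset.mem_filter.1 he).2⟩
    have hcen := BlocksChar.centralIn_avgF (M := M) (BlocksChar.coreC_le (π := π) (Subgroup.zpowers y))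
      (BlocksChar.centralizer_le_normalizer_coreC (π := π) _)
    have hkey := (BrauerPairs.pairSys M G (Subgroup.zpowers y)).mul_idem_eq_of_lam_one hcen
      (BlocksChar.avgF_mul_self (BlocksChar.not_dvd_coreC hpπ _)) ht
    exact (BrauerPairs.CentralIn.commute hcen.fixed
      ((BrauerPairs.pairSys M G (Subgroup.zpowers y)).central_idem e).supp).symm.eq.trans hkey

end Cfsg.Agent.S4727
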