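import Cfsg.Statements.S4728
import Cfsg.Agent.BlocksChar.PairCorrespondent

set_option autoImplicit false
open Cfsg
open Cfsg.Agent

namespace Cfsg.Agent.S4728

/-- Let p be a prime, π a set of primes containing p, M a maximal ideal of the algebraic integers containing p, B a p-block of the finite group G with defect group D, and B₁ the block of N_G(D) with defect group D inducing B. Let D₀ be a p-subgroup, H₀ = D₀·C_G(D₀), and b a block of H₀ inducing B. Write O_π'(X) for the largest normal subgroup of X whose order has no prime divisor in π. Suppose that O_π'(C_G(D₀)) is a normal Hall π'-subgroup of C_G(D₀) (it contains every element of C_G(D₀) whose order has no prime divisor in π) and that every element of it lies in the kernel of every member of b. Then every element of O_π'(N_G(D)) lies in the kernel of every member of B₁. -/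
theorem result {G : Type*} [Group G] [Finite G] (p : ℕ) [Fact p.Prime] (M : Ideal Cfsg.AlgInt) (hM : Cfsg.IsPModular p M) (π : Set ℕ) (hpπ : p ∈ π) (B : Set (Cfsg.IrrCharacter G)) (hB : Cfsg.IsPBlock M B) (D : Subgroup G) (hBD : Cfsg.IsDefectGroup p M B D) (B₁ : Set (Cfsg.IrrCharacter ↥(Subgroup.normalizer (D : Set G)))) (hB₁ : Cfsg.IsInducedBlock M (Subgroup.normalizer (D : Set G)) B₁ B) (hB₁D : Cfsg.IsDefectGroup p M B₁ (D.subgroupOf (Subgroup.normalizer (D : Set G)))) (D₀ : Subgroup G) (hD₀ : IsPGroup p D₀) (H₀ : Subgroup G) (hH₀ : H₀ = D₀ ⊔ Subgroup.centralizer (D₀ : Set G)) (b : Set (Cfsg.IrrCharacter ↥H₀)) (hb : Cfsg.IsInducedBlock M H₀ b B) (hcompl : ∀ x : ↥(Subgroup.centralizer (D₀ : Set G)), (∀ q : ℕ, q.Prime → q ∣ orderOf x → q ∉ π) → x ∈ Cfsg.piCore {q | q ∉ π} ↥(Subgroup.centralizer (D₀ : Set G))) (hkerb : ∀ x : ↥(Subgroup.centralizer (D₀ : Set G)), x ∈ Cfsg.piCore {q | q ∉ π} ↥(Subgroup.centralizer (D₀ : Set G)) → ∀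 θ ∈ b, ∀ h : ↥H₀, (h : G) = (x : G) → (θ : ↥H₀ → ℂ) h = (θ : ↥H₀ → ℂ) 1) : ∀ n : ↥(Subgroup.normalizer (D : Set G)), n ∈ Cfsg.piCore {q | q ∉ π} ↥(Subgroup.normalizer (D : Set G)) → n ∈ Cfsg.blockKer B₁ := by
  classical
  haveI : M.IsPrime := hM.2.1.isPrime
  haveI := Block.charP_resF (M := M) hM
  subst hH₀
  have hPH : D₀ ≤ D₀ ⊔ Subgroup.centralizer (D₀ : Set G) := le_sup_left
  have hCH : Subgroup.centralizer (D₀ : Set G) ≤ D₀ ⊔ Subgroup.centralizer (D₀ : Set G) :=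
    le_sup_right
  have hHN : D₀ ⊔ Subgroup.centralizer (D₀ : Set G) ≤ Subgroup.normalizer (D₀ : Set G) :=
    sup_le Subgroup.le_normalizer (Subgroup.centralizer_le_normalizer _)
  let b' : BrauerPairs.Blk M (D₀ ⊔ Subgroup.centralizer (D₀ : Set G) : Subgroup G) := ⟨b, hb.1⟩
  have hne : BrauerPairs.trunc D₀
      ((BrauerPairs.blockSys M (D₀ ⊔ Subgroup.centralizer (D₀ : Set G))).idem b') ≠ 0 := by
    intro h0
    have h := (BrauerPairs.blockSys M (D₀ ⊔ Subgroup.centralizer (D₀ : Set G))).lam_trunc hD₀ hPH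
      hHN ((BrauerPairs.blockSys M _).central_idem b') b'
    rw [h0, BrauerPairs.BlockSys.lam_zero, BrauerPairs.BlockSys.lam_idem_self] at h
    exact zero_ne_one h
  obtain ⟨e, he, hpair⟩ := BlocksChar.exists_pair_of_induced hM hD₀ hPH hCH b' ⟨B, hB⟩ hne hb
  have hH : BlocksChar.HallCore π D₀ := fun x hx ho =>
    (BlocksChar.mem_piCoreOf_coe (π := π) (⟨x, hx⟩ : Subgroup.centralizer (D₀ : Set G))).2
      (hcompl ⟨x, hx⟩ fun q hq hd => ho q hq (by rwa [Subgroup.orderOf_mk] at hd))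
  have hN : D₀ ⊔ Subgroup.centralizer (D₀ : Set G) ≤
      Subgroup.normalizer (BlocksChar.coreC π D₀ : Set G) :=
    hHN.trans (BlocksChar.normalizer_le_normalizer_coreC D₀)
  have ht : BlocksChar.TrivCore M π (⟨D₀, e⟩ : BrauerPairs.PairIdx M G) := by
    have h1 := BlocksChar.lam_avgF_pair hD₀ hPH hCH b' he ((BlocksChar.coreC_le D₀).trans hCH) hN
      (BlocksChar.not_dvd_coreC hpπ D₀)
    rw [inf_eq_left.2 (BlocksChar.coreC_le D₀)] at h1
    unfold BlocksChar.TrivCore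
    rw [h1]
    refine (BlocksChar.lam_avgF_eq_one_iff hM ((BlocksChar.coreC_le D₀).trans hCH) hN
      (BlocksChar.not_dvd_coreC hpπ D₀) b').2 fun χ hχ h hh => ?_
    exact hkerb ⟨h, BlocksChar.coreC_le D₀ hh⟩
      ((BlocksChar.mem_piCoreOf_coe (π := π)
        (⟨h, BlocksChar.coreC_le D₀ hh⟩ : Subgroup.centralizer (D₀ : Set G))).1 hh) χ hχ h rfl
  obtain ⟨eD, heD, hmax⟩ :=
    BlocksChar.exists_maxPair_correspondent hM ⟨B, hB⟩ hBD ⟨B₁, hB₁.1⟩ hB₁ hB₁D
  obtain ⟨x, c, hrel, hle⟩ := hmax.exists_conj_sle hpair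
  exact (BlocksChar.trivCore_correspondent_iff hM hpπ hmax.1.1 ⟨B₁, hB₁.1⟩ heD).1
    (((BlocksChar.trivCore_cjRel hrel).2 ht).up hpπ hle (hH.cjRel hrel))

end Cfsg.Agent.S4728
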