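import Cfsg.Statements.S4729
import Cfsg.Agent.BlocksChar.DefectZero
import Cfsg.Agent.Block.Idempotent
import Mathlib.LinearAlgebra.Determinant
-- import your own Cfsg.Agent.* helpers here

set_option autoImplicit false
open Cfsg

namespace Cfsg.Agent.S4729

/-- Let p be a prime, M a maximal ideal of the algebraic integers containing p, G a finite perfect group and P a Sylow p-subgroup. If the principal p-block of G contains a faithful irreducible character of degree less than 2p, then the centralizer of P is a p-group. -/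
theorem result {G : Type*} [Group G] [Finite G] (p : ℕ) [Fact p.Prime] (M : Ideal Cfsg.AlgInt) (hM : Cfsg.IsPModular p M) (hperf : commutator G = ⊤) (P : Sylow p G) (χ : Cfsg.IrrCharacter G) (hχ : χ ∈ Cfsg.principalBlock M G) (hfaith : ∀ g : G, (χ : G → ℂ) g = (χ : G → ℂ) 1 → g = 1) (hdeg : Cfsg.charDegree (χ : G → ℂ) < 2 * p) : IsPGroup p ↥(Subgroup.centralizer ((P : Subgroup G) : Set G)) := by
  classical
  letI := Fintype.ofFinite G
  haveI : M.IsPrime := hM.2.1.isPrime
  have hp : p.Prime := hM.1
  obtain ⟨d, ρ, hρirr, hρ⟩ := χ.2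
  have hd : (χ : G → ℂ) 1 = (d : ℂ) := by simp [← hρ]
  have hd0 : d ≠ 0 := fun h => Cfsg.Agent.Char.irr_one_ne_zero χ.2 (by rw [hd, h, Nat.cast_zero])
  have hdlt : d < 2 * p := by
    have : Cfsg.charDegree (χ : G → ℂ) = d := by simp [Cfsg.charDegree, hd]
    rwa [this] at hdeg
  -- congruence for the elements centralising `P`
  have hcong : ∀ w ∈ Subgroup.centralizer ((P : Subgroup G) : Set G),
      Cfsg.MemLocalIdeal M ((χ : G → ℂ) w - (d : ℂ)) := by
    intro w hw
    have hidx : ¬ p ∣ (Subgroup.centralizer ({w} : Set G)).index := fun h => P.not_dvd_index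
      (h.trans (Subgroup.index_dvd_of_le fun x hx =>
        Subgroup.mem_centralizer_singleton_iff.mpr (hw x hx)))
    have h := hχ w
    simp only [Cfsg.centralChar, mul_one, div_one, hd] at h
    have hi : ((Subgroup.centralizer ({w} : Set G)).index : ℂ) ≠ 0 :=
      Nat.cast_ne_zero.mpr Subgroup.index_ne_zero_of_finite
    have h2 := Cfsg.Agent.Block.memLocalIdeal_mul_left
      (Subring.mul_mem (Cfsg.Agent.Block.localRing M)
        (Cfsg.Agent.Block.memLocalRing_natCast_inv hM hidx)
        (Cfsg.Agent.Block.memLocalRing_natCast d)) (Cfsg.Agent.Block.memLocalIdeal_neg h)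
    convert h2 using 1
    have : (d : ℂ) ≠ 0 := Nat.cast_ne_zero.mpr hd0
    field_simp
    ring
  -- elements of order prime to `p` centralising `P` are trivial
  have key : ∀ w ∈ Subgroup.centralizer ((P : Subgroup G) : Set G), ¬ p ∣ orderOf w → w = 1 := by
    intro w hw hn
    obtain ⟨bas, ε, hb, hε⟩ := Cfsg.Agent.Char.exists_eigenbasis ρ w
    set n := orderOf w with hndef
    have hn0 : 0 < n := orderOf_pos w
    have hint : ∀ i, IsIntegral ℤ (ε i) := fun i =>
      IsIntegral.of_pow hn0 (by rw [hε i]; exact isIntegral_one)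
    have hmult : ∀ lam : ℂ, lam ^ n = 1 → lam ≠ 1 →
        p ∣ (Finset.univ.filter fun i => ε i = lam).card := by
      intro lam hl hl1
      have hl0 : lam ≠ 0 := fun h => by rw [h, zero_pow hn0.ne'] at hl; exact zero_ne_one hl
      have hgeom : ∀ z : ℂ, z ^ n = 1 → z ≠ 1 → ∑ j ∈ Finset.range n, z ^ j = 0 := fun z hz hz1 => by
        rw [geom_sum_eq hz1, hz, sub_self, zero_div]
      have hlinv : (lam⁻¹) ^ n = 1 := by rw [inv_pow, hl, inv_one]
      have hone : ∀ i, ∑ j ∈ Finset.range n, (lam⁻¹ * ε i) ^ j = if ε i = lam then (n : ℂ) else 0 := by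
        intro i
        by_cases hi : ε i = lam
        · rw [if_pos hi, hi, inv_mul_cancel₀ hl0]; simp
        · rw [if_neg hi]
          refine hgeom _ (by rw [mul_pow, hlinv, hε i, one_mul]) fun h => hi ?_
          rw [inv_mul_eq_one₀ hl0] at h
          exact h.symm
      have hsum : ((n * (Finset.univ.filter fun i => ε i = lam).card : ℕ) : ℂ)
          = ∑ j ∈ Finset.range n, lam⁻¹ ^ j * ((χ : G → ℂ) (w ^ j) - (d : ℂ)) := by
        have e : ∀ j, (χ : G → ℂ) (w ^ j) = ∑ i, ε i ^ j := fun j => by
          rw [← hρ]; exact Cfsg.Agent.Char.character_pow_eq_sum ρ hb j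
        simp only [mul_sub, Finset.sum_sub_distrib, ← Finset.sum_mul,
          hgeom _ hlinv (fun h => hl1 (inv_eq_one.mp h)), zero_mul, sub_zero, e, Finset.mul_sum,
          ← mul_pow]
        rw [Finset.sum_comm, Finset.sum_congr rfl fun i _ => hone i, Finset.sum_ite,
          Finset.sum_const, Finset.sum_const_zero, add_zero, nsmul_eq_mul, Nat.cast_mul, mul_comm]
      have hid : Cfsg.MemLocalIdeal M ((n * (Finset.univ.filter fun i => ε i = lam).card : ℕ) : ℂ) := by
        rw [hsum]
        refine Cfsg.Agent.Block.memLocalIdeal_sum _ _ fun j _ =>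
          Cfsg.Agent.Block.memLocalIdeal_mul_left ?_ (hcong _ (Subgroup.pow_mem _ hw j))
        exact Cfsg.Agent.Block.memLocalRing_of_pow_eq_one hn0.ne'
          (by rw [← pow_mul, mul_comm, pow_mul, hlinv, one_pow])
      exact (hp.dvd_mul.mp ((Cfsg.Agent.Block.memLocalIdeal_natCast_iff hM _).mp hid)).resolve_left hn
    have hall : ∀ i, ε i = 1 := by
      intro i₀
      by_contra hne
      set lam := ε i₀ with hlam
      set S := Finset.univ.filter fun i => ε i = lam with hS
      have hfr : Module.finrank ℂ (Fin d → ℂ) = d := Module.finrank_fin_fun ℂ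
      have hcard : ∀ T : Finset (Fin (Module.finrank ℂ (Fin d → ℂ))), T.card ≤ d := fun T =>
        (Finset.card_le_univ T).trans (by rw [Fintype.card_fin, hfr])
      have hSp : p ≤ S.card := Nat.le_of_dvd (Finset.card_pos.mpr ⟨i₀, by simp [hS, hlam]⟩)
        (hmult lam (hε i₀) hne)
      have hSc : S.card = p := by
        obtain ⟨c, hc⟩ := hmult lam (hε i₀) hne
        rw [← hS] at hc
        have := hcard S
        have hc2 : c < 2 := Nat.lt_of_mul_lt_mul_left (a := p) (by rw [← hc]; omega)
        interval_cases c <;> omega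
      have hrest : ∀ i, ε i ≠ lam → ε i = 1 := by
        intro i hi
        by_contra h1
        have h2 : p ≤ (Finset.univ.filter fun j => ε j = ε i).card :=
          Nat.le_of_dvd (Finset.card_pos.mpr ⟨i, by simp⟩) (hmult _ (hε i) h1)
        have h3 := hcard (S ∪ Finset.univ.filter fun j => ε j = ε i)
        rw [Finset.card_union_of_disjoint (Finset.disjoint_filter.mpr fun j _ h4 h5 =>
          hi (h5.symm.trans h4)), hSc] at h3
        omega
      have hdet : LinearMap.det (ρ w) = ∏ i, ε i := by
        rw [← LinearMap.det_toMatrix bas]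
        have : LinearMap.toMatrix bas bas (ρ w) = Matrix.diagonal ε := by
          ext i j
          rw [LinearMap.toMatrix_apply, hb, map_smul, Module.Basis.repr_self, Finsupp.smul_single,
            smul_eq_mul, mul_one, Matrix.diagonal_apply, Finsupp.single_apply]
          by_cases h : j = i
          · subst h; simp
          · rw [if_neg h, if_neg (fun h' => h h'.symm)]
        rw [this, Matrix.det_diagonal]
      let f : G →* ℂˣ := ((LinearMap.det : Module.End ℂ (Fin d → ℂ) →* ℂ).comp ρ).toHomUnits
      have hdet1 : LinearMap.det (ρ w) = 1 := by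
        have h1 : w ∈ f.ker := Abelianization.commutator_subset_ker f (hperf ▸ Subgroup.mem_top w)
        exact congrArg Units.val (MonoidHom.mem_ker.mp h1)
      rw [hdet, ← Finset.prod_filter_mul_prod_filter_not Finset.univ (fun i => ε i = lam), ← hS,
        Finset.prod_congr rfl (fun i hi => (Finset.mem_filter.mp hi).2 : ∀ i ∈ S, ε i = lam),
        Finset.prod_const, hSc, Finset.prod_congr rfl (fun i hi =>
          hrest i (Finset.mem_filter.mp hi).2 : ∀ i ∈ Finset.univ.filter (fun i => ¬ ε i = lam), ε i = 1),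
        Finset.prod_const_one, mul_one] at hdet1
      refine hne ?_
      have ho1 : orderOf lam ∣ p := orderOf_dvd_iff_pow_eq_one.mpr hdet1
      have ho2 : orderOf lam ∣ n := orderOf_dvd_iff_pow_eq_one.mpr (hε i₀)
      exact orderOf_eq_one_iff.mp
        (Nat.eq_one_of_dvd_coprimes ((Nat.Prime.coprime_iff_not_dvd hp).mpr hn) ho1 ho2)
    refine hfaith w ?_
    rw [hd, ← hρ]
    have := Cfsg.Agent.Char.character_pow_eq_sum ρ hb 1
    simpa [hall] using this
  -- hence the centraliser is a `p`-group
  rw [IsPGroup.iff_orderOf]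
  intro x
  obtain ⟨k, m, hm, hk⟩ := Nat.exists_eq_pow_mul_and_not_dvd (orderOf_pos (x : G)).ne' p hp.ne_one
  refine ⟨k, ?_⟩
  have hoy : orderOf ((x : G) ^ p ^ k) = m := by
    rw [orderOf_pow_of_dvd (pow_ne_zero _ hp.ne_zero) (by rw [hk]; exact dvd_mul_right _ _), hk,
      Nat.mul_div_cancel_left _ (pow_pos hp.pos k)]
  have h1 := key _ (Subgroup.pow_mem _ x.2 (p ^ k)) (by rw [hoy]; exact hm)
  rw [← Subgroup.orderOf_coe, hk]
  have : m = 1 := by rw [← hoy, h1, orderOf_one]
  rw [this, mul_one]

end Cfsg.Agent.S4729
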