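import Cfsg.Statements.S4730
import Cfsg.Agent.BlocksChar.DefectZero
import Cfsg.Agent.Block.Idempotent
import Cfsg.Agent.Char.Burnside
-- import your own Cfsg.Agent.* helpers here

set_option autoImplicit false
open Cfsg

namespace Cfsg.Agent.S4730

/-- Let p be a prime, M a maximal ideal of the algebraic integers containing p, and G a finite group with trivial centre, Sylow p-subgroup P of order p^a and centre Z(P) of order p^b. If χ is a faithful irreducible character of G whose degree is a power of p, then the p-block of χ has defect at most a − b; in particular, if P is abelian then χ lies in a block of defect zero. -/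
theorem result {G : Type*} [Group G] [Finite G] (p : ℕ) [Fact p.Prime] (M : Ideal Cfsg.AlgInt) (hM : Cfsg.IsPModular p M) (hZ : Subgroup.center G = ⊥) (P : Sylow p G) (a b : ℕ) (ha : Nat.card P = p ^ a) (hb : Nat.card (Subgroup.center ↥(P : Subgroup G)) = p ^ b) (χ : Cfsg.IrrCharacter G) (hfaith : ∀ g : G, (χ : G → ℂ) g = (χ : G → ℂ) 1 → g = 1) (n : ℕ) (hdeg : Cfsg.charDegree (χ : G → ℂ) = p ^ n) : Cfsg.blockDefect p (Cfsg.blockOf M (χ : G → ℂ)) ≤ a - b ∧ (IsMulCommutative ↥(P : Subgroup G) → Cfsg.blockDefect p (Cfsg.blockOf M (χ : G → ℂ)) = 0) := by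
  classical
  letI := Fintype.ofFinite G
  haveI : M.IsPrime := hM.2.1.isPrime
  have hp : p.Prime := hM.1
  set Z : Subgroup G := (Subgroup.center ↥(P : Subgroup G)).map (P : Subgroup G).subtype with hZdef
  letI := Fintype.ofFinite Z
  have hZc : Nat.card Z = p ^ b := by
    rw [hZdef, Subgroup.card_map_of_injective (P : Subgroup G).subtype_injective, hb]
  have hidx : ∀ z ∈ Z, ¬ p ∣ (Subgroup.centralizer ({z} : Set G)).index := by
    rintro z ⟨w, hw, rfl⟩ hdvd
    have hle : (P : Subgroup G) ≤ Subgroup.centralizer ({(w : G)} : Set G) := fun x hx =>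
      Subgroup.mem_centralizer_singleton_iff.mpr
        (congrArg Subtype.val (Subgroup.mem_center_iff.mp hw ⟨x, hx⟩))
    exact P.not_dvd_index (hdvd.trans (Subgroup.index_dvd_of_le hle))
  obtain ⟨d, ρ, hρirr, hρ⟩ := χ.2
  have hd : (χ : G → ℂ) 1 = (d : ℂ) := by simp [← hρ]
  have hdn : d = p ^ n := by rw [← hdeg]; simp [Cfsg.charDegree, hd]
  -- the faithful character vanishes on the nontrivial central elements of `P`
  have hvan : ∀ z ∈ Z, z ≠ 1 → (χ : G → ℂ) z = 0 := by
    intro z hz hz1
    haveI := hρirr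
    have hcop : Nat.Coprime (Module.finrank ℂ (Fin d → ℂ))
        (Subgroup.centralizer ({z} : Set G)).index := by
      rw [Module.finrank_fin_fun, hdn]
      exact Nat.Coprime.pow_left _ ((Nat.Prime.coprime_iff_not_dvd hp).mpr (hidx z hz))
    rcases Cfsg.Agent.Char.character_eq_zero_or_norm_eq ρ z hcop with h | h
    · rw [← hρ]; exact h
    exfalso
    obtain ⟨ω, hω⟩ := (Cfsg.Agent.Char.norm_character_eq_iff ρ z).mp h
    have hzc : z ∈ Subgroup.center G := by
      rw [Subgroup.mem_center_iff]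
      intro g
      have h1 : ρ g * ρ z = ρ z * ρ g := by
        rw [hω, ← Module.End.one_eq_id, mul_smul_comm, smul_mul_assoc, mul_one, one_mul]
      have h2 : ρ (g * z * g⁻¹ * z⁻¹) = 1 := by
        rw [map_mul, map_mul, map_mul, h1, ← map_mul, ← map_mul, ← map_mul,
          mul_inv_cancel_right, mul_inv_cancel, map_one]
      have h3 : g * z * g⁻¹ * z⁻¹ = 1 := hfaith _ (by
        rw [← hρ]
        show LinearMap.trace ℂ _ (ρ _) = LinearMap.trace ℂ _ (ρ 1)
        rw [h2, map_one ρ])
      rw [mul_inv_eq_one, mul_inv_eq_iff_eq_mul] at h3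
      exact h3
    rw [hZ, Subgroup.mem_bot] at hzc
    exact hz1 hzc
  -- hence every degree in the block is divisible by the order of the centre
  have hb' : ∀ ψ ∈ Cfsg.blockOf M (χ : G → ℂ),
      b ≤ (Cfsg.charDegree (ψ : G → ℂ)).factorization p := by
    intro ψ hψ
    have hq : ∀ z ∈ Z, z ≠ 1 → Cfsg.MemLocalIdeal M ((ψ : G → ℂ) z / (ψ : G → ℂ) 1) := by
      intro z hz hz1
      have h := hψ z
      simp only [Cfsg.centralChar, hvan z hz hz1, mul_zero, zero_div, zero_sub] at h
      have hi : ((Subgroup.centralizer ({z} : Set G)).index : ℂ) ≠ 0 :=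
        Nat.cast_ne_zero.mpr Subgroup.index_ne_zero_of_finite
      have h2 := Cfsg.Agent.Block.memLocalIdeal_mul_left
        (Cfsg.Agent.Block.memLocalRing_natCast_inv hM (hidx z hz))
        (Cfsg.Agent.Block.memLocalIdeal_neg h)
      convert h2 using 1
      field_simp
    obtain ⟨k, hk⟩ := Cfsg.Agent.Char.isCharacter_classInner_nat
      (Cfsg.Agent.Char.isCharacter_restrict (Cfsg.Agent.Char.isCharacter_of_irr ψ.2) Z)
      (Cfsg.Agent.Char.trivialIrr Z)
    have hsum : ∑ z : Z, (ψ : G → ℂ) z = ((p ^ b * k : ℕ) : ℂ) := by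
      rw [Nat.cast_mul, ← hZc, ← hk, ← Cfsg.Agent.Char.sum_mul_conj_eq_card_mul_classInner]
      simp [Cfsg.Agent.Char.trivialIrr]
    have hψ1 := Cfsg.Agent.Char.irr_one_ne_zero ψ.2
    have hm : Cfsg.MemLocalIdeal M
        (∑ z ∈ (Finset.univ : Finset Z).erase 1, (ψ : G → ℂ) z / (ψ : G → ℂ) 1) :=
      Cfsg.Agent.Block.memLocalIdeal_sum _ _ fun z hz =>
        hq z z.2 fun h => (Finset.mem_erase.mp hz).1 (Subtype.ext h)
    have hu : ¬ Cfsg.MemLocalIdeal M (((p ^ b * k : ℕ) : ℂ) / (ψ : G → ℂ) 1) := by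
      intro h
      rw [← hsum, ← Finset.add_sum_erase _ _ (Finset.mem_univ (1 : Z)), add_div, Finset.sum_div,
        OneMemClass.coe_one, div_self hψ1] at h
      exact Cfsg.Agent.Block.not_memLocalIdeal_one
        (by simpa using Cfsg.Agent.Block.memLocalIdeal_sub h hm)
    have hk0 : p ^ b * k ≠ 0 := fun h => hu (by
      rw [h, Nat.cast_zero, zero_div]; exact Cfsg.Agent.Block.memLocalIdeal_zero)
    have hR : Cfsg.MemLocalRing M (((p ^ b * k : ℕ) : ℂ) / (ψ : G → ℂ) 1) := by
      rw [← hsum, ← Finset.add_sum_erase _ _ (Finset.mem_univ (1 : Z)), add_div, Finset.sum_div,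
        OneMemClass.coe_one, div_self hψ1]
      exact Subring.add_mem (Cfsg.Agent.Block.localRing M) (Subring.one_mem _)
        (Cfsg.Agent.Block.memLocalRing_of_memLocalIdeal hm)
    have hinv := Cfsg.Agent.Block.memLocalRing_inv hR hu
    rw [inv_div, ← Cfsg.Agent.BlocksChar.charDegree_eq ψ] at hinv
    have h4 := (Cfsg.Agent.Block.memLocalRing_natCast_div_iff hM
      (Cfsg.Agent.BlocksChar.charDegree_pos ψ).ne' hk0).mp hinv
    rw [Nat.factorization_mul (pow_ne_zero _ hp.ne_zero) (right_ne_zero_of_mul hk0)] at h4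
    simp [hp.factorization_self] at h4
    omega
  have hmin : b ≤ sInf ((fun ψ : Cfsg.IrrCharacter G =>
      (Cfsg.charDegree (ψ : G → ℂ)).factorization p) '' Cfsg.blockOf M (χ : G → ℂ)) := by
    refine le_csInf (Set.Nonempty.image _ ⟨χ, Cfsg.Agent.Block.mem_blockOf_self χ⟩) ?_
    rintro _ ⟨ψ, hψ, rfl⟩
    exact hb' ψ hψ
  have hcard : (Nat.card G).factorization p = a := by
    have := P.card_eq_multiplicity
    rw [ha] at this
    exact (Nat.pow_right_injective hp.two_le this).symm
  have hmain : Cfsg.blockDefect p (Cfsg.blockOf M (χ : G → ℂ)) ≤ a - b := by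
    simp only [Cfsg.blockDefect, hcard]
    exact Nat.sub_le_sub_left hmin a
  refine ⟨hmain, fun hab => ?_⟩
  have : Subgroup.center ↥(P : Subgroup G) = ⊤ := by
    rw [Subgroup.eq_top_iff']
    intro x
    rw [Subgroup.mem_center_iff]
    intro y
    exact hab.is_comm.comm y x
  rw [this, Subgroup.card_top, ha] at hb
  have := Nat.pow_right_injective hp.two_le hb
  omega

end Cfsg.Agent.S4730
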