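import Cfsg.Statements.S4731
import Cfsg.Agent.Brauer.Projective
import Cfsg.Agent.Brauer.WeakOrth
import Cfsg.Agent.Block.Idempotent
import Cfsg.Agent.BlocksChar.DefectZero
-- import your own Cfsg.Agent.* helpers here

set_option autoImplicit false
open Cfsg

namespace Cfsg.Agent.S4731

/-- Let p ≠ q be primes, M_p and M_q maximal ideals of the algebraic integers containing p and q respectively, and G a finite group with no element of order pq; let q^b be the q-part of the order of G. For a p-block B_p (relative to M_p), a q-block B_q (relative to M_q) and a p-singular element y, the sum of χ(1)χ(y) over the irreducible characters χ lying in both B_p and B_q is q^b times an algebraic integer. -/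
theorem result {G : Type*} [Group G] [Finite G] (p q : ℕ) [Fact p.Prime] [Fact q.Prime] (hpq : p ≠ q) (Mp Mq : Ideal Cfsg.AlgInt) (hMp : Cfsg.IsPModular p Mp) (hMq : Cfsg.IsPModular q Mq) (hno : ∀ g : G, orderOf g ≠ p * q) (b : ℕ) (hb : (Nat.card G).factorization q = b) (Bp : Set (Cfsg.IrrCharacter G)) (hBp : Cfsg.IsPBlock Mp Bp) (Bq : Set (Cfsg.IrrCharacter G)) (hBq : Cfsg.IsPBlock Mq Bq) (y : G) (hy : p ∣ orderOf y) : ∃ ω : Cfsg.AlgInt, ∑ᶠ χ ∈ Bp ∩ Bq, (Cfsg.charDegree (χ : G → ℂ) : ℂ) * (χ : G → ℂ) y = (q : ℂ) ^ b * (ω : ℂ) := by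
  classical
  letI := Fintype.ofFinite G
  haveI : Mp.IsPrime := hMp.2.1.isPrime
  haveI : Mq.IsPrime := hMq.2.1.isPrime
  have hp : p.Prime := hMp.1
  have hq : q.Prime := hMq.1
  have hsing : ∀ g : G, q ∣ orderOf g → ¬ p ∣ orderOf g := by
    intro g hgq hgp
    have hd : p * q ∣ orderOf g := ((Nat.coprime_primes hp hq).mpr hpq).mul_dvd_of_dvd_of_dvd hgp hgq
    refine hno (g ^ (orderOf g / (p * q))) ?_
    rw [orderOf_pow_of_dvd (fun h => by
      rcases (Nat.div_eq_zero_iff).mp h with h1 | h1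
      · exact Nat.mul_ne_zero hp.ne_zero hq.ne_zero h1
      · exact absurd (Nat.le_of_dvd (orderOf_pos g) hd) (not_le.mpr h1)) (Nat.div_dvd_of_dvd hd),
      Nat.div_div_self hd (orderOf_pos g).ne']
  set Sp := Finset.univ.filter (· ∈ Bp) with hSp
  set Sq := Finset.univ.filter (· ∈ Bq) with hSq
  set f : G → ℂ := fun g => ∑ χ ∈ Sp, (χ : G → ℂ) y * (starRingEnd ℂ) ((χ : G → ℂ) g) with hf
  set f₂ : G → ℂ := fun g => ∑ χ ∈ Sp ∩ Sq, (χ : G → ℂ) y * (starRingEnd ℂ) ((χ : G → ℂ) g)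
    with hf₂
  have hint := fun g => Cfsg.Agent.Block.blockCoeff_memLocalRing hBp g
  have hintq := fun g => Cfsg.Agent.Block.blockCoeff_memLocalRing hBq g
  have hfin : ∀ (B : Set (Cfsg.IrrCharacter G)) (F : Cfsg.IrrCharacter G → ℂ),
      ∑ᶠ χ ∈ B, F χ = ∑ χ ∈ Finset.univ.filter (· ∈ B), F χ := fun B F => by
    rw [finsum_mem_eq_sum_of_inter_support_eq]
    ext χ; simp
  have hfvan : ∀ g : G, q ∣ orderOf g → f g = 0 := by
    intro g hg
    have h := Cfsg.Agent.Brauer.weakOrth_of_integral hMp Bp hint (hsing g hg) hy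
    rw [hfin] at h
    have h2 := congrArg (starRingEnd ℂ) h
    rw [map_zero, map_sum] at h2
    rw [← h2, hf]
    exact Finset.sum_congr rfl fun χ _ => by rw [map_mul, Complex.conj_conj, mul_comm]
  have hf₂van : ∀ g : G, q ∣ orderOf g → f₂ g = 0 := by
    intro g hg
    have h1 : ∀ χ : Cfsg.IrrCharacter G, ∑ h : G, f h * (χ : G → ℂ) h
        = if χ ∈ Sp then (Nat.card G : ℂ) * (χ : G → ℂ) y else 0 := by
      intro χ
      simp only [hf, Finset.sum_mul]
      rw [Finset.sum_comm]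
      have e : ∀ η : Cfsg.IrrCharacter G, ∑ h : G, (η : G → ℂ) y * (starRingEnd ℂ) ((η : G → ℂ) h)
          * (χ : G → ℂ) h = (η : G → ℂ) y * ((Nat.card G : ℂ) * if χ = η then 1 else 0) := by
        intro η
        rw [← Cfsg.Agent.Char.classInner_irrCharacter χ η,
          ← Cfsg.Agent.Char.sum_mul_conj_eq_card_mul_classInner, Finset.mul_sum]
        exact Finset.sum_congr rfl fun h _ => by ring
      rw [Finset.sum_congr rfl fun η _ => e η]
      simp only [mul_ite, mul_one, mul_zero]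
      rw [Finset.sum_ite_eq]
      split_ifs <;> ring
    have h2 : ∑ h : G, f h * ∑ χ ∈ Sq, (χ : G → ℂ) h * (starRingEnd ℂ) ((χ : G → ℂ) g)
        = (Nat.card G : ℂ) * f₂ g := by
      simp only [Finset.mul_sum, ← mul_assoc]
      rw [Finset.sum_comm]
      simp only [← Finset.sum_mul, h1, ite_mul, zero_mul]
      rw [Finset.sum_ite_mem, Finset.inter_comm, hf₂, Finset.mul_sum]
      exact Finset.sum_congr rfl fun χ _ => by ring
    have h3 : ∑ h : G, f h * ∑ χ ∈ Sq, (χ : G → ℂ) h * (starRingEnd ℂ) ((χ : G → ℂ) g) = 0 := by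
      refine Finset.sum_eq_zero fun h _ => ?_
      by_cases hh : q ∣ orderOf h
      · rw [hfvan h hh, zero_mul]
      · have := Cfsg.Agent.Brauer.weakOrth_of_integral hMq Bq hintq hh hg
        rw [hfin] at this
        rw [this, mul_zero]
    rw [h3] at h2
    exact (mul_eq_zero.mp h2.symm).resolve_left Cfsg.Agent.Char.card_ne_zero_complex
  have hf₂c : Cfsg.IsClassFunction G f₂ := fun g h => Finset.sum_congr rfl fun χ _ => by
    rw [Cfsg.Agent.Char.irr_isClassFunction χ.2 g h]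
  have hcoef : ∀ ψ : Cfsg.IrrCharacter G, IsIntegral ℤ (Cfsg.classInner f₂ (ψ : G → ℂ)) := by
    intro ψ
    have e : f₂ = ∑ χ ∈ Sp ∩ Sq, (χ : G → ℂ) y • (fun g => (starRingEnd ℂ) ((χ : G → ℂ) g)) := by
      funext g; simp [hf₂, Finset.sum_apply]
    rw [e, Cfsg.Agent.Char.classInner_sum_left]
    refine IsIntegral.sum _ fun χ _ => ?_
    rw [Cfsg.Agent.Char.classInner_smul_left,
      Cfsg.Agent.Char.classInner_irr (Cfsg.Agent.Char.isIrrCharacter_conjFun χ.2) ψ.2]
    refine (Cfsg.Agent.Char.isCharacter_isIntegral (Cfsg.Agent.Char.isCharacter_of_irr χ.2) _).mul ?_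
    split_ifs
    · exact isIntegral_one
    · exact isIntegral_zero
  have hS : ∑ᶠ χ ∈ Bp ∩ Bq, (Cfsg.charDegree (χ : G → ℂ) : ℂ) * (χ : G → ℂ) y = f₂ 1 := by
    rw [hfin, hf₂]
    refine Finset.sum_congr (by ext χ; simp [hSp, hSq]) fun χ _ => ?_
    rw [← Cfsg.Agent.BlocksChar.charDegree_eq χ, Complex.conj_natCast, mul_comm]
  have hqb : ((q : ℂ) ^ b) ≠ 0 := pow_ne_zero _ (Nat.cast_ne_zero.mpr hq.ne_zero)
  set z : ℂ := f₂ 1 / (q : ℂ) ^ b with hz
  suffices hzint : IsIntegral ℤ z by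
    exact ⟨⟨z, hzint⟩, by rw [hS]; show f₂ 1 = (q : ℂ) ^ b * z; rw [hz, mul_div_cancel₀ _ hqb]⟩
  -- integrality holds locally at every maximal ideal
  let I : Ideal Cfsg.AlgInt :=
    { carrier := {a | IsIntegral ℤ ((a : ℂ) * z)}
      zero_mem' := by simpa using isIntegral_zero (R := ℤ) (B := ℂ)
      add_mem' := fun {a c} ha hc => by
        simp only [Set.mem_setOf_eq, AddMemClass.coe_add, add_mul] at ha hc ⊢
        exact ha.add hc
      smul_mem' := fun c a ha => by
        simp only [Set.mem_setOf_eq, smul_eq_mul, MulMemClass.coe_mul, mul_assoc] at ha ⊢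
        exact c.2.mul ha }
  by_cases hI : I = ⊤
  · have h := (Ideal.eq_top_iff_one I).mp hI
    simpa [I] using h
  exfalso
  obtain ⟨M', hM', hle⟩ := Ideal.exists_le_maximal I hI
  have hf1 : IsIntegral ℤ (f₂ 1) := by
    rw [hf₂]
    exact IsIntegral.sum _ fun χ _ => (Cfsg.Agent.Char.isCharacter_isIntegral
      (Cfsg.Agent.Char.isCharacter_of_irr χ.2) _).mul (Cfsg.Agent.Char.isCharacter_isIntegral
      (Cfsg.Agent.Char.isCharacter_conjFun (Cfsg.Agent.Char.isCharacter_of_irr χ.2)) 1)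
  have hqI : (q : Cfsg.AlgInt) ^ b ∈ I := by
    show IsIntegral ℤ (_ * z)
    push_cast
    rw [hz, mul_div_cancel₀ _ hqb]
    exact hf1
  have hqM : (q : Cfsg.AlgInt) ∈ M' := hM'.isPrime.mem_of_pow_mem b (hle hqI)
  haveI : M'.IsPrime := hM'.isPrime
  have hloc := Cfsg.Agent.Brauer.memLocalRing_div_pPart_of_vanish_singular (p := q) (M := M')
    ⟨hq, hM', hqM⟩ f₂ hf₂c (fun ψ => Cfsg.Agent.Block.memLocalRing_of_isIntegral (hcoef ψ)) hf₂van
  rw [hb, Nat.cast_pow, ← hz] at hloc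
  obtain ⟨c, d, hd, hcd⟩ := hloc
  refine hd (hle (show IsIntegral ℤ ((d : ℂ) * z) from ?_))
  have hd0 : (d : ℂ) ≠ 0 := fun h => hd (by rw [show d = 0 from Subtype.ext h]; exact M'.zero_mem)
  rw [← hcd, mul_div_cancel₀ _ hd0]
  exact c.2

end Cfsg.Agent.S4731
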