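import Cfsg.Statements.S4732
import Cfsg.Agent.ModJordan.Linear
import Mathlib.LinearAlgebra.Matrix.ToLin
import Mathlib.FieldTheory.IsAlgClosed.AlgebraicClosure
import Mathlib.GroupTheory.IndexNormal

set_option autoImplicit false
universe u v
open Cfsg

namespace Cfsg.Agent.S4732

/-- Let p be a prime. There is a function f of two natural-number arguments such that every finite group G admitting a faithful representation of degree n over a field of characteristic p, with Sylow p-subgroups of order p^m, has a normal abelian subgroup A with [G : A] < f(m, n). -/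
theorem result (p : ℕ) [Fact p.Prime] : ∃ f : ℕ → ℕ → ℕ, ∀ (G : Type u) [Group G] [Finite G] (F : Type v) [Field F] [CharP F p] (n : ℕ) (ρ : Representation F G (Fin n → F)), Function.Injective ρ → ∀ m : ℕ, (Nat.card G).factorization p = m → ∃ A : Subgroup G, A.Normal ∧ IsMulCommutative A ∧ A.index < f m n := by
  classical
  refine ⟨fun m n => (ModJordan.dimBound (p ^ m) n).factorial + 1, ?_⟩
  intro G _ _ F _ _ n ρ hρ m hm
  have hp : p.Prime := Fact.out
  let K := AlgebraicClosure F
  haveI : CharP K p := charP_of_injective_algebraMap (algebraMap F K).injective p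
  let ρ' : G →* Module.End K (Fin n → K) :=
    ((Matrix.toLinAlgEquiv' (R := K) (n := Fin n)).toAlgHom.toRingHom.toMonoidHom.comp
      (((algebraMap F K).mapMatrix).toMonoidHom.comp
        (LinearMap.toMatrixAlgEquiv' (R := F) (n := Fin n)).toAlgHom.toRingHom.toMonoidHom)).comp ρ
  have hρ' : Function.Injective ρ' := fun a b h => hρ (LinearMap.toMatrixAlgEquiv'.injective
    (Matrix.map_injective (algebraMap F K).injective (Matrix.toLinAlgEquiv'.injective h)))
  have hq : ∀ P : Subgroup G, IsPGroup p P → Nat.card P ≤ p ^ m := by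
    intro P hP
    obtain ⟨k, hk⟩ := IsPGroup.iff_card.1 hP
    rw [hk]
    refine Nat.pow_le_pow_right hp.pos ?_
    rw [← hm]
    exact (hp.pow_dvd_iff_le_factorization Nat.card_pos.ne').1
      (hk ▸ Subgroup.card_subgroup_dvd_card P)
  obtain ⟨A, hA, hcA⟩ := ModJordan.bounded (p := p) (p ^ m) n G K (Fin n → K)
    (Module.finrank_fin_fun K).le ρ' hρ' hq
  have hidx : A.index ≤ ModJordan.dimBound (p ^ m) n := by
    rw [← A.card_mul_index, mul_comm (ModJordan.dimBound _ _)] at hcA
    exact Nat.le_of_mul_le_mul_left hcA Nat.card_pos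
  refine ⟨A.normalCore, inferInstance, ⟨⟨fun x y => Subtype.ext
    (hA x (A.normalCore_le x.2) y (A.normalCore_le y.2)).eq⟩⟩, Nat.lt_succ_of_le ?_⟩
  rw [Subgroup.normalCore_eq_ker, Subgroup.index_ker]
  refine le_trans (Nat.card_le_card_of_injective _ Subtype.val_injective) ?_
  rw [Nat.card_perm]
  exact Nat.factorial_le hidx

end Cfsg.Agent.S4732
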