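import Cfsg.Statements.S4734
import Cfsg.Agent.BlocksChar.PairCorrespondent

set_option autoImplicit false
open Cfsg
open Cfsg.Agent

namespace Cfsg.Agent.S4734

/-- Let p be a prime, π a set of primes containing p, M a maximal ideal of the algebraic integers containing p, B a p-block of the finite group G with defect group D, and B₁ the block of N_G(D) with defect group D inducing B. Write O_π'(X) for the largest normal subgroup of X whose order has no prime divisor in π, and suppose every element of O_π'(N_G(D)) lies in the kernel of every member of B₁. Let G₀ be a subgroup and B₀ a block of G₀ with defect group D₀ such that C_G(D₀) ≤ G₀ and B₀ induces B. Then every element of O_π'(G₀) lies in the kernel of every member of B₀. -/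
theorem result {G : Type*} [Group G] [Finite G] (p : ℕ) [Fact p.Prime] (M : Ideal Cfsg.AlgInt) (hM : Cfsg.IsPModular p M) (π : Set ℕ) (hpπ : p ∈ π) (B : Set (Cfsg.IrrCharacter G)) (hB : Cfsg.IsPBlock M B) (D : Subgroup G) (hBD : Cfsg.IsDefectGroup p M B D) (B₁ : Set (Cfsg.IrrCharacter ↥(Subgroup.normalizer (D : Set G)))) (hB₁ : Cfsg.IsInducedBlock M (Subgroup.normalizer (D : Set G)) B₁ B) (hB₁D : Cfsg.IsDefectGroup p M B₁ (D.subgroupOf (Subgroup.normalizer (D : Set G)))) (hker : ∀ n : ↥(Subgroup.normalizer (D : Set G)), n ∈ Cfsg.piCore {q | q ∉ π} ↥(Subgroup.normalizer (D : Set G)) → n ∈ Cfsg.blockKer B₁) (G₀ : Subgroup G) (B₀ : Set (Cfsg.IrrCharacter ↥G₀)) (hB₀ : Cfsg.IsInducedBlock M G₀ B₀ B) (D₀ : Subgroup ↥G₀) (hD₀ : Cfsg.IsDefectGroup p M B₀ D₀) (hC : Subgroup.centralizer ((D₀.map G₀.subtype : Subgroup G) : Set G) ≤ G₀) : ∀ x : ↥G₀, x ∈ Cfsg.piCore {q | q ∉ π} ↥G₀ → x ∈ Cfsg.blockKer B₀ := by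
  classical
  haveI : M.IsPrime := hM.2.1.isPrime
  haveI := Cfsg.Agent.Block.charP_resF (M := M) hM
  have hD₀' := (BrauerPairs.isDefectGroup_subgroup_iff ⟨B₀, hB₀.1⟩ D₀).1 hD₀
  obtain ⟨e, he, hpair⟩ := BlocksChar.exists_pair_of_induced hM hD₀'.2.1 hD₀'.1 hC ⟨B₀, hB₀.1⟩
    ⟨B, hB⟩ hD₀'.2.2.1 hB₀
  have htr := BlocksChar.kernel_descends hM hpπ ⟨B, hB⟩ hBD ⟨B₁, hB₁.1⟩ hB₁ hB₁D hker _ hpair
  refine (BlocksChar.lam_avgF_piCoreOf_iff hM hpπ G₀ ⟨B₀, hB₀.1⟩).1 ?_
  have hKp : ¬ p ∣ Nat.card (Cfsg.piCoreOf {q | q ∉ π} G₀) :=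
    BlocksChar.not_dvd_of_isPi hpπ (OddLocal.isPi_piCoreOf _ _)
  rw [← BlocksChar.lam_avgF_pair hD₀'.2.1 hD₀'.1 hC ⟨B₀, hB₀.1⟩ he (OddLocal.piCoreOf_le _ _)
    (OddLocal.le_normalizer_piCoreOf _ _) hKp]
  set P := D₀.map G₀.subtype
  set L := Cfsg.piCoreOf {q | q ∉ π} G₀ ⊓ Subgroup.centralizer (P : Set G) with hL
  have hN : Subgroup.centralizer (P : Set G) ≤ Subgroup.normalizer (L : Set G) := by
    intro g hg
    rw [Subgroup.mem_normalizer_iff]
    intro y
    exact and_congr (Subgroup.mem_normalizer_iff.1 (OddLocal.le_normalizer_piCoreOf _ _ (hC hg)) y)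
      (Subgroup.mem_normalizer_iff.1 (Subgroup.le_normalizer hg) y)
  refine BlocksChar.lam_avgF_mono _ _ ?_ (BlocksChar.coreC_le P)
    (BlocksChar.centralizer_le_normalizer_coreC P) hN (BlocksChar.not_dvd_coreC hpπ P) htr
  exact OddLocal.le_piCoreOf inf_le_right hN fun q hq hd =>
    OddLocal.isPi_piCoreOf {q | q ∉ π} G₀ q hq (hd.trans (Subgroup.card_dvd_of_le inf_le_left))

end Cfsg.Agent.S4734
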