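import Cfsg.Statements.S4735
import Cfsg.Agent.Brauer.Inflation
import Cfsg.Agent.Brauer.Kernel
import Cfsg.Agent.OddChar.Twist
import Cfsg.Agent.BlkChar.GalAvg
import Cfsg.Agent.BlkChar.Sums
import Cfsg.Agent.BlocksChar.Codegree
import Cfsg.Agent.Cores.Basic
import Cfsg.Agent.CharInd.GenChar

set_option linter.style.haveILetI false

set_option autoImplicit false
set_option maxHeartbeats 400000
open Cfsg

namespace Cfsg.Agent.S4735

open scoped ComplexConjugate

universe u

variable {G : Type u} [Group G] [Finite G]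

theorem exists_pow_pow_eq {j : ℕ} (hj : j.Coprime (Nat.card G)) (g : G) :
    ∃ m : ℕ, (g ^ j) ^ m = g :=
  exists_pow_eq_self_of_coprime (hj.coprime_dvd_right (orderOf_dvd_natCard g))

theorem centralizer_pow_eq {j : ℕ} (hj : j.Coprime (Nat.card G)) (g : G) :
    Subgroup.centralizer ({g ^ j} : Set G) = Subgroup.centralizer ({g} : Set G) := by
  ext a
  simp only [Subgroup.mem_centralizer_singleton_iff]
  constructor
  · intro h
    obtain ⟨m, hm⟩ := exists_pow_pow_eq hj g
    have := (Commute.pow_right (show Commute a (g ^ j) from h) m)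
    rw [hm] at this
    exact this
  · intro h
    exact Commute.pow_right h j

/-- The twist of an irreducible character by a power prime to the group order. -/
noncomputable def twist (j : ℕ) (hj : j.Coprime (Nat.card G)) (χ : IrrCharacter G) :
    IrrCharacter G :=
  ⟨fun g => (χ : G → ℂ) (g ^ j), OddChar.irr_twist χ.2 hj⟩

theorem twist_injective (j : ℕ) (hj : j.Coprime (Nat.card G)) :
    Function.Injective (twist (G := G) j hj) := by
  intro a b hab
  refine Subtype.ext (funext fun g => ?_)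
  obtain ⟨m, hm⟩ := exists_pow_pow_eq hj g
  have := congrFun (congrArg Subtype.val hab) (g ^ m)
  simp only [twist] at this
  rwa [← pow_mul, mul_comm, pow_mul, hm] at this

theorem twist_mem_principalBlock (M : Ideal AlgInt) {j : ℕ} (hj : j.Coprime (Nat.card G))
    {χ : IrrCharacter G} (hχ : χ ∈ principalBlock M G) :
    twist j hj χ ∈ principalBlock M G := by
  intro g
  have h := hχ (g ^ j)
  have e : centralChar (twist j hj χ : G → ℂ) g = centralChar (χ : G → ℂ) (g ^ j) := by
    simp only [centralChar, twist, centralizer_pow_eq hj, one_pow]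
  have e1 : centralChar (fun _ : G => (1 : ℂ)) g = centralChar (fun _ : G => (1 : ℂ)) (g ^ j) := by
    simp only [centralChar, centralizer_pow_eq hj]
  rw [e, e1]
  exact h

theorem exists_nat_sum_normSq (M : Ideal AlgInt) (hM1 : Char.trivialIrr G ∈ principalBlock M G)
    (x : G) :
    ∃ n : ℕ, 0 < n ∧ ∑ᶠ χ ∈ principalBlock M G, Complex.normSq ((χ : G → ℂ) x) = n := by
  classical
  letI := Fintype.ofFinite G
  haveI : Finite (IrrCharacter G) := CharInd.finite_irrCharacter
  letI := Fintype.ofFinite (IrrCharacter G)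
  haveI : NeZero (Nat.card G) := ⟨Nat.card_pos.ne'⟩
  set B := (principalBlock M G).toFinset with hB
  have hx : x ^ Nat.card G = 1 := pow_card_eq_one'
  let fam : (ZMod (Nat.card G))ˣ → ℂ := fun a => ∑ χ ∈ B,
    (χ : G → ℂ) (x ^ (a : ZMod (Nat.card G)).val) *
      conj ((χ : G → ℂ) (x ^ (a : ZMod (Nat.card G)).val))
  have hmem : fam ∈ GalAvg.cycFun (Nat.card G) := by
    have : fam = ∑ χ ∈ B, fun a : (ZMod (Nat.card G))ˣ =>
        (χ : G → ℂ) (x ^ (a : ZMod (Nat.card G)).val) *
          conj ((χ : G → ℂ) (x ^ (a : ZMod (Nat.card G)).val)) := by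
      funext a; simp [fam]
    rw [this]
    exact sum_mem fun χ _ => GalAvg.sq_family_mem (Char.isCharacter_of_irr χ.2) x hx
  obtain ⟨k, hk⟩ := GalAvg.exists_int_of_const hmem
    (c := ((∑ χ ∈ B, Complex.normSq ((χ : G → ℂ) x) : ℝ) : ℂ)) (fun a => by
      have hj : (a : ZMod (Nat.card G)).val.Coprime (Nat.card G) := ZMod.val_coe_unit_coprime a
      rw [Complex.ofReal_sum]
      refine Finset.sum_bij (fun χ _ => twist _ hj χ) (fun χ hχ => ?_)
        (fun χ _ ψ _ h => twist_injective _ hj h) (fun ψ hψ => ?_) (fun χ _ => ?_)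
      · simp only [hB, Set.mem_toFinset] at hχ ⊢
        exact twist_mem_principalBlock M hj hχ
      · obtain ⟨χ, hχ, he⟩ := Finset.surj_on_of_inj_on_of_card_le
          (s := B) (t := B) (fun χ _ => twist _ hj χ) (fun χ hχ => by
            simp only [hB, Set.mem_toFinset] at hχ ⊢
            exact twist_mem_principalBlock M hj hχ)
          (fun χ ψ _ _ h => twist_injective _ hj h) le_rfl ψ hψ
        exact ⟨χ, hχ, he.symm⟩
      · simp only [twist, Complex.mul_conj])
  have hk' : (∑ χ ∈ B, Complex.normSq ((χ : G → ℂ) x)) = (k : ℝ) := by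
    exact_mod_cast hk
  have hone : (1 : ℝ) ≤ ∑ χ ∈ B, Complex.normSq ((χ : G → ℂ) x) := by
    refine le_trans ?_ (Finset.single_le_sum (fun χ _ => Complex.normSq_nonneg _)
      (show Char.trivialIrr G ∈ B by simpa [hB] using hM1))
    simp [Char.trivialIrr]
  have hkpos : 0 < k := by
    have : (1 : ℝ) ≤ (k : ℝ) := hk' ▸ hone
    exact_mod_cast this
  refine ⟨k.toNat, by omega, ?_⟩
  rw [finsum_mem_eq_toFinset_sum, ← hB, hk']
  exact_mod_cast congrArg (fun z : ℤ => (z : ℝ)) (Int.toNat_of_nonneg hkpos.le).symm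

/-- The principal block lives on the quotient by a normal `p'`-subgroup. -/
theorem principalBlock_eq_image {p : ℕ} {M : Ideal AlgInt} (hM : IsPModular p M) (N : Subgroup G)
    [N.Normal] (hN : ¬ p ∣ Nat.card N) :
    principalBlock M G =
      (fun ψ : IrrCharacter (G ⧸ N) => (Char.irrEquivQuotient N ψ : IrrCharacter G)) ''
        principalBlock M (G ⧸ N) := by
  classical
  letI := Fintype.ofFinite G
  letI := Fintype.ofFinite (G ⧸ N)
  haveI : M.IsPrime := hM.2.1.isPrime
  ext χ
  constructor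
  · intro hχ
    have htriv := Brauer.trivialOn_of_sameBlock hM N hN (χ := Char.trivialIrr G) hχ
      (fun n _ => rfl)
    obtain ⟨ψ, hψ⟩ := (Char.irrEquivQuotient N).surjective ⟨χ, htriv⟩
    have hv : (Char.irrEquivQuotient N ψ : IrrCharacter G) = χ := congrArg Subtype.val hψ
    refine ⟨ψ, ?_, hv⟩
    refine Brauer.sameBlock_of_comp_mk hM N hN (χ := Char.trivialIrr (G ⧸ N)) ?_
    have e : ((χ : G → ℂ)) = (ψ : G ⧸ N → ℂ) ∘ QuotientGroup.mk := by
      rw [← hv]; rfl
    rw [← e]
    exact hχ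
  · rintro ⟨ψ, hψ, rfl⟩
    exact Brauer.sameBlock_comp_mk N hψ

/-- Let p be a prime, M a maximal ideal of the algebraic integers containing p, G a finite group, H = O_p'(G) and Ḡ = G/H. For x ∈ G write λ(G, x) for the sum of |χ(x)|^2 over the irreducible characters χ in the principal p-block of G. Then λ(G, x) is a positive integer, λ(G, x) = λ(Ḡ, x̄) where x̄ is the image of x, and λ(G, x) ≤ #C_Ḡ(x̄). Moreover λ(G, 1) = [G : H] if and only if the principal block is the only p-block of Ḡ. -/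
theorem result {G : Type*} [Group G] [Finite G] (p : ℕ) [Fact p.Prime] (M : Ideal Cfsg.AlgInt) (hM : Cfsg.IsPModular p M) (x : G) : (∃ n : ℕ, 0 < n ∧ ∑ᶠ χ ∈ Cfsg.principalBlock M G, Complex.normSq ((χ : G → ℂ) x) = n) ∧ ∑ᶠ χ ∈ Cfsg.principalBlock M G, Complex.normSq ((χ : G → ℂ) x) = ∑ᶠ ψ ∈ Cfsg.principalBlock M (G ⧸ Cfsg.pPrimeCore p G), Complex.normSq ((ψ : G ⧸ Cfsg.pPrimeCore p G → ℂ) (QuotientGroup.mk x)) ∧ ∑ᶠ χ ∈ Cfsg.principalBlock M G, Complex.normSq ((χ : G → ℂ) x) ≤ (Nat.card ↥(Subgroup.centralizer ({(QuotientGroup.mk x : G ⧸ Cfsg.pPrimeCore p G)} : Set (G ⧸ Cfsg.pPrimeCore p G))) : ℝ) ∧ ((∑ᶠ χ ∈ Cfsg.principalBlock M G, Cfsg.charDegree (χ : G → ℂ) ^ 2) = (Cfsg.pPrimeCore p G).index ↔ ∀ B : Set (Cfsg.IrrCharacter (G ⧸ Cfsg.pPrimeCore p G)), Cfsg.IsPBlock M B → B = Cfsg.principalBlock M (G ⧸ Cfsg.pPrimeCore p G)) := by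
  classical
  letI := Fintype.ofFinite G
  haveI : M.IsPrime := hM.2.1.isPrime
  haveI : (Cfsg.pPrimeCore p G).Normal := inferInstance
  have hN : ¬ p ∣ Nat.card (Cfsg.pPrimeCore p G) := Cores.not_dvd_card_pPrimeCore
  letI := Fintype.ofFinite (G ⧸ Cfsg.pPrimeCore p G)
  haveI : Finite (IrrCharacter (G ⧸ Cfsg.pPrimeCore p G)) := CharInd.finite_irrCharacter
  letI := Fintype.ofFinite (IrrCharacter (G ⧸ Cfsg.pPrimeCore p G))
  have hinj : Function.Injective
      (fun ψ : IrrCharacter (G ⧸ Cfsg.pPrimeCore p G) =>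
        (Char.irrEquivQuotient (Cfsg.pPrimeCore p G) ψ : IrrCharacter G)) :=
    Subtype.val_injective.comp (Char.irrEquivQuotient _).injective
  have heq : ∀ y : G, ∑ᶠ χ ∈ principalBlock M G, Complex.normSq ((χ : G → ℂ) y) =
      ∑ᶠ ψ ∈ principalBlock M (G ⧸ Cfsg.pPrimeCore p G),
        Complex.normSq ((ψ : G ⧸ Cfsg.pPrimeCore p G → ℂ) (QuotientGroup.mk y)) := by
    intro y
    rw [principalBlock_eq_image hM _ hN, finsum_mem_image (hinj.injOn)]
    rfl
  have hmem1 : Char.trivialIrr G ∈ principalBlock M G :=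
    Block.mem_blockOf_self (M := M) (Char.trivialIrr G)
  refine ⟨exists_nat_sum_normSq M hmem1 x, heq x, ?_, ?_⟩
  · rw [heq x, finsum_mem_eq_toFinset_sum,
      ← Cfsg.Agent.GalAvg.irr_sum_norm_sq (QuotientGroup.mk x : G ⧸ Cfsg.pPrimeCore p G)]
    refine le_trans (Finset.sum_le_sum_of_subset_of_nonneg (Finset.subset_univ _)
      fun χ _ _ => Complex.normSq_nonneg _) (le_of_eq (Finset.sum_congr rfl fun χ _ => ?_))
    exact Complex.normSq_eq_norm_sq _
  · have hd : ∑ᶠ χ ∈ principalBlock M G, charDegree (χ : G → ℂ) ^ 2 =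
        ∑ ψ ∈ (principalBlock M (G ⧸ Cfsg.pPrimeCore p G)).toFinset,
          charDegree (ψ : G ⧸ Cfsg.pPrimeCore p G → ℂ) ^ 2 := by
      rw [principalBlock_eq_image hM _ hN, finsum_mem_image (hinj.injOn),
        finsum_mem_eq_toFinset_sum]
      rfl
    rw [hd, Subgroup.index, ← BlocksChar.sum_charDegree_sq (G := G ⧸ Cfsg.pPrimeCore p G)]
    constructor
    · intro h B hB
      obtain ⟨χ, rfl⟩ := hB
      have hall : χ ∈ principalBlock M (G ⧸ Cfsg.pPrimeCore p G) := by
        by_contra hχ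
        refine absurd h (Finset.sum_lt_sum_of_subset (Finset.subset_univ _) (Finset.mem_univ χ)
          (by rwa [Set.mem_toFinset]) (pow_pos (BlocksChar.charDegree_pos χ) 2)
          fun _ _ _ => Nat.zero_le _).ne
      exact (Block.blockOf_eq_of_sameBlock hall).symm
    · intro h
      refine Finset.sum_congr ?_ fun _ _ => rfl
      ext χ
      simp only [Finset.mem_univ, iff_true, Set.mem_toFinset]
      rw [← h _ ⟨χ, rfl⟩]
      exact Block.mem_blockOf_self χ

end Cfsg.Agent.S4735
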