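import Cfsg.Statements.S4736

import Cfsg.Agent.BlockNilp.PSolvable
import Cfsg.Agent.CharInd.Clifford
import Cfsg.Agent.S4713

set_option autoImplicit false
set_option linter.style.haveILetI false
open Cfsg
open Cfsg.Agent

namespace Cfsg.Agent.S4736



/-- Let p be a prime, M a maximal ideal of the algebraic integers containing p, and G a finite p-solvable group with Sylow p-subgroup P. Then P is abelian if and only if every irreducible character in the principal p-block of G has height zero. -/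
theorem result {G : Type*} [Group G] [Finite G] (p : ℕ) [Fact p.Prime] (M : Ideal Cfsg.AlgInt) (hM : Cfsg.IsPModular p M) (hsolv : Cfsg.IsPSolvable p G) (P : Sylow p G) : IsMulCommutative P ↔ ∀ χ ∈ Cfsg.principalBlock M G, Cfsg.blockHeight p (Cfsg.principalBlock M G) (χ : G → ℂ) = 0 := by
  haveI : M.IsPrime := hM.2.1.isPrime
  obtain ⟨N, hNdef⟩ : ∃ N, N = Cfsg.pPrimeCore p G := ⟨_, rfl⟩
  haveI hNn : N.Normal := hNdef ▸ inferInstance
  have hN : ¬ p ∣ Nat.card N := hNdef ▸ Cores.not_dvd_card_pPrimeCore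
  have hO : Cfsg.pPrimeCore p (G ⧸ N) = ⊥ := by
    subst hNdef; exact Cores.pPrimeCore_quotient_pPrimeCore_eq_bot
  have hps' := PSolv.isPSolvable_quotient hsolv N
  let P' : Sylow p (G ⧸ N) := P.mapSurjective (QuotientGroup.mk'_surjective N)
  have hcoe : (P' : Subgroup (G ⧸ N)) = (P : Subgroup G).map (QuotientGroup.mk' N) := rfl
  have hinj : ∀ x ∈ (P : Subgroup G), x ∈ N → x = 1 := by
    intro x hx hxN
    obtain ⟨k, hk⟩ := IsPGroup.iff_orderOf.1 P.isPGroup' ⟨x, hx⟩
    rw [Subgroup.orderOf_mk] at hk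
    rw [← orderOf_eq_one_iff, hk]
    rcases Nat.eq_zero_or_pos k with h | h
    · rw [h, pow_zero]
    · exact absurd ((dvd_pow_self p h.ne').trans (hk ▸ Subgroup.orderOf_dvd_natCard N hxN)) hN
  -- the principal block consists of the characters of the quotient
  have hblk : (∀ χ ∈ Cfsg.principalBlock M G,
      Cfsg.blockHeight p (Cfsg.principalBlock M G) (χ : G → ℂ) = 0) ↔
      ∀ ψ : Cfsg.IrrCharacter (G ⧸ N), ¬ p ∣ Cfsg.charDegree (ψ : G ⧸ N → ℂ) := by
    constructor
    · intro h ψ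
      let χ : Cfsg.IrrCharacter G := ⟨fun g => (ψ : G ⧸ N → ℂ) (QuotientGroup.mk' N g),
        CharInd.irr_comp_surjective _ (QuotientGroup.mk'_surjective N) ψ.2⟩
      have hχ : χ ∈ Cfsg.principalBlock M G := by
        rw [BlockNilp.mem_principalBlock_iff_of_pSolvable hM hsolv, ← hNdef]
        intro n hn
        show (ψ : G ⧸ N → ℂ) (QuotientGroup.mk' N n) = (ψ : G ⧸ N → ℂ) (QuotientGroup.mk' N 1)
        rw [map_one, QuotientGroup.mk'_apply, (QuotientGroup.eq_one_iff n).2 hn]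
      have h1 := (BlockNilp.height_zero_principal_iff hM hχ).1 (h χ hχ)
      simpa [Cfsg.charDegree, χ] using h1
    · intro h χ hχ
      rw [BlockNilp.height_zero_principal_iff hM hχ]
      rw [BlockNilp.mem_principalBlock_iff_of_pSolvable hM hsolv, ← hNdef] at hχ
      obtain ⟨ψ, hψ, hg⟩ := Cfsg.Agent.Char.irr_exists_descend χ.2 N hχ
      have h1 := h ⟨ψ, hψ⟩
      rw [Cfsg.charDegree] at h1 ⊢
      rwa [show (χ : G → ℂ) 1 = ψ 1 from hg 1]
  rw [hblk, ← S4713.result p hps' P']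
  constructor
  · intro hc
    have hc' : IsMulCommutative (P' : Subgroup (G ⧸ N)) := by
      refine ⟨⟨?_⟩⟩
      rintro ⟨_, x, hx, rfl⟩ ⟨_, y, hy, rfl⟩
      refine Subtype.ext ?_
      show QuotientGroup.mk' N x * QuotientGroup.mk' N y = _
      rw [← map_mul, show x * y = y * x from congrArg Subtype.val (hc.is_comm.comm ⟨x, hx⟩ ⟨y, hy⟩),
        map_mul]
      rfl
    refine ⟨?_, hc'⟩
    have heq : (P' : Subgroup (G ⧸ N)) = Cfsg.pCore p (G ⧸ N) := by
      refine le_antisymm (fun x hx => PSolv.centralizer_pCore_le hps' hO ?_) (Cores.pCore_le_sylow P')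
      rw [Subgroup.mem_centralizer_iff]
      intro y hy
      exact congrArg Subtype.val (hc'.is_comm.comm ⟨y, Cores.pCore_le_sylow P' hy⟩ ⟨x, hx⟩)
    rw [heq]
    infer_instance
  · rintro ⟨-, hc'⟩
    refine ⟨⟨fun ⟨x, hx⟩ ⟨y, hy⟩ => Subtype.ext ?_⟩⟩
    have h1 : QuotientGroup.mk' N x * QuotientGroup.mk' N y =
        QuotientGroup.mk' N y * QuotientGroup.mk' N x :=
      congrArg Subtype.val (hc'.is_comm.comm ⟨_, hcoe ▸ ⟨x, hx, rfl⟩⟩ ⟨_, hcoe ▸ ⟨y, hy, rfl⟩⟩)
    rw [← map_mul, ← map_mul, QuotientGroup.mk'_apply, QuotientGroup.mk'_apply,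
      QuotientGroup.eq] at h1
    exact inv_mul_eq_one.1 (hinj _ (Subgroup.mul_mem _
      (Subgroup.inv_mem _ (Subgroup.mul_mem _ hx hy)) (Subgroup.mul_mem _ hy hx)) h1)

end Cfsg.Agent.S4736
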