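import Cfsg.Statements.S4955
import Mathlib
import Cfsg.Agent.BlkChar.Knorr
-- import your own Cfsg.Agent.* helpers here

set_option autoImplicit false
open Cfsg

namespace Cfsg.Agent.S4955

/-- Let X be a finite group with an abelian normal Sylow p-subgroup V (a normal p-subgroup of index prime to p in which any two elements commute), and let G be a complement to V in X. Then for every v in V, writing C for the centralizer of v in G, the number k(X) of conjugacy classes of X satisfies k(X) ≤ (order of C)·(order of V) − ((order of G) − k(G)); the statement is written with the subtracted term moved to the left. In particular, if some v in V is centralized by no nonidentity element of G, then k(X) is at most the order of V. -/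
theorem result {X : Type*} [Group X] [Finite X] (p : ℕ) [Fact p.Prime] (V : Subgroup X) [V.Normal] (hVp : IsPGroup p V) (hidx : ¬ p ∣ V.index) (hab : ∀ a ∈ V, ∀ b ∈ V, a * b = b * a) (G : Subgroup X) (hGV : Subgroup.IsComplement' V G) (v : X) (hv : v ∈ V) : Nat.card (ConjClasses X) + Nat.card G ≤ Nat.card ↥(G ⊓ Subgroup.centralizer ({v} : Set X)) * Nat.card V + Nat.card (ConjClasses G) := by
  classical
  letI := Fintype.ofFinite X
  set n := Nat.card X with hn
  haveI : NeZero n := ⟨Nat.card_pos.ne'⟩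
  set U : ℝ := (Fintype.card (ZMod n)ˣ : ℝ) with hU
  have hUpos : 0 < U := Nat.cast_pos.mpr Fintype.card_pos
  have hcop := Cfsg.Agent.Kgv.coprime_card hVp hidx hGV
  set T : Cfsg.IrrCharacter X → Prop := fun χ => ∀ m ∈ V, (χ : X → ℂ) m = (χ : X → ℂ) 1 with hT
  set W : Cfsg.IrrCharacter X → ℝ := fun χ => if T χ then ‖(χ : X → ℂ) 1‖ ^ 2 - 1 else 0 with hW
  let e : X ⧸ V ≃* G := hGV.symm.QuotientMulEquiv
  let ec : ConjClasses (X ⧸ V) ≃ ConjClasses G :=
    { toFun := ConjClasses.map e.toMonoidHom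
      invFun := ConjClasses.map e.symm.toMonoidHom
      left_inv := fun q => by
        obtain ⟨x, rfl⟩ := ConjClasses.exists_rep q
        exact congrArg ConjClasses.mk (e.symm_apply_apply x)
      right_inv := fun q => by
        obtain ⟨x, rfl⟩ := ConjClasses.exists_rep q
        exact congrArg ConjClasses.mk (e.apply_symm_apply x) }
  have hWsum : ∑ χ, W χ = (Nat.card G : ℝ) - (Nat.card (ConjClasses G) : ℝ) := by
    have h1 : ∑ χ, W χ = ∑ χ : {χ : Cfsg.IrrCharacter X // T χ},
        (‖(χ.1 : X → ℂ) 1‖ ^ 2 - 1) := by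
      rw [hW, ← Finset.sum_filter]
      exact Finset.sum_subtype _ (fun x => by simp) fun χ : Cfsg.IrrCharacter X =>
        ‖(χ : X → ℂ) 1‖ ^ 2 - 1
    rw [h1, ← Equiv.sum_comp (Cfsg.Agent.Char.irrEquivQuotient V)]
    simp only [Cfsg.Agent.Char.irrEquivQuotient_apply, Finset.sum_sub_distrib, Finset.sum_const,
      Finset.card_univ, nsmul_eq_mul, mul_one, QuotientGroup.mk_one]
    rw [Cfsg.Agent.GalAvg.irr_sum_norm_sq, ← Nat.card_eq_fintype_card,
      Cfsg.Agent.Char.card_irr_eq_card_conjClasses, Nat.card_congr ec,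
      show Subgroup.centralizer ({1} : Set (X ⧸ V)) = ⊤ by
        rw [Subgroup.eq_top_iff']; intro x; simp [Subgroup.mem_centralizer_iff],
      Subgroup.card_top, Nat.card_congr e.toEquiv]
  have hlow : ∀ χ : Cfsg.IrrCharacter X,
      U * (1 + W χ) ≤ ∑ a : (ZMod n)ˣ, ‖(χ : X → ℂ) (v ^ (a : ZMod n).val)‖ ^ 2 := by
    intro χ
    by_cases h : T χ
    · simp only [hW, if_pos h, add_sub_cancel]
      have : ∀ a : (ZMod n)ˣ, (χ : X → ℂ) (v ^ (a : ZMod n).val) = (χ : X → ℂ) 1 := fun a =>
        h _ (V.pow_mem hv _)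
      simp [this, hU]
    · simp only [hW, if_neg h, add_zero, mul_one]
      exact Cfsg.Agent.GalAvg.card_le_sum_norm_sq
        (Cfsg.Agent.GalAvg.isCharacter_pow_mem (Cfsg.Agent.Char.isCharacter_of_irr χ.2) v
          pow_card_eq_one')
        ⟨1, Cfsg.Agent.Kgv.ne_zero_of_mem V hVp hidx hab G hGV χ (V.pow_mem hv _)⟩
  have hup : ∀ a : (ZMod n)ˣ, ∑ χ : Cfsg.IrrCharacter X,
      ‖(χ : X → ℂ) (v ^ (a : ZMod n).val)‖ ^ 2 =
        (Nat.card ↥(G ⊓ Subgroup.centralizer ({v} : Set X)) : ℝ) * Nat.card V := by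
    intro a
    rw [Cfsg.Agent.GalAvg.irr_sum_norm_sq]
    have he : Subgroup.centralizer ({v ^ (a : ZMod n).val} : Set X)
        = Subgroup.centralizer ({v * 1} : Set X) := by
      ext x
      rw [mul_one, Subgroup.mem_centralizer_singleton_iff, Subgroup.mem_centralizer_singleton_iff]
      have h1 := Cfsg.Agent.GalAvg.pow_unit_mem_iff a (Subgroup.centralizer ({x} : Set X)) v
      rw [Subgroup.mem_centralizer_singleton_iff, Subgroup.mem_centralizer_singleton_iff] at h1
      exact ⟨fun h => (h1.mp h.symm).symm, fun h => (h1.mpr h.symm).symm⟩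
    rw [he, Cfsg.Agent.Kgv.card_centralizer_mul V hab G hGV hcop hv G.one_mem (by simp)]
    have h1 : Subgroup.centralizer ({1} : Set X) = ⊤ := by
      rw [Subgroup.eq_top_iff']; intro x; simp [Subgroup.mem_centralizer_iff]
    rw [h1, inf_top_eq, inf_top_eq, Nat.cast_mul]
    ring
  have htot := Finset.sum_le_sum fun χ (_ : χ ∈ Finset.univ) => hlow χ
  rw [Finset.sum_comm] at htot
  simp only [hup, ← Finset.mul_sum, Finset.sum_add_distrib, hWsum, Finset.sum_const,
    Finset.card_univ, nsmul_eq_mul, mul_one] at htot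
  rw [← Nat.card_eq_fintype_card, Cfsg.Agent.Char.card_irr_eq_card_conjClasses, ← hU] at htot
  rw [mul_left_comm ((Nat.card ↥(G ⊓ Subgroup.centralizer ({v} : Set X)) : ℝ))] at htot
  have h' := le_of_mul_le_mul_left htot hUpos
  have : ((Nat.card (ConjClasses X) + Nat.card G : ℕ) : ℝ) ≤
      ((Nat.card ↥(G ⊓ Subgroup.centralizer ({v} : Set X)) * Nat.card V +
        Nat.card (ConjClasses G) : ℕ) : ℝ) := by
    push_cast
    linarith
  exact_mod_cast this

end Cfsg.Agent.S4955
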