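import Cfsg.Statements.S4956
import Mathlib
-- import your own Cfsg.Agent.* helpers here

set_option autoImplicit false
open Cfsg

namespace Cfsg.Agent.S4956

/-- Let X be a finite group, V an abelian normal subgroup of X (any two elements of V commute) and G a complement to V in X whose order is coprime to that of V. Let S be a set of representatives of the orbits of G on V under conjugation: S lies in V and every element of V is conjugate under G to exactly one member of S. Then the number of conjugacy classes of X equals the sum, over s in S, of the number of conjugacy classes of the centralizer of s in G. -/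
theorem result {X : Type*} [Group X] [Finite X] (V : Subgroup X) [V.Normal] (hab : ∀ a ∈ V, ∀ b ∈ V, a * b = b * a) (G : Subgroup X) (hGV : Subgroup.IsComplement' V G) (hcop : (Nat.card V).Coprime (Nat.card G)) (S : Finset X) (hSV : ∀ s ∈ S, s ∈ V) (hrep : ∀ v ∈ V, ∃! s, s ∈ S ∧ ∃ g ∈ G, g * v * g⁻¹ = s) : Nat.card (ConjClasses X) = ∑ s ∈ S, Nat.card (ConjClasses ↥(G ⊓ Subgroup.centralizer ({s} : Set X))) := by
  classical
  haveI : Fintype X := Fintype.ofFinite X
  have hXc : Nat.card V * Nat.card G = Nat.card X := hGV.card_mul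
  have hdisj : ∀ z, z ∈ V → z ∈ G → z = 1 := fun z h1 h2 => by
    have := hGV.disjoint
    rw [Subgroup.disjoint_def] at this
    exact this h1 h2
  have hidx : V.index = Nat.card G := hGV.symm.index_eq_card
  have hm : ∀ t ∈ V, ∀ t' ∈ V, t ^ Nat.card G = t' ^ Nat.card G → t = t' := fun t ht t' ht' h =>
    congrArg Subtype.val ((powCoprime hcop).injective
      (show (⟨t, ht⟩ : ↥V) ^ Nat.card G = (⟨t', ht'⟩ : ↥V) ^ Nat.card G from Subtype.ext h))
  have hpG : ∀ x ∈ G, x ^ Nat.card G = 1 := fun x hx => by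
    exact congrArg Subtype.val (pow_card_eq_one' (x := (⟨x, hx⟩ : ↥G)))
  let F : (Σ s : ↥S, ConjClasses ↥(G ⊓ Subgroup.centralizer ({(s : X)} : Set X))) → ConjClasses X :=
    fun z => Quotient.liftOn z.2 (fun g => ConjClasses.mk ((z.1 : X) * (g : X))) fun g g' h => by
      obtain ⟨c, hc⟩ := isConj_iff.mp h
      refine ConjClasses.mk_eq_mk_iff_isConj.mpr (isConj_iff.mpr ⟨(c : X), ?_⟩)
      have h1 : (z.1 : X) * (c : X) = (c : X) * (z.1 : X) :=
        (Subgroup.mem_centralizer_iff.mp c.2.2) _ rfl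
      rw [← hc]
      simp only [Subgroup.coe_mul, InvMemClass.coe_inv]
      calc (c : X) * ((z.1 : X) * (g : X)) * (c : X)⁻¹
          = ((c : X) * (z.1 : X)) * (g : X) * (c : X)⁻¹ := by group
        _ = ((z.1 : X) * (c : X)) * (g : X) * (c : X)⁻¹ := by rw [h1]
        _ = _ := by group
  have hinj : Function.Injective F := by
    rintro ⟨⟨s, hs⟩, q⟩ ⟨⟨s', hs'⟩, q'⟩ h
    obtain ⟨g, rfl⟩ := ConjClasses.exists_rep q
    obtain ⟨g', rfl⟩ := ConjClasses.exists_rep q'
    have h0 : IsConj (s * (g : X)) (s' * (g' : X)) := ConjClasses.mk_eq_mk_iff_isConj.mp h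
    obtain ⟨x, hx⟩ := isConj_iff.mp h0
    obtain ⟨⟨u, w⟩, huw⟩ := hGV.2 x
    simp only at huw
    have hsV := hSV s hs
    have hs'V := hSV s' hs'
    set t := (w : X) * s * (w : X)⁻¹ with ht
    set k := (w : X) * (g : X) * (w : X)⁻¹ with hk
    have htV : t ∈ V := ‹V.Normal›.conj_mem s hsV _
    have hkG : k ∈ G := G.mul_mem (G.mul_mem w.2 g.2.1) (G.inv_mem w.2)
    have hx' : (u : X) * (t * k) * (u : X)⁻¹ = s' * (g' : X) := by
      rw [← hx, ← huw, ht, hk]; group
    have hkg : k = (g' : X) := by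
      have h1 : k * (g' : X)⁻¹ = (t⁻¹ * (u : X)⁻¹ * s') * ((g' : X) * (u : X) * (g' : X)⁻¹) := by
        calc k * (g' : X)⁻¹ = t⁻¹ * (u : X)⁻¹ * ((u : X) * (t * k) * (u : X)⁻¹) * (u : X) *
              (g' : X)⁻¹ := by group
          _ = _ := by rw [hx']; group
      refine mul_inv_eq_one.mp (hdisj _ ?_ (G.mul_mem hkG (G.inv_mem g'.2.1)))
      rw [h1]
      exact V.mul_mem (V.mul_mem (V.mul_mem (V.inv_mem htV) (V.inv_mem u.2)) hs'V)
        (‹V.Normal›.conj_mem _ u.2 _)
    have hsg : s * (g : X) = (g : X) * s := ((Subgroup.mem_centralizer_iff.mp g.2.2) s rfl)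
    have hsg' : s' * (g' : X) = (g' : X) * s' :=
      ((Subgroup.mem_centralizer_iff.mp g'.2.2) s' rfl)
    have htk : Commute t k := by
      show t * k = k * t
      calc t * k = (w : X) * (s * (g : X)) * (w : X)⁻¹ := by rw [ht, hk]; group
        _ = (w : X) * ((g : X) * s) * (w : X)⁻¹ := by rw [hsg]
        _ = k * t := by rw [ht, hk]; group
    have hts : t = s' := by
      refine hm t htV s' hs'V ?_
      rw [hkg] at htk hx'
      have h1 := congrArg (· ^ Nat.card G) hx'
      simp only [conj_pow, htk.mul_pow, (show Commute s' (g' : X) from hsg').mul_pow,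
        hpG _ g'.2.1, mul_one] at h1
      rw [← h1, hab _ u.2 _ (V.pow_mem htV _), mul_inv_cancel_right]
    obtain ⟨r, -, hr⟩ := hrep s hsV
    have hss : s = s' := (hr s ⟨hs, 1, G.one_mem, by simp⟩).trans
      (hr s' ⟨hs', (w : X), w.2, hts⟩).symm
    subst hss
    have hwC : (w : X) ∈ G ⊓ Subgroup.centralizer ({s} : Set X) := by
      refine ⟨w.2, Subgroup.mem_centralizer_iff.mpr ?_⟩
      rintro z (rfl : z = s)
      exact (mul_inv_eq_iff_eq_mul.mp hts).symm
    refine Sigma.ext rfl (heq_of_eq (ConjClasses.mk_eq_mk_iff_isConj.mpr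
      (isConj_iff.mpr ⟨⟨(w : X), hwC⟩, Subtype.ext ?_⟩)))
    simpa using hkg
  have hsurj : Function.Surjective F := by
    intro q
    obtain ⟨x, rfl⟩ := ConjClasses.exists_rep q
    have hco : IsCoprime (Nat.card V : ℤ) (Nat.card G : ℤ) := Nat.isCoprime_iff_coprime.mpr hcop
    obtain ⟨k, l, hkl⟩ := hco
    set a := x ^ (l * (Nat.card G : ℤ)) with ha
    set b := x ^ (k * (Nat.card V : ℤ)) with hb
    have hxab : x = a * b := by rw [ha, hb, ← zpow_add, add_comm, hkl, zpow_one]
    have hcab : a * b = b * a := by rw [ha, hb, ← zpow_add, ← zpow_add, add_comm]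
    have haV : a ∈ V := by
      rw [ha, mul_comm l, zpow_mul, zpow_natCast, ← hidx]
      exact V.zpow_mem (V.pow_index_mem x) l
    have hbm : b ^ Nat.card G = 1 := by
      rw [hb, ← zpow_natCast, ← zpow_mul, mul_assoc, ← Nat.cast_mul, hXc, mul_comm,
        zpow_mul, zpow_natCast, pow_card_eq_one', one_zpow]
    obtain ⟨v, g, hvg⟩ : ∃ (v : ↥V) (g : ↥G), (v : X) * (g : X) = b :=
      let ⟨⟨v, g⟩, h⟩ := hGV.2 b
      ⟨v, g, h⟩
    letI : CommGroup ↥V :=
      { (inferInstance : Group ↥V) with mul_comm := fun p q => Subtype.ext (hab p p.2 q q.2) }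
    have hc : ∀ i : ℕ, b ^ i * ((g : X) ^ i)⁻¹ ∈ V := by
      intro i
      induction i with
      | zero => simp
      | succ i ih =>
        have h1 := V.mul_mem v.2 (‹V.Normal›.conj_mem _ ih (g : X))
        have h2 : b ^ (i + 1) * ((g : X) ^ (i + 1))⁻¹
            = (v : X) * ((g : X) * (b ^ i * ((g : X) ^ i)⁻¹) * (g : X)⁻¹) := by
          rw [pow_succ' b, ← hvg, pow_succ' (g : X)]; group
        rw [h2]; exact h1
    let c : ℕ → ↥V := fun i => ⟨_, hc i⟩
    let γ : MulAut ↥V := MulAut.conjNormal (g : X)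
    have hstep : ∀ i, c (i + 1) = v * γ (c i) := by
      intro i
      refine Subtype.ext ?_
      simp only [c, γ, Subgroup.coe_mul, MulAut.conjNormal_apply]
      have h2 : b ^ (i + 1) = (v : X) * (g : X) * b ^ i := by rw [pow_succ', hvg]
      rw [h2, pow_succ' (g : X)]; group
    let W : ↥V := ∏ i ∈ Finset.range (Nat.card G), c i
    have hW : W = v ^ Nat.card G * γ W := by
      have h0 : c (Nat.card G) = 1 := Subtype.ext (by
        show b ^ Nat.card G * ((g : X) ^ Nat.card G)⁻¹ = 1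
        rw [hbm, hpG _ g.2, inv_one, one_mul])
      have h0' : c 0 = 1 := Subtype.ext (by simp [c])
      have h1 := Finset.prod_range_succ c (Nat.card G)
      rw [Finset.prod_range_succ', h0, h0', mul_one, mul_one] at h1
      simp only [hstep, Finset.prod_mul_distrib, Finset.prod_const, Finset.card_range] at h1
      rw [← map_prod] at h1
      exact h1.symm
    obtain ⟨w, hw⟩ : ∃ w : ↥V, w ^ Nat.card G = W :=
      ⟨_, (powCoprime hcop).apply_symm_apply W⟩
    have hwv : w = v * γ w := by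
      refine (powCoprime hcop).injective (show w ^ _ = (v * γ w) ^ _ from ?_)
      rw [mul_pow, ← map_pow, hw, ← hW]
    have hbconj : b = (w : X) * (g : X) * (w : X)⁻¹ := by
      have h1 := congrArg Subtype.val hwv
      simp only [γ, Subgroup.coe_mul, MulAut.conjNormal_apply] at h1
      calc b = (v : X) * (g : X) := hvg.symm
        _ = ((v : X) * ((g : X) * (w : X) * (g : X)⁻¹)) * (g : X) * (w : X)⁻¹ := by group
        _ = _ := congrArg (fun z => z * (g : X) * (w : X)⁻¹) h1.symm
    have hwa : (w : X) * a = a * (w : X) := hab _ w.2 _ haV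
    have hag : a * (g : X) = (g : X) * a := by
      rw [hbconj] at hcab
      calc a * (g : X) = (w : X)⁻¹ * ((w : X) * a) * (g : X) := by group
        _ = (w : X)⁻¹ * (a * ((w : X) * (g : X) * (w : X)⁻¹)) * (w : X) := by rw [hwa]; group
        _ = (g : X) * ((w : X)⁻¹ * (a * (w : X))) := by rw [hcab]; group
        _ = (g : X) * a := by rw [← hwa]; group
    obtain ⟨s, ⟨hs, h, hh, hhs⟩, -⟩ := hrep a haV
    have hgC : h * (g : X) * h⁻¹ ∈ G ⊓ Subgroup.centralizer ({s} : Set X) := by
      refine ⟨G.mul_mem (G.mul_mem hh g.2) (G.inv_mem hh), Subgroup.mem_centralizer_iff.mpr ?_⟩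
      rintro z (rfl : z = s)
      rw [← hhs]
      calc h * a * h⁻¹ * (h * (g : X) * h⁻¹) = h * (a * (g : X)) * h⁻¹ := by group
        _ = h * ((g : X) * a) * h⁻¹ := by rw [hag]
        _ = _ := by group
    refine ⟨⟨⟨s, hs⟩, ConjClasses.mk ⟨_, hgC⟩⟩, ?_⟩
    refine ConjClasses.mk_eq_mk_iff_isConj.mpr (IsConj.symm (isConj_iff.mpr ⟨h * (w : X)⁻¹, ?_⟩))
    show h * (w : X)⁻¹ * x * (h * (w : X)⁻¹)⁻¹ = s * (h * (g : X) * h⁻¹)
    rw [hxab, hbconj, ← hhs]
    calc h * (w : X)⁻¹ * (a * ((w : X) * (g : X) * (w : X)⁻¹)) * (h * (w : X)⁻¹)⁻¹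
        = h * ((w : X)⁻¹ * (a * (w : X))) * (g : X) * h⁻¹ := by group
      _ = _ := by rw [← hwa]; group
  rw [← Nat.card_congr (Equiv.ofBijective F ⟨hinj, hsurj⟩), Nat.card_sigma]
  exact Finset.sum_coe_sort S fun s =>
    Nat.card (ConjClasses ↥(G ⊓ Subgroup.centralizer ({s} : Set X)))

end Cfsg.Agent.S4956
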