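import Cfsg.Statements.S4959
import Cfsg.Agent.BlkChar.RealVector
import Cfsg.Agent.BlkChar.Knorr
-- import your own Cfsg.Agent.* helpers here

set_option autoImplicit false
open Cfsg

namespace Cfsg.Agent.S4959

/-- Let X be a finite group and V a normal subgroup of X in which every element has order dividing the prime p, whose index in X is prime to p and which is its own centralizer in X; so V is an elementary abelian normal Sylow p-subgroup, and any complement G to V in X is a group of order prime to p acting faithfully on the vector space V by conjugation (the coprime linear setting of the k(GV) problem). Let G be a complement to V in X, let v be in V and let H be the centralizer of v in G. Suppose there is a subgroup U of V normalized by H, on which H acts faithfully, and carrying an H-invariant bi-additive pairing β with values in the integers modulo p that is nondegenerate on U (equivalently: the restriction of the module V to H has a faithful self-dual submodule; such a v is called a real vector for G). Then the number of conjugacy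 classes of X is at most the order of V (the real-vector criterion for the k(GV) problem). The pairing is given as a function on X whose relevant values are those on pairs from U. -/
theorem result {X : Type*} [Group X] [Finite X] (p : ℕ) [Fact p.Prime] (V : Subgroup X) [V.Normal] (hVexp : ∀ v ∈ V, v ^ p = 1) (hidx : ¬ p ∣ V.index) (hself : Subgroup.centralizer (V : Set X) = V) (G : Subgroup X) (hGV : Subgroup.IsComplement' V G) (v : X) (hv : v ∈ V) (U : Subgroup X) (hUV : U ≤ V) (hUinv : ∀ h ∈ G, h * v * h⁻¹ = v → ∀ u ∈ U, h * u * h⁻¹ ∈ U) (hUfaith : ∀ h ∈ G, h * v * h⁻¹ = v → (∀ u ∈ U, h * u * h⁻¹ = u) → h = 1) (β : X → X → ZMod p) (hβl : ∀ u ∈ U, ∀ u' ∈ U, ∀ w ∈ U, β (u * u') w = β u w + β u' w) (hβr : ∀ u ∈ U, ∀ w ∈ U, ∀ w' ∈ U, β u (w * w') = β u w + β u w') (hβinv : ∀ h ∈ G, h * v * h⁻¹ = v → ∀ u ∈ U, ∀ w ∈ U, β (h * u * h⁻¹) (h * w * h⁻¹) = β u w) (hβnd : ∀ u ∈ U, (∀ w ∈ U, β u w = 0) → u = 1) : Nat.card (ConjClasses X) ≤ Nat.card V := by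
  classical
  letI := Fintype.ofFinite X
  have habV : ∀ a ∈ V, ∀ b ∈ V, a * b = b * a := fun a ha b hb =>
    (Subgroup.mem_centralizer_iff.mp (hself.symm.le hb) a ha)
  have hVp : IsPGroup p V := fun x => ⟨1, Subtype.ext (by simpa using hVexp x x.2)⟩
  by_cases hVbot : V = ⊥
  · have htop : Subgroup.centralizer (V : Set X) = ⊤ := by
      rw [hVbot]; ext x; simp [Subgroup.mem_centralizer_iff]
    rw [hself, hVbot] at htop
    haveI : Subsingleton X :=
      Subgroup.subsingleton_iff.mp (subsingleton_of_bot_eq_top htop)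
    haveI : Subsingleton (ConjClasses X) := Function.Surjective.subsingleton ConjClasses.mk_surjective
    calc Nat.card (ConjClasses X) ≤ 1 := Finite.card_le_one_iff_subsingleton.mpr inferInstance
      _ ≤ _ := Nat.card_pos
  have hpn : p ∣ Nat.card X := by
    obtain ⟨k, hk⟩ := IsPGroup.iff_card.mp hVp
    rcases Nat.eq_zero_or_pos k with rfl | hk0
    · exact absurd (Subgroup.card_eq_one.mp (by rw [hk, pow_zero])) hVbot
    · exact (hk ▸ dvd_pow_self p hk0.ne').trans (Subgroup.card_subgroup_dvd_card V)
  letI : CommGroup ↥U :=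
    { (inferInstance : Group ↥U) with
      mul_comm := fun a b => Subtype.ext (habV a (hUV a.2) b (hUV b.2)) }
  have hexp : ∀ x : Additive ↥U, p • x = 0 := fun x => by
    apply Additive.toMul.injective
    rw [toMul_nsmul, toMul_zero]
    exact Subtype.ext (hVexp _ (hUV x.toMul.2))
  have hmem : ∀ c ∈ G ⊓ Subgroup.centralizer ({v} : Set X), c * v * c⁻¹ = v := fun c hc => by
    rw [Subgroup.mem_centralizer_singleton_iff.mp hc.2, mul_inv_cancel_right]
  exact @Cfsg.Agent.RealVec.main p _ X _ _ (Additive ↥U) _ (AddCommGroup.zmodModule hexp) _ V _ hVp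
    hidx habV hpn G hGV v hv U hUV (fun x => (x.toMul : X))
    (fun x y h => Additive.toMul.injective (Subtype.ext h)) (fun x y => rfl)
    (fun u => ⟨fun hu => ⟨Additive.ofMul ⟨u, hu⟩, rfl⟩, fun ⟨x, hx⟩ => hx ▸ x.toMul.2⟩)
    (fun c hc x => ⟨Additive.ofMul ⟨_, hUinv c hc.1 (hmem c hc) _ x.toMul.2⟩, rfl⟩)
    (fun c hc h => hUfaith c hc.1 (hmem c hc) fun u hu => h (Additive.ofMul ⟨u, hu⟩))
    (fun x y => β x.toMul y.toMul)
    (fun x x' y => hβl _ x.toMul.2 _ x'.toMul.2 _ y.toMul.2)
    (fun x y y' => hβr _ x.toMul.2 _ y.toMul.2 _ y'.toMul.2)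
    (fun c hc x y x' y' hx hy => by
      show β _ _ = β _ _
      rw [hx, hy]; exact hβinv c hc.1 (hmem c hc) _ x.toMul.2 _ y.toMul.2)
    (fun x hx => Additive.toMul.injective (Subtype.ext
      (hβnd _ x.toMul.2 fun u hu => hx (Additive.ofMul ⟨u, hu⟩))))

end Cfsg.Agent.S4959
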