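import Cfsg.Statements.S4965
import Mathlib
-- import your own Cfsg.Agent.* helpers here

set_option autoImplicit false
open Cfsg

namespace Cfsg.Agent.S4965

/-- Let X be a finite group with an abelian normal subgroup V (any two elements of V commute), and let φ be the action of X ⧸ V on V induced by conjugation (well defined because V is abelian; the hypothesis hφ says that the class of x acts as conjugation by x). Then X has at most as many conjugacy classes as the semidirect product of V by X ⧸ V formed with this action: the split extension has the largest class number among extensions with the given action. -/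
theorem result {X : Type*} [Group X] [Finite X] (V : Subgroup X) [V.Normal] (hab : ∀ a ∈ V, ∀ b ∈ V, a * b = b * a) (φ : X ⧸ V →* MulAut ↥V) (hφ : ∀ (x : X) (v : ↥V), ((φ (QuotientGroup.mk x) v : ↥V) : X) = x * v * x⁻¹) : Nat.card (ConjClasses X) ≤ Nat.card (ConjClasses (SemidirectProduct ↥V (X ⧸ V) φ)) := by
  classical
  let Q := X ⧸ V
  have hex : ∀ q : Q × Q, ∃ b : X × X,
      (∃ a : X × X, Commute a.1 a.2 ∧ QuotientGroup.mk a.1 = q.1 ∧ QuotientGroup.mk a.2 = q.2) →
        (Commute b.1 b.2 ∧ QuotientGroup.mk b.1 = q.1 ∧ QuotientGroup.mk b.2 = q.2) := fun q => by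
    by_cases h : ∃ a : X × X,
        Commute a.1 a.2 ∧ QuotientGroup.mk a.1 = q.1 ∧ QuotientGroup.mk a.2 = q.2
    · obtain ⟨a, ha⟩ := h; exact ⟨a, fun _ => ha⟩
    · exact ⟨1, fun h' => absurd h' h⟩
  choose b hb using hex
  let pr : {p : X × X // Commute p.1 p.2} → Q × Q := fun p =>
    (QuotientGroup.mk p.1.1, QuotientGroup.mk p.1.2)
  have hbp : ∀ p, Commute (b (pr p)).1 (b (pr p)).2 ∧ QuotientGroup.mk (b (pr p)).1 = (pr p).1 ∧
      QuotientGroup.mk (b (pr p)).2 = (pr p).2 := fun p => hb _ ⟨p.1, p.2, rfl, rfl⟩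
  have hu : ∀ (x y : X), (QuotientGroup.mk x : Q) = QuotientGroup.mk y → x * y⁻¹ ∈ V :=
    fun x y h => ‹V.Normal›.mem_comm ((QuotientGroup.eq).mp h.symm)
  let u₁ : {p : X × X // Commute p.1 p.2} → ↥V := fun p =>
    ⟨p.1.1 * (b (pr p)).1⁻¹, hu _ _ (hbp p).2.1.symm⟩
  let u₂ : {p : X × X // Commute p.1 p.2} → ↥V := fun p =>
    ⟨p.1.2 * (b (pr p)).2⁻¹, hu _ _ (hbp p).2.2.symm⟩
  have hc : ∀ p, u₁ p * φ (pr p).1 (u₂ p) = u₂ p * φ (pr p).2 (u₁ p) := by
    intro p
    refine Subtype.ext ?_
    obtain ⟨h1, h2, h3⟩ := hbp p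
    rw [Subgroup.coe_mul, Subgroup.coe_mul, ← h2, ← h3, hφ, hφ]
    simp only [u₁, u₂]
    calc p.1.1 * (b (pr p)).1⁻¹ *
          ((b (pr p)).1 * (p.1.2 * (b (pr p)).2⁻¹) * (b (pr p)).1⁻¹)
        = (p.1.1 * p.1.2) * ((b (pr p)).1 * (b (pr p)).2)⁻¹ := by group
      _ = (p.1.2 * p.1.1) * ((b (pr p)).2 * (b (pr p)).1)⁻¹ := by rw [p.2.eq, h1.eq]
      _ = _ := by group
  let Y := SemidirectProduct ↥V Q φ
  haveI : Finite Y := Finite.of_equiv _ SemidirectProduct.equivProd.symm
  let f : {p : X × X // Commute p.1 p.2} → {p : Y × Y // Commute p.1 p.2} := fun p =>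
    ⟨(⟨u₁ p, (pr p).1⟩, ⟨u₂ p, (pr p).2⟩), SemidirectProduct.ext (hc p)
      (show (QuotientGroup.mk p.1.1 : Q) * QuotientGroup.mk p.1.2 = _ by
        rw [← QuotientGroup.mk_mul, p.2.eq]; rfl)⟩
  have hf : Function.Injective f := by
    intro p p' h
    have h' := congrArg Subtype.val h
    have h1 := congrArg (fun z : Y × Y => z.1.left) h'
    have h2 := congrArg (fun z : Y × Y => z.1.right) h'
    have h3 := congrArg (fun z : Y × Y => z.2.left) h'
    have h4 := congrArg (fun z : Y × Y => z.2.right) h'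
    have hpr : pr p = pr p' := Prod.ext h2 h4
    have h5 := congrArg Subtype.val h1
    have h6 := congrArg Subtype.val h3
    simp only [f, u₁, u₂, hpr, mul_left_inj] at h5 h6
    exact Subtype.ext (Prod.ext h5 h6)
  have hle := Nat.card_le_card_of_injective f hf
  rw [card_comm_eq_card_conjClasses_mul_card, card_comm_eq_card_conjClasses_mul_card,
    SemidirectProduct.card, mul_comm (Nat.card ↥V),
    ← Subgroup.card_eq_card_quotient_mul_card_subgroup] at hle
  exact Nat.le_of_mul_le_mul_right hle Nat.card_pos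

end Cfsg.Agent.S4965
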