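import Cfsg.Statements.S4967
import Mathlib
-- import your own Cfsg.Agent.* helpers here

set_option autoImplicit false
open Cfsg

namespace Cfsg.Agent.S4967

/-- Let F be a finite field with r elements and of characteristic p, H a finite abelian group of order prime to p, and V a faithful irreducible representation of H over F of dimension n (faithful: distinct elements act differently; irreducible: the only H-invariant subspaces are 0 and V). Call V self-dual when it carries a nondegenerate H-invariant bilinear form. If n = 1 and V is self-dual then H has order at most 2. If n ≥ 2 then V is self-dual if and only if n is even and the order of H divides r^(n/2) + 1. -/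
theorem result {F : Type*} [Field F] [Fintype F] (p : ℕ) [Fact p.Prime] [CharP F p] {H : Type*} [CommGroup H] [Finite H] (hcop : ¬ p ∣ Nat.card H) {V : Type*} [AddCommGroup V] [Module F V] [FiniteDimensional F V] (ρ : Representation F H V) (hfaith : Function.Injective ρ) (hirr : ∀ U : Submodule F V, (∀ h : H, ∀ u ∈ U, ρ h u ∈ U) → U = ⊥ ∨ U = ⊤) : (Module.finrank F V = 1 → (∃ B : LinearMap.BilinForm F V, B.Nondegenerate ∧ ∀ h : H, ∀ x y : V, B (ρ h x) (ρ h y) = B x y) → Nat.card H ≤ 2) ∧ (2 ≤ Module.finrank F V → ((∃ B : LinearMap.BilinForm F V, B.Nondegenerate ∧ ∀ h : H, ∀ x y : V, B (ρ h x) (ρ h y) = B x y) ↔ (Even (Module.finrank F V) ∧ Nat.card H ∣ Fintype.card F ^ (Module.finrank F V / 2) + 1))) := by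
  classical
  haveI : Finite V := Module.finite_of_finite F
  by_cases hV : Module.finrank F V = 0
  · exact ⟨fun h => by omega, fun h => by omega⟩
  haveI : Nontrivial V := Module.nontrivial_of_finrank_pos (R := F) (Nat.pos_of_ne_zero hV)
  haveI : Finite (Module.End F V) := Module.finite_of_finite F
  set K := Algebra.adjoin F (Set.range ρ) with hK
  have hcomm : ∀ a ∈ K, ∀ b ∈ K, a * b = b * a := by
    intro a ha b hb
    refine Algebra.commute_of_mem_adjoin_of_forall_mem_commute hb ?_
    rintro _ ⟨h, rfl⟩
    refine (Algebra.commute_of_mem_adjoin_of_forall_mem_commute ha ?_).symm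
    rintro _ ⟨h', rfl⟩
    show ρ h * ρ h' = ρ h' * ρ h
    rw [← map_mul, ← map_mul, mul_comm]
  have hρK : ∀ h, ρ h ∈ K := fun h => Algebra.subset_adjoin ⟨h, rfl⟩
  letI : CommRing ↥K :=
    { (inferInstance : Ring ↥K) with mul_comm := fun a b => Subtype.ext (hcomm a a.2 b b.2) }
  have hinj : ∀ a : ↥K, a ≠ 0 → ∀ x : V, (a : Module.End F V) x = 0 → x = 0 := by
    intro a ha
    have hker : ∀ h : H, ∀ u ∈ LinearMap.ker (a : Module.End F V),
        ρ h u ∈ LinearMap.ker (a : Module.End F V) := fun h u hu => by
      rw [LinearMap.mem_ker] at hu ⊢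
      rw [← Module.End.mul_apply, hcomm _ a.2 _ (hρK h), Module.End.mul_apply, hu, map_zero]
    rcases hirr _ hker with h | h
    · exact fun x hx => (LinearMap.ker_eq_bot'.mp h) x hx
    · exact absurd (Subtype.ext (LinearMap.ker_eq_top.mp h)) ha
  haveI : Nontrivial ↥K := ⟨⟨0, 1, fun h => one_ne_zero (congrArg Subtype.val h).symm⟩⟩
  haveI : NoZeroDivisors ↥K := ⟨fun {a b} hab => by
    by_contra hc
    push Not at hc
    refine hc.2 (Subtype.ext (LinearMap.ext fun x => hinj a hc.1 _ ?_))
    have := LinearMap.congr_fun (congrArg Subtype.val hab) x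
    simpa using this⟩
  haveI : IsDomain ↥K := NoZeroDivisors.to_isDomain _
  letI : Field ↥K := IsField.toField (Finite.isField_of_domain _)
  haveI : Module.Finite F ↥K := inferInstance
  obtain ⟨v₀, hv₀⟩ := exists_ne (0 : V)
  let ev : ↥K →ₗ[F] V :=
    { toFun := fun a => (a : Module.End F V) v₀
      map_add' := fun a b => by simp
      map_smul' := fun c a => by simp }
  have hev : Function.Bijective ev := by
    refine ⟨(injective_iff_map_eq_zero ev).mpr fun a ha => ?_, ?_⟩
    · by_contra h
      exact hv₀ (hinj a h v₀ ha)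
    · rw [← LinearMap.range_eq_top]
      refine (hirr _ ?_).resolve_left fun h => hv₀ ?_
      · rintro h _ ⟨a, rfl⟩
        exact ⟨⟨ρ h, hρK h⟩ * a, rfl⟩
      · have : ev 1 = 0 := (Submodule.eq_bot_iff _).mp h _ ⟨1, rfl⟩
        simpa [ev] using this
  let e : ↥K ≃ₗ[F] V := LinearEquiv.ofBijective ev hev
  have hKrank : Module.finrank F ↥K = Module.finrank F V := e.finrank_eq
  let f : H →* ↥K := { toFun := fun h => ⟨ρ h, hρK h⟩
                       map_one' := Subtype.ext (map_one ρ)
                       map_mul' := fun a b => Subtype.ext (map_mul ρ a b) }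
  have hf : Function.Injective f := fun a b h => hfaith (congrArg Subtype.val h)
  haveI : IsCyclic H := isCyclic_of_subgroup_isDomain (R := ↥K) f hf
  have hτ : ∀ B : LinearMap.BilinForm F V, B.Nondegenerate →
      (∀ h : H, ∀ x y : V, B (ρ h x) (ρ h y) = B x y) →
      ∃ τ : ↥K →ₐ[F] ↥K, ∀ h, τ (f h) = f h⁻¹ := by
    intro B hB hBi
    have hex : ∀ a : Module.End F V, a ∈ K → ∃ b : ↥K, ∀ x y,
        B (a x) y = B x ((b : Module.End F V) y) := by
      intro a ha
      induction ha using Algebra.adjoin_induction with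
      | mem a ha =>
        obtain ⟨h, rfl⟩ := ha
        refine ⟨f h⁻¹, fun x y => ?_⟩
        have := hBi h x (ρ h⁻¹ y)
        rwa [Representation.self_inv_apply] at this
      | algebraMap c => exact ⟨algebraMap F ↥K c, fun x y => by simp [Algebra.algebraMap_eq_smul_one]⟩
      | add a b _ _ iha ihb =>
        obtain ⟨a', ha'⟩ := iha; obtain ⟨b', hb'⟩ := ihb
        exact ⟨a' + b', fun x y => by simp [ha', hb']⟩
      | mul a b _ _ iha ihb =>
        obtain ⟨a', ha'⟩ := iha; obtain ⟨b', hb'⟩ := ihb
        exact ⟨b' * a', fun x y => by simp [ha', hb']⟩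
    choose T hT using fun a : ↥K => hex a a.2
    have huniq : ∀ (a b : ↥K), (∀ x y, B ((a : Module.End F V) x) y = B x ((b : Module.End F V) y)) →
        T a = b := fun a b hb => by
      refine Subtype.ext (LinearMap.ext fun y => ?_)
      rw [← sub_eq_zero]
      refine hB.2 _ fun x => ?_
      rw [map_sub, ← hT a, hb, sub_self]
    refine ⟨{ toFun := T, map_one' := huniq 1 1 fun x y => by simp
              map_mul' := fun a b => huniq _ _ fun x y => by
                rw [mul_comm (T a) (T b)]; simp [hT]
              map_zero' := huniq 0 0 fun x y => by simp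
              map_add' := fun a b => huniq _ _ fun x y => by simp [hT]
              commutes' := fun c => huniq _ _ fun x y => by
                simp [Algebra.algebraMap_eq_smul_one] }, fun h => huniq _ _ fun x y => ?_⟩
    have := hBi h x (ρ h⁻¹ y)
    rwa [Representation.self_inv_apply] at this
  have hsmall : ∀ τ : ↥K →ₐ[F] ↥K, (∀ h, τ (f h) = f h⁻¹) → (∀ h, τ (f h) = f h) →
      Module.finrank F V = 1 ∧ Nat.card H ≤ 2 := by
    intro τ h1 h2
    have hpm : ∀ h, f h = 1 ∨ f h = -1 := fun h => by
      rw [← mul_self_eq_one_iff]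
      nth_rewrite 1 [← h2 h]
      rw [h1, ← map_mul, inv_mul_cancel, map_one]
    refine ⟨?_, ?_⟩
    · have htop := (hirr (F ∙ v₀) fun h u hu => by
        have hu' : ((f h : ↥K) : Module.End F V) u ∈ F ∙ v₀ := by
          rcases hpm h with h' | h' <;> rw [h'] <;> simp [hu]
        exact hu').resolve_left (by simp [hv₀])
      have := finrank_span_singleton (K := F) hv₀
      rw [htop, finrank_top] at this
      exact this
    · let g : H → ({1, -1} : Finset ↥K) := fun h => ⟨f h, by simpa using hpm h⟩
      have hg : Function.Injective g := fun a b hab => hf (congrArg Subtype.val hab)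
      refine (Nat.card_le_card_of_injective g hg).trans ?_
      rw [Nat.card_eq_finsetCard]
      exact Finset.card_le_two
  refine ⟨fun h1 ⟨B, hB, hBi⟩ => ?_, fun hn => ⟨fun ⟨B, hB, hBi⟩ => ?_, fun ⟨⟨k, hk⟩, hdvd⟩ => ?_⟩⟩
  · obtain ⟨τ, hτ'⟩ := hτ B hB hBi
    refine (hsmall τ hτ' fun h => ?_).2
    rw [← hKrank] at h1
    obtain ⟨i, hi⟩ := (FiniteField.bijective_frobeniusAlgHom_pow F ↥K).2 τ
    have hi0 : i.1 = 0 := by have := i.2; omega
    simp only [hi0, pow_zero] at hi
    rw [← hi, AlgHom.one_apply]
  · obtain ⟨τ, hτ'⟩ := hτ B hB hBi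
    obtain ⟨i, hi⟩ := (FiniteField.bijective_frobeniusAlgHom_pow F ↥K).2 τ
    simp only at hi
    set Φ := FiniteField.frobeniusAlgHom F ↥K
    have hord := FiniteField.orderOf_frobeniusAlgHom F ↥K
    have hinv : τ * τ = 1 := by
      refine AlgHom.ext fun a => ?_
      obtain ⟨a, ha⟩ := a
      induction ha using Algebra.adjoin_induction with
      | mem a ha =>
        obtain ⟨h, rfl⟩ := ha
        show τ (τ (f h)) = f h
        rw [hτ', hτ', inv_inv]
      | algebraMap c =>
        show τ (τ (algebraMap F ↥K c)) = algebraMap F ↥K c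
        rw [τ.commutes, τ.commutes]
      | add a b ha hb iha ihb =>
        have := congrArg₂ (· + ·) iha ihb
        simp only [← map_add] at this
        exact this
      | mul a b ha hb iha ihb =>
        have := congrArg₂ (· * ·) iha ihb
        simp only [← map_mul] at this
        exact this
    rw [← hi, ← pow_add, ← orderOf_dvd_iff_pow_eq_one, hord] at hinv
    replace hinv : Module.finrank F V ∣ i.1 + i.1 := hKrank ▸ hinv
    have hi0 : i.1 ≠ 0 := fun h0 => by
      have := (hsmall τ hτ' fun h => by rw [← hi, h0, pow_zero, AlgHom.one_apply]).1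
      omega
    have hilt : i.1 < Module.finrank F V := hKrank ▸ i.2
    have hn2 : Module.finrank F V = i.1 + i.1 := by
      obtain ⟨c, hc⟩ := hinv
      rcases c with _ | _ | c
      · omega
      · omega
      · exfalso; nlinarith
    refine ⟨⟨i.1, hn2⟩, ?_⟩
    rw [show Module.finrank F V / 2 = i.1 by omega]
    obtain ⟨h, hh⟩ := IsCyclic.exists_generator (α := H)
    rw [← orderOf_eq_card_of_forall_mem_zpowers hh]
    refine orderOf_dvd_of_pow_eq_one (hf ?_)
    have h1 := hτ' h
    rw [← hi, AlgHom.coe_pow, FiniteField.coe_frobeniusAlgHom, pow_iterate] at h1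
    simp only at h1
    rw [map_one, map_pow, pow_succ, h1, ← map_mul, inv_mul_cancel, map_one]
  · rw [show Module.finrank F V / 2 = k by omega] at hdvd
    set σ := FiniteField.frobeniusAlgHom F ↥K ^ k with hσ
    have hσf : ∀ h, f h * σ (f h) = 1 := fun h => by
      rw [hσ, AlgHom.coe_pow, FiniteField.coe_frobeniusAlgHom, pow_iterate]
      show f h * (f h) ^ _ = 1
      rw [← pow_succ', ← map_pow, orderOf_dvd_iff_pow_eq_one.mp
        ((orderOf_dvd_natCard h).trans hdvd), map_one]
    obtain ⟨l, hl⟩ := not_forall.mp (mt (Module.forall_dual_apply_eq_zero_iff F v₀).mp hv₀)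
    let P : V →ₗ[F] V →ₗ[F] F := LinearMap.mk₂ F
      (fun x y =>
        l ((((e.symm x) * σ (e.symm y) : ↥K) : Module.End F V) v₀))
      (fun x x' y => by simp [add_mul]) (fun c x y => by simp)
      (fun x y y' => by simp [mul_add]) (fun c x y => by simp)
    have key : ∀ a : ↥K, a ≠ 0 → ∃ b : ↥K, l (((a * b : ↥K) : Module.End F V) v₀) ≠ 0 :=
      fun a ha => ⟨a⁻¹, by rw [mul_inv_cancel₀ ha]; simpa using hl⟩
    refine ⟨P, ⟨fun x hx => ?_, fun y hy => ?_⟩, fun h x y => ?_⟩
    · by_contra hx0
      obtain ⟨b, hb⟩ := key (e.symm x) (by simpa using hx0)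
      obtain ⟨c, hc⟩ := (Finite.injective_iff_surjective.mp σ.injective) b
      exact hb (by rw [← hc]; simpa [P] using hx (e c))
    · by_contra hy0
      obtain ⟨b, hb⟩ := key (σ (e.symm y))
        (by simpa [map_eq_zero_iff _ σ.injective] using hy0)
      exact hb (by simpa [P, mul_comm] using hy (e b))
    · have he : ∀ u : V, e.symm (ρ h u) = f h * e.symm u := fun u => by
        rw [LinearEquiv.symm_apply_eq]
        show ρ h u = (((f h * e.symm u : ↥K)) : Module.End F V) v₀
        rw [Subalgebra.coe_mul, Module.End.mul_apply]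
        exact congrArg (ρ h) (e.apply_symm_apply u).symm
      simp only [P, LinearMap.mk₂_apply, he, map_mul, mul_mul_mul_comm (f h), hσf, one_mul]

end Cfsg.Agent.S4967
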