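import Cfsg.Statements.S5010
import Cfsg.Agent.SqfDeg.Layer

set_option autoImplicit false
set_option linter.style.haveILetI false
open Cfsg
open scoped commutatorElement

namespace Cfsg.Agent.S5010

/-- Let `G` be a finite solvable group. If every irreducible complex character degree of `G` is squarefree (1 included), then the derived length of `G` is at most 4. -/
theorem result {G : Type*} [Group G] [Finite G] [Group.IsSolvable G]
    (h : ∀ χ : Cfsg.IrrCharacter G, Squarefree (Cfsg.charDegree (χ : G → ℂ))) : derivedSeries G 4 = ⊥ := by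
  classical
  set F := fittingSubgroup G with hF
  set f := QuotientGroup.mk' F with hf
  have hcard : ∀ q : Nat.Primes, Nat.card (pCore (q : ℕ) (G ⧸ F)) ∣ (q : ℕ) := by
    intro q
    haveI : Fact (q : ℕ).Prime := ⟨q.2⟩
    set L := (pCore (q : ℕ) (G ⧸ F)).comap f with hL
    have hFL : F ≤ L := fun x hx => by
      rw [hL, Subgroup.mem_comap, hf, QuotientGroup.mk'_apply, (QuotientGroup.eq_one_iff x).2 hx]
      exact one_mem _
    have hrel : F.relIndex L = Nat.card (pCore (q : ℕ) (G ⧸ F)) := by
      have h1 := Subgroup.relIndex_comap (f := f) (H := (⊥ : Subgroup (G ⧸ F))) (K := L)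
      rw [MonoidHom.comap_bot, hf, QuotientGroup.ker_mk', hL,
        Subgroup.map_comap_eq_self_of_surjective (QuotientGroup.mk'_surjective F),
        Subgroup.relIndex_bot_left] at h1
      exact h1
    obtain ⟨n, hn⟩ := (Cores.pCore_isPGroup (p := (q : ℕ)) (G := G ⧸ F)).exists_card_eq
    rw [← hrel]
    exact SqfDeg.relIndex_fitting_dvd h L hFL (hrel.trans hn)
  have hcyc : ∀ q : Nat.Primes, IsCyclic (pCore (q : ℕ) (G ⧸ F)) := fun q =>
    haveI : Fact (q : ℕ).Prime := ⟨q.2⟩
    isCyclic_of_card_dvd_prime (hcard q)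
  have hcent : _root_.commutator (G ⧸ F) ≤
      Subgroup.centralizer (fittingSubgroup (G ⧸ F) : Set (G ⧸ F)) := by
    rw [Subgroup.le_centralizer_iff, Cores.fittingSubgroup_eq_iSup_pCore]
    refine iSup_le fun q => Subgroup.le_centralizer_iff.1 ?_
    rw [_root_.commutator_def, Subgroup.commutator_le]
    intro a _ b _
    haveI := hcyc q
    set N := pCore (q : ℕ) (G ⧸ F)
    let ψ : (G ⧸ F) →* MulAut N := MulAut.conjNormal
    have hc : ψ ⁅a, b⁆ = 1 := by
      rw [map_commutatorElement, commutatorElement_eq_one_iff_mul_comm]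
      apply (IsCyclic.mulAutMulEquiv (G := N)).injective
      rw [map_mul, map_mul, mul_comm]
    rw [Subgroup.mem_centralizer_iff]
    intro y hy
    have h1 := congrArg (fun φ : MulAut N => ((φ ⟨y, hy⟩ : N) : G ⧸ F)) hc
    simp only [ψ, MulAut.conjNormal_apply, MulAut.one_apply] at h1
    exact (mul_inv_eq_iff_eq_mul.1 h1).symm
  have hab : fittingSubgroup (G ⧸ F) ≤
      Subgroup.centralizer (fittingSubgroup (G ⧸ F) : Set (G ⧸ F)) := by
    rw [Cores.fittingSubgroup_eq_iSup_pCore]
    refine SqfDeg.iSup_le_centralizer_iSup _ fun q r => ?_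
    rcases eq_or_ne q r with rfl | hne
    · haveI := hcyc q
      intro x hx y hy
      exact congrArg Subtype.val (IsCyclic.isMulCommutative.is_comm.comm (⟨y, hy⟩ : pCore (q : ℕ) (G ⧸ F)) ⟨x, hx⟩)
    · haveI : Fact (q : ℕ).Prime := ⟨q.2⟩
      haveI : Fact (r : ℕ).Prime := ⟨r.2⟩
      intro x hx y hy
      exact Subgroup.commute_of_normal_of_disjoint _ _ inferInstance inferInstance
        ((Cores.pCore_isPGroup (p := (r : ℕ))).disjoint_of_ne (r : ℕ) (q : ℕ)
          (fun e => hne (Subtype.ext e.symm)) _ _ Cores.pCore_isPGroup) y x hy hx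
  have h2 : derivedSeries G 2 ≤ F := by
    have hle : derivedSeries (G ⧸ F) 1 ≤ fittingSubgroup (G ⧸ F) := by
      rw [derivedSeries_one]
      exact hcent.trans Cores.centralizer_fittingSubgroup_le
    have hbot : derivedSeries (G ⧸ F) 2 = ⊥ := by
      rw [derivedSeries_succ, eq_bot_iff]
      exact (Subgroup.commutator_mono hle hle).trans
        (Subgroup.commutator_eq_bot_iff_le_centralizer.2 hab).le
    have hm := map_derivedSeries_le_derivedSeries f 2
    rw [hbot, le_bot_iff, Subgroup.map_eq_bot_iff, hf, QuotientGroup.ker_mk'] at hm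
    exact hm
  have h3 : derivedSeries G 3 ≤ ⁅F, F⁆ := by
    rw [derivedSeries_succ]
    exact Subgroup.commutator_mono h2 h2
  rw [derivedSeries_succ, eq_bot_iff, ← SqfDeg.fitting_metabelian h]
  exact Subgroup.commutator_mono h3 h3

end Cfsg.Agent.S5010
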