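import Cfsg.Statements.S5014
import Cfsg.Agent.RootSub.RankOne

set_option autoImplicit false
open Cfsg Cfsg.Agent.RootSub
open scoped commutatorElement

namespace Cfsg.Agent.S5014

/-- Let X = ⟨A, B⟩ be a rank one group with unipotent subgroups A and B and let Ω be the set of conjugates of A under X. Then Ω has at least three members, X acts doubly transitively on Ω by conjugation (any two ordered pairs of distinct members are carried to one another by a single element of X), and A acts regularly on Ω with A removed: for C, D in Ω different from A there is exactly one element of A conjugating C to D. -/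
theorem result {G : Type*} [Group G] {A B : Subgroup G} (h : Cfsg.IsRankOnePair A B) :
    (∃ C₁ ∈ Cfsg.unipotentSubgroups A B, ∃ C₂ ∈ Cfsg.unipotentSubgroups A B, ∃ C₃ ∈ Cfsg.unipotentSubgroups A B,
      C₁ ≠ C₂ ∧ C₁ ≠ C₃ ∧ C₂ ≠ C₃) ∧
    (∀ C₁ ∈ Cfsg.unipotentSubgroups A B, ∀ C₂ ∈ Cfsg.unipotentSubgroups A B, ∀ D₁ ∈ Cfsg.unipotentSubgroups A B,
      ∀ D₂ ∈ Cfsg.unipotentSubgroups A B, C₁ ≠ C₂ → D₁ ≠ D₂ →
        ∃ x ∈ A ⊔ B, Cfsg.conjBy C₁ x = D₁ ∧ Cfsg.conjBy C₂ x = D₂) ∧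
    (∀ C ∈ Cfsg.unipotentSubgroups A B, ∀ D ∈ Cfsg.unipotentSubgroups A B, C ≠ A → D ≠ A →
      ∃! a : G, a ∈ A ∧ Cfsg.conjBy C a = D) := by
  refine ⟨?_, ?_, ?_⟩
  · obtain ⟨a, ha, ha1⟩ := Pair.exists_ne_one (Pair.ne_bot_left h)
    exact ⟨A, Pair.left_mem_unipotents, B, Pair.right_mem_unipotents h, conjBy B a,
      Pair.unip_invariant (Pair.right_mem_unipotents h) (Subgroup.mem_sup_left ha), h.ne,
      (Pair.conjBy_right_ne_left h ha).symm,
      fun he => ha1 (Pair.eq_one_of_normalizes h ha he.symm)⟩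
  · intro C₁ h1 C₂ h2 D₁ h3 D₂ h4 hC hD
    obtain ⟨x, hx, rfl, rfl⟩ := Pair.exists_conj_pair h h1 h2 hC
    obtain ⟨y, hy, rfl, rfl⟩ := Pair.exists_conj_pair h h3 h4 hD
    refine ⟨y * x⁻¹, mul_mem hy (inv_mem hx), ?_, ?_⟩ <;>
      rw [conjBy_conjBy, inv_mul_cancel_right]
  · intro C hC D hD hCA hDA
    obtain ⟨a, ha, rfl⟩ := (Pair.unip_cases h hC).resolve_left hCA
    obtain ⟨a', ha', rfl⟩ := (Pair.unip_cases h hD).resolve_left hDA
    refine ⟨a' * a⁻¹, ⟨mul_mem ha' (inv_mem ha), ?_⟩, ?_⟩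
    · rw [conjBy_conjBy, inv_mul_cancel_right]
    · rintro x ⟨hx, he⟩
      rw [conjBy_conjBy] at he
      have : conjBy B (a'⁻¹ * (x * a)) = B := by
        rw [← conjBy_conjBy, he, conjBy_conjBy, inv_mul_cancel, conjBy_one]
      have h1 := Pair.eq_one_of_normalizes h (mul_mem (inv_mem ha') (mul_mem hx ha)) this
      rw [inv_mul_eq_one] at h1
      rw [h1, mul_inv_cancel_right]

end Cfsg.Agent.S5014
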