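import Cfsg.Statements.S5015
import Cfsg.Agent.RootSub.RankOne

set_option autoImplicit false
open Cfsg Cfsg.Agent.RootSub
open scoped commutatorElement

namespace Cfsg.Agent.S5015

/-- Let a group Y act doubly transitively on a set Ω with at least three points, and suppose that the stabilizer of a point α contains a nilpotent subgroup A, normalized by that stabilizer, which acts regularly on the points other than α. Then for any y in Y moving α, the subgroups A and y A y⁻¹ are the unipotent subgroups of a rank one group, and the normal closure of A in Y (the subgroup generated by all conjugates of A) is generated by A and y A y⁻¹ alone. -/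
theorem result {Y Ω : Type*} [Group Y] [MulAction Y Ω]
    (h2 : MulAction.IsMultiplyPretransitive Y Ω 2) (hΩ : 3 ≤ ENat.card Ω) (α : Ω) (A : Subgroup Y)
    (hA : A ≤ MulAction.stabilizer Y α) (hAn : ∀ y ∈ MulAction.stabilizer Y α, Cfsg.conjBy A y = A)
    (hnil : Group.IsNilpotent A) (hreg : ∀ β γ : Ω, β ≠ α → γ ≠ α → ∃! a : Y, a ∈ A ∧ a • β = γ)
    (y : Y) (hy : y ∉ MulAction.stabilizer Y α) :
    Cfsg.IsRankOnePair A (Cfsg.conjBy A y) ∧ Subgroup.normalClosure (A : Set Y) = A ⊔ Cfsg.conjBy A y := by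
  rw [MulAction.mem_stabilizer_iff] at hy
  have hne : y • α ≠ α := hy
  have hfix : ∀ a ∈ A, a • α = α := fun a ha => MulAction.mem_stabilizer_iff.1 (hA ha)
  -- the conjugate attached to a point
  have hpt : ∀ g g' : Y, g • α = g' • α → conjBy A g = conjBy A g' := by
    intro g g' he
    have : g⁻¹ * g' ∈ MulAction.stabilizer Y α := by
      rw [MulAction.mem_stabilizer_iff, mul_smul, ← he, inv_smul_smul]
    conv_lhs => rw [← hAn _ this, conjBy_conjBy, mul_inv_cancel_left]
  have hBreg : ∀ γ δ : Ω, γ ≠ y • α → δ ≠ y • α → ∃! b : Y, b ∈ conjBy A y ∧ b • γ = δ := by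
    intro γ δ hγ hδ
    obtain ⟨a, ⟨ha, hae⟩, hu⟩ := hreg (y⁻¹ • γ) (y⁻¹ • δ)
      (by rwa [Ne, inv_smul_eq_iff]) (by rwa [Ne, inv_smul_eq_iff])
    refine ⟨y * a * y⁻¹, ⟨conj_mem_conjBy y ha, ?_⟩, ?_⟩
    · rw [mul_smul, mul_smul, hae, smul_inv_smul]
    · rintro b ⟨hb, hbe⟩
      have := hu (y⁻¹ * b * y) ⟨mem_conjBy.1 hb, by rw [mul_smul, mul_smul, smul_inv_smul, hbe]⟩
      rw [← this]; group
  have hBfix : ∀ b ∈ conjBy A y, b • (y • α) = y • α := by
    intro b hb
    have := hfix _ (mem_conjBy.1 hb)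
    rw [mul_smul, mul_smul, inv_smul_eq_iff] at this
    exact this
  have hAB : A ≠ conjBy A y := by
    intro he
    obtain ⟨γ, hγ1, hγ2⟩ : ∃ γ : Ω, γ ≠ α ∧ γ ≠ y • α := by
      by_contra hh
      push Not at hh
      have hsub : (Set.univ : Set Ω) ⊆ {α, y • α} := fun γ _ => by
        by_cases h1 : γ = α
        · exact Or.inl h1
        · exact Or.inr (hh γ h1)
      have h1 := Set.encard_le_encard hsub
      rw [Set.encard_univ, Set.encard_pair (Ne.symm hne)] at h1
      exact absurd (le_trans hΩ h1) (by decide)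
    obtain ⟨b, ⟨hb, hbe⟩, -⟩ := hBreg α γ (Ne.symm hne) hγ2
    rw [← he] at hb
    exact hγ1 (hbe.symm.trans (hfix b hb))
  have hnilB : Group.IsNilpotent ↥(conjBy A y) :=
    Group.nilpotent_of_mulEquiv
      (Subgroup.equivMapOfInjective A (MulAut.conj y).toMonoidHom (MulAut.conj y).injective)
  refine ⟨⟨hAB, hnil, hnilB, ?_, ?_⟩, ?_⟩
  · intro a ha ha1
    have h1 : a⁻¹ • (y • α) ≠ y • α := by
      intro he
      exact ha1 (inv_eq_one.1 ((hreg (y • α) (y • α) hne hne).unique ⟨inv_mem ha, he⟩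
        ⟨one_mem A, one_smul _ _⟩))
    have h2 : a⁻¹ • (y • α) ≠ α := by
      intro he
      rw [inv_smul_eq_iff, hfix a ha] at he
      exact hne he
    obtain ⟨b, ⟨hb, hbe⟩, -⟩ := hBreg α (a⁻¹ • (y • α)) (Ne.symm hne) h1
    refine ⟨b⁻¹, inv_mem hb, fun hb1 => ?_, ?_⟩
    · rw [inv_eq_one] at hb1
      rw [hb1, one_smul] at hbe
      exact h2 hbe.symm
    · rw [inv_inv, conjBy_conjBy]
      exact hpt _ _ (by rw [mul_smul, hbe])
  · intro b hb hb1
    have h1 : b⁻¹ • α ≠ α := by
      intro he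
      exact hb1 (inv_eq_one.1 ((hBreg α α (Ne.symm hne) (Ne.symm hne)).unique ⟨inv_mem hb, he⟩
        ⟨one_mem _, one_smul _ _⟩))
    have h2 : b⁻¹ • α ≠ y • α := by
      intro he
      rw [inv_smul_eq_iff, hBfix b hb] at he
      exact hne he.symm
    obtain ⟨a, ⟨ha, hae⟩, -⟩ := hreg (y • α) (b⁻¹ • α) hne h1
    refine ⟨a⁻¹, inv_mem ha, fun ha1 => ?_, ?_⟩
    · rw [inv_eq_one] at ha1
      rw [ha1, one_smul] at hae
      exact h2 hae.symm
    · rw [inv_inv, conjBy_conjBy]
      exact hpt _ _ (by rw [mul_smul, hae])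
  · refine le_antisymm ?_ (sup_le Subgroup.le_normalClosure ?_)
    · have htr : ∀ γ : Ω, ∃ x ∈ A ⊔ conjBy A y, x • α = γ := by
        intro γ
        by_cases hγ : γ = y • α
        · obtain ⟨γ', hγ1', hγ2'⟩ : ∃ γ : Ω, γ ≠ α ∧ γ ≠ y • α := by
            by_contra hh
            push Not at hh
            have hsub : (Set.univ : Set Ω) ⊆ {α, y • α} := fun γ _ => by
              by_cases h1 : γ = α
              · exact Or.inl h1
              · exact Or.inr (hh γ h1)
            have h1 := Set.encard_le_encard hsub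
            rw [Set.encard_univ, Set.encard_pair (Ne.symm hne)] at h1
            exact absurd (le_trans hΩ h1) (by decide)
          obtain ⟨b, ⟨hb, hbe⟩, -⟩ := hBreg α γ' (Ne.symm hne) hγ2'
          obtain ⟨a, ⟨ha, hae⟩, -⟩ := hreg γ' (y • α) hγ1' hne
          exact ⟨a * b, mul_mem (Subgroup.mem_sup_left ha) (Subgroup.mem_sup_right hb),
            by rw [mul_smul, hbe, hae, hγ]⟩
        · obtain ⟨b, ⟨hb, hbe⟩, -⟩ := hBreg α γ (Ne.symm hne) hγ
          exact ⟨b, Subgroup.mem_sup_right hb, hbe⟩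
      refine (Subgroup.closure_le _).2 fun x hx => ?_
      obtain ⟨a, ha, hax⟩ := Group.mem_conjugatesOfSet_iff.1 hx
      obtain ⟨g, rfl⟩ := isConj_iff.1 hax
      obtain ⟨x, hx, hxe⟩ := htr (g • α)
      have := conj_mem_conjBy g ha
      rw [hpt g x hxe.symm] at this
      exact conjBy_le_of_mem le_sup_left hx this
    · intro b hb
      have := (Subgroup.normalClosure_normal (s := (A : Set Y))).conj_mem _
        (Subgroup.subset_normalClosure (mem_conjBy.1 hb)) y
      simpa [mul_assoc] using this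

end Cfsg.Agent.S5015
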