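import Cfsg.Statements.S5016
import Cfsg.Agent.RootSub.RankOne

set_option autoImplicit false
open Cfsg Cfsg.Agent.RootSub
open scoped commutatorElement

namespace Cfsg.Agent.S5016

/-- For any field k, the special linear group SL₂(k) is a special rank one group with abelian unipotent subgroups, the unipotent subgroups being the group of lower unitriangular matrices and the group of upper unitriangular matrices. -/
theorem result (k : Type*) [Field k] :
    Cfsg.IsRankOneGroup (Matrix.SpecialLinearGroup (Fin 2) k) (Cfsg.lowerUnipotentSL2 k) (Cfsg.upperUnipotentSL2 k) ∧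
    Cfsg.IsSpecialRankOnePair (Cfsg.lowerUnipotentSL2 k) (Cfsg.upperUnipotentSL2 k) ∧
    Cfsg.HasAbelianUnipotents (Cfsg.lowerUnipotentSL2 k) (Cfsg.upperUnipotentSL2 k) := by
  have hU : ∀ g : Matrix.SpecialLinearGroup (Fin 2) k, g ∈ Cfsg.upperUnipotentSL2 k ↔
      ∃ t : k, (g : Matrix (Fin 2) (Fin 2) k) = !![1, t; 0, 1] := by
    intro g
    constructor
    · intro hg
      induction hg using Subgroup.closure_induction with
      | mem g hg =>
        obtain ⟨h10, h00, h11⟩ := hg
        refine ⟨(g : Matrix (Fin 2) (Fin 2) k) 0 1, ?_⟩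
        ext i j; fin_cases i <;> fin_cases j <;> simp [h10, h00, h11]
      | one => exact ⟨0, by ext i j; fin_cases i <;> fin_cases j <;> simp⟩
      | mul x y _ _ hx hy =>
        obtain ⟨t, ht⟩ := hx
        obtain ⟨u, hu⟩ := hy
        exact ⟨u + t, by simp [ht, hu]⟩
      | inv x _ hx =>
        obtain ⟨t, ht⟩ := hx
        exact ⟨-t, by simp [Matrix.SpecialLinearGroup.coe_inv, ht, Matrix.adjugate_fin_two]⟩
    · rintro ⟨t, ht⟩
      exact Subgroup.subset_closure ⟨by simp [ht], by simp [ht], by simp [ht]⟩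
  have hL : ∀ g : Matrix.SpecialLinearGroup (Fin 2) k, g ∈ Cfsg.lowerUnipotentSL2 k ↔
      ∃ t : k, (g : Matrix (Fin 2) (Fin 2) k) = !![1, 0; t, 1] := by
    intro g
    constructor
    · intro hg
      induction hg using Subgroup.closure_induction with
      | mem g hg =>
        obtain ⟨h01, h00, h11⟩ := hg
        refine ⟨(g : Matrix (Fin 2) (Fin 2) k) 1 0, ?_⟩
        ext i j; fin_cases i <;> fin_cases j <;> simp [h01, h00, h11]
      | one => exact ⟨0, by ext i j; fin_cases i <;> fin_cases j <;> simp⟩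
      | mul x y _ _ hx hy =>
        obtain ⟨t, ht⟩ := hx
        obtain ⟨u, hu⟩ := hy
        exact ⟨t + u, by simp [ht, hu]⟩
      | inv x _ hx =>
        obtain ⟨t, ht⟩ := hx
        exact ⟨-t, by simp [Matrix.SpecialLinearGroup.coe_inv, ht, Matrix.adjugate_fin_two]⟩
    · rintro ⟨t, ht⟩
      exact Subgroup.subset_closure ⟨by simp [ht], by simp [ht], by simp [ht]⟩
  let u : k → Matrix.SpecialLinearGroup (Fin 2) k := fun t =>
    ⟨!![1, t; 0, 1], by simp [Matrix.det_fin_two]⟩
  let l : k → Matrix.SpecialLinearGroup (Fin 2) k := fun t =>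
    ⟨!![1, 0; t, 1], by simp [Matrix.det_fin_two]⟩
  have uMem : ∀ t, u t ∈ Cfsg.upperUnipotentSL2 k := fun t => (hU _).2 ⟨t, rfl⟩
  have lMem : ∀ t, l t ∈ Cfsg.lowerUnipotentSL2 k := fun t => (hL _).2 ⟨t, rfl⟩
  have coeU : ∀ t, ((u t : Matrix.SpecialLinearGroup (Fin 2) k) : Matrix (Fin 2) (Fin 2) k) =
      !![1, t; 0, 1] := fun _ => rfl
  have coeL : ∀ t, ((l t : Matrix.SpecialLinearGroup (Fin 2) k) : Matrix (Fin 2) (Fin 2) k) =
      !![1, 0; t, 1] := fun _ => rfl
  have uInv : ∀ t, (u t)⁻¹ = u (-t) := fun t => by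
    apply Subtype.ext; simp [Matrix.SpecialLinearGroup.coe_inv, coeU, Matrix.adjugate_fin_two]
  have lInv : ∀ t, (l t)⁻¹ = l (-t) := fun t => by
    apply Subtype.ext; simp [Matrix.SpecialLinearGroup.coe_inv, coeL, Matrix.adjugate_fin_two]
  have eU : ∀ g ∈ Cfsg.upperUnipotentSL2 k, ∃ t, g = u t := fun g hg => by
    obtain ⟨t, ht⟩ := (hU g).1 hg; exact ⟨t, Subtype.ext ht⟩
  have eL : ∀ g ∈ Cfsg.lowerUnipotentSL2 k, ∃ t, g = l t := fun g hg => by
    obtain ⟨t, ht⟩ := (hL g).1 hg; exact ⟨t, Subtype.ext ht⟩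
  -- the basic identity
  have hid : ∀ s t c : k, s * t = 1 → u (-t) * l c * u t = l (-s) * u (-(t * t * c)) * l s := by
    intro s t c hst
    apply Subtype.ext
    simp only [Matrix.SpecialLinearGroup.coe_mul, coeU, coeL]
    ext i j
    fin_cases i <;> fin_cases j <;> simp [Matrix.mul_apply, Fin.sum_univ_two]
    · linear_combination -(t * c) * hst
    · ring
    · linear_combination -(c * s * t + c) * hst
    · linear_combination -(c * t) * hst
  have hpair : ∀ s t : k, s * t = 1 → conjBy (Cfsg.lowerUnipotentSL2 k) (u t)⁻¹ =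
      conjBy (Cfsg.upperUnipotentSL2 k) (l s)⁻¹ := by
    intro s t hst
    have ht0 : t ≠ 0 := right_ne_zero_of_mul_eq_one hst
    ext g
    simp only [mem_conjBy, inv_inv]
    constructor
    · intro hg
      obtain ⟨c, hc⟩ := eL _ hg
      have : g = u (-t) * l c * u t := by rw [← hc, ← uInv]; group
      rw [this, hid s t c hst, ← lInv]
      have : l s * ((l s)⁻¹ * u (-(t * t * c)) * l s) * (l s)⁻¹ = u (-(t * t * c)) := by group
      rw [this]; exact uMem _
    · intro hg
      obtain ⟨d, hd⟩ := eU _ hg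
      have e : -(t * t * (-(d / (t * t)))) = d := by field_simp
      have : g = l (-s) * u d * l s := by rw [← hd, ← lInv]; group
      rw [this, ← e, ← hid s t _ hst, ← uInv]
      have : u t * ((u t)⁻¹ * l (-(d / (t * t))) * u t) * (u t)⁻¹ = l (-(d / (t * t))) := by group
      rw [this]; exact lMem _
  have hne : Cfsg.lowerUnipotentSL2 k ≠ Cfsg.upperUnipotentSL2 k := by
    intro h
    obtain ⟨t, ht⟩ := eU _ (h ▸ lMem 1)
    have := congrArg (fun g : Matrix.SpecialLinearGroup (Fin 2) k => (g : Matrix (Fin 2) (Fin 2) k) 1 0) ht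
    simp [coeU, coeL] at this
  have hCL : IsMulCommutative ↥(Cfsg.lowerUnipotentSL2 k) := ⟨⟨fun x y => by
    obtain ⟨s, hs⟩ := eL x x.2
    obtain ⟨t, ht⟩ := eL y y.2
    apply Subtype.ext
    simp only [Subgroup.coe_mul, hs, ht]
    apply Subtype.ext
    simp [Matrix.SpecialLinearGroup.coe_mul, coeL, add_comm]⟩⟩
  have hCU : IsMulCommutative ↥(Cfsg.upperUnipotentSL2 k) := ⟨⟨fun x y => by
    obtain ⟨s, hs⟩ := eU x x.2
    obtain ⟨t, ht⟩ := eU y y.2
    apply Subtype.ext
    simp only [Subgroup.coe_mul, hs, ht]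
    apply Subtype.ext
    simp [Matrix.SpecialLinearGroup.coe_mul, coeU, add_comm]⟩⟩
  have hpr : Cfsg.IsRankOnePair (Cfsg.lowerUnipotentSL2 k) (Cfsg.upperUnipotentSL2 k) := by
    refine ⟨hne, ?_, ?_, ?_, ?_⟩
    · exact Subgroup.isNilpotent_of_lowerCentralSeries_eq_bot (n := 1) (by
        rw [Subgroup.lowerCentralSeries_succ, Subgroup.lowerCentralSeries_zero]
        exact Subgroup.commutator_self_eq_bot_iff.2 hCL)
    · exact Subgroup.isNilpotent_of_lowerCentralSeries_eq_bot (n := 1) (by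
        rw [Subgroup.lowerCentralSeries_succ, Subgroup.lowerCentralSeries_zero]
        exact Subgroup.commutator_self_eq_bot_iff.2 hCU)
    · intro a ha ha1
      obtain ⟨s, rfl⟩ := eL a ha
      have hs : s ≠ 0 := fun h => ha1 (by apply Subtype.ext; simp [coeL, h, Matrix.one_fin_two])
      refine ⟨u s⁻¹, uMem _, fun h => ?_, hpair s s⁻¹ (mul_inv_cancel₀ hs)⟩
      have := congrArg (fun g : Matrix.SpecialLinearGroup (Fin 2) k => (g : Matrix (Fin 2) (Fin 2) k) 0 1) h
      simp [coeU, hs] at this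
    · intro b hb hb1
      obtain ⟨t, rfl⟩ := eU b hb
      have ht : t ≠ 0 := fun h => hb1 (by apply Subtype.ext; simp [coeU, h, Matrix.one_fin_two])
      refine ⟨l t⁻¹, lMem _, fun h => ?_, (hpair t⁻¹ t (inv_mul_cancel₀ ht)).symm⟩
      have := congrArg (fun g : Matrix.SpecialLinearGroup (Fin 2) k => (g : Matrix (Fin 2) (Fin 2) k) 1 0) h
      simp [coeL, ht] at this
  refine ⟨⟨?_, hpr⟩, ⟨hpr, ?_⟩, hCL, hCU⟩
  · rw [eq_top_iff]
    rintro g -
    have key : ∀ g : Matrix.SpecialLinearGroup (Fin 2) k, (g : Matrix (Fin 2) (Fin 2) k) 1 0 ≠ 0 →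
        g ∈ Cfsg.lowerUnipotentSL2 k ⊔ Cfsg.upperUnipotentSL2 k := by
      intro g
      induction g using Matrix.SpecialLinearGroup.fin_two_induction with
      | h a b c d hdet =>
        intro hc
        change c ≠ 0 at hc
        have e : (⟨!![a, b; c, d], by rwa [Matrix.det_fin_two_of]⟩ : Matrix.SpecialLinearGroup (Fin 2) k) =
            u ((a - 1) / c) * l c * u ((d - 1) / c) := by
          apply Subtype.ext
          simp only [Matrix.SpecialLinearGroup.coe_mul, coeU, coeL]
          ext i j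
          fin_cases i <;> fin_cases j <;> simp [Matrix.mul_apply, Fin.sum_univ_two] <;> field_simp
          · ring
          · linear_combination -hdet
          · ring
        rw [e]
        exact mul_mem (mul_mem (Subgroup.mem_sup_right (uMem _)) (Subgroup.mem_sup_left (lMem _)))
          (Subgroup.mem_sup_right (uMem _))
    by_cases hc : (g : Matrix (Fin 2) (Fin 2) k) 1 0 = 0
    · have h1 : g = (l 1)⁻¹ * (l 1 * g) := by group
      rw [h1]
      refine mul_mem (inv_mem (Subgroup.mem_sup_left (lMem 1))) (key _ ?_)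
      have hdet := g.2
      rw [Matrix.det_fin_two, hc, mul_zero, sub_zero] at hdet
      simp [coeL, Matrix.mul_apply, Fin.sum_univ_two, hc, left_ne_zero_of_mul_eq_one hdet]
    · exact key g hc
  · intro a ha ha1 b hb hb1 he
    obtain ⟨s, rfl⟩ := eL a ha
    have hs : s ≠ 0 := fun h => ha1 (by apply Subtype.ext; simp [coeL, h, Matrix.one_fin_two])
    obtain ⟨t, rfl⟩ := eU b hb
    have h2 := Pair.partner_unique hpr (uMem t) (uMem s⁻¹)
      (he.trans (hpair s s⁻¹ (mul_inv_cancel₀ hs)).symm)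
    rw [h2, uInv, lInv, hid s s⁻¹ s (mul_inv_cancel₀ hs)]
    congr 2
    congr 1
    field_simp

end Cfsg.Agent.S5016
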