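import Cfsg.Statements.S5017
import Cfsg.Agent.RootSub.RankOne

set_option autoImplicit false
open Cfsg Cfsg.Agent.RootSub
open scoped commutatorElement

namespace Cfsg.Agent.S5017

/-- Let X be a rank one group with unipotent subgroups A and B and N a normal subgroup of X. Then either X = N A or N lies in the centre of X. Consequently a perfect rank one group is quasisimple. -/
theorem result {X : Type*} [Group X] {A B : Subgroup X} (h : Cfsg.IsRankOneGroup X A B) :
    (∀ N : Subgroup X, N.Normal → N ⊔ A = ⊤ ∨ N ≤ Subgroup.center X) ∧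
    (Group.IsPerfect X → Cfsg.IsQuasisimple X) := by
  obtain ⟨htop, hr⟩ := h
  have hd : ∀ N : Subgroup X, N.Normal → N ⊔ A = ⊤ ∨ N ≤ Subgroup.center X := by
    intro N hN
    rcases Pair.dichotomy hr (N := N) (by rw [htop]; exact le_top)
        (fun x _ n hn => hN.conj_mem n hn x) with h1 | h1
    · exact Or.inl (top_le_iff.1 (htop ▸ h1))
    · exact Or.inr fun n hn => Subgroup.mem_center_iff.2 fun g =>
        (h1 n hn g (htop ▸ Subgroup.mem_top g)).symm
  refine ⟨hd, fun hperf => ⟨hperf, ?_⟩⟩
  obtain ⟨a, ha, ha1⟩ := Pair.exists_ne_one (Pair.ne_bot_left hr)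
  obtain ⟨b, hb, hb1⟩ := Pair.exists_ne_one (Pair.ne_bot_right hr)
  have hab : a * b ≠ b * a := Pair.not_commute hr ha ha1 hb hb1
  haveI : Nontrivial (X ⧸ Subgroup.center X) := by
    refine ⟨(a : X ⧸ Subgroup.center X), 1, fun he => ?_⟩
    rw [QuotientGroup.eq_one_iff, Subgroup.mem_center_iff] at he
    exact hab (he b).symm
  refine ⟨fun K hK => ?_⟩
  rcases hd _ (hK.comap (QuotientGroup.mk' (Subgroup.center X))) with h1 | h1
  · right
    -- the quotient by `K` is an image of the nilpotent group `A`, and perfect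
    let f : X →* (X ⧸ Subgroup.center X) ⧸ K :=
      (QuotientGroup.mk' K).comp (QuotientGroup.mk' (Subgroup.center X))
    have hfs : Function.Surjective f :=
      (QuotientGroup.mk'_surjective K).comp (QuotientGroup.mk'_surjective _)
    have hsurj : Function.Surjective (f.comp A.subtype) := by
      intro q
      obtain ⟨x, rfl⟩ := hfs q
      have hx : x ∈ K.comap (QuotientGroup.mk' (Subgroup.center X)) ⊔ A := h1 ▸ Subgroup.mem_top x
      haveI := hK.comap (QuotientGroup.mk' (Subgroup.center X))
      obtain ⟨k, hk, a', ha', rfl⟩ := Subgroup.mem_sup_of_normal_left.1 hx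
      refine ⟨⟨a', ha'⟩, ?_⟩
      have hk1 : f k = 1 := (QuotientGroup.eq_one_iff _).2 hk
      simp [map_mul, hk1]
    haveI := hr.nilpotent_left
    haveI : Group.IsNilpotent ((X ⧸ Subgroup.center X) ⧸ K) :=
      Group.nilpotent_of_surjective _ hsurj
    by_contra hKtop
    haveI : Nontrivial ((X ⧸ Subgroup.center X) ⧸ K) := QuotientGroup.nontrivial_iff.2 hKtop
    have hlt := IsSolvable.commutator_lt_top_of_nontrivial ((X ⧸ Subgroup.center X) ⧸ K)
    have hperf' : commutator ((X ⧸ Subgroup.center X) ⧸ K) = ⊤ := by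
      have e : commutator X = ⊤ := Group.isPerfect_def.1 hperf
      rw [commutator_def] at e ⊢
      have := congrArg (Subgroup.map f) e
      rwa [Subgroup.map_commutator, Subgroup.map_top_of_surjective f hfs] at this
    exact hlt.ne hperf'
  · left
    rw [eq_bot_iff]
    intro q hq
    obtain ⟨x, rfl⟩ := QuotientGroup.mk'_surjective _ q
    exact Subgroup.mem_bot.2 ((QuotientGroup.eq_one_iff _).2 (h1 hq))

end Cfsg.Agent.S5017
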