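import Cfsg.Statements.S5018
import Cfsg.Agent.RootSub.RankOne

set_option autoImplicit false
open Cfsg Cfsg.Agent.RootSub
open scoped commutatorElement

namespace Cfsg.Agent.S5018

/-- A rank one group is not nilpotent, and its second centre equals its centre. -/
theorem result {X : Type*} [Group X] {A B : Subgroup X} (h : Cfsg.IsRankOneGroup X A B) :
    Subgroup.upperCentralSeries X 2 = Subgroup.center X ∧ ¬ Group.IsNilpotent X := by
  obtain ⟨htop, hr⟩ := h
  have hstep : Subgroup.upperCentralSeries X 2 ≤ Subgroup.center X := by
    intro z hz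
    have hz' : ∀ y : X, ⁅z, y⁆ ∈ Subgroup.center X := by
      intro y
      have := (Subgroup.mem_upperCentralSeries_succ_iff (n := 1)).1 hz y
      simpa [Subgroup.upperCentralSeries_one] using this
    rw [Subgroup.mem_center_iff]
    intro g
    exact (Pair.central_of_commutator_central hr (htop ▸ Subgroup.mem_top z)
      (fun x _ y _ => ((Subgroup.mem_center_iff.1 (hz' x)) y).symm) g (htop ▸ Subgroup.mem_top g)).symm
  have h2 : Subgroup.upperCentralSeries X 2 = Subgroup.center X := by
    refine le_antisymm hstep ?_
    rw [← Subgroup.upperCentralSeries_one]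
    exact Subgroup.upperCentralSeries_mono X (by norm_num)
  refine ⟨h2, fun hn => ?_⟩
  obtain ⟨n, hn⟩ := hn.nilpotent'
  have hall : ∀ m, Subgroup.upperCentralSeries X m ≤ Subgroup.center X := by
    intro m
    induction m with
    | zero => simp [Subgroup.upperCentralSeries_zero]
    | succ m ih =>
      intro z hz
      have : z ∈ Subgroup.upperCentralSeries X 2 := by
        rw [Subgroup.mem_upperCentralSeries_succ_iff (n := 1)]
        intro y
        have := ih ((Subgroup.mem_upperCentralSeries_succ_iff).1 hz y)
        simpa [Subgroup.upperCentralSeries_one] using this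
      exact hstep this
  obtain ⟨a, ha, ha1⟩ := Pair.exists_ne_one (Pair.ne_bot_left hr)
  obtain ⟨b, hb, hb1⟩ := Pair.exists_ne_one (Pair.ne_bot_right hr)
  refine Pair.not_commute hr ha ha1 hb hb1 ?_
  exact Subgroup.mem_center_iff.1 (hall n (hn ▸ Subgroup.mem_top b)) a

end Cfsg.Agent.S5018
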