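import Cfsg.Statements.S5020
import Cfsg.Agent.RankOneSpecial.Small
import Cfsg.Agent.RankOneSpecial.Derived

set_option autoImplicit false
open Cfsg
open Cfsg.Agent.RankOneSpecial

namespace Cfsg.Agent.S5020

/-- The structure of special rank one groups with abelian unipotent subgroups. -/
theorem result {X : Type*} [Group X] {A B : Subgroup X} (h : Cfsg.IsRankOneGroup X A B)
    (hs : Cfsg.IsSpecialRankOnePair A B) (hab : Cfsg.HasAbelianUnipotents A B) :
    (ENat.card A ≤ 3 ∧ (Nonempty (X ≃* Matrix.SpecialLinearGroup (Fin 2) (ZMod 2)) ∨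
        Nonempty (X ≃* Matrix.SpecialLinearGroup (Fin 2) (ZMod 3)) ∨
        Nonempty (X ≃* Matrix.ProjectiveSpecialLinearGroup (Fin 2) (ZMod 3)))) ∨
    (commutator X ⊔ A = ⊤ ∧ Cfsg.IsQuasisimple (commutator X) ∧
      3 < ENat.card ↥(⁅A, Cfsg.rankOneDiagonal A B⁆ : Subgroup X)) := by
  have S : SpecialAb A B := ⟨hs, hab⟩
  rcases le_or_gt (ENat.card A) 3 with hA | hA
  · exact Or.inl ⟨hA, S.small h.1 hA⟩
  right
  have hC := S.three_lt_commutator hA
  refine ⟨S.commutator_sup_eq_top h.1, S.isQuasisimple_commutator h.1 ?_, hC⟩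
  have hle : ⁅A, Cfsg.rankOneDiagonal A B⁆ ≤ commutator X ⊓ A :=
    le_inf (Subgroup.commutator_mono le_top le_top) S.diag_commutator_le
  exact lt_of_lt_of_le hC
    (ENat.card_le_card_of_injective (f := Subgroup.inclusion hle) (Subgroup.inclusion_injective _))

end Cfsg.Agent.S5020
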