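import Cfsg.Statements.S5021
import Cfsg.Agent.RankOneSpecial.Basic

set_option autoImplicit false
open Cfsg
open Cfsg.Agent.RankOneSpecial

namespace Cfsg.Agent.S5021

/-- Special rank one groups with abelian unipotent subgroups: `A` is elementary abelian or torsion-free and divisible. -/
theorem result {X : Type*} [Group X] {A B : Subgroup X} (h : Cfsg.IsRankOneGroup X A B)
    (hs : Cfsg.IsSpecialRankOnePair A B) (hab : Cfsg.HasAbelianUnipotents A B) :
    (∃ p : ℕ, p.Prime ∧ Cfsg.IsElementaryAbelian p A) ∨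
    ((∀ a ∈ A, a ≠ 1 → ¬ IsOfFinOrder a) ∧ ∀ a ∈ A, ∀ n : ℕ, 0 < n → ∃ c ∈ A, c ^ n = a) := by
  have S : SpecialAb A B := ⟨hs, hab⟩
  refine S.structure_cases.imp id fun htf => ⟨htf, fun a ha n hn => ?_⟩
  by_cases ha1 : a = 1
  · exact ⟨1, one_mem _, by rw [ha1, one_pow]⟩
  obtain ⟨b, hb⟩ := S.exists_att ha ha1
  obtain ⟨z, hz, hzn⟩ := S.exists_root hb (k := n)
    (fun he => htf a ha ha1 (isOfFinOrder_iff_pow_eq_one.2 ⟨n, hn, he⟩))
  exact ⟨z, hz.1, hzn⟩

end Cfsg.Agent.S5021
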