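import Cfsg.Statements.S5024
import Cfsg.Agent.RootSub.Basic

set_option autoImplicit false
open Cfsg Cfsg.Agent.RootSub
open scoped commutatorElement

namespace Cfsg.Agent.S5024

/-- Let S be a set of abstract root subgroups of G, A and C members of S, B a rank one partner of A in S and D a rank one partner of C in S. If the rank one group ⟨A, B⟩ is contained in ⟨C, D⟩ then the two coincide, and C and D are conjugates of A inside ⟨A, B⟩. -/
theorem result {G : Type*} [Group G] {S : Set (Subgroup G)} (hS : Cfsg.IsRootSubgroupSet S)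
    {A B C D : Subgroup G} (hA : A ∈ S) (hC : C ∈ S) (hB : B ∈ Cfsg.rankOnePartners S A) (hD : D ∈ Cfsg.rankOnePartners S C)
    (hle : A ⊔ B ≤ C ⊔ D) : A ⊔ B = C ⊔ D ∧ C ∈ Cfsg.unipotentSubgroups A B ∧ D ∈ Cfsg.unipotentSubgroups A B := by
  obtain ⟨hBS, hr⟩ := hB
  obtain ⟨hDS, hr'⟩ := hD
  obtain ⟨a, ha, ha1⟩ := exists_ne_one_of_mem hS hA
  obtain ⟨b, hb, hb1⟩ := exists_ne_one_of_mem hS hBS
  have hnc := Pair.not_commute hr ha ha1 hb hb1
  have hAm : A ∈ unipotentSubgroups C D :=
    (mem_unipotents_or_central hS hA hC hDS hr' (le_sup_left.trans hle)).resolve_right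
      fun h => hnc (h a ha b (hle (Subgroup.mem_sup_right hb)))
  have hBm : B ∈ unipotentSubgroups C D :=
    (mem_unipotents_or_central hS hBS hC hDS hr' (le_sup_right.trans hle)).resolve_right
      fun h => hnc (h b hb a (hle (Subgroup.mem_sup_left ha))).symm
  rw [Pair.unipotents_eq_of_ne hr' hAm hBm hr.ne]
  exact ⟨Pair.sup_eq_of_ne hr' hAm hBm hr.ne, Pair.left_mem_unipotents,
    Pair.right_mem_unipotents hr'⟩

end Cfsg.Agent.S5024
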