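import Cfsg.Statements.S5027
import Cfsg.Agent.RootSub.Basic

set_option autoImplicit false
open Cfsg Cfsg.Agent.RootSub
open scoped commutatorElement

namespace Cfsg.Agent.S5027

/-- Let S be a set of abstract root subgroups of G such that every member of S has a rank one partner in S (the graph of rank one pairs on S has no isolated vertex). Then the second centre of G equals its centre. -/
theorem result {G : Type*} [Group G] {S : Set (Subgroup G)} (hS : Cfsg.IsRootSubgroupSet S)
    (hF : ∀ A ∈ S, ¬ Cfsg.IsIsolatedIn (Cfsg.FAdj S) S A) : Subgroup.upperCentralSeries G 2 = Subgroup.center G := by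
  refine le_antisymm (fun z hz => ?_) ?_
  · have hz' : ∀ y : G, ⁅z, y⁆ ∈ Subgroup.center G := by
      intro y
      have := (Subgroup.mem_upperCentralSeries_succ_iff (n := 1)).1 hz y
      simpa [Subgroup.upperCentralSeries_one] using this
    have hle : ∀ A ∈ S, A ≤ Subgroup.centralizer {z} := by
      intro A hA a ha
      by_cases ha1 : a = 1
      · simp [ha1]
      obtain ⟨D, hD, hr⟩ := exists_partner hA (hF A hA)
      have hc : ∀ g : G, ⁅z, a⁆ * g = g * ⁅z, a⁆ := fun g =>
        ((Subgroup.mem_center_iff.1 (hz' a)) g).symm
      have h1 := (eq_of_centralizer_mul_mem hS hA hD (hS.conj_mem A hA z) hr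
        (fun x _ => hc x) (fun x _ => hc x) ha ha1
        (by simpa [commutatorElement_def, mul_assoc] using conj_mem_conjBy z ha)).2
      rw [Subgroup.mem_centralizer_singleton_iff]
      exact (commutatorElement_eq_one_iff_commute.1 h1).symm
    rw [Subgroup.mem_center_iff]
    intro g
    have hg : g ∈ Subgroup.centralizer {z} := by
      have : (⊤ : Subgroup G) ≤ Subgroup.centralizer {z} :=
        hS.generates ▸ iSup₂_le hle
      exact this (Subgroup.mem_top g)
    exact Subgroup.mem_centralizer_singleton_iff.1 hg
  · rw [← Subgroup.upperCentralSeries_one]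
    exact Subgroup.upperCentralSeries_mono G (by norm_num)

end Cfsg.Agent.S5027
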