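import Cfsg.Statements.S5033
import Cfsg.Agent.RootSub.SpecialPerfect
import Cfsg.Agent.RootSub.Class
import Cfsg.Agent.S5032
import Cfsg.Agent.Components.Basic

set_option autoImplicit false
open Cfsg Cfsg.Agent.RootSub
open scoped commutatorElement

namespace Cfsg.Agent.S5033

/-- Quasisimplicity criterion for groups generated by abstract root subgroups. Let S be a set of abstract root subgroups of G with more than one member such that: the graph of rank one pairs on S is connected; no two different members of S have the same set of commuting members of S; if S is degenerate then every member of S has more than three elements; and every rank one pair in S is special. Then for every A ∈ S one has G = G' A with A ∩ G' ≠ 1, and the commutator subgroup G' is quasisimple. Moreover G is perfect if S is non-degenerate, or if some rank one pair A, B in S generates a perfect group. -/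
theorem result {G : Type*} [Group G] {S : Set (Subgroup G)} (hS : Cfsg.IsRootSubgroupSet S) (h2 : ∃ A ∈ S, ∃ B ∈ S, A ≠ B)
    (h1 : Cfsg.IsConnectedFamily (Cfsg.FAdj S) S)
    (h2' : ∀ A ∈ S, ∀ C ∈ S, A ≠ C → Cfsg.centralizingMembers S A ≠ Cfsg.centralizingMembers S C)
    (h3 : Cfsg.IsDegenerateRootSet S → ∀ A ∈ S, 3 < ENat.card A)
    (h4 : ∀ A ∈ S, ∀ B ∈ Cfsg.rankOnePartners S A, Cfsg.IsSpecialRankOnePair A B) :
    (∀ A ∈ S, commutator G ⊔ A = ⊤ ∧ A ⊓ commutator G ≠ ⊥) ∧ Cfsg.IsQuasisimple ↥(commutator G) ∧
    (Cfsg.IsNondegenerateRootSet S → commutator G = ⊤) ∧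
    ((∃ A ∈ S, ∃ B ∈ Cfsg.rankOnePartners S A, Group.IsPerfect ↥(A ⊔ B)) → commutator G = ⊤) := by
  classical
  have hpart : ∀ A ∈ S, ∃ D ∈ S, IsRankOnePair A D := by
    intro A hA
    obtain ⟨X, hX, Y, hY, hne⟩ := h2
    have hex : ∃ Z ∈ S, A ≠ Z := by
      by_cases hAX : A = X
      · exact ⟨Y, hY, hAX ▸ hne⟩
      · exact ⟨X, hX, hAX⟩
    obtain ⟨Z, hZ, hAZ⟩ := hex
    rcases (h1 A hA Z hZ).cases_head with rfl | ⟨C, ⟨-, hC, hr⟩, -⟩
    · exact absurd rfl hAZ
    · exact ⟨C, hC, hr⟩
  have hcl : IsConjClassOfSubgroups S := ((Cfsg.Agent.S5032.result hS h2).1 h1).1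
  have hcS : IsRootSubgroupClass S := ⟨hS, hcl⟩
  have hsp : ∀ A ∈ S, ∀ B ∈ S, IsRankOnePair A B → Spc.SpPair A B := fun A hA B hB hr =>
    ⟨h4 A hA B ⟨hB, hr⟩, hS.commutative A hA, hS.commutative B hB⟩
  have hconj : ∀ A ∈ S, ∀ N : Subgroup G, N.Normal → A ≤ N → N = ⊤ := by
    intro A hA N hN hAN
    rw [eq_top_iff, ← hS.generates]
    refine iSup₂_le fun D hD => ?_
    obtain ⟨g, rfl⟩ := hcl.2 A hA D hD
    intro d hd
    rw [mem_conjBy] at hd
    simpa [mul_assoc] using hN.conj_mem _ (hAN hd) g
  -- either all rank one groups are perfect, or every member occurs in the commutator case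
  have hcase : (∀ A ∈ S, ∀ B ∈ S, IsRankOnePair A B → A ⊔ B ≤ ⁅A ⊔ B, A ⊔ B⁆) ∨
      (∀ A ∈ S, ∃ P ∈ S, RootCommutatorCase S A P) := by
    by_cases hd : IsDegenerateRootSet S
    · exact Or.inl fun A hA B hB hr => Spc.le_commutator_of_large (hsp A hA B hB hr) (h3 hd A hA)
    · right
      simp only [IsDegenerateRootSet, not_forall, not_not] at hd
      obtain ⟨A₀, hA₀, B₀, hB₀, hc⟩ := hd
      exact fun A hA => conj_commPartner hcS ⟨A₀, hA₀, B₀, hB₀, hc⟩ hA
  have hperf : commutator G = ⊤ := by
    obtain ⟨A, hA, -⟩ := h2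
    rcases hcase with h | h
    · obtain ⟨B, hB, hr⟩ := hpart A hA
      exact hconj A hA _ inferInstance (le_sup_left.trans ((h A hA B hB hr).trans
        (Subgroup.commutator_mono le_top le_top)))
    · obtain ⟨P, -, hc⟩ := h A hA
      exact hconj _ hc.1 _ inferInstance (Subgroup.commutator_mono le_top le_top)
  -- proper normal subgroups are central
  have hsimple : ∀ N : Subgroup G, N.Normal → N ≠ ⊤ → N ≤ Subgroup.center G := by
    intro N hN hNtop
    let π := QuotientGroup.mk' N
    have hnle : ∀ A ∈ S, ¬ A ≤ N := fun A hA h => hNtop (hconj A hA N hN h)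
    have hmap : ∀ A : Subgroup G, A.map π = ⊥ ↔ A ≤ N := by
      intro A; rw [Subgroup.map_eq_bot_iff, QuotientGroup.ker_mk']
    -- no rank one pair has commuting images
    have hnoab : ∀ C ∈ S, ∀ D ∈ S, IsRankOnePair C D → C.map π = D.map π → False := by
      intro C hC D hD hr he
      rcases hcase with h | h
      · refine hnle C hC ?_
        rw [← hmap, eq_bot_iff]
        calc C.map π ≤ (C ⊔ D).map π := Subgroup.map_mono le_sup_left
          _ ≤ (⁅C ⊔ D, C ⊔ D⁆).map π := Subgroup.map_mono (h C hC D hD hr)
          _ = ⁅C.map π, C.map π⁆ := by rw [Subgroup.map_commutator, Subgroup.map_sup, ← he, sup_idem]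
          _ = ⊥ := by
            rw [← Subgroup.map_commutator, comm_self hS hC, Subgroup.map_bot]
      · obtain ⟨P, hP, hc⟩ := h C hC
        obtain ⟨E, -, -, hline, hDE, -, -⟩ := exists_commPartner_in_line hS hC hP hD hr hc
        refine hnle _ hDE.1 ?_
        rw [← hmap, Subgroup.map_commutator, ← he, ← Subgroup.map_commutator, hline.1.2.2,
          Subgroup.map_bot]
    have hinf : ∀ A ∈ S, A ⊓ N = ⊥ := by
      intro A hA
      rw [eq_bot_iff]
      rintro a ⟨haA, haN⟩
      rw [Subgroup.mem_bot]
      by_contra ha1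
      rcases hcase with h | h
      · obtain ⟨B, hB, hr⟩ := hpart A hA
        rcases Pair.dichotomy hr (N := N ⊓ (A ⊔ B)) inf_le_right
            (fun x hx n hn => Subgroup.mem_inf.2 ⟨hN.conj_mem n hn.1 x, mul_mem (mul_mem hx hn.2) (inv_mem hx)⟩) with
          h5 | h5
        · refine hnle A hA ?_
          rw [← hmap, eq_bot_iff]
          have himg : (A ⊔ B).map π ≤ A.map π := by
            refine (Subgroup.map_mono h5).trans ?_
            rw [Subgroup.map_sup]
            exact sup_le (le_trans (le_of_eq ((hmap _).2 inf_le_left)) bot_le) le_rfl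
          calc A.map π ≤ (A ⊔ B).map π := Subgroup.map_mono le_sup_left
            _ ≤ (⁅A ⊔ B, A ⊔ B⁆).map π := Subgroup.map_mono (h A hA B hB hr)
            _ ≤ ⁅A.map π, A.map π⁆ := by
              rw [Subgroup.map_commutator]; exact Subgroup.commutator_mono himg himg
            _ = ⊥ := by rw [← Subgroup.map_commutator, comm_self hS hA, Subgroup.map_bot]
        · obtain ⟨b, hb, hb1⟩ := Pair.exists_ne_one (Pair.ne_bot_right hr)
          exact Pair.not_commute hr haA ha1 hb hb1
            (h5 a ⟨haN, Subgroup.mem_sup_left haA⟩ b (Subgroup.mem_sup_right hb))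
      · obtain ⟨P, hP, hc⟩ := h A hA
        refine hnle _ hc.1 fun c hc' => ?_
        obtain ⟨b, hb, rfl⟩ := CommCase.exists_commutator_eq hc haA ha1 hc'
        rw [commutatorElement_def, show a * b * a⁻¹ * b⁻¹ = a * (b * a⁻¹ * b⁻¹) by group]
        exact mul_mem haN (hN.conj_mem _ (inv_mem haN) b)
    intro n hn
    have hfix : ∀ A ∈ S, conjBy A n = A := by
      intro A hA
      have hC : conjBy A n ∈ S := hS.conj_mem A hA n
      have himg : (conjBy A n).map π = A.map π := by
        rw [map_conjBy, show π n = 1 from (QuotientGroup.eq_one_iff n).2 hn, conjBy_one]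
      have key : ∀ X ∈ S, ∀ Y ∈ S, X.map π = Y.map π → ∀ D ∈ S, ⁅D, X⁆ = ⊥ → ⁅D, Y⁆ = ⊥ := by
        intro X hX Y hY he D hD hDX
        rcases hS.pair Y hY D hD with h | h | h
        · rw [Subgroup.commutator_comm]; exact h
        · exfalso
          have hcom : ⁅Y.map π, D.map π⁆ = ⊥ := by
            rw [← he, ← Subgroup.map_commutator, Subgroup.commutator_comm, hDX, Subgroup.map_bot]
          rcases Pair.dichotomy h (N := N ⊓ (Y ⊔ D)) inf_le_right
              (fun x hx m hm => Subgroup.mem_inf.2 ⟨hN.conj_mem m hm.1 x, mul_mem (mul_mem hx hm.2) (inv_mem hx)⟩) with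
            h5 | h5
          · have hle : D.map π ≤ Y.map π := by
              refine (Subgroup.map_mono (le_sup_right.trans h5)).trans ?_
              rw [Subgroup.map_sup]
              exact sup_le (le_trans (le_of_eq ((hmap _).2 inf_le_left)) bot_le) le_rfl
            have hle' : Y.map π ≤ D.map π := by
              rcases Pair.dichotomy (RankOnePair_symm h) (N := N ⊓ (D ⊔ Y)) inf_le_right
                  (fun x hx m hm => Subgroup.mem_inf.2
                    ⟨hN.conj_mem m hm.1 x, mul_mem (mul_mem hx hm.2) (inv_mem hx)⟩) with h6 | h6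
              · refine (Subgroup.map_mono (le_sup_right.trans h6)).trans ?_
                rw [Subgroup.map_sup]
                exact sup_le (le_trans (le_of_eq ((hmap _).2 inf_le_left)) bot_le) le_rfl
              · exfalso
                obtain ⟨y, hy, hy1⟩ := Pair.exists_ne_one (Pair.ne_bot_left h)
                obtain ⟨d, hd, hd1⟩ := Pair.exists_ne_one (Pair.ne_bot_right h)
                have hmem : ⁅y, d⁆ ∈ N ⊓ (D ⊔ Y) := by
                  refine Subgroup.mem_inf.2 ⟨?_, ?_⟩
                  · exact ((hmap ⁅Y, D⁆).1 (by rw [Subgroup.map_commutator, hcom]))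
                      (Subgroup.commutator_mem_commutator hy hd)
                  · rw [commutatorElement_def]
                    exact mul_mem (mul_mem (mul_mem (Subgroup.mem_sup_right hy)
                      (Subgroup.mem_sup_left hd)) (inv_mem (Subgroup.mem_sup_right hy)))
                      (inv_mem (Subgroup.mem_sup_left hd))
                exact Pair.not_commute_commutator h hy hy1 hd hd1
                  (h6 _ hmem d (Subgroup.mem_sup_left hd))
            exact hnoab Y hY D hD h (le_antisymm hle' hle)
          · obtain ⟨y, hy, hy1⟩ := Pair.exists_ne_one (Pair.ne_bot_left h)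
            obtain ⟨d, hd, hd1⟩ := Pair.exists_ne_one (Pair.ne_bot_right h)
            have hmem : ⁅y, d⁆ ∈ N ⊓ (Y ⊔ D) := by
              refine Subgroup.mem_inf.2 ⟨?_, ?_⟩
              · exact ((hmap ⁅Y, D⁆).1 (by rw [Subgroup.map_commutator, hcom]))
                  (Subgroup.commutator_mem_commutator hy hd)
              · rw [commutatorElement_def]
                exact mul_mem (mul_mem (mul_mem (Subgroup.mem_sup_left hy)
                  (Subgroup.mem_sup_right hd)) (inv_mem (Subgroup.mem_sup_left hy)))
                  (inv_mem (Subgroup.mem_sup_right hd))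
            exact Pair.not_commute_commutator h hy hy1 hd hd1
              (h5 _ hmem d (Subgroup.mem_sup_right hd))
        · exfalso
          refine hnle _ h.1 ?_
          rw [← hmap, Subgroup.map_commutator, ← he, ← Subgroup.map_commutator,
            Subgroup.commutator_comm, hDX, Subgroup.map_bot]
      by_contra hne
      apply h2' A hA _ hC (Ne.symm hne)
      ext D
      simp only [centralizingMembers, Set.mem_ofPred_eq]
      refine and_congr_right fun hD => ?_
      rw [← Subgroup.commutator_eq_bot_iff_le_centralizer, ← Subgroup.commutator_eq_bot_iff_le_centralizer]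
      exact ⟨key A hA _ hC himg.symm D hD, key _ hC A hA himg D hD⟩
    -- so `n` centralizes every member
    have hcen : ∀ A ∈ S, A ≤ Subgroup.centralizer {n} := by
      intro A hA a ha
      rw [Subgroup.mem_centralizer_singleton_iff]
      have h5 : ⁅n, a⁆ ∈ A ⊓ N := by
        refine Subgroup.mem_inf.2 ⟨?_, ?_⟩
        · rw [commutatorElement_def]
          refine mul_mem ?_ (inv_mem ha)
          have := conj_mem_conjBy n ha
          rwa [hfix A hA] at this
        · rw [commutatorElement_def, show n * a * n⁻¹ * a⁻¹ = n * (a * n⁻¹ * a⁻¹) by group]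
          exact mul_mem hn (hN.conj_mem _ (inv_mem hn) a)
      rw [hinf A hA, Subgroup.mem_bot, commutatorElement_eq_one_iff_mul_comm] at h5
      exact h5.symm
    have htop : (⊤ : Subgroup G) ≤ Subgroup.centralizer {n} := by
      rw [← hS.generates]; exact iSup₂_le hcen
    exact Subgroup.mem_center_iff.2 fun g =>
      Subgroup.mem_centralizer_singleton_iff.1 (htop (Subgroup.mem_top g))
  have hqs : IsQuasisimple G := by
    haveI : Group.IsPerfect G := Group.isPerfect_def.2 hperf
    haveI : Nontrivial G := by
      obtain ⟨A, hA, -⟩ := h2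
      obtain ⟨a, -, ha1⟩ := Pair.exists_ne_one (hS.ne_bot A hA)
      exact ⟨a, 1, ha1⟩
    refine Components.quasisimple_of_forall_normal fun N hN => ?_
    by_cases hNtop : N = ⊤
    · exact Or.inl hNtop
    · exact Or.inr (hsimple N hN hNtop)
  refine ⟨fun A hA => ⟨by rw [hperf]; exact top_sup_eq _, ?_⟩, ?_, fun _ => hperf, fun _ => hperf⟩
  · rw [hperf, inf_top_eq]; exact hS.ne_bot A hA
  · rw [hperf]
    exact Components.quasisimple_of_mulEquiv Subgroup.topEquiv.symm hqs

end Cfsg.Agent.S5033
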