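import Cfsg.Statements.S5035
import Cfsg.Agent.RootSub.Components

set_option autoImplicit false
open Cfsg Cfsg.Agent.RootSub
open scoped commutatorElement

namespace Cfsg.Agent.S5035

/-- Let S be a set of abstract root subgroups of G whose graph of rank one pairs is connected, and f a homomorphism from G onto a group H. Then either the images of the members of S form a set of abstract root subgroups of H whose graph of rank one pairs is again connected, or H equals the image of a member of S. -/
theorem result {G H : Type*} [Group G] [Group H] {S : Set (Subgroup G)} (hS : Cfsg.IsRootSubgroupSet S)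
    (hc : Cfsg.IsConnectedFamily (Cfsg.FAdj S) S) (f : G →* H) (hf : Function.Surjective f) :
    (Cfsg.IsRootSubgroupSet ((fun A : Subgroup G => A.map f) '' S) ∧
      Cfsg.IsConnectedFamily (Cfsg.FAdj ((fun A : Subgroup G => A.map f) '' S)) ((fun A : Subgroup G => A.map f) '' S)) ∨
    ∃ A ∈ S, A.map f = ⊤ := by
  by_cases hker : ∃ A ∈ S, ∃ a ∈ A, a ≠ 1 ∧ f a = 1
  · -- everything collapses
    right
    obtain ⟨A, hA, a, ha, ha1, hfa⟩ := hker
    refine ⟨A, hA, ?_⟩
    have hall : ∀ P, Relation.ReflTransGen (FAdj S) A P →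
        (∃ p ∈ P, p ≠ 1 ∧ f p = 1) ∧ P.map f = A.map f := by
      intro P hP
      induction hP with
      | refl => exact ⟨⟨a, ha, ha1, hfa⟩, rfl⟩
      | tail hAP hPQ ih =>
        obtain ⟨⟨p, hp, hp1, hfp⟩, hPA⟩ := ih
        obtain ⟨-, -, hr⟩ := id hPQ
        obtain ⟨q, hq, hq1, he⟩ := hr.cond_left p hp hp1
        obtain ⟨x, hx⟩ := conjugate_of_partner hr
        refine ⟨⟨x * p * x⁻¹, hx ▸ conj_mem_conjBy x hp, by simpa using hp1, by simp [hfp]⟩, ?_⟩
        have h1 := congrArg (Subgroup.map f) he
        rw [map_conjBy, map_conjBy, map_inv, map_inv, hfp, inv_one, conjBy_one, conjBy_eq_iff,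
          inv_inv, conjBy_mem_self (Subgroup.mem_map_of_mem f hq)] at h1
        exact h1.symm.trans hPA
    refine top_le_iff.1 ?_
    rw [← Subgroup.map_top_of_surjective f hf, ← hS.generates]
    simp only [Subgroup.map_iSup]
    exact iSup₂_le fun P hP => (hall P (hc A hA P hP)).2.le
  · left
    push Not at hker
    have hne1 : ∀ A ∈ S, ∀ a ∈ A, a ≠ 1 → f a ≠ 1 := fun A hA a ha ha1 => hker A hA a ha ha1
    have hpair : ∀ A ∈ S, ∀ B ∈ S, IsRankOnePair A B → A.map f = B.map f ∨
        IsRankOnePair (A.map f) (B.map f) := by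
      intro A hA B hB hr
      by_cases he : A.map f = B.map f
      · exact Or.inl he
      refine Or.inr ⟨he, ?_, ?_, ?_, ?_⟩
      · have := hr.nilpotent_left
        exact Group.nilpotent_of_surjective (f.subgroupMap A) (f.subgroupMap_surjective A)
      · have := hr.nilpotent_right
        exact Group.nilpotent_of_surjective (f.subgroupMap B) (f.subgroupMap_surjective B)
      · rintro _ ⟨a, ha, rfl⟩ hfa
        obtain ⟨b, hb, hb1, hab⟩ := hr.cond_left a ha (fun h => hfa (by rw [h, map_one]))
        refine ⟨f b, Subgroup.mem_map_of_mem f hb, hne1 B hB b hb hb1, ?_⟩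
        rw [← map_inv, ← map_inv, ← map_conjBy, ← map_conjBy, hab]
      · rintro _ ⟨a, ha, rfl⟩ hfa
        obtain ⟨b, hb, hb1, hab⟩ := hr.cond_right a ha (fun h => hfa (by rw [h, map_one]))
        refine ⟨f b, Subgroup.mem_map_of_mem f hb, hne1 A hA b hb hb1, ?_⟩
        rw [← map_inv, ← map_inv, ← map_conjBy, ← map_conjBy, hab]
    have himg : ∀ A ∈ S, A.map f ∈ (fun A : Subgroup G => A.map f) '' S :=
      fun A hA => ⟨A, hA, rfl⟩
    have habel : ∀ A ∈ S, ⁅A.map f, A.map f⁆ = ⊥ := fun A hA => by
      rw [← Subgroup.map_commutator, comm_self hS hA, Subgroup.map_bot]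
    refine ⟨⟨?_, ?_, ?_, ?_, ?_⟩, ?_⟩
    · rintro _ ⟨A, hA, rfl⟩
      exact Subgroup.commutator_self_eq_bot_iff.1 (habel A hA)
    · rintro _ ⟨A, hA, rfl⟩ h0
      obtain ⟨a, ha, ha1⟩ := exists_ne_one_of_mem hS hA
      have := Subgroup.mem_map_of_mem f ha
      rw [show A.map f = ⊥ from h0] at this
      exact hne1 A hA a ha ha1 (Subgroup.mem_bot.1 this)
    · rw [iSup_image, ← Subgroup.map_top_of_surjective f hf, ← hS.generates]
      simp only [Subgroup.map_iSup]
    · rintro _ ⟨A, hA, rfl⟩ g
      obtain ⟨g, rfl⟩ := hf g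
      exact ⟨_, hS.conj_mem A hA g, map_conjBy ..⟩
    · rintro _ ⟨A, hA, rfl⟩ _ ⟨B, hB, rfl⟩
      rcases hS.pair A hA B hB with h | h | ⟨h1, h2, h3, h4⟩
      · left; rw [← Subgroup.map_commutator, h, Subgroup.map_bot]
      · rcases hpair A hA B hB h with h' | h'
        · left
          show ⁅A.map f, B.map f⁆ = ⊥
          rw [← h']; exact habel A hA
        · exact Or.inr (Or.inl h')
      · refine Or.inr (Or.inr ⟨?_, ?_, ?_, ?_⟩)
        · exact ⟨_, h1, Subgroup.map_commutator ..⟩
        · intro c hc x hx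
          rw [← Subgroup.map_commutator] at hc
          rw [← Subgroup.map_sup] at hx
          obtain ⟨c, hc, rfl⟩ := hc
          obtain ⟨x, hx, rfl⟩ := hx
          rw [← map_mul, ← map_mul, h2 c hc x hx]
        · rintro _ ⟨a, ha, rfl⟩ hfa
          rw [← Subgroup.map_commutator, ← h3 a ha (fun h => hfa (by rw [h, map_one])),
            MonoidHom.map_closure, Set.image_image, Subgroup.coe_map, Set.image_image]
          congr 1
          exact Set.image_congr fun x _ => by simp
        · rintro _ ⟨b, hb, rfl⟩ hfb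
          rw [← Subgroup.map_commutator, ← h4 b hb (fun h => hfb (by rw [h, map_one])),
            MonoidHom.map_closure, Set.image_image, Subgroup.coe_map, Set.image_image]
          congr 1
          exact Set.image_congr fun x _ => by simp
    · rintro _ ⟨A, hA, rfl⟩ _ ⟨B, hB, rfl⟩
      induction hc A hA B hB with
      | refl => exact .refl
      | tail hAP hPQ ih =>
        rcases hpair _ hPQ.1 _ hPQ.2.1 hPQ.2.2 with h | h
        · have := ih hPQ.1; simp only at this ⊢; rw [← h]; exact this
        · exact (ih hPQ.1).tail ⟨himg _ hPQ.1, himg _ hPQ.2.1, h⟩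

end Cfsg.Agent.S5035
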