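import Cfsg.Statements.S5037
import Cfsg.Agent.RootSub.Class

set_option autoImplicit false
open Cfsg Cfsg.Agent.RootSub
open scoped commutatorElement

namespace Cfsg.Agent.S5037

/-- Let S be a class of abstract root subgroups of G that is either degenerate or non-degenerate (so either the commutator case never occurs, or all three cases occur), and A ≠ C members of S. If every member of S commuting with A commutes with C, then A and C have the same commuting members of S; and if every rank one partner of A is a rank one partner of C, then A and C commute and have the same rank one partners. -/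
theorem result {G : Type*} [Group G] {S : Set (Subgroup G)} (hS : Cfsg.IsRootSubgroupClass S)
    (hdn : Cfsg.IsDegenerateRootSet S ∨ Cfsg.IsNondegenerateRootSet S)
    {A C : Subgroup G} (hA : A ∈ S) (hC : C ∈ S) (hAC : A ≠ C) :
    (Cfsg.centralizingMembers S A ⊆ Cfsg.centralizingMembers S C →
      Cfsg.centralizingMembers S A = Cfsg.centralizingMembers S C) ∧
    (Cfsg.rankOnePartners S A ⊆ Cfsg.rankOnePartners S C →
      ⁅A, C⁆ = ⊥ ∧ Cfsg.rankOnePartners S A = Cfsg.rankOnePartners S C) := by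
  obtain ⟨hSs, hconj⟩ := hS
  have hcl : Cfsg.IsRootSubgroupClass S := ⟨hSs, hconj⟩
  -- some rank one pair exists
  have hex : ∃ A ∈ S, ∃ B ∈ S, IsRankOnePair A B := by
    rcases hdn with hd | hd
    swap
    · exact hd.2.1
    by_contra hh
    push Not at hh
    refine hAC ?_
    obtain ⟨g, hg⟩ := hconj.2 A hA C hC
    rw [hg, eq_comm]
    refine conjBy_of_commute fun a ha => ?_
    have hall : (⨆ E ∈ S, E) ≤ Subgroup.centralizer {a} := iSup₂_le fun E hE x hx => by
      rw [Subgroup.mem_centralizer_singleton_iff]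
      rcases hSs.pair A hA E hE with h | h | h
      · exact (commutator_eq_bot_iff_forall.1 h a ha x hx).symm
      · exact absurd h (hh A hA E hE)
      · exact absurd h (hd A hA E hE)
    exact Subgroup.mem_centralizer_singleton_iff.1 (hall (hSs.generates.symm ▸ Subgroup.mem_top g))
  have hpart : ∀ X ∈ S, ∃ D ∈ S, IsRankOnePair X D := fun X hX => conj_partner hcl hex hX
  -- the key symmetry statement
  have key : ∀ R : Subgroup G → Subgroup G → Prop,
      (∀ X ∈ S, ∀ Y ∈ S, R X Y → ⁅X, Y⁆ = ⊥) → (∀ X Y Z, R X Y → R Y Z → R X Z) →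
      (∀ X Y (g : G), R X Y → R (conjBy X g) (conjBy Y g)) →
      R A C → ∀ Q ∈ S, IsRankOnePair A Q → IsRankOnePair C Q → R C A := by
    intro R hperp htrans hequiv hR Q hQ hrA hrC
    have hAC' := commutator_eq_bot_iff_forall.1 (hperp A hA C hC hR)
    have get : ∀ q ∈ Q, q ≠ 1 → ∀ a, conjBy Q a⁻¹ = conjBy A q⁻¹ → ∀ c,
        conjBy Q c⁻¹ = conjBy C q⁻¹ → R (conjBy Q (c * a⁻¹)) Q := by
      intro q _ _ a hae c hce
      have h := hequiv _ _ c (hequiv A C q⁻¹ hR)
      rw [← hae, ← hce, conjBy_conjBy, conjBy_conjBy, mul_inv_cancel, conjBy_one] at h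
      exact h
    obtain ⟨q, hq, hq1⟩ := exists_ne_one_of_mem hSs hQ
    obtain ⟨a, ha, ha1, hae⟩ := hrA.cond_right q hq hq1
    obtain ⟨c, hc, hc1, hce⟩ := hrC.cond_right q hq hq1
    obtain ⟨q', hq', hq'1, hae'⟩ := hrA.cond_left a⁻¹ (inv_mem ha) (by simpa using ha1)
    obtain ⟨c', hc', hc'1, hce'⟩ := hrC.cond_right q' hq' hq'1
    have h1 := get q hq hq1 a hae c hce
    have h2 := get q' hq' hq'1 a⁻¹ hae'.symm c' hce'
    rw [inv_inv] at h2
    have h3 := htrans _ _ _ (hequiv _ _ (c' * a) h1) h2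
    rw [conjBy_conjBy] at h3
    have hcomm : (c' * a) * (c * a⁻¹) = c' * c := by
      calc (c' * a) * (c * a⁻¹) = c' * (a * c) * a⁻¹ := by group
        _ = c' * (c * a) * a⁻¹ := by rw [hAC' a ha c hc]
        _ = c' * c := by group
    rw [hcomm] at h3
    have hcc : c' * c = 1 := by
      have hperp' := hperp _ (hSs.conj_mem Q hQ _) Q hQ h3
      exact Pair.eq_one_of_normalizes hrC (mul_mem hc' hc) (Pair.eq_of_commute hrC
        (Pair.unip_invariant (Pair.right_mem_unipotents hrC) (Subgroup.mem_sup_left (mul_mem hc' hc)))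
        (Pair.right_mem_unipotents hrC) hperp')
    have hinv : c' * a = (c * a⁻¹)⁻¹ := by
      rw [mul_inv_rev, inv_inv, eq_inv_of_mul_eq_one_left hcc]
      exact (hAC' a ha c⁻¹ (inv_mem hc)).symm
    rw [hinv] at h2
    -- conjugate back
    have h4 := hequiv _ _ (c * a⁻¹) h2
    rw [conjBy_conjBy, mul_inv_cancel, conjBy_one] at h4
    have h5 := hequiv _ _ q (hequiv _ _ c⁻¹ h4)
    simp only [conjBy_conjBy] at h5
    have e1 : conjBy Q (q * c⁻¹) = C := by
      rw [← conjBy_conjBy, hce, conjBy_conjBy, mul_inv_cancel, conjBy_one]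
    have e2 : conjBy Q (q * (c⁻¹ * (c * a⁻¹))) = A := by
      rw [show q * (c⁻¹ * (c * a⁻¹)) = q * a⁻¹ by group, ← conjBy_conjBy, hae, conjBy_conjBy,
        mul_inv_cancel, conjBy_one]
    rwa [e1, e2] at h5
  refine ⟨fun hsub => ?_, fun hsub => ?_⟩
  · let R : Subgroup G → Subgroup G → Prop := fun X Y =>
      ∀ E ∈ S, ⁅E, X⁆ = ⊥ → ⁅E, Y⁆ = ⊥
    have conv : ∀ X E : Subgroup G, E ∈ Cfsg.centralizingMembers S X ↔ E ∈ S ∧ ⁅E, X⁆ = ⊥ :=
      fun X E => and_congr Iff.rfl (Subgroup.commutator_eq_bot_iff_le_centralizer).symm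
    have hR : R A C := fun E hE h => ((conv C E).1 (hsub ((conv A E).2 ⟨hE, h⟩))).2
    obtain ⟨Q, hQ, hrC⟩ := hpart C hC
    have hAC0 : ⁅A, C⁆ = ⊥ := hR A hA (comm_self hSs hA)
    have hrA : IsRankOnePair A Q := by
      rcases hSs.pair A hA Q hQ with h | h | h
      · exact absurd (hR Q hQ (by rwa [Subgroup.commutator_comm])) (by
          rw [Subgroup.commutator_comm]; exact Pair.commutator_ne_bot hrC)
      · exact h
      · exfalso
        set L := ⁅A, Q⁆
        have hLA : ⁅L, A⁆ = ⊥ := commutator_eq_bot_iff_forall.2 fun l hl x hx =>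
          CommCase.comm_left h hl hx
        have hLC := commutator_eq_bot_iff_forall.1 (hR L h.1 hLA)
        obtain ⟨l, hl, hl1⟩ := exists_ne_one_of_mem hSs h.1
        obtain ⟨q, hq, hq1⟩ := exists_ne_one_of_mem hSs hQ
        obtain ⟨a', ha', he⟩ := CommCase.exists_conj_mem (CommCase.symm h) hq hq1
          (c := l) (by rw [Subgroup.commutator_comm]; exact hl)
        refine hl1 (eq_of_centralizer_mul_mem hSs hQ hC (hSs.conj_mem Q hQ a')
          (RankOnePair_symm hrC) (fun x hx => CommCase.comm_right h hl hx)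
          (fun x hx => hLC l hl x hx) hq hq1 ?_).2
        rw [CommCase.comm_right h hl hq, he]
        exact conj_mem_conjBy a' hq
    have hback : R C A := key R (fun X hX Y hY h => h X hX (comm_self hSs hX))
      (fun X Y Z h h' E hE he => h' E hE (h E hE he))
      (fun X Y g h E hE he => by
        have h0 := congrArg (fun H => conjBy H g⁻¹) he
        simp only [conjBy_commutator, conjBy_conjBy, inv_mul_cancel, conjBy_one, conjBy_bot] at h0
        have := congrArg (fun H => conjBy H g) (h _ (hSs.conj_mem E hE _) h0)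
        simp only [conjBy_commutator, conjBy_conjBy, mul_inv_cancel, conjBy_one, conjBy_bot] at this
        exact this) hR Q hQ hrA hrC
    refine Set.Subset.antisymm hsub fun E hE => ?_
    obtain ⟨h1, h2⟩ := (conv C E).1 hE
    exact (conv A E).2 ⟨h1, hback E h1 h2⟩
  · let R : Subgroup G → Subgroup G → Prop := fun X Y =>
      ∀ E ∈ S, IsRankOnePair X E → IsRankOnePair Y E
    have hR : R A C := fun E hE h => (hsub ⟨hE, h⟩).2
    have hperp : ∀ X ∈ S, ∀ Y ∈ S, R X Y → ⁅X, Y⁆ = ⊥ := by
      intro X hX Y hY h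
      rcases hSs.pair X hX Y hY with h0 | h0 | h0
      · exact h0
      · exact absurd (h Y hY h0) fun hh => hh.ne rfl
      exfalso
      set K := ⁅X, Y⁆ with hK
      obtain ⟨D₁, hD₁, hr₁⟩ := hpart X hX
      obtain ⟨D₀, hD₀, hr₀⟩ := hpart K h0.1
      have hKX : ⁅K, X⁆ = ⊥ := commutator_eq_bot_iff_forall.2 fun k hk x hx =>
        CommCase.comm_left h0 hk hx
      have hcovX : ∀ n ∈ K ⊔ X, n ≠ 1 → ∃ M ∈ S, M ≤ K ⊔ X ∧ n ∈ M := by
        rw [sup_comm]; exact CommCase.line_cover h0 hSs hX
      -- a partner of `K` that is also a partner of `X`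
      obtain ⟨D, hD, hDK, hDX⟩ : ∃ D ∈ S, IsRankOnePair K D ∧ IsRankOnePair X D := by
        rcases hSs.pair X hX D₀ hD₀ with h1 | h1 | h1
        · exact absurd h1 (line_no_commute hSs h0.1 hD₀ hX hr₀ hKX hcovX)
        · exact ⟨D₀, hD₀, hr₀, h1⟩
        obtain ⟨y, hy, hy1⟩ := exists_ne_one_of_mem hSs hY
        have hKfix : conjBy K y = K :=
          conjBy_of_commute fun k hk => (CommCase.comm_right h0 hk hy).symm
        have hrD : IsRankOnePair K (conjBy D₀ y) := by
          have := Pair.conj hr₀ y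
          rwa [hKfix] at this
        refine ⟨_, hSs.conj_mem D₀ hD₀ y, hrD, ?_⟩
        rcases hSs.pair X hX _ (hSs.conj_mem D₀ hD₀ y) with h2 | h2 | h2
        · exact absurd h2 (line_no_commute hSs h0.1 (hSs.conj_mem D₀ hD₀ y) hX hrD hKX hcovX)
        · exact h2
        exfalso
        have hc2 := CommCase.conj hSs h2 y⁻¹
        rw [conjBy_conjBy _ y, inv_mul_cancel, conjBy_one] at hc2
        have hm1 : X ∈ membersIn S (X ⊔ K) := ⟨hX, le_sup_left⟩
        have hm2 : conjBy X y⁻¹ ∈ membersIn S (X ⊔ K) :=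
          ⟨hSs.conj_mem X hX _, CommCase.conjBy_le_line h0 (inv_mem hy)⟩
        have hneX : X ≠ conjBy X y⁻¹ := by
          intro he
          have h3 := CommCase.sup_conj_eq_line h0 (inv_mem hy) (by simpa using hy1)
          rw [← he, sup_idem] at h3
          obtain ⟨k, hk, hk1⟩ := exists_ne_one_of_mem hSs h0.1
          exact CommCase.left_ne_commutator hSs h0
            (eq_of_inter hSs hX hD₁ h0.1 hr₁ (by rw [h3]; exact Subgroup.mem_sup_right hk)
              hk hk1).symm
        have hsup := CommCase.line_sup_eq hSs hX hY hD₁ hr₁ h0 hm1 hm2 hneX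
        obtain ⟨d, hd, hd1⟩ := exists_ne_one_of_mem hSs hD₀
        have hXX : ⁅X, conjBy X y⁻¹⁆ = ⊥ := commutator_eq_bot_iff_forall.2 fun u hu v hv =>
          CommCase.comm_line hSs hX h0 u (Subgroup.mem_sup_left hu) v (hm2.2 hv)
        have hnil := (triangle hSs hX hD₀ (hSs.conj_mem X hX y⁻¹) h1 (CommCase.symm hc2) hXX hd
          hd1).2.2.2.2
        refine Pair.not_nilpotent hr₀ (R := X ⊔ D₀ ⊔ conjBy X y⁻¹) ?_
          (le_sup_right.trans le_sup_left) hnil
        calc K ≤ X ⊔ K := le_sup_right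
          _ = X ⊔ conjBy X y⁻¹ := hsup.symm
          _ ≤ _ := sup_le_sup_right le_sup_left _
      have hDY : IsRankOnePair Y D := h D hD hDX
      -- the line through `Y` and `K`
      have h0' := CommCase.symm h0
      obtain ⟨E, hE, hne, -, hDE, -, -⟩ := exists_commPartner_in_line hSs hY hX hD hDY h0'
      have hYX : ⁅Y, X⁆ = K := by rw [hK, Subgroup.commutator_comm]
      rw [(CommCase.line_of_commutator hSs hY hX hD hDY h0').1] at hE
      rcases hE with ⟨x, hx, rfl⟩ | rfl
      · have hc := CommCase.conj hSs hDE x⁻¹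
        rw [conjBy_conjBy _ x, inv_mul_cancel, conjBy_one] at hc
        have hXD : IsRankOnePair X (conjBy D x⁻¹) := by
          have := Pair.conj hDX x⁻¹
          rwa [conjBy_mem_self (inv_mem hx)] at this
        exact not_rankOne_of_commCase hSs (hSs.conj_mem D hD _) hY hc
          (RankOnePair_symm (h _ (hSs.conj_mem D hD _) hXD))
      · rw [hYX] at hDE
        exact not_rankOne_of_commCase hSs hD h0.1 hDE (RankOnePair_symm hDK)
    refine ⟨hperp A hA C hC hR, ?_⟩
    obtain ⟨Q, hQ, hrA⟩ := hpart A hA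
    have hback : R C A := key R hperp (fun X Y Z h h' E hE he => h' E hE (h E hE he))
      (fun X Y g h E hE he => by
        have h0 := Pair.conj he g⁻¹
        rw [conjBy_conjBy, inv_mul_cancel, conjBy_one] at h0
        have := Pair.conj (h _ (hSs.conj_mem E hE _) h0) g
        rwa [conjBy_conjBy E, mul_inv_cancel, conjBy_one] at this) hR Q hQ hrA (hR Q hQ hrA)
    exact Set.Subset.antisymm hsub fun E hE => ⟨hE.1, hback E hE.1 hE.2⟩

end Cfsg.Agent.S5037
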