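import Cfsg.Statements.S5038
import Cfsg.Agent.RootSub.Class

set_option autoImplicit false
open Cfsg Cfsg.Agent.RootSub
open scoped commutatorElement

namespace Cfsg.Agent.S5038

/-- Let S be a set of abstract root subgroups of G in which every member has a rank one partner, A ∈ S and B a line partner of A. Then the subgroup generated by the members of S normalizing AB permutes the members of S inside AB doubly transitively by conjugation. -/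
theorem result {G : Type*} [Group G] {S : Set (Subgroup G)} (hS : Cfsg.IsRootSubgroupSet S)
    (hF : ∀ A ∈ S, ¬ Cfsg.IsIsolatedIn (Cfsg.FAdj S) S A) {A B : Subgroup G} (hA : A ∈ S) (hB : B ∈ Cfsg.linePartners S A) :
    ∀ C₁ ∈ Cfsg.membersIn S (A ⊔ B), ∀ C₂ ∈ Cfsg.membersIn S (A ⊔ B), ∀ D₁ ∈ Cfsg.membersIn S (A ⊔ B),
      ∀ D₂ ∈ Cfsg.membersIn S (A ⊔ B), C₁ ≠ C₂ → D₁ ≠ D₂ →
        ∃ x ∈ ⨆ E ∈ Cfsg.normalizingMembers S (A ⊔ B), E, Cfsg.conjBy C₁ x = D₁ ∧ Cfsg.conjBy C₂ x = D₂ := by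
  obtain ⟨D, hD, hr⟩ := exists_partner hA (hF A hA)
  obtain ⟨P, hP, hc, hs⟩ := exists_commutator_line hS hA hD hr hB
  rw [hs]
  set C := ⁅A, P⁆ with hCdef
  obtain ⟨hmem, -, hlC⟩ := CommCase.line_of_commutator hS hA hP hD hr hc
  obtain ⟨D₀, hD₀, hr₀⟩ := exists_partner hc.1 (hF _ hc.1)
  obtain ⟨P₂, hP₂, hc₂, hs₂⟩ := exists_commutator_line hS hc.1 hD₀ hr₀ hlC
  rw [sup_comm] at hs₂
  obtain ⟨hmem₂, -, -⟩ := CommCase.line_of_commutator hS hc.1 hP₂ hD₀ hr₀ hc₂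
  set C₂ := ⁅C, P₂⁆ with hC₂def
  rw [← hs₂] at hmem₂
  have hN : ∀ p ∈ P, p ∈ ⨆ E ∈ Cfsg.normalizingMembers S (A ⊔ C), E := fun p hp =>
    (le_iSup₂ (f := fun (E : Subgroup G) (_ : E ∈ Cfsg.normalizingMembers S (A ⊔ C)) => E) P
      ⟨hP, fun x hx => conjBy_eq_self_iff.1 (CommCase.conjBy_line hc hx)⟩) hp
  have hN₂ : ∀ p ∈ P₂, p ∈ ⨆ E ∈ Cfsg.normalizingMembers S (A ⊔ C), E := fun p hp =>
    (le_iSup₂ (f := fun (E : Subgroup G) (_ : E ∈ Cfsg.normalizingMembers S (A ⊔ C)) => E) P₂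
      ⟨hP₂, fun x hx => conjBy_eq_self_iff.1 (by rw [hs₂]; exact CommCase.conjBy_line hc₂ hx)⟩) hp
  set H := ⨆ E ∈ Cfsg.normalizingMembers S (A ⊔ C), E
  set T := membersIn S (A ⊔ C) with hT
  have hfix : ∀ p ∈ P, conjBy C p = C := fun p hp =>
    conjBy_of_commute fun c hc' => (CommCase.comm_right hc hc' hp).symm
  have hfix₂ : ∀ p ∈ P₂, conjBy C₂ p = C₂ := fun p hp =>
    conjBy_of_commute fun c hc' => (CommCase.comm_right hc₂ hc' hp).symm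
  have hne₂ : C ≠ C₂ := CommCase.left_ne_commutator hS hc₂
  -- transitivity of the two unipotent members
  have tP : ∀ M ∈ T, M ≠ C → ∀ N ∈ T, N ≠ C → ∃ x ∈ P, conjBy M x = N := by
    intro M hM hMne N hN hNne
    rw [hmem] at hM hN
    obtain ⟨p, hp, rfl⟩ := hM.resolve_right hMne
    obtain ⟨p', hp', rfl⟩ := hN.resolve_right hNne
    exact ⟨p' * p⁻¹, mul_mem hp' (inv_mem hp), by rw [conjBy_conjBy, inv_mul_cancel_right]⟩
  have tP₂ : ∀ M ∈ T, M ≠ C₂ → ∀ N ∈ T, N ≠ C₂ → ∃ x ∈ P₂, conjBy M x = N := by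
    intro M hM hMne N hN hNne
    rw [hmem₂] at hM hN
    obtain ⟨p, hp, rfl⟩ := hM.resolve_right hMne
    obtain ⟨p', hp', rfl⟩ := hN.resolve_right hNne
    exact ⟨p' * p⁻¹, mul_mem hp' (inv_mem hp), by rw [conjBy_conjBy, inv_mul_cancel_right]⟩
  have hCT : C ∈ T := ⟨hc.1, le_sup_right⟩
  have hC₂T : C₂ ∈ T := ⟨hc₂.1, by rw [hs₂]; exact le_sup_right⟩
  have hAT : A ∈ T := ⟨hA, le_sup_left⟩
  have hAC : A ≠ C := CommCase.left_ne_commutator hS hc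
  have hTx : ∀ x ∈ H, ∀ M ∈ T, conjBy M x ∈ T := by
    intro x hx M hM
    have hn : H ≤ Subgroup.normalizer ((A ⊔ C : Subgroup G) : Set G) := iSup₂_le fun E hE => hE.2
    refine ⟨hS.conj_mem M hM.1 x, ?_⟩
    rw [← conjBy_eq_self_iff.2 (hn hx)]
    exact conjBy_le_iff.2 hM.2
  -- every ordered pair is carried to `(C, A)`
  have key : ∀ M ∈ T, ∀ N ∈ T, M ≠ N → ∃ x ∈ H, conjBy M x = C ∧ conjBy N x = A := by
    have key2 : ∀ M ∈ T, ∀ N ∈ T, M ≠ N → M ≠ C₂ → ∃ x ∈ H, conjBy M x = C ∧ conjBy N x = A := by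
      intro M hM N hN' hMN hMne
      obtain ⟨y, hy, rfl⟩ := tP₂ C hCT hne₂ M hM hMne
      have hyH : y⁻¹ ∈ H := inv_mem (hN₂ y hy)
      have hNy : conjBy N y⁻¹ ≠ C := fun h => hMN (by
        rw [conjBy_eq_iff, inv_inv] at h; exact h.symm)
      obtain ⟨z, hz, hze⟩ := tP _ (hTx _ hyH N hN') hNy A hAT hAC
      refine ⟨z * y⁻¹, mul_mem (hN z hz) hyH, ?_, ?_⟩
      · rw [conjBy_conjBy, inv_mul_cancel_right, hfix z hz]
      · rw [← hze, conjBy_conjBy]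
    intro M hM N hN' hMN
    by_cases hMne : M = C₂
    swap
    · exact key2 M hM N hN' hMN hMne
    -- first move `M` away from `C₂`
    obtain ⟨p, hp, hp1⟩ := exists_ne_one_of_mem hS hP
    subst hMne
    have hne3 : conjBy C₂ p ≠ C₂ := by
      intro h
      rw [hmem] at hC₂T
      obtain ⟨q, hq, hqe⟩ := hC₂T.resolve_right hne₂.symm
      rw [← hqe] at h
      simp only [conjBy_conjBy] at h
      have h1 : conjBy A (q⁻¹ * (p * q)) = A := by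
        rw [← conjBy_conjBy, h, conjBy_conjBy, inv_mul_cancel, conjBy_one]
      have hpq : q⁻¹ * (p * q) = p := by
        rw [comm_of_mem hS hP hp hq, inv_mul_cancel_left]
      rw [hpq] at h1
      have h2 := CommCase.sup_conj_eq_line hc hp hp1
      rw [h1, sup_idem] at h2
      obtain ⟨c, hc', hc1⟩ := exists_ne_one_of_mem hS hc.1
      exact hAC (eq_of_inter hS hA hD hc.1 hr (by rw [h2]; exact Subgroup.mem_sup_right hc')
        hc' hc1).symm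
    obtain ⟨x, hx, h1, h2⟩ := key2 _ (hTx p (hN p hp) C₂ hM) _ (hTx p (hN p hp) N hN')
      (fun h => hMN (conjBy_inj h)) hne3
    exact ⟨x * p, mul_mem hx (hN p hp), by rwa [← conjBy_conjBy], by rwa [← conjBy_conjBy]⟩
  intro C₁ h1 E₂ h2 D₁ h3 D₂ h4 hne hne'
  obtain ⟨x, hx, hx1, hx2⟩ := key C₁ h1 E₂ h2 hne
  obtain ⟨y, hy, hy1, hy2⟩ := key D₁ h3 D₂ h4 hne'
  refine ⟨y⁻¹ * x, mul_mem (inv_mem hy) hx, ?_, ?_⟩
  · rw [← conjBy_conjBy, hx1, ← hy1, conjBy_conjBy, inv_mul_cancel, conjBy_one]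
  · rw [← conjBy_conjBy, hx2, ← hy2, conjBy_conjBy, inv_mul_cancel, conjBy_one]

end Cfsg.Agent.S5038
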