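import Cfsg.Statements.S5040
import Cfsg.Agent.RootSub.Connected

set_option autoImplicit false
open Cfsg Cfsg.Agent.RootSub
open scoped commutatorElement

namespace Cfsg.Agent.S5040

/-- Let S be a non-degenerate class of abstract root subgroups of G and Δ a weak TI-subset of S. Then the members of Δ commute with one another elementwise. -/
theorem result {G : Type*} [Group G] {S : Set (Subgroup G)} (hS : Cfsg.IsRootSubgroupClass S) (hnd : Cfsg.IsNondegenerateRootSet S)
    {Δ : Set (Subgroup G)} (hΔ : Cfsg.IsWeakTISubset S Δ) : Cfsg.IsAbelianFamily Δ := by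
  obtain ⟨hsub, -, hne, hti⟩ := hΔ
  have hSs := hS.1
  -- root elements fixing a member of Δ stabilize Δ
  let H : Subgroup G :=
    { carrier := {g | (fun A => Cfsg.conjBy A g) '' Δ = Δ}
      one_mem' := by simp [conjBy_one]
      mul_mem' := fun {a b} ha hb => by
        simp only [Set.mem_ofPred_eq] at *
        have : (fun A => Cfsg.conjBy A (a * b)) '' Δ =
            (fun A => Cfsg.conjBy A a) '' ((fun A => Cfsg.conjBy A b) '' Δ) := by
          rw [Set.image_image]
          exact Set.image_congr fun A _ => (conjBy_conjBy ..).symm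
        rw [this, hb, ha]
      inv_mem' := fun {a} ha => by
        simp only [Set.mem_ofPred_eq] at *
        conv_lhs => rw [← ha]
        rw [Set.image_image]
        simp [conjBy_conjBy, conjBy_one] }
  have hstab : ∀ A ∈ Δ, ∀ E ∈ S, (∀ e ∈ E, Cfsg.conjBy A e = A) → E ≤ H := by
    intro A hA E hE hfix e he
    by_cases he1 : e = 1
    · rw [he1]; exact one_mem _
    rcases hti e ⟨he1, E, hE, he⟩ with h | h
    · exact h
    · exact absurd hA (Set.disjoint_left.1 h ⟨A, hA, hfix e he⟩)
  have hcommfix : ∀ A E : Subgroup G, ⁅A, E⁆ = ⊥ → ∀ e ∈ E, Cfsg.conjBy A e = A :=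
    fun A E h e he => conjBy_of_commute fun a ha =>
      (commutator_eq_bot_iff_forall.1 h a ha e he).symm
  have hgen : ∀ X ∈ S, ∀ Y ∈ S, IsRankOnePair X Y → (∃ A ∈ Δ, ⁅A, Y⁆ = ⊥) → X ∈ Δ → False := by
    rintro X hX Y hY hr ⟨A, hA, hAY⟩ hXΔ
    have hΛ : ∀ E ∈ linePartners S X, E ≤ H := fun E hE =>
      hstab X hXΔ E hE.1.1 (hcommfix X E hE.1.2.2)
    have hYH : Y ≤ H := hstab A hA Y hY (hcommfix A Y hAY)
    have htop : H = ⊤ := by
      rw [eq_top_iff, ← generated_by_line hS hnd hX hY hr]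
      exact sup_le (iSup₂_le hΛ) hYH
    refine hne (Set.Subset.antisymm hsub fun E hE => ?_)
    obtain ⟨g, rfl⟩ := hS.2.2 X hX E hE
    have hg : g ∈ H := htop ▸ Subgroup.mem_top g
    rw [← (hg : (fun A => Cfsg.conjBy A g) '' Δ = Δ)]
    exact ⟨X, hXΔ, rfl⟩
  intro A hA B hB a ha b hb
  rcases hSs.pair A (hsub hA) B (hsub hB) with h | h | h
  · exact commutator_eq_bot_iff_forall.1 h a ha b hb
  · exact (hgen A (hsub hA) B (hsub hB) h ⟨B, hB, comm_self hSs (hsub hB)⟩ hA).elim
  · exfalso
    obtain ⟨M, hM, hMc, hMe, hMl⟩ := exists_opposite hSs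
      (fun A hA => conj_partner hS hnd.2.1 hA) (hsub hA) (hsub hB) h
    have hr : IsRankOnePair B M := (opposite_config hSs (hsub hA) (hsub hB) hM h
      (CommCase.symm hMc) (by rw [Subgroup.commutator_comm]; exact hMe)).1
    exact hgen B (hsub hB) M hM hr ⟨A, hA, hMl.1.2.2⟩ hB

end Cfsg.Agent.S5040
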