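import Cfsg.Statements.S5043
import Cfsg.Agent.RootTransv.Linear

set_option autoImplicit false
open Matrix
open Cfsg

namespace Cfsg.Agent.S5043

open Matrix Cfsg.Agent.RootTransv in
theorem set_eq (k : Type*) [Field k] (n : ℕ) :
    {A : Subgroup (Matrix.SpecialLinearGroup (Fin (n + 3)) k) |
        ∃ g : Matrix.SpecialLinearGroup (Fin (n + 3)) k,
          A = Cfsg.conjBy (Subgroup.closure {t : Matrix.SpecialLinearGroup (Fin (n + 3)) k |
            ∃ c : k, (t : Matrix (Fin (n + 3)) (Fin (n + 3)) k) = Matrix.transvection 0 1 c}) g} =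
      Lin.S k (n + 3) := by
  have h01 : (0 : Fin (n + 3)) ≠ 1 := by simp
  have hok := Cfsg.Agent.MinDeg.SLMin.root_ok (F := k) h01 1
  have he : Subgroup.closure {t : Matrix.SpecialLinearGroup (Fin (n + 3)) k |
      ∃ c : k, (t : Matrix (Fin (n + 3)) (Fin (n + 3)) k) = Matrix.transvection 0 1 c} =
      Lin.T (Pi.single 0 1) (Pi.single 1 1) := by
    rw [Lin.T]
    congr 1
    have key : ∀ c : k, (Cfsg.Agent.MinDeg.SLMin.tv (c • Pi.single 0 1) (Pi.single 1 (1 : k)) :
        Matrix.SpecialLinearGroup (Fin (n + 3)) k).1 = Matrix.transvection 0 1 c := fun c => by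
      rw [show Cfsg.Agent.MinDeg.SLMin.tv (c • Pi.single (0 : Fin (n + 3)) 1) (Pi.single 1 (1 : k)) =
        Cfsg.Agent.MinDeg.SLMin.tvOf _ _ (Lin.smul_ok hok c) from dif_pos (Lin.smul_ok hok c)]
      change 1 + Matrix.vecMulVec _ _ = 1 + Matrix.single 0 1 c
      congr 1
      ext a b
      simp [Matrix.vecMulVec_apply, Matrix.single_apply, Pi.single_apply, ite_and, eq_comm]
      split_ifs <;> rfl
    ext t
    exact ⟨fun ⟨c, hc⟩ => ⟨c, Subtype.ext (hc.trans (key c).symm)⟩,
      fun ⟨c, hc⟩ => ⟨c, by rw [hc]; exact key c⟩⟩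
  rw [he]
  have hmem : Lin.T (Pi.single 0 1) (Pi.single 1 1) ∈ Lin.S k (n + 3) :=
    ⟨_, _, by simp, by simp, hok, rfl⟩
  ext A
  constructor
  · rintro ⟨g, rfl⟩
    exact (Lin.isRootSubgroupSet (by omega)).conj_mem _ hmem g
  · intro hA
    exact (Lin.isRootSubgroupClass (by omega)).2.2 _ hmem A hA

/-- Let k be a field and n a natural number. In SL_{n+3}(k) (so in every dimension at least 3) the conjugates of the root subgroup of elementary transvections 1 + c E₁₂ (c ∈ k) — that is, the groups of transvections attached to an incident point–hyperplane pair — form a non-degenerate class of abstract k-root subgroups of SL_{n+3}(k) whose graph of rank one pairs is connected. -/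
theorem result (k : Type*) [Field k] (n : ℕ) :
    Cfsg.IsRootSubgroupClass {A : Subgroup (Matrix.SpecialLinearGroup (Fin (n + 3)) k) |
        ∃ g : Matrix.SpecialLinearGroup (Fin (n + 3)) k,
          A = Cfsg.conjBy (Subgroup.closure {t : Matrix.SpecialLinearGroup (Fin (n + 3)) k |
            ∃ c : k, (t : Matrix (Fin (n + 3)) (Fin (n + 3)) k) = Matrix.transvection 0 1 c}) g} ∧
    Cfsg.IsNondegenerateRootSet {A : Subgroup (Matrix.SpecialLinearGroup (Fin (n + 3)) k) |
        ∃ g : Matrix.SpecialLinearGroup (Fin (n + 3)) k,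
          A = Cfsg.conjBy (Subgroup.closure {t : Matrix.SpecialLinearGroup (Fin (n + 3)) k |
            ∃ c : k, (t : Matrix (Fin (n + 3)) (Fin (n + 3)) k) = Matrix.transvection 0 1 c}) g} ∧
    Cfsg.IsKRootSubgroupSet k {A : Subgroup (Matrix.SpecialLinearGroup (Fin (n + 3)) k) |
        ∃ g : Matrix.SpecialLinearGroup (Fin (n + 3)) k,
          A = Cfsg.conjBy (Subgroup.closure {t : Matrix.SpecialLinearGroup (Fin (n + 3)) k |
            ∃ c : k, (t : Matrix (Fin (n + 3)) (Fin (n + 3)) k) = Matrix.transvection 0 1 c}) g} ∧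
    Cfsg.IsConnectedFamily (Cfsg.FAdj {A : Subgroup (Matrix.SpecialLinearGroup (Fin (n + 3)) k) |
        ∃ g : Matrix.SpecialLinearGroup (Fin (n + 3)) k,
          A = Cfsg.conjBy (Subgroup.closure {t : Matrix.SpecialLinearGroup (Fin (n + 3)) k |
            ∃ c : k, (t : Matrix (Fin (n + 3)) (Fin (n + 3)) k) = Matrix.transvection 0 1 c}) g})
      {A : Subgroup (Matrix.SpecialLinearGroup (Fin (n + 3)) k) |
        ∃ g : Matrix.SpecialLinearGroup (Fin (n + 3)) k,
          A = Cfsg.conjBy (Subgroup.closure {t : Matrix.SpecialLinearGroup (Fin (n + 3)) k |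
            ∃ c : k, (t : Matrix (Fin (n + 3)) (Fin (n + 3)) k) = Matrix.transvection 0 1 c}) g} := by
  simp only [set_eq]
  exact ⟨Cfsg.Agent.RootTransv.Lin.isRootSubgroupClass (by omega),
    Cfsg.Agent.RootTransv.Lin.isNondegenerate (by omega),
    Cfsg.Agent.RootTransv.Lin.isKRootSubgroupSet (by omega), Cfsg.Agent.RootTransv.Lin.connected⟩

end Cfsg.Agent.S5043
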