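import Cfsg.Statements.S5045
import Cfsg.Agent.RootSub.InvolClass

set_option autoImplicit false
open Cfsg Cfsg.Agent.RootSub
open scoped commutatorElement

namespace Cfsg.Agent.S5045

/-- Let G be a finite group generated by a set D of root involutions, and W the set of members of D whose product with every other member of D has even order or is trivial (the isolated vertices of the odd-order-product graph on D). Then W is conjugation-invariant and generates a normal 2-subgroup of G meeting D in exactly W; the commutator of two members of D lying in different connected components of that graph, each with more than one member, lies in the subgroup generated by W; and for a in such a component, every member of D commuting with a, different from a and with product with a in D, lies in that component or in W. -/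
theorem result {G : Type*} [Group G] [Finite G] {D : Set G} (hD : Cfsg.IsRootInvolutionSet D) :
    (∀ w ∈ {w | Cfsg.IsIsolatedElem (Cfsg.OddAdj D) D w}, ∀ g : G, g * w * g⁻¹ ∈ {w | Cfsg.IsIsolatedElem (Cfsg.OddAdj D) D w}) ∧
    (Subgroup.closure {w | Cfsg.IsIsolatedElem (Cfsg.OddAdj D) D w}).Normal ∧
    IsPGroup 2 ↥(Subgroup.closure {w | Cfsg.IsIsolatedElem (Cfsg.OddAdj D) D w}) ∧
    (Subgroup.closure {w | Cfsg.IsIsolatedElem (Cfsg.OddAdj D) D w} : Set G) ∩ D = {w | Cfsg.IsIsolatedElem (Cfsg.OddAdj D) D w} ∧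
    (∀ a ∈ D, ∀ b ∈ D, (∃ a' ∈ Cfsg.elemComponentOf (Cfsg.OddAdj D) D a, a' ≠ a) →
      (∃ b' ∈ Cfsg.elemComponentOf (Cfsg.OddAdj D) D b, b' ≠ b) →
      Cfsg.elemComponentOf (Cfsg.OddAdj D) D a ≠ Cfsg.elemComponentOf (Cfsg.OddAdj D) D b →
        a * b * a⁻¹ * b⁻¹ ∈ Subgroup.closure {w | Cfsg.IsIsolatedElem (Cfsg.OddAdj D) D w}) ∧
    (∀ a ∈ D, (∃ a' ∈ Cfsg.elemComponentOf (Cfsg.OddAdj D) D a, a' ≠ a) →
      Cfsg.productPartners D a ⊆ Cfsg.elemComponentOf (Cfsg.OddAdj D) D a ∪ {w | Cfsg.IsIsolatedElem (Cfsg.OddAdj D) D w}) := by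
  haveI : Fact (Nat.Prime 2) := ⟨Nat.prime_two⟩
  set W := {w | Cfsg.IsIsolatedElem (Cfsg.OddAdj D) D w} with hW
  have hadj : ∀ {p q : G}, p ∈ D → q ∈ oddPartners D p → OddAdj D p q := fun hp hq =>
    ⟨hp, hq.1, hq.2.1.symm, hq.2.2⟩
  have hsymm : ∀ {p q : G}, OddAdj D p q → OddAdj D q p := fun ⟨h1, h2, h3, h4⟩ =>
    ⟨h2, h1, h3.symm, by rw [Inv.orderOf_mul_swap]; exact h4⟩
  haveI hs : Std.Symm (OddAdj D) := ⟨fun _ _ h => hsymm h⟩
  have hrev : ∀ {p q : G}, Relation.ReflTransGen (OddAdj D) p q → Relation.ReflTransGen (OddAdj D) q p :=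
    fun h => Std.Symm.symm _ _ h
  have hWiff : ∀ w, w ∈ W ↔ w ∈ D ∧ ∀ b, b ∉ oddPartners D w := by
    intro w
    refine ⟨fun h => ⟨h.1, fun b hb => (h.2 b).1 (hadj h.1 hb)⟩, fun h => ⟨h.1, fun b => ⟨?_, ?_⟩⟩⟩
    · exact fun h' => h.2 b ⟨h'.2.1, h'.2.2.1.symm, h'.2.2.2⟩
    · exact fun h' => h.2 b ⟨h'.1, h'.2.2.1, by rw [Inv.orderOf_mul_swap]; exact h'.2.2.2⟩
  have hWconj : ∀ w ∈ W, ∀ g : G, g * w * g⁻¹ ∈ W := by
    intro w hw g
    rw [hWiff] at hw ⊢
    refine ⟨hD.conj_mem w hw.1 g, fun b hb => hw.2 (g⁻¹ * b * g) ?_⟩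
    have := Inv.conj_mem_oddPartners hD hb g⁻¹
    rwa [inv_inv, show g⁻¹ * (g * w * g⁻¹) * g = w by group] at this
  have hnormal : (Subgroup.closure W).Normal := by
    refine ⟨fun x hx g => ?_⟩
    have hle : Subgroup.closure W ≤ (Subgroup.closure W).comap (MulAut.conj g).toMonoidHom :=
      (Subgroup.closure_le _).2 fun w hw => Subgroup.subset_closure (hWconj w hw g)
    exact hle hx
  have hp : IsPGroup 2 ↥(Subgroup.closure W) := by
    refine Cfsg.Agent.Gagola.isPGroup_closure_of_pairwise W (fun g w hw => hWconj w hw g) ?_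
    intro a ha b hb
    rw [hWiff] at ha hb
    exact Inv.pair_isPGroup hD ha.1 hb.1 (ha.2 b)
  have hinter : (Subgroup.closure W : Set G) ∩ D = W := by
    ext d
    refine ⟨fun ⟨hd, hdD⟩ => ?_, fun h => ⟨Subgroup.subset_closure h, h.1⟩⟩
    rw [hWiff]
    refine ⟨hdD, fun b hb => ?_⟩
    obtain ⟨g, hg⟩ := Inv.exists_conj_of_odd hD hdD hb
    have hbm : b ∈ Subgroup.closure W := hg ▸ hnormal.conj_mem d hd g
    obtain ⟨n, hn⟩ := hp ⟨d * b, mul_mem hd hbm⟩
    have hdvd : orderOf (d * b) ∣ 2 ^ n := orderOf_dvd_of_pow_eq_one (congrArg Subtype.val hn)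
    have h1 : orderOf (d * b) = 1 :=
      (Nat.Coprime.pow_right n ((Nat.coprime_two_right).2 hb.2.2)).eq_one_of_dvd hdvd
    exact hb.2.1 (Inv.eq_of_mul_eq_one hD hdD (orderOf_eq_one_iff.1 h1)).symm
  have hcomp : ∀ {p q : G}, q ∈ elemComponentOf (OddAdj D) D p →
      elemComponentOf (OddAdj D) D p = elemComponentOf (OddAdj D) D q := by
    intro p q hq
    ext x
    exact ⟨fun hx => ⟨hx.1, (hrev hq.2).trans hx.2⟩,
      fun hx => ⟨hx.1, hq.2.trans hx.2⟩⟩
  have hpart : ∀ a ∈ D, (∃ a' ∈ elemComponentOf (OddAdj D) D a, a' ≠ a) →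
      ∃ x, x ∈ oddPartners D a := by
    rintro a ha ⟨a', ⟨-, h⟩, hne⟩
    rcases Relation.ReflTransGen.cases_head h with h | ⟨c, hc, -⟩
    · exact absurd h.symm hne
    · exact ⟨c, hc.2.1, hc.2.2.1.symm, hc.2.2.2⟩
  have hthird : ∀ a ∈ D, (∃ a' ∈ elemComponentOf (OddAdj D) D a, a' ≠ a) →
      productPartners D a ⊆ elemComponentOf (OddAdj D) D a ∪ W := by
    intro a ha hex e he
    by_contra hcon
    rw [Set.mem_union, not_or] at hcon
    obtain ⟨hK, hWe⟩ := hcon
    obtain ⟨x, hx⟩ := hpart a ha hex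
    obtain ⟨y, hy⟩ : ∃ y, y ∈ oddPartners D e := by
      by_contra h
      push Not at h
      exact hWe ((hWiff e).2 ⟨he.1.1, h⟩)
    have hxe : x ∉ oddPartners D e := fun h =>
      hK ⟨he.1.1, (Relation.ReflTransGen.single (hadj ha hx)).tail (hsymm (hadj he.1.1 h))⟩
    have hxf := (Inv.cover hD ha he hx).resolve_left hxe
    rcases Inv.cover hD he.1.1 (Inv.productPartners_symm ha he) hy with h | h
    · exact hK ⟨he.1.1, (Relation.ReflTransGen.single (hadj ha h)).tail (hsymm (hadj he.1.1 hy))⟩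
    · rw [← he.1.2.1] at h
      exact hK ⟨he.1.1, (((Relation.ReflTransGen.single (hadj ha hx)).tail
        (hsymm (hadj he.2 hxf))).tail (hadj he.2 h)).tail (hsymm (hadj he.1.1 hy))⟩
  refine ⟨hWconj, hnormal, hp, hinter, ?_, hthird⟩
  intro a ha b hb hexa hexb hne
  rw [Inv.inv_eq hD ha, Inv.inv_eq hD hb, mul_assoc (a * b), ← pow_two]
  rcases hD.pair a ha b hb with h | h | ⟨h, -⟩
  · rw [orderOf_dvd_iff_pow_eq_one.1 (Inv.orderOf_dvd_two_of_comm hD ha hb h)]
    exact one_mem _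
  · by_cases hab : b = a
    · exact absurd (by rw [hab]) hne
    · exact absurd (hcomp (p := a) (q := b)
        ⟨hb, Relation.ReflTransGen.single ⟨ha, hb, Ne.symm hab, h⟩⟩) hne
  · obtain ⟨hp', hq', -, -, -⟩ := Inv.four_facts hD ha hb h
    rcases hthird a ha hexa hp' with h1 | h1
    · rcases hthird b hb hexb hq' with h2 | h2
      · exact absurd ((hcomp h1).trans (hcomp h2).symm) hne
      · exact Subgroup.subset_closure h2
    · exact Subgroup.subset_closure h1

end Cfsg.Agent.S5045
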