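import Cfsg.Statements.S5046
import Cfsg.Agent.RootSub.InvolClass

set_option autoImplicit false
open Cfsg Cfsg.Agent.RootSub
open scoped commutatorElement

namespace Cfsg.Agent.S5046

/-- Let G be a finite group generated by a set D of root involutions whose odd-order-product graph is connected, and d ∈ D. Then the members e of D with the same commuting members as d are exactly those for which the union of the commuting members of d and the members whose product with d has order 4 equals the corresponding union for e. -/
theorem result {G : Type*} [Group G] [Finite G] {D : Set G} (hD : Cfsg.IsRootInvolutionSet D)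
    (hc : Cfsg.IsConnectedSet (Cfsg.OddAdj D) D) {d : G} (hd : d ∈ D) :
    Cfsg.sameCommutingClass D d =
      {e | e ∈ D ∧ Cfsg.commutingMembers D d ∪ Cfsg.fourPartners D d = Cfsg.commutingMembers D e ∪ Cfsg.fourPartners D e} := by
  have key : ∀ z ∈ D, commutingMembers D z ∪ fourPartners D z = {x | x ∈ D ∧ x ∉ oddPartners D z} := by
    intro z hz
    ext x
    constructor
    · rintro (⟨hx, hxz⟩ | ⟨hx, h4⟩)
      · exact ⟨hx, fun h => Inv.not_comm_of_odd hD hz h hxz.symm⟩
      · exact ⟨hx, fun h => ((Inv.mem_oddPartners_iff hD hz).1 h).2.2 h4⟩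
    · rintro ⟨hx, h⟩
      by_cases hc' : x * z = z * x
      · exact Or.inl ⟨hx, hc'⟩
      · exact Or.inr ⟨hx, Inv.four_of hD hz hx (fun h' => hc' h'.symm) h⟩
  ext e
  constructor
  · rintro ⟨he, h⟩
    refine ⟨he, ?_⟩
    rw [key d hd, key e he, (Inv.commutingMembers_eq_iff hD hc he hd).1 h]
  · rintro ⟨he, h⟩
    refine ⟨he, (Inv.commutingMembers_eq_iff hD hc he hd).2 ?_⟩
    rw [key d hd, key e he] at h
    ext x
    by_cases hx : x ∈ D
    · have := Set.ext_iff.1 h x
      simp only [Set.mem_setOf_eq, hx, true_and] at this
      exact not_iff_not.1 this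
    · exact ⟨fun h' => absurd h'.1 hx, fun h' => absurd h'.1 hx⟩

end Cfsg.Agent.S5046
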