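import Cfsg.Statements.S5047
import Cfsg.Agent.RootSub.InvolClass

set_option autoImplicit false
open Cfsg Cfsg.Agent.RootSub
open scoped commutatorElement

namespace Cfsg.Agent.S5047

/-- Let G be a finite group generated by a set D of root involutions whose odd-order-product graph is connected, a ∈ D, and b a member of D different from a, commuting with a, with ab ∈ D, but not having the same commuting members as a. Then some member x of D with bx of order 4 has ax of order 3. -/
theorem result {G : Type*} [Group G] [Finite G] {D : Set G} (hD : Cfsg.IsRootInvolutionSet D)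
    (hc : Cfsg.IsConnectedSet (Cfsg.OddAdj D) D) {a b : G} (ha : a ∈ D) (hb : b ∈ Cfsg.productPartners D a)
    (hbE : b ∉ Cfsg.sameCommutingClass D a) : ∃ x ∈ Cfsg.fourPartners D b, orderOf (a * x) = 3 := by
  have hbD : b ∈ D := hb.1.1
  have haa := Inv.sq_one hD ha
  have hbb := Inv.sq_one hD hbD
  obtain ⟨w, hwD, haw, hwb⟩ := Inv.exists_commutator hD hc ha hb hbE
  obtain ⟨-, hbw', -, hwaw, hawa⟩ := Inv.four_facts hD ha hwD haw
  rw [hwb] at hbw' hwaw hawa
  have hwX : w ∈ productPartners D b := Inv.productPartners_symm hwD hbw'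
  have hwE : w ∉ sameCommutingClass D b := by
    rintro ⟨-, h⟩
    have : a ∈ commutingMembers D w := by rw [← h]; exact ⟨ha, hb.1.2.1.symm⟩
    exact Inv.not_comm_of_four hD ha hwD haw this.2
  obtain ⟨q, hqD, hbq, hqw⟩ := Inv.exists_commutator hD hc hbD hwX hwE
  obtain ⟨-, hwq, -, hqbq, -⟩ := Inv.four_facts hD hbD hqD hbq
  rw [hqw] at hwq hqbq
  have hqq := Inv.sq_one hD hqD
  have hww := Inv.sq_one hD hwD
  have haba : a * b * a = b := by rw [← hb.1.2.1, mul_assoc, haa, mul_one]
  have hqwq : q * w * q = w := by rw [← hwq.1.2.1, mul_assoc, hqq, mul_one]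
  have hcwb : w * b = b * w := hbw'.1.2.1.symm
  have habwa : a * (b * w) * a = w := by
    calc a * (b * w) * a = (a * b * a) * (a * w * a) := by
          rw [show a * b * a * (a * w * a) = a * b * (a * a) * (w * a) by group, haa]; group
      _ = b * (w * b) := by rw [haba, hawa]
      _ = w := by rw [hcwb, ← mul_assoc, hbb, one_mul]
  have hnc : a * q ≠ q * a := by
    intro h
    have hqa : a * q * a = q := by rw [h, mul_assoc, haa, mul_one]
    have hfix : a * w * a = w := by
      calc a * w * a = a * (b * q * (b * q)) * a := by rw [← hqw, pow_two]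
        _ = (a * b * a) * (a * q * a) * ((a * b * a) * (a * q * a)) := by
          rw [show a * b * a * (a * q * a) * (a * b * a * (a * q * a)) =
            a * b * (a * a) * q * (a * a) * b * (a * a) * q * a by group, haa]
          group
        _ = w := by rw [haba, hqa, ← pow_two, hqw]
    refine Inv.not_comm_of_four hD ha hwD haw ?_
    calc a * w = a * w * a * a := by rw [mul_assoc (a * w), haa, mul_one]
      _ = w * a := by rw [hfix]
  have h4 : orderOf (a * q) ≠ 4 := by
    intro h
    obtain ⟨hp, -, -, -, -⟩ := Inv.four_facts hD ha hqD h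
    set t := (a * q) ^ 2 with ht
    have htb : t * b * t⁻¹ = w * b := by
      rw [ht, pow_two, mul_inv_rev, mul_inv_rev, Inv.inv_eq hD ha, Inv.inv_eq hD hqD]
      calc a * q * (a * q) * b * (q * a * (q * a)) = a * (q * (a * (q * b * q) * a) * q) * a := by
            group
        _ = w * b := by rw [hqbq, habwa, hqwq, hawa]
    have h1 : Commute (t * b * t⁻¹) a :=
      ((show Commute t a from hp.1.2.1).mul_left (show Commute b a from hb.1.2.1)).mul_left
        (show Commute t a from hp.1.2.1).inv_left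
    rw [htb] at h1
    have h2 := h1.mul_left (show Commute b a from hb.1.2.1)
    rw [mul_assoc, hbb, mul_one] at h2
    exact Inv.not_comm_of_four hD ha hwD haw h2.symm.eq
  have hq : q ∈ oddPartners D a := (Inv.mem_oddPartners_iff hD ha).2 ⟨hqD, hnc, h4⟩
  refine ⟨q, ⟨hqD, hbq⟩, ?_⟩
  set r := a * q with hr
  have hrinv : r⁻¹ = q * a := by rw [hr, mul_inv_rev, Inv.inv_eq hD ha, Inv.inv_eq hD hqD]
  have hrb : r * b * r⁻¹ = w := by
    rw [hrinv, hr]
    calc a * q * b * (q * a) = a * (q * b * q) * a := by group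
      _ = w := by rw [hqbq, habwa]
  have hrw' : r * w * r⁻¹ = w * b := by
    rw [hrinv, hr]
    calc a * q * w * (q * a) = a * (q * w * q) * a := by group
      _ = w * b := by rw [hqwq, hawa]
  have hr3 : r ^ 3 * b * (r ^ 3)⁻¹ = b := by
    calc r ^ 3 * b * (r ^ 3)⁻¹ = r * (r * (r * b * r⁻¹) * r⁻¹) * r⁻¹ := by
          simp only [pow_succ, pow_zero, one_mul]; group
      _ = (r * w * r⁻¹) * (r * b * r⁻¹) := by rw [hrb, hrw']; conv_lhs => rw [show r * (w * b) * r⁻¹ =
          (r * w * r⁻¹) * (r * b * r⁻¹) by group, hrw', hrb]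
      _ = b := by
        rw [hrw', hrb, mul_assoc, ← hcwb, ← mul_assoc, hww, one_mul]
  have hr6 : r ^ 6 = 1 := by
    by_contra h6
    have ha' := hD.conj_mem a ha (r ^ 3)
    have hara : a * r ^ 3 * a = (r ^ 3)⁻¹ := by
      nth_rw 2 [← Inv.inv_eq hD ha]
      rw [← conj_pow, Inv.inv_eq hD ha, hr, show a * (a * q) * a = (a * a) * (q * a) by group, haa,
        one_mul, ← hrinv, inv_pow]
    have hprod : a * (r ^ 3 * a * (r ^ 3)⁻¹) = (r ^ 6)⁻¹ := by
      rw [← mul_assoc, ← mul_assoc, hara, ← mul_inv_rev, ← pow_add]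
    refine Inv.not_odd_of_partner hD hbD (x := r ^ 3 * a * (r ^ 3)⁻¹)
      (Inv.productPartners_symm ha hb) ?_ ⟨ha', fun h => ?_, ?_⟩
    · have h1 : Commute (r ^ 3) b := mul_inv_eq_iff_eq_mul.1 hr3
      exact ((h1.mul_left (show Commute a b from hb.1.2.1.symm)).mul_left h1.inv_left).eq
    · rw [h, haa] at hprod
      exact h6 (inv_eq_one.1 hprod.symm)
    · rw [hprod, orderOf_inv]
      exact hq.2.2.of_dvd_nat (orderOf_pow_dvd 6)
  have hdvd : orderOf r ∣ 2 * 3 := orderOf_dvd_of_pow_eq_one hr6
  have h3 : orderOf r ∣ 3 :=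
    (Nat.Coprime.dvd_of_dvd_mul_left ((Nat.coprime_two_right).2 hq.2.2) hdvd)
  rcases (Nat.dvd_prime Nat.prime_three).1 h3 with h | h
  · exact absurd (Inv.eq_of_mul_eq_one hD ha (orderOf_eq_one_iff.1 h)).symm hq.2.1
  · exact h

end Cfsg.Agent.S5047
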