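import Cfsg.Statements.S5048
import Cfsg.Agent.RootSub.InvolNormal

set_option autoImplicit false
open Cfsg Cfsg.Agent.RootSub
open scoped commutatorElement

namespace Cfsg.Agent.S5048

/-- Let G be a finite group generated by a set D of root involutions whose odd-order-product graph is connected, with some product of two different commuting members of D again in D. Then the largest solvable normal subgroup of G is the preimage of the centre of G/O₂(G), and the quotient of G by it is a simple group. -/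
theorem result {G : Type*} [Group G] [Finite G] {D : Set G} (hD : Cfsg.IsRootInvolutionSet D)
    (hc : Cfsg.IsConnectedSet (Cfsg.OddAdj D) D) (hDD : (D ∩ Cfsg.commutingProducts D).Nonempty) :
    Cfsg.solvableRadical G = Cfsg.twoZCore G ∧ IsSimpleGroup (G ⧸ Cfsg.twoZCore G) := by
  haveI : Fact (Nat.Prime 2) := ⟨Nat.prime_two⟩
  obtain ⟨c, hcD, a, ha, b, hb, hab, hne, rfl⟩ := hDD
  have hex : b ∈ productPartners D a := by
    refine ⟨⟨hb, hab.symm, fun h => hne ?_⟩, by rwa [← hab]⟩
    rw [h, Inv.sq_one hD ha]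
  have hX : ∀ p ∈ D, ∃ e, e ∈ productPartners D p := by
    intro p hp
    obtain ⟨g, rfl⟩ := Inv.exists_conj hD hc ha hp
    obtain ⟨⟨h1, h2, h3⟩, h4⟩ := hex
    refine ⟨g * b * g⁻¹, ⟨⟨hD.conj_mem b h1 g, ?_, fun h => h3 (by simpa using h)⟩, ?_⟩⟩
    · rw [show g * b * g⁻¹ * (g * a * g⁻¹) = g * (b * a) * g⁻¹ by group, h2]; group
    · rw [show g * b * g⁻¹ * (g * a * g⁻¹) = g * (b * a) * g⁻¹ by group]
      exact hD.conj_mem _ h4 g
  obtain ⟨x, hx⟩ : ∃ x, x ∈ oddPartners D a := by
    rcases Relation.ReflTransGen.cases_head (hc a ha b hb) with h | ⟨y, hy, -⟩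
    · exact absurd h.symm hex.1.2.2
    · exact ⟨y, hy.2.1, hy.2.2.1.symm, hy.2.2.2⟩
  have hZne : twoZCore G ≠ ⊤ := fun h =>
    Inv.sq_not_mem_twoZCore hD ha hx (h ▸ Subgroup.mem_top _)
  have hperfect : commutator G = ⊤ := by
    by_contra h
    refine Inv.sq_not_mem_twoZCore hD ha hx (Inv.normal_le_twoZCore hD hc hX h ?_)
    have := Subgroup.commutator_mem_commutator (Subgroup.mem_top a) (Subgroup.mem_top x)
    rw [commutatorElement_def, Inv.inv_eq hD ha, Inv.inv_eq hD hx.1] at this
    rw [pow_two, ← mul_assoc]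
    exact this
  have hZsolv : Group.IsSolvable ↥(twoZCore G) := by
    haveI : Group.IsNilpotent ↥(pCore 2 G) :=
      (Cfsg.Agent.Cores.pCore_isPGroup (p := 2) (G := G)).isNilpotent
    have hle : pCore 2 G ≤ twoZCore G := by
      intro x hx
      rw [twoZCore, Subgroup.mem_comap,
        show QuotientGroup.mk' (pCore 2 G) x = 1 from (QuotientGroup.eq_one_iff x).2 hx]
      exact one_mem _
    let g : ↥(twoZCore G) →* ↥(Subgroup.center (G ⧸ pCore 2 G)) :=
      ((QuotientGroup.mk' (pCore 2 G)).comp (twoZCore G).subtype).codRestrict _ fun z => z.2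
    haveI : Group.IsSolvable ↥(Subgroup.center (G ⧸ pCore 2 G)) :=
      Group.isSolvable_of_comm fun p q => Subtype.ext (Subgroup.mem_center_iff.1 q.2 p.1)
    refine Group.isSolvable_of_ker_le_range (Subgroup.inclusion hle) g ?_
    intro z hz
    have h1 : QuotientGroup.mk' (pCore 2 G) (z : G) = 1 := congrArg Subtype.val (MonoidHom.mem_ker.1 hz)
    exact ⟨⟨z, (QuotientGroup.eq_one_iff _).1 h1⟩, Subtype.ext rfl⟩
  have hsolv : ∀ N : Subgroup G, N.Normal → Group.IsSolvable N → N ≤ twoZCore G := by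
    intro N hN hs
    refine Inv.normal_le_twoZCore hD hc hX fun htop => ?_
    subst htop
    haveI : Group.IsSolvable G :=
      Group.isSolvable_of_surjective (f := (Subgroup.topEquiv : ↥(⊤ : Subgroup G) ≃* G).toMonoidHom)
        Subgroup.topEquiv.surjective
    haveI : Nontrivial G := ⟨⟨a, 1, Inv.ne_one hD ha⟩⟩
    exact (Group.IsSolvable.commutator_lt_top_of_nontrivial (G := G)).ne hperfect
  refine ⟨le_antisymm (sSup_le fun N hN => hsolv N hN.1 hN.2)
    (le_sSup ⟨twoZCore_normal G, hZsolv⟩), ?_⟩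
  haveI : Nontrivial (G ⧸ twoZCore G) := QuotientGroup.nontrivial_iff.2 hZne
  refine ⟨fun M hM => ?_⟩
  let N := M.comap (QuotientGroup.mk' (twoZCore G))
  haveI : N.Normal := hM.comap _
  have hmap : N.map (QuotientGroup.mk' (twoZCore G)) = M :=
    Subgroup.map_comap_eq_self_of_surjective (QuotientGroup.mk'_surjective _) M
  by_cases h : N = ⊤
  · right
    rw [← hmap, h, Subgroup.map_top_of_surjective _ (QuotientGroup.mk'_surjective _)]
  · left
    rw [← hmap, Subgroup.map_eq_bot_iff, QuotientGroup.ker_mk']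
    exact Inv.normal_le_twoZCore hD hc hX h

end Cfsg.Agent.S5048
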