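import Cfsg.Statements.S5049
import Cfsg.Agent.RootSub.RankOne
import Cfsg.Agent.Cores.Basic

set_option autoImplicit false
open Cfsg Cfsg.Agent.RootSub
open scoped commutatorElement

namespace Cfsg.Agent.S5049

/-- Let G be a finite group generated by a set D of odd transpositions (root involutions with no product of order 4), Q = O₂(G), and for a ∈ D let Q_a be the commutator subgroup of Q with a. Then every member of D commuting with a centralizes Q_a; and for b ∈ D with ab of odd order greater than 1, the centralizer of ab in Q is the intersection of the centralizers of a and b in Q. -/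
theorem result {G : Type*} [Group G] [Finite G] {D : Set G} (hD : Cfsg.IsOddTranspositionSet D) {a : G} (ha : a ∈ D) :
    (∀ e ∈ Cfsg.commutingMembers D a, ∀ q ∈ ⁅Cfsg.pCore 2 G, Subgroup.zpowers a⁆, e * q = q * e) ∧
    (∀ b ∈ Cfsg.oddPartners D a,
      Cfsg.pCore 2 G ⊓ Subgroup.centralizer {a * b} = Cfsg.pCore 2 G ⊓ Subgroup.centralizer {a} ⊓ Subgroup.centralizer {b}) := by
  have hR := hD.1
  have hinv : ∀ d ∈ D, d * d = 1 ∧ d ≠ 1 ∧ d⁻¹ = d := by
    intro d hd
    have h := hR.orderOf_eq d hd
    have h1 : d * d = 1 := by rw [← pow_two, ← h, pow_orderOf_eq_one]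
    exact ⟨h1, fun h' => by simp [h'] at h, inv_eq_of_mul_eq_one_right h1⟩
  set Q := Cfsg.pCore 2 G
  have hQn : Q.Normal := Cfsg.pCore_normal 2 G
  have hQp : IsPGroup 2 ↥Q := Cfsg.Agent.Cores.pCore_isPGroup
  have hodd : ∀ x ∈ Q, Odd (orderOf x) → x = 1 := by
    intro x hx ho
    obtain ⟨n, hn⟩ := hQp ⟨x, hx⟩
    have hdvd : orderOf x ∣ 2 ^ n := orderOf_dvd_of_pow_eq_one (congrArg Subtype.val hn)
    have hcop : Nat.Coprime (orderOf x) (2 ^ n) :=
      Nat.Coprime.pow_right n (Nat.Coprime.symm ((Nat.coprime_two_left).2 ho))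
    exact orderOf_eq_one_iff.1 (hcop.eq_one_of_dvd hdvd)
  -- a member commutes with its conjugates by elements of Q, and so does its centralizer in D
  have key : ∀ e ∈ D, ∀ c ∈ D, e * c = c * e → ∀ q ∈ Q, e * (q * c * q⁻¹) = (q * c * q⁻¹) * e := by
    intro e he c hc hec q hq
    have hc' := hR.conj_mem c hc q
    rcases hR.pair e he _ hc' with h | h | ⟨h, -⟩
    · exact h
    · set x := e * (q * c * q⁻¹) with hx
      have hmem : x * (e * c)⁻¹ ∈ Q := by
        have h1 : q * (c * q⁻¹ * c⁻¹) ∈ Q := mul_mem hq (hQn.conj_mem _ (inv_mem hq) c)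
        have h2 := hQn.conj_mem _ h1 e
        have : x * (e * c)⁻¹ = e * (q * (c * q⁻¹ * c⁻¹)) * e⁻¹ := by rw [hx]; group
        rwa [this]
      have hsq : (e * c) * (e * c) = 1 := by
        calc (e * c) * (e * c) = e * (c * e) * c := by group
          _ = (e * e) * (c * c) := by rw [← hec]; group
          _ = 1 := by rw [(hinv e he).1, (hinv c hc).1, one_mul]
      set y := x * (e * c)⁻¹ with hy
      have hxy : x = y * (e * c) := by rw [hy]; group
      have hx2 : x * x ∈ Q := by
        have : x * x = y * ((e * c) * y * (e * c)⁻¹) * ((e * c) * (e * c)) := by rw [hxy]; group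
        rw [this, hsq, mul_one]
        exact mul_mem hmem (hQn.conj_mem _ hmem _)
      have hx2o : Odd (orderOf (x * x)) := by
        rw [← pow_two, Nat.Coprime.orderOf_pow ((Nat.coprime_two_right).2 h)]
        exact h
      have h4 := hodd _ hx2 hx2o
      have hx1 : orderOf x ∣ 2 := orderOf_dvd_of_pow_eq_one (by rw [pow_two]; exact h4)
      have hx1' : x = 1 := orderOf_eq_one_iff.1
        ((Nat.Coprime.eq_one_of_dvd ((Nat.coprime_two_right).2 h) hx1))
      have hec2 : e = q * c * q⁻¹ := by
        have := mul_eq_one_iff_inv_eq.1 hx1'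
        rwa [(hinv e he).2.2] at this
      rw [hx, ← hec2]
    · exact absurd h (hD.2 e he _ hc')
  refine ⟨?_, ?_⟩
  · intro e he q hq
    obtain ⟨heD, hea⟩ := he
    have hle : ⁅Q, Subgroup.zpowers a⁆ ≤ Subgroup.centralizer {e} := by
      rw [Subgroup.commutator_le]
      intro x hx y hy
      obtain ⟨i, rfl⟩ := Subgroup.mem_zpowers_iff.1 hy
      rw [Subgroup.mem_centralizer_singleton_iff]
      have h1 : Commute e (x * a * x⁻¹) := key e heD a ha hea x hx
      have h2 : Commute e a := hea
      have h4 : Commute e ((x * a * x⁻¹) ^ i * (a ^ i)⁻¹) :=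
        (h1.zpow_right i).mul_right (h2.zpow_right i).inv_right
      rw [commutatorElement_def, ← conj_zpow]
      exact h4.symm
    exact (Subgroup.mem_centralizer_singleton_iff.1 (hle hq)).symm
  · intro b hb
    obtain ⟨hbD, hba, hbo⟩ := hb
    ext q
    simp only [Subgroup.mem_inf, Subgroup.mem_centralizer_singleton_iff]
    constructor
    swap
    · rintro ⟨⟨hq, h1⟩, h2⟩
      exact ⟨hq, ((show Commute q a from h1).mul_right (show Commute q b from h2)).eq⟩
    rintro ⟨hq, h⟩
    set a' := q * a * q⁻¹ with ha'
    set x := a * a' with hx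
    have haa' : a * a' = a' * a := key a ha a ha rfl q hq
    have hbb : b * (q * b * q⁻¹) = (q * b * q⁻¹) * b := key b hbD b hbD rfl q hq
    have hab : a' * (q * b * q⁻¹) = a * b := by
      have : a' * (q * b * q⁻¹) = q * (a * b) * q⁻¹ := by rw [ha']; group
      rw [this, h, mul_inv_cancel_right]
    have haE : a' * a' = 1 := by
      have : a' * a' = q * (a * a) * q⁻¹ := by rw [ha']; group
      rw [this, (hinv a ha).1]; group
    have hqb : q * b * q⁻¹ = x * b := by
      calc q * b * q⁻¹ = (a' * a') * (q * b * q⁻¹) := by rw [haE, one_mul]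
        _ = a' * (a * b) := by rw [mul_assoc, hab]
        _ = x * b := by rw [hx, haa']; group
    have hxa : Commute x a := (Commute.refl a).mul_left (show Commute a a' from haa').symm
    have hxb : Commute x b := by
      rw [hqb] at hbb
      show x * b = b * x
      have : b * x * b = x * b * b := by rw [mul_assoc]; exact hbb
      exact (mul_right_cancel this).symm
    suffices hx1 : x = 1 by
      have hcb : q * b = b * q := by
        rw [hx1, one_mul, mul_inv_eq_iff_eq_mul] at hqb
        exact hqb
      have hca : q * a = a * q := by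
        have : a' = a := by
          have h5 := mul_eq_one_iff_inv_eq.1 hx1
          rw [(hinv a ha).2.2] at h5
          exact h5.symm
        rwa [ha', mul_inv_eq_iff_eq_mul] at this
      exact ⟨⟨hq, hca⟩, hcb⟩
    by_contra hx1
    have hxx : x * x = 1 := by
      calc x * x = a * (a' * a) * a' := by rw [hx]; group
        _ = (a * a) * (a' * a') := by rw [← haa']; group
        _ = 1 := by rw [(hinv a ha).1, haE, one_mul]
    have hox : orderOf x = 2 := orderOf_eq_prime (by rw [pow_two]; exact hxx) hx1
    have hprod : a' * b = x * (a * b) := by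
      calc a' * b = (a * a) * a' * b := by rw [(hinv a ha).1, one_mul]
        _ = a * x * b := by rw [hx]; group
        _ = x * (a * b) := by rw [← hxa.eq, mul_assoc]
    have hord : orderOf (a' * b) = 2 * orderOf (a * b) := by
      rw [hprod, (hxa.mul_right hxb).orderOf_mul_eq_mul_orderOf_of_coprime, hox]
      rw [hox]; exact (Nat.coprime_two_left).2 hbo
    have hne1 : orderOf (a * b) ≠ 1 := by
      intro h1
      have := mul_eq_one_iff_inv_eq.1 (orderOf_eq_one_iff.1 h1)
      rw [(hinv a ha).2.2] at this
      exact hba this.symm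
    rcases hR.pair a' (hR.conj_mem a ha q) b hbD with h1 | h1 | ⟨h1, -⟩
    · have : (a' * b) ^ 2 = 1 := by
        calc (a' * b) ^ 2 = a' * (b * a') * b := by rw [pow_two]; group
          _ = (a' * a') * (b * b) := by rw [← h1]; group
          _ = 1 := by rw [haE, (hinv b hbD).1, one_mul]
      have := Nat.le_of_dvd two_pos (orderOf_dvd_of_pow_eq_one this)
      have hpos : orderOf (a * b) ≠ 0 := fun h0 => by simp [h0] at hbo
      omega
    · rw [hord] at h1
      exact absurd h1 (by simp [Nat.odd_mul])
    · exact absurd h1 (hD.2 a' (hR.conj_mem a ha q) b hbD)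

end Cfsg.Agent.S5049
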