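import Cfsg.Statements.S5050
import Cfsg.Agent.OddTranspDiam.Main
-- import your own Cfsg.Agent.* helpers here

set_option autoImplicit false
open Cfsg

namespace Cfsg.Agent.S5050

/-- Let G be a finite group generated by a class D of odd transpositions whose commuting graph is connected, with some product of two different commuting members again in D. Then for every d ∈ D and every x ∈ D with dx of odd order greater than 1, some member of D commutes with both d and x. -/
theorem result {G : Type*} [Group G] [Finite G] {D : Set G} (hD : Cfsg.IsOddTranspositionSet D) (hcl : Cfsg.IsRootInvolutionClass D)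
    (hc : Cfsg.IsConnectedSet (Cfsg.CommAdj D) D) (hDD : (D ∩ Cfsg.commutingProducts D).Nonempty)
    {d x : G} (hd : d ∈ D) (hx : x ∈ Cfsg.oddPartners D d) : ∃ e ∈ D, e * d = d * e ∧ e * x = x * e := by
  have hOT := Cfsg.Agent.OddTranspDiam.OT.of hD
  obtain ⟨_, hpD, a₀, ha₀, b₀, hb₀, hab₀, -, rfl⟩ := hDD
  have line : ∀ a ∈ D, ∃ a₁ ∈ D, Commute a a₁ ∧ a * a₁ ∈ D := by
    intro a ha
    obtain ⟨g, rfl⟩ := hcl.2.2 a₀ ha₀ a ha
    refine ⟨g * b₀ * g⁻¹, hOT.conj b₀ hb₀ g, (Commute.conj_iff g).2 hab₀, ?_⟩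
    rw [show g * a₀ * g⁻¹ * (g * b₀ * g⁻¹) = g * (a₀ * b₀) * g⁻¹ by group]
    exact hOT.conj _ hpD g
  suffices h : ∀ y, Relation.ReflTransGen (Cfsg.CommAdj D) d y →
      ∃ e ∈ D, Commute e d ∧ Commute e y from
    h x (hc d hd x hx.1)
  intro y hy
  induction hy with
  | refl => exact ⟨d, hd, Commute.refl d, Commute.refl d⟩
  | @tail b y _ hby ih =>
    obtain ⟨hb, hy, -, hby⟩ := hby
    obtain ⟨e, he, hed, heb⟩ := ih
    obtain ⟨e₁, he₁, hee₁, hle⟩ := line e he
    obtain ⟨b₁, hb₁, hbb₁, hlb⟩ := line b hb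
    exact Cfsg.Agent.OddTranspDiam.no_config hOT hd he hb hy he₁ hb₁ hed.symm heb hby hee₁ hle
      hbb₁ hlb

end Cfsg.Agent.S5050
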