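import Cfsg.Statements.S5057
import Cfsg.Agent.RootSub.AltSix

set_option autoImplicit false
open Cfsg Cfsg.Agent.RootSub
open scoped commutatorElement

namespace Cfsg.Agent.S5057

/-- The involutions of the alternating group of degree 6 form a class of root involutions (a single conjugacy class of involutions generating the group, any two of which commute, have product of odd order, or have product of order 4 whose square is again an involution of the class), and the product of any two of them has order at most 5. -/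
theorem result :
    Cfsg.IsRootInvolutionClass {g : ↥(alternatingGroup (Fin 6)) | orderOf g = 2} ∧
    ∀ d ∈ {g : ↥(alternatingGroup (Fin 6)) | orderOf g = 2}, ∀ e ∈ {g : ↥(alternatingGroup (Fin 6)) | orderOf g = 2},
      orderOf (d * e) ≤ 5 := by
  set D : Set ↥(alternatingGroup (Fin 6)) := {g | orderOf g = 2}
  have hels : ∀ d ∈ D, (d : Equiv.Perm (Fin 6)) ∈ AltSix.els := by
    intro d hd
    have h1 : d * d = 1 := by
      have h := pow_orderOf_eq_one d
      rwa [show orderOf d = 2 from hd, pow_two] at h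
    rcases AltSix.cover d (by simpa using congrArg Subtype.val h1)
      (Equiv.Perm.mem_alternatingGroup.1 d.2) with h | h
    · have : d = 1 := Subtype.ext h
      simp [D, this] at hd
    · exact h
  have hmem : ∀ g ∈ AltSix.els, ∃ d ∈ D, (d : Equiv.Perm (Fin 6)) = g := by
    intro g hg
    obtain ⟨h1, h2, h3⟩ := AltSix.els_spec g hg
    refine ⟨⟨g, Equiv.Perm.mem_alternatingGroup.2 h3⟩, ?_, rfl⟩
    refine orderOf_eq_prime (Subtype.ext ?_) fun h => h2 (congrArg Subtype.val h)
    simpa [pow_two] using h1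
  have hcases : ∀ d ∈ D, ∀ e ∈ D, d * e = e * d ∨ (d * e) ^ 3 = 1 ∨ (d * e) ^ 5 = 1 ∨
      ((d * e) ^ 4 = 1 ∧ (d * e) ^ 2 ≠ 1) := by
    intro d hd e he
    rcases AltSix.pairs _ (hels d hd) _ (hels e he) with h | h | h | ⟨h, h'⟩
    · exact Or.inl (Subtype.ext h)
    · exact Or.inr (Or.inl (Subtype.ext h))
    · exact Or.inr (Or.inr (Or.inl (Subtype.ext h)))
    · exact Or.inr (Or.inr (Or.inr ⟨Subtype.ext h, fun h'' => h' (congrArg Subtype.val h'')⟩))
  have hfour : ∀ x : ↥(alternatingGroup (Fin 6)), x ^ 4 = 1 → x ^ 2 ≠ 1 → orderOf x = 4 := by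
    intro x h h'
    exact orderOf_eq_prime_pow (p := 2) (n := 1) (by simpa using h') (by simpa using h)
  have hconj : ∀ d ∈ D, ∀ g, g * d * g⁻¹ ∈ D := by
    intro d hd g
    show orderOf (g * d * g⁻¹) = 2
    rw [← hd]
    exact orderOf_injective (MulAut.conj g).toMonoidHom (MulAut.conj g).injective d
  obtain ⟨b, hb, hbv⟩ := hmem (AltSix.dbl 0 1 2 3) (by decide +kernel)
  refine ⟨⟨⟨fun d hd => hd, ?_, hconj, ?_⟩, ⟨b, hb⟩, ?_⟩, ?_⟩
  · have hs : IsSimpleGroup ↥(alternatingGroup (Fin 6)) := alternatingGroup.isSimpleGroup (by simp)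
    have hn : (Subgroup.closure D).Normal := by
      refine ⟨fun x hx g => ?_⟩
      have hle : Subgroup.closure D ≤ (Subgroup.closure D).comap (MulAut.conj g).toMonoidHom :=
        (Subgroup.closure_le _).2 fun y hy => Subgroup.subset_closure (hconj y hy g)
      exact hle hx
    refine hn.eq_bot_or_eq_top.resolve_left fun h => ?_
    have h1 : b ∈ Subgroup.closure D := Subgroup.subset_closure hb
    rw [h, Subgroup.mem_bot] at h1
    simp [D, h1] at hb
  · intro d hd e he
    rcases hcases d hd e he with h | h | h | ⟨h, h'⟩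
    · exact Or.inl h
    · exact Or.inr (Or.inl ((by decide : Odd 3).of_dvd_nat (orderOf_dvd_of_pow_eq_one h)))
    · exact Or.inr (Or.inl ((by decide : Odd 5).of_dvd_nat (orderOf_dvd_of_pow_eq_one h)))
    · refine Or.inr (Or.inr ⟨hfour _ h h', orderOf_eq_prime ?_ h'⟩)
      rw [← pow_mul]; exact h
  · have hto : ∀ e ∈ D, ∃ g, e = g * b * g⁻¹ := by
      intro e he
      obtain ⟨x, hx, y, hy, hxy⟩ := AltSix.conj_base _ (hels e he)
      obtain ⟨x', -, rfl⟩ := hmem x hx
      obtain ⟨y', -, rfl⟩ := hmem y hy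
      exact ⟨x' * y', Subtype.ext (by simpa [hbv] using hxy)⟩
    intro a ha c hc
    obtain ⟨g, hg⟩ := hto a ha
    obtain ⟨g', hg'⟩ := hto c hc
    exact ⟨g' * g⁻¹, by rw [hg, hg']; group⟩
  · intro d hd e he
    rcases hcases d hd e he with h | h | h | ⟨h, -⟩
    · have h2 : (d * e) ^ 2 = 1 := by
        have h1 : ∀ x ∈ D, x * x = 1 := fun x hx => by
          have h := pow_orderOf_eq_one x
          rwa [show orderOf x = 2 from hx, pow_two] at h
        calc (d * e) ^ 2 = d * (e * d) * e := by rw [pow_two]; group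
          _ = (d * d) * (e * e) := by rw [← h]; group
          _ = 1 := by rw [h1 d hd, h1 e he, one_mul]
      exact (Nat.le_of_dvd two_pos (orderOf_dvd_of_pow_eq_one h2)).trans (by omega)
    · exact (Nat.le_of_dvd (by omega) (orderOf_dvd_of_pow_eq_one h)).trans (by omega)
    · exact (Nat.le_of_dvd (by omega) (orderOf_dvd_of_pow_eq_one h)).trans (by omega)
    · exact (Nat.le_of_dvd (by omega) (orderOf_dvd_of_pow_eq_one h)).trans (by omega)

end Cfsg.Agent.S5057
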