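import Cfsg.Statements.S5058
import Cfsg.Agent.RootTransv.Involution

set_option autoImplicit false
open Matrix
open Cfsg

namespace Cfsg.Agent.S5058

open Matrix Cfsg.Agent.RootTransv in
theorem set_eq (F : Type*) [Field F] (n : ℕ) :
    {t : Matrix.SpecialLinearGroup (Fin (n + 3)) F | ∃ c : F, c ≠ 0 ∧
        ∃ g : Matrix.SpecialLinearGroup (Fin (n + 3)) F, ((g⁻¹ * t * g : Matrix.SpecialLinearGroup (Fin (n + 3)) F) :
          Matrix (Fin (n + 3)) (Fin (n + 3)) F) = Matrix.transvection 0 1 c} = Lin.D F (n + 3) := by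
  have h01 : (0 : Fin (n + 3)) ≠ 1 := by simp
  have hok := Cfsg.Agent.MinDeg.SLMin.root_ok (F := F) h01 1
  have key : ∀ c : F, (Cfsg.Agent.MinDeg.SLMin.tv (c • Pi.single 0 1) (Pi.single 1 (1 : F)) :
      Matrix.SpecialLinearGroup (Fin (n + 3)) F).1 = Matrix.transvection 0 1 c := fun c => by
    rw [show Cfsg.Agent.MinDeg.SLMin.tv (c • Pi.single (0 : Fin (n + 3)) 1) (Pi.single 1 (1 : F)) =
      Cfsg.Agent.MinDeg.SLMin.tvOf _ _ (Lin.smul_ok hok c) from dif_pos (Lin.smul_ok hok c)]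
    change 1 + Matrix.vecMulVec _ _ = 1 + Matrix.single 0 1 c
    congr 1
    ext a b
    simp [Matrix.vecMulVec_apply, Matrix.single_apply, Pi.single_apply, ite_and, eq_comm]
    split_ifs <;> rfl
  ext t
  constructor
  · rintro ⟨c, hc, g, hg⟩
    have h1 : g⁻¹ * t * g = Cfsg.Agent.MinDeg.SLMin.tv (c • Pi.single 0 1) (Pi.single 1 1) :=
      Subtype.ext (hg.trans (key c).symm)
    rw [show t = g * (g⁻¹ * t * g) * g⁻¹ by group, h1,
      Cfsg.Agent.MinDeg.SLMin.tv_conj g _ _ (Lin.smul_ok hok c), mul_inv_cancel_right]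
    have hu : (c • Pi.single 0 1 : Fin (n + 3) → F) ≠ 0 := smul_ne_zero hc (by simp)
    exact ⟨_, _, (Lin.conj_ne hu (show (Pi.single 1 1 : Fin (n + 3) → F) ≠ 0 by simp) g).1,
      (Lin.conj_ne hu (show (Pi.single 1 1 : Fin (n + 3) → F) ≠ 0 by simp) g).2,
      Lin.conj_ok (Lin.smul_ok hok c) g, rfl⟩
  · intro ht
    obtain ⟨g, hg⟩ := Lin.exists_conj_root h01 (l := ⟨2, by omega⟩) (by simp [Fin.ext_iff]) (by simp [Fin.ext_iff]) ht
    refine ⟨1, one_ne_zero, g, ?_⟩
    rw [hg, ← key 1, one_smul]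

/-- Let F be a finite field of characteristic 2 and n a natural number. Then the transvections of SL_{n+3}(F) (so in every dimension at least 3) (the conjugates of the elementary matrices 1 + c E₁₂, c ≠ 0) form a class of root involutions of SL_{n+3}(F); when F has two elements they form a class of {3,4}⁺-transpositions (every product of odd order has order 1 or 3). -/
theorem result (F : Type*) [Field F] [Fintype F] [CharP F 2] (n : ℕ) :
    Cfsg.IsRootInvolutionClass {t : Matrix.SpecialLinearGroup (Fin (n + 3)) F | ∃ c : F, c ≠ 0 ∧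
        ∃ g : Matrix.SpecialLinearGroup (Fin (n + 3)) F, ((g⁻¹ * t * g : Matrix.SpecialLinearGroup (Fin (n + 3)) F) :
          Matrix (Fin (n + 3)) (Fin (n + 3)) F) = Matrix.transvection 0 1 c} ∧
    (Fintype.card F = 2 → Cfsg.IsThreeFourPlusTranspositionSet {t : Matrix.SpecialLinearGroup (Fin (n + 3)) F | ∃ c : F, c ≠ 0 ∧
        ∃ g : Matrix.SpecialLinearGroup (Fin (n + 3)) F, ((g⁻¹ * t * g : Matrix.SpecialLinearGroup (Fin (n + 3)) F) :
          Matrix (Fin (n + 3)) (Fin (n + 3)) F) = Matrix.transvection 0 1 c}) := by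
  rw [set_eq]
  exact ⟨Cfsg.Agent.RootTransv.Lin.isRootInvolutionClass (by omega), fun h =>
    Cfsg.Agent.RootTransv.Lin.isThreeFourPlus (by omega) (by rw [Nat.card_eq_fintype_card, h])⟩

end Cfsg.Agent.S5058
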