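import Cfsg.Statements.S5059
import Cfsg.Agent.RootSub.QuadPair

set_option autoImplicit false
universe u
open Cfsg Cfsg.Agent.RootSub
open scoped commutatorElement

namespace Cfsg.Agent.S5059

/-- Let k be a field of characteristic not 2 with k not of order 3, M a finite-dimensional k-vector space and G ≤ GL(M) such that (G, M) is a quadratic pair (M irreducible for G, and G generated by its quadratically acting elements σ whose scalar family 1 + c(σ − 1), c ∈ k, lies in G). Write 𝒬_d for the quadratic elements of G of minimal commutator rank, E(σ) for the subgroup generated by the members of 𝒬_d with the same fixed space and commutator space as σ, and Σ for the set of these subgroups. Then for σ ∈ 𝒬_d the subgroup E(σ) consists exactly of those members together with the identity, it is abelian, and if k has prime characteristic p every element of E(σ) has order dividing p. -/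
theorem result {k : Type u} [Field k] (hk2 : ringChar k ≠ 2) (hk3 : Nat.card k ≠ 3)
    {M : Type u} [AddCommGroup M] [Module k M] [FiniteDimensional k M]
    {G : Subgroup (LinearMap.GeneralLinearGroup k M)} (hG : Cfsg.IsQuadraticPair G)
    {σ : LinearMap.GeneralLinearGroup k M} (hσ : σ ∈ Cfsg.minimalQuadraticElements G) :
    (Cfsg.sameActionSubgroup G σ : Set (LinearMap.GeneralLinearGroup k M)) = Cfsg.sameActionClass G σ ∪ {1} ∧
    IsMulCommutative ↥(Cfsg.sameActionSubgroup G σ) ∧
    (∀ p : ℕ, p.Prime → ringChar k = p → ∀ x ∈ Cfsg.sameActionSubgroup G σ, x ^ p = 1) := by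
  refine ⟨sameActionSubgroup_coe hσ, ⟨⟨fun x y => Subtype.ext ?_⟩⟩, fun p _ hp x hx => ?_⟩
  · have hx := (sameActionSubgroup_coe hσ).le x.2
    have hy := (sameActionSubgroup_coe hσ).le y.2
    show (x : LinearMap.GeneralLinearGroup k M) * y = y * x
    rcases hx with hx | hx
    · rcases hy with hy | hy
      · exact (sameActionClass_mul_mem hσ hx hy).2
      · rw [Set.mem_singleton_iff.1 hy, mul_one, one_mul]
    · rw [Set.mem_singleton_iff.1 hx, mul_one, one_mul]
  · rcases (sameActionSubgroup_coe hσ).le hx with h | h
    · apply Units.ext
      rw [pow_sub_one h.1.1.2.1.1]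
      have : (p : k) = 0 := by rw [← hp, ringChar.Nat.cast_ringChar]
      simp [this]
    · rw [Set.mem_singleton_iff.1 h, one_pow]

end Cfsg.Agent.S5059
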