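import Cfsg.Statements.S5060
import Cfsg.Agent.RootSub.SL2Gen.Ring

set_option autoImplicit false
open Cfsg Cfsg.Agent.RootSub.SL2Gen
open scoped commutatorElement

namespace Cfsg.Agent.S5060

/-- Let k ⊆ K be fields with the characteristic of k not 2 and k not of order 3, and let α ∈ K be a non-zero element algebraic over k. Then the subgroup of SL₂(K) generated by the upper unitriangular matrices with entry c and the lower unitriangular matrices with entry cα, c ranging over k, is exactly the group of matrices of SL₂(K) with all entries in k(α). -/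
theorem result {k K : Type*} [Field k] [Field K] [Algebra k K] (hk2 : ringChar k ≠ 2) (hk3 : Nat.card k ≠ 3)
    (α : K) (hα : IsAlgebraic k α) (hα0 : α ≠ 0) :
    (Subgroup.closure ({g : Matrix.SpecialLinearGroup (Fin 2) K | ∃ c : k, (g : Matrix (Fin 2) (Fin 2) K) = !![1, algebraMap k K c; 0, 1]} ∪
        {g : Matrix.SpecialLinearGroup (Fin 2) K | ∃ c : k, (g : Matrix (Fin 2) (Fin 2) K) = !![1, 0; algebraMap k K c * α, 1]}) :
      Set (Matrix.SpecialLinearGroup (Fin 2) K)) =
    {g : Matrix.SpecialLinearGroup (Fin 2) K | ∀ i j : Fin 2, (g : Matrix (Fin 2) (Fin 2) K) i j ∈ IntermediateField.adjoin k ({α} : Set K)} := by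
  have hfd : FiniteDimensional k (IntermediateField.adjoin k ({α} : Set K)) :=
    IntermediateField.adjoin.finiteDimensional hα.isIntegral
  set R := IntermediateField.adjoin k ({α} : Set K) with hR
  let a : R := ⟨α, IntermediateField.mem_adjoin_simple_self k α⟩
  have ha0 : a ≠ 0 := fun h => hα0 (congrArg Subtype.val h)
  have hgen : ∀ r : R, ∃ p : Polynomial k, Polynomial.aeval a p = r := by
    intro r
    obtain ⟨p, hp⟩ := (IntermediateField.adjoin.powerBasis hα.isIntegral).exists_eq_aeval' r
    exact ⟨p, hp.symm⟩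
  have h2 : (2 : k) ≠ 0 := Ring.two_ne_zero hk2
  have htop := upperSet_eq_top h2 hk3 a ha0.isUnit hgen
  have hall : gam k a = ⊤ := eq_top_of_all
    (fun x => by rw [← mem_upperSet, htop]; exact AddSubgroup.mem_top x)
    (vv_mem_of_upperSet ha0.isUnit htop)
  have hcl : Subgroup.closure ({g : Matrix.SpecialLinearGroup (Fin 2) K | ∃ c : k, (g : Matrix (Fin 2) (Fin 2) K) = !![1, algebraMap k K c; 0, 1]} ∪
        {g : Matrix.SpecialLinearGroup (Fin 2) K | ∃ c : k, (g : Matrix (Fin 2) (Fin 2) K) = !![1, 0; algebraMap k K c * α, 1]}) =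
      gam k α := by
    rw [gam]
    congr 1
    refine congrArg₂ (· ∪ ·) ?_ ?_ <;> ext g <;> constructor <;> rintro ⟨c, hc⟩
    · exact ⟨c, Subtype.ext hc.symm⟩
    · exact ⟨c, by rw [← hc]; rfl⟩
    · exact ⟨c, Subtype.ext hc.symm⟩
    · exact ⟨c, by rw [← hc]; rfl⟩
  rw [hcl]
  have hmap : (gam k a).map (Matrix.SpecialLinearGroup.map (R.val : R →+* K)) = gam k α :=
    map_gam k R.val a
  rw [← hmap, hall]
  ext g
  constructor
  · rintro ⟨q, -, rfl⟩ i j
    exact (q i j).2
  · intro hg
    refine ⟨⟨Matrix.of fun i j => (⟨g i j, hg i j⟩ : R), ?_⟩, Subgroup.mem_top _, ?_⟩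
    · apply Subtype.ext
      have hd := det_eq g
      rw [Matrix.det_fin_two]
      simpa using hd
    · apply sl_ext <;> rfl

end Cfsg.Agent.S5060
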