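import Cfsg.Statements.S5064
import Cfsg.Agent.RootSub.QP.Invertible

set_option autoImplicit false
universe u
open Cfsg Cfsg.Agent.RootSub
open scoped commutatorElement

namespace Cfsg.Agent.S5064

/-- Let k be a field of characteristic not 2 with k not of order 3, M a finite-dimensional k-vector space and G ≤ GL(M) such that (G, M) is a quadratic pair (M irreducible for G, and G generated by its quadratically acting elements σ whose scalar family 1 + c(σ − 1), c ∈ k, lies in G). Write 𝒬_d for the quadratic elements of G of minimal commutator rank, E(σ) for the subgroup generated by the members of 𝒬_d with the same fixed space and commutator space as σ, and Σ for the set of these subgroups. If σ, τ ∈ 𝒬_d and the subgroup H generated by their two scalar families does not act unipotently on M, then H is isomorphic to SL₂ over a simple algebraic extension k(λ) of k. -/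
theorem result {k : Type u} [Field k] (hk2 : ringChar k ≠ 2) (hk3 : Nat.card k ≠ 3)
    {M : Type u} [AddCommGroup M] [Module k M] [FiniteDimensional k M]
    {G : Subgroup (LinearMap.GeneralLinearGroup k M)} (hG : Cfsg.IsQuadraticPair G)
    {σ τ : LinearMap.GeneralLinearGroup k M} (hσ : σ ∈ Cfsg.minimalQuadraticElements G) (hτ : τ ∈ Cfsg.minimalQuadraticElements G)
    (hH : ¬ Cfsg.IsUnipotentOn (Subgroup.closure (Cfsg.scalarFamily σ ∪ Cfsg.scalarFamily τ))) :
    ∃ (K : Type u) (_ : Field K) (_ : Algebra k K) (lam : K), IsAlgebraic k lam ∧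
      IntermediateField.adjoin k ({lam} : Set K) = ⊤ ∧
      Nonempty (↥(Subgroup.closure (Cfsg.scalarFamily σ ∪ Cfsg.scalarFamily τ)) ≃* Matrix.SpecialLinearGroup (Fin 2) K) := by
  have h2k := Ring.two_ne_zero hk2
  have hs := QP.mem_minimalQuadraticElements_iff.1 hσ
  have ht := QP.mem_minimalQuadraticElements_iff.1 hτ
  set s := devMap σ with hsdef
  set t := devMap τ with htdef
  have hfam : ∀ {ρ : LinearMap.GeneralLinearGroup k M}, devMap ρ * devMap ρ = 0 →
      Cfsg.scalarFamily ρ = Set.range (fun c : k => (QP.qunit (c • devMap ρ) : LinearMap.GeneralLinearGroup k M)) := by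
    intro ρ hρ
    ext g
    constructor
    · rintro ⟨c, hc⟩
      refine ⟨c, Units.ext ?_⟩
      exact (QP.coe_qunit (QP.smul_sq_zero hρ c)).trans hc.symm
    · rintro ⟨c, rfl⟩
      exact ⟨c, QP.coe_qunit (QP.smul_sq_zero hρ c)⟩
  rw [hfam hs.sq, hfam ht.sq] at hH ⊢
  have hi : QP.Inv s t := by
    by_contra hni
    refine hH ?_
    obtain ⟨n, hn⟩ := (isUnipotentOn_iff_commIter _).1 (QP.isUnipotentOn_of_not_inv h2k hk3 hs ht hni)
    refine isUnipotentOn_of_devSpan ((isUnipotentOn_iff_commIter _).2 ⟨n, hn⟩) fun g hg =>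
      Submodule.subset_span ⟨g, ?_, rfl⟩
    refine (Subgroup.closure_le _).2 ?_ hg
    rintro _ (⟨c, rfl⟩ | ⟨c, rfl⟩)
    · exact Subgroup.mem_sup_left
        (QP.qunit_mem_rootGroup (Submodule.smul_mem _ c (QP.self_mem_classSpace hs.1)))
    · exact Subgroup.mem_sup_right
        (QP.qunit_mem_rootGroup (Submodule.smul_mem _ c (QP.self_mem_classSpace ht.1)))
  obtain ⟨m, -, he⟩ := hi.exists_exact_model hs ht
  letI := (QP.Model.Exact.isField (m := m) he h2k hk3 hs ht.1).toField
  refine ⟨m.Alg, inferInstance, inferInstance, m.root, ?_, ?_, ?_⟩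
  · exact Algebra.IsAlgebraic.isAlgebraic m.root
  · rw [eq_top_iff]
    intro r _
    obtain ⟨p, rfl⟩ := m.exists_aeval r
    exact IntermediateField.algebra_adjoin_le_adjoin k _ (Polynomial.aeval_mem_adjoin_singleton k m.root)
  · have hmap := QP.Model.Exact.map_gam (m := m) he hs.sq ht.sq
    rw [QP.Model.Exact.gam_eq_top (m := m) he h2k hk3 hs ht.1, ← MonoidHom.range_eq_map] at hmap
    exact ⟨((MonoidHom.ofInjective m.glHom_injective).trans (MulEquiv.subgroupCongr hmap)).symm⟩

end Cfsg.Agent.S5064
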