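import Cfsg.Statements.S5067
import Cfsg.Agent.RootSub.Config

set_option autoImplicit false
open Cfsg Cfsg.Agent.RootSub
open scoped commutatorElement

namespace Cfsg.Agent.S5067

/-- Let P be a non-abelian nilpotent p-group (every element of p-power order; P possibly infinite) generated by two abelian subgroups E and F. Then the normal closure of E in P, and likewise that of F, has nilpotency class strictly smaller than that of P. -/
theorem result {P : Type*} [Group P] {p : ℕ} [Fact p.Prime] (hP : IsPGroup p P) [Group.IsNilpotent P]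
    (hna : ¬ IsMulCommutative P) {E F : Subgroup P} (hE : IsMulCommutative ↥E) (hF : IsMulCommutative ↥F) (hgen : E ⊔ F = ⊤) :
    Group.nilpotencyClass ↥(Subgroup.normalClosure (E : Set P)) < Group.nilpotencyClass P ∧
    Group.nilpotencyClass ↥(Subgroup.normalClosure (F : Set P)) < Group.nilpotencyClass P := by
  set c := Group.nilpotencyClass P with hc
  let γ : ℕ → Subgroup P := fun i => Subgroup.lowerCentralSeries (⊤ : Subgroup P) i
  have hγ0 : γ 0 = ⊤ := Subgroup.lowerCentralSeries_zero _
  have hγs : ∀ i, γ (i + 1) = ⁅γ i, (⊤ : Subgroup P)⁆ := fun i => Subgroup.lowerCentralSeries_succ _ i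
  have hcpos : 0 < c := by
    by_contra h
    have hbot : γ 0 = ⊥ := Subgroup.lowerCentralSeries_eq_bot_iff_nilpotencyClass_le.2 (by omega)
    rw [hγ0] at hbot
    have : Subsingleton P := subsingleton_iff.2 fun x y => by
      have hx : x ∈ (⊤ : Subgroup P) := Subgroup.mem_top x
      have hy : y ∈ (⊤ : Subgroup P) := Subgroup.mem_top y
      rw [hbot, Subgroup.mem_bot] at hx hy
      rw [hx, hy]
    exact hna ⟨⟨fun x y => Subsingleton.elim _ _⟩⟩
  haveI hn : ∀ i, (γ i).Normal := fun i => by
    induction i with
    | zero => rw [hγ0]; infer_instance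
    | succ i ih => rw [hγs]; infer_instance
  have main : ∀ E F : Subgroup P, IsMulCommutative ↥E → IsMulCommutative ↥F → E ⊔ F = ⊤ →
      Group.nilpotencyClass ↥(Subgroup.normalClosure (E : Set P)) < c := by
    intro E F hE hF hgen
    set N := Subgroup.normalClosure (E : Set P)
    have hE' : ∀ x ∈ E, ∀ y ∈ E, x * y = y * x := fun x hx y hy =>
      congrArg Subtype.val (mul_comm' (⟨x, hx⟩ : E) ⟨y, hy⟩)
    have hNle : N ≤ E ⊔ γ 1 := by
      refine (Subgroup.closure_le _).2 fun x hx => ?_
      obtain ⟨e, he, hex⟩ := Group.mem_conjugatesOfSet_iff.1 hx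
      obtain ⟨g, rfl⟩ := isConj_iff.1 hex
      have : g * e * g⁻¹ = ⁅g, e⁆ * e := by simp only [commutatorElement_def]; group
      rw [this]
      refine mul_mem (Subgroup.mem_sup_right ?_) (Subgroup.mem_sup_left he)
      rw [hγs, hγ0]
      exact Subgroup.commutator_mem_commutator (Subgroup.mem_top g) (Subgroup.mem_top e)
    -- `[N, N] ≤ γ 2`
    have h1 : ⁅N, N⁆ ≤ γ 2 := by
      refine (Subgroup.commutator_mono hNle hNle).trans ?_
      rw [Subgroup.sup_eq_closure]
      have hnorm : ∀ x ∈ (E : Set P) ∪ (γ 1 : Subgroup P),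
          x ∈ Subgroup.normalizer ((γ 2 : Subgroup P) : Set P) := fun x _ => by
        rw [Subgroup.normalizer_eq_top]; exact Subgroup.mem_top x
      refine commutator_closure_le hnorm hnorm ?_
      have hsw : ∀ x y : P, ⁅x, y⁆ ∈ γ 2 → ⁅y, x⁆ ∈ γ 2 := fun x y h => by
        rw [← commutatorElement_inv]; exact inv_mem h
      have h12 : ∀ x ∈ γ 1, ∀ y : P, ⁅x, y⁆ ∈ γ 2 := fun x hx y => by
        rw [hγs 1]; exact Subgroup.commutator_mem_commutator hx (Subgroup.mem_top y)
      rintro x (hx | hx) y (hy | hy)
      · rw [commutatorElement_eq_one_iff_commute.2 (hE' x hx y hy)]; exact one_mem _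
      · exact hsw _ _ (h12 y hy x)
      · exact h12 x hx y
      · exact h12 x hx y
    have h2 : ∀ i, 0 < i → (Subgroup.lowerCentralSeries (⊤ : Subgroup ↥N) i).map N.subtype ≤ γ (i + 1) := by
      intro i hi
      induction i with
      | zero => omega
      | succ i ih =>
        rw [Subgroup.lowerCentralSeries_succ, Subgroup.map_commutator, ← MonoidHom.range_eq_map,
          Subgroup.range_subtype]
        by_cases h0 : i = 0
        · subst h0
          rw [Subgroup.lowerCentralSeries_zero, ← MonoidHom.range_eq_map, Subgroup.range_subtype]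
          exact h1
        · rw [hγs (i + 1)]
          exact Subgroup.commutator_mono (ih (by omega)) le_top
    by_cases hc1 : c = 1
    · -- an abelian group
      exfalso
      refine hna ⟨⟨fun x y => ?_⟩⟩
      have hb : γ 1 = ⊥ := Subgroup.lowerCentralSeries_eq_bot_iff_nilpotencyClass_le.2 (by omega)
      have := hb ▸ (show ⁅x, y⁆ ∈ γ 1 from by
        rw [hγs, hγ0]; exact Subgroup.commutator_mem_commutator (Subgroup.mem_top x) (Subgroup.mem_top y))
      exact commutatorElement_eq_one_iff_commute.1 (Subgroup.mem_bot.1 this)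
    have hb : (Subgroup.lowerCentralSeries (⊤ : Subgroup ↥N) (c - 1)) = ⊥ := by
      rw [← Subgroup.map_eq_bot_iff_of_injective _ (Subgroup.subtype_injective N), eq_bot_iff]
      refine (h2 (c - 1) (by omega)).trans ?_
      rw [show c - 1 + 1 = c by omega]
      exact le_of_eq Subgroup.lowerCentralSeries_nilpotencyClass
    have := Subgroup.lowerCentralSeries_eq_bot_iff_nilpotencyClass_le.1 hb
    omega
  exact ⟨main E F hE hF hgen, main F E hF hE (sup_comm E F ▸ hgen)⟩

end Cfsg.Agent.S5067
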