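import Cfsg.Statements.S5069
import Cfsg.Agent.RootSub.QP.ComponentClass
import Cfsg.Agent.RootSub.QP.Quasisimple

set_option autoImplicit false
universe u
open Cfsg Cfsg.Agent.RootSub
open scoped commutatorElement

namespace Cfsg.Agent.S5069

/-- Let k be a field of characteristic not 2 with k not of order 3, M a finite-dimensional k-vector space and G ≤ GL(M) such that (G, M) is a quadratic pair (M irreducible for G, and G generated by its quadratically acting elements σ whose scalar family 1 + c(σ − 1), c ∈ k, lies in G). Write 𝒬_d for the quadratic elements of G of minimal commutator rank, E(σ) for the subgroup generated by the members of 𝒬_d with the same fixed space and commutator space as σ, and Σ for the set of these subgroups. Then Σ is a disjoint union of finitely many parts Σ₁, …, Σ_r such that the subgroups G_i generated by the Σ_i commute pairwise, each G_i is quasisimple, and inside G_i the members of Σ_i form a class of abstract root subgroups in which every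 rank one pair A, B contains subgroups A₀ ≤ A, B₀ ≤ B generating an image of SL₂(k₁) with central kernel on unitriangular subgroups for some field k₁ with at least four elements. -/
theorem result {k : Type u} [Field k] (hk2 : ringChar k ≠ 2) (hk3 : Nat.card k ≠ 3)
    {M : Type u} [AddCommGroup M] [Module k M] [FiniteDimensional k M]
    {G : Subgroup (LinearMap.GeneralLinearGroup k M)} (hG : Cfsg.IsQuadraticPair G) :
    ∃ (r : ℕ) (part : Fin r → Set (Subgroup (LinearMap.GeneralLinearGroup k M))),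
      (⋃ i, part i) = Cfsg.quadraticRootSubgroups G ∧ (∀ i j, i ≠ j → Disjoint (part i) (part j)) ∧ (∀ i, (part i).Nonempty) ∧
      (∀ i j, i ≠ j → ⁅(⨆ A ∈ part i, A), (⨆ A ∈ part j, A)⁆ = ⊥) ∧
      (∀ i, Cfsg.IsQuasisimple ↥(⨆ A ∈ part i, A) ∧
        Cfsg.IsRootSubgroupClass ((fun A : Subgroup (LinearMap.GeneralLinearGroup k M) => A.subgroupOf (⨆ B ∈ part i, B)) '' (part i)) ∧
        ∀ A ∈ part i, ∀ B ∈ Cfsg.rankOnePartners (part i) A, ∃ A₀ B₀ : Subgroup (LinearMap.GeneralLinearGroup k M), A₀ ≤ A ∧ B₀ ≤ B ∧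
          ∃ (k₁ : Type u) (_ : Field k₁), 3 < ENat.card k₁ ∧ Cfsg.IsPSL2PairOver k₁ A₀ B₀) := by
  have h2 := Ring.two_ne_zero hk2
  obtain ⟨r, f, hf, hne, hall⟩ := QP.exists_component_reps h2 hk3 hG.1 hG.2
  refine ⟨r, fun i => QP.compPart G (f i), ?_, fun i j hij => ?_, fun i => ⟨_, f i, QP.self_mem_comp (hf i), rfl⟩,
    fun i j hij => ?_, fun i => ⟨?_, QP.isRootSubgroupClass_compPart h2 hk3 hG.1 hG.2 (hf i), ?_⟩⟩
  · ext A
    rw [Set.mem_iUnion, QP.mem_quadraticRootSubgroups_iff]
    constructor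
    · rintro ⟨i, x, hx, rfl⟩; exact ⟨x, hx.1, rfl⟩
    · rintro ⟨x, hx, rfl⟩
      obtain ⟨i, hi⟩ := hall x hx
      exact ⟨i, x, ⟨hx, hi⟩, rfl⟩
  · rw [Set.disjoint_left]
    rintro _ ⟨x, hx, rfl⟩ ⟨y, hy, he⟩
    have h := he.symm ▸ QP.qunit_mem_rootGroup (QP.self_mem_classSpace hx.1.1)
    rw [QP.mem_rootGroup, QP.devMap_qunit hx.1.sq] at h
    exact hne i j hij (hx.2.trans ((QP.conn_class h2 hk3 hG.1 hy.1 h hx.1.ne_zero).symm.trans hy.2.symm))
  · rw [QP.iSup_compPart h2 hk3 hG.1, QP.iSup_compPart h2 hk3 hG.1]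
    exact QP.commutator_compGroup h2 hk3 hG.1 (hne i j hij)
  · rw [QP.iSup_compPart h2 hk3 hG.1]
    exact QP.isQuasisimple_compGroup h2 hk3 hG.1 hG.2 (hf i)
  · rintro _ ⟨x, hx, rfl⟩ _ ⟨⟨y, hy, rfl⟩, hp⟩
    exact QP.exists_psl2 h2 hk3 hx.1 hy.1 (QP.inv_of_isRankOnePair h2 hk3 hG.1 hx.1 hy.1 hp)

end Cfsg.Agent.S5069
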