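import Cfsg.Statements.S5102
import Cfsg.Agent.FusionSys.Realized

set_option autoImplicit false
open Cfsg

namespace Cfsg.Agent.S5102

/-- A normal p-subgroup of a finite group G is normal in the fusion system of G on a Sylow p-subgroup. -/
theorem result {G : Type*} [Group G] [Finite G] (p : ℕ) [Fact p.Prime] (S : Sylow p G) (R : Subgroup G) [R.Normal] (hR : IsPGroup p R) : (Cfsg.groupFusionSystem (S : Subgroup G)).IsNormal R := by
  have hRS : R ≤ (S : Subgroup G) := by
    obtain ⟨T, hT⟩ := hR.exists_le_sylow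
    obtain ⟨g, hg⟩ := MulAction.exists_smul_eq G T S
    intro x hx
    have hx' : g⁻¹ * x * g⁻¹⁻¹ ∈ R := Subgroup.Normal.conj_mem inferInstance x hx g⁻¹
    rw [← hg, Sylow.coe_subgroup_smul]
    refine ⟨g⁻¹ * x * g⁻¹⁻¹, hT hx', ?_⟩
    simp [mul_assoc]
  refine FusionSys.isNormal_of_normal (FusionSys.groupFusionSystem_isRealizedBy _) hRS ?_
  rw [show FusionSys.img (S : Subgroup G).subtype R = R from Subgroup.map_subgroupOf_eq_of_le hRS]
  infer_instance

end Cfsg.Agent.S5102
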