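import Cfsg.Agent.FusionAlperin.SeriesCriteria
import Cfsg.Statements.S5106
-- import your own Cfsg.Agent.* helpers here

set_option autoImplicit false
open Cfsg

namespace Cfsg.Agent.S5106

open Cfsg.Agent.FusionAlperin Cfsg.Agent.FusionSys Cfsg.FusionSystem


/-- In a saturated fusion system over a finite p-group S, a subgroup R ≤ S is normal in the system if and only if every map of the system whose source is a subgroup of R is the restriction of an element of Aut_F(R). -/
theorem result {Ω : Type*} [Group Ω] {S : Subgroup Ω} [Finite S] (p : ℕ) [Fact p.Prime] (hS : IsPGroup p S) (F : Cfsg.FusionSystem S) (hF : F.IsSaturated p) (R : Subgroup Ω) (hRS : R ≤ S) : F.IsNormal R ↔ ∀ (P : Subgroup Ω) (hPR : P ≤ R) (φ : P →* Ω), φ ∈ F.Hom P → ∃ α ∈ F.autGroup R, ∀ x : P, ((α (Subgroup.inclusion hPR x) : R) : Ω) = φ x := by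
  constructor
  · intro h P hPR φ hφ
    obtain ⟨ψ, hψ, e, m⟩ := h.2 P φ hφ
    have hr : (restr (le_sup_right : R ≤ P ⊔ R) ψ).range = R := by rw [range_restr, m]
    refine ⟨_, toIso_mem_autGroup F (restr_mem F le_sup_right hψ) hr, fun x => ?_⟩
    exact e x
  · intro h
    have hsc : F.StronglyClosed R := sc_of_elements hRS fun P φ hφ x hx => by
      obtain ⟨α, -, he⟩ := h (P ⊓ R) inf_le_right _ (restr_mem F inf_le_left hφ)
      exact (he ⟨x, x.2, hx⟩) ▸ (α _).2
    refine isNormal_of_stronglyClosed hS hF hsc fun P hP => ?_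
    have hP' := hP.1.1
    -- automorphisms of `P` acting on `P ∩ R` like an element of `R`
    let M : Subgroup (MulAut P) :=
    { carrier := {α | ∃ r ∈ R, ∀ x : P, (x : Ω) ∈ R → (α x : Ω) = r * x * r⁻¹}
      one_mem' := ⟨1, R.one_mem, fun x _ => by simp⟩
      mul_mem' := by
        rintro a b ⟨r, hr, ha⟩ ⟨s, hs, hb⟩
        refine ⟨r * s, R.mul_mem hr hs, fun x hx => ?_⟩
        rw [MulAut.mul_apply, ha (b x) (hb x hx ▸ R.mul_mem (R.mul_mem hs hx) (R.inv_mem hs)), hb x hx,
          mul_inv_rev]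
        simp only [mul_assoc]
      inv_mem' := by
        rintro a ⟨r, hr, ha⟩
        refine ⟨r⁻¹, R.inv_mem hr, fun x hx => ?_⟩
        haveI : Finite P := finite_of_le ‹_› hP'
        -- `a` maps `P ∩ R` onto itself
        haveI : Finite (R.subgroupOf P) := inferInstance
        have hb : Function.Bijective (fun y : R.subgroupOf P => (⟨a y.1, show (a y.1 : Ω) ∈ R from
            ha y.1 y.2 ▸ R.mul_mem (R.mul_mem hr y.2) (R.inv_mem hr)⟩ : R.subgroupOf P)) :=
          Finite.injective_iff_bijective.1 fun u v huv =>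
            Subtype.ext (a.injective (congrArg Subtype.val huv))
        obtain ⟨⟨y, hy⟩, hyx⟩ := hb.2 ⟨x, hx⟩
        have hax : a y = x := congrArg Subtype.val hyx
        have hy' := ha y hy
        rw [hax] at hy'
        rw [← hax, show (a⁻¹ : MulAut P) (a y) = y from a.symm_apply_apply y, hax, hy']
        simp [mul_assoc] }
    refine le_of_series_base hS hP.1 (noOuterPNormal_of_essential hP) (n := 0) (Qs := ![R]) rfl
      (fun a b _ => le_of_eq (congrArg _ (Fin.ext (by omega)))) hsc hsc (fun i => i.elim0) (fun i => i.elim0) M ?_ ?_ ?_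
    · rintro α hα m ⟨r, hr, hm⟩
      -- restrict `α` to `P ∩ R` and extend to `R`
      obtain ⟨β, -, hβ⟩ := h (P ⊓ R) inf_le_right _
        (restr_mem F inf_le_left (autGroup_mem_hom F hP' hα))
      have hβ' : ∀ x : P, ∀ hx : (x : Ω) ∈ R, ((β ⟨x, hx⟩ : R) : Ω) = α x := fun x hx =>
        hβ ⟨x, x.2, hx⟩
      refine ⟨β ⟨r, hr⟩, (β _).2, fun x hx => ?_⟩
      have hy : ((α⁻¹ x : P) : Ω) ∈ R :=
        sc_map_mem hsc (autGroup_mem_hom F hP' (inv_mem hα)) hx
      have hmy := hm _ hy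
      have hmyR : ((m (α⁻¹ x) : P) : Ω) ∈ R := hmy ▸ R.mul_mem (R.mul_mem hr hy) (R.inv_mem hr)
      rw [MulAut.mul_apply, MulAut.mul_apply, ← hβ' _ hmyR]
      have e : (⟨((m (α⁻¹ x) : P) : Ω), hmyR⟩ : R) =
          ⟨r, hr⟩ * ⟨_, hy⟩ * (⟨r, hr⟩ : R)⁻¹ := Subtype.ext hmy
      rw [e, map_mul, map_mul, map_inv]
      have e2 : ((β ⟨_, hy⟩ : R) : Ω) = x := by
        rw [hβ' _ hy, show α (α⁻¹ x) = x from α.apply_symm_apply x]
      rw [Subgroup.coe_mul, Subgroup.coe_mul, Subgroup.coe_inv, e2]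
    · exact fun b hb hbN => ⟨b, hb, fun x _ => rfl⟩
    · rintro α - ⟨r, hr, hα⟩
      obtain ⟨k, hk⟩ := hS ⟨r, hRS hr⟩
      have hk' : r ^ p ^ k = 1 := congrArg Subtype.val hk
      refine ⟨k, fun x hx => ?_⟩
      have key : ∀ n : ℕ, ((α ^ n) x : Ω) = r ^ n * x * (r ^ n)⁻¹ ∧ ((α ^ n) x : Ω) ∈ R := by
        intro n
        induction n with
        | zero => exact ⟨by simp, hx⟩
        | succ n ih =>
          rw [pow_succ', MulAut.mul_apply, hα _ ih.2]
          refine ⟨?_, R.mul_mem (R.mul_mem hr ih.2) (R.inv_mem hr)⟩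
          rw [ih.1, pow_succ' r n]
          group
      refine Subtype.ext ?_
      rw [(key _).1, hk']
      simp

end Cfsg.Agent.S5106
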