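import Cfsg.Statements.S5107
import Cfsg.Agent.FusionSys.Realized
import Cfsg.Agent.FusionAlperin.SeriesCriteria

set_option autoImplicit false
open Cfsg

namespace Cfsg.Agent.S5107

/-- If a Sylow p-subgroup S of a finite group G has nilpotency class at most two and its centre is strongly closed in S with respect to G, then every map of the fusion system of G on S is conjugation by an element of N_G(S), and S is the largest subgroup normal in that fusion system. -/
theorem result {G : Type*} [Group G] [Finite G] (p : ℕ) [Fact p.Prime] (S : Sylow p G) (hcl : ⁅(S : Subgroup G), (S : Subgroup G)⁆ ≤ (S : Subgroup G) ⊓ Subgroup.centralizer ((S : Subgroup G) : Set G)) (hZ : Cfsg.IsStronglyClosed ((S : Subgroup G) ⊓ Subgroup.centralizer ((S : Subgroup G) : Set G)) (S : Subgroup G)) : (∀ (P : Subgroup G) (φ : P →* G), φ ∈ (Cfsg.groupFusionSystem (S : Subgroup G)).Hom P → ∃ g ∈ Subgroup.normalizer ((S : Subgroup G) : Set G), ∀ x : P, φ x = g * (x : G) * g⁻¹) ∧ (Cfsg.groupFusionSystem (S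 : Subgroup G)).core = S := by
  have hsat := FusionSys.saturated_of_realized (FusionSys.groupFusionSystem_isRealizedBy _) S
    (Subgroup.range_subtype _).symm
  set Z := (S : Subgroup G) ⊓ Subgroup.centralizer ((S : Subgroup G) : Set G) with hZdef
  have hZsc : (Cfsg.groupFusionSystem (S : Subgroup G)).StronglyClosed Z := by
    refine ⟨inf_le_left, fun R hR φ hφ x => ?_⟩
    obtain ⟨-, hφS, g, hg⟩ := hφ
    have := hφS x
    rw [hg] at this ⊢
    exact hZ.2 x (hR x.2) g this
  have hSsc : (Cfsg.groupFusionSystem (S : Subgroup G)).StronglyClosed S :=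
    ⟨le_rfl, fun R _ φ hφ x => hφ.2.1 x⟩
  have hnorm : (Cfsg.groupFusionSystem (S : Subgroup G)).IsNormal S := by
    refine Cfsg.Agent.FusionAlperin.isNormal_of_series S.2 hsat (n := 2)
      (Qs := ![⊥, Z, (S : Subgroup G)]) rfl rfl ?_ ?_ ?_
    · refine Fin.monotone_iff_le_succ.2 fun i => ?_
      fin_cases i
      · exact bot_le
      · exact inf_le_left
    · intro i
      fin_cases i
      · exact hZsc
      · exact hSsc
    · intro i
      fin_cases i
      · show ⁅(S : Subgroup G), Z⁆ ≤ ⊥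
        rw [le_bot_iff, Subgroup.commutator_eq_bot_iff_le_centralizer]
        exact fun s hs z hz => (hz.2 s hs).symm
      · exact hcl
  refine ⟨fun P φ hφ => ?_, le_antisymm (sSup_le fun Q hQ => hQ.1) (le_sSup hnorm)⟩
  obtain ⟨ψ, hψ, hψe, hψS⟩ := hnorm.2 P φ hφ
  obtain ⟨-, -, g, hg⟩ := hψ
  refine ⟨g, ?_, fun x => (hψe x).symm.trans (hg _)⟩
  have key : ∀ y, y ∈ (S : Subgroup G) ↔ ∃ x : G, x ∈ (S : Subgroup G) ∧ g * x * g⁻¹ = y := by
    intro y
    conv_lhs => rw [← hψS]
    rw [FusionSys.mem_map_subgroupOf]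
    constructor
    · rintro ⟨x, hx, rfl⟩
      exact ⟨x, hx, (hg x).symm⟩
    · rintro ⟨x, hx, rfl⟩
      exact ⟨⟨x, Subgroup.mem_sup_right hx⟩, hx, hg _⟩
  refine Subgroup.mem_normalizer_iff.2 fun y => ⟨fun hy => (key _).2 ⟨y, hy, rfl⟩, fun hy => ?_⟩
  obtain ⟨x, hx, he⟩ := (key _).1 hy
  rwa [mul_left_cancel (mul_right_cancel he)] at hx

end Cfsg.Agent.S5107
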