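import Cfsg.Statements.S5112
import Cfsg.Agent.FusionSys.DihedralAut

set_option autoImplicit false
open Cfsg

namespace Cfsg.Agent.S5112

/-- If S is a dihedral or generalized quaternion 2-group of order at least 16, then in every saturated fusion system over S (at the prime 2) the automorphism group Aut_F(S) consists of the inner automorphisms of S. -/
theorem result {Ω : Type*} [Group Ω] {S : Subgroup Ω} [Finite S] (n : ℕ) (hn : 4 ≤ n) (hshape : Nonempty (S ≃* DihedralGroup (2 ^ (n - 1))) ∨ Nonempty (S ≃* QuaternionGroup (2 ^ (n - 2)))) (F : Cfsg.FusionSystem S) (hF : F.IsSaturated 2) : F.autGroup S = Cfsg.Inn S := by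
  haveI : Fact (Nat.Prime 2) := ⟨Nat.prime_two⟩
  have hS : IsPGroup 2 S := by
    rcases hshape with h | h <;> obtain ⟨e⟩ := h
    · refine IsPGroup.of_card (n := n) ?_
      rw [Nat.card_congr e.toEquiv, DihedralGroup.nat_card, ← pow_succ',
        Nat.sub_add_cancel (by omega)]
    · refine IsPGroup.of_card (n := n) ?_
      haveI : NeZero (2 ^ (n - 2)) := ⟨by positivity⟩
      rw [Nat.card_congr e.toEquiv, Nat.card_eq_fintype_card, QuaternionGroup.card,
        show 4 = 2 ^ 2 from rfl, ← pow_add, Nat.add_sub_cancel' (by omega)]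
  refine FusionSys.autGroup_top_eq_inn_of_isPGroup hS hF ?_
  rcases hshape with h | h <;> obtain ⟨e⟩ := h
  · exact (FusionSys.isPGroup_mulAut_dihedral (n - 1) (by omega)).of_equiv (MulAut.congr e.symm)
  · exact (FusionSys.isPGroup_mulAut_quaternion (n - 2) (by omega)).of_equiv (MulAut.congr e.symm)

end Cfsg.Agent.S5112
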