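import Cfsg.Agent.FusionAlperin.IndexPrime
import Cfsg.Statements.S5114
-- import your own Cfsg.Agent.* helpers here

set_option autoImplicit false
open Cfsg

namespace Cfsg.Agent.S5114

open Cfsg.Agent.FusionAlperin Cfsg.Agent.FusionSys Cfsg.FusionSystem


/-- Let F be a saturated fusion system over a finite p-group S and E a fusion system over S contained in F. If Aut_E(P) contains the subgroup of Aut_F(P) generated by its elements of p-power order for every subgroup P that is centric in F, then the same holds for every subgroup of S (E has index prime to p in F), every map of F with source a subgroup P of S is an element of Aut_F(S) composed with a map of E, and a subgroup is centric in E exactly when it is centric in F. -/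
theorem result {Ω : Type*} [Group Ω] {S : Subgroup Ω} [Finite S] (p : ℕ) [Fact p.Prime] (hS : IsPGroup p S) (F : Cfsg.FusionSystem S) (hF : F.IsSaturated p) (E : Cfsg.FusionSystem S) (hEF : E.IsSubsystemOf F) (h : ∀ P : Subgroup Ω, F.IsCentric P → (Subgroup.closure {α : ↥(F.autGroup P) | ∃ k : ℕ, orderOf α = p ^ k}).map (F.autGroup P).subtype ≤ E.autGroup P) : E.HasPrimeToPIndexIn F p ∧ (∀ (P : Subgroup Ω) (φ : P →* Ω), φ ∈ F.Hom P → ∃ α ∈ F.autGroup S, ∃ φ₀ ∈ E.Hom P, ∀ (x : P) (hx : φ₀ x ∈ S), φ x = ((α ⟨φ₀ x, hx⟩ : S) : Ω)) ∧ ∀ P : Subgroup Ω, E.IsCentric P ↔ F.IsCentric P := by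
  have hle : centricPElemSystem F p ≤ E := centricPElemSystem_le h
  have hmono : ∀ P, (centricPElemSystem F p).autGroup P ≤ E.autGroup P := fun P =>
    autGroup_mono hle P
  refine ⟨⟨hEF, fun P hP => (centricPElem_index hS hF hP).trans (hmono P)⟩, fun P φ hφ => ?_,
    fun P => ⟨fun hP => ⟨hP.1, fun Q hQ => ?_⟩, fun hP => ?_⟩⟩
  · obtain ⟨α, hα, φ₀, hφ₀, he⟩ := centricPElem_decomp hS hF hφ
    exact ⟨α, hα, φ₀, hle P hφ₀, fun x hx => (he x).trans (autExt_of_mem α hx)⟩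
  · obtain ⟨φ, hφ, rfl⟩ := hQ
    obtain ⟨α, hα, φ₀, hφ₀, he⟩ := centricPElem_decomp hS hF hφ
    have h0 := hP.2 φ₀.range ⟨φ₀, hle P hφ₀, rfl⟩
    have hv : ∀ x, φ₀ x ∈ S := map_mem_S _ hφ₀
    intro c hc
    have hcS := hc.1
    have hc' : ((α⁻¹ ⟨c, hcS⟩ : S) : Ω) ∈ centralizerIn S φ₀.range := by
      refine mem_centralizerIn.2 ⟨(α⁻¹ ⟨c, hcS⟩).2, ?_⟩
      rintro _ ⟨x, rfl⟩
      have h1 : (⟨φ x, map_mem_S F hφ x⟩ : S) * ⟨c, hcS⟩ = ⟨c, hcS⟩ * ⟨φ x, map_mem_S F hφ x⟩ :=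
        Subtype.ext (hc.2 _ ⟨x, rfl⟩)
      have h2 : α⁻¹ ⟨φ x, map_mem_S F hφ x⟩ = ⟨φ₀ x, hv x⟩ := by
        have h3 : (⟨φ x, map_mem_S F hφ x⟩ : S) = α ⟨φ₀ x, hv x⟩ :=
          Subtype.ext ((he x).trans (autExt_of_mem α (hv x)))
        rw [h3]
        exact α.symm_apply_apply _
      have h4 := congrArg (fun w => ((α⁻¹ w : S) : Ω)) h1
      simp only [map_mul, h2, Subgroup.coe_mul] at h4
      exact h4
    obtain ⟨x, hx⟩ := h0 hc'
    refine ⟨x, ?_⟩
    rw [he x, autExt_of_mem α (hv x)]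
    have h5 : (⟨φ₀ x, hv x⟩ : S) = α⁻¹ ⟨c, hcS⟩ := Subtype.ext hx
    rw [h5]
    exact congrArg Subtype.val (α.apply_symm_apply ⟨c, hcS⟩)
  · exact ⟨hP.1, fun Q ⟨φ, hφ, hr⟩ => hP.2 Q ⟨φ, hEF P hφ, hr⟩⟩

end Cfsg.Agent.S5114
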