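import Cfsg.Agent.FusionAlperin.ConstrainedGroupSub
import Cfsg.Statements.S5121
-- import your own Cfsg.Agent.* helpers here

set_option autoImplicit false
open Cfsg

namespace Cfsg.Agent.S5121

open Cfsg.Agent.FusionAlperin Cfsg.Agent.FusionSys Cfsg.FusionSystem


/-- Let G be a finite group with Sylow p-subgroup S and C_G(O_p(G)) ≤ O_p(G). For every subgroup T ≤ S and every normal subsystem E over T of the fusion system of G on S there is exactly one normal subgroup H of G containing T as a Sylow p-subgroup whose fusion system on T is E. -/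
theorem result {G : Type*} [Group G] [Finite G] (p : ℕ) [Fact p.Prime] (S : Sylow p G) (hG : Subgroup.centralizer ((Cfsg.pCore p G : Subgroup G) : Set G) ≤ Cfsg.pCore p G) (T : Subgroup G) (hTS : T ≤ S) (E : Cfsg.FusionSystem T) (hE : E.IsNormalIn (Cfsg.groupFusionSystem (S : Subgroup G)) p) : ∃ H : Subgroup G, (∃ hTH : T ≤ H, H.Normal ∧ (∃ R : Sylow p H, (R : Subgroup H) = T.subgroupOf H) ∧ ∀ P : Subgroup G, E.Hom P = (Cfsg.fusionSystemOfSubgroup H T hTH).Hom P) ∧ ∀ H' : Subgroup G, (∃ hTH' : T ≤ H', H'.Normal ∧ (∃ R : Sylow p H', (R : Subgroup H') = T.subgroupOf H') ∧ ∀ P : Subgroup G, E.Hom P = (Cfsg.fusionSystemOfSubgroup H' T hTH').Hom P) → H' = H := by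
  have hEi := hE.1.2.2
  have hn := inf_pCore_normal S hEi.2.1
  have hle : T ≤ subsystemGroup p E (T ⊓ Cfsg.pCore p G) := fun t ht =>
    Subgroup.subset_closure (Or.inl ht)
  refine ⟨subsystemGroup p E (T ⊓ Cfsg.pCore p G), ⟨hle, subsystemGroup_normal S hG hE rfl, ?_,
    subsystemGroup_hom S hG hE rfl hle⟩, ?_⟩
  · have := subsystemGroup_normal S hG hE rfl
    have h := sylIn_inf_of_normal S (subsystemGroup p E (T ⊓ Cfsg.pCore p G))
    rw [← T_eq_inf_subsystemGroup S hG hE rfl] at h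
    exact h.2
  · rintro H' ⟨hTH', hn', hsyl, hhom⟩
    exact eq_subsystemGroup S hG hE rfl hTH' hn' ⟨hTH', hsyl⟩ hhom

end Cfsg.Agent.S5121
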