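import Cfsg.Agent.FusionAlperin.GroupLemmas
import Cfsg.Statements.S5122
-- import your own Cfsg.Agent.* helpers here

set_option autoImplicit false
open Cfsg

namespace Cfsg.Agent.S5122

open Cfsg.Agent.FusionAlperin

theorem autInducedBy_eq {G : Type*} [Group G] (K Q : Subgroup G) :
    Cfsg.autInducedBy K Q =
      (K.subgroupOf (Subgroup.normalizer (Q : Set G))).map Q.normalizerMonoidHom := by
  refine le_antisymm ((Subgroup.closure_le _).2 ?_) ?_
  · rintro α ⟨g, hgK, hg⟩
    have hgN : g ∈ Subgroup.normalizer (Q : Set G) := by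
      refine Subgroup.mem_set_normalizer_iff.2 fun x => ⟨fun hx => ?_, fun hx => ?_⟩
      · have h := (α ⟨x, hx⟩).2
        rw [hg ⟨x, hx⟩] at h
        exact h
      · have h := hg (α.symm ⟨_, hx⟩)
        rw [α.apply_symm_apply] at h
        have h2 : x = ((α.symm ⟨_, hx⟩ : Q) : G) := mul_left_cancel (mul_right_cancel h)
        exact h2 ▸ (α.symm ⟨_, hx⟩).2
    refine ⟨⟨g, hgN⟩, hgK, MulEquiv.ext fun x => Subtype.ext ?_⟩
    exact (hg x).symm
  · rintro _ ⟨g, hg, rfl⟩
    exact Subgroup.subset_closure ⟨g, hg, fun x => rfl⟩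

theorem sylIn_map_conj {G : Type*} [Group G] [Finite G] {p : ℕ} {R N : Subgroup G} (g : G)
    (hR : SylIn p R N) :
    SylIn p (R.map (MulAut.conj g).toMonoidHom) (N.map (MulAut.conj g).toMonoidHom) := by
  refine ⟨Subgroup.map_mono hR.le, ?_⟩
  obtain ⟨T, hT, hRT⟩ := exists_sylIn_ge (p := p) (Subgroup.map_mono hR.le)
    (hR.isPGroup.map (MulAut.conj g).toMonoidHom)
  have hback : T.map (MulAut.conj g⁻¹).toMonoidHom ≤ R := by
    refine hR.le_of_ge ?_ (hT.isPGroup.map _) ?_
    · rintro _ ⟨x, hx, rfl⟩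
      obtain ⟨y, hy, rfl⟩ := hT.le hx
      simpa [MulAut.conj_apply, mul_assoc] using hy
    · intro x hx
      exact ⟨g * x * g⁻¹, hRT ⟨x, hx, rfl⟩, by simp [MulAut.conj_apply, mul_assoc]⟩
  have hTR : T = R.map (MulAut.conj g).toMonoidHom := by
    refine le_antisymm (fun x hx => ?_) hRT
    exact ⟨g⁻¹ * x * g, hback ⟨x, hx, by simp [MulAut.conj_apply]⟩,
      by simp [MulAut.conj_apply, mul_assoc]⟩
  exact hTR ▸ hT.2


/-- Let G be a finite group with Sylow p-subgroup S. Every subgroup P of S has a G-conjugate Q ≤ S such that N_S(Q) is a Sylow p-subgroup of N_G(Q); and for any Q ≤ S with that property, C_S(Q) is a Sylow p-subgroup of C_G(Q) and the automorphisms of Q induced by N_S(Q) form a Sylow p-subgroup of those induced by N_G(Q). -/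
theorem result {G : Type*} [Group G] [Finite G] (p : ℕ) [Fact p.Prime] (S : Sylow p G) : (∀ P : Subgroup G, P ≤ S → ∃ g : G, P.map (MulAut.conj g).toMonoidHom ≤ S ∧ (∃ R : Sylow p ↥(Subgroup.normalizer ((P.map (MulAut.conj g).toMonoidHom : Subgroup G) : Set G)), (R : Subgroup ↥(Subgroup.normalizer ((P.map (MulAut.conj g).toMonoidHom : Subgroup G) : Set G))) = (Cfsg.FusionSystem.normalizerIn (S : Subgroup G) (P.map (MulAut.conj g).toMonoidHom)).subgroupOf (Subgroup.normalizer ((P.map (MulAut.conj g).toMonoidHom : Subgroup G) : Set G)))) ∧ ∀ Q : Subgroup G, Q ≤ S → (∃ R : Sylow p ↥(Subgroup.normalizer (Q : Set G)), (R : Subgroup ↥(Subgroup.normalizer (Q : Set G))) = (Cfsg.FusionSystem.normalizerIn (S : Subgroup G) Q).subgroupOf (Subgroup.normalizer (Q : Set G))) → (∃ R : Sylow p ↥(Subgroup.centralizer (Q : Set G)), (R : Subgroup ↥(Subgroup.centralizer (Q : Set G))) = (Cfsg.FusionSystem.centralizerIn (S : Subgroup G) Q).subgroupOf (Subgroup.centralizer (Q : Set G))) ∧ (∃ R : Sylow p ↥(Cfsg.autInducedBy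 ⊤ Q), (R : Subgroup ↥(Cfsg.autInducedBy ⊤ Q)) = (Cfsg.autInducedBy (S : Subgroup G) Q).subgroupOf (Cfsg.autInducedBy ⊤ Q)) := by
  constructor
  · intro P hP
    have hPp : IsPGroup p P := S.2.to_le hP
    obtain ⟨R, hR, hPR⟩ := exists_sylIn_ge (p := p) (N := Subgroup.normalizer (P : Set G))
      Subgroup.le_normalizer hPp
    obtain ⟨U, hU⟩ := hR.isPGroup.exists_le_sylow
    obtain ⟨g, hg⟩ := MulAction.exists_smul_eq G U S
    have hgS : ∀ x ∈ U, g * x * g⁻¹ ∈ (S : Subgroup G) := by
      intro x hx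
      have h : MulAut.conj g x ∈ (g • U : Sylow p G) :=
        Subgroup.smul_mem_pointwise_smul x (MulAut.conj g) (U : Subgroup G) hx
      rw [hg] at h
      exact h
    refine ⟨g, ?_, ?_⟩
    · rintro _ ⟨x, hx, rfl⟩
      exact hgS x (hU (hPR hx))
    · have heq : (Subgroup.normalizer (P : Set G)).map (MulAut.conj g).toMonoidHom =
          Subgroup.normalizer ((P.map (MulAut.conj g).toMonoidHom : Subgroup G) : Set G) :=
        Subgroup.map_equiv_normalizer_eq P (MulAut.conj g)
      have hR' : SylIn p (R.map (MulAut.conj g).toMonoidHom)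
          (Subgroup.normalizer ((P.map (MulAut.conj g).toMonoidHom : Subgroup G) : Set G)) :=
        heq ▸ sylIn_map_conj g hR
      have hle : Cfsg.FusionSystem.normalizerIn (S : Subgroup G) (P.map (MulAut.conj g).toMonoidHom) =
          R.map (MulAut.conj g).toMonoidHom := by
        have h1 : R.map (MulAut.conj g).toMonoidHom ≤
            Cfsg.FusionSystem.normalizerIn (S : Subgroup G) (P.map (MulAut.conj g).toMonoidHom) := by
          refine le_inf ?_ hR'.le
          rintro _ ⟨x, hx, rfl⟩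
          exact hgS x (hU hx)
        exact le_antisymm (hR'.le_of_ge inf_le_right (S.2.to_le inf_le_left) h1) h1
      rw [hle]
      exact hR'.2
  · intro Q hQ hN
    have h : SylIn p (Cfsg.FusionSystem.normalizerIn (S : Subgroup G) Q)
        (Subgroup.normalizer (Q : Set G)) := ⟨inf_le_right, hN⟩
    have hCN : Subgroup.centralizer (Q : Set G) ≤ Subgroup.normalizer (Q : Set G) :=
      Subgroup.centralizer_le_normalizer _
    constructor
    · have h2 := h.inf_normal hCN (fun n hn c hc => by
        refine Subgroup.mem_centralizer_iff.2 fun q hq => ?_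
        have hn' : n⁻¹ * q * n ∈ (Q : Set G) := (Subgroup.mem_normalizer_iff''.1 hn q).1 hq
        have hc' := Subgroup.mem_centralizer_iff.1 hc _ hn'
        calc q * (n * c * n⁻¹) = n * ((n⁻¹ * q * n) * c) * n⁻¹ := by group
          _ = n * (c * (n⁻¹ * q * n)) * n⁻¹ := by rw [hc']
          _ = n * c * n⁻¹ * q := by group)
      have e : Cfsg.FusionSystem.normalizerIn (S : Subgroup G) Q ⊓ Subgroup.centralizer (Q : Set G) =
          Cfsg.FusionSystem.centralizerIn (S : Subgroup G) Q := by
        show (S : Subgroup G) ⊓ _ ⊓ _ = (S : Subgroup G) ⊓ _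
        rw [inf_assoc, inf_eq_right.2 hCN]
      rw [e] at h2
      exact h2.2
    · obtain ⟨T, hT⟩ := hN
      have hsurj : Function.Surjective Q.normalizerMonoidHom.rangeRestrict :=
        Q.normalizerMonoidHom.rangeRestrict_surjective
      have htop : Cfsg.autInducedBy ⊤ Q = Q.normalizerMonoidHom.range := by
        rw [autInducedBy_eq, Subgroup.top_subgroupOf, MonoidHom.range_eq_map]
      rw [htop]
      refine ⟨T.mapSurjective hsurj, ?_⟩
      rw [Sylow.coe_mapSurjective, hT, autInducedBy_eq]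
      have e : (Cfsg.FusionSystem.normalizerIn (S : Subgroup G) Q).subgroupOf
          (Subgroup.normalizer (Q : Set G)) = (S : Subgroup G).subgroupOf (Subgroup.normalizer (Q : Set G)) := by
        ext x
        simp [Cfsg.FusionSystem.normalizerIn, Subgroup.mem_subgroupOf]
      rw [e]
      ext α
      constructor
      · rintro ⟨x, hx, rfl⟩
        exact ⟨x, hx, rfl⟩
      · rintro ⟨x, hx, hxα⟩
        exact ⟨x, hx, Subtype.ext hxα⟩

end Cfsg.Agent.S5122
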