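import Cfsg.Agent.FusionAlperin.GroupLemmas
import Cfsg.Statements.S5123
-- import your own Cfsg.Agent.* helpers here

set_option autoImplicit false
open Cfsg

namespace Cfsg.Agent.S5123

open Cfsg.Agent.FusionAlperin
open scoped Pointwise


/-- Let G be a finite group with Sylow p-subgroup S, P, Q ≤ S and g ∈ G with gPg⁻¹ = Q, and suppose N_S(Q) is a Sylow p-subgroup of N_G(Q). Let N be the set of x ∈ N_S(P) with gxg⁻¹ ∈ N_S(Q)C_G(Q). Then some h ∈ C_G(Q) satisfies (hg)N(hg)⁻¹ ≤ S. -/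
theorem result {G : Type*} [Group G] [Finite G] (p : ℕ) [Fact p.Prime] (S : Sylow p G) (P Q : Subgroup G) (hP : P ≤ S) (hQ : Q ≤ S) (g : G) (hg : P.map (MulAut.conj g).toMonoidHom = Q) (hN : (∃ R : Sylow p ↥(Subgroup.normalizer (Q : Set G)), (R : Subgroup ↥(Subgroup.normalizer (Q : Set G))) = (Cfsg.FusionSystem.normalizerIn (S : Subgroup G) Q).subgroupOf (Subgroup.normalizer (Q : Set G)))) : ∃ h ∈ Subgroup.centralizer (Q : Set G), ((Cfsg.FusionSystem.normalizerIn (S : Subgroup G) P) ⊓ (Cfsg.FusionSystem.normalizerIn (S : Subgroup G) Q ⊔ Subgroup.centralizer (Q : Set G)).comap (MulAut.conj g).toMonoidHom).map (MulAut.conj (h * g)).toMonoidHom ≤ S := by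
  have hNS : SylIn p (Cfsg.FusionSystem.normalizerIn (S : Subgroup G) Q)
      (Subgroup.normalizer (Q : Set G)) := ⟨inf_le_right, hN⟩
  set N := (Cfsg.FusionSystem.normalizerIn (S : Subgroup G) P) ⊓
    (Cfsg.FusionSystem.normalizerIn (S : Subgroup G) Q ⊔ Subgroup.centralizer (Q : Set G)).comap
      (MulAut.conj g).toMonoidHom with hNdef
  set M := Cfsg.FusionSystem.normalizerIn (S : Subgroup G) Q ⊔ Subgroup.centralizer (Q : Set G)
  have hMN : M ≤ Subgroup.normalizer (Q : Set G) :=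
    sup_le inf_le_right (Subgroup.centralizer_le_normalizer _)
  have hMs : SylIn p (Cfsg.FusionSystem.normalizerIn (S : Subgroup G) Q) M := by
    refine ⟨le_sup_left, ?_⟩
    obtain ⟨T, hT, hle⟩ := exists_sylIn_ge (p := p) (N := M) le_sup_left hNS.isPGroup
    have : T = Cfsg.FusionSystem.normalizerIn (S : Subgroup G) Q :=
      le_antisymm (hNS.le_of_ge (hT.le.trans hMN) hT.isPGroup hle) hle
    exact this ▸ hT.2
  have hXM : N.map (MulAut.conj g).toMonoidHom ≤ M := by
    rintro _ ⟨x, hx, rfl⟩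
    exact hx.2
  have hXp : IsPGroup p (N.map (MulAut.conj g).toMonoidHom) :=
    (S.2.to_le (inf_le_left.trans inf_le_left)).map _
  obtain ⟨m, hm, hconj⟩ := hMs.exists_conj_le hXM hXp
  have hnormC : Cfsg.FusionSystem.normalizerIn (S : Subgroup G) Q ≤
      Subgroup.normalizer ((Subgroup.centralizer (Q : Set G) : Subgroup G) : Set G) := by
    have hstab : ∀ n ∈ Subgroup.normalizer (Q : Set G), ∀ c ∈ Subgroup.centralizer (Q : Set G),
        n * c * n⁻¹ ∈ Subgroup.centralizer (Q : Set G) := by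
      intro n hn c hc
      refine Subgroup.mem_centralizer_iff.2 fun q hq => ?_
      have hn' : n⁻¹ * q * n ∈ (Q : Set G) := (Subgroup.mem_normalizer_iff''.1 hn q).1 hq
      have hc' := Subgroup.mem_centralizer_iff.1 hc _ hn'
      calc q * (n * c * n⁻¹) = n * ((n⁻¹ * q * n) * c) * n⁻¹ := by group
        _ = n * (c * (n⁻¹ * q * n)) * n⁻¹ := by rw [hc']
        _ = n * c * n⁻¹ * q := by group
    intro n hn
    refine Subgroup.mem_normalizer_iff.2 fun c => ⟨fun hc => hstab n hn.2 c hc, fun hc => ?_⟩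
    have h := hstab n⁻¹ (inv_mem hn.2) _ hc
    have e : n⁻¹ * (n * c * n⁻¹) * n⁻¹⁻¹ = c := by group
    rwa [e] at h
  have hm' : m ∈ (Cfsg.FusionSystem.normalizerIn (S : Subgroup G) Q : Set G) *
      (Subgroup.centralizer (Q : Set G) : Set G) := by
    rw [← Subgroup.coe_mul_of_left_le_normalizer_right _ _ hnormC]
    exact hm
  obtain ⟨s, hs, h, hh, rfl⟩ := hm'
  refine ⟨h, hh, ?_⟩
  rintro _ ⟨x, hx, rfl⟩
  have h1 := hconj (g * x * g⁻¹) ⟨x, hx, rfl⟩
  have h2 := mul_mem (mul_mem (inv_mem (show s ∈ Cfsg.FusionSystem.normalizerIn (S : Subgroup G) Q from hs)) h1)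
    (show s ∈ Cfsg.FusionSystem.normalizerIn (S : Subgroup G) Q from hs)
  have e : s⁻¹ * (s * h * (g * x * g⁻¹) * (s * h)⁻¹) * s = h * g * x * (h * g)⁻¹ := by group
  rw [e] at h2
  exact h2.1

end Cfsg.Agent.S5123
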