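import Cfsg.Agent.FusionAlperin.DirectFactor
import Cfsg.Statements.S5130
-- import your own Cfsg.Agent.* helpers here

set_option autoImplicit false
open Cfsg

namespace Cfsg.Agent.S5130

open Cfsg.Agent.FusionAlperin Cfsg.Agent.FusionSys Cfsg.FusionSystem


/-- Let F be a saturated fusion system over a finite p-group S that is the direct product of two subgroups S₁ and S₂, each strongly closed in F. Let R be the full subsystem of F over S₁ (all maps of F between subgroups of S₁) and R′ the subsystem over S₁ of those maps that extend to the subgroup generated with S₂ fixing S₂ elementwise. Then R and R′ are saturated, R′ is normal in F and in R, and R is weakly normal in F. -/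
theorem result {Ω : Type*} [Group Ω] {S : Subgroup Ω} [Finite S] (p : ℕ) [Fact p.Prime] (hS : IsPGroup p S) (F : Cfsg.FusionSystem S) (hF : F.IsSaturated p) (S₁ S₂ : Subgroup Ω) (hprod : Cfsg.IsInternalDirectProduct S₁ S₂ S) (h₁ : F.StronglyClosed S₁) (h₂ : F.StronglyClosed S₂) (R R' : Cfsg.FusionSystem S₁) (hR : ∀ P : Subgroup Ω, P ≤ S₁ → R.Hom P = F.Hom P) (hR' : ∀ P : Subgroup Ω, P ≤ S₁ → R'.Hom P = F.centralizerHom S₂ P) : R.IsSaturated p ∧ R'.IsSaturated p ∧ R'.IsNormalIn F p ∧ R'.IsNormalIn R p ∧ R.IsWeaklyNormalIn F p := by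
  obtain ⟨h1S, h2S, hcomm, hinf, hsup⟩ := hprod
  have hF2 : F.IsFullyCentralized S₂ := by
    refine ⟨h2S, fun Q hQ => ?_⟩
    obtain ⟨χ, hχ, rfl⟩ := hQ
    have : Finite S₂ := FusionSys.finite_of_le ‹_› h2S
    rw [FusionSys.range_eq_of_image_le (F.injective_of_mem hχ)
      (by rintro _ ⟨x, rfl⟩; exact sc_map_mem h₂ hχ x.2) le_rfl]
  have h12 : S₁ ≤ centralizerIn S S₂ :=
    le_centralizerIn_of_commute h1S fun a ha b hb => (hcomm b hb a ha).symm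
  have h21 : S₂ ≤ centralizerIn S S₁ := le_centralizerIn_of_commute h2S hcomm
  have hgen : S ≤ S₁ ⊔ centralizerIn S S₁ := hsup.ge.trans (sup_le_sup_left h21 _)
  have hRsat : R.IsSaturated p := saturated_restrict_supplement hF h₁ hgen R hR
  have hR'sat : R'.IsSaturated p := by
    have hCs := FusionSys.centralizerSystem_saturated hS hF hF2
      (FusionSys.centSys_spec F S₂ h2S)
    have : Finite ↥(centralizerIn S S₂) :=
      FusionSys.finite_of_le ‹_› (FusionSys.centralizerIn_le S₂)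
    refine saturated_restrict_supplement hCs
      ⟨h12, fun P hP φ hφ x => h₁.2 P hP φ hφ.1 x⟩ ?_ R' hR'
    intro g hg
    obtain ⟨t, ht, c, hc, rfl⟩ := exists_decomp_of_le_sup hgen hg.1
    refine mul_mem (Subgroup.mem_sup_left ht) (Subgroup.mem_sup_right ⟨?_, hc.2⟩)
    simpa using mul_mem (InvMemClass.inv_mem (h12 ht)) hg
  have hRsub : R.IsSubsystemOf F := fun P φ hφ => hR P (FusionSys.le_S R hφ) ▸ hφ
  have hR'sub : R'.IsSubsystemOf F := fun P φ hφ => by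
    have hP := FusionSys.le_S R' hφ
    rw [hR' P hP] at hφ
    exact hφ.1
  have hR'R : R'.IsSubsystemOf R := fun P φ hφ => by
    have hP := FusionSys.le_S R' hφ
    rw [hR P hP]
    exact hR'sub P hφ
  have haut : ∀ {α : MulAut S₁}, α ∈ R.autGroup S₁ → α ∈ F.autGroup S₁ := fun h =>
    autGroup_congr_hom (hR S₁ le_rfl) ▸ h
  have haut' : ∀ {α : MulAut S₁}, α ∈ F.autGroup S₁ → α ∈ R.autGroup S₁ := fun h =>
    (autGroup_congr_hom (hR S₁ le_rfl)).symm ▸ h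
  -- invariance of the two systems
  have hinvR : ∀ (P : Subgroup Ω) (hPT : P ≤ S₁) (φ : P →* Ω), φ ∈ R.Hom P →
      ∀ α ∈ F.autGroup S₁,
      ∃ χ ∈ R.Hom ((P.subgroupOf S₁).map (S₁.subtype.comp α.toMonoidHom)),
        ∀ (x : P) (hφx : φ x ∈ S₁) (hαx : ((α ⟨x, hPT x.2⟩ : S₁) : Ω) ∈
            (P.subgroupOf S₁).map (S₁.subtype.comp α.toMonoidHom)),
          χ ⟨(α ⟨x, hPT x.2⟩ : S₁), hαx⟩ = ((α ⟨φ x, hφx⟩ : S₁) : Ω) := by
    intro P hPT φ hφ α hα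
    have hP' : (P.subgroupOf S₁).map (S₁.subtype.comp α.toMonoidHom) ≤ S₁ := by
      rintro _ ⟨x, -, rfl⟩
      exact (α x).2
    obtain ⟨φ₀, hφ₀, he⟩ : ∃ φ₀ ∈ F.Hom P, φ₀ = φ := ⟨φ, hRsub P hφ, rfl⟩
    subst he
    have ha := FusionSys.autGroup_mem_hom F h1S hα
    have ha' := FusionSys.autGroup_mem_hom F h1S ((F.autGroup S₁).inv_mem hα)
    have hmem : ∀ y : ↥((P.subgroupOf S₁).map (S₁.subtype.comp α.toMonoidHom)),
        ((α⁻¹ ⟨y, hP' y.2⟩ : S₁) : Ω) ∈ P := by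
      rintro ⟨_, x, hx, rfl⟩
      show ((α.symm (α x) : S₁) : Ω) ∈ P
      rw [MulEquiv.symm_apply_apply]
      exact hx
    have k1 := F.comp_mem (FusionSys.restr_mem F hP' ha') hφ₀ hmem
    have k2 := F.comp_mem k1 ha (fun y => h₁.2 P hPT φ₀ hφ₀ _)
    rw [← hR _ hP'] at k2
    refine ⟨_, k2, fun x hφx hαx => ?_⟩
    show ((α ⟨φ₀ ⟨((α.symm (α ⟨x, hPT x.2⟩) : S₁) : Ω), _⟩, _⟩ : S₁) : Ω) = _
    congr 2
    refine Subtype.ext (congrArg φ₀ (Subtype.ext ?_))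
    show ((α.symm (α ⟨x, hPT x.2⟩) : S₁) : Ω) = x
    rw [MulEquiv.symm_apply_apply]
  have hinvR' : ∀ (P : Subgroup Ω) (hPT : P ≤ S₁) (φ : P →* Ω), φ ∈ R'.Hom P →
      ∀ α ∈ F.autGroup S₁,
      ∃ χ ∈ R'.Hom ((P.subgroupOf S₁).map (S₁.subtype.comp α.toMonoidHom)),
        ∀ (x : P) (hφx : φ x ∈ S₁) (hαx : ((α ⟨x, hPT x.2⟩ : S₁) : Ω) ∈
            (P.subgroupOf S₁).map (S₁.subtype.comp α.toMonoidHom)),
          χ ⟨(α ⟨x, hPT x.2⟩ : S₁), hαx⟩ = ((α ⟨φ x, hφx⟩ : S₁) : Ω) := by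
    intro P hPT φ hφ α hα
    obtain ⟨χ, hχ, hχe⟩ := hinvR P hPT φ (hR'R P hφ) α hα
    refine ⟨χ, ?_, hχe⟩
    have hP' := FusionSys.le_S R hχ
    rw [hR _ hP'] at hχ
    rw [hR' P hPT] at hφ
    obtain ⟨-, -, -, ψ, hψ, hψP, hψ2⟩ := hφ
    obtain ⟨A, hA, hAe⟩ :=
      exists_aut_of_factor hF h₁ h₂ hsup hcomm (FusionSys.autGroup_mem_hom F h1S hα)
    rw [hR' _ hP']
    refine ⟨hχ, hP'.trans h12, fun y => h12 (h₁.2 _ hP' χ hχ y), ?_⟩
    have hA1 := FusionSys.autGroup_mem_hom F le_rfl hA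
    have hA2 := FusionSys.autGroup_mem_hom F le_rfl ((F.autGroup S).inv_mem hA)
    have hsrc : ((P.subgroupOf S₁).map (S₁.subtype.comp α.toMonoidHom)) ⊔ S₂ ≤ S :=
      sup_le (hP'.trans h1S) h2S
    have hback : ∀ (x : Ω) (hx : x ∈ P),
        ((A⁻¹ ⟨(α ⟨x, hPT hx⟩ : S₁), h1S (α ⟨x, hPT hx⟩).2⟩ : S) : Ω) = x := by
      intro x hx
      have : A ⟨x, h1S (hPT hx)⟩ = ⟨(α ⟨x, hPT hx⟩ : S₁), h1S (α ⟨x, hPT hx⟩).2⟩ :=
        Subtype.ext (hAe ⟨x, hPT hx⟩)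
      rw [← this]
      exact congrArg Subtype.val (A.symm_apply_apply _)
    have hmem : ∀ y, FusionSys.restr hsrc (S.subtype.comp A⁻¹.toMonoidHom) y ∈ P ⊔ S₂ := by
      have : (FusionSys.restr hsrc (S.subtype.comp A⁻¹.toMonoidHom)).range ≤ P ⊔ S₂ := by
        rw [range_sup_eq]
        refine sup_le ?_ ?_
        · rintro _ ⟨⟨_, hy⟩, ⟨x, hx, rfl⟩, rfl⟩
          refine Subgroup.mem_sup_left ?_
          show ((A⁻¹ ⟨_, _⟩ : S) : Ω) ∈ P
          have := hback x hx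
          exact this.symm ▸ hx
        · rintro _ ⟨y, hy, rfl⟩
          exact Subgroup.mem_sup_right
            (sc_map_mem h₂ (FusionSys.restr_mem F hsrc hA2) hy)
      exact fun y => this ⟨y, rfl⟩
    have k1 := F.comp_mem (FusionSys.restr_mem F hsrc hA2) hψ hmem
    have k2 := F.comp_mem k1 hA1 (fun y => FusionSys.map_mem_S F hψ _)
    refine ⟨_, k2, ?_, fun s => ?_⟩
    · rintro ⟨_, x, hx, rfl⟩
      have hφx : φ ⟨x, hx⟩ ∈ S₁ := hψP ⟨x, hx⟩ ▸ sc_map_mem h₁ hψ x.2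
      refine Eq.trans ?_ (hχe ⟨x, hx⟩ hφx ⟨x, hx, rfl⟩).symm
      refine Eq.trans ?_ (hAe ⟨φ ⟨x, hx⟩, hφx⟩)
      show ((A _ : S) : Ω) = _
      refine congrArg (fun z => ((A z : S) : Ω)) (Subtype.ext ?_)
      refine Eq.trans (congrArg ψ (Subtype.ext ?_)) (hψP ⟨x, hx⟩)
      exact hback x hx
    · have hs : ((A⁻¹ ⟨s, h2S s.2⟩ : S) : Ω) ∈ S₂ :=
        sc_map_mem h₂ hA2 (x := ⟨s, h2S s.2⟩) s.2
      show ((A _ : S) : Ω) = _
      refine Eq.trans (congrArg (fun z => ((A z : S) : Ω)) (Subtype.ext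
        (a2 := A⁻¹ ⟨s, h2S s.2⟩) ?_)) ?_
      · exact hψ2 ⟨_, hs⟩
      · exact congrArg Subtype.val (A.apply_symm_apply ⟨s, h2S s.2⟩)
  -- the Frattini condition
  have hfratR' : ∀ (P : Subgroup Ω), P ≤ S₁ → ∀ (φ : P →* Ω), φ ∈ F.Hom P →
      ∃ α ∈ F.autGroup S₁, ∃ φ₀ ∈ R'.Hom P,
        ∀ (x : P) (hx : φ₀ x ∈ S₁), φ x = ((α ⟨φ₀ x, hx⟩ : S₁) : Ω) := by
    intro P hP φ hφ
    have hφ1 : ∀ x, φ x ∈ S₁ := h₁.2 P hP φ hφ
    obtain ⟨ψ, hψ, hψP⟩ := exists_ext_sup hF h₂ hφ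
      (le_centralizerIn_of_commute h2S fun a ha => hcomm a (hP ha))
      (le_centralizerIn_of_commute h2S fun a ha => by
        obtain ⟨x, rfl⟩ := ha
        exact hcomm _ (hφ1 x))
    obtain ⟨A, hA, hAe⟩ := exists_aut_of_factor hF h₂ h₁ (by rw [sup_comm, hsup])
      (fun a ha b hb => (hcomm b hb a ha).symm)
      (FusionSys.restr_mem F (le_sup_right : S₂ ≤ P ⊔ S₂) hψ)
    have hA1 := FusionSys.autGroup_mem_hom F le_rfl hA
    have hA2 := FusionSys.autGroup_mem_hom F le_rfl ((F.autGroup S).inv_mem hA)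
    have h1 := FusionSys.restr_mem F h1S hA1
    have : Finite S₁ := FusionSys.finite_of_le ‹_› h1S
    have hr := FusionSys.range_eq_of_image_le (F.injective_of_mem h1)
      (by rintro _ ⟨x, rfl⟩; exact sc_map_mem h₁ h1 x.2) le_rfl
    have hψ' := F.comp_mem hψ hA2 (FusionSys.map_mem_S F hψ)
    have hφ0 := FusionSys.restr_mem F (le_sup_left : P ≤ P ⊔ S₂) hψ'
    refine ⟨_, FusionSys.toIso_mem_autGroup F h1 hr,
      FusionSys.restr (le_sup_left : P ≤ P ⊔ S₂) ((S.subtype.comp A⁻¹.toMonoidHom).comp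
        (ψ.codRestrict S (FusionSys.map_mem_S F hψ))), ?_, fun x hx => ?_⟩
    · rw [hR' P hP]
      refine ⟨hφ0, hP.trans h12, fun x => h12 (h₁.2 P hP _ hφ0 x), _, hψ',
        fun x => rfl, fun s => ?_⟩
      show ((A⁻¹ ⟨ψ _, _⟩ : S) : Ω) = _
      have e : A ⟨s, h2S s.2⟩ =
          ⟨ψ ⟨s, Subgroup.mem_sup_right s.2⟩, FusionSys.map_mem_S F hψ _⟩ :=
        Subtype.ext (hAe s)
      exact (congrArg (fun z => ((A⁻¹ z : S) : Ω)) e.symm).trans
        (congrArg Subtype.val (A.symm_apply_apply _))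
    · refine (hψP x).symm.trans ?_
      rw [FusionSys.toIso_coe]
      exact (congrArg Subtype.val
        (A.apply_symm_apply ⟨ψ ⟨x, Subgroup.mem_sup_left x.2⟩, FusionSys.map_mem_S F hψ _⟩)).symm
  refine ⟨hRsat, hR'sat, ⟨⟨hR'sat, hF, hR'sub, h₁, hinvR', hfratR'⟩, ?_⟩,
    ⟨⟨hR'sat, hRsat, hR'R, ⟨le_rfl, fun P hP φ hφ => FusionSys.map_mem_S R hφ⟩,
      fun P hPT φ hφ α hα => hinvR' P hPT φ hφ α (haut hα),
      fun P hP φ hφ => by
        obtain ⟨α, hα, h⟩ := hfratR' P hP φ (hR P hP ▸ hφ)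
        exact ⟨α, haut' hα, h⟩⟩, ?_⟩,
    hRsat, hF, hRsub, h₁, hinvR, fun P hP φ hφ => ?_⟩
  · intro α hα
    have hαh := FusionSys.autGroup_mem_hom R' le_rfl hα
    rw [hR' S₁ le_rfl] at hαh
    obtain ⟨-, -, -, ψ, hψ, hψP, hψ2⟩ := hαh
    have hTS : S₁ ⊔ centralizerIn S S₁ = S :=
      le_antisymm (sup_le h1S (FusionSys.centralizerIn_le S₁)) hgen
    have hle : S₁ ⊔ centralizerIn S S₁ ≤ S₁ ⊔ S₂ := hTS.le.trans hsup.ge
    have hψr := FusionSys.restr_mem F hle hψ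
    have : Finite ↥(S₁ ⊔ centralizerIn S S₁) := FusionSys.finite_of_le ‹_› hTS.le
    have hr := FusionSys.range_eq_of_image_le (F.injective_of_mem hψr)
      ((FusionSys.range_le_S F hψr).trans hTS.ge) le_rfl
    refine ⟨_, FusionSys.toIso_mem_autGroup F hψr hr, fun x => hψP x, fun c hc => ?_⟩
    obtain ⟨t, ht, s, hs, hts⟩ := exists_mul_of_mem_sup hcomm (hle c.2)
    have htZ : t ∈ Subgroup.centralizer (S₁ : Set Ω) := by
      have : t = (c : Ω) * s⁻¹ := by rw [hts, mul_inv_cancel_right]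
      rw [this]
      exact mul_mem hc.2 (InvMemClass.inv_mem (h21 hs).2)
    have hval : ((FusionSys.toIso F hψr hr c : ↥(S₁ ⊔ centralizerIn S S₁)) : Ω) =
        ((α ⟨t, ht⟩ : S₁) : Ω) * s := by
      rw [FusionSys.toIso_coe, FusionSys.restr_apply]
      refine Eq.trans ?_ (congrArg₂ (· * ·) (hψP ⟨t, ht⟩) (hψ2 ⟨s, hs⟩))
      rw [← map_mul]
      exact congrArg ψ (Subtype.ext hts)
    rw [hval, hts, mul_inv_rev, hcomm _ (α ⟨t, ht⟩).2 s hs,
      show s⁻¹ * t⁻¹ * (s * ((α ⟨t, ht⟩ : S₁) : Ω)) =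
        s⁻¹ * (t⁻¹ * s) * ((α ⟨t, ht⟩ : S₁) : Ω) by group,
      hcomm _ (InvMemClass.inv_mem ht) s hs, inv_mul_cancel_left]
    refine ⟨S₁.mul_mem (S₁.inv_mem ht) (α ⟨t, ht⟩).2,
      (Subgroup.centralizer (S₁ : Set Ω)).mul_mem ((Subgroup.centralizer (S₁ : Set Ω)).inv_mem htZ) ?_⟩
    refine Subgroup.mem_centralizer_iff.2 fun b hb => ?_
    have hcz : α.symm ⟨b, hb⟩ * ⟨t, ht⟩ = ⟨t, ht⟩ * α.symm ⟨b, hb⟩ :=
      Subtype.ext (Subgroup.mem_centralizer_iff.1 htZ _ (α.symm ⟨b, hb⟩).2)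
    have := congrArg (fun z => ((α z : S₁) : Ω)) hcz
    simpa using this
  · intro α hα
    have hαR : α ∈ R.autGroup S₁ := by
      have h := FusionSys.autGroup_mem_hom R' le_rfl hα
      exact (FusionSys.mem_autGroup_iff_hom R le_rfl).2 (hR'R S₁ h)
    have hTS : S₁ ⊔ centralizerIn S₁ S₁ = S₁ :=
      sup_eq_left.2 (FusionSys.centralizerIn_le S₁)
    have hh := FusionSys.autGroup_mem_hom R le_rfl hαR
    have hr' := FusionSys.restr_mem R hTS.le hh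
    have : Finite S₁ := FusionSys.finite_of_le ‹_› h1S
    have : Finite ↥(S₁ ⊔ centralizerIn S₁ S₁) := FusionSys.finite_of_le ‹_› hTS.le
    have hr := FusionSys.range_eq_of_image_le (R.injective_of_mem hr')
      ((FusionSys.range_le_S R hr').trans hTS.ge) le_rfl
    refine ⟨_, FusionSys.toIso_mem_autGroup R hr' hr, fun x => rfl, fun c hc => ?_⟩
    rw [FusionSys.toIso_coe, FusionSys.restr_apply]
    refine ⟨S₁.mul_mem (S₁.inv_mem hc.1) (α ⟨c, hc.1⟩).2,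
      (Subgroup.centralizer (S₁ : Set Ω)).mul_mem ((Subgroup.centralizer (S₁ : Set Ω)).inv_mem hc.2) ?_⟩
    refine Subgroup.mem_centralizer_iff.2 fun b hb => ?_
    have hcz : α.symm ⟨b, hb⟩ * ⟨c, hc.1⟩ = ⟨c, hc.1⟩ * α.symm ⟨b, hb⟩ :=
      Subtype.ext (Subgroup.mem_centralizer_iff.1 hc.2 _ (α.symm ⟨b, hb⟩).2)
    have := congrArg (fun z => ((α z : S₁) : Ω)) hcz
    simp only [map_mul, MulEquiv.apply_symm_apply, Subgroup.coe_mul] at this
    exact this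
  · exact ⟨1, one_mem _, φ, (hR P hP).symm ▸ hφ, fun x hx => rfl⟩

end Cfsg.Agent.S5130
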