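import Cfsg.Agent.FusionAlperin.SubgroupSystem
import Cfsg.Agent.FusionSub.PIndex
import Cfsg.Agent.FusionSys.Focal
import Cfsg.Statements.S5139
-- import your own Cfsg.Agent.* helpers here

set_option autoImplicit false
open Cfsg

namespace Cfsg.Agent.S5139

open Cfsg.Agent.FusionAlperin Cfsg.Agent.FusionSys Cfsg.FusionSystem


/-- Let G be a finite group with Sylow p-subgroup S and O^p(G) the subgroup generated by the elements of order prime to p. Then the p-residual subsystem of the fusion system of G on S — the saturated subsystem of p-power index over the hyperfocal subgroup — is the fusion system of O^p(G) on S ∩ O^p(G): its maps are exactly the conjugation maps by elements of O^p(G) between subgroups of S ∩ O^p(G). -/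
theorem result {G : Type*} [Group G] [Finite G] (p : ℕ) [Fact p.Prime] (S : Sylow p G) (E : Cfsg.FusionSystem ((Cfsg.groupFusionSystem (S : Subgroup G)).hyperfocalSubgroup p)) (hE : (Cfsg.groupFusionSystem (S : Subgroup G)).IsPResidual p E) : ∃ h : (S : Subgroup G) ⊓ Cfsg.pResidual p G ≤ Cfsg.pResidual p G, ∀ P : Subgroup G, E.Hom P = (Cfsg.fusionSystemOfSubgroup (Cfsg.pResidual p G) ((S : Subgroup G) ⊓ Cfsg.pResidual p G) h).Hom P := by
  have hF := saturated_of_realized (groupFusionSystem_isRealizedBy (S : Subgroup G)) S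
    (Subgroup.range_subtype _).symm
  have hle : (S : Subgroup G) ⊓ Cfsg.pResidual p G ≤ Cfsg.pResidual p G := inf_le_right
  refine ⟨hle, ?_⟩
  haveI : (Cfsg.pResidual p G).Normal := inferInstance
  have hsat := fusionSystemOfSubgroup_saturated (sylIn_inf_of_normal (p := p) S (Cfsg.pResidual p G))
  -- over the same subgroup
  suffices key : ∀ (T : Subgroup G) (D : Cfsg.FusionSystem T),
      T = (S : Subgroup G) ⊓ Cfsg.pResidual p G → D.IsSaturated p →
      D.HasPPowerIndexIn (Cfsg.groupFusionSystem (S : Subgroup G)) p → ∀ P : Subgroup G,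
      D.Hom P = (Cfsg.fusionSystemOfSubgroup (Cfsg.pResidual p G)
        ((S : Subgroup G) ⊓ Cfsg.pResidual p G) hle).Hom P from
    key _ E (hyperfocal_group_eq S) hE.1 hE.2
  rintro T D rfl hDs hDi
  have hsub : (Cfsg.fusionSystemOfSubgroup (Cfsg.pResidual p G)
      ((S : Subgroup G) ⊓ Cfsg.pResidual p G) hle).IsSubsystemOf
      (Cfsg.groupFusionSystem (S : Subgroup G)) := fun P φ ⟨hP, hv, g, _, h⟩ =>
    ⟨hP.trans inf_le_left, fun x => (hv x).1, g, h⟩
  have hidx : (Cfsg.fusionSystemOfSubgroup (Cfsg.pResidual p G)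
      ((S : Subgroup G) ⊓ Cfsg.pResidual p G) hle).HasPPowerIndexIn
      (Cfsg.groupFusionSystem (S : Subgroup G)) p := by
    refine ⟨hsub, (hyperfocal_group_eq S).le, fun P hP => ?_⟩
    rintro _ ⟨α, hα, rfl⟩
    let f := P.normalizerMonoidHom.codRestrict
      ((Cfsg.groupFusionSystem (S : Subgroup G)).autGroup P)
      (normalizerMonoidHom_mem_autGroup (hP.trans inf_le_left))
    have hf : Function.Surjective f := fun β => by
      obtain ⟨n, hn⟩ := autGroup_group_le_range _ _ β.2
      exact ⟨n, Subtype.ext hn⟩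
    rw [← Cfsg.Agent.Cores.map_pResidual_of_surjective f hf] at hα
    obtain ⟨n, hn, rfl⟩ := hα
    exact autGroup_fusionSystemOfSubgroup_mem hP
      (Cfsg.Agent.Transfer.map_subtype_pResidual_le _ ⟨n, hn, rfl⟩) fun x => rfl
  intro P
  rw [Cfsg.Agent.FusionSub.pPowerIndex_unique (S.2.to_le inf_le_left) hDs hsat hDi hidx]

end Cfsg.Agent.S5139
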