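import Cfsg.Agent.FusionQd.ResidualSeries
import Cfsg.Agent.FusionModel.Exists
import Cfsg.Statements.S5156

set_option autoImplicit false
universe u
open Cfsg

namespace Cfsg.Agent.S5156

/-- A saturated fusion system over a finite p-group has a terminating alternating chain of p'-residual and p-residual subsystems (the chain reaches the trivial system — the notion of solvability adapted to fusion systems of p-solvable groups) if and only if it is constrained and its models are p-solvable (a model is a finite group realizing the system on a Sylow p-subgroup with self-centralizing largest normal p-subgroup; it exists and is unique up to isomorphism for constrained systems). -/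
theorem result {Ω : Type u} [Group Ω] {S : Subgroup Ω} [Finite S] (p : ℕ) [Fact p.Prime] (hS : IsPGroup p S) (F : Cfsg.FusionSystem S) (hF : F.IsSaturated p) : F.HasTerminatingResidualSeries p ↔ (F.IsConstrained p ∧ ∀ (G : Type u) [Group G] (ι : S →* G), F.IsModel p G ι → Cfsg.IsPSolvable p G) := by
  constructor
  · intro h
    obtain ⟨hab, hsolv⟩ := Cfsg.Agent.FusionQd.terminating_forward h hS hF
    exact ⟨Cfsg.Agent.FusionSub.constrained_of_solvable hS hF
      ((Cfsg.Agent.FusionSub.solvable_iff_abSeries hS hF).2 hab), hsolv⟩
  · rintro ⟨⟨-, Q, hQn, hQc⟩, hsolv⟩
    obtain ⟨G, _, ι, hM⟩ := Cfsg.Agent.FusionModel.exists_model_of_normal_centric hS hF hQn hQc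
    exact Cfsg.Agent.FusionQd.terminating_of_model _ rfl hS F hF G ι hM (hsolv G ι hM)

end Cfsg.Agent.S5156
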