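import Cfsg.Statements.S5163
import Cfsg.Agent.FusionPSL.Simple

set_option autoImplicit false
open Cfsg

namespace Cfsg.Agent.S5163

/-- For a finite field K of characteristic p and n ≥ 3, the p-fusion system of the projective special linear group PSL_n(K) on a Sylow p-subgroup is simple. -/
theorem result {K : Type*} [Field K] [Fintype K] (p : ℕ) [Fact p.Prime] [CharP K p] (n : ℕ) (hn : 3 ≤ n) (S : Sylow p (Matrix.ProjectiveSpecialLinearGroup (Fin n) K)) : (Cfsg.groupFusionSystem (S : Subgroup (Matrix.ProjectiveSpecialLinearGroup (Fin n) K))).IsSimple p := by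
  classical
  let π : Matrix.SpecialLinearGroup (Fin n) K →* Matrix.ProjectiveSpecialLinearGroup (Fin n) K :=
    QuotientGroup.mk' (Subgroup.center (Matrix.SpecialLinearGroup (Fin n) K))
  have hπ : Function.Surjective π := QuotientGroup.mk'_surjective _
  let U : Sylow p (Matrix.SpecialLinearGroup (Fin n) K) :=
    ⟨Cfsg.Agent.FusionPSL.utri, Cfsg.Agent.FusionPSL.isPGroup_utri p,
      fun hQ hle => le_antisymm (Cfsg.Agent.FusionPSL.utri_maximal p hQ hle) hle⟩
  obtain ⟨g, hg⟩ := MulAction.exists_smul_eq (Matrix.ProjectiveSpecialLinearGroup (Fin n) K)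
    (U.mapSurjective hπ) S
  refine Cfsg.Agent.FusionPSL.isSimple_of_hom ((MulAut.conj g).toMonoidHom.comp π) p hn
    ((MulAut.conj g).surjective.comp hπ) ?_ S ?_
  · intro x hx
    rw [MonoidHom.mem_ker, MonoidHom.comp_apply, MulEquiv.coe_toMonoidHom,
      EmbeddingLike.map_eq_one_iff] at hx
    exact (QuotientGroup.eq_one_iff x).1 hx
  · rw [← hg, ← Subgroup.map_map, Sylow.coe_subgroup_smul]
    rfl

end Cfsg.Agent.S5163
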