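import Cfsg.Statements.S5164
import Cfsg.Agent.FusionAlt.Sylow

set_option autoImplicit false
open Cfsg

namespace Cfsg.Agent.S5164

/-- For n ≥ 6 and a prime p, a nontrivial Sylow p-subgroup of the alternating group of degree n is abelian if and only if n < p². -/
theorem result (n p : ℕ) (hn : 6 ≤ n) [Fact p.Prime] (S : Sylow p (alternatingGroup (Fin n))) (hS : (S : Subgroup (alternatingGroup (Fin n))) ≠ ⊥) : IsMulCommutative S ↔ n < p ^ 2 := by
  classical
  clear hS
  have hp : p.Prime := Fact.out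
  obtain ⟨e₀⟩ := Cfsg.Agent.FusionAlt.exists_blocks p n
  have hr : Fintype.card (Fin n) < p * (Fintype.card (Fin (n / p)) + 1) := by
    simpa using Nat.lt_mul_div_succ n hp.pos
  obtain ⟨W'⟩ : Nonempty (Sylow p (Equiv.Perm (Fin (n / p)))) := inferInstance
  obtain ⟨e, he⟩ := Cfsg.Agent.FusionAlt.exists_eq_lift_inf e₀ W' hr S
  have hcomm : IsMulCommutative S ↔ ∀ x ∈ Cfsg.Agent.FusionAlt.lift e
      (W' : Subgroup (Equiv.Perm (Fin (n / p)))) ⊓ alternatingGroup (Fin n),
      ∀ y ∈ Cfsg.Agent.FusionAlt.lift e (W' : Subgroup (Equiv.Perm (Fin (n / p)))) ⊓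
        alternatingGroup (Fin n), x * y = y * x := by
    rw [← he]
    constructor
    · rintro ⟨⟨h⟩⟩ _ ⟨x, hx, rfl⟩ _ ⟨y, hy, rfl⟩
      exact congrArg Subtype.val (congrArg Subtype.val (h ⟨x, hx⟩ ⟨y, hy⟩) :)
    · intro h
      exact ⟨⟨fun x y => Subtype.ext (Subtype.ext
        (h _ ⟨_, x.2, rfl⟩ _ ⟨_, y.2, rfl⟩))⟩⟩
  rw [hcomm]
  constructor
  · intro h
    by_contra hlt
    have hm : p ≤ n / p := (Nat.le_div_iff_mul_le hp.pos).2 (by rw [← sq]; omega)
    obtain ⟨f, σ, hσ, hfσ, hfA, hσA⟩ : ∃ (f : Fin (n / p) → ZMod p) (σ : Equiv.Perm (Fin (n / p))),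
        σ ∈ (W' : Subgroup (Equiv.Perm (Fin (n / p)))) ∧ f ∘ σ.symm ≠ f ∧
        Cfsg.Agent.FusionAlt.shift e f ∈ alternatingGroup (Fin n) ∧
        Cfsg.Agent.FusionAlt.blk e σ ∈ alternatingGroup (Fin n) := by
      by_cases hp2 : p = 2
      · subst hp2
        obtain ⟨a, c, hac, hσ⟩ := Cfsg.Agent.FusionAlt.exists_swap_mem
          (by simpa using hm) W'
        obtain ⟨b, -, hb⟩ := Finset.exists_mem_notMem_of_card_lt_card
          (s := ({a, c} : Finset (Fin (n / 2)))) (t := Finset.univ)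
          (by rw [Finset.card_pair hac, Finset.card_univ, Fintype.card_fin]; omega)
        simp only [Finset.mem_insert, Finset.mem_singleton, not_or] at hb
        refine ⟨Cfsg.Agent.FusionAlt.ind {a, b}, Equiv.swap a c, hσ, fun h => ?_,
          Equiv.Perm.mem_alternatingGroup.2 ?_, Equiv.Perm.mem_alternatingGroup.2 ?_⟩
        · have := congrFun h a
          simp [Cfsg.Agent.FusionAlt.ind, hac.symm, Ne.symm hb.2] at this
        · rw [Cfsg.Agent.FusionAlt.sign_shift_two, Cfsg.Agent.FusionAlt.filter_ind,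
            Finset.card_pair (Ne.symm hb.1)]
          rfl
        · rw [Cfsg.Agent.FusionAlt.sign_blk, ZMod.card, Int.units_sq]
      · obtain ⟨σ, hσ, hσ1⟩ := (Subgroup.bot_or_exists_ne_one _).resolve_left
          (Cfsg.Agent.FusionAlt.sylow_perm_ne_bot (by simpa using hm) W')
        obtain ⟨j, hj⟩ : ∃ j, σ.symm j ≠ j := by
          by_contra hc
          push Not at hc
          exact hσ1 (Equiv.ext fun x => by simpa using (σ.symm_apply_eq.1 (hc x)).symm)
        refine ⟨Pi.single j 1, σ, hσ, fun h => ?_, ?_, ?_⟩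
        · have := congrFun h j
          simp [Pi.single_eq_of_ne hj] at this
        · exact Equiv.Perm.mem_alternatingGroup.2 (Cfsg.Agent.FusionAlt.sign_pow_prime_eq_one hp2
            (Cfsg.Agent.FusionAlt.shift_pow_prime e _))
        · refine Equiv.Perm.mem_alternatingGroup.2 ?_
          rw [Cfsg.Agent.FusionAlt.sign_blk, ZMod.card]
          obtain ⟨k, hk⟩ := IsPGroup.iff_orderOf.1 W'.2 ⟨σ, hσ⟩
          rw [Subgroup.orderOf_mk] at hk
          have h1 : Equiv.Perm.sign σ ^ p ^ k = 1 := by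
            rw [← map_pow, ← hk, pow_orderOf_eq_one, map_one]
          rcases Int.units_eq_one_or (Equiv.Perm.sign σ) with hs | hs
          · rw [hs, one_pow]
          · rw [hs, ((hp.odd_of_ne_two hp2).pow).neg_one_pow] at h1
            exact absurd h1 (by decide)
    have h2 := h _ ⟨Cfsg.Agent.FusionAlt.blk_mem_lift hσ, hσA⟩ _
      ⟨Cfsg.Agent.FusionAlt.shift_mem_lift f, hfA⟩
    rw [Cfsg.Agent.FusionAlt.blk_mul_shift] at h2
    exact hfσ (Cfsg.Agent.FusionAlt.shift_blk_inj e h2).1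
  · intro hlt x hx y hy
    have hbot : (W' : Subgroup (Equiv.Perm (Fin (n / p)))) = ⊥ := by
      rw [← Subgroup.card_eq_one]
      rw [Cfsg.Agent.FusionAlt.padicValNat_card_sylow, padicValNat.eq_zero_of_not_dvd, pow_zero]
      rw [Fintype.card_fin, hp.dvd_factorial, not_le, Nat.div_lt_iff_lt_mul hp.pos, ← sq]
      exact hlt
    obtain ⟨f, σ, hσ, rfl⟩ := hx.1
    obtain ⟨f', σ', hσ', rfl⟩ := hy.1
    rw [hbot, Subgroup.mem_bot] at hσ hσ'
    rw [hσ, hσ', map_one, mul_one, mul_one]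
    exact (Cfsg.Agent.FusionAlt.shift_commute e f f').eq

end Cfsg.Agent.S5164
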