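import Cfsg.Statements.S5166
import Cfsg.Agent.AutCert.Common
import Cfsg.Agent.Golay.FusionDataM11

set_option autoImplicit false
open Cfsg

namespace Cfsg.Agent.S5166

open Cfsg.Agent.Golay Cfsg.Agent.SchurCert Cfsg.Agent.AutCert
open scoped Pointwise


theorem tested : (m11FusGens ++ m11FusElts ++ m11FusVals).all validPair = true ∧ ∀ x ∈ m11FusGens ++ m11FusElts ++ m11FusVals,
    PreservesRows (codeFun x.1) ∧ codeFun x.1 (some 0) = some 0 ∧
      ∀ p, p ∈ Spor.squareDodecad → codeFun x.1 p ∈ Spor.squareDodecad := by
  decide +kernel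

theorem mem_group : ∀ x ∈ m11FusGens ++ m11FusElts ++ m11FusVals, permOfPair x ∈ Cfsg.Spor.M11 := by
  intro x hx
  have hv := List.all_eq_true.1 tested.1 x hx
  have h := tested.2 x hx
  exact ⟨⟨permOfPair_mem_M24 hv h.1, MulAction.mem_stabilizer_iff.2 (smul_eq_of_maps fun p hp => by
    rw [permOfPair_apply hv]; exact h.2.2 p hp)⟩,
    MulAction.mem_stabilizer_iff.2 ((permOfPair_apply hv _).trans h.2.1)⟩

theorem card_group : Nat.card Cfsg.Spor.M11 = 7920 := card_inf_stabilizer_dodecad_point squareDodecad_mem
    (by decide +kernel : (some 0 : GolayPt) ∈ Spor.squareDodecad)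

/-- The 2-fusion system of the Mathieu group M₁₁ (as the explicit permutation group carved out of the automorphism group of the binary Golay code) on a Sylow 2-subgroup is simple: saturated, over a nontrivial 2-group, with no normal subsystem other than the trivial one and itself. -/
theorem result (S : Sylow 2 Cfsg.Spor.M11) : (Cfsg.groupFusionSystem (S : Subgroup Cfsg.Spor.M11)).IsSimple 2 := by
  haveI : Finite Cfsg.Spor.M11 := Nat.finite_of_card_ne_zero (by rw [card_group]; norm_num)
  set gen := elemAt Cfsg.Spor.M11 m11FusGens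
  have hgen : ∀ i, (permCode Cfsg.Spor.M11).enc (gen i) = m11FusCert.gens.getD i permOne :=
    enc_elemAt (List.all_eq_true.2 fun x hx => List.all_eq_true.1 tested.1 x (List.mem_append_left _ (List.mem_append_left _ hx)))
      fun x hx => mem_group x (List.mem_append_left _ (List.mem_append_left _ hx))
  have hgs : ∀ i, (permCode Cfsg.Spor.M11).enc (elemAt Cfsg.Spor.M11 m11FusElts i) = m11FusCert.gs.getD i permOne :=
    enc_elemAt (List.all_eq_true.2 fun x hx => List.all_eq_true.1 tested.1 x (List.mem_append_left _ (List.mem_append_right _ hx)))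
      fun x hx => mem_group x (List.mem_append_left _ (List.mem_append_right _ hx))
  have hodd := odd_index_of_card m11FusCert gen hgen m11Fus_presOK card_group
    (m := 495) (by decide +kernel) (by norm_num)
  exact isSimple_of_fusCert m11FusCert gen (elemAt Cfsg.Spor.M11 m11FusElts) hgen hgs m11Fus_presOK
    m11Fus_centreOK m11Fus_fusOK (by decide +kernel) hodd
    (m11FusCert.normalizer_le gen hgen m11Fus_presOK m11Fus_centreOK m11FusBase
      m11Fus_baseOK Cfsg.Spor.M11 (fun x _ => x.2)
      (start_mem_of_list m11FusBase m11FusVals rfl (by decide +kernel)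
        (List.all_eq_true.2 fun x hx => List.all_eq_true.1 tested.1 x (List.mem_append_right _ hx))
        (fun x hx => mem_group x (List.mem_append_right _ hx)))
      (card_group.trans (by decide +kernel)) m11FusReps m11Fus_repsOK m11Fus_centOK) S

end Cfsg.Agent.S5166
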