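import Cfsg.Statements.S5167
import Cfsg.Agent.AutCert.Common
import Cfsg.Agent.Golay.FusionDataM12

set_option autoImplicit false
open Cfsg

namespace Cfsg.Agent.S5167

open Cfsg.Agent.Golay Cfsg.Agent.SchurCert Cfsg.Agent.AutCert
open scoped Pointwise


theorem tested : (m12FusGens ++ m12FusElts ++ m12FusVals).all validPair = true ∧ ∀ x ∈ m12FusGens ++ m12FusElts ++ m12FusVals,
    PreservesRows (codeFun x.1) ∧
      ∀ p, p ∈ Spor.squareDodecad → codeFun x.1 p ∈ Spor.squareDodecad := by
  decide +kernel

theorem mem_group : ∀ x ∈ m12FusGens ++ m12FusElts ++ m12FusVals, permOfPair x ∈ Cfsg.Spor.M12 := by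
  intro x hx
  have hv := List.all_eq_true.1 tested.1 x hx
  have h := tested.2 x hx
  exact ⟨permOfPair_mem_M24 hv h.1, MulAction.mem_stabilizer_iff.2 (smul_eq_of_maps fun p hp => by
    rw [permOfPair_apply hv]; exact h.2 p hp)⟩

theorem card_group : Nat.card Cfsg.Spor.M12 = 95040 := (card_inf_stabilizer_set squareDodecad_mem).1

/-- The 2-fusion system of the Mathieu group M₁₂ (as the explicit permutation group carved out of the automorphism group of the binary Golay code) on a Sylow 2-subgroup is simple: saturated, over a nontrivial 2-group, with no normal subsystem other than the trivial one and itself. -/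
theorem result (S : Sylow 2 Cfsg.Spor.M12) : (Cfsg.groupFusionSystem (S : Subgroup Cfsg.Spor.M12)).IsSimple 2 := by
  haveI : Finite Cfsg.Spor.M12 := Nat.finite_of_card_ne_zero (by rw [card_group]; norm_num)
  set gen := elemAt Cfsg.Spor.M12 m12FusGens
  have hgen : ∀ i, (permCode Cfsg.Spor.M12).enc (gen i) = m12FusCert.gens.getD i permOne :=
    enc_elemAt (List.all_eq_true.2 fun x hx => List.all_eq_true.1 tested.1 x (List.mem_append_left _ (List.mem_append_left _ hx)))
      fun x hx => mem_group x (List.mem_append_left _ (List.mem_append_left _ hx))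
  have hgs : ∀ i, (permCode Cfsg.Spor.M12).enc (elemAt Cfsg.Spor.M12 m12FusElts i) = m12FusCert.gs.getD i permOne :=
    enc_elemAt (List.all_eq_true.2 fun x hx => List.all_eq_true.1 tested.1 x (List.mem_append_left _ (List.mem_append_right _ hx)))
      fun x hx => mem_group x (List.mem_append_left _ (List.mem_append_right _ hx))
  have hodd := odd_index_of_card m12FusCert gen hgen m12Fus_presOK card_group
    (m := 1485) (by decide +kernel) (by norm_num)
  exact isSimple_of_fusCert m12FusCert gen (elemAt Cfsg.Spor.M12 m12FusElts) hgen hgs m12Fus_presOK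
    m12Fus_centreOK m12Fus_fusOK (by decide +kernel) hodd
    (m12FusCert.normalizer_le gen hgen m12Fus_presOK m12Fus_centreOK m12FusBase
      m12Fus_baseOK Cfsg.Spor.M12 (fun x _ => x.2)
      (start_mem_of_list m12FusBase m12FusVals rfl (by decide +kernel)
        (List.all_eq_true.2 fun x hx => List.all_eq_true.1 tested.1 x (List.mem_append_right _ hx))
        (fun x hx => mem_group x (List.mem_append_right _ hx)))
      (card_group.trans (by decide +kernel)) m12FusReps m12Fus_repsOK m12Fus_centOK) S

end Cfsg.Agent.S5167
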