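import Cfsg.Statements.S5169
import Cfsg.Agent.AutCert.Common
import Cfsg.Agent.Golay.FusionDataM23

set_option autoImplicit false
open Cfsg

namespace Cfsg.Agent.S5169

open Cfsg.Agent.Golay Cfsg.Agent.SchurCert Cfsg.Agent.AutCert
open scoped Pointwise


theorem tested : (m23FusGens ++ m23FusElts ++ m23FusVals).all validPair = true ∧ ∀ x ∈ m23FusGens ++ m23FusElts ++ m23FusVals,
    PreservesRows (codeFun x.1) ∧ codeFun x.1 none = none := by
  decide +kernel

theorem mem_group : ∀ x ∈ m23FusGens ++ m23FusElts ++ m23FusVals, permOfPair x ∈ Cfsg.Spor.M23 := by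
  intro x hx
  have hv := List.all_eq_true.1 tested.1 x hx
  have h := tested.2 x hx
  exact ⟨permOfPair_mem_M24 hv h.1, MulAction.mem_stabilizer_iff.2 ((permOfPair_apply hv _).trans h.2)⟩

theorem card_group : Nat.card Cfsg.Spor.M23 = 10200960 := card_inf_stabilizer_point none

theorem gens_fix : (∀ x ∈ m23FusGens, codeFun x.1 (some 11) = some 11) ∧
    (∀ x ∈ m23FusVals, codeFun x.1 (some 11) = some 11) ∧
    ∀ p : GolayPt, (∀ x ∈ m23FusGens, codeFun x.1 p = p) → p = some 11 ∨ p = none := by
  decide +kernel

theorem normalizer_fix (gen : ℕ → Cfsg.Spor.M23)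
    (hgen : ∀ i, (permCode Cfsg.Spor.M23).enc (gen i) = m23FusCert.gens.getD i permOne)
    (n : Cfsg.Spor.M23) (hn : n ∈ Subgroup.normalizer
      ((initGroup gen m23FusCert.P.n : Subgroup Cfsg.Spor.M23) : Set Cfsg.Spor.M23)) :
    n.1 ∈ Cfsg.Spor.M23 ⊓ MulAction.stabilizer (Equiv.Perm GolayPt) (some 11 : GolayPt) := by
  have hv : m23FusGens.all validPair = true := by decide +kernel
  have hlen : m23FusGens.length = m23FusCert.P.n := by decide +kernel
  have happ : ∀ i < m23FusCert.P.n, ∀ p, (gen i).1 p = codeFun (m23FusGens.getD i (permOne, permOne)).1 p := by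
    intro i hi p
    have hi' : i < m23FusGens.length := hlen ▸ hi
    have hval : validPair (m23FusGens.getD i (permOne, permOne)) = true := by
      rw [List.getD_eq_getElem _ _ hi']
      exact List.all_eq_true.1 hv _ (List.getElem_mem hi')
    have : (gen i).1 = permOfPair (m23FusGens.getD i (permOne, permOne)) := by
      refine encPerm_injective (((hgen i).trans ?_).trans (encPerm_permOfPair hval).symm)
      show (m23FusGens.map Prod.fst).getD i permOne = _
      rw [List.getD_eq_getElem _ _ hi',
        List.getD_eq_getElem (m23FusGens.map Prod.fst) _ (by simpa using hi'), List.getElem_map]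
    rw [this, permOfPair_apply hval]
  refine Subgroup.mem_inf.2 ⟨n.2, MulAction.mem_stabilizer_iff.2
    (apply_eq_of_unique_fixed hn (some 11) (fun s hs => ?_) (fun x hx => ?_)
      (MulAction.mem_stabilizer_iff.1 n.2.2) (by simp))⟩
  · refine MulAction.mem_stabilizer_iff.1 (?_ : s.1 ∈ MulAction.stabilizer (Equiv.Perm GolayPt) (some 11 : GolayPt))
    have hle : initGroup gen m23FusCert.P.n ≤
        (MulAction.stabilizer (Equiv.Perm GolayPt) (some 11 : GolayPt)).comap Cfsg.Spor.M23.subtype := by
      rw [initGroup, Subgroup.closure_le]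
      rintro _ ⟨i, hi, rfl⟩
      refine MulAction.mem_stabilizer_iff.2 ((happ i hi _).trans (gens_fix.1 _ ?_))
      rw [List.getD_eq_getElem _ _ (hlen ▸ hi : i < m23FusGens.length)]
      exact List.getElem_mem _
    exact hle hs
  · refine gens_fix.2.2 x fun y hy => ?_
    obtain ⟨i, hi, rfl⟩ := List.getElem_of_mem hy
    have h := happ i (hlen ▸ hi) x
    rw [List.getD_eq_getElem _ _ hi] at h
    exact h.symm.trans (hx _ (mem_initGroup gen (hlen ▸ hi)))

/-- The 2-fusion system of the Mathieu group M₂₃ (as the explicit permutation group carved out of the automorphism group of the binary Golay code) on a Sylow 2-subgroup is simple: saturated, over a nontrivial 2-group, with no normal subsystem other than the trivial one and itself. -/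
theorem result (S : Sylow 2 Cfsg.Spor.M23) : (Cfsg.groupFusionSystem (S : Subgroup Cfsg.Spor.M23)).IsSimple 2 := by
  haveI : Finite Cfsg.Spor.M23 := Nat.finite_of_card_ne_zero (by rw [card_group]; norm_num)
  set gen := elemAt Cfsg.Spor.M23 m23FusGens
  have hgen : ∀ i, (permCode Cfsg.Spor.M23).enc (gen i) = m23FusCert.gens.getD i permOne :=
    enc_elemAt (List.all_eq_true.2 fun x hx => List.all_eq_true.1 tested.1 x (List.mem_append_left _ (List.mem_append_left _ hx)))
      fun x hx => mem_group x (List.mem_append_left _ (List.mem_append_left _ hx))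
  have hgs : ∀ i, (permCode Cfsg.Spor.M23).enc (elemAt Cfsg.Spor.M23 m23FusElts i) = m23FusCert.gs.getD i permOne :=
    enc_elemAt (List.all_eq_true.2 fun x hx => List.all_eq_true.1 tested.1 x (List.mem_append_left _ (List.mem_append_right _ hx)))
      fun x hx => mem_group x (List.mem_append_left _ (List.mem_append_right _ hx))
  have hodd := odd_index_of_card m23FusCert gen hgen m23Fus_presOK card_group
    (m := 79695) (by decide +kernel) (by norm_num)
  exact isSimple_of_fusCert m23FusCert gen (elemAt Cfsg.Spor.M23 m23FusElts) hgen hgs m23Fus_presOK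
    m23Fus_centreOK m23Fus_fusOK (by decide +kernel) hodd
    (m23FusCert.normalizer_le gen hgen m23Fus_presOK m23Fus_centreOK m23FusBase
      m23Fus_baseOK (Cfsg.Spor.M23 ⊓ MulAction.stabilizer (Equiv.Perm GolayPt) (some 11 : GolayPt)) (normalizer_fix gen hgen)
      (start_mem_of_list m23FusBase m23FusVals rfl (by decide +kernel)
        (List.all_eq_true.2 fun x hx => List.all_eq_true.1 tested.1 x (List.mem_append_right _ hx))
        (fun x hx => Subgroup.mem_inf.2 ⟨mem_group x (List.mem_append_right _ hx),
          MulAction.mem_stabilizer_iff.2 ((permOfPair_apply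
            (List.all_eq_true.1 tested.1 x (List.mem_append_right _ hx)) _).trans (gens_fix.2.1 x hx))⟩))
      ((card_inf_stabilizer_two (p := none) (q := some 11) (by simp)).trans (by decide +kernel)) m23FusReps m23Fus_repsOK m23Fus_centOK) S

end Cfsg.Agent.S5169
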