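import Cfsg.Statements.S5170
import Cfsg.Agent.AutCert.Common
import Cfsg.Agent.Golay.FusionDataM24
import Cfsg.Agent.Golay.SylowTwo

set_option autoImplicit false
open Cfsg

namespace Cfsg.Agent.S5170

open Cfsg.Agent.Golay Cfsg.Agent.SchurCert Cfsg.Agent.AutCert
open scoped Pointwise


theorem tested : (m24FusGens ++ m24FusElts).all validPair = true ∧ ∀ x ∈ m24FusGens ++ m24FusElts,
    PreservesRows (codeFun x.1) := by
  decide +kernel

theorem mem_group : ∀ x ∈ m24FusGens ++ m24FusElts, permOfPair x ∈ Cfsg.M24 := by
  intro x hx
  have hv := List.all_eq_true.1 tested.1 x hx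
  have h := tested.2 x hx
  exact permOfPair_mem_M24 hv h

theorem card_group : Nat.card Cfsg.M24 = 244823040 := card_M24

/-- The 2-fusion system of the Mathieu group M₂₄ (as the explicit permutation group of the 24 points preserving the binary Golay code) on a Sylow 2-subgroup is simple: saturated, over a nontrivial 2-group, with no normal subsystem other than the trivial one and itself. -/
theorem result (S : Sylow 2 Cfsg.M24) : (Cfsg.groupFusionSystem (S : Subgroup Cfsg.M24)).IsSimple 2 := by
  haveI : Finite Cfsg.M24 := Nat.finite_of_card_ne_zero (by rw [card_group]; norm_num)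
  set gen := elemAt Cfsg.M24 m24FusGens
  have hgen : ∀ i, (permCode Cfsg.M24).enc (gen i) = m24FusCert.gens.getD i permOne :=
    enc_elemAt (List.all_eq_true.2 fun x hx => List.all_eq_true.1 tested.1 x (List.mem_append_left _ hx))
      fun x hx => mem_group x (List.mem_append_left _ hx)
  have hgs : ∀ i, (permCode Cfsg.M24).enc (elemAt Cfsg.M24 m24FusElts i) = m24FusCert.gs.getD i permOne :=
    enc_elemAt (List.all_eq_true.2 fun x hx => List.all_eq_true.1 tested.1 x (List.mem_append_right _ hx))
      fun x hx => mem_group x (List.mem_append_right _ hx)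
  have hodd := odd_index_of_card m24FusCert gen hgen m24Fus_presOK card_group
    (m := 239085) (by decide +kernel) (by norm_num)
  exact isSimple_of_fusCert m24FusCert gen (elemAt Cfsg.M24 m24FusElts) hgen hgs m24Fus_presOK
    m24Fus_centreOK m24Fus_fusOK (by decide +kernel) hodd
    (le_of_eq (sylow_two_selfNormalizing
      ((IsPGroup.of_card (m24FusCert.card_eq gen hgen m24Fus_presOK)).toSylow hodd))) S

end Cfsg.Agent.S5170
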