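import Cfsg.Statements.S5344
import Cfsg.Agent.Lib.ThreeTransp
import Cfsg.Agent.Lib.CoxeterSym

set_option autoImplicit false
open Cfsg

namespace Cfsg.Agent.S5344

theorem reps : ∀ σ : Equiv.Perm (Fin 4), σ ≠ 1 → ∃ x : Equiv.Perm (Fin 4),
    x * σ * x⁻¹ = Equiv.swap 0 1 ∨ x * σ * x⁻¹ = Equiv.swap 0 1 * Equiv.swap 1 2 ∨
    x * σ * x⁻¹ = Equiv.swap 0 1 * Equiv.swap 2 3 ∨
    x * σ * x⁻¹ = Equiv.swap 0 1 * Equiv.swap 1 2 * Equiv.swap 2 3 := by
  decide

/-- In a set of 3-transpositions, let a, b, c be members with a and c different and commuting, while neither a nor c commutes with b (a 3-string). Then there is an injective homomorphism from the symmetric group of degree 4 into the ambient group sending the transpositions (0 1), (1 2), (2 3) to a, b, c; so a, b, c generate a copy of the symmetric group of degree 4 in which they are transpositions. -/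
theorem result {G : Type*} [Group G] {D : Set G} (hD : Cfsg.IsThreeTranspositionSet D) {a b c : G} (ha : a ∈ D) (hb : b ∈ D) (hc : c ∈ D) (hac : a ≠ c) (hac' : Commute a c) (hab : ¬ Commute a b) (hbc : ¬ Commute b c) : ∃ φ : Equiv.Perm (Fin 4) →* G, Function.Injective φ ∧ φ (Equiv.swap 0 1) = a ∧ φ (Equiv.swap 1 2) = b ∧ φ (Equiv.swap 2 3) = c := by
  open Cfsg.Agent.SporB Cfsg.Agent.ThreeTransp in
  let g : ℕ → G := fun i => if i = 0 then a else if i = 1 then b else c
  have hrel : CoxeterSym.RelA g 3 := by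
    refine ⟨fun i hi => ?_, fun i hi => ?_, fun i j h1 h2 => ?_⟩
    · interval_cases i
      · exact tt_mul_self hD ha
      · exact tt_mul_self hD hb
      · exact tt_mul_self hD hc
    · have hi' : i < 2 := by omega
      interval_cases i
      · exact tt_braid hD ha hb hab
      · exact tt_braid hD hb hc hbc
    · obtain rfl : i = 0 := by omega
      obtain rfl : j = 2 := by omega
      exact hac'
  obtain ⟨φ, hφ, -⟩ := CoxeterSym.exists_hom g 3 hrel
  have e0 : φ (Equiv.swap 0 1) = a := hφ 0 (by omega)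
  have e1 : φ (Equiv.swap 1 2) = b := hφ 1 (by omega)
  have e2 : φ (Equiv.swap 2 3) = c := hφ 2 (by omega)
  refine ⟨φ, (injective_iff_map_eq_one φ).2 fun σ hσ => ?_, e0, e1, e2⟩
  by_contra hne
  obtain ⟨x, hx⟩ := reps σ hne
  have h1 : φ (x * σ * x⁻¹) = 1 := by simp [hσ]
  rcases hx with h | h | h | h <;> rw [h] at h1 <;> simp only [map_mul, e0, e1, e2] at h1
  · exact ne_one hD ha h1
  · exact ne_of_not_commute hab (eq_of_mul_eq_one hD ha h1)
  · exact hac (eq_of_mul_eq_one hD ha h1)
  · have h3 := orderOf_mul_not_commute hD ha hb hab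
    rw [← inv_eq_of_mul_eq_one_left h1, orderOf_inv, hD.1 c hc] at h3
    omega

end Cfsg.Agent.S5344
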