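import Cfsg.Statements.S5345
import Cfsg.Agent.Lib.ThreeTransp

set_option autoImplicit false
open Cfsg

namespace Cfsg.Agent.S5345

/-- Let D be a conjugation-invariant generating set of 3-transpositions of a finite group G and T a Sylow 2-subgroup of G. Then the members of D lying in T generate an abelian subgroup, and their number is the width of D (the largest number of pairwise commuting members of D). -/
theorem result {G : Type*} [Group G] [Finite G] {D : Set G} (hD : Cfsg.IsThreeTranspositionGroup D) (T : Sylow 2 G) : IsMulCommutative (Subgroup.closure {d : G | d ∈ D ∧ d ∈ T}) ∧ {d : G | d ∈ D ∧ d ∈ T}.ncard = Cfsg.commutingWidth D := by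
  open Cfsg.Agent.SporB Cfsg.Agent.ThreeTransp in
  have hc : ∀ a ∈ {d : G | d ∈ D ∧ d ∈ T}, ∀ b ∈ {d : G | d ∈ D ∧ d ∈ T}, Commute a b :=
    fun a ha b hb => commute_of_mem_two_subgroup hD.1 T.2 ha.1 hb.1 ha.2 hb.2
  refine ⟨Subgroup.isMulCommutative_closure fun a ha b hb => hc a ha b hb,
    le_antisymm (le_commutingWidth (fun x hx => hx.1) hc) ?_⟩
  obtain ⟨E, hE, hEc, hEn⟩ := exists_width_set D
  obtain ⟨Q, hQ⟩ := (isPGroup_two_closure hD.1 hE hEc).exists_le_sylow
  obtain ⟨g, hg⟩ := MulAction.exists_smul_eq G Q T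
  rw [← hEn, ← Set.ncard_image_of_injective E (MulAut.conj g).injective]
  refine Set.ncard_le_ncard ?_ (Set.toFinite _)
  rintro _ ⟨x, hx, rfl⟩
  refine ⟨conj_mem hD g (hE hx), ?_⟩
  rw [← hg, Sylow.smul_def]
  exact ⟨x, hQ (Subgroup.subset_closure hx), rfl⟩

end Cfsg.Agent.S5345
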