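import Cfsg.Statements.S5347
import Cfsg.Agent.Lib.ThreeTransp

set_option autoImplicit false
open Cfsg

namespace Cfsg.Agent.S5347

/-- Let D be a conjugation-invariant generating set of 3-transpositions of a finite group G, p a prime bigger than 3, and P a p-subgroup of G. If a member d of D normalizes P then d centralizes P. -/
theorem result {G : Type*} [Group G] [Finite G] {D : Set G} (hD : Cfsg.IsThreeTranspositionGroup D) {p : ℕ} (hp : p.Prime) (hp3 : 3 < p) (P : Subgroup G) (hP : IsPGroup p P) {d : G} (hd : d ∈ D) (hnorm : d ∈ Subgroup.normalizer (P : Set G)) : ∀ x ∈ P, Commute d x := by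
  open Cfsg.Agent.SporB Cfsg.Agent.ThreeTransp in
  intro x hx
  have hd' : x * d * x⁻¹ ∈ D := conj_mem hD x hd
  have hy : d * (x * d * x⁻¹) ∈ P := by
    have h1 : d * x * d⁻¹ ∈ P := (Subgroup.mem_normalizer_iff.1 hnorm x).1 hx
    have := mul_mem h1 (inv_mem hx)
    rw [tt_inv hD.1 hd] at this
    simpa [mul_assoc] using this
  obtain ⟨k, hk⟩ := hP ⟨_, hy⟩
  have hk' := orderOf_dvd_of_pow_eq_one (show (d * (x * d * x⁻¹)) ^ p ^ k = 1 by simpa [Subtype.ext_iff] using hk)
  have h1 : d = x * d * x⁻¹ := by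
    rcases orderOf_mul_cases hD.1 hd hd' with ⟨-, h⟩ | ⟨h, -⟩ | ⟨h, -⟩
    · exact h
    · rw [h] at hk'
      have := (Nat.prime_dvd_prime_iff_eq Nat.prime_two hp).1 (Nat.prime_two.dvd_of_dvd_pow hk')
      omega
    · rw [h] at hk'
      have := (Nat.prime_dvd_prime_iff_eq Nat.prime_three hp).1 (Nat.prime_three.dvd_of_dvd_pow hk')
      omega
  show d * x = x * d
  calc d * x = x * d * x⁻¹ * x := by rw [← h1]
    _ = x * d := inv_mul_cancel_right _ _

end Cfsg.Agent.S5347
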