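import Cfsg.Statements.S5355
import Cfsg.Agent.Lib.ThreeTranspTwins
import Cfsg.Agent.S5344

set_option autoImplicit false
open Cfsg

namespace Cfsg.Agent.S5355

/-- Let D be a conjugacy class of 3-transpositions generating the finite group G, with at least two members, and d a member of D. Suppose that every member of D commuting with d commutes with exactly the same members of D as d does, and that exactly one member of D other than d commutes with d. Then G is isomorphic to the symmetric group of degree 4. -/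
theorem result {G : Type*} [Group G] [Finite G] {D : Set G} (hD : Cfsg.IsThreeTranspositionClass D) (hD2 : ∃ a ∈ D, ∃ b ∈ D, a ≠ b) {d : G} (hd : d ∈ D) (hV : {y : G | y ∈ D ∧ Commute d y} = {v : G | v ∈ D ∧ ∀ e ∈ D, Commute v e ↔ Commute d e}) (hm : {y : G | y ∈ D ∧ Commute d y}.ncard = 2) : Nonempty (G ≃* Equiv.Perm (Fin 4)) := by
  open Cfsg.Agent.ThreeTransp Cfsg.Agent.SporB in
  have hG := group_of_class hD
  -- the hypothesis at every member
  obtain ⟨v, hv, hvd, hdv, huniq⟩ : ∃ v ∈ D, v ≠ d ∧ Commute d v ∧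
      ∀ y ∈ D, Commute d y → y = d ∨ y = v := by
    obtain ⟨p, q, hpq, he⟩ := Set.ncard_eq_two.1 hm
    have hdd : d ∈ ({p, q} : Set G) := he ▸ ⟨hd, Commute.refl d⟩
    have hp : p ∈ {y : G | y ∈ D ∧ Commute d y} := by rw [he]; simp
    have hq : q ∈ {y : G | y ∈ D ∧ Commute d y} := by rw [he]; simp
    have hy : ∀ y ∈ D, Commute d y → y = p ∨ y = q := fun y hy hc => by
      have : y ∈ ({p, q} : Set G) := he ▸ ⟨hy, hc⟩
      exact this
    rcases hdd with rfl | rfl
    · exact ⟨q, hq.1, hpq.symm, hq.2, hy⟩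
    · exact ⟨p, hp.1, hpq, hp.2, fun y h1 h2 => (hy y h1 h2).symm⟩
  have htwin : ∀ e ∈ D, Commute v e ↔ Commute d e := by
    have : v ∈ {v : G | v ∈ D ∧ ∀ e ∈ D, Commute v e ↔ Commute d e} := hV ▸ ⟨hv, hdv⟩
    exact this.2
  have hall : ∀ x ∈ D, ∃ x' ∈ D, x' ≠ x ∧ Commute x x' ∧ (∀ y ∈ D, Commute x y → y = x ∨ y = x') ∧
      (∀ e ∈ D, Commute x' e ↔ Commute x e) := by
    intro x hx
    obtain ⟨g, rfl⟩ := class_transitive hD hd hx
    have e1 : ∀ y, g * (g⁻¹ * y * g) * g⁻¹ = y := fun y => by simp [mul_assoc]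
    refine ⟨g * v * g⁻¹, conj_mem hG g hv, by simpa using hvd, (commute_conj_iff g d v).2 hdv,
      fun y hy hc => ?_, fun e he => ?_⟩
    · rw [← e1 y, commute_conj_iff] at hc
      rcases huniq _ (conj_mem' hG g hy) hc with h | h
      · left; rw [← e1 y, h]
      · right; rw [← e1 y, h]
    · rw [← e1 e, commute_conj_iff, commute_conj_iff]
      exact htwin _ (conj_mem' hG g he)
  -- the product of two twins moves a member to its twin
  have flip : ∀ f ∈ D, ∀ f' ∈ D, f ≠ f' → Commute f f' → ∀ x ∈ D, ¬ Commute f x → ¬ Commute x f' →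
      Commute x ((f * f') * x * (f * f')⁻¹) ∧ (f * f') * x * (f * f')⁻¹ ≠ x := by
    intro f hf f' hf' hne hc x hx h1 h2
    obtain ⟨φ, hφ, e0, e1, e2⟩ := S5344.result hG.1 hf hx hf' hne hc h1 h2
    have e : (f * f') * x * (f * f')⁻¹ = φ (Equiv.swap 0 3) := by
      rw [← e0, ← e1, ← e2, ← map_mul, ← map_mul, ← map_inv, ← map_mul]
      exact congrArg φ (by decide)
    rw [e, ← e1]
    exact ⟨Commute.map (by unfold Commute SemiconjBy; decide) φ, fun h => absurd (hφ h) (by decide)⟩
  obtain ⟨e, he, hde⟩ := exists_not_commute hD hD2 hd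
  have hev : ¬ Commute e v := fun h => hde ((htwin e he).1 h.symm)
  obtain ⟨φ, hφinj, q01, q12, q23⟩ := S5344.result hG.1 hd he hv hvd.symm hdv hde hev
  have hmemD : ∀ x : Equiv.Perm (Fin 4), φ (x * Equiv.swap 0 1 * x⁻¹) ∈ D := fun x => by
    rw [map_mul, map_mul, map_inv, q01]; exact conj_mem hG _ hd
  have hsurj : Function.Surjective φ := by
    rw [← MonoidHom.range_eq_top, eq_top_iff, ← hG.2.2, Subgroup.closure_le]
    intro f hf
    by_cases c1 : Commute d f
    · rcases huniq f hf c1 with rfl | rfl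
      exacts [⟨_, q01⟩, ⟨_, q23⟩]
    set g := d * e * d with hg
    have hgD : g ∈ D := conj_self_mem hG hd he
    have qg : φ (Equiv.swap 0 2) = g := by
      rw [show Equiv.swap (0 : Fin 4) 2 = Equiv.swap 0 1 * Equiv.swap 1 2 * Equiv.swap 0 1 by decide,
        map_mul, map_mul, q01, q12]
    have close : ∀ (σ τ : Equiv.Perm (Fin 4)) (x : G), φ σ = x → x ∈ D → τ ≠ σ → Commute σ τ →
        φ τ ∈ D → Commute x f → f ∈ φ.range := by
      intro σ τ x hσ hx hne hc hτ hxf
      obtain ⟨x', -, -, -, hu, -⟩ := hall x hx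
      rcases hu (φ τ) hτ (hσ ▸ hc.map φ) with h | h
      · exact absurd (hφinj (h.trans hσ.symm)) hne
      rcases hu f hf hxf with h' | h'
      · exact ⟨σ, hσ.trans h'.symm⟩
      · exact ⟨τ, h.trans h'.symm⟩
    by_cases c2 : Commute e f
    · refine close _ (Equiv.swap 0 3) e q12 he (by decide) (by unfold Commute SemiconjBy; decide) ?_ c2
      rw [show Equiv.swap (0 : Fin 4) 3 = Equiv.swap 1 3 * Equiv.swap 0 1 * (Equiv.swap 1 3)⁻¹ by decide]
      exact hmemD _
    by_cases c3 : Commute g f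
    · refine close _ (Equiv.swap 1 3) g qg hgD (by decide) (by unfold Commute SemiconjBy; decide) ?_ c3
      rw [show Equiv.swap (1 : Fin 4) 3 = Equiv.swap 0 3 * Equiv.swap 0 1 * (Equiv.swap 0 3)⁻¹ by decide]
      exact hmemD _
    exfalso
    obtain ⟨f', hf', hff, hcf, -, htf⟩ := hall f hf
    have nf : ∀ x ∈ D, ¬ Commute x f → Commute x ((f * f') * x * (f * f')⁻¹) ∧
        (f * f') * x * (f * f')⁻¹ ≠ x := fun x hx hn =>
      flip f hf f' hf' hff.symm hcf x hx (fun h => hn h.symm) fun h =>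
        hn ((htf x hx).1 h.symm).symm
    set u := f * f'
    obtain ⟨hd1, hd2⟩ := nf d hd c1
    obtain ⟨he1, he2⟩ := nf e he c2
    obtain ⟨hg1, hg2⟩ := nf g hgD c3
    set d' := u * d * u⁻¹
    set e' := u * e * u⁻¹
    have hd'D : d' ∈ D := conj_mem hG u hd
    have hd'e : ¬ Commute d' e := by
      rcases huniq d' hd'D hd1 with h | h
      · exact absurd h hd2
      · exact fun hc => hde ((htwin e he).1 (h ▸ hc))
    obtain ⟨k1, k2⟩ := flip d hd d' hd'D hd2.symm hd1 e he hde (fun h => hd'e h.symm)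
    obtain ⟨e'', -, -, -, hue, -⟩ := hall e he
    have heq : (d * d') * e * (d * d')⁻¹ = e' := by
      have h1 := (hue _ (conj_mem hG u he) he1).resolve_left he2
      have h2 := (hue _ (conj_mem hG _ he) k1).resolve_left k2
      exact h2.trans h1.symm
    apply hg2
    calc u * g * u⁻¹ = d' * e' * d' := by simp [d', e', g, mul_assoc]
      _ = d' * ((d * d') * e * (d * d')⁻¹) * d' := by rw [heq]
      _ = g := by
        rw [mul_inv_rev, tt_inv hG.1 hd'D, tt_inv hG.1 hd]
        have h1 : d' * (d * d') = d := by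
          rw [hd1.eq, ← mul_assoc, tt_mul_self hG.1 hd'D, one_mul]
        have h2 : d' * d * d' = d := by
          rw [mul_assoc]; exact h1
        calc d' * (d * d' * e * (d' * d)) * d' = (d' * (d * d')) * e * (d' * d * d') := by
              simp only [mul_assoc]
          _ = g := by rw [h1, h2]
  exact ⟨(MulEquiv.ofBijective φ ⟨hφinj, hsurj⟩).symm⟩

end Cfsg.Agent.S5355
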