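import Cfsg.Statements.S5356
import Cfsg.Agent.Lib.ThreeTranspTwins

set_option autoImplicit false
open Cfsg

namespace Cfsg.Agent.S5356

/-- Let D be a conjugacy class of 3-transpositions generating the finite group G, with at least two members, and d a member of D such that every member of D commuting with d commutes with exactly the same members of D as d. Then there is a Sylow 3-subgroup P of G normalized by d such that G is generated by d, P and the largest normal 2-subgroup of G. -/
theorem result {G : Type*} [Group G] [Finite G] {D : Set G} (hD : Cfsg.IsThreeTranspositionClass D) (hD2 : ∃ a ∈ D, ∃ b ∈ D, a ≠ b) {d : G} (hd : d ∈ D) (hV : {y : G | y ∈ D ∧ Commute d y} = {v : G | v ∈ D ∧ ∀ e ∈ D, Commute v e ↔ Commute d e}) : ∃ P : Sylow 3 G, d ∈ Subgroup.normalizer (P : Set G) ∧ Subgroup.zpowers d ⊔ (P : Subgroup G) ⊔ Cfsg.pCore 2 G = ⊤ := by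
  open Cfsg.Agent.ThreeTransp Cfsg.Agent.SporB in
  have hG := group_of_class hD
  haveI : Fact (Nat.Prime 3) := ⟨Nat.prime_three⟩
  haveI : Fact (Nat.Prime 2) := ⟨Nat.prime_two⟩
  set N := Cfsg.pCore 2 G
  have hN : IsPGroup 2 N := Cores.pCore_isPGroup
  haveI hNn : N.Normal := Cores.pCore_normal_inst 2 G
  let f := QuotientGroup.mk' N
  have hfs : Function.Surjective f := QuotientGroup.mk'_surjective N
  have hfne : ∀ x ∈ D, f x ≠ 1 := by
    intro x hx h
    obtain ⟨e, he, hxe⟩ := exists_not_commute hD hD2 hx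
    obtain ⟨g, rfl⟩ := class_transitive hD hx he
    have hx' : x ∈ N := (QuotientGroup.eq_one_iff x).1 h
    exact hxe (commute_of_mem_two_subgroup hG.1 hN hx he hx' (hNn.conj_mem x hx' g))
  -- commuting modulo `O_2` forces the same coset
  have hsame : ∀ a ∈ D, ∀ b ∈ D, Commute (f a) (f b) → f a = f b := by
    intro a ha b hb hc
    have hab : Commute a b := by
      by_contra hn
      have h1 : f (a * b) ^ 2 = 1 := by
        rw [map_mul, hc.mul_pow, ← map_pow, ← map_pow, pow_two, pow_two, tt_mul_self hG.1 ha,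
          tt_mul_self hG.1 hb, map_one, one_mul]
      have h3 : f (a * b) ^ 3 = 1 := by rw [← map_pow, tt_cube hG.1 ha hb hn, map_one]
      have h4 := (QuotientGroup.eq_one_iff (a * b)).1 (eq_one_of_coprime_pow h1 h3 (by norm_num))
      exact ne_of_not_commute hn
        (eq_of_mul_eq_one hG.1 ha (pGroup_eq_one hN (by norm_num) h4 (tt_cube hG.1 ha hb hn)))
    obtain ⟨g, rfl⟩ := class_transitive hD hd ha
    have e1 : g * (g⁻¹ * b * g) * g⁻¹ = b := by simp [mul_assoc]
    rw [← e1, commute_conj_iff] at hab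
    have hb' : g⁻¹ * b * g ∈ {v : G | v ∈ D ∧ ∀ e ∈ D, Commute v e ↔ Commute d e} :=
      hV ▸ ⟨conj_mem' hG g hb, hab⟩
    have ht : VTwin D d (g⁻¹ * b * g) := fun e he => (hb'.2 e he).symm
    have h := vTwin_mem_pCore hG (conj_mem hG g hd) (conj_mem hG g (conj_mem' hG g hb))
      (vTwin_conj hG g ht)
    rw [e1] at h
    refine QuotientGroup.eq.2 ?_
    rwa [tt_inv hG.1 (conj_mem hG g hd)]
  have hI := image_group hG f hfs hfne
  have htop := width_one_sup hI ⟨d, hd, rfl⟩ (by
    rintro _ ⟨a, ha, rfl⟩ _ ⟨b, hb, rfl⟩ hc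
    exact hsame a ha b hb hc)
  -- the stabiliser of the class of `d`
  set C := Subgroup.centralizer ({d} : Set G)
  set St := (Subgroup.centralizer ({f d} : Set (G ⧸ N))).comap f
  have hSt : St ≤ C ⊔ N := by
    intro g hg
    have hg' : Commute (f g) (f d) := Subgroup.mem_centralizer_singleton_iff.1 hg
    have heq : f d = f (g * d * g⁻¹) := by
      rw [map_mul, map_mul, hg'.eq, map_inv, mul_inv_cancel_right]
    obtain ⟨h, hh, hgd⟩ := vTwin_exists_conj hD hd (conj_mem hG g hd)
      (fun e he => (vTwin_of_mem_coset hG hd (conj_mem hG g hd) (QuotientGroup.eq.1 heq) e he).symm)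
    have hc : h⁻¹ * g ∈ C := by
      rw [Subgroup.mem_centralizer_singleton_iff]
      calc h⁻¹ * g * d = h⁻¹ * (g * d * g⁻¹) * g := by simp [mul_assoc]
        _ = d * (h⁻¹ * g) := by rw [hgd]; simp [mul_assoc]
    have : g = h * (h⁻¹ * g) := by simp
    rw [this]
    exact mul_mem (Subgroup.mem_sup_right hh) (Subgroup.mem_sup_left hc)
  let Q₀ : Sylow 3 C := default
  have hbound : ∀ X : Subgroup G, IsPGroup 3 X → X ≤ St → Nat.card X ≤ Nat.card Q₀ := by
    intro X hX hXS
    obtain ⟨k, hk⟩ := hX.exists_card_eq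
    obtain ⟨m, hm⟩ := hN.exists_card_eq
    have h1 : 3 ^ k ∣ Nat.card C * 2 ^ m := by
      rw [← hk, ← hm]
      exact ((Subgroup.card_dvd_of_le (hXS.trans hSt))).trans (Cores.card_sup_dvd_mul C N)
    have h2 : 3 ^ k ∣ Nat.card C :=
      (Nat.Coprime.pow k m (by norm_num : Nat.Coprime 3 2)).dvd_of_dvd_mul_right h1
    rw [hk]
    exact Nat.le_of_dvd Nat.card_pos (Q₀.pow_dvd_card_of_pow_dvd_card h2)
  set Q₀' := (Q₀ : Subgroup C).map C.subtype
  have hQ₀' : Nat.card Q₀' = Nat.card Q₀ :=
    (Nat.card_congr ((Q₀ : Subgroup C).equivMapOfInjective _ C.subtype_injective).toEquiv).symm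
  have hcent : ∀ x ∈ Q₀', d * x * d⁻¹ = x := by
    rintro _ ⟨x, -, rfl⟩
    have := Subgroup.mem_centralizer_singleton_iff.1 x.2
    show d * (x : G) * d⁻¹ = x
    rw [← this, mul_inv_cancel_right]
  obtain ⟨Q, ⟨hQp, hQ0, hQd⟩, hmax⟩ := (Set.toFinite {Q : Subgroup G | IsPGroup 3 Q ∧ Q₀' ≤ Q ∧
      ∀ x ∈ Q, d * x * d⁻¹ ∈ Q}).exists_maximalFor (fun Q : Subgroup G => Nat.card Q) _
    ⟨Q₀', Q₀.2.map _, le_rfl, fun x hx => (hcent x hx).symm ▸ hx⟩
  have hdN : d ∈ Subgroup.normalizer (Q : Set G) := by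
    rw [Subgroup.mem_normalizer_iff]
    intro x
    refine ⟨hQd x, fun h => ?_⟩
    have := hQd _ h
    rwa [tt_inv hG.1 hd, ← mul_assoc, ← mul_assoc, tt_mul_self hG.1 hd, one_mul, mul_assoc,
      tt_mul_self hG.1 hd, mul_one] at this
  obtain ⟨R, hR⟩ := hQp.exists_le_sylow
  have hQR : Q = R := by
    by_contra hne
    have hlt : Q.subgroupOf (R : Subgroup G) < ⊤ := by
      rw [lt_top_iff_ne_top, Ne, Subgroup.subgroupOf_eq_top]
      exact fun h => hne (le_antisymm hR h)
    haveI := R.2.isNilpotent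
    have hK := Group.normalizerCondition_of_isNilpotent _ hlt
    set M := Subgroup.normalizer (Q : Set G) ⊓ (R : Subgroup G)
    have hMlt : Nat.card Q < Nat.card M := by
      refine lt_of_le_of_ne (Subgroup.card_le_of_le (le_inf Subgroup.le_normalizer hR)) fun h => ?_
      have hMQ : M = Q := (Subgroup.eq_of_le_of_card_ge (le_inf Subgroup.le_normalizer hR) h.ge).symm
      refine hK.not_ge fun x hx => ?_
      rw [← Subgroup.subgroupOf_normalizer_eq hR, Subgroup.mem_subgroupOf] at hx
      rw [Subgroup.mem_subgroupOf, ← hMQ]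
      exact ⟨hx, x.2⟩
    obtain ⟨j, hjM, hjQ, hjS⟩ : ∃ j ∈ M, j ∉ Q ∧ j ∉ St := by
      obtain ⟨a, haM, haS⟩ : ∃ j ∈ M, j ∉ St := by
        by_contra h
        push Not at h
        have h1 := hbound M (R.2.to_le inf_le_right) h
        have h2 := Subgroup.card_le_of_le hQ0
        omega
      obtain ⟨b, hbM, hbQ⟩ : ∃ j ∈ M, j ∉ Q := by
        by_contra h
        push Not at h
        exact absurd (Subgroup.card_le_of_le h) (not_le.2 hMlt)
      by_cases haQ : a ∈ Q
      · by_cases hbS : b ∈ St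
        · exact ⟨a * b, mul_mem haM hbM,
            fun h => hbQ ((Subgroup.mul_mem_cancel_left Q haQ).1 h),
            fun h => haS ((Subgroup.mul_mem_cancel_right St hbS).1 h)⟩
        · exact ⟨b, hbM, hbQ, hbS⟩
      · exact ⟨a, haM, haQ, haS⟩
    have he' := conj_mem' hG j hd
    set e := j⁻¹ * d * j with he
    have hnc : ¬ Commute d e := by
      intro hc
      apply hjS
      have h := hsame d hd e he' (hc.map f)
      rw [Subgroup.mem_comap, Subgroup.mem_centralizer_singleton_iff]
      calc f j * f d = f j * f e := by rw [h]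
        _ = f d * f j := by rw [← map_mul, ← map_mul, he]; simp [mul_assoc]
    set x := d * e with hx
    have hxN : x ∈ Subgroup.normalizer (Q : Set G) :=
      mul_mem hdN (mul_mem (mul_mem (inv_mem hjM.1) hdN) hjM.1)
    have hconjN : ∀ y ∈ Subgroup.normalizer (Q : Set G), IsPGroup 3 (Subgroup.zpowers y) →
        y ∉ Q → d * y * d⁻¹ ∈ Subgroup.zpowers y → False := by
      intro y hy hp hyQ hdy
      have h1 : IsPGroup 3 (Subgroup.zpowers y ⊔ Q : Subgroup G) :=
        hp.to_sup_of_normal_right' hQp (by rwa [Subgroup.zpowers_le])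
      have h2 : Subgroup.zpowers y ⊔ Q ≤ (Subgroup.zpowers y ⊔ Q).comap (MulAut.conj d).toMonoidHom := by
        refine sup_le ?_ ?_
        · rw [Subgroup.zpowers_le]; exact Subgroup.mem_sup_left hdy
        · exact fun z hz => Subgroup.mem_sup_right (hQd z hz)
      have h3 := hmax (j := Subgroup.zpowers y ⊔ Q) ⟨h1, hQ0.trans le_sup_right, fun z hz => h2 hz⟩
        (Subgroup.card_le_of_le le_sup_right)
      exact hyQ ((Subgroup.eq_of_le_of_card_ge le_sup_right h3).symm ▸
        Subgroup.mem_sup_left (Subgroup.mem_zpowers y))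
    have hx3 : x ^ 3 = 1 := tt_cube hG.1 hd he' hnc
    have hxp : IsPGroup 3 (Subgroup.zpowers x) := by
      refine IsPGroup.of_card (n := 1) ?_
      rw [pow_one, Nat.card_zpowers, orderOf_mul_not_commute hG.1 hd he' hnc]
    by_cases hxQ : x ∈ Q
    · refine hconjN (j * x) (mul_mem hjM.1 hxN)
        (R.2.to_le (by rw [Subgroup.zpowers_le]; exact mul_mem hjM.2 (hR hxQ))) ?_ ?_
      · exact fun h => hjQ ((Subgroup.mul_mem_cancel_right Q hxQ).1 h)
      · have h1 : d * (j * x) = j * x * d := by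
          have e1 := conj_mul_eq hG.1 hd he' hnc
          calc d * (j * x) = j * e * j⁻¹ * (j * x) := by rw [he]; simp [mul_assoc]
            _ = j * (x * d * x⁻¹) * x := by rw [e1]; simp [mul_assoc]
            _ = j * x * d := by simp [mul_assoc]
        rw [h1, mul_inv_cancel_right]
        exact Subgroup.mem_zpowers _
    · refine hconjN x hxN hxp hxQ ?_
      have : d * x * d⁻¹ = x⁻¹ := by
        rw [hx, mul_inv_rev, tt_inv hG.1 hd, tt_inv hG.1 he', ← mul_assoc, tt_mul_self hG.1 hd, one_mul]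
      rw [this]; exact inv_mem (Subgroup.mem_zpowers x)
  refine ⟨R, by rw [hQR] at hdN; exact hdN, ?_⟩
  set M := Subgroup.zpowers d ⊔ (R : Subgroup G) ⊔ N
  have hker : f.ker ≤ M := by rw [QuotientGroup.ker_mk']; exact le_sup_right
  rw [← Subgroup.comap_map_eq_self hker, ← Subgroup.comap_top f, ← htop]
  congr 1
  refine le_antisymm (htop.symm ▸ le_top) (sup_le ?_ ?_)
  · rw [Subgroup.zpowers_le]
    exact ⟨d, Subgroup.mem_sup_left (Subgroup.mem_sup_left (Subgroup.mem_zpowers d)), rfl⟩
  · refine (Cores.pCore_le_sylow (R.mapSurjective hfs)).trans ?_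
    exact Subgroup.map_mono (le_trans le_sup_right le_sup_left)

end Cfsg.Agent.S5356
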