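import Cfsg.Statements.S5358

set_option autoImplicit false
open scoped MatrixGroups
open Cfsg

namespace Cfsg.Agent.S5358

/-- Let Q be a non-degenerate quadratic form on the n-dimensional coordinate space over the field with three elements and u, v vectors of the same non-zero norm Q(u) = Q(v) spanning different lines (v ≠ u and v ≠ −u). Then the reflection matrices of u and v commute if and only if u and v are orthogonal for the polar form of Q. -/
theorem result (n : ℕ) (Q : QuadraticForm (ZMod 3) (Fin n → ZMod 3)) (hQ : (QuadraticMap.polarBilin Q).Nondegenerate) (u v : Fin n → ZMod 3) (hu : Q u ≠ 0) (huv : Q u = Q v) (h1 : v ≠ u) (h2 : v ≠ -u) : Commute (Cfsg.reflectionMatrix (⇑Q) u) (Cfsg.reflectionMatrix (⇑Q) v) ↔ QuadraticMap.polar (⇑Q) u v = 0 := by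
  have hc2 : (2 : ZMod 3) ≠ 0 := by decide
  have hpol : ∀ x y : Fin n → ZMod 3, polarVec (⇑Q) x ⬝ᵥ y = QuadraticMap.polar (⇑Q) x y := by
    intro x y
    have hy : y = ∑ j, y j • Pi.single j (1 : ZMod 3) := pi_eq_sum_univ' y
    conv_rhs => rw [hy, ← QuadraticMap.polarBilin_apply_apply, map_sum]
    simp only [map_smul, QuadraticMap.polarBilin_apply_apply, smul_eq_mul, dotProduct, polarVec]
    exact Finset.sum_congr rfl fun j _ => mul_comm _ _
  have hR : ∀ x y : Fin n → ZMod 3, Matrix.mulVec (reflectionMatrix (⇑Q) x) y =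
      y - ((Q x)⁻¹ * QuadraticMap.polar (⇑Q) x y) • x := by
    intro x y
    rw [reflectionMatrix, Matrix.sub_mulVec, Matrix.one_mulVec, Matrix.smul_mulVec,
      Matrix.vecMulVec_mulVec, hpol, op_smul_eq_smul, smul_smul]
  constructor
  · intro h
    by_contra hb
    have h3 := congrArg (fun M => Matrix.mulVec M v) h.eq
    simp only [← Matrix.mulVec_mulVec, hR, ← huv] at h3
    set β := QuadraticMap.polar (⇑Q) u v with hβ
    set c := Q u with hc
    have hcc : QuadraticMap.polar (⇑Q) v v = 2 * c := by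
      rw [QuadraticMap.polar_self, ← huv, two_smul, two_mul]
    have hcomm : QuadraticMap.polar (⇑Q) v u = β := QuadraticMap.polar_comm _ _ _
    simp only [hcc, QuadraticMap.polar_sub_right, QuadraticMap.polar_smul_right, smul_eq_mul,
      hcomm, ← hβ] at h3
    have e : c⁻¹ * (2 * c) = 2 := by field_simp
    rw [e] at h3
    -- compare the coefficients of `u` and of `v`
    have h4 : (2 * c⁻¹ * β) • u = (c⁻¹ * (c⁻¹ * β * β)) • v := by
      rw [← sub_eq_zero] at h3 ⊢
      refine Eq.trans ?_ h3
      funext i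
      simp only [Pi.sub_apply, Pi.smul_apply, smul_eq_mul]
      field_simp
      ring
    have h5 : u = ((2 * c⁻¹ * β)⁻¹ * (c⁻¹ * (c⁻¹ * β * β))) • v := by
      rw [mul_smul, ← h4, inv_smul_smul₀]
      exact mul_ne_zero (mul_ne_zero hc2 (inv_ne_zero hu)) hb
    set α := (2 * c⁻¹ * β)⁻¹ * (c⁻¹ * (c⁻¹ * β * β))
    have h6 : c = α * α * c := by
      conv_lhs => rw [hc, h5, QuadraticMap.map_smul, smul_eq_mul, ← huv]
    rcases mul_self_eq_one_iff.1 (mul_right_cancel₀ hu (h6.symm.trans (one_mul c).symm)) with e' | e'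
    · exact h1 (by rw [h5, e', one_smul])
    · exact h2 (by rw [h5, e', neg_one_smul, neg_neg])
  · intro h
    refine Matrix.ext_of_mulVec_single fun j => ?_
    simp only [← Matrix.mulVec_mulVec, hR, QuadraticMap.polar_sub_right,
      QuadraticMap.polar_smul_right, smul_eq_mul, h, QuadraticMap.polar_comm (⇑Q) v u, mul_zero, sub_zero]
    abel

end Cfsg.Agent.S5358
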