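import Cfsg.Statements.S5363

set_option autoImplicit false
open Cfsg

namespace Cfsg.Agent.S5363

/-- Let D be a conjugation-invariant set of involutions of a finite group G. Then every product of two members of D has odd order or order 2 if and only if, for every a in D and every b in D different from a and commuting with a, the members of D commuting with a b are exactly those commuting with both a and b. -/
theorem result {G : Type*} [Group G] [Finite G] {D : Set G} (hinv : ∀ d ∈ D, orderOf d = 2) (hconj : ∀ g : G, ∀ d ∈ D, g * d * g⁻¹ ∈ D) : (∀ a ∈ D, ∀ b ∈ D, Odd (orderOf (a * b)) ∨ orderOf (a * b) = 2) ↔ ∀ a ∈ D, ∀ b ∈ D, b ≠ a → Commute a b → {y : G | y ∈ D ∧ Commute (a * b) y} = {y : G | y ∈ D ∧ Commute a y} ∩ {y : G | y ∈ D ∧ Commute b y} := by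
  have hsq : ∀ d ∈ D, d * d = 1 := fun d hd => by
    have := pow_orderOf_eq_one d
    rwa [hinv d hd, pow_two] at this
  have hi : ∀ d ∈ D, d⁻¹ = d := fun d hd => inv_eq_of_mul_eq_one_right (hsq d hd)
  constructor
  · intro h a ha b hb hne hab
    ext y
    refine ⟨fun ⟨hy, hc⟩ => ?_, fun ⟨⟨hy, hya⟩, _, hyb⟩ =>
      ⟨hy, ((hya.symm).mul_right hyb.symm).symm⟩⟩
    have hu2 : orderOf (a * b) = 2 := orderOf_eq_prime
      (by rw [hab.mul_pow, pow_two, pow_two, hsq a ha, hsq b hb, one_mul])
      (fun h1 => hne (by rw [← inv_eq_of_mul_eq_one_right h1, hi a ha]))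
    have hb' : y * b = y * a * (a * b) := by
      simp only [mul_assoc]; rw [← mul_assoc a a, hsq a ha, one_mul]
    have hwc : Commute (y * a) (a * b) :=
      hc.symm.mul_left ((Commute.refl a).mul_right hab)
    have key : orderOf (y * a) = 2 ∨ orderOf (y * a) = 1 := by
      rcases h y hy a ha with ho | ho
      · right
        have hcop : (orderOf (y * a)).Coprime (orderOf (a * b)) := by
          rw [hu2]; exact ho.coprime_two_right
        have h2 := hwc.orderOf_mul_eq_mul_orderOf_of_coprime hcop
        rw [← hb', hu2] at h2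
        rcases h y hy b hb with hb1 | hb1
        · rw [h2] at hb1
          exact absurd hb1 (Nat.not_odd_iff_even.2 (Even.mul_left (by norm_num) _))
        · omega
      · exact Or.inl ho
    have hya : Commute y a := by
      have h1 : (y * a) ^ 2 = 1 := by
        apply orderOf_dvd_iff_pow_eq_one.1
        rcases key with k | k <;> rw [k]
        norm_num
      rw [pow_two] at h1
      have h4 : y * a = a⁻¹ * y⁻¹ := by
        rw [← mul_inv_rev]; exact eq_inv_of_mul_eq_one_left h1
      rwa [hi a ha, hi y hy] at h4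
    have hyb : Commute y b := by
      have := hya.mul_right hc.symm
      rwa [← mul_assoc, hsq a ha, one_mul] at this
    exact ⟨⟨hy, hya.symm⟩, hy, hyb.symm⟩
  · intro h a ha b hb
    by_contra hcon
    obtain ⟨hodd, hne2⟩ := not_or.1 hcon
    obtain ⟨k, hk⟩ := Nat.not_odd_iff_even.1 hodd
    have hpos := orderOf_pos (a * b)
    have hmem : ∀ j : ℕ, a * (a * b) ^ j ∈ D ∧ a * (a * b) ^ (j + 1) ∈ D := by
      intro j
      induction j with
      | zero =>
        refine ⟨by simpa using ha, ?_⟩
        rw [zero_add, pow_one, ← mul_assoc, hsq a ha, one_mul]; exact hb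
      | succ j ih =>
        refine ⟨ih.2, ?_⟩
        have hs : (a * b)⁻¹ * a = a * (a * b) := by
          rw [mul_inv_rev, hi a ha, hi b hb]
          simp only [mul_assoc]
          rw [hsq a ha, mul_one, ← mul_assoc, hsq a ha, one_mul]
        have := hconj (a * b)⁻¹ _ ih.1
        rw [inv_inv, show (a * b)⁻¹ * (a * (a * b) ^ j) * (a * b) = (a * b)⁻¹ * a * (a * b) ^ j * (a * b) from by
          simp only [mul_assoc], hs] at this
        have e : a * (a * b) ^ (j + 1 + 1) = a * (a * b) * (a * b) ^ j * (a * b) := by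
          rw [pow_succ, pow_succ']; simp only [mul_assoc]
        rw [e]; exact this
    have hz2 : (a * b) ^ k * (a * b) ^ k = 1 := by
      rw [← pow_add, ← hk, pow_orderOf_eq_one]
    have hz1 : (a * b) ^ k ≠ 1 := pow_ne_one_of_lt_orderOf (by omega) (by omega)
    have hza : Commute a ((a * b) ^ k) := by
      have h1 : a * (a * b) ^ k * a⁻¹ = ((a * b) ^ k)⁻¹ := by
        rw [← conj_pow, ← inv_pow]
        congr 1
        rw [mul_inv_rev, hi a ha, hi b hb, ← mul_assoc, hsq a ha, one_mul]
      rw [inv_eq_of_mul_eq_one_right hz2] at h1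
      exact mul_inv_eq_iff_eq_mul.1 h1
    have hc := h a ha _ (hmem k).1 (fun e => hz1 (mul_left_cancel (e.trans (mul_one a).symm)))
      ((Commute.refl a).mul_right hza)
    have hzb : Commute ((a * b) ^ k) b := by
      have h1 : Commute ((a * b) ^ k) (a * (a * b)) :=
        hza.symm.mul_right ((Commute.refl (a * b)).pow_left k)
      rwa [← mul_assoc, hsq a ha, one_mul] at h1
    have : b ∈ {y : G | y ∈ D ∧ Commute (a * (a * (a * b) ^ k)) y} :=
      ⟨hb, by rwa [← mul_assoc, hsq a ha, one_mul]⟩
    rw [hc] at this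
    have hab : Commute a b := this.1.2
    have hdvd : orderOf (a * b) ∣ 2 := orderOf_dvd_of_pow_eq_one
      (by rw [hab.mul_pow, pow_two, pow_two, hsq a ha, hsq b hb, one_mul])
    have := Nat.le_of_dvd (by norm_num) hdvd
    omega

end Cfsg.Agent.S5363
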