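import Cfsg.Statements.S5364

set_option autoImplicit false
open Cfsg

namespace Cfsg.Agent.S5364

/-- Let D be a conjugation-invariant set of involutions of a finite group G and t an involution in the centre of G such that d t does not lie in D for any d in D. If the images of the members of D in G modulo the subgroup generated by t satisfy the 3-transposition order conditions (each has order 2 and any two have product of order at most 3), then so do the members of D. -/
theorem result {G : Type*} [Group G] [Finite G] {D : Set G} (hinv : ∀ d ∈ D, orderOf d = 2) (hconj : ∀ g : G, ∀ d ∈ D, g * d * g⁻¹ ∈ D) (t : G) (ht : orderOf t = 2) (htZ : t ∈ Subgroup.center G) (hDt : ∀ d ∈ D, d * t ∉ D) [(Subgroup.zpowers t).Normal] (himg : Cfsg.IsThreeTranspositionSet ((QuotientGroup.mk : G → G ⧸ Subgroup.zpowers t) '' D)) : Cfsg.IsThreeTranspositionSet D := by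
  have hsq : ∀ d ∈ D, d * d = 1 := fun d hd => by
    have := pow_orderOf_eq_one d
    rwa [hinv d hd, pow_two] at this
  have hi : ∀ d ∈ D, d⁻¹ = d := fun d hd => inv_eq_of_mul_eq_one_right (hsq d hd)
  have ht2 : t * t = 1 := by
    have := pow_orderOf_eq_one t
    rwa [ht, pow_two] at this
  have hmem : ∀ x : G, x ∈ Subgroup.zpowers t → x = 1 ∨ x = t := by
    intro x hx
    obtain ⟨i, rfl⟩ := Subgroup.mem_zpowers_iff.1 hx
    rcases Int.even_or_odd i with ⟨j, rfl⟩ | ⟨j, rfl⟩
    · left; rw [← two_mul, zpow_mul, show t ^ (2 : ℤ) = 1 by rw [zpow_two, ht2], one_zpow]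
    · right; rw [zpow_add, zpow_mul, show t ^ (2 : ℤ) = 1 by rw [zpow_two, ht2], one_zpow, one_mul, zpow_one]
  refine ⟨hinv, fun d hd e he => ?_⟩
  rcases himg.2 _ ⟨d, hd, rfl⟩ _ ⟨e, he, rfl⟩ with h | h
  · rw [← QuotientGroup.mk_mul, ← QuotientGroup.mk_pow, QuotientGroup.eq_one_iff] at h
    rcases hmem _ h with h | h
    · exact Or.inl h
    · exfalso
      apply hDt e he
      have h1 : d * e * d⁻¹ = e * t := by
        rw [hi d hd, Subgroup.mem_center_iff.1 htZ e, ← h, pow_two]
        simp only [mul_assoc]
        rw [hsq e he, mul_one]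
      exact h1 ▸ hconj d e he
  · rw [← QuotientGroup.mk_mul, ← QuotientGroup.mk_pow, QuotientGroup.eq_one_iff] at h
    rcases hmem _ h with h | h
    · exact Or.inr h
    · exfalso
      apply hDt e he
      have h1 : d * e * d * (d * e)⁻¹ = e * t := by
        rw [mul_inv_rev, hi d hd, hi e he, Subgroup.mem_center_iff.1 htZ e, ← h, pow_succ, pow_two]
        simp only [mul_assoc]
        rw [hsq e he, mul_one]
      exact h1 ▸ hconj (d * e) d hd

end Cfsg.Agent.S5364
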