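import Cfsg.Statements.S5365
import Cfsg.Agent.Lib.ThreeTranspTwins
import Cfsg.Agent.Lib.CoxeterSym

set_option autoImplicit false
open Cfsg

namespace Cfsg.Agent.S5365

open Cfsg.Agent.ThreeTransp Cfsg.Agent.SporB

/-- the other members of `D` commuting with `d` -/
def Nb {G : Type*} [Group G] (D : Set G) (d : G) : Set G := {y : G | y ∈ D ∧ y ≠ d ∧ Commute d y}

set_option maxRecDepth 4000 in
set_option synthInstance.maxSize 1000 in
theorem s3_pair : ∀ a b : Equiv.Perm (Fin 3), a * a = 1 → b * b = 1 → a ≠ 1 → b ≠ 1 → a ≠ b →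
    ¬ a * b = b * a := by decide

set_option maxRecDepth 4000 in
set_option synthInstance.maxSize 1000 in
theorem s3_three : ∀ a b z : Equiv.Perm (Fin 3), a * a = 1 → b * b = 1 → z * z = 1 → a ≠ 1 → b ≠ 1 →
    z ≠ 1 → a ≠ b → z = a ∨ z = b ∨ z = a * b * a := by decide

set_option maxRecDepth 4000 in
set_option synthInstance.maxSize 1000 in
theorem s3_prod : ∀ a b p q : Equiv.Perm (Fin 3), a * a = 1 → b * b = 1 → p * p = 1 → q * q = 1 →
    a ≠ 1 → b ≠ 1 → p ≠ 1 → q ≠ 1 → a ≠ b → p ≠ q → p * q = a * b ∨ p * q = b * a := by decide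

set_option maxRecDepth 4000 in
set_option synthInstance.maxSize 1000 in
theorem s3_nonabelian : ¬ ∀ a b : Equiv.Perm (Fin 3), a * b = b * a := by decide

variable {G : Type*} [Group G] {D : Set G}

/-- the local conditions at every member -/
def LocalSymThree (D : Set G) : Prop :=
  ∀ d ∈ D, Nonempty (↥(Subgroup.closure (Nb D d)) ≃* Equiv.Perm (Fin 3)) ∧
    Nat.card (pCore 3 ↥(Subgroup.centralizer ({d} : Set G))) = 3

theorem exists_pair (hloc : LocalSymThree D) {d : G} (hd : d ∈ D) :
    ∃ a ∈ Nb D d, ∃ b ∈ Nb D d, a ≠ b := by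
  by_contra h
  push Not at h
  obtain ⟨φ⟩ := (hloc d hd).1
  have hm : IsMulCommutative (Subgroup.closure (Nb D d)) :=
    Subgroup.isMulCommutative_closure fun a ha b hb => by rw [h a ha b hb]
  refine s3_nonabelian fun p q => ?_
  have e := congrArg φ (hm.is_comm.comm (φ.symm p) (φ.symm q))
  simpa using e

theorem nb_image (hD : IsThreeTranspositionSet D) (hloc : LocalSymThree D) {d : G} (hd : d ∈ D) :
    ∃ i : G → Equiv.Perm (Fin 3), ∀ a ∈ Nb D d, i a * i a = 1 ∧ i a ≠ 1 ∧
      ∀ b ∈ Nb D d, (i a = i b → a = b) ∧ (Commute a b → i a * i b = i b * i a) ∧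
        ∀ p ∈ Nb D d, (i p = i a * i b * i a → p = a * b * a) ∧
          ∀ q ∈ Nb D d, i p * i q = i a * i b → p * q = a * b := by
  classical
  obtain ⟨φ⟩ := (hloc d hd).1
  set H := Subgroup.closure (Nb D d)
  refine ⟨fun a => if h : a ∈ H then φ ⟨a, h⟩ else 1, fun a ha => ?_⟩
  have hm : ∀ {x}, x ∈ Nb D d → x ∈ H := fun hx => Subgroup.subset_closure hx
  simp only [dif_pos (hm ha)]
  refine ⟨?_, fun e => ?_, fun b hb => ?_⟩
  · rw [← map_mul, ← map_one φ]
    exact congrArg φ (Subtype.ext (tt_mul_self hD ha.1))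
  · exact ne_one hD ha.1 (congrArg Subtype.val (φ.injective (e.trans φ.map_one.symm)))
  simp only [dif_pos (hm hb)]
  refine ⟨fun e => congrArg Subtype.val (φ.injective e), fun e => ?_, fun p hp => ?_⟩
  · rw [← map_mul, ← map_mul]; exact congrArg φ (Subtype.ext e.eq)
  simp only [dif_pos (hm hp)]
  refine ⟨fun e => ?_, fun q hq e => ?_⟩
  · rw [← map_mul, ← map_mul] at e; exact congrArg Subtype.val (φ.injective e)
  · simp only [dif_pos (hm hq)] at e
    rw [← map_mul, ← map_mul] at e
    exact congrArg Subtype.val (φ.injective e)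

theorem nb_not_commute (hD : IsThreeTranspositionSet D) (hloc : LocalSymThree D) {d : G} (hd : d ∈ D)
    {a b : G} (ha : a ∈ Nb D d) (hb : b ∈ Nb D d) (hne : a ≠ b) : ¬ Commute a b := by
  intro h
  obtain ⟨i, hi⟩ := nb_image hD hloc hd
  obtain ⟨ha2, ha1, ha'⟩ := hi a ha
  obtain ⟨hb2, hb1, -⟩ := hi b hb
  exact s3_pair _ _ ha2 hb2 ha1 hb1 (fun e => hne ((ha' b hb).1 e)) ((ha' b hb).2.1 h)

theorem nb_three (hD : IsThreeTranspositionSet D) (hloc : LocalSymThree D) {d : G} (hd : d ∈ D)
    {a b z : G} (ha : a ∈ Nb D d) (hb : b ∈ Nb D d) (hne : a ≠ b) (hz : z ∈ Nb D d) :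
    z = a ∨ z = b ∨ z = a * b * a := by
  obtain ⟨i, hi⟩ := nb_image hD hloc hd
  obtain ⟨ha2, ha1, ha'⟩ := hi a ha
  obtain ⟨hb2, hb1, -⟩ := hi b hb
  obtain ⟨hz2, hz1, hz'⟩ := hi z hz
  rcases s3_three _ _ _ ha2 hb2 hz2 ha1 hb1 hz1 (fun e => hne ((ha' b hb).1 e)) with e | e | e
  · exact Or.inl ((hz' a ha).1 e)
  · exact Or.inr (Or.inl ((hz' b hb).1 e))
  · exact Or.inr (Or.inr (((ha' b hb).2.2 z hz).1 e))

theorem nb_prod (hD : IsThreeTranspositionSet D) (hloc : LocalSymThree D) {d : G} (hd : d ∈ D)
    {a b p q : G} (ha : a ∈ Nb D d) (hb : b ∈ Nb D d) (hne : a ≠ b) (hp : p ∈ Nb D d)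
    (hq : q ∈ Nb D d) (hpq : p ≠ q) : p * q = a * b ∨ p * q = b * a := by
  obtain ⟨i, hi⟩ := nb_image hD hloc hd
  obtain ⟨ha2, ha1, ha'⟩ := hi a ha
  obtain ⟨hb2, hb1, hb'⟩ := hi b hb
  obtain ⟨hp2, hp1, hp'⟩ := hi p hp
  obtain ⟨hq2, hq1, -⟩ := hi q hq
  rcases s3_prod _ _ _ _ ha2 hb2 hp2 hq2 ha1 hb1 hp1 hq1 (fun e => hne ((ha' b hb).1 e))
    (fun e => hpq ((hp' q hq).1 e)) with e | e
  · exact Or.inl (((ha' b hb).2.2 p hp).2 q hq e)
  · exact Or.inr (((hb' a ha).2.2 p hp).2 q hq e)

/-- an element of `O₃` centralising `x` and a neighbour of `x` is trivial -/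
theorem core_trivial [Finite G] (hD : IsThreeTranspositionSet D) (hconj : ∀ g : G, ∀ d ∈ D, g * d * g⁻¹ ∈ D)
    (hloc : LocalSymThree D) {x w y : G} (hx : x ∈ D) (hw : w ∈ Nb D x) (hy : y ∈ pCore 3 G)
    (hyx : Commute y x) (hyw : Commute y w) : y = 1 := by
  set C := Subgroup.centralizer ({x} : Set G)
  have hCm : ∀ {g : G}, g ∈ C ↔ Commute g x := fun {g} => by
    rw [Subgroup.mem_centralizer_singleton_iff]; exact Iff.rfl
  obtain ⟨b, hb, hne⟩ : ∃ b ∈ Nb D x, w ≠ b := by
    obtain ⟨p, hp, q, hq, hpq⟩ := exists_pair hloc hx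
    rcases eq_or_ne w p with rfl | h
    exacts [⟨q, hq, hpq⟩, ⟨p, hp, h⟩]
  have hnc : ¬ Commute w b := nb_not_commute hD hloc hx hw hb hne
  have h3 : orderOf (w * b) = 3 := orderOf_mul_not_commute hD hw.1 hb.1 hnc
  have hwbC : w * b ∈ C := hCm.2 ((hw.2.2.symm).mul_left hb.2.2.symm)
  have hbwC : b * w ∈ C := hCm.2 ((hb.2.2.symm).mul_left hw.2.2.symm)
  set t : C := ⟨w * b, hwbC⟩
  have ht3 : orderOf t = 3 := by rw [← orderOf_injective C.subtype Subtype.val_injective t]; exact h3
  have hbw : (⟨b * w, hbwC⟩ : C) = t⁻¹ := by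
    refine Subtype.ext ?_
    show b * w = (w * b)⁻¹
    rw [mul_inv_rev, tt_inv hD hw.1, tt_inv hD hb.1]
  have hTn : (Subgroup.zpowers t).Normal := by
    refine ⟨fun s hs g => ?_⟩
    obtain ⟨k, rfl⟩ := Subgroup.mem_zpowers_iff.1 hs
    rw [← conj_zpow]
    refine zpow_mem ?_ k
    have hg : Commute (g : G) x := hCm.1 g.2
    have hconjm : ∀ z ∈ Nb D x, (g : G) * z * (g : G)⁻¹ ∈ Nb D x := by
      intro z hz
      have hgx : (g : G) * x * (g : G)⁻¹ = x := by rw [hg.eq, mul_inv_cancel_right]
      refine ⟨hconj _ z hz.1, fun e => hz.2.1 ?_, ?_⟩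
      · conv_rhs at e => rw [← hgx]
        simpa using e
      · have := (commute_conj_iff (g : G) x z).2 hz.2.2
        rwa [hgx] at this
    rcases nb_prod hD hloc hx hw hb hne (hconjm w hw) (hconjm b hb) (by simpa using hne) with e | e
    · have : g * t * g⁻¹ = t := Subtype.ext (by simpa [t, mul_assoc] using e)
      rw [this]; exact Subgroup.mem_zpowers t
    · have : g * t * g⁻¹ = ⟨b * w, hbwC⟩ := Subtype.ext (by simpa [t, mul_assoc] using e)
      rw [this, hbw]; exact inv_mem (Subgroup.mem_zpowers t)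
  have hle : Subgroup.zpowers t ≤ pCore 3 C :=
    Cores.le_pCore hTn (IsPGroup.of_card (n := 1) (by rw [Nat.card_zpowers, ht3, pow_one]))
  have heq : Subgroup.zpowers t = pCore 3 C :=
    Subgroup.eq_of_le_of_card_ge hle (by rw [(hloc x hx).2, Nat.card_zpowers, ht3])
  have hyC : y ∈ C := hCm.2 hyx
  have hy' : (⟨y, hyC⟩ : C) ∈ pCore 3 C :=
    Cores.le_pCore (N := (pCore 3 G).subgroupOf C) inferInstance
      (Cores.pCore_isPGroup.comap_subtype) hy
  rw [← heq] at hy'
  obtain ⟨k, hk⟩ := Subgroup.mem_zpowers_iff.1 hy'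
  by_contra hy1
  have hne1 : t ^ k ≠ 1 := by rw [hk]; exact fun e => hy1 (congrArg Subtype.val e)
  have hk3 : ¬ (3 : ℤ) ∣ k := fun h => hne1 (orderOf_dvd_iff_zpow_eq_one.1 (by rw [ht3]; exact_mod_cast h))
  obtain ⟨u, v, huv⟩ : ∃ u v : ℤ, u * k + v * 3 = 1 :=
    (Int.prime_three.coprime_iff_not_dvd.2 hk3).symm
  have hgen : (w * b) = y ^ u := by
    have e : t = (t ^ k) ^ u := by
      have h3' : t ^ (3 : ℤ) = 1 := orderOf_dvd_iff_zpow_eq_one.1 (by rw [ht3]; norm_num)
      conv_lhs => rw [← zpow_one t, ← huv, zpow_add, mul_comm u k, zpow_mul, mul_comm v, zpow_mul, h3',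
        one_zpow, mul_one]
    rw [hk] at e
    simpa using congrArg Subtype.val e
  have hwt : Commute w (w * b) := hgen ▸ (hyw.symm.zpow_right u)
  exact hnc (by
    have := (Commute.refl w).inv_right.mul_right hwt
    simpa using this)

theorem square_case [Finite G] (hD : IsThreeTranspositionSet D) (hconj : ∀ g : G, ∀ d ∈ D, g * d * g⁻¹ ∈ D)
    (hloc : LocalSymThree D) {d a b e : G} (hd : d ∈ D) (ha : a ∈ Nb D d) (hb : b ∈ Nb D d)
    (hab : a ≠ b) (hea : e ∈ Nb D a) (heb : e ∈ Nb D b) (hed : e ≠ d) :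
    Nonempty (↥(Subgroup.closure D) ≃* Equiv.Perm (Fin 3) × Equiv.Perm (Fin 3)) := by
  have haD := ha.1
  have hbD := hb.1
  have heD := hea.1
  have hde : ¬ Commute d e := nb_not_commute hD hloc haD ⟨hd, ha.2.1.symm, ha.2.2.symm⟩ hea hed.symm
  have hab' : ¬ Commute a b := nb_not_commute hD hloc hd ha hb hab
  have hda : d ∈ Nb D a := ⟨hd, ha.2.1.symm, ha.2.2.symm⟩
  have hdb : d ∈ Nb D b := ⟨hd, hb.2.1.symm, hb.2.2.symm⟩
  -- every neighbour of `d` commutes with every neighbour of `a`
  set c := a * b * a with hc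
  set f := d * e * d with hf
  have hcD : c ∈ D := by
    have := hconj a b hbD; rwa [tt_inv hD haD] at this
  have hfD : f ∈ D := by
    have := hconj d e heD; rwa [tt_inv hD hd] at this
  have hNd : ∀ z ∈ Nb D d, z = a ∨ z = b ∨ z = c := fun z hz => nb_three hD hloc hd ha hb hab hz
  have hNa : ∀ z ∈ Nb D a, z = d ∨ z = e ∨ z = f := fun z hz =>
    nb_three hD hloc haD hda hea hed.symm hz
  have hcd : Commute d c := (ha.2.2.mul_right hb.2.2).mul_right ha.2.2
  have hce : Commute e c :=
    ((hea.2.2.symm).mul_right heb.2.2.symm).mul_right hea.2.2.symm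
  have hcross : ∀ p, p = a ∨ p = b ∨ p = c → ∀ q, q = d ∨ q = e ∨ q = f → Commute p q := by
    intro p hp q hq
    have hpd : Commute p d := by
      rcases hp with rfl | rfl | rfl
      exacts [ha.2.2.symm, hb.2.2.symm, hcd.symm]
    have hpe : Commute p e := by
      rcases hp with rfl | rfl | rfl
      exacts [hea.2.2, heb.2.2, hce.symm]
    rcases hq with rfl | rfl | rfl
    exacts [hpd, hpe, (hpd.mul_right hpe).mul_right hpd]
  haveI : (Subgroup.closure D).Normal := by
    refine ⟨fun s hs g => ?_⟩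
    induction hs using Subgroup.closure_induction with
    | mem z hz => exact Subgroup.subset_closure (hconj g z hz)
    | one => simp
    | mul p q _ _ hp hq =>
      have := mul_mem hp hq
      rwa [show g * p * g⁻¹ * (g * q * g⁻¹) = g * (p * q) * g⁻¹ by group] at this
    | inv p _ hp =>
      have := inv_mem hp
      rwa [show (g * p * g⁻¹)⁻¹ = g * p⁻¹ * g⁻¹ by group] at this
  set N := Subgroup.closure D
  have hGN : IsThreeTranspositionGroup (N.subtype ⁻¹' D) :=
    ⟨preimage_set hD N.subtype Subtype.val_injective, fun g z hz => hconj (g : G) (z : G) hz,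
      Subgroup.closure_closure_coe_preimage⟩
  -- the two pairs of twins
  have htw : ∀ p q, p ∈ D → q ∈ D → Nb D p = Nb D q → p * q ∈ pCore 3 G := by
    intro p q hp hq he
    have hw : WTwin (N.subtype ⁻¹' D) ⟨p, Subgroup.subset_closure hp⟩ ⟨q, Subgroup.subset_closure hq⟩ := by
      rw [wTwin_iff]
      intro y hy
      have h := Set.ext_iff.1 he (y : G)
      simp only [Nb, Set.mem_setOf_eq] at h
      have hy' : (y : G) ∈ D := hy
      simpa [hy', Subtype.ext_iff, commute_iff_eq] using h
    exact Cores.map_subtype_pCore_le ⟨_, wTwin_mem_pCore hGN hp hq hw, rfl⟩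
  have hne_cross : ∀ p, p = a ∨ p = b ∨ p = c → ∀ q, q = d ∨ q = e ∨ q = f → p ≠ q := by
    intro p hp q hq h
    have h1 : Commute p a := by rw [h]; exact (hcross a (Or.inl rfl) q hq).symm
    rcases hp with hp | hp | hp
    · have h' : a = q := hp ▸ h
      rcases hq with hq | hq | hq
      · exact ha.2.1 (h'.trans hq)
      · exact hea.2.1 (h'.trans hq).symm
      · refine hea.2.1 ?_
        have h4 : d * a * d = a := by rw [ha.2.2.eq, mul_assoc, tt_mul_self hD hd, mul_one]
        calc e = d * (d * e * d) * d := by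
              simp only [mul_assoc, tt_mul_self hD hd, mul_one]
              rw [← mul_assoc, tt_mul_self hD hd, one_mul]
          _ = a := by rw [← hf, ← hq, ← h', h4]
    · rw [hp] at h1
      exact hab' h1.symm
    · apply hab'
      have h2 : a * (a * b * a) * a = b := by
        simp only [mul_assoc, tt_mul_self hD haD, mul_one]
        rw [← mul_assoc, tt_mul_self hD haD, one_mul]
      rw [hp, hc] at h1
      rw [← h2]
      exact ((Commute.refl a).mul_right h1.symm).mul_right (Commute.refl a)
  have hNb : ∀ p, p = a ∨ p = b ∨ p = c → Nb D p = Nb D a := by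
    intro p hp
    have hpD : p ∈ D := by rcases hp with rfl | rfl | rfl <;> assumption
    have hsub : ∀ q, q = d ∨ q = e ∨ q = f → q ∈ Nb D p := fun q hq =>
      ⟨by rcases hq with rfl | rfl | rfl <;> assumption, (hne_cross p hp q hq).symm, hcross p hp q hq⟩
    have hsuba : ∀ q, q = d ∨ q = e ∨ q = f → q ∈ Nb D a := fun q hq =>
      ⟨by rcases hq with rfl | rfl | rfl <;> assumption, (hne_cross a (Or.inl rfl) q hq).symm,
        hcross a (Or.inl rfl) q hq⟩
    ext z
    exact ⟨fun hz => hsuba z (nb_three hD hloc hpD (hsub d (Or.inl rfl)) (hsub e (Or.inr (Or.inl rfl)))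
      hed.symm hz), fun hz => hsub z (hNa z hz)⟩
  have hNq : ∀ q, q = d ∨ q = e ∨ q = f → Nb D q = Nb D d := by
    intro q hq
    have hqD : q ∈ D := by rcases hq with rfl | rfl | rfl <;> assumption
    have hsub : ∀ p, p = a ∨ p = b ∨ p = c → p ∈ Nb D q := fun p hp =>
      ⟨by rcases hp with rfl | rfl | rfl <;> assumption, hne_cross p hp q hq, (hcross p hp q hq).symm⟩
    have hsubd : ∀ p, p = a ∨ p = b ∨ p = c → p ∈ Nb D d := fun p hp =>
      ⟨by rcases hp with rfl | rfl | rfl <;> assumption, hne_cross p hp d (Or.inl rfl),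
        (hcross p hp d (Or.inl rfl)).symm⟩
    ext z
    exact ⟨fun hz => hsubd z (nb_three hD hloc hqD (hsub a (Or.inl rfl)) (hsub b (Or.inr (Or.inl rfl)))
      hab hz), fun hz => hsub z (hNd z hz)⟩
  have hk1 : a * b ∈ pCore 3 G := htw a b haD hbD (hNb b (Or.inr (Or.inl rfl))).symm
  have hk2 : d * e ∈ pCore 3 G := htw d e hd heD (hNq e (Or.inr (Or.inl rfl))).symm
  -- no further members
  have hall : ∀ x ∈ D, (x = a ∨ x = b ∨ x = c) ∨ (x = d ∨ x = e ∨ x = f) := by
    intro x hx
    by_contra hout
    obtain ⟨hxp, hxq⟩ := not_or.1 hout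
    have ncp : ∀ p, p = a ∨ p = b ∨ p = c → ¬ Commute p x := fun p hp hcm => hxq (hNa x (by
      rw [← hNb p hp]; exact ⟨hx, fun e' => hxp (e' ▸ hp), hcm⟩))
    have ncq : ∀ q, q = d ∨ q = e ∨ q = f → ¬ Commute q x := fun q hq hcm => hxp (hNd x (by
      rw [← hNq q hq]; exact ⟨hx, fun e' => hxq (e' ▸ hq), hcm⟩))
    have hwit : ∀ p q, (p = a ∨ p = b ∨ p = c) → (q = d ∨ q = e ∨ q = f) →
        p * q * x * (p * q) ∈ Nb D x := by
      intro p q hp hq
      have hpD : p ∈ D := by rcases hp with rfl | rfl | rfl <;> assumption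
      have hqD : q ∈ D := by rcases hq with rfl | rfl | rfl <;> assumption
      have hpq := hcross p hp q hq
      have bp : x * p * x = p * x * p := (tt_braid hD hpD hx (ncp p hp)).symm
      have bq : x * q * x = q * x * q := (tt_braid hD hqD hx (ncq q hq)).symm
      have hh : (p * q)⁻¹ = p * q := by rw [mul_inv_rev, tt_inv hD hpD, tt_inv hD hqD, hpq.eq]
      have e5 : p * q * x * (p * q) = p * (q * x * q) * p := by
        conv_lhs => arg 2; rw [hpq.eq]
        simp only [mul_assoc]
      refine ⟨?_, ?_, ?_⟩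
      · have := hconj (p * q) x hx; rwa [hh] at this
      · intro e'
        have hcm : Commute (p * q) x := by
          have h' := congrArg (fun z => z * (p * q)⁻¹) e'
          simp only [mul_inv_cancel_right] at h'
          rw [hh] at h'
          exact h'
        have e2 : p * x * p = q * x * q := by
          have h' : p * x * p = p * (p * q * x * (p * q)) * p := by rw [e']
          rw [h', e5]
          simp only [mul_assoc, tt_mul_self hD hpD, mul_one]
          rw [← mul_assoc, tt_mul_self hD hpD, one_mul]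
        have : p = q := by
          have h' : x * p * x = x * q * x := by rw [bp, bq, e2]
          exact mul_left_cancel (mul_right_cancel h')
        exact hne_cross p hp q hq this
      · have huv : Commute (p * x * p) (q * x * q) := by
          rw [← bp, ← bq]
          have := (commute_conj_iff x p q).2 hpq
          rwa [tt_inv hD hx] at this
        have := (commute_conj_iff p (p * x * p) (q * x * q)).2 huv
        rw [tt_inv hD hpD] at this
        have h1 : p * (p * x * p) * p = x := by
          simp only [mul_assoc, tt_mul_self hD hpD, mul_one]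
          rw [← mul_assoc, tt_mul_self hD hpD, one_mul]
        rw [h1] at this
        rw [e5]
        exact this
    -- two of the four products give the same neighbour
    have key : ∀ p q p' q', (p = a ∨ p = b ∨ p = c) → (q = d ∨ q = e ∨ q = f) →
        (p' = a ∨ p' = b ∨ p' = c) → (q' = d ∨ q' = e ∨ q' = f) → p * p' * (q * q') ∈ pCore 3 G →
        p * q * x * (p * q) = p' * q' * x * (p' * q') → p * p' * (q * q') = 1 := by
      intro p q p' q' hp hq hp' hq' hy he'
      have hpD : p ∈ D := by rcases hp with rfl | rfl | rfl <;> assumption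
      have hqD : q ∈ D := by rcases hq with rfl | rfl | rfl <;> assumption
      have hpD' : p' ∈ D := by rcases hp' with rfl | rfl | rfl <;> assumption
      have hqD' : q' ∈ D := by rcases hq' with rfl | rfl | rfl <;> assumption
      set g := p * q with hg
      set h := p' * q' with hh
      have hgg : g * g = 1 := by
        rw [hg]; conv_lhs => arg 2; rw [(hcross p hp q hq).eq]
        rw [mul_assoc, ← mul_assoc q q, tt_mul_self hD hqD, one_mul, tt_mul_self hD hpD]
      have hhh : h * h = 1 := by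
        rw [hh]; conv_lhs => arg 2; rw [(hcross p' hp' q' hq').eq]
        rw [mul_assoc, ← mul_assoc q' q', tt_mul_self hD hqD', one_mul, tt_mul_self hD hpD']
      have hy' : p * p' * (q * q') = g * h := by
        rw [hg, hh]
        simp only [mul_assoc]
        rw [← mul_assoc q p', ← (hcross p' hp' q hq).eq, mul_assoc]
      rw [hy'] at hy ⊢
      have hgh : h * g = (g * h)⁻¹ := by
        rw [mul_inv_rev, inv_eq_of_mul_eq_one_right hgg, inv_eq_of_mul_eq_one_right hhh]
      have hc1 : Commute (g * h) x := by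
        have hh1 : h * g * x * (g * h) = x := by
          calc h * g * x * (g * h) = h * (g * x * g) * h := by simp only [mul_assoc]
            _ = h * (h * x * h) * h := by rw [he']
            _ = x := by
              simp only [mul_assoc, hhh, mul_one]
              rw [← mul_assoc, hhh, one_mul]
        rw [hgh, mul_assoc, inv_mul_eq_iff_eq_mul] at hh1
        exact hh1.symm
      refine core_trivial hD hconj hloc hx (hwit p q hp hq) hy hc1 ?_
      have h2 := (commute_conj_iff g (g * h)⁻¹ x).2 hc1.inv_left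
      rw [inv_eq_of_mul_eq_one_right hgg, ← hgh] at h2
      rwa [show g * (h * g) * g = g * h by simp only [mul_assoc, hgg, mul_one]] at h2
    have n1 : a * b ≠ 1 := fun h => hab (eq_of_mul_eq_one hD haD h)
    have n2 : d * e ≠ 1 := fun h => hed (eq_of_mul_eq_one hD hd h).symm
    have oa : a = a ∨ a = b ∨ a = c := Or.inl rfl
    have ob : b = a ∨ b = b ∨ b = c := Or.inr (Or.inl rfl)
    have od : d = d ∨ d = e ∨ d = f := Or.inl rfl
    have oe : e = d ∨ e = e ∨ e = f := Or.inr (Or.inl rfl)
    have hinvk : ∀ {p q : G}, p ∈ D → q ∈ D → p * q ∈ pCore 3 G → q * p ∈ pCore 3 G := fun hp hq h => by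
      have := inv_mem h; rwa [mul_inv_rev, tt_inv hD hp, tt_inv hD hq] at this
    have sq : ∀ {p : G}, p ∈ D → p * p = 1 := fun hp => tt_mul_self hD hp
    have ne1 : a * d * x * (a * d) ≠ b * d * x * (b * d) := fun h => n1 (by
      have := key a d b d oa od ob od (by rw [sq hd, mul_one]; exact hk1) h
      rwa [sq hd, mul_one] at this)
    have ne2 : a * d * x * (a * d) ≠ a * e * x * (a * e) := fun h => n2 (by
      have := key a d a e oa od oa oe (by rw [sq haD, one_mul]; exact hk2) h
      rwa [sq haD, one_mul] at this)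
    have ne3 : a * d * x * (a * d) ≠ b * e * x * (b * e) := fun h => by
      have h1 := key a d b e oa od ob oe (mul_mem hk1 hk2) h
      have hc' : Commute a (d * e) := (ha.2.2.symm).mul_right hea.2.2
      have : d * e = (a * b)⁻¹ := eq_inv_of_mul_eq_one_right h1
      rw [this, mul_inv_rev, tt_inv hD hbD, tt_inv hD haD] at hc'
      apply hab'
      have h' := hc'.mul_right (Commute.refl a)
      rwa [mul_assoc, sq haD, mul_one] at h'
    have ne4 : b * d * x * (b * d) ≠ a * e * x * (a * e) := fun h => by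
      have h1 := key b d a e ob od oa oe (mul_mem (hinvk haD hbD hk1) hk2) h
      have hc' : Commute a (d * e) := (ha.2.2.symm).mul_right hea.2.2
      have : d * e = (b * a)⁻¹ := eq_inv_of_mul_eq_one_right h1
      rw [this, mul_inv_rev, tt_inv hD hbD, tt_inv hD haD] at hc'
      apply hab'
      have h' := (Commute.refl a).mul_right hc'
      rwa [← mul_assoc, sq haD, one_mul] at h'
    have ne5 : b * d * x * (b * d) ≠ b * e * x * (b * e) := fun h => n2 (by
      have := key b d b e ob od ob oe (by rw [sq hbD, one_mul]; exact hk2) h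
      rwa [sq hbD, one_mul] at this)
    have ne6 : a * e * x * (a * e) ≠ b * e * x * (b * e) := fun h => n1 (by
      have := key a e b e oa oe ob oe (by rw [sq heD, mul_one]; exact hk1) h
      rwa [sq heD, mul_one] at this)
    have w1 := hwit a d oa od
    have w2 := hwit b d ob od
    have e3 := nb_three hD hloc hx w1 w2 ne1 (hwit a e oa oe)
    have e4 := nb_three hD hloc hx w1 w2 ne1 (hwit b e ob oe)
    rcases e3 with h | h | h
    · exact ne2 h.symm
    · exact ne4 h.symm
    rcases e4 with h' | h' | h'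
    · exact ne3 h'.symm
    · exact ne5 h'.symm
    exact ne6 (h.trans h'.symm)
  -- the direct product
  obtain ⟨φ⟩ := (hloc d hd).1
  obtain ⟨ψ⟩ := (hloc a haD).1
  set H₁ := Subgroup.closure (Nb D d)
  set H₂ := Subgroup.closure (Nb D a)
  have hcomm : H₁ ≤ Subgroup.centralizer (H₂ : Set G) := by
    rw [Subgroup.centralizer_closure, Subgroup.closure_le]
    intro p hp
    rw [SetLike.mem_coe, Subgroup.mem_centralizer_iff]
    exact fun q hq => (hcross p (hNd p hp) q (hNa q hq)).eq.symm
  have hcomm' : ∀ (m : H₁) (k : H₂), Commute (m : G) (k : G) := fun m k =>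
    (Subgroup.mem_centralizer_iff.1 (hcomm m.2) _ k.2).symm
  let Φ : H₁ × H₂ →* G := MonoidHom.noncommCoprod H₁.subtype H₂.subtype hcomm'
  have hinj : Function.Injective Φ := by
    rw [← MonoidHom.ker_eq_bot_iff, eq_bot_iff]
    rintro ⟨m, k⟩ hmk
    have hmk' : (m : G) * k = 1 := hmk
    have hm : m ∈ Subgroup.center H₁ := by
      rw [Subgroup.mem_center_iff]
      intro m'
      apply Subtype.ext
      show (m' : G) * m = m * m'
      rw [eq_inv_of_mul_eq_one_left hmk']
      exact (hcomm' m' k).inv_right.eq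
    have hz : Subgroup.center (Equiv.Perm (Fin 3)) = ⊥ := by
      rw [eq_bot_iff]
      intro z hz
      rw [Subgroup.mem_center_iff] at hz
      exact (by decide : ∀ z : Equiv.Perm (Fin 3), (∀ g, g * z = z * g) → z = 1) z hz
    have hm1 : m = 1 := by
      have : φ m ∈ Subgroup.center (Equiv.Perm (Fin 3)) := by
        rw [Subgroup.mem_center_iff]
        intro g
        have := congrArg φ (Subgroup.mem_center_iff.1 hm (φ.symm g))
        simpa using this
      rw [hz, Subgroup.mem_bot] at this
      exact φ.injective (this.trans φ.map_one.symm)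
    subst hm1
    simp only [OneMemClass.coe_one, one_mul] at hmk'
    exact Subgroup.mem_bot.2 (Prod.ext rfl (Subtype.ext hmk'))
  have hrange : Φ.range = Subgroup.closure D := by
    refine le_antisymm ?_ ((Subgroup.closure_le _).2 ?_)
    · rintro _ ⟨⟨m, k⟩, rfl⟩
      exact mul_mem (Subgroup.closure_mono (fun z hz => hz.1) m.2)
        (Subgroup.closure_mono (fun z hz => hz.1) k.2)
    · intro z hz
      rcases hall z hz with h | h
      · refine ⟨(⟨z, Subgroup.subset_closure (hNq d (Or.inl rfl) ▸ ?_)⟩, 1), mul_one z⟩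
        exact ⟨hz, hne_cross z h d (Or.inl rfl), (hcross z h d (Or.inl rfl)).symm⟩
      · refine ⟨(1, ⟨z, Subgroup.subset_closure ?_⟩), one_mul z⟩
        exact ⟨hz, (hne_cross a (Or.inl rfl) z h).symm, hcross a (Or.inl rfl) z h⟩
  exact ⟨((MonoidHom.ofInjective hinj).trans (MulEquiv.subgroupCongr hrange)).symm.trans
    (φ.prodCongr ψ)⟩

theorem sym_five_case (hD : IsThreeTranspositionSet D) (hconj : ∀ g : G, ∀ d ∈ D, g * d * g⁻¹ ∈ D)
    (hloc : LocalSymThree D) {d : G} (hd : d ∈ D)
    (hno : ∀ p ∈ D, ∀ q ∈ D, p ≠ q → ∀ r ∈ Nb D p, r ∈ Nb D q → ∀ s ∈ Nb D p, s ∈ Nb D q → r = s) :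
    Nonempty (↥(Subgroup.closure D) ≃* Equiv.Perm (Fin 5)) := by
  have conjD : ∀ {p z : G}, p ∈ D → z ∈ D → p * z * p ∈ D := fun {p z} hp hz => by
    have := hconj p z hz; rwa [tt_inv hD hp] at this
  have sq : ∀ {p : G}, p ∈ D → p * p = 1 := fun hp => tt_mul_self hD hp
  have cancel : ∀ {p : G}, p ∈ D → ∀ z, p * (p * z * p) * p = z := fun {p} hp z => by
    simp only [mul_assoc, sq hp, mul_one]
    rw [← mul_assoc, sq hp, one_mul]
  obtain ⟨a, ha, b, hb, hab⟩ := exists_pair hloc hd
  have hab' : ¬ Commute a b := nb_not_commute hD hloc hd ha hb hab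
  have hdb : d ∈ Nb D b := ⟨hd, hb.2.1.symm, hb.2.2.symm⟩
  have hda : d ∈ Nb D a := ⟨hd, ha.2.1.symm, ha.2.2.symm⟩
  set c := a * b * a with hcdef
  have hcD : c ∈ D := conjD ha.1 hb.1
  have hNd : ∀ z ∈ Nb D d, z = a ∨ z = b ∨ z = c := fun z hz => nb_three hD hloc hd ha hb hab hz
  obtain ⟨x, hx, hxd⟩ : ∃ x ∈ Nb D b, x ≠ d := by
    obtain ⟨p, hp, q, hq, hpq⟩ := exists_pair hloc hb.1
    rcases eq_or_ne p d with rfl | h
    exacts [⟨q, hq, hpq.symm⟩, ⟨p, hp, h⟩]
  have hNb : ∀ z ∈ Nb D b, z = d ∨ z = x ∨ z = d * x * d := fun z hz =>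
    nb_three hD hloc hb.1 hdb hx hxd.symm hz
  have hdx : ¬ Commute d x := nb_not_commute hD hloc hb.1 hdb hx hxd.symm
  have hxa : x ≠ a := fun e => hab' (e ▸ hx.2.2).symm
  have hax : ¬ Commute x a := fun h => hxd
    (hno a ha.1 b hb.1 hab d hda hdb x ⟨hx.1, hxa, h.symm⟩ hx).symm
  -- the homomorphism
  let g : ℕ → G := fun i => if i = 0 then d else if i = 1 then x else if i = 2 then a else b
  have g0 : g 0 = d := rfl
  have g1 : g 1 = x := rfl
  have g2 : g 2 = a := rfl
  have g3 : g 3 = b := rfl
  have hrel : CoxeterSym.RelA g 4 := by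
    refine ⟨fun i hi => ?_, fun i hi => ?_, fun i j h1 h2 => ?_⟩
    · interval_cases i
      exacts [sq hd, sq hx.1, sq ha.1, sq hb.1]
    · obtain rfl | rfl | rfl : i = 0 ∨ i = 1 ∨ i = 2 := by omega
      exacts [tt_braid hD hd hx.1 hdx, tt_braid hD hx.1 ha.1 hax, tt_braid hD ha.1 hb.1 hab']
    · obtain ⟨rfl, rfl⟩ | ⟨rfl, rfl⟩ | ⟨rfl, rfl⟩ :
        (i = 0 ∧ j = 2) ∨ (i = 0 ∧ j = 3) ∨ (i = 1 ∧ j = 3) := by omega
      exacts [ha.2.2, hb.2.2, hx.2.2.symm]
  obtain ⟨φ, hφ, hφr⟩ := CoxeterSym.exists_hom g 4 hrel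
  have hdR : d ∈ φ.range := ⟨_, hφ 0 (by norm_num)⟩
  have hxR : x ∈ φ.range := ⟨_, hφ 1 (by norm_num)⟩
  have haR : a ∈ φ.range := ⟨_, hφ 2 (by norm_num)⟩
  have hbR : b ∈ φ.range := ⟨_, hφ 3 (by norm_num)⟩
  have hcR : c ∈ φ.range := mul_mem (mul_mem haR hbR) haR
  have hcNd : c ∈ Nb D d := by
    refine ⟨hcD, fun e => hb.2.1 ?_, (ha.2.2.mul_right hb.2.2).mul_right ha.2.2⟩
    calc b = a * (a * b * a) * a := (cancel ha.1 b).symm
      _ = a * d * a := by rw [← e]
      _ = d := by rw [← ha.2.2.eq, mul_assoc, sq ha.1, mul_one]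
  -- generation
  have hall : ∀ z ∈ D, z ∈ φ.range := by
    intro z hz
    by_cases hzd : z = d
    · rw [hzd]; exact hdR
    by_cases h : Commute d z
    · rcases hNd z ⟨hz, hzd, h⟩ with rfl | rfl | rfl
      exacts [haR, hbR, hcR]
    have hinb : ∀ y ∈ Nb D b, y ∈ φ.range := fun y hy => by
      rcases hNb y hy with rfl | rfl | rfl
      exacts [hdR, hxR, mul_mem (mul_mem hdR hxR) hdR]
    have hconjNb : ∀ {p q y : G}, p ∈ D → y ∈ Nb D q → p * y * p ∈ Nb D (p * q * p) := by
      intro p q y hp hy
      refine ⟨conjD hp hy.1, fun e => hy.2.1 (by rw [← cancel hp y, e, cancel hp]), ?_⟩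
      have := (commute_conj_iff p q y).2 hy.2.2
      rwa [tt_inv hD hp] at this
    have hac : c * b * c = a := by
      have hcb : ¬ Commute c b := nb_not_commute hD hloc hd hcNd hb fun e => hab' (show a * b = b * a by
        calc a * b = a * b * (a * a) := by rw [sq ha.1, mul_one]
          _ = c * a := by simp only [hcdef, mul_assoc]
          _ = b * a := by rw [e])
      calc c * b * c = b * c * b := tt_braid hD hcD hb.1 hcb
        _ = (b * a * b) * (a * b) := by simp only [hcdef, mul_assoc]
        _ = (a * b * a) * (a * b) := by rw [tt_braid hD ha.1 hb.1 hab']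
        _ = a := by
          simp only [mul_assoc]
          rw [← mul_assoc a a, sq ha.1, one_mul, sq hb.1, mul_one]
    by_cases h1 : Commute b z
    · exact hinb z ⟨hz, fun e => h (e ▸ hb.2.2), h1⟩
    by_cases h2 : Commute c z
    · have hzc : z ≠ c := fun e => h (e ▸ (ha.2.2.mul_right hb.2.2).mul_right ha.2.2)
      have := hinb (a * z * a) (by
        have h' := hconjNb (q := c) ha.1 ⟨hz, hzc, h2⟩
        rwa [hcdef, cancel ha.1] at h')
      have e : z = a * (a * z * a) * a := (cancel ha.1 z).symm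
      rw [e]; exact mul_mem (mul_mem haR this) haR
    by_cases h3 : Commute a z
    · have := hinb (c * z * c) (by
        have h' := hconjNb (q := a) hcD ⟨hz, fun e => h (e ▸ ha.2.2), h3⟩
        rwa [show c * a * c = b by rw [← hac, cancel hcD]] at h')
      rw [← cancel hcD z]; exact mul_mem (mul_mem hcR this) hcR
    -- otherwise a four-cycle appears
    exfalso
    have hwit : ∀ p ∈ Nb D d, ¬ Commute p z → p * d * z * (p * d) ∈ Nb D z := by
      intro p hp hnc
      have hpq : Commute p d := hp.2.2.symm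
      have bp : z * p * z = p * z * p := (tt_braid hD hp.1 hz hnc).symm
      have bq : z * d * z = d * z * d := (tt_braid hD hd hz h).symm
      have e0 : p * d * z * (p * d) = p * (d * z * d) * p := by
        conv_lhs => arg 2; rw [hpq.eq]
        simp only [mul_assoc]
      rw [e0]
      refine ⟨conjD hp.1 (conjD hd hz), fun e' => hp.2.1 ?_, ?_⟩
      · have h' : z * d * z = z * p * z := by
          rw [bq, bp]
          conv_rhs => rw [← e']
          rw [cancel hp.1]
        exact (mul_left_cancel (mul_right_cancel h')).symm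
      · have huv : Commute (p * z * p) (d * z * d) := by
          rw [← bp, ← bq]
          have := (commute_conj_iff z p d).2 hpq
          rwa [tt_inv hD hz] at this
        have := (commute_conj_iff p (p * z * p) (d * z * d)).2 huv
        rwa [tt_inv hD hp.1, cancel hp.1] at this
    have w1 := hwit a ha h3
    have w2 := hwit b hb h1
    have w3 := hwit c hcNd h2
    set y := a * b * z * (b * a) with hy
    set u := a * d * z * (a * d) with hu
    set v := b * d * z * (b * d) with hv
    have hyD : y ∈ D := by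
      have := hconj (a * b) z hz
      rwa [mul_inv_rev, tt_inv hD ha.1, tt_inv hD hb.1] at this
    -- `y` is the image of `v` under `a * d` and of the third neighbour under `b * d`
    have hada : ∀ t, a * d * (a * d) = t → t = 1 := fun t ht => by
      rw [← ht]; simp only [mul_assoc]
      rw [← mul_assoc d a, ha.2.2.eq, mul_assoc, sq hd, mul_one, sq ha.1]
    have hbdb : b * d * (b * d) = 1 := by
      simp only [mul_assoc]
      rw [← mul_assoc d b, hb.2.2.eq, mul_assoc, sq hd, mul_one, sq hb.1]
    have y1 : a * d * v * (a * d) = y := by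
      rw [hy, hv]
      have e1 : a * d * (b * d) = a * b := by
        simp only [mul_assoc]
        rw [← mul_assoc d b, hb.2.2.eq, mul_assoc, sq hd, mul_one]
      have e2 : b * d * (a * d) = b * a := by
        simp only [mul_assoc]
        rw [← mul_assoc d a, ha.2.2.eq, mul_assoc, sq hd, mul_one]
      calc a * d * (b * d * z * (b * d)) * (a * d)
          = (a * d * (b * d)) * z * (b * d * (a * d)) := by simp only [mul_assoc]
        _ = a * b * z * (b * a) := by rw [e1, e2]
    have hadinv : (a * d)⁻¹ = a * d := by rw [mul_inv_rev, tt_inv hD ha.1, tt_inv hD hd, ha.2.2.eq]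
    have hbdinv : (b * d)⁻¹ = b * d := inv_eq_of_mul_eq_one_right hbdb
    have huv : u ≠ v := by
      intro e
      have h' : Commute (a * b) z := by
        have e' : y = z := by
          rw [← y1, ← e, hu]
          have h1' : a * d * (a * d) = 1 := hada _ rfl
          calc a * d * (a * d * z * (a * d)) * (a * d) = (a * d * (a * d)) * z * (a * d * (a * d)) := by
                simp only [mul_assoc]
            _ = z := by rw [h1', one_mul, mul_one]
        rw [hy] at e'
        have := congrArg (fun t => t * (a * b)) e'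
        simp only [mul_assoc] at this
        rw [← mul_assoc a a, sq ha.1, one_mul, sq hb.1, mul_one] at this
        exact (show a * b * z = z * (a * b) by simpa [mul_assoc] using this)
      -- then `a * z * a = b * z * b`
      have e2 : a * z * a = b * z * b := by
        calc a * z * a = a * (a * b * z * (b * a)) * a := by
              rw [show a * b * z * (b * a) = z by
                rw [h'.eq]; simp only [mul_assoc]
                rw [← mul_assoc b b, sq hb.1, one_mul, sq ha.1, mul_one]]
          _ = b * z * b := by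
              simp only [mul_assoc, sq ha.1, mul_one]
              rw [← mul_assoc, sq ha.1, one_mul]
      have e3 : z * a * z = z * b * z := by
        rw [(tt_braid hD ha.1 hz h3).symm, (tt_braid hD hb.1 hz h1).symm, e2]
      exact hab (mul_left_cancel (mul_right_cancel e3))
    have hyu : y ∈ Nb D u := by
      refine ⟨hyD, fun e => ?_, ?_⟩
      · have := congrArg (fun t => a * d * t * (a * d)) (show u = a * d * v * (a * d) by rw [y1, e])
        simp only [hu] at this
        have h1' : a * d * (a * d) = 1 := hada _ rfl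
        have k1 : ∀ t, a * d * (a * d * t * (a * d)) * (a * d) = t := fun t => by
          calc a * d * (a * d * t * (a * d)) * (a * d) = (a * d * (a * d)) * t * (a * d * (a * d)) := by
                simp only [mul_assoc]
            _ = t := by rw [h1', one_mul, mul_one]
        rw [k1, k1] at this
        exact w2.2.1 this.symm
      · have := (commute_conj_iff (a * d) z v).2 w2.2.2
        rwa [hadinv, ← hu, y1] at this
    have hyv : y ∈ Nb D v := by
      set w := c * d * z * (c * d) with hw
      have e1 : b * d * w * (b * d) = y := by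
        rw [hy, hw]
        have swp : ∀ p q, Commute d q → p * d * (q * d) = p * q := fun p q hq => by
          rw [mul_assoc, ← mul_assoc d q, hq.eq, mul_assoc q d, sq hd, mul_one]
        have e1 : b * d * (c * d) = a * b := by
          rw [swp b c hcNd.2.2]
          calc b * c = b * (b * a * b) := by rw [hcdef, tt_braid hD ha.1 hb.1 hab']
            _ = a * b := by rw [mul_assoc b a b, ← mul_assoc b b, sq hb.1, one_mul]
        have e2 : c * d * (b * d) = b * a := by
          rw [swp c b hb.2.2, hcdef, tt_braid hD ha.1 hb.1 hab', mul_assoc, sq hb.1, mul_one]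
        calc b * d * (c * d * z * (c * d)) * (b * d)
            = (b * d * (c * d)) * z * (c * d * (b * d)) := by simp only [mul_assoc]
          _ = a * b * z * (b * a) := by rw [e1, e2]
      refine ⟨hyD, fun e => ?_, ?_⟩
      · have h0 : b * d * w * (b * d) = b * d * z * (b * d) := by rw [e1, e]
        exact w3.2.1 (mul_left_cancel (mul_right_cancel h0))
      · have := (commute_conj_iff (b * d) z w).2 w3.2.2
        rwa [hbdinv, ← hv, e1] at this
    have hzu : z ∈ Nb D u := ⟨hz, w1.2.1.symm, w1.2.2.symm⟩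
    have hzv : z ∈ Nb D v := ⟨hz, w2.2.1.symm, w2.2.2.symm⟩
    have hzy : z = y := hno u w1.1 v w2.1 huv z hzu hzv y hyu hyv
    refine huv ?_
    have := congrArg (fun t => a * d * t * (a * d)) hzy
    rw [← y1] at this
    have h1' : a * d * (a * d) = 1 := hada _ rfl
    rw [← hu] at this
    rw [this]
    calc a * d * (a * d * v * (a * d)) * (a * d) = (a * d * (a * d)) * v * (a * d * (a * d)) := by
          simp only [mul_assoc]
      _ = v := by rw [h1', one_mul, mul_one]
  have hrange : φ.range = Subgroup.closure D := by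
    refine le_antisymm ?_ ((Subgroup.closure_le _).2 hall)
    rw [hφr]
    refine Subgroup.closure_mono ?_
    rintro _ ⟨i, hi, rfl⟩
    simp only [Set.mem_Iio] at hi
    interval_cases i
    exacts [hd, hx.1, ha.1, hb.1]
  have hinj : Function.Injective φ := by
    rw [← MonoidHom.ker_eq_bot_iff]
    rcases (alternatingGroup.isSimpleGroup_five).eq_bot_or_eq_top_of_normal
      (φ.ker.subgroupOf (alternatingGroup (Fin 5))) inferInstance with h | h
    · rw [eq_bot_iff]
      intro k hk
      have hcomm : ∀ g : Equiv.Perm (Fin 5), g * k = k * g := by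
        intro g
        have hmem : g * k * g⁻¹ * k⁻¹ ∈ alternatingGroup (Fin 5) := by
          rw [Equiv.Perm.mem_alternatingGroup, map_mul, map_mul, map_mul, map_inv, map_inv,
            mul_comm (Equiv.Perm.sign g), mul_inv_cancel_right, mul_inv_cancel]
        have : (⟨_, hmem⟩ : alternatingGroup (Fin 5)) ∈ (⊥ : Subgroup _) := by
          rw [← h, Subgroup.mem_subgroupOf]
          exact mul_mem ((inferInstance : φ.ker.Normal).conj_mem k hk g) (inv_mem hk)
        rw [Subgroup.mem_bot] at this
        have := congrArg Subtype.val this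
        exact mul_inv_eq_iff_eq_mul.1 (mul_inv_eq_one.1 this)
      rw [Subgroup.mem_bot]
      by_contra hk1
      obtain ⟨i, hi⟩ : ∃ i, k i ≠ i := by
        by_contra hall'
        exact hk1 (Equiv.ext fun i => not_not.1 fun hne => hall' ⟨i, hne⟩)
      obtain ⟨j, hj1, hj2⟩ : ∃ j, j ≠ i ∧ j ≠ k i :=
        (by decide : ∀ i m : Fin 5, ∃ j, j ≠ i ∧ j ≠ m) i (k i)
      have := Equiv.congr_fun (hcomm (Equiv.swap i j)) i
      simp only [Equiv.Perm.mul_apply, Equiv.swap_apply_left] at this
      rw [Equiv.swap_apply_of_ne_of_ne hi hj2.symm] at this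
      exact hj1 (k.injective this).symm
    · exfalso
      rw [Subgroup.subgroupOf_eq_top] at h
      have hmem : CoxeterSym.adjSwap 4 0 * CoxeterSym.adjSwap 4 1 ∈ φ.ker := h (by
        rw [Equiv.Perm.mem_alternatingGroup, map_mul, CoxeterSym.adjSwap, CoxeterSym.adjSwap,
          dif_pos (by norm_num), dif_pos (by norm_num), Equiv.Perm.sign_swap (by decide),
          Equiv.Perm.sign_swap (by decide)]
        decide)
      rw [MonoidHom.mem_ker, map_mul, hφ 0 (by norm_num), hφ 1 (by norm_num), g0, g1] at hmem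
      exact hxd (eq_of_mul_eq_one hD hd hmem).symm
  exact ⟨((MonoidHom.ofInjective hinj).trans (MulEquiv.subgroupCongr hrange)).symm⟩


/-- Let D be a non-empty conjugation-invariant set of involutions of a finite group G satisfying the 3-transposition order conditions, and suppose that for every d in D the members of D other than d commuting with d generate a subgroup isomorphic to the symmetric group of degree 3, and the largest normal 3-subgroup of the centralizer of d has order 3. Then the subgroup generated by D is isomorphic to the symmetric group of degree 5 or to the direct product of two symmetric groups of degree 3. -/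
theorem result {G : Type*} [Group G] [Finite G] {D : Set G} (hD : Cfsg.IsThreeTranspositionSet D) (hconj : ∀ g : G, ∀ d ∈ D, g * d * g⁻¹ ∈ D) (hne : D.Nonempty) (hloc : ∀ d ∈ D, Nonempty (↥(Subgroup.closure {y : G | y ∈ D ∧ y ≠ d ∧ Commute d y}) ≃* Equiv.Perm (Fin 3)) ∧ Nat.card (Cfsg.pCore 3 ↥(Subgroup.centralizer ({d} : Set G))) = 3) : Nonempty (↥(Subgroup.closure D) ≃* Equiv.Perm (Fin 5)) ∨ Nonempty (↥(Subgroup.closure D) ≃* Equiv.Perm (Fin 3) × Equiv.Perm (Fin 3)) := by
  obtain ⟨d, hd⟩ := hne
  have hloc' : LocalSymThree D := hloc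
  by_cases hno : ∀ p ∈ D, ∀ q ∈ D, p ≠ q → ∀ r ∈ Nb D p, r ∈ Nb D q → ∀ s ∈ Nb D p, s ∈ Nb D q → r = s
  · exact Or.inl (sym_five_case hD hconj hloc' hd hno)
  · push Not at hno
    obtain ⟨p, hp, q, hq, hpq, r, hrp, hrq, s, hsp, hsq, hrs⟩ := hno
    exact Or.inr (square_case hD hconj hloc' hrp.1 ⟨hp, hrp.2.1.symm, hrp.2.2.symm⟩
      ⟨hq, hrq.2.1.symm, hrq.2.2.symm⟩ hpq hsp hsq hrs.symm)

end Cfsg.Agent.S5365
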