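import Cfsg.Statements.S5366

set_option autoImplicit false
open Cfsg

namespace Cfsg.Agent.S5366

open Cfsg.LineSystem

/-- three different points forming a line -/
def Third {Y : Type*} (M : Set (Set Y)) (x y z : Y) : Prop :=
  x ≠ y ∧ x ≠ z ∧ y ≠ z ∧ ({x, y, z} : Set Y) ∈ M

/-- `q` is the image of `p` under the map attached to `x` -/
def Img {Y : Type*} (M : Set (Set Y)) (x p q : Y) : Prop :=
  Third M x p q ∨ ((¬ ∃ z, Third M x p z) ∧ q = p)

/-- every map attached to a point is induced by a map preserving three-point lines -/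
def Good {Y : Type*} (M : Set (Set Y)) : Prop :=
  ∀ x a b c a' b' c', Third M a b c → Img M x a a' → Img M x b b' → Img M x c c' →
    ({a', b', c'} : Set Y) ∈ M

theorem set_eq_of_ncard {Y : Type*} {l : Set Y} (hl : l.ncard = 3) {a b c : Y} (h1 : a ≠ b)
    (h2 : a ≠ c) (h3 : b ≠ c) (ha : a ∈ l) (hb : b ∈ l) (hc : c ∈ l) :
    ({a, b, c} : Set Y) = l := by
  refine Set.eq_of_subset_of_ncard_le ?_ ?_ (Set.finite_of_ncard_pos (by omega))
  · rintro _ (rfl | rfl | rfl) <;> assumption
  · rw [Set.ncard_eq_three.2 ⟨a, b, c, h1, h2, h3, rfl⟩, hl]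

theorem z3_sum : ∀ a b c : ZMod 3, a ≠ b → a ≠ c → b ≠ c → a + b + c = 0 := by decide

theorem affine_third {x y z : Fin 2 → ZMod 3} (h : Third affinePlaneThree x y z) : z = -(x + y) := by
  obtain ⟨h1, h2, h3, v, w, -, he⟩ := h
  have mem : ∀ p ∈ ({x, y, z} : Set (Fin 2 → ZMod 3)), ∃ s : ZMod 3, p = v + s • w := fun p hp => by
    rw [he] at hp; exact hp
  obtain ⟨a, rfl⟩ := mem x (by simp)
  obtain ⟨b, rfl⟩ := mem y (by simp)
  obtain ⟨c, rfl⟩ := mem z (by simp)
  have hs := z3_sum a b c (fun e => h1 (by rw [e])) (fun e => h2 (by rw [e])) (fun e => h3 (by rw [e]))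
  have h30 : (3 : ZMod 3) = 0 := by decide
  funext i
  simp only [Pi.add_apply, Pi.neg_apply, Pi.smul_apply, smul_eq_mul]
  linear_combination w i * hs + v i * h30

theorem affine_line (a b : Fin 2 → ZMod 3) (h : a ≠ b) :
    ({a, b, -(a + b)} : Set (Fin 2 → ZMod 3)) ∈ affinePlaneThree := by
  refine ⟨a, b - a, sub_ne_zero.2 h.symm, ?_⟩
  have h30 : (3 : ZMod 3) = 0 := by decide
  have h2 : a + (2 : ZMod 3) • (b - a) = -(a + b) := by
    funext i
    simp only [Pi.add_apply, Pi.neg_apply, Pi.smul_apply, Pi.sub_apply, smul_eq_mul]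
    linear_combination b i * h30
  ext p
  simp only [Set.mem_insert_iff, Set.mem_singleton_iff, Set.mem_setOf_eq]
  constructor
  · rintro (rfl | rfl | rfl)
    · exact ⟨0, by simp⟩
    · exact ⟨1, by simp⟩
    · exact ⟨2, h2.symm⟩
  · rintro ⟨c, rfl⟩
    rcases (by decide : ∀ c : ZMod 3, c = 0 ∨ c = 1 ∨ c = 2) c with rfl | rfl | rfl
    · simp
    · simp
    · exact Or.inr (Or.inr h2)

theorem affine_img {x p q : Fin 2 → ZMod 3} (h : Img affinePlaneThree x p q) : q = -(x + p) := by
  have h30 : (3 : ZMod 3) = 0 := by decide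
  rcases h with h | ⟨h, rfl⟩
  · exact affine_third h
  · rcases eq_or_ne x q with rfl | hne
    · funext i
      simp only [Pi.add_apply, Pi.neg_apply]
      linear_combination x i * h30
    · refine absurd ⟨-(x + q), hne, fun e => hne ?_, fun e => hne ?_, affine_line x q hne⟩ h
      · funext i
        have := congrFun e i
        simp only [Pi.add_apply, Pi.neg_apply] at this
        linear_combination (-1 : ZMod 3) * this + x i * h30
      · funext i
        have := congrFun e i
        simp only [Pi.add_apply, Pi.neg_apply] at this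
        linear_combination this - q i * h30

theorem affine_good : Good affinePlaneThree := by
  intro x a b c a' b' c' h ha hb hc
  have hne : a' ≠ b' := fun e => h.1 (by
    rw [affine_img ha, affine_img hb, neg_inj, add_right_inj] at e; exact e)
  have he : c' = -(a' + b') := by
    rw [affine_img hc, affine_third h, affine_img ha, affine_img hb]
    have h30 : (3 : ZMod 3) = 0 := by decide
    funext i
    simp only [Pi.add_apply, Pi.neg_apply]
    linear_combination -(x i) * h30
  rw [he]
  exact affine_line a' b' hne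

/-- the induced action of a swap on pairs -/
def pairSwap (x a : DualAffinePoint) : Finset (Fin 4) :=
  a.1.image fun i => if i ∈ x.1 then ((x.1.erase i).min.getD i) else i

theorem dual_mem {a b c : DualAffinePoint} (h : Third dualAffinePlaneTwo a b c) :
    ∃ i, i ∉ a.1 ∧ i ∉ b.1 ∧ i ∉ c.1 := by
  obtain ⟨-, -, -, i, hi⟩ := h
  have mem : ∀ p ∈ ({a, b, c} : Set DualAffinePoint), i ∉ p.1 := fun p hp => by
    rw [hi] at hp; exact hp
  exact ⟨i, mem a (by simp), mem b (by simp), mem c (by simp)⟩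

theorem dual_ncard (i : Fin 4) : {s : DualAffinePoint | i ∉ s.val}.ncard = 3 := by
  rw [Set.ncard_eq_toFinset_card']
  revert i
  decide

theorem dual_line {a b c : DualAffinePoint} (h1 : a ≠ b) (h2 : a ≠ c) (h3 : b ≠ c) {i : Fin 4}
    (ha : i ∉ a.1) (hb : i ∉ b.1) (hc : i ∉ c.1) :
    ({a, b, c} : Set DualAffinePoint) ∈ dualAffinePlaneTwo :=
  ⟨i, set_eq_of_ncard (dual_ncard i) h1 h2 h3 ha hb hc⟩

set_option synthInstance.maxSize 1000 in
theorem dual_third_table : ∀ (x a z : DualAffinePoint) (i : Fin 4), x ≠ a → x ≠ z → a ≠ z →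
    i ∉ x.1 → i ∉ a.1 → i ∉ z.1 → z.1 = pairSwap x a := by decide

set_option synthInstance.maxSize 1000 in
theorem dual_fix_table : ∀ x a : DualAffinePoint, pairSwap x a = a.1 ∨ ∃ (z : DualAffinePoint) (i : Fin 4),
    x ≠ a ∧ x ≠ z ∧ a ≠ z ∧ i ∉ x.1 ∧ i ∉ a.1 ∧ i ∉ z.1 := by decide

theorem dual_move_table : ∀ (x : DualAffinePoint) (i : Fin 4), ∃ j : Fin 4,
    ∀ a : DualAffinePoint, i ∉ a.1 → j ∉ pairSwap x a := by decide

theorem dual_inj_table : ∀ x a b : DualAffinePoint, pairSwap x a = pairSwap x b → a = b := by decide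

theorem dual_img {x p q : DualAffinePoint} (h : Img dualAffinePlaneTwo x p q) : q.1 = pairSwap x p := by
  rcases h with h | ⟨h, rfl⟩
  · obtain ⟨i, hi1, hi2, hi3⟩ := dual_mem h
    exact dual_third_table x p q i h.1 h.2.1 h.2.2.1 hi1 hi2 hi3
  · rcases dual_fix_table x q with e | ⟨z, i, h1, h2, h3, hi1, hi2, hi3⟩
    · exact e.symm
    · exact absurd ⟨z, h1, h2, h3, dual_line h1 h2 h3 hi1 hi2 hi3⟩ h

theorem dual_good : Good dualAffinePlaneTwo := by
  intro x a b c a' b' c' h ha hb hc
  obtain ⟨i, hi1, hi2, hi3⟩ := dual_mem h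
  obtain ⟨j, hj⟩ := dual_move_table x i
  have hinj : ∀ p q p' q' : DualAffinePoint, Img dualAffinePlaneTwo x p p' → Img dualAffinePlaneTwo x q q' →
      p ≠ q → p' ≠ q' := fun p q p' q' hp hq hne e =>
    hne (dual_inj_table x p q (by rw [← dual_img hp, ← dual_img hq, e]))
  exact dual_line (hinj a b a' b' ha hb h.1) (hinj a c a' c' ha hc h.2.1) (hinj b c b' c' hb hc h.2.2.1)
    (i := j) (by rw [dual_img ha]; exact hj a hi1) (by rw [dual_img hb]; exact hj b hi2)
    (by rw [dual_img hc]; exact hj c hi3)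

variable {X : Type*} {L : Set (Set X)}

theorem exists_third (hL : IsFischerSpace L) {l : Set X} (hl : l ∈ L) {x y : X} (hne : x ≠ y)
    (hx : x ∈ l) (hy : y ∈ l) : ∃ z, Third L x y z ∧ ({x, y, z} : Set X) = l := by
  obtain ⟨z, hz, hzn⟩ : ∃ z ∈ l, z ∉ ({x, y} : Set X) := by
    refine Set.exists_mem_notMem_of_ncard_lt_ncard ?_ (Set.toFinite _)
    rw [Set.ncard_pair hne, hL.2.1 l hl]
    norm_num
  simp only [Set.mem_insert_iff, Set.mem_singleton_iff, not_or] at hzn
  have he := set_eq_of_ncard (hL.2.1 l hl) hne (Ne.symm hzn.1) (Ne.symm hzn.2) hx hy hz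
  exact ⟨z, ⟨hne, Ne.symm hzn.1, Ne.symm hzn.2, he ▸ hl⟩, he⟩

theorem third_swap {x y z : X} (h : Third L x y z) : Third L x z y :=
  ⟨h.2.1, h.1, h.2.2.1.symm, by rw [Set.pair_comm]; exact h.2.2.2⟩

theorem third_rot {x y z : X} (h : Third L x y z) : Third L y x z :=
  ⟨h.1.symm, h.2.2.1, h.2.1, by rw [Set.insert_comm]; exact h.2.2.2⟩

theorem third_unique (hL : IsFischerSpace L) {x y z z' : X} (h : Third L x y z) (h' : Third L x y z') :
    z = z' := by
  have he := hL.1 _ h.2.2.2 _ h'.2.2.2 x y h.1 (by simp) (by simp) (by simp) (by simp)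
  have hz : z ∈ ({x, y, z'} : Set X) := he ▸ (by simp : z ∈ ({x, y, z} : Set X))
  rcases hz with e | e | e
  · exact absurd e h.2.1.symm
  · exact absurd e h.2.2.1.symm
  · exact e

theorem lineMap_img (hL : IsFischerSpace L) (x y : X) : Img L x y (lineMap L x y) := by
  unfold lineMap
  split_ifs with h
  · obtain ⟨h1, h2, h3, h4⟩ := h.choose_spec
    exact Or.inl ⟨h3, h1.symm, h2.symm, h4⟩
  · exact Or.inr ⟨fun ⟨z, h1, h2, h3, h4⟩ => h ⟨z, h2.symm, h3.symm, h1, h4⟩, rfl⟩

theorem img_unique (hL : IsFischerSpace L) {x y z z' : X} (h : Img L x y z) (h' : Img L x y z') : z = z' := by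
  rcases h with h | ⟨h, rfl⟩ <;> rcases h' with h' | ⟨h', rfl⟩
  · exact third_unique hL h h'
  · exact absurd ⟨_, h⟩ h'
  · exact absurd ⟨_, h'⟩ h
  · rfl

theorem lineMap_involutive (hL : IsFischerSpace L) (x : X) : Function.Involutive (lineMap L x) := by
  intro y
  rcases lineMap_img hL x y with h | ⟨h, he⟩
  · exact img_unique hL (lineMap_img hL x _) (Or.inl (third_swap h))
  · rw [he, he]

theorem lineMap_self (hL : IsFischerSpace L) (x : X) : lineMap L x x = x := by
  rcases lineMap_img hL x x with h | ⟨-, he⟩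
  · exact absurd rfl h.1
  · exact he

theorem third_transport {Y : Type*} {M : Set (Set Y)} {S : Set X} {e : S ≃ Y}
    (he : IsIso (restrict L S) M e) (x y z : S) :
    Third L (x : X) y z ↔ Third M (e x) (e y) (e z) := by
  have himg : ({e x, e y, e z} : Set Y) = e '' {x, y, z} := by
    rw [Set.image_insert_eq, Set.image_pair]
  have hval : ∀ w : S, (w : X) ∈ ({(x : X), (y : X), (z : X)} : Set X) ↔ w ∈ ({x, y, z} : Set S) :=
    fun w => by simp [Subtype.ext_iff]
  constructor
  · rintro ⟨h1, h2, h3, h4⟩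
    refine ⟨fun e' => h1 (by rw [e.injective e']), fun e' => h2 (by rw [e.injective e']),
      fun e' => h3 (by rw [e.injective e']), ?_⟩
    rw [himg, ← he]
    refine ⟨_, h4, ?_, Set.ext fun w => (hval w).symm⟩
    rintro _ (rfl | rfl | rfl) <;> exact Subtype.property _
  · rintro ⟨h1, h2, h3, h4⟩
    refine ⟨fun e' => h1 (by rw [Subtype.ext e']), fun e' => h2 (by rw [Subtype.ext e']),
      fun e' => h3 (by rw [Subtype.ext e']), ?_⟩
    rw [himg, ← he] at h4
    obtain ⟨l, hl, hlS, hll⟩ := h4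
    have : ({(x : X), (y : X), (z : X)} : Set X) = l := by
      ext p
      constructor
      · intro hp
        have hpS : p ∈ S := by rcases hp with rfl | rfl | rfl <;> exact Subtype.property _
        have := (hval ⟨p, hpS⟩).1 hp
        rw [hll] at this
        exact this
      · intro hp
        exact (hval ⟨p, hlS hp⟩).2 (hll.symm ▸ hp)
    rw [this]; exact hl

theorem span_subspace (S : Set X) : IsSubspace L (span L S) := by
  intro l hl x hx y hy hne hxl hyl p hp T hT
  exact hT.2 l hl x (hx T hT) y (hy T hT) hne hxl hyl hp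

theorem subset_span (S : Set X) : S ⊆ span L S := fun _ hp _ hT => hT.1 hp

theorem plane_good (hL : IsFischerSpace L) {Y : Type*} {M : Set (Set Y)} (hM : Good M) {S : Set X}
    (hS : IsSubspace L S) {e : S ≃ Y} (he : IsIso (restrict L S) M e) {x : X} (hx : x ∈ S)
    {a b c : X} (ha : a ∈ S) (hb : b ∈ S) (hc : c ∈ S) (h : Third L a b c) :
    ({lineMap L x a, lineMap L x b, lineMap L x c} : Set X) ∈ L := by
  have key : ∀ p (hp : p ∈ S), ∃ hq : lineMap L x p ∈ S,
      Img M (e ⟨x, hx⟩) (e ⟨p, hp⟩) (e ⟨_, hq⟩) := by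
    intro p hp
    rcases lineMap_img hL x p with h | ⟨h, hq⟩
    · have hq : lineMap L x p ∈ S := hS _ h.2.2.2 x hx p hp h.1 (by simp) (by simp) (by simp)
      exact ⟨hq, Or.inl ((third_transport he ⟨x, hx⟩ ⟨p, hp⟩ ⟨_, hq⟩).1 h)⟩
    · refine ⟨hq.symm ▸ hp, Or.inr ⟨fun ⟨z, hz⟩ => h ⟨(e.symm z : X), ?_⟩, ?_⟩⟩
      · exact (third_transport he ⟨x, hx⟩ ⟨p, hp⟩ (e.symm z)).2 (by rwa [Equiv.apply_symm_apply])
      · exact congrArg e (Subtype.ext hq)
  obtain ⟨ma, hA⟩ := key a ha
  obtain ⟨mb, hB⟩ := key b hb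
  obtain ⟨mc, hC⟩ := key c hc
  have hmem := hM _ _ _ _ _ _ _ ((third_transport he ⟨a, ha⟩ ⟨b, hb⟩ ⟨c, hc⟩).1 h) hA hB hC
  have inj := (lineMap_involutive hL x).injective
  exact ((third_transport he ⟨_, ma⟩ ⟨_, mb⟩ ⟨_, mc⟩).2
    ⟨fun e' => h.1 (inj (congrArg Subtype.val (e.injective e'))),
      fun e' => h.2.1 (inj (congrArg Subtype.val (e.injective e'))),
      fun e' => h.2.2.1 (inj (congrArg Subtype.val (e.injective e'))), hmem⟩).2.2.2

theorem lineMap_image (hL : IsFischerSpace L) (x : X) {l : Set X} (hl : l ∈ L) :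
    lineMap L x '' l ∈ L := by
  obtain ⟨a, b, c, h1, h2, h3, rfl⟩ := Set.ncard_eq_three.1 (hL.2.1 l hl)
  rw [Set.image_insert_eq, Set.image_pair]
  by_cases hx : x ∈ ({a, b, c} : Set X)
  · -- a line through `x` is mapped to itself
    have key : ∀ y z, Third L x y z → ({lineMap L x x, lineMap L x y, lineMap L x z} : Set X) ∈ L := by
      intro y z h
      rw [lineMap_self hL, img_unique hL (lineMap_img hL x y) (Or.inl h),
        img_unique hL (lineMap_img hL x z) (Or.inl (third_swap h))]
      exact (third_swap h).2.2.2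
    have h : Third L a b c := ⟨h1, h2, h3, hl⟩
    rcases hx with rfl | rfl | rfl
    · exact key b c h
    · have := key a c (third_rot h)
      rwa [Set.insert_comm] at this
    · have := key a b (third_rot (third_swap h))
      rwa [Set.insert_comm, Set.pair_comm (lineMap L x x)] at this
  · by_cases hcol : ∃ p ∈ ({a, b, c} : Set X), ∃ z, Third L x p z
    · obtain ⟨p, hp, z, hz⟩ := hcol
      have hlm : ({a, b, c} : Set X) ≠ {x, p, z} := fun e => hx (e ▸ by simp)
      set S := span L (({a, b, c} : Set X) ∪ {x, p, z})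
      have hsub : ({a, b, c} : Set X) ∪ {x, p, z} ⊆ S := subset_span _
      have hxS : x ∈ S := hsub (Or.inr (by simp))
      have haS : a ∈ S := hsub (Or.inl (by simp))
      have hbS : b ∈ S := hsub (Or.inl (by simp))
      have hcS : c ∈ S := hsub (Or.inl (by simp))
      rcases hL.2.2 _ hl _ hz.2.2.2 hlm ⟨p, hp, by simp⟩ with ⟨e, he⟩ | ⟨e, he⟩
      · exact plane_good hL dual_good (span_subspace _) he hxS haS hbS hcS ⟨h1, h2, h3, hl⟩
      · exact plane_good hL affine_good (span_subspace _) he hxS haS hbS hcS ⟨h1, h2, h3, hl⟩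
    · have key : ∀ p ∈ ({a, b, c} : Set X), lineMap L x p = p := fun p hp => by
        rcases lineMap_img hL x p with h | ⟨-, h⟩
        · exact absurd ⟨p, hp, _, h⟩ hcol
        · exact h
      rw [key a (by simp), key b (by simp), key c (by simp)]
      exact hl

/-- the map attached to a point, as a permutation -/
noncomputable def tp (hL : IsFischerSpace L) (x : X) : Equiv.Perm X :=
  (lineMap_involutive hL x).toPerm _

theorem tp_iso (hL : IsFischerSpace L) (x : X) : IsIso L L (tp hL x) := by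
  refine fun l => ⟨fun h => lineMap_image hL x h, fun h => ?_⟩
  have h' := lineMap_image hL x h
  have : lineMap L x '' (lineMap L x '' l) = l := by
    rw [Set.image_image]; simp [lineMap_involutive hL x _]
  exact this ▸ h'

theorem tp_mul_self (hL : IsFischerSpace L) (x : X) : tp hL x * tp hL x = 1 :=
  Equiv.ext (lineMap_involutive hL x)

theorem tp_conj (hL : IsFischerSpace L) (x y : X) :
    tp hL x * tp hL y * tp hL x = tp hL (lineMap L x y) := by
  set f := lineMap L x
  have hinv : Function.Involutive f := lineMap_involutive hL x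
  have hfl : ∀ a b c, Third L a b c → Third L (f a) (f b) (f c) := fun a b c h => by
    have h4 := lineMap_image hL x h.2.2.2
    rw [Set.image_insert_eq, Set.image_pair] at h4
    exact ⟨fun e => h.1 (hinv.injective e), fun e => h.2.1 (hinv.injective e),
      fun e => h.2.2.1 (hinv.injective e), h4⟩
  refine Equiv.ext fun p => ?_
  show f (lineMap L y (f p)) = lineMap L (f y) p
  refine img_unique hL ?_ (lineMap_img hL _ _)
  rcases lineMap_img hL y (f p) with h | ⟨h, he⟩
  · have := hfl _ _ _ h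
    rw [hinv p] at this
    exact Or.inl this
  · refine Or.inr ⟨fun ⟨z, hz⟩ => h ⟨f z, ?_⟩, by rw [he, hinv p]⟩
    have := hfl _ _ _ hz
    rwa [hinv y] at this


/-- Let L be a nondegenerate Fischer space on the point type X (every point on a line). Then for every point x the map t(x) — sending a point collinear with x to the third point of their common line and fixing every other point — is a permutation of X of order 2 and an automorphism of the line system; and the set of all t(x) satisfies the 3-transposition order conditions in the permutation group of X (any two have product of order at most 3). -/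
theorem result {X : Type*} (L : Set (Set X)) (hL : Cfsg.IsFischerSpace L) (hnd : Cfsg.LineSystem.IsNondegenerate L) : (∀ x : X, ∃ σ : Equiv.Perm X, ⇑σ = Cfsg.LineSystem.lineMap L x ∧ orderOf σ = 2 ∧ Cfsg.LineSystem.IsIso L L σ) ∧ Cfsg.IsThreeTranspositionSet {σ : Equiv.Perm X | ∃ x : X, ⇑σ = Cfsg.LineSystem.lineMap L x} := by
  have heq : ∀ (x : X) (σ : Equiv.Perm X), ⇑σ = LineSystem.lineMap L x → σ = tp hL x :=
    fun x σ h => Equiv.ext (congrFun h)
  have hne : ∀ x, tp hL x ≠ 1 := by
    intro x h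
    obtain ⟨l, hl, hx⟩ := hnd x
    obtain ⟨y, hy, hyx⟩ := Set.exists_ne_of_one_lt_ncard (show 1 < l.ncard by rw [hL.2.1 l hl]; norm_num) x
    obtain ⟨z, hz, -⟩ := exists_third hL hl hyx.symm hx hy
    have e := Equiv.congr_fun h y
    change LineSystem.lineMap L x y = y at e
    rw [img_unique hL (lineMap_img hL x y) (Or.inl hz)] at e
    exact hz.2.2.1 e.symm
  have hord : ∀ x, orderOf (tp hL x) = 2 := fun x =>
    orderOf_eq_prime (by rw [pow_two]; exact tp_mul_self hL x) (hne x)
  refine ⟨fun x => ⟨tp hL x, rfl, hord x, tp_iso hL x⟩, ?_, ?_⟩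
  · rintro σ ⟨x, hx⟩
    rw [heq x σ hx]; exact hord x
  · rintro σ ⟨x, hx⟩ τ ⟨y, hy⟩
    rw [heq x σ hx, heq y τ hy]
    have hxy := tp_conj hL x y
    have hyx := tp_conj hL y x
    rcases lineMap_img hL x y with h | ⟨h, he⟩
    · right
      rw [img_unique hL (lineMap_img hL y x) (Or.inl (third_rot h))] at hyx
      calc (tp hL x * tp hL y) ^ 3 = (tp hL x * tp hL y * tp hL x) * (tp hL y * tp hL x * tp hL y) := by
            simp only [pow_succ, pow_zero, one_mul, mul_assoc]
        _ = tp hL (LineSystem.lineMap L x y) * tp hL (LineSystem.lineMap L x y) := by rw [hxy, hyx]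
        _ = 1 := tp_mul_self hL _
    · left
      rw [he] at hxy
      calc (tp hL x * tp hL y) ^ 2 = (tp hL x * tp hL y * tp hL x) * tp hL y := by
            simp only [pow_succ, pow_zero, one_mul, mul_assoc]
        _ = 1 := by rw [hxy, tp_mul_self]

end Cfsg.Agent.S5366
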