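import Cfsg.Statements.S5373
import Cfsg.Agent.TTLink.M22Order
-- import your own Cfsg.Agent.* helpers here

set_option autoImplicit false
open Cfsg

namespace Cfsg.Agent.S5373

/-- Let G be a finite group with trivial centre generated by a conjugation-invariant set D of 3-transpositions on which it acts primitively, of type M(22), and suppose some finite primitive 3-transposition group of type M(24) exists. Then D has exactly 3510 members, G has order 2^17 · 3^9 · 5^2 · 7 · 11 · 13, the width of D (largest number of pairwise commuting members) is 22, and for every d in D the centralizer of d is generated by the members of D other than d commuting with d. -/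
theorem result {G : Type*} [Group G] [Finite G] {D : Set G} (hD : Cfsg.IsThreeTranspositionGroup D) (hprim : Cfsg.IsPrimitiveUnderConj D) (ht : Cfsg.IsOfTypeM22 G D) (hex : ∃ (X : Type) (_ : Group X) (_ : Finite X) (E : Set X), Cfsg.IsThreeTranspositionClass E ∧ Cfsg.IsPrimitiveUnderConj E ∧ Cfsg.IsOfTypeM24 X E) : D.ncard = 3510 ∧ Nat.card G = 2 ^ 17 * 3 ^ 9 * 5 ^ 2 * 7 * 11 * 13 ∧ Cfsg.commutingWidth D = 22 ∧ ∀ d ∈ D, Subgroup.closure {y : G | y ∈ D ∧ y ≠ d ∧ Commute d y} = Subgroup.centralizer ({d} : Set G) := by
  have P : TTLink.M22Prim D := ⟨hD, hprim, ht⟩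
  refine ⟨P.srg.card, by rw [P.group_card]; norm_num, P.width_eq, fun d hd => ?_⟩
  obtain ⟨F₀, _, _, hF₀, ρ, -, himg, hinj, hrefl, hkerρ⟩ := P.exists_link_epi hd
  obtain ⟨m, -, hm, hprod⟩ := P.exists_six hd himg hinj hrefl hkerρ
  have hmem : d ∈ Subgroup.closure (ThreeTransp45.link D d) := by
    have h : m.prod ∈ Subgroup.closure (ThreeTransp45.link D d) :=
      Subgroup.list_prod_mem _ fun z hz => Subgroup.subset_closure (hm z hz)
    rwa [hprod] at h
  refine le_antisymm (fun g hg => Subgroup.mem_centralizer_singleton_iff.2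
    (TTLink.commute_d (D := D) hg).eq.symm) ?_
  rw [P.centralizer_eq hd]
  refine (Subgroup.closure_le _).2 fun y hy => ?_
  by_cases e : y = d
  · exact e ▸ hmem
  · exact Subgroup.subset_closure ⟨hy.1, e, hy.2⟩

end Cfsg.Agent.S5373
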