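import Cfsg.Statements.S5376
import Cfsg.Agent.TTLink.M23Unique
-- import your own Cfsg.Agent.* helpers here

set_option autoImplicit false
open Cfsg

namespace Cfsg.Agent.S5376

/-- Let G be a finite group with trivial centre generated by a conjugation-invariant set D of 3-transpositions on which it acts primitively, of type M(22), and suppose some finite primitive 3-transposition group of type M(23) exists. Then G is simple, and for every d in D the subgroup generated by the members of D other than d commuting with d contains d and is quasisimple with centre generated by d. -/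
theorem result {G : Type*} [Group G] [Finite G] {D : Set G} (hD : Cfsg.IsThreeTranspositionGroup D) (hprim : Cfsg.IsPrimitiveUnderConj D) (ht : Cfsg.IsOfTypeM22 G D) (hex : ∃ (X : Type) (_ : Group X) (_ : Finite X) (E : Set X), Cfsg.IsThreeTranspositionClass E ∧ Cfsg.IsPrimitiveUnderConj E ∧ Cfsg.IsOfTypeM23 X E) : IsSimpleGroup G ∧ ∀ d ∈ D, d ∈ Subgroup.closure {y : G | y ∈ D ∧ y ≠ d ∧ Commute d y} ∧ Cfsg.IsQuasisimple ↥(Subgroup.closure {y : G | y ∈ D ∧ y ≠ d ∧ Commute d y}) ∧ Subgroup.center ↥(Subgroup.closure {y : G | y ∈ D ∧ y ≠ d ∧ Commute d y}) = (Subgroup.zpowers d).subgroupOf (Subgroup.closure {y : G | y ∈ D ∧ y ≠ d ∧ Commute d y}) := by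
  classical
  have P : TTLink.M22Prim D := ⟨hD, hprim, ht⟩
  refine ⟨P.simple, fun d hd => ?_⟩
  obtain ⟨F₀, _, _, hF₀, ρ, -, himg, hinj, hrefl, hkerρ⟩ := P.exists_link_epi hd
  obtain ⟨m, -, hm, hprod⟩ := P.exists_six hd himg hinj hrefl hkerρ
  have hmem : d ∈ Subgroup.closure (ThreeTransp45.link D d) := by
    have h : m.prod ∈ Subgroup.closure (ThreeTransp45.link D d) :=
      Subgroup.list_prod_mem _ fun z hz => Subgroup.subset_closure (hm z hz)
    rwa [hprod] at h
  have hH : Subgroup.closure (ThreeTransp45.link D d) = Subgroup.centralizer ({d} : Set G) := by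
    refine le_antisymm (fun g hg => Subgroup.mem_centralizer_singleton_iff.2
      (TTLink.commute_d hg).eq.symm) ?_
    rw [P.centralizer_eq hd]
    refine (Subgroup.closure_le _).2 fun y hy => ?_
    by_cases e : y = d
    · exact e ▸ hmem
    · exact Subgroup.subset_closure ⟨hy.1, e, hy.2⟩
  have key : ∀ H : Subgroup G, H = Subgroup.centralizer ({d} : Set G) →
      Cfsg.IsQuasisimple ↥H ∧ Subgroup.center ↥H = (Subgroup.zpowers d).subgroupOf H := by
    rintro H rfl
    obtain ⟨F, i1, i2, hF, hcov, -⟩ := P.covers
    obtain ⟨cv⟩ := hcov d hd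
    set C := Subgroup.centralizer ({d} : Set G)
    have hcen : ∀ k : ↥C, k ∈ Subgroup.center ↥C ↔ cv.π k = 1 := by
      intro k
      constructor
      · intro hk
        have : cv.π k ∈ Subgroup.center (Cfsg.PSU 6 F 2) := Subgroup.mem_center_iff.2 fun u => by
          obtain ⟨g, rfl⟩ := cv.surj u
          rw [← map_mul, ← map_mul, Subgroup.mem_center_iff.1 hk g]
        rwa [TTLink.psu_center hF, Subgroup.mem_bot] at this
      · intro h
        refine Subgroup.mem_center_iff.2 fun g => Subtype.ext ?_
        show (g : G) * k = k * g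
        rcases (cv.ker k).1 h with e | e <;> rw [e]
        exacts [(Commute.one_right _).eq, Subgroup.mem_centralizer_singleton_iff.1 g.2]
    have e : Subgroup.center ↥C = cv.π.ker := Subgroup.ext fun k => (hcen k).trans MonoidHom.mem_ker.symm
    refine ⟨⟨(Group.isPerfect_def).2 cv.perf, ?_⟩, ?_⟩
    · haveI := (TTLink.psu_six_two F hF).1
      exact ((QuotientGroup.quotientMulEquivOfEq e).trans
        (QuotientGroup.quotientKerEquivOfSurjective cv.π cv.surj)).isSimpleGroup_congr.2 inferInstance
    · ext k
      rw [hcen k, cv.ker k, Subgroup.mem_subgroupOf]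
      constructor
      · rintro (h | h) <;> rw [h]
        exacts [one_mem _, Subgroup.mem_zpowers d]
      · intro h
        obtain ⟨n, hn⟩ := Subgroup.mem_zpowers_iff.1 h
        have hd2 : d * d = 1 := by
          have h := P.data.inv_eq hd
          nth_rewrite 1 [← h]
          exact inv_mul_cancel d
        rcases Int.even_or_odd n with ⟨j, rfl⟩ | ⟨j, rfl⟩
        · left
          rw [← hn, ← two_mul, zpow_mul, zpow_two, hd2, one_zpow]
        · right
          rw [← hn, zpow_add_one, zpow_mul, zpow_two, hd2, one_zpow, one_mul]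
  exact ⟨hmem, key _ hH⟩

end Cfsg.Agent.S5376
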