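import Cfsg.Statements.S5385
import Cfsg.Agent.Co1Type.Setup
import Cfsg.Agent.Co1Five.Fix

set_option autoImplicit false
open Cfsg

namespace Cfsg.Agent.S5385

open Cfsg.Agent.ExtraTwo Cfsg.Agent.LargeExtra Cfsg.Agent.Co1Type Cfsg.Agent.Co1Five

theorem pent_reindex {V : Type*} [AddCommGroup V] [Module (ZMod 2) V] {q : V → ZMod 2}
    {B : V →ₗ[ZMod 2] V →ₗ[ZMod 2] ZMod 2} {W : Submodule (ZMod 2) V} {p : Fin 5 → V}
    (hp : Pent q B W p) (π : Equiv.Perm (Fin 5)) : Pent q B W (p ∘ π) where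
  qf := hp.qf
  mem i := hp.mem _
  sing i := hp.sing _
  pair i j h := hp.pair _ _ (π.injective.ne h)
  only x hx hq h0 := by
    obtain ⟨i, rfl⟩ := hp.only x hx hq h0
    exact ⟨π.symm i, by simp⟩
  span x hx := by
    obtain ⟨c, rfl⟩ := hp.span x hx
    exact ⟨c ∘ π, (Equiv.sum_comp π fun i => c i • p i).symm⟩
  sum := (Equiv.sum_comp π fun i => (1 : ZMod 2) • p i).trans hp.sum

/-- Let G be a finite group of Conway type (involution z with generalized Fitting subgroup Q of its centralizer C extraspecial of order 2^9, C/Q the commutator subgroup of the isometry group of the hyperbolic quadratic form in dimension 8 over the field with two elements, z not weakly closed in Q), and let B be a subgroup of C of order 5 such that the centralizer of B in Q is extraspecial of order 32 containing no elementary abelian subgroup of order 8 (the quaternion-times-dihedral type). Then the layer L of the centralizer of B in G is isomorphic to the Hall–Janko group and the centralizer of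 L is isomorphic to the alternating group of degree 5. -/
theorem result {G : Type*} [Group G] [Finite G] (z : G) (hz : orderOf z = 2) (Q : Subgroup (Subgroup.centralizer ({z} : Set G))) [Q.Normal] (hF : Cfsg.generalizedFittingSubgroup (Subgroup.centralizer ({z} : Set G)) = Q) (hQ : Cfsg.IsExtraspecial 2 Q) (hcard : Nat.card Q = 2 ^ 9) (e : (Subgroup.centralizer ({z} : Set G)) ⧸ Q ≃* Cfsg.Omega (ZMod 2) (Cfsg.quadFormPlus 4 (ZMod 2))) (hnwc : ∃ g : G, (∃ hq : g * z * g⁻¹ ∈ Subgroup.centralizer ({z} : Set G), (⟨g * z * g⁻¹, hq⟩ : Subgroup.centralizer ({z} : Set G)) ∈ Q) ∧ g * z * g⁻¹ ≠ z) (B : Subgroup (Subgroup.centralizer ({z} : Set G))) (hB : Nat.card B = 5) (hCQ : Cfsg.IsExtraspecial 2 ↥(Q ⊓ Subgroup.centralizer (B : Set (Subgroup.centralizer ({z} : Set G))))) (hCQcard : Nat.card ↥(Q ⊓ Subgroup.centralizer (B : Set (Subgroup.centralizer ({z} : Set G)))) = 32) (hminus : ∀ A : Subgroup (Subgroup.centralizer ({z} : Set G)), A ≤ Q ⊓ Subgroup.centralizer (B : Set (Subgroup.centralizer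 ({z} : Set G))) → Cfsg.IsElementaryAbelian 2 A → Nat.card A ≤ 4) : Cfsg.Spor.IsoJ2 ↥(Cfsg.layer ↥(Subgroup.centralizer ((B.map (Subgroup.subtype (Subgroup.centralizer ({z} : Set G)))) : Set G))) ∧ Nonempty (↥(Subgroup.centralizer (((Cfsg.layer ↥(Subgroup.centralizer ((B.map (Subgroup.subtype (Subgroup.centralizer ({z} : Set G)))) : Set G))).map (Subgroup.subtype _)) : Set G)) ≃* alternatingGroup (Fin 5)) := by
  classical
  obtain ⟨φ, h, hdich⟩ := exists_frame z hz Q hF hQ hcard e
  have hNT : NoTrans h := noTrans_of_dich h hdich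
  have hinj := Subgroup.subtype_injective (Subgroup.centralizer ({z} : Set G))
  -- a generator of the group of order five
  haveI : Fact (Nat.Prime 5) := ⟨by norm_num⟩
  obtain ⟨β, hβ⟩ : ∃ β : B, orderOf β = 5 := exists_prime_orderOf_dvd_card' 5 (by rw [hB])
  have hBz : B = Subgroup.zpowers (β : ↥(Subgroup.centralizer ({z} : Set G))) := by
    refine (Subgroup.eq_of_le_of_card_ge (Subgroup.zpowers_le.2 β.2) ?_).symm
    rw [hB, Nat.card_zpowers, Subgroup.orderOf_coe, hβ]
  set b : G := ((β : ↥(Subgroup.centralizer ({z} : Set G))) : G) with hb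
  have hb5 : orderOf b = 5 := by rw [hb, Subgroup.orderOf_coe, Subgroup.orderOf_coe, hβ]
  have hbz : b * z = z * b := Subgroup.mem_centralizer_singleton_iff.1 (β : ↥(Subgroup.centralizer ({z} : Set G))).2
  have hcen : Subgroup.centralizer ((B.map (Subgroup.centralizer ({z} : Set G)).subtype : Subgroup G) : Set G) =
      Subgroup.centralizer ({b} : Set G) := by
    rw [hBz, MonoidHom.map_zpowers, Subgroup.zpowers_eq_closure, Subgroup.centralizer_closure]
    rfl
  have hcenB : ∀ u : ↥(Subgroup.centralizer ({z} : Set G)), u ∈ Subgroup.centralizer (B : Set ↥(Subgroup.centralizer ({z} : Set G))) ↔ (u : G) * b = b * u := by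
    intro u
    rw [hBz, Subgroup.zpowers_eq_closure, Subgroup.centralizer_closure,
      Subgroup.mem_centralizer_singleton_iff]
    exact Subtype.ext_iff
  have hQb : (Q.map (Subgroup.centralizer ({z} : Set G)).subtype) ⊓ Subgroup.centralizer ({b} : Set G) =
      (Q ⊓ Subgroup.centralizer (B : Set ↥(Subgroup.centralizer ({z} : Set G)))).map (Subgroup.centralizer ({z} : Set G)).subtype := by
    ext u
    constructor
    · rintro ⟨⟨v, hv, rfl⟩, hub⟩
      exact ⟨v, ⟨hv, (hcenB v).2 (Subgroup.mem_centralizer_singleton_iff.1 hub)⟩, rfl⟩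
    · rintro ⟨v, ⟨hv, hvb⟩, rfl⟩
      exact ⟨⟨v, hv, rfl⟩, Subgroup.mem_centralizer_singleton_iff.2 ((hcenB v).1 hvb)⟩
  have hcardQb : Nat.card ↥((Q.map (Subgroup.centralizer ({z} : Set G)).subtype) ⊓ Subgroup.centralizer ({b} : Set G)) = 32 := by
    rw [hQb, Subgroup.card_map_of_injective hinj, hCQcard]
  have hextra : IsExtraspecial 2 ↥((Q.map (Subgroup.centralizer ({z} : Set G)).subtype) ⊓ Subgroup.centralizer ({b} : Set G)) := by
    rw [hQb]
    exact isExtraspecial_map_equiv hCQ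
      ((Q ⊓ Subgroup.centralizer (B : Set ↥(Subgroup.centralizer ({z} : Set G)))).equivMapOfInjective (Subgroup.centralizer ({z} : Set G)).subtype hinj)
  have hmin : ∀ A : Subgroup G, A ≤ (Q.map (Subgroup.centralizer ({z} : Set G)).subtype) ⊓ Subgroup.centralizer ({b} : Set G) →
      (∀ x ∈ A, x * x = 1) → (∀ x ∈ A, ∀ y ∈ A, x * y = y * x) → Nat.card A ≤ 4 := by
    intro A hA h2 hc
    have hAC : A ≤ (Subgroup.centralizer ({z} : Set G)) := fun x hx => by
      obtain ⟨v, -, rfl⟩ := (hA hx).1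
      exact v.2
    rw [← Nat.card_congr (Subgroup.subgroupOfEquivOfLe hAC).toEquiv]
    refine hminus _ (fun u hu => ?_) ⟨⟨⟨fun u v => ?_⟩⟩, fun u hu => ?_⟩
    · obtain ⟨⟨v, hv, e'⟩, hub⟩ := hA hu
      exact ⟨hinj e' ▸ hv, (hcenB u).2 (Subgroup.mem_centralizer_singleton_iff.1 hub)⟩
    · exact Subtype.ext (Subtype.ext (hc _ u.2 _ v.2))
    · exact Subtype.ext ((pow_two _).trans (h2 _ hu))
  have hcardC : Nat.card ↥(Subgroup.centralizer ({z} : Set G)) = 512 * 174182400 := by
    rw [Subgroup.card_eq_card_quotient_mul_card_subgroup Q, Nat.card_congr e.toEquiv, card_omega8,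
      hcard, mul_comm]
    rfl
  -- move a singular fixed vector to the base point
  let X : Ctx z (Q.map (Subgroup.centralizer ({z} : Set G)).subtype) φ b := ⟨h, hNT, hbz, hb5, hcardQb⟩
  obtain ⟨p, hp⟩ := X.exists_fix_pent hmin
  obtain ⟨c, hc, hcp, -⟩ :=
    h.lift_orb (orb_reverse h.qf (model.trans (p 0) (hp.sing 0) (hp.ne_zero 0)))
  let φ' : G → V8 := fun a => h.act c (φ a)
  have h' : Frame z (Q.map (Subgroup.centralizer ({z} : Set G)).subtype) q8 b8 φ' := frame_comp h hc
  let X' : Ctx z (Q.map (Subgroup.centralizer ({z} : Set G)).subtype) φ' b := ⟨frame_comp h hc, noTrans_comp h hc hNT, hbz, hb5, hcardQb⟩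
  have hs8 : s8 ∈ X'.fix := by
    obtain ⟨a, ha, hap⟩ := h.map_surj (p 0)
    have := (X.mem_fix_iff ha).1 (hap ▸ hp.mem 0)
    rw [show s8 = φ' a from hcp.symm.trans (by rw [← hap])]
    exact (X'.mem_fix_iff ha).2 this
  obtain ⟨p', hp'⟩ := X'.exists_fix_pent hmin
  obtain ⟨i, hi⟩ := hp'.only s8 hs8 model.hp.qs (fun e0 => hp.ne_zero 0 (by
    have e1 := congrArg (h.act c⁻¹) (hcp.trans e0)
    have h0 := h.act_smul (Commute.inv_left hc).eq 0 0
    simp only [zero_smul] at h0
    rwa [h.act_inv_act hc, h0] at e1))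
  obtain ⟨r, hr, hshift⟩ := X'.exists_mov_pent
  have F : Five z (Q.map (Subgroup.centralizer ({z} : Set G)).subtype) φ' b (p' ∘ Equiv.swap 0 i) r :=
    { ctx := X', hp := pent_reindex hp' _, hr := hr, shift := hshift,
      p0 := by rw [Function.comp_apply, Equiv.swap_apply_left, ← hi] }
  obtain ⟨g, s, hA⟩ := h'.exists_at model (by
    obtain ⟨g, ⟨hq, hm⟩, hne⟩ := hnwc
    exact ⟨g, ⟨_, hm, rfl⟩, hne⟩)
  have hbs : b * s = s * b :=
    (X'.mem_fix_iff hA.mem).1 (by rw [hA.img]; exact hs8)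
  obtain ⟨y, hyb, hyk, hyz, hys⟩ := exists_rot hA hcardC hb5 hbz hbs
  have C : Conf z (Q.map (Subgroup.centralizer ({z} : Set G)).subtype) φ' b (p' ∘ Equiv.swap 0 i) r g s y :=
    ⟨F, hA, hextra, hyb, hyk, hyz, hys⟩
  -- transfer along the equality of centralisers
  suffices key : ∀ H : Subgroup G, H = Subgroup.centralizer ({b} : Set G) →
      Spor.IsoJ2 ↥(layer ↥H) ∧
        Nonempty (↥(Subgroup.centralizer (((layer ↥H).map H.subtype : Subgroup G) : Set G)) ≃*
          alternatingGroup (Fin 5)) from key _ hcen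
  rintro H rfl
  rw [C.layer_eq, LL_eq]
  exact ⟨C.isoJ2, C.nonempty_cent_equiv⟩

end Cfsg.Agent.S5385
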