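import Cfsg.Statements.S5387
import Cfsg.Agent.Lib.PSL34Cover

set_option autoImplicit false
open Cfsg
open scoped commutatorElement

namespace Cfsg.Agent.S5387

theorem bijective_of_perfect {K L S : Type*} [Group K] [Finite K] [Group L] [Finite L] [Group S]
    (q : K →* L) (ρ : L →* S) (τK : K →* S) (hτKs : Function.Surjective τK) (hp : commutator L = ⊤)
    (hk : ρ.ker = Subgroup.center L) (hc : Nat.card (Subgroup.center L) = 4)
    (hcardK : Nat.card K ≤ 4 * Nat.card S) (hcomp : ∀ k, ρ (q k) = τK k) : Function.Bijective q := by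
  have hρs : Function.Surjective ρ := fun y => let ⟨k, hk'⟩ := hτKs y; ⟨q k, (hcomp k).trans hk'⟩
  have hq : Function.Surjective q := by
    rw [← MonoidHom.range_eq_top, eq_top_iff, ← hp, commutator_def, Subgroup.commutator_le]
    intro a _ b _
    have hd : ∀ a, ∃ r ∈ q.range, ∃ z ∈ Subgroup.center L, a = r * z := fun a => by
      obtain ⟨k, hk'⟩ := hτKs (ρ a)
      refine ⟨q k, ⟨k, rfl⟩, (q k)⁻¹ * a, ?_, (mul_inv_cancel_left _ _).symm⟩
      rw [← hk, MonoidHom.mem_ker, map_mul, map_inv, hcomp, hk', inv_mul_cancel]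
    obtain ⟨r, hr, z, hz, rfl⟩ := hd a
    obtain ⟨r', hr', z', hz', rfl⟩ := hd b
    have c1 := Subgroup.mem_center_iff.1 hz
    have c2 := Subgroup.mem_center_iff.1 hz'
    have : ⁅r * z, r' * z'⁆ = r * r' * r⁻¹ * r'⁻¹ := by
      simp only [commutatorElement_def, mul_inv_rev]
      calc r * z * (r' * z') * (z⁻¹ * r⁻¹) * (z'⁻¹ * r'⁻¹)
          = r * (z * (r' * z')) * z⁻¹ * r⁻¹ * z'⁻¹ * r'⁻¹ := by simp only [mul_assoc]
        _ = r * r' * (z' * r⁻¹) * z'⁻¹ * r'⁻¹ := by rw [← c1 (r' * z')]; group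
        _ = r * r' * r⁻¹ * r'⁻¹ := by rw [← c2 r⁻¹]; group
    rw [this]
    exact mul_mem (mul_mem (mul_mem hr hr') (inv_mem hr)) (inv_mem hr')
  refine hq.bijective_of_nat_card_le ?_
  rw [← Subgroup.card_mul_index ρ.ker, Subgroup.index_ker, MonoidHom.range_eq_top.2 hρs,
    Subgroup.card_top, hk, hc]
  exact hcardK

/-- Up to isomorphism there is at most one quasisimple group whose centre is elementary abelian of order 4 and whose central quotient is isomorphic to the projective special linear group of dimension 3 over the field with four elements: any two such groups are isomorphic. -/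
theorem result {L₁ L₂ : Type*} [Group L₁] [Finite L₁] [Group L₂] [Finite L₂] (F : Type) [Field F] [Fintype F] (hF : Fintype.card F = 4) (h₁ : Cfsg.IsQuasisimple L₁) (h₂ : Cfsg.IsQuasisimple L₂) (hc₁ : Nat.card (Subgroup.center L₁) = 4) (hc₂ : Nat.card (Subgroup.center L₂) = 4) (he₁ : ∀ x ∈ Subgroup.center L₁, x * x = 1) (he₂ : ∀ x ∈ Subgroup.center L₂, x * x = 1) (e₁ : L₁ ⧸ Subgroup.center L₁ ≃* Matrix.ProjectiveSpecialLinearGroup (Fin 3) F) (e₂ : L₂ ⧸ Subgroup.center L₂ ≃* Matrix.ProjectiveSpecialLinearGroup (Fin 3) F) : Nonempty (L₁ ≃* L₂) := by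
  let S := Matrix.ProjectiveSpecialLinearGroup (Fin 3) F
  let π₁ : L₁ →* S := e₁.toMonoidHom.comp (QuotientGroup.mk' _)
  let π₂ : L₂ →* S := e₂.toMonoidHom.comp (QuotientGroup.mk' _)
  have hs₁ : Function.Surjective π₁ := e₁.surjective.comp (QuotientGroup.mk'_surjective _)
  have hs₂ : Function.Surjective π₂ := e₂.surjective.comp (QuotientGroup.mk'_surjective _)
  have hk₁ : ∀ x, π₁ x = 1 ↔ x ∈ Subgroup.center L₁ := fun x =>
    (EmbeddingLike.map_eq_one_iff (f := e₁)).trans (QuotientGroup.eq_one_iff x)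
  have hk₂ : ∀ x, π₂ x = 1 ↔ x ∈ Subgroup.center L₂ := fun x =>
    (EmbeddingLike.map_eq_one_iff (f := e₂)).trans (QuotientGroup.eq_one_iff x)
  have hp₁ : commutator L₁ = ⊤ := Group.IsPerfect.commutator_eq_top (self := h₁.1)
  have hp₂ : commutator L₂ = ⊤ := Group.IsPerfect.commutator_eq_top (self := h₂.1)
  have hpS : commutator S = ⊤ := by
    rw [commutator_def, ← Subgroup.map_top_of_surjective π₁ hs₁, ← Subgroup.map_commutator,
      ← commutator_def, hp₁]
  let P : Subgroup (L₁ × L₂) :=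
    (π₁.comp (MonoidHom.fst L₁ L₂)).eqLocus (π₂.comp (MonoidHom.snd L₁ L₂))
  let τ : P →* S := (π₁.comp (MonoidHom.fst L₁ L₂)).comp P.subtype
  have hτs : Function.Surjective τ := fun y => by
    obtain ⟨a, ha⟩ := hs₁ y
    obtain ⟨b, hb⟩ := hs₂ y
    exact ⟨⟨(a, b), ha.trans hb.symm⟩, ha⟩
  have hτc : τ.ker ≤ Subgroup.center P := by
    rintro ⟨⟨a, b⟩, hab⟩ hz
    have hab' : π₁ a = π₂ b := hab
    have hz' : π₁ a = 1 := hz
    rw [Subgroup.mem_center_iff]
    rintro ⟨⟨u, v⟩, -⟩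
    exact Subtype.ext (Prod.ext (Subgroup.mem_center_iff.1 ((hk₁ a).1 hz') u)
      (Subgroup.mem_center_iff.1 ((hk₂ b).1 (hab'.symm.trans hz')) v))
  let K : Subgroup P := commutator P
  have hτK : K.map τ = ⊤ := by
    show (commutator P).map τ = ⊤
    rw [commutator_def, Subgroup.map_commutator, Subgroup.map_top_of_surjective τ hτs, ← commutator_def, hpS]
  have hdec : ∀ p : P, ∃ k ∈ K, ∃ z ∈ τ.ker, p = k * z := fun p => by
    obtain ⟨k, hk, hkp⟩ := (hτK ▸ Subgroup.mem_top (τ p) : τ p ∈ K.map τ)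
    exact ⟨k, hk, k⁻¹ * p, by rw [MonoidHom.mem_ker, map_mul, map_inv, hkp, inv_mul_cancel],
      (mul_inv_cancel_left k p).symm⟩
  have hKperf : commutator K = ⊤ := by
    have hle : commutator P ≤ ⁅K, K⁆ := by
      rw [commutator_def, Subgroup.commutator_le]
      intro p _ p' _
      obtain ⟨k, hk, z, hz, rfl⟩ := hdec p
      obtain ⟨k', hk', z', hz', rfl⟩ := hdec p'
      have c1 := fun y => Subgroup.mem_center_iff.1 (hτc hz) y
      have c2 := fun y => Subgroup.mem_center_iff.1 (hτc hz') y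
      have : ⁅k * z, k' * z'⁆ = ⁅k, k'⁆ := by
        simp only [commutatorElement_def, mul_inv_rev]
        calc k * z * (k' * z') * (z⁻¹ * k⁻¹) * (z'⁻¹ * k'⁻¹)
            = k * (z * (k' * z')) * z⁻¹ * k⁻¹ * z'⁻¹ * k'⁻¹ := by simp only [mul_assoc]
          _ = k * k' * (z' * k⁻¹) * z'⁻¹ * k'⁻¹ := by rw [← c1 (k' * z')]; group
          _ = k * k' * k⁻¹ * k'⁻¹ := by rw [← c2 k⁻¹]; group
      rw [this]
      exact Subgroup.commutator_mem_commutator hk hk'
    apply Subgroup.map_injective K.subtype_injective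
    rw [commutator_def, Subgroup.map_commutator, ← MonoidHom.range_eq_map, Subgroup.range_subtype]
    exact le_antisymm (Subgroup.commutator_le_self K) hle
  let τK : K →* S := τ.comp K.subtype
  have hτKs : Function.Surjective τK := fun y => by
    obtain ⟨k, hk, hky⟩ := (hτK ▸ Subgroup.mem_top y : y ∈ K.map τ)
    exact ⟨⟨k, hk⟩, hky⟩
  have h4 : Nat.card τK.ker ≤ 4 := by
    refine PSL34Cover.card_ker_le_four τK hF hτKs ?_ ?_ hKperf
    · intro k hk
      rw [Subgroup.mem_center_iff]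
      exact fun u => Subtype.ext (Subgroup.mem_center_iff.1 (hτc hk) u)
    · rintro ⟨⟨⟨a, b⟩, hab⟩, hm⟩ hk
      have hz' : π₁ a = 1 := hk
      have hab' : π₁ a = π₂ b := hab
      exact Subtype.ext (Subtype.ext (Prod.ext (he₁ a ((hk₁ a).1 hz'))
        (he₂ b ((hk₂ b).1 (hab'.symm.trans hz')))))
  have hcardK : Nat.card K ≤ 4 * Nat.card S := by
    rw [← Subgroup.card_mul_index τK.ker, Subgroup.index_ker, MonoidHom.range_eq_top.2 hτKs,
      Subgroup.card_top]
    exact Nat.mul_le_mul_right _ h4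
  have hb₁ := bijective_of_perfect ((MonoidHom.fst L₁ L₂).comp (P.subtype.comp K.subtype)) π₁ τK hτKs
    hp₁ (Subgroup.ext hk₁) hc₁ hcardK (fun _ => rfl)
  have hb₂ := bijective_of_perfect ((MonoidHom.snd L₁ L₂).comp (P.subtype.comp K.subtype)) π₂ τK hτKs
    hp₂ (Subgroup.ext hk₂) hc₂ hcardK (fun k => (k.1.2).symm)
  exact ⟨(MulEquiv.ofBijective _ hb₁).symm.trans (MulEquiv.ofBijective _ hb₂)⟩

end Cfsg.Agent.S5387
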