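import Cfsg.Statements.S5393
import Cfsg.Agent.Golay.Mathieu

set_option autoImplicit false
open Cfsg

namespace Cfsg.Agent.S5393

open Cfsg.Agent.Golay
open scoped Pointwise symmDiff

theorem pop_thirteen : pop24 (enc 13) = 12 ∧ pop24 (enc 14) = 12 ∧ pop24 (enc 3) = 8 := by
  decide +kernel

theorem enc_three : enc 3 = enc 13 ^^^ enc 14 := by decide +kernel


/-- The length-24 code built from the squares modulo 23 contains the all-ones word, and the code modulo the all-ones word is an irreducible module over the field with two elements for the code's automorphism group: a subspace of the code that contains the all-ones word and is invariant under every coordinate permutation preserving the code is either the span of the all-ones word or the whole code. -/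
theorem result : (fun _ : Cfsg.GolayPt => (1 : ZMod 2)) ∈ Cfsg.golayCode ∧ ∀ W : Submodule (ZMod 2) (Cfsg.GolayPt → ZMod 2), (fun _ => (1 : ZMod 2)) ∈ W → W ≤ Cfsg.golayCode → (∀ σ ∈ Cfsg.M24, ∀ w ∈ W, (fun p => w (σ.symm p)) ∈ W) → W = Submodule.span (ZMod 2) {fun _ => (1 : ZMod 2)} ∨ W = Cfsg.golayCode := by
  have hone : (fun _ : GolayPt => (1 : ZMod 2)) ∈ golayCode :=
    Submodule.subset_span (Or.inr rfl)
  refine ⟨hone, fun W h1 hle hinv => ?_⟩
  have hmove : ∀ g ∈ M24, ∀ s : Finset GolayPt, indWord s ∈ W → indWord (g • s) ∈ W := by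
    intro g hg s hs
    rw [smul_indWord]
    exact hinv g hg _ hs
  have hoct : ∀ o ∈ octads, indWord o ∈ W → W = golayCode := by
    intro o ho hoW
    have hall : ∀ o' ∈ octads, indWord o' ∈ W := by
      intro o' ho'
      obtain ⟨a, ha, ea⟩ := exists_octad_to_oct0 ho
      obtain ⟨b, hb, eb⟩ := exists_octad_to_oct0 ho'
      have h := hmove (b⁻¹ * a) (mul_mem (inv_mem hb) ha) o hoW
      rwa [mul_smul, ea, ← eb, inv_smul_smul] at h
    refine le_antisymm hle fun w hw => ?_
    obtain ⟨k, -, rfl⟩ := (mem_golayCode_iff w).mp hw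
    refine ofBits_xorSel_mem W rows (fun r hr => ?_) k
    have h := hall (support₂ (ofBits r))
      ⟨⟨_, rows_mem r hr, rfl⟩, by rw [card_support₂_ofBits]; exact rows_octads r hr⟩
    rwa [indWord_support₂] at h
  have hdod : ∀ d ∈ dodecads, indWord d ∈ W → W = golayCode := by
    intro d hd hdW
    have hall : ∀ k, pop24 (enc k) = 12 → ofBits (enc k) ∈ W := by
      intro k hk
      obtain ⟨g, hg, e⟩ := dodecads_transitive hd
        (d' := support₂ (ofBits (enc k))) ⟨⟨_, ofBits_enc_mem k, rfl⟩,
          by rw [card_support₂_ofBits]; exact hk⟩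
      have h := hmove g hg d hdW
      rwa [e, indWord_support₂] at h
    refine hoct (support₂ (ofBits (enc 3)))
      ⟨⟨_, ofBits_enc_mem 3, rfl⟩, by rw [card_support₂_ofBits]; exact pop_thirteen.2.2⟩ ?_
    rw [indWord_support₂, enc_three, ofBits_xor]
    exact add_mem (hall 13 pop_thirteen.1) (hall 14 pop_thirteen.2.1)
  by_cases hcase : ∀ w ∈ W, w = 0 ∨ w = fun _ => 1
  · left
    refine le_antisymm (fun w hw => ?_) ((Submodule.span_singleton_le_iff_mem _ _).mpr h1)
    rcases hcase w hw with rfl | rfl
    · exact zero_mem _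
    · exact Submodule.mem_span_singleton_self _
  · right
    push Not at hcase
    obtain ⟨w, hw, hw0, hw1⟩ := hcase
    have hwc := hle hw
    have hkey : ∀ v ∈ W, hammingNorm v = 8 ∨ hammingNorm v = 12 → W = golayCode := by
      intro v hv hn
      rw [hammingNorm_eq_card_support₂] at hn
      have hv' : indWord (support₂ v) ∈ W := by rwa [indWord_support₂]
      rcases hn with hn | hn
      · exact hoct _ ⟨⟨v, hle hv, rfl⟩, hn⟩ hv'
      · exact hdod _ ⟨⟨v, hle hv, rfl⟩, hn⟩ hv'
    rcases golay_weights hwc with h | h | h | h | h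
    · exact absurd (hammingNorm_eq_zero.mp h) hw0
    · exact hkey w hw (Or.inl h)
    · exact hkey w hw (Or.inr h)
    · refine hkey (w + fun _ => 1) (add_mem hw h1) (Or.inl ?_)
      have hbit : ∀ x : ZMod 2, x + 1 ≠ 0 ↔ ¬ x ≠ 0 := by decide
      simp only [hammingNorm, Pi.add_apply, hbit] at h ⊢
      have h24 := Finset.card_filter_add_card_filter_not (s := (Finset.univ : Finset GolayPt))
        (fun i => w i ≠ 0)
      rw [h, Finset.card_univ, card_golayPt] at h24
      omega
    · exfalso
      apply hw1
      have hfull : support₂ w = Finset.univ := Finset.eq_univ_of_card _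
        (by rw [← hammingNorm_eq_card_support₂, h, card_golayPt])
      funext p
      have hp : w p ≠ 0 := by rw [← mem_support₂, hfull]; exact Finset.mem_univ p
      have hbit : ∀ x : ZMod 2, x ≠ 0 → x = 1 := by decide
      exact hbit _ hp

end Cfsg.Agent.S5393
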