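import Cfsg.Statements.S5394
import Cfsg.Agent.Golay.IndexM23
import Cfsg.Agent.M24.Classes

set_option autoImplicit false
open Cfsg

namespace Cfsg.Agent.S5394

/-- The automorphism group of the length-24 code built from the squares modulo 23 has exactly two conjugacy classes of involutions: an involution either fixes exactly the eight points of an octad or has no fixed points, both kinds occur, and any two involutions of the same kind are conjugate in the group. -/
theorem result : (∀ g ∈ Cfsg.M24, orderOf g = 2 → (Finset.univ.filter fun p => g p = p) ∈ Cfsg.octads ∨ ∀ p, g p ≠ p) ∧ (∃ g ∈ Cfsg.M24, orderOf g = 2 ∧ (Finset.univ.filter fun p => g p = p) ∈ Cfsg.octads) ∧ (∃ g ∈ Cfsg.M24, orderOf g = 2 ∧ ∀ p, g p ≠ p) ∧ ∀ g ∈ Cfsg.M24, ∀ h ∈ Cfsg.M24, orderOf g = 2 → orderOf h = 2 → ((∀ p, g p ≠ p) ↔ (∀ p, h p ≠ p)) → ∃ k ∈ Cfsg.M24, k * g * k⁻¹ = h := by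
  have hcases : ∀ g ∈ Cfsg.M24, orderOf g = 2 →
      (Finset.univ.filter fun p => g p = p) ∈ Cfsg.octads ∨ ∀ p, g p ≠ p := by
    intro g hg h2
    have h1 : g ≠ 1 := by rintro rfl; rw [orderOf_one] at h2; norm_num at h2
    obtain ⟨h, -, e | e⟩ := M24.order_two_cases hg h2
    · refine Or.inl (Golay.fixSet_mem_octads hg h1 ?_)
      show 7 ≤ (Finset.univ.filter fun p => g p = p).card
      rw [e, M24.fix_conj, M24.fixCount_eq (M24.reps_good _ (by simp)), M24.rep_fix.2.2.1]
      norm_num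
    · refine Or.inr fun p hp => ?_
      have h0 : (Finset.univ.filter fun p => g p = p).card = 0 := by
        rw [e, M24.fix_conj, M24.fixCount_eq (M24.reps_good _ (by simp)), M24.rep_fix.2.2.2]
      rw [Finset.card_eq_zero, Finset.filter_eq_empty_iff] at h0
      exact h0 (Finset.mem_univ p) hp
  have hg8 := M24.elemOf_spec (M24.reps_good M24.ord2Fix8 (by simp))
  have hg0 := M24.elemOf_spec (M24.reps_good M24.ord2Fix0 (by simp))
  have hc8 : (Finset.univ.filter fun p => M24.elemOf M24.ord2Fix8 p = p).card = 8 := by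
    rw [M24.fixCount_eq (M24.reps_good _ (by simp)), M24.rep_fix.2.2.1]
  have hc0 : (Finset.univ.filter fun p => M24.elemOf M24.ord2Fix0 p = p).card = 0 := by
    rw [M24.fixCount_eq (M24.reps_good _ (by simp)), M24.rep_fix.2.2.2]
  have hsq : ∀ t, M24.GoodTab t = true → (∀ i < 24, M24.papp t (M24.papp t i) = i) →
      (∃ i < 24, M24.papp t i ≠ i) → orderOf (M24.elemOf t) = 2 := by
    intro t ht h2 hne
    have hr := (M24.elemOf_spec ht).2
    refine orderOf_eq_prime (Equiv.ext fun p => ?_) fun h1 => ?_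
    · refine Golay.ptIdx_injective ?_
      rw [pow_two, Equiv.Perm.mul_apply, hr, hr, h2 _ (Golay.ptIdx_lt p), Equiv.Perm.one_apply]
    · obtain ⟨i, hi, hne⟩ := hne
      have h3 := hr (Golay.ptOf i)
      rw [h1, Equiv.Perm.one_apply, M24.ptIdx_ptOf i hi] at h3
      exact hne h3.symm
  have o8 : orderOf (M24.elemOf M24.ord2Fix8) = 2 :=
    hsq _ (M24.reps_good _ (by simp)) (by decide +kernel) (by decide +kernel)
  have o0 : orderOf (M24.elemOf M24.ord2Fix0) = 2 :=
    hsq _ (M24.reps_good _ (by simp)) (by decide +kernel) (by decide +kernel)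
  refine ⟨hcases, ?_, ?_, ?_⟩
  · refine ⟨_, hg8.1, o8, (hcases _ hg8.1 o8).resolve_right fun h => ?_⟩
    rw [Finset.filter_eq_empty_iff.2 fun p _ => h p, Finset.card_empty] at hc8
    norm_num at hc8
  · refine ⟨_, hg0.1, o0, fun p hp => ?_⟩
    rw [Finset.card_eq_zero, Finset.filter_eq_empty_iff] at hc0
    exact hc0 (Finset.mem_univ p) hp
  · intro g hg h hh hg2 hh2 hiff
    by_cases hf : ∀ p, g p ≠ p
    · obtain ⟨a, ha, ea⟩ := M24.conj_two_fix0 hg hg2 hf
      obtain ⟨b, hb, eb⟩ := M24.conj_two_fix0 hh hh2 (hiff.1 hf)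
      exact ⟨b * a⁻¹, mul_mem hb (inv_mem ha), by rw [ea, eb]; group⟩
    · have h8 : ∀ x ∈ Cfsg.M24, orderOf x = 2 → ¬ (∀ p, x p ≠ p) →
          (Finset.univ.filter fun p => x p = p).card = 8 := fun x hx hx2 hxf =>
        ((hcases x hx hx2).resolve_right hxf).2
      obtain ⟨a, ha, ea⟩ := M24.conj_two_fix8 hg hg2 (h8 g hg hg2 hf)
      obtain ⟨b, hb, eb⟩ := M24.conj_two_fix8 hh hh2 (h8 h hh hh2 fun h' => hf (hiff.2 h'))
      exact ⟨b * a⁻¹, mul_mem hb (inv_mem ha), by rw [ea, eb]; group⟩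

end Cfsg.Agent.S5394
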