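import Cfsg.Statements.S5396
import Cfsg.Agent.PGroup.FormGroupType

set_option autoImplicit false
open Cfsg

namespace Cfsg.Agent.S5396

/-- For every n ≥ 1 there exist finite extraspecial 2-groups of order 2^(2n+1) whose 2-rank (the largest rank of an elementary abelian subgroup) is n, and ones whose 2-rank is n + 1 (so for each such order there are two non-isomorphic extraspecial 2-groups, told apart by their 2-rank). -/
theorem result (n : ℕ) (hn : 1 ≤ n) : ∀ r ∈ ({n, n + 1} : Set ℕ), ∃ (E : Type) (_ : Group E) (_ : Finite E), Cfsg.IsExtraspecial 2 E ∧ Nat.card E = 2 ^ (2 * n + 1) ∧ sSup {k : ℕ | ∃ A : Subgroup E, Cfsg.IsElementaryAbelian 2 A ∧ Nat.card A = 2 ^ k} = r := by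
  haveI : Fact (Nat.Prime 2) := ⟨Nat.prime_two⟩
  have key : ∀ {E : Type} [Group E] [Finite E] (r : ℕ),
      (∃ A : Subgroup E, Cfsg.IsElementaryAbelian 2 A ∧ Nat.card A = 2 ^ r) →
      (∀ A : Subgroup E, Cfsg.IsElementaryAbelian 2 A → Nat.card A ≤ 2 ^ r) →
      sSup {k : ℕ | ∃ A : Subgroup E, Cfsg.IsElementaryAbelian 2 A ∧ Nat.card A = 2 ^ k} = r := by
    intro E _ _ r h1 h2
    refine le_antisymm (csSup_le ⟨r, h1⟩ ?_) (le_csSup ⟨r, ?_⟩ h1)
    all_goals
      rintro k ⟨A, hA, hk⟩
      have := h2 A hA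
      rw [hk] at this
      exact (Nat.pow_le_pow_iff_right one_lt_two).1 this
  intro r hr
  simp only [Set.mem_insert_iff, Set.mem_singleton_iff] at hr
  rcases hr with rfl | rfl
  · obtain ⟨m, rfl⟩ : ∃ m, r = m + 1 := ⟨r - 1, by omega⟩
    refine ⟨FormGroup.EB (FormGroup.minusMat m), inferInstance, inferInstance, FormGroup.minus_model m,
      FormGroup.card_minus_eq m, key _ (FormGroup.elemAb_minus m) fun A hA => ?_⟩
    by_contra h
    push Not at h
    obtain ⟨k, hk⟩ := IsPGroup.iff_card.mp (FormGroup.isPGroup_EB.to_subgroup A)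
    have h1 := PGroup.extraspecial_card_abelian_le (FormGroup.minus_model m) (FormGroup.card_minus_eq m) hA.1
    rw [hk, Nat.pow_lt_pow_iff_right one_lt_two] at h
    rw [hk, Nat.pow_le_pow_iff_right one_lt_two] at h1
    exact FormGroup.not_plusTwo_minus m ((FormGroup.plusTwo_iff (FormGroup.minus_model m)
      (FormGroup.card_minus_eq m)).2 ⟨A, hA, by rw [hk, show k = m + 1 + 1 by omega]⟩)
  · exact ⟨FormGroup.EB (FormGroup.plusMat n), inferInstance, inferInstance, FormGroup.plus_model n hn,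
      FormGroup.card_plus_eq n, key _ (FormGroup.elemAb_plus n) fun A hA =>
        PGroup.extraspecial_card_abelian_le (FormGroup.plus_model n hn) (FormGroup.card_plus_eq n) hA.1⟩

end Cfsg.Agent.S5396
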