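import Cfsg.Statements.S5398
import Cfsg.Agent.TTLink.M22Classes
-- import your own Cfsg.Agent.* helpers here

set_option autoImplicit false
open Cfsg

namespace Cfsg.Agent.S5398

/-- Let G be a finite group with trivial centre generated by a conjugation-invariant set D of 3-transpositions on which it acts primitively, such that for some d in D the subgroup generated by the members of D other than d commuting with d has central largest normal 2- and 3-subgroups, and suppose G with D is of type M(22). Then G has exactly 3 conjugacy classes of involutions: every involution is a product of m distinct pairwise commuting members of D for some m between 1 and 3; for each such m these products form one non-empty conjugacy class; and the value of m is determined by the involution. -/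
theorem result {G : Type*} [Group G] [Finite G] {D : Set G} (hD : Cfsg.IsThreeTranspositionGroup D) (hprim : Cfsg.IsPrimitiveUnderConj D) (d : G) (hd : d ∈ D) (h3 : Cfsg.pCore 3 ↥(Subgroup.closure {y : G | y ∈ D ∧ y ≠ d ∧ Commute d y}) ≤ Subgroup.center ↥(Subgroup.closure {y : G | y ∈ D ∧ y ≠ d ∧ Commute d y})) (h2 : Cfsg.pCore 2 ↥(Subgroup.closure {y : G | y ∈ D ∧ y ≠ d ∧ Commute d y}) ≤ Subgroup.center ↥(Subgroup.closure {y : G | y ∈ D ∧ y ≠ d ∧ Commute d y})) (ht : Cfsg.IsOfTypeM22 G D) : (∀ x : G, orderOf x = 2 → ∃ m : ℕ, 1 ≤ m ∧ m ≤ 3 ∧ (∃ l : List G, l.Nodup ∧ l.length = m ∧ (∀ a ∈ l, a ∈ D) ∧ (∀ a ∈ l, ∀ b ∈ l, Commute a b) ∧ l.prod = x)) ∧ (∀ m : ℕ, 1 ≤ m → m ≤ 3 → (∃ x : G, orderOf x = 2 ∧ (∃ l : List G, l.Nodup ∧ l.length = m ∧ (∀ a ∈ l, a ∈ D) ∧ (∀ a ∈ l, ∀ b ∈ l, Commute a b) ∧ l.prod = x)) ∧ ∀ x y : G, (∃ l : List G, l.Nodup ∧ l.length = m ∧ (∀ a ∈ l, a ∈ D) ∧ (∀ a ∈ l, ∀ b ∈ l, Commute a b) ∧ l.prod = x) →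 (∃ l : List G, l.Nodup ∧ l.length = m ∧ (∀ a ∈ l, a ∈ D) ∧ (∀ a ∈ l, ∀ b ∈ l, Commute a b) ∧ l.prod = y) → IsConj x y) ∧ ∀ (m m' : ℕ) (x : G), 1 ≤ m → m ≤ 3 → 1 ≤ m' → m' ≤ 3 → (∃ l : List G, l.Nodup ∧ l.length = m ∧ (∀ a ∈ l, a ∈ D) ∧ (∀ a ∈ l, ∀ b ∈ l, Commute a b) ∧ l.prod = x) → (∃ l : List G, l.Nodup ∧ l.length = m' ∧ (∀ a ∈ l, a ∈ D) ∧ (∀ a ∈ l, ∀ b ∈ l, Commute a b) ∧ l.prod = x) → m = m' := by
  have P : TTLink.M22Prim D := ⟨hD, hprim, ht⟩
  have HH := P.hyp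
  have hI := HH.indeps hd
  have hDd := P.data
  have prodOne : ∀ l : List G, TTLink.Fac D l → 1 ≤ l.length → l.length ≤ 3 → orderOf l.prod = 2 := by
    intro l hl h1 h3
    refine orderOf_eq_prime (p := 2) ?_ (fun e => hI l.length h1 (by omega) l hl.nodup rfl hl.mem hl.comm e)
    rw [pow_two]
    nth_rewrite 1 [← TTLink.fac_inv hDd hl]
    exact inv_mul_cancel _
  refine ⟨fun x hx => ?_, fun m h1 h3 => ⟨?_, ?_⟩, ?_⟩
  · have hx2 : x * x = 1 := by rw [← pow_two, ← hx, pow_orderOf_eq_one]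
    obtain ⟨l, hl, hlen, hp⟩ := P.factor_three hx2
    refine ⟨l.length, ?_, hlen, l, hl.nodup, rfl, hl.mem, hl.comm, hp⟩
    by_contra h0
    rw [List.length_eq_zero_iff.1 (by omega : l.length = 0)] at hp
    simp [← hp] at hx
  · obtain ⟨a, b, c, hl⟩ := HH.exists_triple
    have hl' : TTLink.Fac D ([a, b, c].take m) :=
      ⟨hl.nodup.sublist (List.take_sublist _ _), fun x hx => hl.mem x (List.mem_of_mem_take hx),
        fun x hx y hy => hl.comm x (List.mem_of_mem_take hx) y (List.mem_of_mem_take hy)⟩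
    have hlen : ([a, b, c].take m).length = m := by simp; omega
    exact ⟨_, prodOne _ hl' (by omega) (by omega), _, hl'.nodup, hlen, hl'.mem, hl'.comm, rfl⟩
  · rintro x y ⟨l, hn, hlen, hm, hc, rfl⟩ ⟨l', hn', hlen', hm', hc', rfl⟩
    have hl : TTLink.Fac D l := ⟨hn, hm, hc⟩
    have hl' : TTLink.Fac D l' := ⟨hn', hm', hc'⟩
    rw [isConj_iff]
    obtain rfl | rfl | rfl : m = 1 ∨ m = 2 ∨ m = 3 := by omega
    · obtain ⟨a, rfl⟩ := List.length_eq_one_iff.1 hlen
      obtain ⟨a', rfl⟩ := List.length_eq_one_iff.1 hlen'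
      obtain ⟨g, hg⟩ := HH.cl a (hm a (by simp)) a' (hm' a' (by simp))
      exact ⟨g, by simpa [ThreeTransp45.cj] using hg⟩
    · obtain ⟨a, b, rfl⟩ := List.length_eq_two.1 hlen
      obtain ⟨a', b', rfl⟩ := List.length_eq_two.1 hlen'
      obtain ⟨g₁, hg₁⟩ := HH.cl a (hm a (by simp)) a' (hm' a' (by simp))
      have lb : ThreeTransp45.cj g₁ b ∈ ThreeTransp45.link D a' := by
        rw [← hg₁, ← ThreeTransp45.link_image hDd]
        exact ⟨b, ⟨hm b (by simp), fun e => by simp [e] at hn, hc a (by simp) b (by simp)⟩, rfl⟩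
      obtain ⟨g₂, hg₂, he⟩ := ThreeTransp45.exists_conj_link HH.sol HH.cls (hm' a' (by simp)) lb
        ⟨hm' b' (by simp), fun e => by simp [e] at hn', hc' a' (by simp) b' (by simp)⟩
      refine ⟨g₂ * g₁, ?_⟩
      show ThreeTransp45.cj (g₂ * g₁) _ = _
      simp only [List.prod_cons, List.prod_nil, mul_one, ThreeTransp45.cj_map_mul]
      rw [ThreeTransp45.cj_mul, ThreeTransp45.cj_mul, hg₁, he,
        (ThreeTransp45.cj_eq_self_iff g₂ a').2 (TTLink.commute_d hg₂).symm]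
    · obtain ⟨a, b, c, rfl⟩ := List.length_eq_three.1 hlen
      obtain ⟨a', b', c', rfl⟩ := List.length_eq_three.1 hlen'
      obtain ⟨g, e1, e2, e3⟩ := P.triples hl hl'
      refine ⟨g, ?_⟩
      show ThreeTransp45.cj g _ = _
      simp only [List.prod_cons, List.prod_nil, mul_one, ThreeTransp45.cj_map_mul, e1, e2, e3]
  · rintro m m' x - h3 - h3' ⟨l, hn, rfl, hm, hc, rfl⟩ ⟨l', hn', rfl, hm', hc', hp⟩
    by_contra hne
    rcases Nat.lt_or_gt_of_ne hne with h | h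
    · exact TTLink.len_unique hDd hI _ l l' ⟨hn, hm, hc⟩ ⟨hn', hm', hc'⟩ rfl h h3' hp.symm
    · exact TTLink.len_unique hDd hI _ l' l ⟨hn', hm', hc'⟩ ⟨hn, hm, hc⟩ rfl h h3 hp


end Cfsg.Agent.S5398
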