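import Cfsg.Statements.S5400
import Cfsg.Agent.TTLink.M24Classes
-- import your own Cfsg.Agent.* helpers here

set_option autoImplicit false
open Cfsg

namespace Cfsg.Agent.S5400

/-- Let G be a finite group with trivial centre generated by a conjugation-invariant set D of 3-transpositions on which it acts primitively, such that for some d in D the subgroup generated by the members of D other than d commuting with d has central largest normal 2- and 3-subgroups, and suppose G with D is of type M(24). Then G has exactly 4 conjugacy classes of involutions: every involution is a product of m distinct pairwise commuting members of D for some m between 1 and 4; for each such m these products form one non-empty conjugacy class; and the value of m is determined by the involution. -/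
theorem result {G : Type*} [Group G] [Finite G] {D : Set G} (hD : Cfsg.IsThreeTranspositionGroup D) (hprim : Cfsg.IsPrimitiveUnderConj D) (d : G) (hd : d ∈ D) (h3 : Cfsg.pCore 3 ↥(Subgroup.closure {y : G | y ∈ D ∧ y ≠ d ∧ Commute d y}) ≤ Subgroup.center ↥(Subgroup.closure {y : G | y ∈ D ∧ y ≠ d ∧ Commute d y})) (h2 : Cfsg.pCore 2 ↥(Subgroup.closure {y : G | y ∈ D ∧ y ≠ d ∧ Commute d y}) ≤ Subgroup.center ↥(Subgroup.closure {y : G | y ∈ D ∧ y ≠ d ∧ Commute d y})) (ht : Cfsg.IsOfTypeM24 G D) : (∀ x : G, orderOf x = 2 → ∃ m : ℕ, 1 ≤ m ∧ m ≤ 4 ∧ (∃ l : List G, l.Nodup ∧ l.length = m ∧ (∀ a ∈ l, a ∈ D) ∧ (∀ a ∈ l, ∀ b ∈ l, Commute a b) ∧ l.prod = x)) ∧ (∀ m : ℕ, 1 ≤ m → m ≤ 4 → (∃ x : G, orderOf x = 2 ∧ (∃ l : List G, l.Nodup ∧ l.length = m ∧ (∀ a ∈ l, a ∈ D) ∧ (∀ a ∈ l, ∀ b ∈ l, Commute a b) ∧ l.prod = x)) ∧ ∀ x y : G, (∃ l : List G, l.Nodup ∧ l.length = m ∧ (∀ a ∈ l, a ∈ D) ∧ (∀ a ∈ l, ∀ b ∈ l, Commute a b) ∧ l.prod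 = x) → (∃ l : List G, l.Nodup ∧ l.length = m ∧ (∀ a ∈ l, a ∈ D) ∧ (∀ a ∈ l, ∀ b ∈ l, Commute a b) ∧ l.prod = y) → IsConj x y) ∧ ∀ (m m' : ℕ) (x : G), 1 ≤ m → m ≤ 4 → 1 ≤ m' → m' ≤ 4 → (∃ l : List G, l.Nodup ∧ l.length = m ∧ (∀ a ∈ l, a ∈ D) ∧ (∀ a ∈ l, ∀ b ∈ l, Commute a b) ∧ l.prod = x) → (∃ l : List G, l.Nodup ∧ l.length = m' ∧ (∀ a ∈ l, a ∈ D) ∧ (∀ a ∈ l, ∀ b ∈ l, Commute a b) ∧ l.prod = x) → m = m' := by
  have P : TTLink.M24Prim D := ⟨hD, hprim, ht, d, hd, h3, h2⟩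
  refine ⟨fun x hx => ?_, fun m h1 h4 => ⟨?_, ?_⟩, ?_⟩
  · obtain ⟨l, hl, h4, hp⟩ := P.factor_four (x := x) (by rw [← pow_two, ← hx, pow_orderOf_eq_one])
    refine ⟨l.length, ?_, h4, l, hl.nodup, rfl, hl.mem, hl.comm, hp⟩
    rcases Nat.eq_zero_or_pos l.length with e | e
    · rw [List.length_eq_zero_iff.1 e, List.prod_nil] at hp
      simp [← hp] at hx
    · exact e
  · obtain ⟨l, hl, hlen, ho⟩ := P.exists_length h1 h4
    exact ⟨l.prod, ho, l, hl.nodup, hlen, hl.mem, hl.comm, rfl⟩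
  · rintro x y ⟨l, n, len, mem, com, rfl⟩ ⟨l', n', len', mem', com', rfl⟩
    obtain ⟨g, hg⟩ := P.conj_lists ⟨n, mem, com⟩ ⟨n', mem', com'⟩ (len.trans len'.symm) (len.le.trans h4)
    exact isConj_iff.2 ⟨g, (TTLink.cj_list_prod g l).trans (by rw [hg])⟩
  · rintro m m' x h1 h4 h1' h4' ⟨l, n, len, mem, com, hp⟩ ⟨l', n', len', mem', com', hp'⟩
    rcases lt_trichotomy m m' with h | h | h
    · exact absurd (hp.trans hp'.symm) (P.len_unique_four m l l' ⟨n, mem, com⟩ ⟨n', mem', com'⟩ len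
        (by omega) (by omega))
    · exact h
    · exact absurd (hp'.trans hp.symm) (P.len_unique_four m' l' l ⟨n', mem', com'⟩ ⟨n, mem, com⟩ len'
        (by omega) (by omega))

end Cfsg.Agent.S5400
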