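import Cfsg.Statements.S5408
import Cfsg.Agent.Monster.PlusType

set_option autoImplicit false
open Cfsg

namespace Cfsg.Agent.S5408

open Cfsg.Agent.Monster in
/-- The twelve coefficient vectors. -/
def vec12 (i : Fin 12) : GolayPt → ℤ :=
  fun p => if i.val = 0 then (if p = none then 2 else 0) else (if p = none ∨ p = twelvePt i then 1 else 0)

theorem vec12_even : ∀ i, (2 : ℤ) ∣ ∑ p, vec12 i p := by decide +kernel

open Cfsg.Agent.Monster in
/-- A combination of the twelve vectors. -/
def comb12 (n : Fin 12 → ℤ) : leechLattice :=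
  wVec (fun p => ∑ i, n i * vec12 i p)
    (by rw [Finset.sum_comm]; exact Finset.dvd_sum fun i _ => by rw [← Finset.mul_sum]; exact dvd_mul_of_dvd_right (vec12_even i) _)

theorem comb12_add (m n : Fin 12 → ℤ) : comb12 (m + n) = comb12 m + comb12 n :=
  Subtype.ext (funext fun p => by
    simp [comb12, Cfsg.Agent.Monster.wVec, add_mul, Finset.sum_add_distrib, mul_add])

open Cfsg.Agent.Monster in
theorem comb12_double (a : Fin 12 → ZMod 2) (w : leechLattice) (h : comb12 (fun i => ((a i).val : ℤ)) = w + w) :
    a = 0 := by
  obtain ⟨-, h8, horth⟩ := leechInv_of_mem w.2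
  set y : GolayPt → ℤ := fun p => ∑ i, ((a i).val : ℤ) * vec12 i p with hy
  have hw : ∀ p, (w : GolayPt → ℤ) p = 2 * y p := by
    intro p
    have := congrArg (fun v : leechLattice => (v : GolayPt → ℤ) p) h
    simp only [comb12, wVec, AddSubgroup.coe_add, Pi.add_apply, Pi.smul_apply, smul_eq_mul] at this
    simp only [hy]
    linarith
  have hone : (1 : GolayPt → ZMod 2) ∈ golayCode := Submodule.subset_span (Or.inr rfl)
  -- the word of y modulo 2, as a word on the 12-set
  let a' : Fin 12 → ZMod 2 := fun i => if i.val = 0 then ∑ j ∈ Finset.univ.erase (0 : Fin 12), a j else a i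
  have hy2 : ∀ p, ((y p : ℤ) : ZMod 2) = twelveWord a' p := by
    intro p
    have e : ∀ i, ((vec12 i p : ℤ) : ZMod 2) = if i.val = 0 then 0 else if p = none ∨ p = twelvePt i then 1 else 0 := by
      intro i
      unfold vec12
      split
      · split <;> simp <;> rfl
      · split <;> simp
    have ev : ∀ x : ZMod 2, ((((x.val : ℕ) : ℤ)) : ZMod 2) = x := by decide
    simp only [hy, Int.cast_sum, Int.cast_mul, e, ev]
    have key : ∀ q : GolayPt, ∀ b : Fin 12 → ZMod 2,
        (∑ i, b i * (if i.val = 0 then 0 else if q = none ∨ q = twelvePt i then 1 else 0)) =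
          ∑ i, if twelvePt i = q then (if i.val = 0 then ∑ j ∈ Finset.univ.erase (0 : Fin 12), b j else b i) else 0 := by
      intro q b
      by_cases hq : q = none
      · subst hq
        have e0 : ∀ i, twelvePt i = none ↔ i = 0 := by decide +kernel
        simp only [e0, Finset.sum_ite_eq', Finset.mem_univ, if_true, Fin.val_zero, true_or]
        rw [← Finset.add_sum_erase _ _ (Finset.mem_univ (0 : Fin 12))]
        simp only [Fin.val_zero, if_true, mul_zero, zero_add]
        refine Finset.sum_congr rfl fun j hj => ?_
        have : j.val ≠ 0 := fun h => (Finset.mem_erase.1 hj).1 (Fin.ext h)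
        simp [this]
      · refine Finset.sum_congr rfl fun i _ => ?_
        by_cases hi : i.val = 0
        · have : i = 0 := Fin.ext hi
          subst this
          have : twelvePt 0 ≠ q := fun h => hq (h ▸ rfl)
          simp [this]
        · by_cases hpi : q = twelvePt i
          · subst hpi
            simp [hi]
          · simp [hi, hq, hpi, Ne.symm hpi]
    exact key p a
  have hz : a' = 0 := by
    refine twelve_orth_eq_zero a' fun c hc => ?_
    have hd := horth c hc
    simp only [hw, show ∀ p, (2 * y p - 2 * y none) / 2 = y p - y none from fun p => by omega, Int.cast_sub,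
      hy2, mul_sub, Finset.sum_sub_distrib] at hd
    have h1 : ∑ p, c p = 0 := by simpa using golay_dot hc hone
    rw [← Finset.sum_mul, h1, zero_mul, sub_zero] at hd
    exact hd
  have hne : ∀ i : Fin 12, i ≠ 0 → a i = 0 := by
    intro i hi
    have := congrFun hz i
    have hv : i.val ≠ 0 := fun h => hi (Fin.ext h)
    simp only [a', hv, if_false] at this
    exact this
  funext i
  by_cases hi : i = 0
  · subst hi
    rcases zmod2_cases (a 0) with h0 | h0
    · exact h0
    · exfalso
      have hyv : ∀ p, y p = if p = none then 2 else 0 := by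
        intro p
        simp only [hy]
        rw [Finset.sum_eq_single (0 : Fin 12) (fun j _ hj => by simp [hne j hj]) (by simp)]
        simp [h0, vec12, ZMod.val_one]
      simp [hw, hyv] at h8
  · exact hne i hi

/-- Let G be a finite group of Monster type at the involution z with Q the extraspecial normal subgroup of order 2^25 of C = C_G(z) (so C/Q is identified with the first Conway group with Q modulo its centre the Leech lattice modulo 2, and z is not weakly closed in Q). Then Q is of plus type: it contains an elementary abelian subgroup of order 2^13. -/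
theorem result {G : Type*} [Group G] [Finite G] (z : G) (Q : Subgroup (Subgroup.centralizer ({z} : Set G))) [Q.Normal] (hM : Cfsg.IsOfMonsterType z Q) : ∃ E : Subgroup Q, Cfsg.IsElementaryAbelian 2 E ∧ Nat.card E = 2 ^ 13 := by
  obtain ⟨⟨-, -, hQ, hcard, -⟩, e, ψ, hadd, hsurj, hker, hequiv⟩ := hM
  obtain ⟨B, q, hq, hB, hqadd, hBself, hBsymm, hnd, hinv⟩ := Cfsg.Agent.Monster.exists_extraspecial_form hQ ψ hadd
  have hinv' : ∀ g : Co0, (∀ v w, B (g • v) (g • w) = B v w) ∧ ∀ v, q (g • v) = q v := by
    intro g
    obtain ⟨h, hh⟩ := QuotientGroup.mk_surjective (e.symm (QuotientGroup.mk g))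
    refine hinv (MulAut.conjNormal h) (fun v => g • v) fun v a ha => ?_
    rw [hequiv h g (by rw [hh, MulEquiv.apply_symm_apply]) v a ha]
    rfl
  let F : Cfsg.Agent.Monster.SignForm :=
    { B := B, q := q, q_add := hqadd, B_self := hBself, B_symm := hBsymm
      nondeg := fun v h => (hker v).1 (hnd hsurj v h)
      B_inv := fun c hc => (hinv' _).1
      q_inv := fun c hc => (hinv' _).2 }
  have hdouble : ∀ w, ψ (w + w) = 1 := fun w => (hker _).2 ⟨w, rfl⟩
  have hzero : ψ 0 = 1 := (hker 0).2 ⟨0, (add_zero 0).symm⟩
  let Φ : Multiplicative (Fin 12 → ZMod 2) →* Q ⧸ Subgroup.center Q :=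
    MonoidHom.mk' (fun a => ψ (comb12 fun i => (((Multiplicative.toAdd a) i).val : ℤ))) fun a b => by
      have ev : (fun i => (((Multiplicative.toAdd (a * b)) i).val : ℤ)) =
          ((fun i => (((Multiplicative.toAdd a) i).val : ℤ)) + fun i => (((Multiplicative.toAdd b) i).val : ℤ)) +
            ((fun i => -((((Multiplicative.toAdd a) i) * ((Multiplicative.toAdd b) i)).val : ℤ)) +
              fun i => -((((Multiplicative.toAdd a) i) * ((Multiplicative.toAdd b) i)).val : ℤ)) := by
        funext i
        simp only [toAdd_mul, Pi.add_apply]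
        rcases Cfsg.Agent.Monster.zmod2_cases ((Multiplicative.toAdd a) i) with h | h <;>
          rcases Cfsg.Agent.Monster.zmod2_cases ((Multiplicative.toAdd b) i) with h' | h' <;>
            simp [h, h', ZMod.val_one] <;> rfl
      show ψ _ = ψ _ * ψ _
      rw [ev, comb12_add, comb12_add, comb12_add, hadd _ (comb12 _ + comb12 _), hdouble, mul_one, hadd]
  have hinj : Function.Injective Φ := by
    rw [injective_iff_map_eq_one]
    intro a ha
    obtain ⟨w, hw⟩ := (hker _).1 ha
    exact Multiplicative.toAdd.injective (comb12_double _ w hw)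
  refine ⟨Φ.range.comap (QuotientGroup.mk' (Subgroup.center Q)), ⟨⟨⟨fun x y => ?_⟩⟩, fun x hx => ?_⟩, ?_⟩
  · obtain ⟨a, ha⟩ := x.2
    obtain ⟨b, hb⟩ := y.2
    refine Subtype.ext ?_
    exact ((hB _ _ (x : Q) (y : Q) ha hb).1 (F.B_wVec_wVec _ _ _ _)).eq
  · obtain ⟨a, ha⟩ := hx
    exact (hq _ x ha).1 (F.q_wVec _ _)
  · have hr : Nat.card Φ.range = 2 ^ 12 := by
      rw [Nat.card_congr (MonoidHom.ofInjective hinj).toEquiv.symm, Nat.card_congr Multiplicative.toAdd]
      simp [Nat.card_fun]
    have hi : (Φ.range.comap (QuotientGroup.mk' (Subgroup.center Q))).index = Φ.range.index :=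
      Subgroup.index_comap_of_surjective _ (QuotientGroup.mk'_surjective _)
    have h1 := Subgroup.card_mul_index (Φ.range.comap (QuotientGroup.mk' (Subgroup.center Q)))
    have h2 := Subgroup.card_mul_index Φ.range
    have h3 := Subgroup.card_eq_card_quotient_mul_card_subgroup (Subgroup.center Q)
    rw [hi, hcard] at h1
    rw [hr] at h2
    rw [hcard, hQ.2] at h3
    norm_num at h1 h2 h3 ⊢
    have h5 : Φ.range.index = 4096 := by omega
    rw [h5] at h1
    omega

end Cfsg.Agent.S5408
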