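import Cfsg.Statements.S5411
import Cfsg.Agent.Monster.Singular

set_option autoImplicit false
open Cfsg

namespace Cfsg.Agent.S5411

/-- Let G be a finite group of Monster type at the involution z with Q the extraspecial normal subgroup of order 2^25 of C = C_G(z) (so C/Q is identified with the first Conway group with Q modulo its centre the Leech lattice modulo 2, and z is not weakly closed in Q). Then C acts transitively by conjugation on the involutions of Q that are not conjugate to z in G. -/
theorem result {G : Type*} [Group G] [Finite G] (z : G) (Q : Subgroup (Subgroup.centralizer ({z} : Set G))) [Q.Normal] (hM : Cfsg.IsOfMonsterType z Q) (s t : G) (hsQ : ∃ hsc : s ∈ Subgroup.centralizer ({z} : Set G), (⟨s, hsc⟩ : Subgroup.centralizer ({z} : Set G)) ∈ Q) (htQ : ∃ htc : t ∈ Subgroup.centralizer ({z} : Set G), (⟨t, htc⟩ : Subgroup.centralizer ({z} : Set G)) ∈ Q) (hs2 : orderOf s = 2) (ht2 : orderOf t = 2) (hs : ¬ IsConj z s) (ht : ¬ IsConj z t) : ∃ h ∈ Subgroup.centralizer ({z} : Set G), h * s *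 h⁻¹ = t := by
  obtain ⟨e, ψ, S⟩ := Monster.exists_msetting hM
  obtain ⟨hsc, hsq⟩ := hsQ
  obtain ⟨htc, htq⟩ := htQ
  have key : ∀ {x : G}, x ∈ Monster.amb Q → orderOf x = 2 → ¬ IsConj z x → Monster.HasNorm ψ 32 x := by
    intro x hx h2 hc
    refine S.noncentral_norm hx ?_ ?_ hc
    · rw [← pow_two, ← h2, pow_orderOf_eq_one]
    · rintro rfl
      simp at h2
  exact S.hasNorm_conj (Or.inl rfl) (key ⟨_, hsq, rfl⟩ hs2 hs) (key ⟨_, htq, rfl⟩ ht2 ht)

end Cfsg.Agent.S5411
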