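import Cfsg.Statements.S5412
import Cfsg.Agent.Monster.Baby

set_option autoImplicit false
open Cfsg

namespace Cfsg.Agent.S5412

/-- Let G be a finite group of Monster type at the involution z with Q the extraspecial normal subgroup of order 2^25 of C = C_G(z) (so C/Q is identified with the first Conway group with Q modulo its centre the Leech lattice modulo 2, and z is not weakly closed in Q). Let t be an involution of Q not conjugate to z in G. Then the centralizer of t modulo the subgroup generated by t is a group of Baby Monster type (an involution whose centralizer D has generalized Fitting subgroup R extraspecial of order 2^23 with D/R identified with the second Conway group acting on R modulo its centre as on the vectors of the Leech lattice modulo 2 orthogonal to a short vector, modulo that vector; the involution not weakly closed in R). -/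
theorem result {G : Type*} [Group G] [Finite G] (z : G) (Q : Subgroup (Subgroup.centralizer ({z} : Set G))) [Q.Normal] (hM : Cfsg.IsOfMonsterType z Q) (t : G) (htQ : ∃ htc : t ∈ Subgroup.centralizer ({z} : Set G), (⟨t, htc⟩ : Subgroup.centralizer ({z} : Set G)) ∈ Q) (ht2 : orderOf t = 2) (ht : ¬ IsConj z t) [hn : ((Subgroup.zpowers t).subgroupOf (Subgroup.centralizer ({t} : Set G))).Normal] : Cfsg.IsOfBabyMonsterType (↥(Subgroup.centralizer ({t} : Set G)) ⧸ (Subgroup.zpowers t).subgroupOf (Subgroup.centralizer ({t} : Set G))) := by
  obtain ⟨e, ψ, S⟩ := Monster.exists_msetting hM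
  obtain ⟨htc, htq⟩ := htQ
  have h1 : t ≠ 1 := fun h => by simp [h] at ht2
  have h2 : t * t = 1 := by rw [← pow_two, ← ht2, pow_orderOf_eq_one]
  obtain ⟨v, hv, q, hq, hq'⟩ := S.noncentral_norm ⟨_, htq, rfl⟩ h2 h1 ht
  obtain ⟨h, hh⟩ := Leech.exists_smul_eq_of_conj (Leech.conj32 Spor.leechU.2 Monster.sqNorm_leechU)
    (Leech.conj32 v.2 hv)
  have hr : Monster.Rep (fun v => ψ (h • v)) Spor.leechU t := ⟨q, hq, by simp only [hh]; exact hq'⟩
  exact (S.retarget h).baby_type (t := t) hr ht

end Cfsg.Agent.S5412
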