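import Cfsg.Statements.S5413
import Cfsg.Agent.MonsterCent.Five

set_option autoImplicit false
open Cfsg

namespace Cfsg.Agent.S5413

open Cfsg.Agent.Monster Cfsg.Agent.MonsterCent

theorem harada {G : Type*} [Group G] [Finite G] {z : G} {Q : Subgroup (Subgroup.centralizer ({z} : Set G))} [Q.Normal]
    (hM : Cfsg.IsOfMonsterType z Q) {s : G}
    (hsQ : ∃ hsc : s ∈ Subgroup.centralizer ({z} : Set G), (⟨s, hsc⟩ : Subgroup.centralizer ({z} : Set G)) ∈ Q)
    (hs : IsConj z s) (hs1 : s ≠ z) {B : Subgroup G} (hB : B ≤ Subgroup.centralizer ({z, s} : Set G))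
    (hBp : Nat.card B = 5 ^ (Nat.card ↥(Subgroup.centralizer ({z, s} : Set G))).factorization 5)
    [hn : (B.subgroupOf (Subgroup.centralizer (B : Set G))).Normal] :
    Cfsg.IsOfHaradaNortonType
      (↥(Subgroup.centralizer (B : Set G)) ⧸ B.subgroupOf (Subgroup.centralizer (B : Set G))) := by
  have h5 : Nat.Prime 5 := by norm_num
  haveI : Fact (Nat.Prime 5) := ⟨h5⟩
  obtain ⟨e, ψ, S⟩ := Monster.exists_msetting hM
  obtain ⟨hsc, hsq⟩ := hsQ
  have hsA : s ∈ amb Q := ⟨_, hsq, rfl⟩
  obtain ⟨J⟩ := jointData S hsA hs hs1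
  rw [factorization_joint J h5 (by norm_num), Five.factorization_five, pow_one] at hBp
  obtain ⟨b, hb, rfl, τ, hτ⟩ := exists_generator J h5 (by norm_num) hB hBp Five.r
    (fun x _ hx => Five.classes (order_pi J h5 (by norm_num) hx))
  have hb5 : b ^ 5 = 1 := hb ▸ pow_orderOf_eq_one b
  obtain ⟨e', ψ', S', hm⟩ := exists_hyp_setting S J h5 (by norm_num) b hb5 Five.r τ hτ
  obtain ⟨X, hX, ⟨L⟩⟩ := Five.exists_cent
  let P : Hyp S' Five.g Five.data.k alternatingFiveWreathTwo :=
    { X := X, L := L, b := (b : G), hbC := (toC z s b).2, p := 5, hp := h5, hodd := by norm_num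
      hb := by rw [Subgroup.orderOf_coe, hb]
      hg := Data.order_g Five.check_perm
      hm := hm
      hK := WreathFive.core }
  haveI : (P.B.subgroupOf P.CB).Normal := hn
  haveI := P.R_normal
  obtain ⟨x, hx, hxs⟩ := fusion S hsA hs hs1 J h5 (by norm_num) b hb5 fun r _ _ hy =>
    fuse_of_classes J h5 (by norm_num) Five.r (fun x hx => Five.classes hx) _ _ hb (by
      rw [Subgroup.orderOf_mk, ← hb, ← Subgroup.orderOf_coe b]
      exact orderOf_injective (MulAut.conj r).toMonoidHom (MulAut.conj r).injective (b : G))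
  exact ⟨P.zb, P.R, P.R_normal,
    P.setting_R (w := 4) rfl (by norm_num) ⟨x, P.mem_CB.2 hx, by rw [hxs]; exact
      ⟨⟨hsA, Subgroup.mem_centralizer_singleton_iff.2 (mem_joint.1 b.2).2.symm⟩, hs1⟩⟩,
    P.quotient_R⟩

/-- Let G be a finite group of Monster type at the involution z with Q the extraspecial normal subgroup of order 2^25 of C = C_G(z) (so C/Q is identified with the first Conway group with Q modulo its centre the Leech lattice modulo 2, and z is not weakly closed in Q). Let s be a conjugate of z in Q other than z and let B be a Sylow 5-subgroup of the joint centralizer of z and s. Then the centralizer of B modulo B is a group of Harada–Norton type (an involution whose centralizer D has generalized Fitting subgroup R extraspecial of order 2^9 with D/R the wreath product of the alternating group of degree 5 by a group of order 2, the involution not weakly closed in R). -/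
theorem result {G : Type*} [Group G] [Finite G] (z : G) (Q : Subgroup (Subgroup.centralizer ({z} : Set G))) [Q.Normal] (hM : Cfsg.IsOfMonsterType z Q) (s : G) (hsQ : ∃ hsc : s ∈ Subgroup.centralizer ({z} : Set G), (⟨s, hsc⟩ : Subgroup.centralizer ({z} : Set G)) ∈ Q) (hs : IsConj z s) (hs1 : s ≠ z) (B : Subgroup G) (hB : B ≤ Subgroup.centralizer ({z, s} : Set G)) (hBp : Nat.card B = 5 ^ (Nat.card ↥(Subgroup.centralizer ({z, s} : Set G))).factorization 5) [hn : (B.subgroupOf (Subgroup.centralizer (B : Set G))).Normal] : Cfsg.IsOfHaradaNortonType (↥(Subgroup.centralizer (B : Set G)) ⧸ B.subgroupOf (Subgroup.centralizer (B : Set G))) := by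
  exact harada hM hsQ hs hs1 hB hBp

end Cfsg.Agent.S5413
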