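import Cfsg.Statements.S5414
import Cfsg.Agent.MonsterCent.Three
import Cfsg.Agent.MonsterCent.Targets

set_option autoImplicit false
open Cfsg

namespace Cfsg.Agent.S5414

open Cfsg.Agent.Monster Cfsg.Agent.MonsterCent

section

variable {G : Type*} [Group G] [Finite G] {z : G} {Q : Subgroup (Subgroup.centralizer ({z} : Set G))} [Q.Normal]
  {e : (Subgroup.centralizer ({z} : Set G)) ⧸ Q ≃* Spor.Co1} {ψ : leechLattice → Q ⧸ Subgroup.center Q}
  {S : MSetting z Q e ψ} {s : G}

/-- An element of order 3 with image outside the class of `r` is central in a Sylow subgroup. -/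
theorem exists_sylow_central (J : JointData S s) {x : joint z s} (hx : orderOf x = 3)
    (hne : ¬ ∃ τ : M24, τ * J.π x * τ⁻¹ = Three.r) :
    ∃ P : Subgroup (joint z s), (∃ P' : Sylow 3 (joint z s), (P' : Subgroup (joint z s)) = P) ∧
      Nat.card P = 27 ∧ x ∈ P ∧ ∀ q ∈ P, q * x = x * q := by
  classical
  have h3 : Nat.Prime 3 := Nat.prime_three
  haveI : Fact (Nat.Prime 3) := ⟨h3⟩
  let P₀ : Sylow 3 (joint z s) := default
  have hcard : ∀ P : Sylow 3 (joint z s), Nat.card ↥(P : Subgroup (joint z s)) = 27 := fun P => by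
    rw [P.card_eq_multiplicity, factorization_joint J h3 (by norm_num), Three.factorization_three]
    norm_num
  haveI : Nontrivial ↥(P₀ : Subgroup (joint z s)) := Finite.one_lt_card_iff_nontrivial.1 (by rw [hcard]; norm_num)
  haveI := (P₀.isPGroup').center_nontrivial
  obtain ⟨n, hn⟩ := IsPGroup.iff_card.1
    ((P₀.isPGroup').to_subgroup (Subgroup.center ↥(P₀ : Subgroup (joint z s))))
  have hn0 : n ≠ 0 := fun h => by
    have h1 : 1 < Nat.card (Subgroup.center ↥(P₀ : Subgroup (joint z s))) := Finite.one_lt_card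
    rw [hn, h] at h1
    norm_num at h1
  obtain ⟨c, hc⟩ := exists_prime_orderOf_dvd_card' (G := Subgroup.center ↥(P₀ : Subgroup (joint z s))) 3
    (hn ▸ dvd_pow_self 3 hn0)
  let c' : joint z s := ((c : ↥(P₀ : Subgroup (joint z s))) : joint z s)
  have hc' : orderOf c' = 3 := by
    rw [← hc, Subgroup.orderOf_coe, Subgroup.orderOf_coe]
  have hcc : ∀ q ∈ (P₀ : Subgroup (joint z s)), q * c' = c' * q := fun q hq =>
    congrArg Subtype.val (Subgroup.mem_center_iff.1 c.2 ⟨q, hq⟩)
  have hc6 := (Three.fix_cases (order_pi J h3 (by norm_num) hc')).resolve_left fun h => by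
    have hinj : Function.Injective (J.π.comp (P₀ : Subgroup (joint z s)).subtype) := by
      rw [← MonoidHom.ker_eq_bot_iff, Subgroup.eq_bot_iff_forall]
      intro q hq
      obtain ⟨m, hm⟩ := J.ker ⟨(q : joint z s), MonoidHom.mem_ker.1 hq⟩
      obtain ⟨k, hk⟩ := P₀.isPGroup' q
      exact orderOf_eq_one_iff.1 (Nat.eq_one_of_dvd_coprimes
        (Nat.Coprime.pow m k (by norm_num : Nat.Coprime 2 3))
        (orderOf_dvd_of_pow_eq_one (Subtype.ext (by simpa using congrArg Subtype.val hm)))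
        (orderOf_dvd_of_pow_eq_one hk))
    refine Three.not_centralized h _
      ((Nat.card_congr (MonoidHom.ofInjective hinj).toEquiv).symm.trans (hcard P₀)) ?_
    rintro _ ⟨q, rfl⟩
    show J.π (q : joint z s) * J.π c' = J.π c' * J.π (q : joint z s)
    rw [← map_mul, ← map_mul, hcc q q.2]
  have hx6 := (Three.fix_cases (order_pi J h3 (by norm_num) hx)).resolve_left hne
  obtain ⟨τ, hτ⟩ := Three.conj_six (order_pi J h3 (by norm_num) hc') (order_pi J h3 (by norm_num) hx) hc6 hx6
  obtain ⟨l, rfl⟩ := J.surj τ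
  rw [← map_inv, ← map_mul, ← map_mul] at hτ
  obtain ⟨k, -, hk⟩ := conj_of_map_eq J.π J.ker h3 (by norm_num)
    (x := l * c' * l⁻¹) (y := x) (p := 3)
    (by rw [conj_pow, ← hc', pow_orderOf_eq_one, mul_one, mul_inv_cancel])
    (by rw [← hx, pow_orderOf_eq_one]) hτ
  refine ⟨_, ⟨(k⁻¹ * l) • P₀, rfl⟩, hcard _, ⟨c', (c : ↥(P₀ : Subgroup (joint z s))).2, ?_⟩, ?_⟩
  · show k⁻¹ * l * c' * (k⁻¹ * l)⁻¹ = x
    rw [← hk]; group
  · rintro _ ⟨q, hq, rfl⟩
    show k⁻¹ * l * q * (k⁻¹ * l)⁻¹ * x = x * (k⁻¹ * l * q * (k⁻¹ * l)⁻¹)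
    rw [← hk]
    calc k⁻¹ * l * q * (k⁻¹ * l)⁻¹ * (k⁻¹ * (l * c' * l⁻¹) * k) = k⁻¹ * l * (q * c') * l⁻¹ * k := by group
      _ = k⁻¹ * l * (c' * q) * l⁻¹ * k := by rw [hcc q hq]
      _ = _ := by group

theorem not_centralized (J : JointData S s) {x : joint z s} (hx : ∃ τ : M24, τ * J.π x * τ⁻¹ = Three.r)
    {P : Subgroup (joint z s)} (hP : Nat.card P = 27) (hc : ∀ q ∈ P, q * x = x * q) : False := by
  have hinj : Function.Injective (J.π.comp P.subtype) := by
    rw [← MonoidHom.ker_eq_bot_iff, Subgroup.eq_bot_iff_forall]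
    intro q hq
    obtain ⟨m, hm⟩ := J.ker ⟨(q : joint z s), MonoidHom.mem_ker.1 hq⟩
    exact orderOf_eq_one_iff.1 (Nat.eq_one_of_dvd_coprimes
      (Nat.Coprime.pow m 3 (by norm_num : Nat.Coprime 2 3))
      (orderOf_dvd_of_pow_eq_one (Subtype.ext (by simpa using congrArg Subtype.val hm)))
      (show orderOf q ∣ 3 ^ 3 from (orderOf_dvd_natCard q).trans (by rw [hP])))
  refine Three.not_centralized hx _ ((Nat.card_congr (MonoidHom.ofInjective hinj).toEquiv).symm.trans hP) ?_
  rintro _ ⟨q, rfl⟩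
  show J.π (q : joint z s) * J.π x = J.π x * J.π (q : joint z s)
  rw [← map_mul, ← map_mul, hc q q.2]

end

theorem thompson {G : Type*} [Group G] [Finite G] {z : G} {Q : Subgroup (Subgroup.centralizer ({z} : Set G))} [Q.Normal]
    (hM : Cfsg.IsOfMonsterType z Q) {s : G}
    (hsQ : ∃ hsc : s ∈ Subgroup.centralizer ({z} : Set G), (⟨s, hsc⟩ : Subgroup.centralizer ({z} : Set G)) ∈ Q)
    (hs : IsConj z s) (hs1 : s ≠ z) {Y : Subgroup G} (hY : Y ≤ joint z s) (hY3 : Nat.card Y = 3)
    (hnc : ∀ P : Sylow 3 (joint z s), ¬ Y.subgroupOf (joint z s) ≤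
      (Subgroup.center ↥(P : Subgroup (joint z s))).map (P : Subgroup (joint z s)).subtype)
    [hn : (Y.subgroupOf (Subgroup.centralizer (Y : Set G))).Normal] :
    Cfsg.IsOfThompsonType (↥(Subgroup.centralizer (Y : Set G)) ⧸ Y.subgroupOf (Subgroup.centralizer (Y : Set G))) := by
  have h3 : Nat.Prime 3 := Nat.prime_three
  haveI : Fact (Nat.Prime 3) := ⟨h3⟩
  obtain ⟨e, ψ, S⟩ := Monster.exists_msetting hM
  obtain ⟨hsc, hsq⟩ := hsQ
  have hsA : s ∈ amb Q := ⟨_, hsq, rfl⟩
  obtain ⟨J⟩ := jointData S hsA hs hs1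
  obtain ⟨b, hb, rfl, τ, hτ⟩ := exists_generator J h3 (by norm_num) hY hY3 Three.r (fun x hxY hx => by
    by_contra hne
    simp only [not_exists, not_or] at hne
    obtain ⟨_, ⟨P, rfl⟩, -, hxP, hcomm⟩ := exists_sylow_central J hx fun ⟨τ, h⟩ => (hne τ).1 h
    refine hnc P fun u hu => ?_
    have hYx : Subgroup.zpowers (x : G) = Y := Subgroup.eq_of_le_of_card_ge (Subgroup.zpowers_le.2 hxY)
      (by rw [hY3, Nat.card_zpowers, Subgroup.orderOf_coe, hx])
    obtain ⟨i, hi⟩ := Subgroup.mem_zpowers_iff.1 (hYx.symm ▸ Subgroup.mem_subgroupOf.1 hu)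
    obtain rfl : x ^ i = u := Subtype.ext (by rw [SubgroupClass.coe_zpow, hi])
    refine Subgroup.zpow_mem _ (Subgroup.mem_map.2 ⟨(⟨x, hxP⟩ : ↥(P : Subgroup (joint z s))),
      Subgroup.mem_center_iff.2 (fun q : ↥(P : Subgroup (joint z s)) => Subtype.ext (hcomm q q.2)), rfl⟩) i)
  have hb3 : b ^ 3 = 1 := hb ▸ pow_orderOf_eq_one b
  obtain ⟨e', ψ', S', hm⟩ := exists_hyp_setting S J h3 (by norm_num) b hb3 Three.r τ hτ
  obtain ⟨X, hX, ⟨L⟩⟩ := Three.exists_cent
  let P : Hyp S' Three.g Three.data.k (alternatingGroup (Fin 9)) :=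
    { X := X, L := L, b := (b : G), hbC := (toC z s b).2, p := 3, hp := h3, hodd := by norm_num
      hb := by rw [Subgroup.orderOf_coe, hb]
      hg := Data.order_g Three.check_perm
      hm := hm
      hK := alt_nine_core }
  haveI : (P.B.subgroupOf P.CB).Normal := hn
  haveI := P.R_normal
  obtain ⟨x, hx, hxs⟩ := fusion S hsA hs hs1 J h3 (by norm_num) b hb3 fun r hrz hrs hy => by
    have hzs : z * s = s * z := (S.ci.comm s hsA).symm
    have hoy : orderOf (⟨_, hy⟩ : joint z s) = 3 := by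
      rw [Subgroup.orderOf_mk, ← hb, ← Subgroup.orderOf_coe b]
      exact orderOf_injective (MulAut.conj r).toMonoidHom (MulAut.conj r).injective (b : G)
    by_cases hr : ∃ τ' : M24, τ' * J.π ⟨_, hy⟩ * τ'⁻¹ = Three.r
    · obtain ⟨τ', hτ'⟩ := hr
      exact ⟨τ'⁻¹ * τ, Or.inl (by
        calc J.π ⟨_, hy⟩ = τ'⁻¹ * (τ' * J.π ⟨_, hy⟩ * τ'⁻¹) * τ' := by group
          _ = _ := by rw [hτ', ← hτ]; group)⟩
    · obtain ⟨P', -, hP', -, hcomm⟩ := exists_sylow_central J hoy hr
      let f : joint z s →* joint z s :=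
        ((MulAut.conj r).toMonoidHom.comp (joint z s).subtype).codRestrict _ fun l =>
          conj_mem_joint hzs S.ci.sq hrz hrs l.2
      have hf : Function.Injective f := fun u v h => Subtype.ext
        ((MulAut.conj r).injective (congrArg Subtype.val h : r * (u : G) * r⁻¹ = r * (v : G) * r⁻¹))
      refine (not_centralized J ⟨τ, hτ⟩ (P := P'.comap f) ?_ fun q hq => hf ?_).elim
      · rw [← hP', ← Subgroup.card_map_of_injective hf,
          Subgroup.map_comap_eq_self_of_surjective ((Finite.injective_iff_surjective).1 hf)]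
      · rw [map_mul, map_mul, show f b = ⟨_, hy⟩ from rfl]
        exact hcomm _ hq
  refine ⟨P.zb, P.R, P.R_normal,
    P.setting_R (w := 4) rfl (by norm_num) ⟨x, P.mem_CB.2 hx, by rw [hxs]; exact
      ⟨⟨hsA, Subgroup.mem_centralizer_singleton_iff.2 (mem_joint.1 b.2).2.symm⟩, hs1⟩⟩,
    P.quotient_R⟩

/-- Let G be a finite group of Monster type at the involution z with Q the extraspecial normal subgroup of order 2^25 of C = C_G(z) (so C/Q is identified with the first Conway group with Q modulo its centre the Leech lattice modulo 2, and z is not weakly closed in Q). Let s be a conjugate of z in Q other than z and let Y be a subgroup of order 3 of the joint centralizer L of z and s that is not 3-central in L (Y lies in the centre of no Sylow 3-subgroup of L). Then the centralizer of Y modulo Y is a group of Thompson type (an involution whose centralizer D has generalized Fitting subgroup R extraspecial of order 2^9 with D/R the alternating group of degree 9, the involution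 not weakly closed in R). -/
theorem result {G : Type*} [Group G] [Finite G] (z : G) (Q : Subgroup (Subgroup.centralizer ({z} : Set G))) [Q.Normal] (hM : Cfsg.IsOfMonsterType z Q) (s : G) (hsQ : ∃ hsc : s ∈ Subgroup.centralizer ({z} : Set G), (⟨s, hsc⟩ : Subgroup.centralizer ({z} : Set G)) ∈ Q) (hs : IsConj z s) (hs1 : s ≠ z) (Y : Subgroup G) (hY : Y ≤ Subgroup.centralizer ({z, s} : Set G)) (hY3 : Nat.card Y = 3) (hnc : ∀ P : Sylow 3 ↥(Subgroup.centralizer ({z, s} : Set G)), ¬ Y.subgroupOf (Subgroup.centralizer ({z, s} : Set G)) ≤ (Subgroup.center ↥(P : Subgroup ↥(Subgroup.centralizer ({z, s} : Set G)))).map (P : Subgroup ↥(Subgroup.centralizer ({z, s} : Set G))).subtype) [hn : (Y.subgroupOf (Subgroup.centralizer (Y : Set G))).Normal] : Cfsg.IsOfThompsonType (↥(Subgroup.centralizer (Y : Set G)) ⧸ Y.subgroupOf (Subgroup.centralizer (Y : Set G))) := by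
  exact thompson hM hsQ hs hs1 hY hY3 hnc

end Cfsg.Agent.S5414
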