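import Cfsg.Statements.S5415
import Cfsg.Agent.MonsterCent.ThreeSix
-- import your own Cfsg.Agent.* helpers here

set_option autoImplicit false
open Cfsg

namespace Cfsg.Agent.S5415

open Cfsg.Agent.Monster Cfsg.Agent.MonsterCent
open Cfsg.Agent.LargeFischer (Kc Ke scal Kc_le_Ke index_Kc scal_mem orderOf_scal exists_Kc_quot no_two_normal)

theorem fischer {G : Type*} [Group G] [Finite G] {z : G} {Q : Subgroup (Subgroup.centralizer ({z} : Set G))} [Q.Normal]
    (hM : Cfsg.IsOfMonsterType z Q) {s : G}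
    (hsQ : ∃ hsc : s ∈ Subgroup.centralizer ({z} : Set G), (⟨s, hsc⟩ : Subgroup.centralizer ({z} : Set G)) ∈ Q)
    (hs : IsConj z s) (hs1 : s ≠ z) {Y : Subgroup G} (hY : Y ≤ Subgroup.centralizer ({z, s} : Set G))
    (hY3 : Nat.card Y = 3)
    (hc : ∃ P : Sylow 3 ↥(Subgroup.centralizer ({z, s} : Set G)), Y.subgroupOf (Subgroup.centralizer ({z, s} : Set G)) ≤ (Subgroup.center ↥(P : Subgroup ↥(Subgroup.centralizer ({z, s} : Set G)))).map (P : Subgroup ↥(Subgroup.centralizer ({z, s} : Set G))).subtype)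
    [hn : (Y.subgroupOf (Subgroup.centralizer (Y : Set G))).Normal] :
    Cfsg.IsOfLargeFischerType (↥(Subgroup.centralizer (Y : Set G)) ⧸ Y.subgroupOf (Subgroup.centralizer (Y : Set G))) := by
  have h3 : Nat.Prime 3 := Nat.prime_three
  haveI : Fact (Nat.Prime 3) := ⟨h3⟩
  haveI : Fintype (GaloisField 3 2) := Fintype.ofFinite _
  have hF9 : Fintype.card (GaloisField 3 2) = 9 := by
    rw [← Nat.card_eq_fintype_card, GaloisField.card 3 2 (by norm_num)]
    norm_num
  obtain ⟨e, ψ, S⟩ := Monster.exists_msetting hM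
  obtain ⟨hsc, hsq⟩ := hsQ
  have hsA : s ∈ amb Q := ⟨_, hsq, rfl⟩
  obtain ⟨J⟩ := jointData S hsA hs hs1
  obtain ⟨Pc, hPc⟩ := hc
  have hP27 : Nat.card (Pc : Subgroup (joint z s)) = 27 := by
    have h := Pc.card_eq_multiplicity
    rw [factorization_joint J h3 (by norm_num), Golay.card_M24,
      show (244823040 : ℕ) = 3 ^ 3 * 9067520 by norm_num, Nat.factorization_mul (by norm_num) (by norm_num),
      Nat.Prime.factorization_pow h3, Finsupp.add_apply, Finsupp.single_eq_same,
      Nat.factorization_eq_zero_of_not_dvd (by norm_num : ¬ 3 ∣ 9067520)] at h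
    exact h.trans (by norm_num)
  have classOf : ∀ (x : joint z s) (R : Subgroup (joint z s)), orderOf x = 3 → Nat.card R = 27 →
      (∀ p ∈ R, p * x = x * p) → ∃ τ : M24, τ * J.π x * τ⁻¹ = ThreeSix.r := by
    intro x R hx hR hcomm
    refine ThreeSix.classes (order_pi J h3 (by norm_num) hx) (P := R.map J.π) ?_ ?_
    · rw [← hR]
      refine (Nat.card_congr (Equiv.ofBijective
        (fun p : R => (⟨J.π p, Subgroup.mem_map_of_mem _ p.2⟩ : R.map J.π)) ⟨fun a b hab => ?_, ?_⟩)).symm
      · refine Subtype.ext (inv_mul_eq_one.1 ?_)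
        have hk : (a : joint z s)⁻¹ * b ∈ J.π.ker := by
          rw [MonoidHom.mem_ker, map_mul, map_inv,
            show J.π a = J.π b from congrArg Subtype.val hab, inv_mul_cancel]
        obtain ⟨n, hn⟩ := J.ker ⟨_, hk⟩
        exact orderOf_eq_one_iff.1 (Nat.eq_one_of_dvd_coprimes
          (Nat.Coprime.pow_left n (by norm_num : Nat.Coprime 2 27))
          (orderOf_dvd_of_pow_eq_one (congrArg Subtype.val hn))
          ((Subgroup.orderOf_dvd_natCard R (mul_mem (inv_mem a.2) b.2)).trans (dvd_of_eq hR)))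
      · rintro ⟨_, p, hp, rfl⟩
        exact ⟨⟨p, hp⟩, rfl⟩
    · rintro _ ⟨p, hp, rfl⟩
      rw [← map_mul, ← map_mul, hcomm p hp]
  have hcentral : ∀ x : joint z s, (x : G) ∈ Y → ∀ p ∈ (Pc : Subgroup (joint z s)), p * x = x * p := by
    intro x hx p hp
    obtain ⟨c, hcc, rfl⟩ := hPc (Subgroup.mem_subgroupOf.2 hx)
    exact congrArg Subtype.val (Subgroup.mem_center_iff.1 hcc ⟨p, hp⟩)
  obtain ⟨b, hb, rfl, τ, hτ⟩ := exists_generator J h3 (by norm_num) hY hY3 ThreeSix.r
    (fun x hxY hx => (classOf x _ hx hP27 (hcentral x hxY)).imp fun _ h => Or.inl h)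
  have hb3 : b ^ 3 = 1 := hb ▸ pow_orderOf_eq_one b
  obtain ⟨e', ψ', S', hm⟩ := exists_hyp_setting S J h3 (by norm_num) b hb3 ThreeSix.r τ hτ
  obtain ⟨X, -, ⟨L⟩⟩ := ThreeSix.exists_cent
  let P : Hyp S' ThreeSix.g ThreeSix.data.k Ke :=
    { X := X, L := L, b := (b : G), hbC := (toC z s b).2, p := 3, hp := h3, hodd := by norm_num
      hb := by rw [Subgroup.orderOf_coe, hb]
      hg := Data.order_g ThreeSix.check_perm
      hm := hm
      hK := no_two_normal hF9 }
  haveI : (P.B.subgroupOf P.CB).Normal := hn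
  haveI := P.R_normal
  have hbP := hcentral b (Subgroup.mem_zpowers (b : G))
  obtain ⟨x, hx, hxs⟩ := fusion S hsA hs hs1 J h3 (by norm_num) b hb3 fun r hrz hrs hy => by
    let φ : joint z s →* joint z s := MonoidHom.codRestrict
      ((MulAut.conj r).toMonoidHom.comp (joint z s).subtype) (joint z s)
      fun x => conj_mem_joint (S.ci.comm s hsA).symm S.ci.sq hrz hrs x.2
    have hφ : Function.Injective φ := fun a c h => Subtype.ext
      ((MulAut.conj r).injective (congrArg Subtype.val h))
    have hyb : (⟨_, hy⟩ : joint z s) = φ b := Subtype.ext rfl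
    obtain ⟨τ', hτ'⟩ := classOf (φ b) ((Pc : Subgroup (joint z s)).map φ)
      (by rw [orderOf_injective φ hφ, hb]) (by rw [Subgroup.card_map_of_injective hφ, hP27]) (by
        rintro _ ⟨p, hp, rfl⟩
        rw [← map_mul, ← map_mul, hbP p hp])
    refine ⟨τ'⁻¹ * τ, Or.inl ?_⟩
    rw [hyb, show τ'⁻¹ * τ * J.π b * (τ'⁻¹ * τ)⁻¹ = τ'⁻¹ * (τ * J.π b * τ⁻¹) * τ' by group, hτ, ← hτ']
    group
  have hsB : s ∈ P.Ab := ⟨hsA, Subgroup.mem_centralizer_singleton_iff.2 (mem_joint.1 b.2).2.symm⟩
  have hset := P.setting_R (w := 6) rfl (by norm_num)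
    ⟨x, P.mem_CB.2 hx, by rw [hxs]; exact ⟨hsB, hs1⟩⟩
  let N := ((Subgroup.zpowers scal).subgroupOf Ke).comap P.rho
  let M := (Kc.subgroupOf Ke).comap P.rho
  haveI hNn : N.Normal := LargeFischer.scalN_normal.comap _
  haveI hMn : M.Normal := (Subgroup.normal_of_index_eq_two index_Kc).comap _
  refine ⟨P.zb, P.R, P.R_normal, hset, N, M, hNn, hMn, ?_, ?_, ?_, ?_, ?_⟩
  · rw [← P.rho_ker]
    exact Subgroup.ker_le_comap P.rho _
  · exact Subgroup.comap_mono fun y hy =>
      (Subgroup.zpowers_le.2 scal_mem : Subgroup.zpowers scal ≤ Kc) hy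
  · have h1 := Subgroup.card_mul_index N
    have h2 := Subgroup.card_mul_index P.rho.ker
    have h4 := Subgroup.card_mul_index ((Subgroup.zpowers scal).subgroupOf Ke)
    rw [Subgroup.index_comap_of_surjective _ P.rho_surjective] at h1
    rw [Subgroup.index_ker, MonoidHom.range_eq_top.2 P.rho_surjective,
      Nat.card_congr Subgroup.topEquiv.toEquiv, ← h4, P.rho_ker,
      Nat.card_congr (Subgroup.subgroupOfEquivOfLe
        ((Subgroup.zpowers_le.2 scal_mem).trans Kc_le_Ke)).toEquiv, Nat.card_zpowers, orderOf_scal,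
      ← h1, ← mul_assoc, mul_comm _ 3] at h2
    exact (Nat.eq_of_mul_eq_mul_right (Nat.pos_of_ne_zero Subgroup.index_ne_zero_of_finite) h2).symm
  · refine ⟨GaloisField 3 2, inferInstance, inferInstance, hF9, ?_⟩
    obtain ⟨f, hf, hker⟩ := exists_Kc_quot hF9
    let θ : M →* Kc :=
      (Subgroup.subgroupOfEquivOfLe Kc_le_Ke).toMonoidHom.comp (P.rho.subgroupComap (Kc.subgroupOf Ke))
    have hθ : Function.Surjective θ := fun k => by
      obtain ⟨y, hy⟩ := P.rho_surjective ⟨k, Kc_le_Ke k.2⟩
      refine ⟨⟨y, ?_⟩, Subtype.ext ?_⟩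
      · show P.rho y ∈ Kc.subgroupOf Ke
        rw [hy]
        exact k.2
      · show ((P.rho y : Ke) : Equiv.Perm Cfsg.Agent.SporB.FischerU.Vec) = k
        rw [hy]
    have hk : (f.comp θ).ker = N.subgroupOf M := by
      ext m
      rw [MonoidHom.mem_ker, MonoidHom.comp_apply, hker]
      rfl
    exact ⟨(QuotientGroup.quotientMulEquivOfEq hk.symm).trans
      (QuotientGroup.quotientKerEquivOfSurjective (f.comp θ) (hf.comp hθ))⟩
  · rw [Subgroup.index_comap_of_surjective _ P.rho_surjective, index_Kc]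

/-- Let G be a finite group of Monster type at the involution z with Q the extraspecial normal subgroup of order 2^25 of C = C_G(z) (so C/Q is identified with the first Conway group with Q modulo its centre the Leech lattice modulo 2, and z is not weakly closed in Q). Let s be a conjugate of z in Q other than z and let Y be a subgroup of order 3 of the joint centralizer L of z and s that is 3-central in L (Y lies in the centre of some Sylow 3-subgroup of L). Then the centralizer of Y modulo Y is a group of large Fischer type (an involution whose centralizer D has generalized Fitting subgroup R extraspecial of order 2^13 and normal subgroups R ≤ N ≤ M with N/R of order 3, M/N the projective special unitary group of dimension 4 over the field with nine elements and M of index 2 in D; the involution not weakly closed in R). -/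
theorem result {G : Type*} [Group G] [Finite G] (z : G) (Q : Subgroup (Subgroup.centralizer ({z} : Set G))) [Q.Normal] (hM : Cfsg.IsOfMonsterType z Q) (s : G) (hsQ : ∃ hsc : s ∈ Subgroup.centralizer ({z} : Set G), (⟨s, hsc⟩ : Subgroup.centralizer ({z} : Set G)) ∈ Q) (hs : IsConj z s) (hs1 : s ≠ z) (Y : Subgroup G) (hY : Y ≤ Subgroup.centralizer ({z, s} : Set G)) (hY3 : Nat.card Y = 3) (hc : ∃ P : Sylow 3 ↥(Subgroup.centralizer ({z, s} : Set G)), Y.subgroupOf (Subgroup.centralizer ({z, s} : Set G)) ≤ (Subgroup.center ↥(P : Subgroup ↥(Subgroup.centralizer ({z, s} : Set G)))).map (P : Subgroup ↥(Subgroup.centralizer ({z, s} : Set G))).subtype) [hn : (Y.subgroupOf (Subgroup.centralizer (Y : Set G))).Normal] : Cfsg.IsOfLargeFischerType (↥(Subgroup.centralizer (Y : Set G)) ⧸ Y.subgroupOf (Subgroup.centralizer (Y : Set G))) := by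
  exact fischer hM hsQ hs hs1 hY hY3 hc

end Cfsg.Agent.S5415
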