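import Cfsg.Statements.S5416
import Cfsg.Agent.MonsterCent.Seven
import Cfsg.Agent.MonsterCent.Targets

set_option autoImplicit false
open Cfsg

namespace Cfsg.Agent.S5416

open Cfsg.Agent.Monster Cfsg.Agent.MonsterCent

theorem held {G : Type*} [Group G] [Finite G] {z : G} {Q : Subgroup (Subgroup.centralizer ({z} : Set G))} [Q.Normal]
    (hM : Cfsg.IsOfMonsterType z Q) {s : G}
    (hsQ : ∃ hsc : s ∈ Subgroup.centralizer ({z} : Set G), (⟨s, hsc⟩ : Subgroup.centralizer ({z} : Set G)) ∈ Q)
    (hs : IsConj z s) (hs1 : s ≠ z) {B : Subgroup G} (hB : B ≤ Subgroup.centralizer ({z, s} : Set G))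
    (hBp : Nat.card B = 7 ^ (Nat.card ↥(Subgroup.centralizer ({z, s} : Set G))).factorization 7)
    [hn : (B.subgroupOf (Subgroup.centralizer (B : Set G))).Normal] :
    Cfsg.IsOfHeldType (↥(Subgroup.centralizer (B : Set G)) ⧸ B.subgroupOf (Subgroup.centralizer (B : Set G))) := by
  have h7 : Nat.Prime 7 := by norm_num
  haveI : Fact (Nat.Prime 7) := ⟨h7⟩
  obtain ⟨e, ψ, S⟩ := Monster.exists_msetting hM
  obtain ⟨hsc, hsq⟩ := hsQ
  have hsA : s ∈ amb Q := ⟨_, hsq, rfl⟩
  obtain ⟨J⟩ := jointData S hsA hs hs1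
  rw [factorization_joint J h7 (by norm_num), Seven.factorization_seven, pow_one] at hBp
  obtain ⟨b, hb, rfl, τ, hτ⟩ := exists_generator J h7 (by norm_num) hB hBp Seven.r
    (fun x _ hx => Seven.classes (order_pi J h7 (by norm_num) hx))
  have hb7 : b ^ 7 = 1 := hb ▸ pow_orderOf_eq_one b
  obtain ⟨e', ψ', S', hm⟩ := exists_hyp_setting S J h7 (by norm_num) b hb7 Seven.r τ hτ
  obtain ⟨X, hX, ⟨L⟩⟩ := Seven.exists_cent
  let P : Hyp S' Seven.g Seven.data.k (Matrix.SpecialLinearGroup (Fin 3) (ZMod 2)) :=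
    { X := X, L := L, b := (b : G), hbC := (toC z s b).2, p := 7, hp := h7, hodd := by norm_num
      hb := by rw [Subgroup.orderOf_coe, hb]
      hg := Data.order_g Seven.check_perm
      hm := hm
      hK := sl32_core }
  haveI : (P.B.subgroupOf P.CB).Normal := hn
  haveI := P.R_normal
  have hfus : ∀ a ∈ P.Ab, a ≠ z → IsConj z a → ∃ x ∈ P.CB, x * z * x⁻¹ = a := by
    intro a ha haz hac
    obtain ⟨Ja⟩ := jointData S' ha.1 hac haz
    have hbj : P.b ∈ joint z a := mem_joint.2
      ⟨Subgroup.mem_centralizer_singleton_iff.1 P.hbC, (Subgroup.mem_centralizer_singleton_iff.1 ha.2).symm⟩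
    have hob : orderOf (⟨P.b, hbj⟩ : joint z a) = 7 := by rw [Subgroup.orderOf_mk]; exact P.hb
    obtain ⟨x, hx, hxa⟩ := fusion S' ha.1 hac haz Ja h7 (by norm_num) ⟨P.b, hbj⟩
      (Subtype.ext P.pow_p) (fun r _ _ hy => fuse_of_classes Ja h7 (by norm_num) Seven.r
        (fun x hx => Seven.classes hx) _ _ hob (by
          rw [Subgroup.orderOf_mk, ← hob, Subgroup.orderOf_mk]
          exact orderOf_injective (MulAut.conj r).toMonoidHom (MulAut.conj r).injective P.b))
    exact ⟨x, P.mem_CB.2 hx, hxa⟩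
  obtain ⟨x, hx, hxs⟩ := hfus s ⟨hsA, Subgroup.mem_centralizer_singleton_iff.2 (mem_joint.1 b.2).2.symm⟩ hs1 hs
  refine ⟨P.zb, P.R, P.R_normal,
    P.setting_R (w := 3) rfl (by norm_num) ⟨x, hx, by rw [hxs]; exact
      ⟨⟨hsA, Subgroup.mem_centralizer_singleton_iff.2 (mem_joint.1 b.2).2.symm⟩, hs1⟩⟩,
    P.quotient_R, ?_⟩
  exact (P.count_R hfus Seven.data.types (Data.mem_types hX Seven.check_reps)).trans
    (by rw [Data.card_types Seven.count_types])

/-- Let G be a finite group of Monster type at the involution z with Q the extraspecial normal subgroup of order 2^25 of C = C_G(z) (so C/Q is identified with the first Conway group with Q modulo its centre the Leech lattice modulo 2, and z is not weakly closed in Q). Let s be a conjugate of z in Q other than z and let B be a Sylow 7-subgroup of the joint centralizer of z and s. Then the centralizer of B modulo B is a group of Held type (an involution whose centralizer D has generalized Fitting subgroup R extraspecial of order 2^7 with D/R isomorphic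 to SL(3, 2), exactly 29 of its conjugates lying in R, and the involution not weakly closed in R). -/
theorem result {G : Type*} [Group G] [Finite G] (z : G) (Q : Subgroup (Subgroup.centralizer ({z} : Set G))) [Q.Normal] (hM : Cfsg.IsOfMonsterType z Q) (s : G) (hsQ : ∃ hsc : s ∈ Subgroup.centralizer ({z} : Set G), (⟨s, hsc⟩ : Subgroup.centralizer ({z} : Set G)) ∈ Q) (hs : IsConj z s) (hs1 : s ≠ z) (B : Subgroup G) (hB : B ≤ Subgroup.centralizer ({z, s} : Set G)) (hBp : Nat.card B = 7 ^ (Nat.card ↥(Subgroup.centralizer ({z, s} : Set G))).factorization 7) [hn : (B.subgroupOf (Subgroup.centralizer (B : Set G))).Normal] : Cfsg.IsOfHeldType (↥(Subgroup.centralizer (B : Set G)) ⧸ B.subgroupOf (Subgroup.centralizer (B : Set G))) := by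
  exact held hM hsQ hs hs1 hB hBp

end Cfsg.Agent.S5416
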