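import Cfsg.Statements.S5418
import Cfsg.Agent.MonsterCent.SevenLayer
import Cfsg.Agent.Components.Basic

set_option autoImplicit false
open Cfsg

namespace Cfsg.Agent.S5418

open Cfsg.Agent.Monster Cfsg.Agent.MonsterCent

/-- The automiser of a group of prime order 7 containing inversion and a further generator is everything. -/
theorem relIndex_six {G : Type*} [Group G] [Finite G] {b : G} (hb : orderOf b = 7) {t l : G}
    (ht : t * b * t⁻¹ = b⁻¹) (hl : l * b * l⁻¹ = b ^ 2 ∨ l * b * l⁻¹ = b ^ 5) :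
    (Subgroup.centralizer (Subgroup.zpowers b : Set G)).relIndex
      (Subgroup.normalizer (Subgroup.zpowers b : Set G)) = 6 := by
  set B := Subgroup.zpowers b
  let f : ↥(Subgroup.normalizer (B : Set G)) →* MulAut B := Subgroup.normalizerMonoidHom B
  have hmem : ∀ {n : G} {j : ℕ}, n * b * n⁻¹ = b ^ j → n ∈ Subgroup.normalizer (B : Set G) := by
    intro n j hn
    refine Subgroup.mem_normalizer_fintype fun x hx => ?_
    obtain ⟨i, rfl⟩ := Subgroup.mem_zpowers_iff.1 hx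
    exact ⟨(j : ℤ) * i, by show b ^ _ = _; rw [zpow_mul, zpow_natCast, ← hn, conj_zpow]⟩
  let A : ℕ → Prop := fun j => ∃ n : G, n * b * n⁻¹ = b ^ j
  have hmul : ∀ i j, A i → A j → A (i * j) := by
    rintro i j ⟨n, hn⟩ ⟨m, hm⟩
    refine ⟨m * n, ?_⟩
    calc m * n * b * (m * n)⁻¹ = m * (n * b * n⁻¹) * m⁻¹ := by group
      _ = (m * b * m⁻¹) ^ i := by rw [hn, conj_pow]
      _ = _ := by rw [hm, ← pow_mul, mul_comm]
  have hmod : ∀ i j, A i → i % 7 = j % 7 → A j := by
    rintro i j ⟨n, hn⟩ h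
    exact ⟨n, hn.trans (pow_inj_mod.2 (by rw [hb]; exact h))⟩
  have h6 : A 6 := ⟨t, by
    rw [ht]
    refine inv_eq_of_mul_eq_one_right ?_
    have h := pow_orderOf_eq_one b
    rw [hb, pow_succ'] at h
    exact h⟩
  have h1 : A 1 := ⟨1, by simp⟩
  have h25 : A 2 ∧ A 5 := by
    rcases hl with h | h
    · exact ⟨⟨l, h⟩, hmod _ _ (hmul _ _ h6 ⟨l, h⟩) rfl⟩
    · exact ⟨hmod _ _ (hmul _ _ h6 ⟨l, h⟩) rfl, ⟨l, h⟩⟩
  have hall : ∀ j, j % 7 ≠ 0 → A j := by
    intro j hj
    have h4 := hmul _ _ h25.1 h25.1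
    have h3 := hmul _ _ h6 h4
    have : j % 7 = 1 ∨ j % 7 = 2 ∨ j % 7 = 3 ∨ j % 7 = 4 ∨ j % 7 = 5 ∨ j % 7 = 6 := by omega
    rcases this with h | h | h | h | h | h
    · exact hmod _ _ h1 h.symm
    · exact hmod _ _ h25.1 h.symm
    · exact hmod _ _ h3 h.symm
    · exact hmod _ _ h4 h.symm
    · exact hmod _ _ h25.2 h.symm
    · exact hmod _ _ h6 h.symm
  have hbB : b ∈ B := Subgroup.mem_zpowers b
  have hsurj : Function.Surjective f := by
    intro φ
    obtain ⟨j, hj⟩ := mem_powers_iff_mem_zpowers.2 (φ ⟨b, hbB⟩).2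
    have hj0 : j % 7 ≠ 0 := by
      intro h0
      have e : φ ⟨b, hbB⟩ = 1 := Subtype.ext (by
        rw [← hj]
        show b ^ j = 1
        rw [← pow_mod_orderOf, hb, h0, pow_zero])
      rw [φ.map_eq_one_iff] at e
      have := congrArg (fun x : B => (x : G)) e
      simp only [OneMemClass.coe_one] at this
      rw [this, orderOf_one] at hb
      norm_num at hb
    obtain ⟨n, hn⟩ := hall j hj0
    refine ⟨⟨n, hmem hn⟩, MulEquiv.ext fun y => ?_⟩
    obtain ⟨i, hi⟩ := Subgroup.mem_zpowers_iff.1 y.2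
    have hy : y = (⟨b, hbB⟩ : B) ^ i := Subtype.ext (by rw [SubgroupClass.coe_zpow]; exact hi.symm)
    rw [hy, map_zpow, map_zpow]
    congr 1
    exact Subtype.ext (hn.trans hj)
  have hker : f.ker = (Subgroup.centralizer (B : Set G)).subgroupOf (Subgroup.normalizer (B : Set G)) :=
    Subgroup.normalizerMonoidHom_ker B
  rw [Subgroup.relIndex, ← hker, Subgroup.index_ker, MonoidHom.range_eq_top.2 hsurj,
    Nat.card_congr Subgroup.topEquiv.toEquiv, IsCyclic.card_mulAut, Nat.card_zpowers, hb]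
  rfl

/-- An element normalising a subgroup normalises its layer. -/
theorem layer_conj {G : Type*} [Group G] (C : Subgroup G) {t : G} (ht : t ∈ Subgroup.normalizer (C : Set G))
    {x : G} (hx : x ∈ (Cfsg.layer ↥C).map C.subtype) : t * x * t⁻¹ ∈ (Cfsg.layer ↥C).map C.subtype := by
  obtain ⟨y, hy, rfl⟩ := hx
  let φ : ↥C ≃* ↥C :=
    { toFun := fun w => ⟨t * w * t⁻¹, (Subgroup.mem_normalizer_iff.1 ht _).1 w.2⟩
      invFun := fun w => ⟨t⁻¹ * w * t, by simpa using (Subgroup.mem_normalizer_iff.1 (inv_mem ht) _).1 w.2⟩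
      left_inv := fun w => Subtype.ext (by group)
      right_inv := fun w => Subtype.ext (by group)
      map_mul' := fun v w => Subtype.ext (by simp only [Subgroup.coe_mul]; group) }
  refine ⟨φ y, ?_, rfl⟩
  rw [← Components.layer_map_equiv φ]
  exact ⟨y, hy, rfl⟩

/-- Let G be a finite group of Monster type at the involution z with Q the extraspecial normal subgroup of order 2^25 of C = C_G(z) (so C/Q is identified with the first Conway group with Q modulo its centre the Leech lattice modulo 2, and z is not weakly closed in Q). Let s be a conjugate of z in Q other than z and let B be a Sylow 7-subgroup of the joint centralizer of z and s. Then the centralizer of B has index 6 in the normalizer of B; and some involution inverting B induces, by conjugation, a non-inner automorphism of the layer of the centralizer of B. -/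
theorem result {G : Type*} [Group G] [Finite G] (z : G) (Q : Subgroup (Subgroup.centralizer ({z} : Set G))) [Q.Normal] (hM : Cfsg.IsOfMonsterType z Q) (s : G) (hsQ : ∃ hsc : s ∈ Subgroup.centralizer ({z} : Set G), (⟨s, hsc⟩ : Subgroup.centralizer ({z} : Set G)) ∈ Q) (hs : IsConj z s) (hs1 : s ≠ z) (B : Subgroup G) (hB : B ≤ Subgroup.centralizer ({z, s} : Set G)) (hBp : Nat.card B = 7 ^ (Nat.card ↥(Subgroup.centralizer ({z, s} : Set G))).factorization 7) : (Subgroup.centralizer (B : Set G)).relIndex (Subgroup.normalizer (B : Set G)) = 6 ∧ ∃ t : G, orderOf t = 2 ∧ (∀ b ∈ B, t * b * t⁻¹ = b⁻¹) ∧ (∀ x ∈ (Cfsg.layer ↥(Subgroup.centralizer (B : Set G))).map (Subgroup.centralizer (B : Set G)).subtype, t * x * t⁻¹ ∈ (Cfsg.layer ↥(Subgroup.centralizer (B : Set G))).map (Subgroup.centralizer (B : Set G)).subtype) ∧ ¬ ∃ l ∈ (Cfsg.layer ↥(Subgroup.centralizer (B : Set G))).map (Subgroup.centralizer (B : Set G)).subtype, ∀ x ∈ (Cfsg.layer ↥(Subgroup.centralizer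 (B : Set G))).map (Subgroup.centralizer (B : Set G)).subtype, t * x * t⁻¹ = l * x * l⁻¹ := by
  have h7 : Nat.Prime 7 := by norm_num
  haveI : Fact (Nat.Prime 7) := ⟨h7⟩
  obtain ⟨e, ψ, S⟩ := Monster.exists_msetting hM
  obtain ⟨hsc, hsq⟩ := hsQ
  have hsA : s ∈ amb Q := ⟨_, hsq, rfl⟩
  obtain ⟨J⟩ := jointData S hsA hs hs1
  rw [factorization_joint J h7 (by norm_num), Seven.factorization_seven, pow_one] at hBp
  obtain ⟨b, hb, rfl, τ, hτ⟩ := exists_generator J h7 (by norm_num) hB hBp Seven.r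
    (fun x _ hx => Seven.classes (order_pi J h7 (by norm_num) hx))
  have hb7 : b ^ 7 = 1 := hb ▸ pow_orderOf_eq_one b
  obtain ⟨e', ψ', S', hm⟩ := exists_hyp_setting S J h7 (by norm_num) b hb7 Seven.r τ hτ
  obtain ⟨X, hX, ⟨L⟩⟩ := Seven.exists_cent
  let P : Hyp S' Seven.g Seven.data.k (Matrix.SpecialLinearGroup (Fin 3) (ZMod 2)) :=
    { X := X, L := L, b := (b : G), hbC := (toC z s b).2, p := 7, hp := h7, hodd := by norm_num
      hb := by rw [Subgroup.orderOf_coe, hb]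
      hg := Data.order_g Seven.check_perm
      hm := hm
      hK := sl32_core }
  haveI : (P.B.subgroupOf P.CB).Normal := ⟨fun y hy w => by
    have h1 : ((w * y * w⁻¹ : P.CB) : G) = (y : G) := by
      have h2 : (y : G) * (w : G) = (w : G) * (y : G) := Subgroup.mem_centralizer_iff.1 w.2 _ hy
      simp only [Subgroup.coe_mul, InvMemClass.coe_inv]
      rw [← h2, mul_inv_cancel_right]
    rw [Subgroup.mem_subgroupOf, h1]
    exact hy⟩
  have hfus : ∀ a ∈ P.Ab, a ≠ z → IsConj z a → ∃ x ∈ P.CB, x * z * x⁻¹ = a := by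
    intro a ha haz hac
    obtain ⟨Ja⟩ := jointData S' ha.1 hac haz
    have hbj : P.b ∈ joint z a := mem_joint.2
      ⟨Subgroup.mem_centralizer_singleton_iff.1 P.hbC, (Subgroup.mem_centralizer_singleton_iff.1 ha.2).symm⟩
    have hob : orderOf (⟨P.b, hbj⟩ : joint z a) = 7 := by rw [Subgroup.orderOf_mk]; exact P.hb
    obtain ⟨x, hx, hxa⟩ := fusion S' ha.1 hac haz Ja h7 (by norm_num) ⟨P.b, hbj⟩
      (Subtype.ext P.pow_p) (fun r _ _ hy => fuse_of_classes Ja h7 (by norm_num) Seven.r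
        (fun x hx => Seven.classes hx) _ _ hob (by
          rw [Subgroup.orderOf_mk, ← hob, Subgroup.orderOf_mk]
          exact orderOf_injective (MulAut.conj r).toMonoidHom (MulAut.conj r).injective P.b))
    exact ⟨x, P.mem_CB.2 hx, hxa⟩
  have hsAb : s ∈ P.Ab := ⟨hsA, Subgroup.mem_centralizer_singleton_iff.2 (mem_joint.1 b.2).2.symm⟩
  have hAbL := Seven.Ab_le_layer P hX rfl hsAb hs1 hs hfus
  obtain ⟨t, ht2, htb⟩ := Seven.exists_inverting S' (b := toC z s b) (by rw [← map_pow, hb7, map_one]) hm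
  have htb' : (t : G) * (b : G) * (t : G)⁻¹ = (b : G)⁻¹ := congrArg Subtype.val htb
  have hbG : orderOf (b : G) = 7 := by rw [Subgroup.orderOf_coe, hb]
  have hbne : (b : G) ≠ (b : G)⁻¹ := by
    intro h
    have h2 : orderOf (b : G) ∣ 2 := orderOf_dvd_of_pow_eq_one (by rw [pow_two]; nth_rewrite 2 [h]; rw [mul_inv_cancel])
    rw [hbG] at h2
    norm_num at h2
  have hnorm : ∀ {n : G}, n * (b : G) * n⁻¹ = (b : G)⁻¹ →
      n ∈ Subgroup.normalizer (Subgroup.zpowers (b : G) : Set G) := by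
    intro n hn
    refine Subgroup.mem_normalizer_fintype fun x hx => ?_
    obtain ⟨i, rfl⟩ := Subgroup.mem_zpowers_iff.1 hx
    exact ⟨-i, by rw [← conj_zpow, hn, inv_zpow']⟩
  have htC : (t : G) ∈ Subgroup.normalizer (Subgroup.centralizer (Subgroup.zpowers (b : G) : Set G) : Set G) := by
    refine Subgroup.mem_normalizer_fintype fun x hx => ?_
    rw [SetLike.mem_coe, Subgroup.mem_centralizer_iff] at hx ⊢
    intro y hy
    have h1 := hx _ ((Subgroup.mem_normalizer_iff.1 (inv_mem (hnorm htb')) y).1 hy)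
    rw [inv_inv] at h1
    calc y * ((t : G) * x * (t : G)⁻¹) = (t : G) * ((t : G)⁻¹ * y * (t : G) * x) * (t : G)⁻¹ := by group
      _ = _ := by rw [h1]; group
  refine ⟨?_, (t : G), ?_, ?_, fun x hx => layer_conj _ htC hx, ?_⟩
  · obtain ⟨σ, hσ⟩ : ∃ σ : M24, σ * J.π b * σ⁻¹ = (J.π b) ^ 2 ∨ σ * J.π b * σ⁻¹ = (J.π b) ^ 5 := by
      obtain ⟨τ', hτ'⟩ := Seven.classes (x := Seven.r ^ 2) (by
        rw [Nat.Coprime.orderOf_pow (by rw [Seven.order_r]; norm_num), Seven.order_r])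
      refine ⟨τ⁻¹ * τ'⁻¹ * τ, ?_⟩
      have e0 : τ⁻¹ * τ'⁻¹ * τ * J.π b * (τ⁻¹ * τ'⁻¹ * τ)⁻¹ = τ⁻¹ * (τ'⁻¹ * Seven.r * τ') * τ := by
        rw [← hτ]; group
      have e1 : J.π b = τ⁻¹ * Seven.r * τ := by rw [← hτ]; group
      rcases hτ' with h | h
      · left
        have h5 : τ'⁻¹ * Seven.r * τ' = Seven.r ^ 2 := by
          conv_lhs => rw [← h]
          group
        rw [e0, h5, e1, show τ⁻¹ * Seven.r * τ = τ⁻¹ * Seven.r * τ⁻¹⁻¹ by rw [inv_inv], conj_pow, inv_inv]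
      · right
        have h5 : τ'⁻¹ * Seven.r * τ' = Seven.r ^ 5 := by
          have h2 : τ'⁻¹ * Seven.r * τ' = (Seven.r ^ 2)⁻¹ := by
            calc τ'⁻¹ * Seven.r * τ' = τ'⁻¹ * (Seven.r⁻¹)⁻¹ * τ' := by rw [inv_inv]
              _ = _ := by rw [← h]; group
          rw [h2]
          refine inv_eq_of_mul_eq_one_right ?_
          rw [← pow_add, show 2 + 5 = 7 from rfl]
          exact Seven.order_r ▸ pow_orderOf_eq_one Seven.r
        rw [e0, h5, e1, show τ⁻¹ * Seven.r * τ = τ⁻¹ * Seven.r * τ⁻¹⁻¹ by rw [inv_inv], conj_pow, inv_inv]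
    obtain ⟨l, rfl⟩ := J.surj σ
    have key : ∀ j : ℕ, J.π l * J.π b * (J.π l)⁻¹ = (J.π b) ^ j → ∃ n : G, n * (b : G) * n⁻¹ = (b : G) ^ j := by
      intro j hj
      obtain ⟨k, -, hk⟩ := conj_of_map_eq J.π J.ker h7 (by norm_num)
        (x := l * b * l⁻¹) (y := b ^ j) (by rw [conj_pow, hb7, mul_one, mul_inv_cancel])
        (by rw [← pow_mul, mul_comm, pow_mul, hb7, one_pow]) (by rw [map_mul, map_mul, map_inv, map_pow, hj])
      refine ⟨((k⁻¹ * l : joint z s) : G), ?_⟩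
      rw [← SubgroupClass.coe_pow, ← hk]
      simp only [Subgroup.coe_mul, InvMemClass.coe_inv]
      group
    have hl : ∃ n : G, n * (b : G) * n⁻¹ = (b : G) ^ 2 ∨ n * (b : G) * n⁻¹ = (b : G) ^ 5 := by
      rcases hσ with h | h
      · obtain ⟨n, hn⟩ := key 2 h; exact ⟨n, Or.inl hn⟩
      · obtain ⟨n, hn⟩ := key 5 h; exact ⟨n, Or.inr hn⟩
    obtain ⟨n, hn⟩ := hl
    exact relIndex_six hbG htb' hn
  · refine orderOf_eq_prime ?_ ?_
    · rw [pow_two]; exact congrArg Subtype.val ht2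
    · intro h
      rw [h, one_mul, inv_one, mul_one] at htb'
      exact hbne htb'
  · intro y hy
    obtain ⟨i, rfl⟩ := Subgroup.mem_zpowers_iff.1 hy
    rw [← conj_zpow, htb', inv_zpow]
  · rintro ⟨l, hl, hinn⟩
    have hlC : l ∈ P.CB := Subgroup.map_subtype_le _ hl
    have hcen : ∀ a ∈ P.Ab, l⁻¹ * (t : G) * a = a * (l⁻¹ * (t : G)) := by
      intro a ha
      have h1 := hinn a (hAbL ha)
      calc l⁻¹ * (t : G) * a = l⁻¹ * ((t : G) * a * (t : G)⁻¹) * (t : G) := by group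
        _ = _ := by rw [h1]; group
    have hxC : l⁻¹ * (t : G) ∈ Subgroup.centralizer ({z} : Set G) :=
      Subgroup.mem_centralizer_singleton_iff.2 (hcen z P.z_mem_Ab)
    refine Seven.not_centralizing P ⟨_, hxC⟩ ?_ hcen
    show l⁻¹ * (t : G) * P.b * (l⁻¹ * (t : G))⁻¹ = P.b⁻¹
    calc l⁻¹ * (t : G) * (b : G) * (l⁻¹ * (t : G))⁻¹ = l⁻¹ * ((t : G) * (b : G) * (t : G)⁻¹) * l := by group
      _ = (b : G)⁻¹ := by
        rw [htb']
        have hc : Commute l (b : G) := P.mem_CB.1 hlC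
        rw [mul_assoc, ← hc.inv_right.eq, inv_mul_cancel_left]

end Cfsg.Agent.S5418
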