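import Cfsg.Statements.S5420
import Cfsg.Agent.LargeExtra.Basic

set_option autoImplicit false
set_option linter.style.longLine false
open Cfsg

namespace Cfsg.Agent.S5420

/-- Let Q be an extraspecial 2-subgroup of the finite group G whose centralizer in G is its centre Z and which is normal in the centralizer of Z. If Z lies in the largest normal 2-subgroup of G, then Q is a large extraspecial 2-subgroup of G: it normalizes no non-trivial subgroup of G of odd order. -/
theorem result {G : Type*} [Group G] [Finite G] (Q : Subgroup G) (hL1 : Cfsg.IsExtraspecial 2 ↥Q) (hL2 : Subgroup.centralizer (Q : Set G) = ((Subgroup.center ↥Q).map Q.subtype)) (hL3 : Subgroup.centralizer (((Subgroup.center ↥Q).map Q.subtype) : Set G) ≤ Subgroup.normalizer (Q : Set G)) (hZ : ((Subgroup.center ↥Q).map Q.subtype) ≤ Cfsg.pCore 2 G) : Cfsg.IsLargeExtraspecial Q := by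
  obtain ⟨z, hz⟩ := Cfsg.Agent.LargeExtra.exists_centralInvolution hL1
  refine ⟨hL1, hL2, hL3, fun K hK hQK => (Subgroup.eq_bot_iff_forall K).2 fun k hk => ?_⟩
  refine Cfsg.Agent.LargeExtra.eq_one_of_centralizes hz hL2 hL3 hK hQK hk ?_
  have hzT : z ∈ Cfsg.pCore 2 G := hZ (hz.center_eq ▸ Subgroup.mem_zpowers z)
  haveI : Fact (Nat.Prime 2) := ⟨Nat.prime_two⟩
  exact Cfsg.Agent.LargeExtra.commute_of_two_subgroup hK (Cfsg.Agent.Cores.pCore_isPGroup) hzT (hQK hz.mem) hk
    (by rw [Subgroup.normalizer_eq_top_iff.2 inferInstance]; exact Subgroup.mem_top k)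

end Cfsg.Agent.S5420
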