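import Cfsg.Statements.S5421
import Cfsg.Agent.LargeExtra.Pair

set_option autoImplicit false
open Cfsg

namespace Cfsg.Agent.S5421

/-- Let Q be an extraspecial 2-subgroup of the finite group G whose centralizer in G is its centre Z and which is normal in the centralizer of Z. If some involution b of Q outside Z has Z inside the largest normal 2-subgroup of the centralizer of b, then Q is a large extraspecial 2-subgroup of G. -/
theorem result {G : Type*} [Group G] [Finite G] (Q : Subgroup G) (hL1 : Cfsg.IsExtraspecial 2 ↥Q) (hL2 : Subgroup.centralizer (Q : Set G) = ((Subgroup.center ↥Q).map Q.subtype)) (hL3 : Subgroup.centralizer (((Subgroup.center ↥Q).map Q.subtype) : Set G) ≤ Subgroup.normalizer (Q : Set G)) (b : G) (hbQ : b ∈ Q) (hbZ : b ∉ ((Subgroup.center ↥Q).map Q.subtype)) (hb : orderOf b = 2) (hZ : ((Subgroup.center ↥Q).map Q.subtype) ≤ (Cfsg.pCore 2 ↥(Subgroup.centralizer ({b} : Set G))).map (Subgroup.centralizer ({b} : Set G)).subtype) : Cfsg.IsLargeExtraspecial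 Q := by
  obtain ⟨z, hz⟩ := Cfsg.Agent.LargeExtra.exists_centralInvolution hL1
  haveI : Fact (Nat.Prime 2) := ⟨Nat.prime_two⟩
  have hb1 : b ≠ 1 := fun h => by simp [h] at hb
  have hbz : b ≠ z := fun h => hbZ (by rw [hz.center_eq, h]; exact Subgroup.mem_zpowers z)
  have hbb : b * b = 1 := by rw [← pow_two, ← hb, pow_orderOf_eq_one]
  refine ⟨hL1, hL2, hL3, fun K hK hQK => ?_⟩
  have hzfix : ∀ k ∈ K, k * z = z * k → k = 1 := fun k hk =>
    Cfsg.Agent.LargeExtra.eq_one_of_centralizes hz hL2 hL3 hK hQK hk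
  -- z lies in a 2-subgroup normalised by the centraliser of b
  have hbfix : ∀ k ∈ K, k * b = b * k → k = 1 := by
    intro k hk hkb
    refine hzfix k hk ?_
    obtain ⟨⟨zc, hzc⟩, hzm, hze⟩ := hZ (hz.center_eq ▸ Subgroup.mem_zpowers z)
    have hze' : zc = z := hze
    subst hze'
    refine Cfsg.Agent.LargeExtra.commute_of_two_subgroup hK
      (T := (Cfsg.pCore 2 ↥(Subgroup.centralizer ({b} : Set G))).map (Subgroup.centralizer ({b} : Set G)).subtype)
      (Cfsg.Agent.Cores.pCore_isPGroup.map _) ⟨⟨_, hzc⟩, hzm, rfl⟩ (hQK hz.mem) hk ?_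
    have hn := Subgroup.le_normalizer_map (H := Cfsg.pCore 2 ↥(Subgroup.centralizer ({b} : Set G)))
      (Subgroup.centralizer ({b} : Set G)).subtype
    refine hn ⟨⟨k, Subgroup.mem_centralizer_singleton_iff.2 hkb⟩, ?_, rfl⟩
    rw [Subgroup.normalizer_eq_top_iff.2 inferInstance]
    exact Subgroup.mem_top _
  obtain ⟨q, hq, hqb⟩ := hz.exists_swap hbQ hb1 hbz
  refine Cfsg.Agent.LargeExtra.eq_bot_of_three_fpf hz.sq hbb (hz.comm b hbQ).symm (hQK hz.mem) (hQK hbQ)
    hzfix hbfix fun k hk hkzb => ?_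
  rw [← hz.comm b hbQ] at hkzb
  have h1 : q⁻¹ * k * q ∈ K := by
    simpa using (Subgroup.mem_normalizer_iff.1 (hQK (inv_mem hq)) k).1 hk
  have h2 := hbfix _ h1 (by
    calc q⁻¹ * k * q * b = q⁻¹ * (k * (q * b * q⁻¹)) * q := by group
      _ = q⁻¹ * ((q * b * q⁻¹) * k) * q := by rw [hqb, hkzb]
      _ = b * (q⁻¹ * k * q) := by group)
  calc k = q * (q⁻¹ * k * q) * q⁻¹ := by group
    _ = 1 := by rw [h2, mul_one, mul_inv_cancel]

end Cfsg.Agent.S5421
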