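import Cfsg.Statements.S5422
import Cfsg.Agent.LargeExtra.Pair

set_option autoImplicit false
open Cfsg

namespace Cfsg.Agent.S5422

/-- Let Q be an extraspecial 2-subgroup of the finite group G whose centralizer in G is its centre Z and which is normal in the centralizer of Z; suppose Q has width at least 2 (order 2^(2w+1) with w ≥ 2) and g is an element of G not normalizing Z with g Z g⁻¹ inside Q. Then Z lies inside g Q g⁻¹; writing V for the subgroup generated by Z and g Z g⁻¹ (a four-group), the normalizer of V induces on V its full automorphism group, that is, the centralizer of V has index 6 in the normalizer of V; and Q is a large extraspecial 2-subgroup of G. -/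
theorem result {G : Type*} [Group G] [Finite G] (Q : Subgroup G) (hL1 : Cfsg.IsExtraspecial 2 ↥Q) (hL2 : Subgroup.centralizer (Q : Set G) = ((Subgroup.center ↥Q).map Q.subtype)) (hL3 : Subgroup.centralizer (((Subgroup.center ↥Q).map Q.subtype) : Set G) ≤ Subgroup.normalizer (Q : Set G)) (w : ℕ) (hw : 2 ≤ w) (hcard : Nat.card ↥Q = 2 ^ (2 * w + 1)) (g : G) (hg : g ∉ Subgroup.normalizer (((Subgroup.center ↥Q).map Q.subtype) : Set G)) (hZg : (((Subgroup.center ↥Q).map Q.subtype)).map (MulAut.conj g).toMonoidHom ≤ Q) : ((Subgroup.center ↥Q).map Q.subtype) ≤ (Q).map (MulAut.conj g).toMonoidHom ∧ (Subgroup.centralizer ((((Subgroup.center ↥Q).map Q.subtype) ⊔ (((Subgroup.center ↥Q).map Q.subtype)).map (MulAut.conj g).toMonoidHom : Subgroup G) : Set G)).relIndex (Subgroup.normalizer ((((Subgroup.center ↥Q).map Q.subtype) ⊔ (((Subgroup.center ↥Q).map Q.subtype)).map (MulAut.conj g).toMonoidHom : Subgroup G) : Set G)) = 6 ∧ Cfsg.IsLargeExtraspecial Q := by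
  obtain ⟨z, hz⟩ := Cfsg.Agent.LargeExtra.exists_centralInvolution hL1
  rw [hz.center_eq] at hZg ⊢
  have hL3' := hz.centralizer_center ▸ hL3
  have hbQ : g * z * g⁻¹ ∈ Q := hZg ⟨z, Subgroup.mem_zpowers z, rfl⟩
  have hgz : g * z * g⁻¹ ≠ z := by
    intro e
    refine hg (Subgroup.mem_normalizer_iff.2 fun x => ?_)
    rw [hz.center_eq, hz.mem_zpowers_iff, hz.mem_zpowers_iff]
    constructor
    · rintro (rfl | rfl)
      · left; group
      · exact Or.inr e
    · rintro (h | h)
      · exact Or.inl (conj_eq_one_iff.1 h)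
      · exact Or.inr (mul_left_cancel (mul_right_cancel (h.trans e.symm)))
  have hzQ' := Cfsg.Agent.LargeExtra.mem_conj_of_conj_mem hz (by rw [← hz.center_eq]; exact hL2) hL3' hw hcard hbQ hgz
  have h' := hz.conj g
  set b := g * z * g⁻¹ with hbdef
  obtain ⟨y, hy, hyb⟩ := hz.exists_swap hbQ h'.ne_one hgz
  obtain ⟨q, hq, hqz⟩ := h'.exists_swap hzQ' hz.ne_one (Ne.symm hgz)
  have hzb : b * z = z * b := hz.comm b hbQ
  refine ⟨Subgroup.zpowers_le.2 hzQ', ?_, hL1, hL2, hL3, fun K hK hQK => ?_⟩
  · -- the four-group and its normaliser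
    rw [show (Subgroup.zpowers z).map (MulAut.conj g).toMonoidHom = Subgroup.zpowers b from
      MonoidHom.map_zpowers _ _]
    set V : Subgroup G := Subgroup.zpowers z ⊔ Subgroup.zpowers b with hV
    have hzV : z ∈ V := Subgroup.mem_sup_left (Subgroup.mem_zpowers z)
    have hbV : b ∈ V := Subgroup.mem_sup_right (Subgroup.mem_zpowers b)
    have hVmem : ∀ x ∈ V, x = 1 ∨ x = z ∨ x = b ∨ x = z * b := by
      intro x hx
      let W : Subgroup G :=
        { carrier := {x | x = 1 ∨ x = z ∨ x = b ∨ x = z * b}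
          one_mem' := Or.inl rfl
          mul_mem' := by
            have hzz : ∀ t : G, z * (z * t) = t := fun t => by rw [← mul_assoc, hz.sq, one_mul]
            have hbb : ∀ t : G, b * (b * t) = t := fun t => by rw [← mul_assoc, h'.sq, one_mul]
            have hbz : ∀ t : G, b * (z * t) = z * (b * t) := fun t => by rw [← mul_assoc, hzb, mul_assoc]
            rintro u v (rfl | rfl | rfl | rfl) (rfl | rfl | rfl | rfl) <;>
              simp [mul_assoc, hzz, hbb, hbz, hz.sq, h'.sq, hzb]
          inv_mem' := by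
            rintro u (rfl | rfl | rfl | rfl) <;> simp [hz.inv_eq, h'.inv_eq, hzb] }
      exact (sup_le (Subgroup.zpowers_le.2 (Or.inr (Or.inl rfl))) (Subgroup.zpowers_le.2 (Or.inr (Or.inr (Or.inl rfl))))
        : V ≤ W) hx
    let N := Subgroup.normalizer (V : Set G)
    have hmemN : ∀ m : G, (m * z * m⁻¹ ∈ V) → (m * b * m⁻¹ ∈ V) → m ∈ N := by
      intro m h1 h2
      have hle : V.map (MulAut.conj m).toMonoidHom ≤ V :=
        Subgroup.map_le_iff_le_comap.2 (sup_le (Subgroup.zpowers_le.2 h1) (Subgroup.zpowers_le.2 h2))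
      have heq := Subgroup.eq_of_le_of_card_ge hle
        (Subgroup.card_map_of_injective (f := (MulAut.conj m).toMonoidHom) (MulAut.conj m).injective).ge
      refine Subgroup.mem_normalizer_iff.2 fun x => ⟨fun hx => hle ⟨x, hx, rfl⟩, fun hx => ?_⟩
      rw [← heq] at hx
      obtain ⟨v, hv, hvx⟩ := hx
      obtain rfl : v = x := (MulAut.conj m).injective hvx
      exact hv
    have hyN : y ∈ N := hmemN y (by rw [hz.comm y hy, mul_inv_cancel_right]; exact hzV)
      (by rw [hyb]; exact mul_mem hbV hzV)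
    have hqN : q ∈ N := hmemN q (by rw [hqz]; exact mul_mem hzV hbV)
      (by rw [h'.comm q hq, mul_inv_cancel_right]; exact hbV)
    have hne3 : z * b ≠ z ∧ z * b ≠ b ∧ z * b ≠ 1 :=
      ⟨fun e => h'.ne_one (mul_eq_left.1 e), fun e => hz.ne_one (mul_eq_right.1 e),
        fun e => hgz (mul_left_cancel (e.trans hz.sq.symm))⟩
    let T : Set G := {z, b, z * b}
    letI act : MulAction ↥N G := MulAction.compHom G (ConjAct.toConjAct.toMonoidHom.comp N.subtype)
    have hact : ∀ (m : ↥N) (x : G), m • x = (m : G) * x * (m : G)⁻¹ := fun m x => rfl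
    have horbit : MulAction.orbit ↥N z = T := by
      ext x
      constructor
      · rintro ⟨m, rfl⟩
        show m • z ∈ T
        rw [hact]
        rcases hVmem _ ((Subgroup.mem_normalizer_iff.1 m.2 z).1 hzV) with e | e | e | e
        · exact absurd (conj_eq_one_iff.1 e) hz.ne_one
        · exact Or.inl e
        · exact Or.inr (Or.inl e)
        · exact Or.inr (Or.inr e)
      · rintro (rfl | rfl | rfl)
        · exact MulAction.mem_orbit_self _
        · refine ⟨⟨y * q, mul_mem hyN hqN⟩, ?_⟩
          show y * q * z * (y * q)⁻¹ = b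
          calc y * q * z * (y * q)⁻¹ = y * (q * z * q⁻¹) * y⁻¹ := by group
            _ = (y * z * y⁻¹) * (y * b * y⁻¹) := by rw [hqz]; group
            _ = z * (b * z) := by rw [hz.comm y hy, mul_inv_cancel_right, hyb]
            _ = b := by rw [hzb, ← mul_assoc, hz.sq, one_mul]
        · exact ⟨⟨q, hqN⟩, hqz⟩
    have h3 : (MulAction.stabilizer ↥N z).index = 3 := by
      rw [MulAction.index_stabilizer, horbit]
      simp [T, Set.ncard_insert_of_notMem, Ne.symm hne3.1, Ne.symm hne3.2.1, Ne.symm hgz]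
    let S := MulAction.stabilizer ↥N z
    have horbit2 : MulAction.orbit ↥S b = ({b, z * b} : Set G) := by
      ext x
      constructor
      · rintro ⟨m, rfl⟩
        show (m : ↥N) • b ∈ ({b, z * b} : Set G)
        rw [hact]
        have hmz : ((m : ↥N) : G) * z * ((m : ↥N) : G)⁻¹ = z := m.2
        rcases hVmem _ ((Subgroup.mem_normalizer_iff.1 m.1.2 b).1 hbV) with e | e | e | e
        · exact absurd (conj_eq_one_iff.1 e) h'.ne_one
        · exact absurd (mul_left_cancel (mul_right_cancel (e.trans hmz.symm))) hgz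
        · exact Or.inl e
        · exact Or.inr e
      · rintro (rfl | rfl)
        · exact MulAction.mem_orbit_self _
        · refine ⟨⟨⟨y, hyN⟩, ?_⟩, ?_⟩
          · show y * z * y⁻¹ = z
            rw [hz.comm y hy, mul_inv_cancel_right]
          · show y * b * y⁻¹ = z * b
            rw [hyb, hzb]
    have h2 : (MulAction.stabilizer ↥S b).index = 2 := by
      rw [MulAction.index_stabilizer, horbit2]
      simp [Ne.symm hne3.2.1]
    have hC : (MulAction.stabilizer ↥S b).map S.subtype =
        (Subgroup.centralizer (V : Set G)).subgroupOf N := by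
      ext m
      constructor
      · rintro ⟨s, hs, rfl⟩
        have hsz : ((s : ↥N) : G) * z * ((s : ↥N) : G)⁻¹ = z := s.2
        have hsb : ((s : ↥N) : G) * b * ((s : ↥N) : G)⁻¹ = b := hs
        have e1 := mul_inv_eq_iff_eq_mul.1 hsz
        have e2 := mul_inv_eq_iff_eq_mul.1 hsb
        show ((s : ↥N) : G) ∈ Subgroup.centralizer (V : Set G)
        intro v hv
        rcases hVmem v hv with rfl | rfl | rfl | rfl
        · simp
        · exact e1.symm
        · exact e2.symm
        · calc z * b * ((s : ↥N) : G) = z * ((s : ↥N) : G) * b := by rw [mul_assoc, ← e2, mul_assoc]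
            _ = ((s : ↥N) : G) * (z * b) := by rw [← e1, mul_assoc]
      · intro hm
        have hm' : ∀ v ∈ V, v * (m : G) = (m : G) * v := hm
        refine ⟨⟨m, ?_⟩, ?_, rfl⟩
        · show (m : G) * z * (m : G)⁻¹ = z
          exact mul_inv_eq_iff_eq_mul.2 (hm' z hzV).symm
        · show (m : G) * b * (m : G)⁻¹ = b
          exact mul_inv_eq_iff_eq_mul.2 (hm' b hbV).symm
    show ((Subgroup.centralizer (V : Set G)).subgroupOf N).index = 6
    rw [← hC, Subgroup.index_map_subtype, h2, h3]
  · have hzfix : ∀ k ∈ K, k * z = z * k → k = 1 := fun k hk =>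
      Cfsg.Agent.LargeExtra.eq_one_of_centralizes hz hL2 hL3 hK hQK hk
    have hbfix : ∀ k ∈ K, k * b = b * k → k = 1 := by
      intro k hk hkb
      refine hzfix k hk (Cfsg.Agent.LargeExtra.commute_of_two_subgroup hK h'.isPGroup hzQ' (hQK hz.mem) hk ?_)
      have hd : g⁻¹ * k * g ∈ Subgroup.centralizer ({z} : Set G) := by
        rw [Subgroup.mem_centralizer_singleton_iff]
        calc g⁻¹ * k * g * z = g⁻¹ * (k * b) * g := by rw [hbdef]; group
          _ = z * (g⁻¹ * k * g) := by rw [hkb, hbdef]; group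
      have := Subgroup.le_normalizer_map (H := Q) (MulAut.conj g).toMonoidHom ⟨_, hL3' hd, rfl⟩
      simpa [mul_assoc] using this
    refine Cfsg.Agent.LargeExtra.eq_bot_of_three_fpf hz.sq h'.sq hzb.symm (hQK hz.mem) (hQK hbQ)
      hzfix hbfix fun k hk hkzb => ?_
    rw [← hzb] at hkzb
    have h1 : y⁻¹ * k * y ∈ K := by
      simpa using (Subgroup.mem_normalizer_iff.1 (hQK (inv_mem hy)) k).1 hk
    have h2 := hbfix _ h1 (by
      calc y⁻¹ * k * y * b = y⁻¹ * (k * (y * b * y⁻¹)) * y := by group
        _ = y⁻¹ * ((y * b * y⁻¹) * k) * y := by rw [hyb, hkzb]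
        _ = b * (y⁻¹ * k * y) := by group)
    calc k = y * (y⁻¹ * k * y) * y⁻¹ := by group
      _ = 1 := by rw [h2, mul_one, mul_inv_cancel]

end Cfsg.Agent.S5422
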