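import Cfsg.Statements.S5423
import Cfsg.Agent.PGroup.SplitLinearTwo

set_option autoImplicit false
open Cfsg

namespace Cfsg.Agent.S5423

open Matrix

variable {n : ℕ}

/-- Coordinates on `U`. -/
local notation "WS" n => (Fin n → ZMod 2) × ZMod 2

/-- The automorphism of the coordinate space given by a functional and a matrix. -/
def lin (b : Fin n → ZMod 2) (A : GL (Fin n) (ZMod 2)) : (WS n) ≃+ (WS n) where
  toFun w := ((A : Matrix (Fin n) (Fin n) (ZMod 2)) *ᵥ w.1, w.2 + b ⬝ᵥ ((A : Matrix (Fin n) (Fin n) (ZMod 2)) *ᵥ w.1))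
  invFun w := (((A⁻¹ : GL (Fin n) (ZMod 2)) : Matrix (Fin n) (Fin n) (ZMod 2)) *ᵥ w.1, w.2 + b ⬝ᵥ w.1)
  left_inv w := by
    refine Prod.ext ?_ ?_
    · simp [mulVec_mulVec]
    · show _ + _ + _ = _
      rw [add_assoc, CharTwo.add_self_eq_zero, add_zero]
  right_inv w := by
    refine Prod.ext ?_ ?_
    · simp [mulVec_mulVec]
    · simp [mulVec_mulVec]
      rw [add_assoc, CharTwo.add_self_eq_zero, add_zero]
  map_add' v w := by
    refine Prod.ext ?_ ?_
    · simp [mulVec_add]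
    · simp [mulVec_add, dotProduct_add]
      ring

theorem lin_apply (b : Fin n → ZMod 2) (A : GL (Fin n) (ZMod 2)) (w : WS n) :
    lin b A w = ((A : Matrix (Fin n) (Fin n) (ZMod 2)) *ᵥ w.1, w.2 + b ⬝ᵥ ((A : Matrix (Fin n) (Fin n) (ZMod 2)) *ᵥ w.1)) := rfl

theorem lin_lin (b b' : Fin n → ZMod 2) (A A' : GL (Fin n) (ZMod 2)) (w : WS n) :
    lin b A (lin b' A' w) = lin (b + b' ᵥ* ((A⁻¹ : GL (Fin n) (ZMod 2)) : Matrix (Fin n) (Fin n) (ZMod 2))) (A * A') w := by
  simp only [lin_apply, Units.val_mul, mulVec_mulVec, add_dotProduct]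
  rw [← dotProduct_mulVec, mulVec_mulVec, ← mul_assoc, Units.inv_mul, one_mul]
  exact Prod.ext rfl (by ring)

theorem exists_coordinates {U : Type*} [Group U] [Finite U] (hc : ∀ a b : U, a * b = b * a) (h2 : ∀ a : U, a ^ 2 = 1)
    (hcard : Nat.card U = 2 ^ (n + 1)) {u₀ : U} (h0 : u₀ ≠ 1) :
    ∃ θ : (WS n) → U, Function.Bijective θ ∧ (∀ v w, θ (v + w) = θ v * θ w) ∧ θ (0, 1) = u₀ := by
  letI : CommGroup U := { (inferInstance : Group U) with mul_comm := hc }
  letI : Module (ZMod 2) (Additive U) := AddCommGroup.zmodModule (fun x => h2 x.toMul)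
  haveI : Finite (Additive U) := Finite.of_equiv _ Additive.ofMul
  haveI : Module.Finite (ZMod 2) (Additive U) := Module.Finite.of_finite
  have hfin : Module.finrank (ZMod 2) (Additive U) = n + 1 := by
    have h := Module.natCard_eq_pow_finrank (K := ZMod 2) (V := Additive U)
    rw [Nat.card_congr Additive.toMul, hcard, Nat.card_zmod] at h
    exact (Nat.pow_right_injective le_rfl h).symm
  have hW : Module.finrank (ZMod 2) (WS n) = n + 1 := by simp
  let e : (WS n) ≃ₗ[ZMod 2] Additive U := LinearEquiv.ofFinrankEq _ _ (hW.trans hfin.symm)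
  let L : (WS n) ≃ₗ[ZMod 2] (Fin (n + 1) → ZMod 2) := LinearEquiv.ofFinrankEq _ _ (by simp)
  have hv : L (e.symm (Additive.ofMul u₀)) ≠ 0 := by
    simp only [ne_eq, LinearEquiv.map_eq_zero_iff]
    exact h0
  have hw : L ((0, 1) : WS n) ≠ 0 := by simp
  obtain ⟨T, hT⟩ := SplitLinear.exists_GL_mulVec hw hv
  refine ⟨fun w => (e (L.symm ((T : Matrix (Fin (n + 1)) (Fin (n + 1)) (ZMod 2)) *ᵥ L w))).toMul, ?_,
    fun v w => by simp [mulVec_add], ?_⟩
  · refine Additive.toMul.bijective.comp (e.bijective.comp (L.symm.bijective.comp ?_))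
    refine Function.Bijective.comp (g := fun v => (T : Matrix (Fin (n + 1)) (Fin (n + 1)) (ZMod 2)) *ᵥ v) ?_ L.bijective
    exact (Matrix.mulVec_injective_iff_isUnit.2 T.isUnit).bijective_of_finite
  · simp [hT]

/-- Let G be a finite group that is the split extension of an elementary abelian normal subgroup U of order 2^(n+1), n ≥ 1, by its full automorphism group: U has a complement M in G whose conjugation action on U is faithful and realizes every automorphism of U. Let Z be a subgroup of U of order 2 and Q the largest normal 2-subgroup of the centralizer C of Z. Then Q is extraspecial of order 2^(2n+1) with an elementary abelian subgroup of order 2^(n+1) (plus type), Q is a large extraspecial 2-subgroup of G, and C is the split extension of Q by the general linear group of degree n over the field with two elements. -/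
theorem result {G : Type*} [Group G] [Finite G] (n : ℕ) (hn : 1 ≤ n) (U M : Subgroup G) [U.Normal] (hU : Cfsg.IsElementaryAbelian 2 U) (hUcard : Nat.card ↥U = 2 ^ (n + 1)) (hUM : U ⊓ M = ⊥) (hUM' : U ⊔ M = ⊤) (hfaith : ∀ m ∈ M, (∀ u ∈ U, m * u * m⁻¹ = u) → m = 1) (hfull : ∀ φ : ↥U ≃* ↥U, ∃ m ∈ M, ∀ u : ↥U, ((φ u : ↥U) : G) = m * u * m⁻¹) (Z : Subgroup G) (hZU : Z ≤ U) (hZ : Nat.card ↥Z = 2) (Q : Subgroup G) (hQ : Q = (Cfsg.pCore 2 ↥(Subgroup.centralizer (Z : Set G))).map (Subgroup.centralizer (Z : Set G)).subtype) : Cfsg.IsExtraspecial 2 ↥Q ∧ Nat.card ↥Q = 2 ^ (2 * n + 1) ∧ (∃ E : Subgroup G, E ≤ Q ∧ Cfsg.IsElementaryAbelian 2 E ∧ Nat.card ↥E = 2 ^ (n + 1)) ∧ Cfsg.IsLargeExtraspecial Q ∧ ∃ K : Subgroup G, K ≤ Subgroup.centralizer (Z : Set G) ∧ Q ⊓ K = ⊥ ∧ Q ⊔ K = Subgroup.centralizer (Z : Set G) ∧ Nonempty (↥K ≃* Matrix.GeneralLinearGroup (Fin n) (ZMod 2)) := by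
  haveI : Fact (Nat.Prime 2) := ⟨Nat.prime_two⟩
  obtain ⟨u₀, hu₀⟩ : ∃ u₀ : ↥U, u₀ ≠ 1 ∧ Z = Subgroup.zpowers (u₀ : G) := by
    obtain ⟨⟨x, hx⟩, hx1⟩ : ∃ x : ↥Z, x ≠ 1 := by
      haveI : Nontrivial ↥Z := Finite.one_lt_card_iff_nontrivial.1 (by rw [hZ]; norm_num)
      exact exists_ne 1
    refine ⟨⟨x, hZU hx⟩, fun e => hx1 (Subtype.ext (congrArg (fun y : ↥U => (y : G)) e)),
      (Subgroup.eq_of_le_of_card_ge (Subgroup.zpowers_le.2 hx) ?_).symm⟩
    rw [hZ, Nat.card_zpowers, orderOf_eq_prime (by exact hU.2 x (hZU hx))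
      fun e => hx1 (Subtype.ext e)]
  obtain ⟨hu1, rfl⟩ := hu₀
  have hUc : ∀ a b : ↥U, a * b = b * a := fun a b => hU.1.is_comm.comm a b
  obtain ⟨θ, hθb, hθm, hθ0⟩ := exists_coordinates hUc (fun a => Subtype.ext (hU.2 a a.2)) hUcard hu1
  set u : ((Fin n → ZMod 2) × ZMod 2) → G := fun w => (θ w : G) with hu
  have hum : ∀ v w, u (v + w) = u v * u w := fun v w => congrArg Subtype.val (hθm v w)
  have huU : ∀ w, u w ∈ U := fun w => (θ w).2
  have hu_surj : ∀ x ∈ U, ∃ w, u w = x := fun x hx => (hθb.2 ⟨x, hx⟩).imp fun w e => congrArg Subtype.val e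
  have hu_inj : Function.Injective u := fun v w e => hθb.1 (Subtype.ext e)
  have hu0 : u 0 = 1 := by
    have := hum 0 0
    rwa [add_zero, left_eq_mul] at this
  have hu01 : u (0, 1) = (u₀ : G) := congrArg Subtype.val hθ0
  -- automorphisms realised in M
  have uniq : ∀ {m m' : G}, m ∈ M → m' ∈ M → (∀ w, m * u w * m⁻¹ = m' * u w * m'⁻¹) → m = m' := by
    intro m m' hm hm' h
    refine (inv_mul_eq_one.1 (hfaith (m'⁻¹ * m) (mul_mem (inv_mem hm') hm) fun x hx => ?_)).symm
    obtain ⟨w, rfl⟩ := hu_surj x hx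
    calc m'⁻¹ * m * u w * (m'⁻¹ * m)⁻¹ = m'⁻¹ * (m * u w * m⁻¹) * m' := by group
      _ = u w := by rw [h]; group
  have real : ∀ l : ((Fin n → ZMod 2) × ZMod 2) ≃+ ((Fin n → ZMod 2) × ZMod 2),
      ∃ m ∈ M, ∀ w, m * u w * m⁻¹ = u (l w) := by
    intro l
    let θe := Equiv.ofBijective θ hθb
    let φ : ↥U ≃* ↥U :=
      { (θe.symm.trans l.toEquiv).trans θe with
        map_mul' := fun a b => by
          obtain ⟨v, rfl⟩ := hθb.2 a
          obtain ⟨w, rfl⟩ := hθb.2 b
          show θ (l (θe.symm (θ v * θ w))) = θ (l (θe.symm (θ v))) * θ (l (θe.symm (θ w)))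
          rw [← hθm v w, Equiv.ofBijective_symm_apply_apply, Equiv.ofBijective_symm_apply_apply,
            Equiv.ofBijective_symm_apply_apply, map_add, hθm] }
    obtain ⟨m, hm, he⟩ := hfull φ
    refine ⟨m, hm, fun w => (he (θ w)).symm.trans ?_⟩
    show ((θ (l (θe.symm (θ w))) : ↥U) : G) = _
    rw [Equiv.ofBijective_symm_apply_apply]
  choose R hRM hR using real
  set μ : (Fin n → ZMod 2) → G := fun b => R (lin b 1) with hμ
  have hμu : ∀ b w, μ b * u w * (μ b)⁻¹ = u (w.1, w.2 + b ⬝ᵥ w.1) := fun b w => by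
    rw [hμ, hR, lin_apply, Units.val_one, one_mulVec]
  have hμμ : ∀ b b', μ b * μ b' = μ (b + b') := fun b b' => uniq (mul_mem (hRM _) (hRM _)) (hRM _) fun w => by
    rw [hμu, _root_.mul_inv_rev]
    calc μ b * μ b' * u w * ((μ b')⁻¹ * (μ b)⁻¹) = μ b * (μ b' * u w * (μ b')⁻¹) * (μ b)⁻¹ := by group
      _ = _ := by rw [hμu, hμu, add_dotProduct]; congr 2; ring
  let φ : FormGroup.EB (FormGroup.plusMat n) →* G :=
    MonoidHom.mk' (fun x => u (fun i => x.v (.inr i), x.a) * μ fun i => x.v (.inl i)) fun x y => by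
      show u (fun i => x.v (.inr i) + y.v (.inr i), (x * y).a) * μ (fun i => x.v (.inl i) + y.v (.inl i)) = _
      rw [show (fun i => x.v (.inl i) + y.v (.inl i)) = (fun i => x.v (.inl i)) + fun i => y.v (.inl i) from rfl,
        ← hμμ]
      calc _ = u (fun i => x.v (.inr i), x.a) * u (fun i => y.v (.inr i), y.a + (fun i => x.v (.inl i)) ⬝ᵥ fun i => y.v (.inr i))
            * (μ (fun i => x.v (.inl i)) * μ (fun i => y.v (.inl i))) := by
              rw [← hum]; congr 3
              rw [FormGroup.mul_a, FormGroup.bil_plus, dotProduct]; ring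
        _ = _ := by
          have e := hμu (fun i => x.v (.inl i)) (fun i => y.v (.inr i), y.a)
          rw [← e]; group
  have hmeet : ∀ {w}, u w ∈ M → u w = 1 := fun {w} h => Subgroup.mem_bot.1 (hUM ▸ (⟨huU w, h⟩ : u w ∈ U ⊓ M))
  have hRinj : ∀ {l l'}, R l = R l' → l = l' := fun {l l'} e =>
    AddEquiv.ext fun w => hu_inj (by rw [← hR, ← hR, e])
  have hμinj : ∀ {b}, μ b = 1 → b = 0 := fun {b} e => funext fun i => by
    have := hμu b (Pi.single i 1, 0)
    rw [e, one_mul, inv_one, mul_one] at this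
    have := congrArg Prod.snd (hu_inj this)
    simpa using this.symm
  have hφ : Function.Injective φ := (injective_iff_map_eq_one φ).2 fun x hx => by
    have hx' : u (fun i => x.v (.inr i), x.a) * μ (fun i => x.v (.inl i)) = 1 := hx
    have h1 : u (fun i => x.v (.inr i), x.a) = 1 := hmeet (by rw [mul_eq_one_iff_eq_inv.1 hx']; exact inv_mem (hRM _))
    rw [h1, one_mul] at hx'
    have h2 := hμinj hx'
    have h3 := hu_inj (h1.trans hu0.symm)
    refine FormGroup.ext_pair (funext fun p => ?_) (congrArg Prod.snd h3)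
    rcases p with i | i
    · exact congrFun h2 i
    · exact congrFun (congrArg Prod.fst h3) i
  have memφ : ∀ w b, u w * μ b ∈ φ.range := fun w b => ⟨⟨Sum.elim b w.1, w.2⟩, rfl⟩
  -- the block part
  let κ : GL (Fin n) (ZMod 2) →* G := MonoidHom.mk' (fun A => R (lin 0 A)) fun A A' =>
    uniq (hRM _) (mul_mem (hRM _) (hRM _)) fun w => by
      calc R (lin 0 (A * A')) * u w * (R (lin 0 (A * A')))⁻¹ = u (lin 0 A (lin 0 A' w)) := by
            rw [hR, lin_lin]; simp
        _ = R (lin 0 A) * (R (lin 0 A') * u w * (R (lin 0 A'))⁻¹) * (R (lin 0 A))⁻¹ := by rw [hR, hR]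
        _ = _ := by group
  have hκu : ∀ A w, κ A * u w * (κ A)⁻¹ = u (lin 0 A w) := fun A w => hR _ w
  set C := Subgroup.centralizer ((Subgroup.zpowers (u₀ : G) : Subgroup G) : Set G) with hCdef
  have memC : ∀ {g : G}, g ∈ C ↔ g * u (0, 1) * g⁻¹ = u (0, 1) := by
    intro g
    rw [hCdef, Subgroup.zpowers_eq_closure, Subgroup.centralizer_closure, Subgroup.mem_centralizer_singleton_iff,
      ← hu01, mul_inv_eq_iff_eq_mul]
  have hUcomm : ∀ w w', u w * u w' * (u w)⁻¹ = u w' := fun w w' => by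
    rw [← hum, add_comm, hum, mul_inv_cancel_right]
  have hφC : φ.range ≤ C := by
    rintro _ ⟨x, rfl⟩
    refine mul_mem (memC.2 (hUcomm _ _)) (memC.2 ?_)
    rw [hμu]; simp
  have hκC : κ.range ≤ C := by
    rintro _ ⟨A, rfl⟩
    refine memC.2 ?_
    rw [hκu, lin_apply]; simp
  have hdecomp : ∀ c ∈ C, ∃ q ∈ φ.range, ∃ A, c = q * κ A := by
    intro c hc
    obtain ⟨x, hx, m, hm, rfl⟩ := Subgroup.mem_sup_of_normal_left.1 (hUM' ▸ Subgroup.mem_top c : c ∈ U ⊔ M)
    obtain ⟨w₀, rfl⟩ := hu_surj x hx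
    have hact : ∀ w, ∃ w', u w' = m * u w * m⁻¹ :=
      fun w => hu_surj _ ((inferInstance : U.Normal).conj_mem _ (huU w) m)
    choose lm hlm using hact
    have hfix : lm (0, 1) = (0, 1) := hu_inj (by
      rw [hlm]
      have h := memC.1 hc
      calc m * u (0, 1) * m⁻¹ = (u w₀)⁻¹ * (u w₀ * m * u (0, 1) * (u w₀ * m)⁻¹) * u w₀ := by group
        _ = u (0, 1) := by
          rw [h]
          calc (u w₀)⁻¹ * u (0, 1) * u w₀ = (u w₀)⁻¹ * (u w₀ * u (0, 1) * (u w₀)⁻¹) * u w₀ := by rw [hUcomm]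
            _ = u (0, 1) := by group)
    have hlinv : ∀ v w, lm (v + w) = lm v + lm w := fun v w => hu_inj (by rw [hum, hlm, hlm, hlm, hum]; group)
    let l := (AddMonoidHom.mk' lm hlinv).toZModLinearMap 2
    let Al : (Fin n → ZMod 2) →ₗ[ZMod 2] (Fin n → ZMod 2) := LinearMap.fst _ _ _ ∘ₗ l ∘ₗ LinearMap.inl _ _ _
    let fl : (Fin n → ZMod 2) →ₗ[ZMod 2] ZMod 2 := LinearMap.snd _ _ _ ∘ₗ l ∘ₗ LinearMap.inl _ _ _
    have hform : ∀ x c, lm (x, c) = (Al x, fl x + c) := by
      intro x c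
      have e : ((x, c) : (Fin n → ZMod 2) × ZMod 2) = (x, 0) + c • (0, 1) := by simp
      have h : l (x, c) = l (x, 0) + c • l (0, 1) := by rw [← map_smul, ← map_add, ← e]
      have h' : lm (x, c) = lm (x, 0) + c • ((0, 1) : (Fin n → ZMod 2) × ZMod 2) := by rw [← hfix]; exact h
      rw [h']
      exact Prod.ext (by simp; rfl) (by simp; rfl)
    have hAinj : Function.Injective Al := by
      refine (injective_iff_map_eq_zero Al).2 fun x hx => ?_
      have h : lm (x, 0) = lm (0, fl x) := by rw [hform, hform, hx, map_zero, map_zero, add_zero, zero_add]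
      have := congrArg u h
      rw [hlm, hlm, mul_left_inj, mul_right_inj] at this
      exact congrArg Prod.fst (hu_inj this)
    have hAu : IsUnit (LinearMap.toMatrix' Al) := Matrix.mulVec_injective_iff_isUnit.1 fun x y e => hAinj (by
      rwa [LinearMap.toMatrix'_mulVec, LinearMap.toMatrix'_mulVec] at e)
    let A : GL (Fin n) (ZMod 2) := hAu.unit
    let b : Fin n → ZMod 2 := (fun i => fl (Pi.single i 1)) ᵥ* ((A⁻¹ : GL (Fin n) (ZMod 2)) : Matrix (Fin n) (Fin n) (ZMod 2))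
    refine ⟨u w₀ * μ b, memφ _ _, A, ?_⟩
    rw [mul_assoc]
    refine congrArg (u w₀ * ·) (uniq hm (mul_mem (hRM _) (hRM _)) fun w => ?_)
    obtain ⟨x, c⟩ := w
    rw [← hlm, hform]
    calc u (Al x, fl x + c) = μ b * u (lin 0 A (x, c)) * (μ b)⁻¹ := by
          rw [hμu, lin_apply]
          have hA : (A : Matrix (Fin n) (Fin n) (ZMod 2)) *ᵥ x = Al x := LinearMap.toMatrix'_mulVec Al x
          have hf : fl x = b ⬝ᵥ Al x := by
            rw [← hA, dotProduct_mulVec, vecMul_vecMul, ← Units.val_mul, inv_mul_cancel, Units.val_one, vecMul_one]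
            conv_lhs => rw [pi_eq_sum_univ' x, map_sum]
            exact Finset.sum_congr rfl fun i _ => by rw [map_smul, smul_eq_mul, mul_comm]
          simp [hA, hf, add_comm]
      _ = μ b * κ A * u (x, c) * (μ b * κ A)⁻¹ := by rw [← hκu]; group
  have hnorm : C ≤ Subgroup.normalizer (φ.range : Set G) := by
    have hκn : ∀ A, ∀ y ∈ φ.range, κ A * y * (κ A)⁻¹ ∈ φ.range := by
      rintro A _ ⟨x, rfl⟩
      show κ A * (u _ * μ _) * (κ A)⁻¹ ∈ φ.range
      have e : κ A * μ (fun i => x.v (.inl i)) * (κ A)⁻¹ =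
          μ ((fun i => x.v (.inl i)) ᵥ* ((A⁻¹ : GL (Fin n) (ZMod 2)) : Matrix (Fin n) (Fin n) (ZMod 2))) := by
        rw [mul_inv_eq_iff_eq_mul]
        refine uniq (mul_mem (hRM _) (hRM _)) (mul_mem (hRM _) (hRM _)) fun w => ?_
        have l1 : ∀ (a c : G), a * c * u w * (a * c)⁻¹ = a * (c * u w * c⁻¹) * a⁻¹ := fun a c => by group
        rw [l1, l1, show κ A = R (lin 0 A) from rfl]
        simp only [hμ, hR, lin_lin]
        congr 2
        simp
      rw [show ∀ a b : G, κ A * (a * b) * (κ A)⁻¹ = (κ A * a * (κ A)⁻¹) * (κ A * b * (κ A)⁻¹) from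
              fun a b => by group, hκu, e]
      exact memφ _ _
    have key : ∀ c ∈ C, ∀ y ∈ φ.range, c * y * c⁻¹ ∈ φ.range := by
      intro c hc y hy
      obtain ⟨q, hq, A, rfl⟩ := hdecomp c hc
      rw [show q * κ A * y * (q * κ A)⁻¹ = q * (κ A * y * (κ A)⁻¹) * q⁻¹ by group]
      exact mul_mem (mul_mem hq (hκn A y hy)) (inv_mem hq)
    intro c hc
    refine Subgroup.mem_normalizer_iff.2 fun y => ⟨key c hc y, fun hy => ?_⟩
    have := key c⁻¹ (inv_mem hc) _ hy
    simpa [mul_assoc] using this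
  obtain ⟨hcore, hKC, hmeet', hsup, hiso⟩ := SplitLinear.pCore_of_split (C := C) (Q0 := φ.range) κ
    ((injective_iff_map_eq_one κ).2 fun A hA => by
      refine Units.ext (Matrix.toLin'.injective (LinearMap.ext fun x => ?_))
      have := hκu A (x, 0)
      rw [hA, one_mul, inv_one, mul_one, lin_apply] at this
      have := congrArg Prod.fst (hu_inj this)
      simpa [Matrix.toLin'_apply] using this.symm)
    hκC hφC ((MonoidHom.range_eq_map φ).symm ▸ (FormGroup.isPGroup_EB.to_subgroup _).map _) hnorm hdecomp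
    (fun A ⟨x, hx⟩ => by
      have hx' : u (fun i => x.v (.inr i), x.a) * μ (fun i => x.v (.inl i)) = R (lin 0 A) := hx
      have h1 : u (fun i => x.v (.inr i), x.a) = 1 :=
        hmeet (by rw [eq_mul_inv_of_mul_eq hx']; exact mul_mem (hRM _) (inv_mem (hRM _)))
      rw [h1, one_mul] at hx'
      refine Units.ext (Matrix.toLin'.injective (LinearMap.ext fun y => ?_))
      have := congrArg Prod.fst (congrArg (fun l : ((Fin n → ZMod 2) × ZMod 2) ≃+ _ => l (y, 0)) (hRinj hx'))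
      simpa [lin_apply, Matrix.toLin'_apply] using this.symm)
    fun N hN h2 => SplitLinear.normal_two_eq_bot hN h2
  subst hQ
  rw [hcore]
  obtain ⟨hE, hcard, hA⟩ := SplitLinear.plus_image n hn φ hφ
  have huQ : ∀ w, u w ∈ φ.range := fun w => by
    have h1 : μ 0 = 1 := uniq (hRM _) (one_mem _) fun v => by rw [hμu]; simp
    simpa [h1] using memφ w 0
  obtain ⟨y, hci⟩ := LargeExtra.exists_centralInvolution hE
  obtain rfl : (u₀ : G) = y := (hci.of_central _ (hu01 ▸ huQ _) fun q hq => by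
    have := Subgroup.mem_centralizer_iff.1 (hφC hq) _ (Subgroup.mem_zpowers (u₀ : G))
    exact this.symm).resolve_left fun e => hu1 (Subtype.ext e)
  have hCU : ∀ g : G, (∀ w, g * u w * g⁻¹ = u w) → g ∈ U := by
    intro g hg
    obtain ⟨x, hx, m, hm, rfl⟩ := Subgroup.mem_sup_of_normal_left.1 (hUM' ▸ Subgroup.mem_top g : g ∈ U ⊔ M)
    obtain ⟨w₀, rfl⟩ := hu_surj x hx
    have : m = 1 := uniq hm (one_mem _) fun w => by
      calc m * u w * m⁻¹ = (u w₀)⁻¹ * (u w₀ * m * u w * (u w₀ * m)⁻¹) * u w₀ := by group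
        _ = (u w₀)⁻¹ * (u w₀ * u w * (u w₀)⁻¹) * u w₀ := by rw [hg, hUcomm]
        _ = 1 * u w * 1⁻¹ := by group
    rw [this, mul_one]
    exact huU w₀
  refine ⟨hE, hcard, hA, ⟨hE, ?_, ?_, ?_⟩, κ.range, hKC, hmeet', hsup, hiso⟩
  · refine le_antisymm (fun g hg => ?_) ?_
    · rw [hci.center_eq]
      have hgU := hCU g fun w => mul_inv_eq_iff_eq_mul.2 (hg _ (huQ w)).symm
      obtain ⟨w, rfl⟩ := hu_surj g hgU
      have hw : w.1 = 0 := by
        funext i
        have h := hg _ (memφ 0 (Pi.single i 1))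
        rw [hu0, one_mul] at h
        have h' := hμu (Pi.single i 1) w
        rw [h, mul_inv_cancel_right] at h'
        simpa using congrArg Prod.snd (hu_inj h')
      rcases (show w.2 = 0 ∨ w.2 = 1 from (Fin.exists_fin_two (p := fun a => w.2 = a)).1 ⟨w.2, rfl⟩) with h | h
      · rw [show w = 0 from Prod.ext hw h, hu0]; exact one_mem _
      · rw [show w = (0, 1) from Prod.ext hw h, hu01]; exact Subgroup.mem_zpowers _
    · rintro _ ⟨q, hq, rfl⟩ x hx
      exact congrArg (fun v : ↥φ.range => (v : G)) (Subgroup.mem_center_iff.1 hq ⟨x, hx⟩)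
  · rw [hci.center_eq, ← hCdef]
    exact hnorm
  · intro K hK hQK
    refine (Subgroup.eq_bot_iff_forall _).2 fun k hk => ?_
    have hU2 : IsPGroup 2 ↥U := IsPGroup.of_card hUcard
    refine LargeExtra.eq_one_of_odd_of_two hK hU2 hk (hCU k fun w => ?_)
    have := LargeExtra.commute_of_two_subgroup hK hU2 (huU w) (hQK (huQ w)) hk
      (by rw [Subgroup.normalizer_eq_top]; trivial)
    exact mul_inv_eq_iff_eq_mul.2 this

end Cfsg.Agent.S5423
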