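import Cfsg.Statements.S5424
import Cfsg.Agent.PGroup.SplitLinearTwo

set_option autoImplicit false
open Cfsg

namespace Cfsg.Agent.S5424

open Matrix

variable {n : ℕ}

theorem cases_one' {α : Sort*} (a : α) (f : Fin (n + 1) → α) : Fin.cases (motive := fun _ => α) a f (1 : Fin (n + 2)) = f 0 := rfl

theorem zmod2_cases (c : ZMod 2) : c = 0 ∨ c = 1 := by
  revert c; decide

/-- A matrix in block form. -/
def blk (b a : Fin n → ZMod 2) (c : ZMod 2) (A : Matrix (Fin n) (Fin n) (ZMod 2)) :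
    Matrix (Fin (n + 2)) (Fin (n + 2)) (ZMod 2) := fun i j =>
  Fin.cases (Fin.cases 1 (fun j => Fin.cases c b j) j)
    (fun i => Fin.cases (Fin.cases 0 (fun j => Fin.cases 1 (fun _ => 0) j) j)
      (fun i => Fin.cases 0 (fun j => Fin.cases (a i) (fun j => A i j) j) j) i) i

theorem blk_mul (b a b' a' : Fin n → ZMod 2) (c c' : ZMod 2) (A A' : Matrix (Fin n) (Fin n) (ZMod 2)) :
    blk b a c A * blk b' a' c' A' = blk (b' + b ᵥ* A') (a + A *ᵥ a') (c' + c + b ⬝ᵥ a') (A * A') := by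
  ext i j
  refine Fin.cases ?_ (fun i => Fin.cases ?_ (fun i => ?_) i) i <;>
    refine Fin.cases ?_ (fun j => Fin.cases ?_ (fun j => ?_) j) j <;>
    simp [blk, cases_one', Matrix.mul_apply, Fin.sum_univ_succ, vecMul, mulVec, dotProduct, add_assoc]

theorem blk_one : blk (0 : Fin n → ZMod 2) 0 0 1 = 1 := by
  ext i j
  refine Fin.cases ?_ (fun i => Fin.cases ?_ (fun i => ?_) i) i <;>
    refine Fin.cases ?_ (fun j => Fin.cases ?_ (fun j => ?_) j) j <;>
    simp [blk, cases_one', Matrix.one_apply, Fin.ext_iff]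

theorem blk_inj {b a b' a' : Fin n → ZMod 2} {c c' : ZMod 2} {A A' : Matrix (Fin n) (Fin n) (ZMod 2)}
    (h : blk b a c A = blk b' a' c' A') : b = b' ∧ a = a' ∧ c = c' ∧ A = A' :=
  ⟨funext fun j => congrFun (congrFun h 0) j.succ.succ, funext fun i => congrFun (congrFun h i.succ.succ) 1,
    congrFun (congrFun h 0) 1, Matrix.ext fun i j => congrFun (congrFun h i.succ.succ) j.succ.succ⟩

theorem blk_transvection : blk (0 : Fin n → ZMod 2) 0 1 1 = Matrix.transvection 0 1 1 := by
  ext i j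
  refine Fin.cases ?_ (fun i => Fin.cases ?_ (fun i => ?_) i) i <;>
    refine Fin.cases ?_ (fun j => Fin.cases ?_ (fun j => ?_) j) j <;>
    simp [blk, cases_one', Matrix.transvection, Matrix.single_apply, Matrix.one_apply, Fin.ext_iff]

theorem blk_single (m : ℕ) : blk (Pi.single (0 : Fin (m + 1)) 1) 0 0 1 =
    Matrix.transvection (0 : Fin (m + 1 + 2)) (Fin.succ (Fin.succ 0)) (1 : ZMod 2) := by
  have s1 : ∀ (a : Fin (m + 1)), Fin.succ (Fin.succ a) ≠ (Fin.succ 0 : Fin (m + 1 + 2)) := fun a e =>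
    Fin.succ_ne_zero a (Fin.succ_injective _ e)
  have s2 : ∀ (a : Fin (m + 1 + 1)), (Fin.succ a : Fin (m + 1 + 2)) ≠ 0 := fun a => Fin.succ_ne_zero a
  have s3 : (1 : Fin (m + 1 + 2)) ≠ 0 := fun e => Fin.succ_ne_zero (0 : Fin (m + 2)) e
  ext i j
  rw [Matrix.transvection, Matrix.add_apply, Matrix.single_apply, Matrix.one_apply]
  refine Fin.cases ?_ (fun i => Fin.cases ?_ (fun i => ?_) i) i <;>
    refine Fin.cases ?_ (fun j => Fin.cases ?_ (fun j => ?_) j) j
  · show (1 : ZMod 2) = _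
    rw [if_pos rfl, if_neg fun h => s2 _ h.2, add_zero]
  · show (0 : ZMod 2) = _
    rw [if_neg (s2 _).symm, if_neg fun h => Fin.succ_ne_zero _ (Fin.succ_injective _ h.2), add_zero]
  · show (Pi.single (0 : Fin (m + 1)) 1 : Fin (m + 1) → ZMod 2) j = _
    rw [if_neg (s2 _).symm, zero_add, Pi.single_apply]
    refine if_congr ⟨fun e => ⟨rfl, by rw [e]⟩, fun e => ?_⟩ rfl rfl
    exact (Fin.succ_injective _ (Fin.succ_injective _ e.2)).symm
  · show (0 : ZMod 2) = _
    rw [if_neg (s2 _), if_neg fun h => s2 _ h.1.symm, add_zero]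
  · show (1 : ZMod 2) = _
    rw [if_pos rfl, if_neg fun h => s2 _ h.1.symm, add_zero]
  · show (0 : ZMod 2) = _
    rw [if_neg (s1 j).symm, if_neg fun h => s2 _ h.1.symm, add_zero]
  · show (0 : ZMod 2) = _
    rw [if_neg (s2 _), if_neg fun h => s2 _ h.1.symm, add_zero]
  · show (0 : ZMod 2) = _
    rw [if_neg (s1 i), if_neg fun h => s2 _ h.1.symm, add_zero]
  · show (1 : Matrix (Fin (m + 1)) (Fin (m + 1)) (ZMod 2)) i j = _
    rw [Matrix.one_apply]
    simp [(s2 i.succ).symm]

local notation "SLM" m => Matrix.SpecialLinearGroup (Fin m) (ZMod 2)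

theorem exists_blk {g z : SLM (n + 2)} (hz : (z : Matrix (Fin (n + 2)) (Fin (n + 2)) (ZMod 2)) = Matrix.transvection 0 1 1)
    (hg : g * z = z * g) : ∃ b a c A, (g : Matrix (Fin (n + 2)) (Fin (n + 2)) (ZMod 2)) = blk b a c A := by
  have h := congrArg (fun x : SLM (n + 2) => (x : Matrix (Fin (n + 2)) (Fin (n + 2)) (ZMod 2))) hg
  simp only [Matrix.SpecialLinearGroup.coe_mul, hz, Matrix.transvection, mul_add, add_mul, one_mul, mul_one,
    add_right_inj] at h
  set M := (g : Matrix (Fin (n + 2)) (Fin (n + 2)) (ZMod 2)) with hM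
  have hcol : ∀ i, i ≠ 0 → M i 0 = 0 := fun i hi => by
    have := congrFun (congrFun h i) 1
    simpa [Matrix.single_mul_apply_of_ne, hi] using this
  have hrow : ∀ j, j ≠ 1 → M 1 j = 0 := fun j hj => by
    have := congrFun (congrFun h 0) j
    simpa [Matrix.mul_single_apply_of_ne, hj] using this.symm
  have h00 : M 0 0 = 1 := SplitLinear.zmod2_eq_one fun e => by
    have := Matrix.det_eq_zero_of_column_eq_zero 0 (A := M) fun i => by
      by_cases hi : i = 0
      · rw [hi, e]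
      · exact hcol i hi
    rw [g.det_coe] at this
    exact one_ne_zero this
  have h11 : M 1 1 = 1 := by
    have := congrFun (congrFun h 0) 1
    simp [h00] at this
    exact this.symm
  refine ⟨fun j => M 0 j.succ.succ, fun i => M i.succ.succ 1, M 0 1, fun i j => M i.succ.succ j.succ.succ,
    Matrix.ext fun i j => ?_⟩
  refine Fin.cases ?_ (fun i => Fin.cases ?_ (fun i => ?_) i) i <;>
    refine Fin.cases ?_ (fun j => Fin.cases ?_ (fun j => ?_) j) j
  · exact h00
  · rfl
  · rfl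
  · exact hcol _ (Fin.succ_ne_zero _)
  · exact h11
  · exact hrow _ fun e => Fin.succ_ne_zero _ (Fin.succ_injective _ e)
  · exact hcol _ (Fin.succ_ne_zero _)
  · rfl
  · rfl

/-- The embedding of the plus model. -/
def plusHom (n : ℕ) : FormGroup.EB (FormGroup.plusMat n) →* (SLM (n + 2)) :=
  MonoidHom.mk' (fun x => ⟨blk (fun i => x.v (.inl i)) (fun i => x.v (.inr i)) x.a 1, by
    refine SplitLinear.zmod2_unit (Matrix.isUnit_iff_isUnit_det _ |>.1 ⟨⟨blk (fun i => x.v (.inl i)) (fun i => x.v (.inr i)) x.a 1,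
      blk (fun i => x⁻¹.v (.inl i))
      (fun i => x⁻¹.v (.inr i)) x⁻¹.a 1, ?_, ?_⟩, rfl⟩)
    all_goals
      rw [blk_mul, ← blk_one, vecMul_one, one_mulVec, one_mul]
      congr 1
      · exact funext fun i => CharTwo.add_self_eq_zero (x.v (.inl i))
      · exact funext fun i => CharTwo.add_self_eq_zero (x.v (.inr i))
      · show _ = (0 : ZMod 2)
        rw [show x⁻¹.v = x.v from rfl, show x⁻¹.a = x.a + FormGroup.bil (FormGroup.plusMat n) x.v x.v from rfl,
          FormGroup.bil_plus, dotProduct]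
        generalize (∑ i, x.v (.inl i) * x.v (.inr i)) = s
        revert s
        generalize x.a = t
        revert t
        decide⟩)
    fun x y => Subtype.ext (by
      show blk _ _ (x * y).a 1 = blk _ _ x.a 1 * blk _ _ y.a 1
      rw [blk_mul, vecMul_one, one_mulVec, one_mul]
      congr 1
      · exact funext fun i => add_comm (x.v (.inl i)) (y.v (.inl i))
      · rw [FormGroup.mul_a, FormGroup.bil_plus, dotProduct, add_comm x.a])

/-- The block embedding. -/
def blockHom (n : ℕ) : (SLM n) →* (SLM (n + 2)) :=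
  MonoidHom.mk' (fun A => ⟨blk 0 0 0 A, by
    refine SplitLinear.zmod2_unit (Matrix.isUnit_iff_isUnit_det _ |>.1
      ⟨⟨blk 0 0 0 (A : Matrix (Fin n) (Fin n) (ZMod 2)), blk 0 0 0 ((A⁻¹ : SLM n) : Matrix (Fin n) (Fin n) (ZMod 2)), ?_, ?_⟩, rfl⟩)
    all_goals
      rw [blk_mul, ← Matrix.SpecialLinearGroup.coe_mul]
      simp [← blk_one]⟩)
    fun A B => Subtype.ext (by
      show blk 0 0 0 _ = blk 0 0 0 _ * blk 0 0 0 _
      rw [blk_mul]
      simp)

theorem sl_normal_two_eq_bot {N : Subgroup (SLM n)} (hn : N.Normal) (hN : IsPGroup 2 N) : N = ⊥ := by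
  let f : (SLM n) →* GL (Fin n) (ZMod 2) := Matrix.SpecialLinearGroup.toGL
  have hf : Function.Injective f := fun a b e => Subtype.ext (congrArg Units.val e)
  have hfs : Function.Surjective f := fun g => ⟨⟨(g : Matrix (Fin n) (Fin n) (ZMod 2)),
    SplitLinear.zmod2_unit ((Matrix.isUnit_iff_isUnit_det _).1 g.isUnit)⟩, Units.ext rfl⟩
  have h := SplitLinear.normal_two_eq_bot (hn.map f hfs) (hN.map f)
  exact (Subgroup.map_eq_bot_iff_of_injective _ hf).1 h

/-- Let G be the special linear group of degree n + 2 over the field with two elements, n ≥ 2, let z be a transvection, and let Q be the largest normal 2-subgroup of the centralizer C of z. Then Q is extraspecial of order 2^(2n+1) with an elementary abelian subgroup of order 2^(n+1) (plus type), Q is a large extraspecial 2-subgroup of G, and C is the split extension of Q by the special linear group of degree n over the field with two elements. -/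
theorem result (n : ℕ) (hn : 2 ≤ n) (z : Matrix.SpecialLinearGroup (Fin (n + 2)) (ZMod 2)) (hz : (z : Matrix (Fin (n + 2)) (Fin (n + 2)) (ZMod 2)) = Matrix.transvection 0 1 1) (Q : Subgroup (Matrix.SpecialLinearGroup (Fin (n + 2)) (ZMod 2))) (hQ : Q = (Cfsg.pCore 2 ↥(Subgroup.centralizer ({z} : Set (Matrix.SpecialLinearGroup (Fin (n + 2)) (ZMod 2))))).map (Subgroup.centralizer ({z} : Set (Matrix.SpecialLinearGroup (Fin (n + 2)) (ZMod 2)))).subtype) : Cfsg.IsExtraspecial 2 ↥Q ∧ Nat.card ↥Q = 2 ^ (2 * n + 1) ∧ (∃ E : Subgroup (Matrix.SpecialLinearGroup (Fin (n + 2)) (ZMod 2)), E ≤ Q ∧ Cfsg.IsElementaryAbelian 2 E ∧ Nat.card ↥E = 2 ^ (n + 1)) ∧ Cfsg.IsLargeExtraspecial Q ∧ ∃ K : Subgroup (Matrix.SpecialLinearGroup (Fin (n + 2)) (ZMod 2)), K ≤ Subgroup.centralizer ({z} : Set (Matrix.SpecialLinearGroup (Fin (n + 2)) (ZMod 2))) ∧ Q ⊓ K = ⊥ ∧ Q ⊔ K = Subgroup.centralizer ({z} : Set (Matrix.SpecialLinearGroup (Fin (n + 2)) (ZMod 2))) ∧ Nonempty (↥K ≃* Matrix.SpecialLinearGroup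 (Fin n) (ZMod 2)) := by
  haveI : Fact (Nat.Prime 2) := ⟨Nat.prime_two⟩
  set C := Subgroup.centralizer ({z} : Set (Matrix.SpecialLinearGroup (Fin (n + 2)) (ZMod 2))) with hCdef
  have hφ : Function.Injective (plusHom n) := fun x y e => by
    obtain ⟨h1, h2, h3, -⟩ := blk_inj (congrArg Subtype.val e)
    refine FormGroup.ext_pair (funext fun p => ?_) h3
    rcases p with i | i
    · exact congrFun h1 i
    · exact congrFun h2 i
  have memC : ∀ {g : Matrix.SpecialLinearGroup (Fin (n + 2)) (ZMod 2)} {b a c A},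
      (g : Matrix (Fin (n + 2)) (Fin (n + 2)) (ZMod 2)) = blk b a c A → g ∈ C := by
    intro g b a c A hg
    refine Subgroup.mem_centralizer_singleton_iff.2 (Subtype.ext ?_)
    rw [Matrix.SpecialLinearGroup.coe_mul, Matrix.SpecialLinearGroup.coe_mul, hg, hz, ← blk_transvection, blk_mul, blk_mul]
    simp [add_comm]
  have mem0 : ∀ {g : Matrix.SpecialLinearGroup (Fin (n + 2)) (ZMod 2)} {b a c},
      (g : Matrix (Fin (n + 2)) (Fin (n + 2)) (ZMod 2)) = blk b a c 1 → g ∈ (plusHom n).range := by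
    intro g b a c hg
    exact ⟨⟨Sum.elim b a, c⟩, Subtype.ext hg.symm⟩
  have hnorm : C ≤ Subgroup.normalizer ((plusHom n).range : Set (Matrix.SpecialLinearGroup (Fin (n + 2)) (ZMod 2))) := by
    have key : ∀ g ∈ C, ∀ x ∈ (plusHom n).range, g * x * g⁻¹ ∈ (plusHom n).range := by
      rintro g hg _ ⟨x, rfl⟩
      obtain ⟨b, a, c, A, eg⟩ := exists_blk hz (Subgroup.mem_centralizer_singleton_iff.1 hg)
      obtain ⟨b₁, a₁, c₁, A₁, ei⟩ := exists_blk hz (Subgroup.mem_centralizer_singleton_iff.1 (inv_mem hg))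
      have h1 := congrArg Subtype.val (mul_inv_cancel g)
      rw [Matrix.SpecialLinearGroup.coe_mul, eg, ei, blk_mul, Matrix.SpecialLinearGroup.coe_one, ← blk_one] at h1
      obtain ⟨-, -, -, hA⟩ := blk_inj h1
      have e : ((g * plusHom n x * g⁻¹ : Matrix.SpecialLinearGroup (Fin (n + 2)) (ZMod 2)) :
          Matrix (Fin (n + 2)) (Fin (n + 2)) (ZMod 2)) =
          blk b a c A * blk (fun i => x.v (.inl i)) (fun i => x.v (.inr i)) x.a 1 * blk b₁ a₁ c₁ A₁ := by
        rw [Matrix.SpecialLinearGroup.coe_mul, Matrix.SpecialLinearGroup.coe_mul, eg, ei]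
        rfl
      rw [blk_mul, blk_mul, mul_one, hA] at e
      exact mem0 e
    intro g hg
    refine Subgroup.mem_normalizer_iff.2 fun x => ⟨key g hg x, fun hx => ?_⟩
    have := key g⁻¹ (inv_mem hg) _ hx
    simpa [mul_assoc] using this
  obtain ⟨hcore, hKC, hmeet, hsup, hiso⟩ := SplitLinear.pCore_of_split (C := C) (Q0 := (plusHom n).range) (blockHom n)
    (fun A B e => Subtype.ext (blk_inj (congrArg Subtype.val e)).2.2.2)
    (by rintro _ ⟨A, rfl⟩; exact memC rfl) (by rintro _ ⟨x, rfl⟩; exact memC rfl)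
    ((MonoidHom.range_eq_map (plusHom n)).symm ▸ (FormGroup.isPGroup_EB.to_subgroup _).map _) hnorm
    (fun g hg => by
      obtain ⟨b, a, c, A, eg⟩ := exists_blk hz (Subgroup.mem_centralizer_singleton_iff.1 hg)
      obtain ⟨b₁, a₁, c₁, A₁, ei⟩ := exists_blk hz (Subgroup.mem_centralizer_singleton_iff.1 (inv_mem hg))
      have h1 := congrArg Subtype.val (mul_inv_cancel g)
      rw [Matrix.SpecialLinearGroup.coe_mul, eg, ei, blk_mul, Matrix.SpecialLinearGroup.coe_one, ← blk_one] at h1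
      obtain ⟨-, -, -, hA⟩ := blk_inj h1
      have h2 := congrArg Subtype.val (inv_mul_cancel g)
      rw [Matrix.SpecialLinearGroup.coe_mul, eg, ei, blk_mul, Matrix.SpecialLinearGroup.coe_one, ← blk_one] at h2
      obtain ⟨-, -, -, hA'⟩ := blk_inj h2
      let Au : Matrix.SpecialLinearGroup (Fin n) (ZMod 2) :=
        ⟨A, SplitLinear.zmod2_unit ((Matrix.isUnit_iff_isUnit_det _).1 ⟨⟨A, A₁, hA, hA'⟩, rfl⟩)⟩
      refine ⟨plusHom n ⟨Sum.elim (b ᵥ* A₁) a, c⟩, ⟨_, rfl⟩, Au, Subtype.ext ?_⟩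
      rw [Matrix.SpecialLinearGroup.coe_mul, eg]
      show _ = blk (b ᵥ* A₁) a c 1 * blk 0 0 0 A
      rw [blk_mul]
      simp [vecMul_vecMul, hA'])
    (fun A ⟨x, e⟩ => Subtype.ext (blk_inj (congrArg Subtype.val e)).2.2.2.symm)
    fun N hN h2 => sl_normal_two_eq_bot hN h2
  subst hQ
  obtain ⟨hE, hcard, hA⟩ := SplitLinear.plus_image n (by omega) (plusHom n) hφ
  rw [hcore]
  have hzQ : z ∈ (plusHom n).range := mem0 (hz.trans blk_transvection.symm)
  have hz1 : z ≠ 1 := fun e => by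
    have := congrArg Subtype.val e
    rw [hz, ← blk_transvection, Matrix.SpecialLinearGroup.coe_one, ← blk_one] at this
    exact one_ne_zero (blk_inj this).2.2.1
  obtain ⟨y, hci⟩ := LargeExtra.exists_centralInvolution hE
  obtain rfl : z = y := (hci.of_central z hzQ fun q hq => by
    obtain ⟨x, rfl⟩ := hq
    exact Subgroup.mem_centralizer_singleton_iff.1 (memC (g := plusHom n x) rfl)).resolve_left hz1
  have hcent : Subgroup.centralizer ((plusHom n).range : Set (Matrix.SpecialLinearGroup (Fin (n + 2)) (ZMod 2))) ≤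
      Subgroup.zpowers z := by
    intro g hg
    obtain ⟨b, a, c, A, eg⟩ := exists_blk hz (hg z hzQ).symm
    have hcom : ∀ b' a' : Fin n → ZMod 2, blk b' a' 0 1 * blk b a c A = blk b a c A * blk b' a' 0 1 := by
      intro b' a'
      have := congrArg Subtype.val (hg (plusHom n ⟨Sum.elim b' a', 0⟩) ⟨_, rfl⟩)
      rw [Matrix.SpecialLinearGroup.coe_mul, Matrix.SpecialLinearGroup.coe_mul, eg] at this
      exact this
    have hA1 : A = 1 := by
      ext i j
      obtain ⟨e1, -⟩ := blk_inj (by simpa only [blk_mul] using hcom (Pi.single i 1) 0)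
      have := congrFun e1 j
      simpa [vecMul, dotProduct, Pi.single_apply, Matrix.one_apply, eq_comm, add_comm] using this
    subst hA1
    have hb : b = 0 := by
      funext i
      obtain ⟨-, -, e1, -⟩ := blk_inj (by simpa only [blk_mul] using hcom 0 (Pi.single i 1))
      simpa using e1.symm
    have ha : a = 0 := by
      funext i
      obtain ⟨-, -, e1, -⟩ := blk_inj (by simpa only [blk_mul] using hcom (Pi.single i 1) 0)
      simpa using e1
    subst ha hb
    exact hci.mem_zpowers_iff.2 (by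
      rcases zmod2_cases c with rfl | rfl
      · exact Or.inl (Subtype.ext (eg.trans blk_one))
      · exact Or.inr (Subtype.ext (eg.trans (blk_transvection.trans hz.symm))))
  have h12 : (1 : Fin (n + 2)) ≠ (⟨2, by omega⟩ : Fin (n + 2)) := by simp [Fin.ext_iff]
  set P : Matrix (Fin (n + 2)) (Fin (n + 2)) (ZMod 2) :=
    (Equiv.swap (1 : Fin (n + 2)) ⟨2, by omega⟩).permMatrix (ZMod 2) with hP
  have hPd : P.det = 1 := SplitLinear.zmod2_unit (by
    rw [hP, Matrix.det_permutation]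
    exact (Units.isUnit _).map (Int.castRingHom (ZMod 2)))
  let g : Matrix.SpecialLinearGroup (Fin (n + 2)) (ZMod 2) := ⟨P, hPd⟩
  obtain ⟨m, rfl⟩ : ∃ m, n = m + 1 := ⟨n - 1, by omega⟩
  let x₂ : FormGroup.EB (FormGroup.plusMat (m + 1)) := ⟨Sum.elim (Pi.single 0 1) 0, 0⟩
  have hconj : g * z * g⁻¹ = plusHom (m + 1) x₂ := by
    rw [mul_inv_eq_iff_eq_mul]
    refine Subtype.ext ?_
    rw [Matrix.SpecialLinearGroup.coe_mul, Matrix.SpecialLinearGroup.coe_mul, hz]
    show P * _ = blk (Pi.single 0 1) 0 0 1 * P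
    rw [hP, blk_single, Equiv.Perm.permMatrix, PEquiv.toMatrix_toPEquiv_mul, PEquiv.mul_toMatrix_toPEquiv]
    ext i j
    have h0 : Equiv.swap (1 : Fin (m + 1 + 2)) ⟨2, by omega⟩ 0 = 0 :=
      Equiv.swap_apply_of_ne_of_ne (by simp [Fin.ext_iff]) (by simp [Fin.ext_iff])
    have h2 : Equiv.swap (1 : Fin (m + 1 + 2)) ⟨2, by omega⟩ (Fin.succ (Fin.succ 0)) = 1 :=
      Equiv.swap_apply_right _ _
    simp only [Matrix.submatrix_apply, id_eq, Equiv.symm_swap, Matrix.transvection, Matrix.add_apply,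
      Matrix.one_apply, Matrix.single_apply]
    set σ := Equiv.swap (1 : Fin (m + 1 + 2)) ⟨2, by omega⟩ with hσ
    have e1 : σ i = j ↔ i = σ j := by rw [Equiv.apply_eq_iff_eq_symm_apply, hσ, Equiv.symm_swap]
    have e2 : (0 = σ i ↔ 0 = i) := by conv_lhs => rw [← h0, σ.injective.eq_iff]
    have e3 : (Fin.succ (Fin.succ 0) = σ j ↔ (1 : Fin (m + 1 + 2)) = j) := by
      rw [← h2]
      constructor
      · intro e; rw [e, hσ, Equiv.swap_apply_self]
      · intro e; rw [← e, hσ, Equiv.swap_apply_self]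
    simp only [e1, e2, e3]
  have hne : g * z * g⁻¹ ≠ z := fun e => by
    rw [hconj] at e
    have e' := congrArg Subtype.val e
    rw [hz, ← blk_transvection] at e'
    exact one_ne_zero (blk_inj (show blk (Pi.single 0 1) 0 0 1 = blk 0 0 1 1 from e')).2.2.1.symm
  exact ⟨hE, hcard, hA,
    LargeExtra.isLarge_of_conj hci hcent hnorm (by omega) hcard (g := g) (hconj ▸ ⟨_, rfl⟩) hne,
    (blockHom (m + 1)).range, hKC, hmeet, hsup, hiso⟩

end Cfsg.Agent.S5424
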