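import Cfsg.Statements.S5425
import Cfsg.Agent.M24.Classes
import Cfsg.Agent.Golay.OctadInvolution

set_option autoImplicit false
open Cfsg

namespace Cfsg.Agent.S5425

/-- In the Mathieu group of degree 24 (the automorphism group of the length-24 binary Golay code, acting on the 24 coordinates), let z be an involution whose fixed points form an octad (the support of a code word of weight 8), and let Q be the largest normal 2-subgroup of the centralizer C of z. Then Q is extraspecial of order 2^7 with an elementary abelian subgroup of order 16 (plus type), Q is a large extraspecial 2-subgroup, and C is the split extension of Q by the special linear group of degree 3 over the field with two elements. -/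
theorem result (z : ↥Cfsg.M24) (hz : orderOf z = 2) (hfix : (Finset.univ.filter fun p : Cfsg.GolayPt => (z : Equiv.Perm Cfsg.GolayPt) p = p) ∈ Cfsg.octads) (Q : Subgroup ↥Cfsg.M24) (hQ : Q = (Cfsg.pCore 2 ↥(Subgroup.centralizer ({z} : Set ↥Cfsg.M24))).map (Subgroup.centralizer ({z} : Set ↥Cfsg.M24)).subtype) : Cfsg.IsExtraspecial 2 ↥Q ∧ Nat.card ↥Q = 2 ^ 7 ∧ (∃ E : Subgroup ↥Cfsg.M24, E ≤ Q ∧ Cfsg.IsElementaryAbelian 2 E ∧ Nat.card ↥E = 2 ^ 4) ∧ Cfsg.IsLargeExtraspecial Q ∧ ∃ K : Subgroup ↥Cfsg.M24, K ≤ Subgroup.centralizer ({z} : Set ↥Cfsg.M24) ∧ Q ⊓ K = ⊥ ∧ Q ⊔ K = Subgroup.centralizer ({z} : Set ↥Cfsg.M24) ∧ Nonempty (↥K ≃* Matrix.SpecialLinearGroup (Fin 3) (ZMod 2)) := by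
  obtain ⟨z₀, hz₀, hfun, ⟨M₀⟩⟩ := Golay.exists_model_base
  have h0 : (Finset.univ.filter fun p : Cfsg.GolayPt =>
      (z₀ : Equiv.Perm Cfsg.GolayPt) p = p).card = 8 := by
    have e : (Finset.univ.filter fun p : Cfsg.GolayPt =>
        (z₀ : Equiv.Perm Cfsg.GolayPt) p = p) = Golay.oct0 := by
      ext p
      rw [Finset.mem_filter, hfun, Golay.zword_moves p]
      exact ⟨fun h => h.2, fun h => ⟨Finset.mem_univ p, h⟩⟩
    rw [e]
    exact Golay.oct0_mem.2
  obtain ⟨a, ha, ea⟩ := M24.conj_two_fix8 z.2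
    (by rw [Subgroup.orderOf_coe, hz]) hfix.2
  obtain ⟨b, hb, eb⟩ := M24.conj_two_fix8 z₀.2
    (by rw [Subgroup.orderOf_coe, hz₀]) h0
  obtain ⟨M⟩ := M₀.conj (a := ⟨a * b⁻¹, mul_mem ha (inv_mem hb)⟩) (z := z) (Subtype.ext (by
    show a * b⁻¹ * (z₀ : Equiv.Perm Cfsg.GolayPt) * (a * b⁻¹)⁻¹ = z
    rw [eb, ea]
    group))
  exact M.structure_centralizer hz Q hQ

end Cfsg.Agent.S5425
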