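import Cfsg.Statements.S5426
import Cfsg.Agent.LargeExtra.Components

set_option autoImplicit false
open Cfsg

namespace Cfsg.Agent.S5426

open Cfsg.Agent.LargeExtra
open scoped Pointwise commutatorElement

/-- Let Q be a large extraspecial 2-subgroup of the finite group G (extraspecial; centralizer equal to its centre; normal in the centralizer of its centre; normalizing no non-trivial subgroup of odd order) with centre generated by z, and let M be the normal closure of z in G. Then one of the following holds: Q is normal in G; or M is abelian and the generalized Fitting subgroup of G is its largest normal 2-subgroup; or M is the generalized Fitting subgroup of G and is a non-abelian simple group; or M is the generalized Fitting subgroup of G and is the direct product of a non-abelian simple subgroup L and its conjugate u L u⁻¹ by some u in Q (the two meet trivially and commute elementwise), with z = z₁ (u z₁ u⁻¹) for some z₁ in L whose centralizer in L is a Sylow 2-subgroup of L with Frattini subgroup inside the subgroup generated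 by z₁, and Q is not the largest normal 2-subgroup of the centralizer of z. -/
theorem result {G : Type*} [Group G] [Finite G] (Q : Subgroup G) (hQ : Cfsg.IsLargeExtraspecial Q) (z : G) (hz : ((Subgroup.center ↥Q).map Q.subtype) = Subgroup.zpowers z) (M : Subgroup G) (hM : M = Subgroup.normalClosure ({z} : Set G)) : Q.Normal ∨ (IsMulCommutative ↥M ∧ Cfsg.generalizedFittingSubgroup G = Cfsg.pCore 2 G) ∨ (M = Cfsg.generalizedFittingSubgroup G ∧ IsSimpleGroup ↥M ∧ ¬ IsMulCommutative ↥M) ∨ (M = Cfsg.generalizedFittingSubgroup G ∧ ∃ (L : Subgroup G) (u : G), u ∈ Q ∧ IsSimpleGroup ↥L ∧ ¬ IsMulCommutative ↥L ∧ L ⊓ (L).map (MulAut.conj u).toMonoidHom = ⊥ ∧ (∀ x ∈ L, ∀ y ∈ (L).map (MulAut.conj u).toMonoidHom, x * y = y * x) ∧ L ⊔ (L).map (MulAut.conj u).toMonoidHom = M ∧ ∃ z₁ ∈ L, z = z₁ * (u * z₁ * u⁻¹) ∧ (∃ R : Sylow 2 ↥L, (R : Subgroup ↥L) = (Subgroup.centralizer ({z₁} : Set G)).subgroupOf L ∧ (frattini ↥(R : Subgroup ↥L)).map ((L.subtype).comp (R : Subgroup ↥L).subtype) ≤ Subgroup.zpowers z₁) ∧ Q ≠ (Cfsg.pCore 2 ↥(Subgroup.centralizer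 ({z} : Set G))).map (Subgroup.centralizer ({z} : Set G)).subtype) := by
  subst hM
  have D := largeData_of hQ hz
  haveI : Fact (Nat.Prime 2) := ⟨Nat.prime_two⟩
  by_cases hne : Cfsg.pCore 2 G = ⊥
  swap
  · exact Or.inr (Or.inl (D.pCore_case hne))
  refine Or.inr (Or.inr ?_)
  have hME : Subgroup.normalClosure ({z} : Set G) = Cfsg.generalizedFittingSubgroup G := by
    rw [D.genFitting_eq_layer hne, D.closure_eq_layer hne]
  obtain ⟨L, hL⟩ := D.exists_component hne
  by_cases hfix : ∀ q ∈ Q, cj q L = L
  · exact Or.inl ⟨hME, D.simple_of_fixed hne hL hfix, D.closure_not_comm hne⟩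
  push Not at hfix
  obtain ⟨u, hu, huL⟩ := hfix
  refine Or.inr ⟨hME, L, u, hu, ?_⟩
  obtain ⟨hsimp, hna⟩ := D.component_simple hne hL
  have hL2 := Components.component_conj u hL
  have hZL := D.component_center hne hL
  have hcomm : ∀ x ∈ L, ∀ y ∈ cj u L, x * y = y * x := fun x hx y hy =>
    commute_of_components hL hL2 (Ne.symm huL) hx hy
  have hinf : L ⊓ cj u L = ⊥ := (Subgroup.eq_bot_iff_forall _).2 fun x hx =>
    hZL x hx.1 fun y hy => (hcomm y hy x hx.2).symm
  have hsup : L ⊔ cj u L = Subgroup.normalClosure ({z} : Set G) := by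
    rw [D.closure_eq_layer hne]
    refine le_antisymm (sup_le (Components.component_le_layer hL) (Components.component_le_layer hL2))
      (Components.layer_le_iff.2 fun K hK => ?_)
    rcases D.two_components hne hL hu huL hK with rfl | rfl
    · exact le_sup_left
    · exact le_sup_right
  refine ⟨hsimp, hna, hinf, hcomm, hsup, ?_⟩
  obtain ⟨a, ha, ha1, ha2⟩ := D.coord_z hne hL
  have hb : Coord (cj u L) z (u * a * u⁻¹) := by
    have := ha.conj u
    rwa [D.ci.comm u hu, mul_inv_cancel_right] at this
  have hzab : z = a * (u * a * u⁻¹) := by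
    have hzM : z ∈ L ⊔ cj u L := hsup ▸ D.mem_closure
    have hn : cj u L ≤ Subgroup.normalizer (L : Set G) :=
      Components.component_normalizes hL hL2
    have hzM' : z ∈ ((L : Set G) * (cj u L : Set G)) := by
      rw [← Subgroup.coe_mul_of_right_le_normalizer_left _ _ hn]
      exact hzM
    obtain ⟨l, hl, m, hm, hlm⟩ := hzM'
    have h1 : Coord L z l := ⟨hl, fun x hx => by
      rw [← hlm, inv_mul_cancel_left]; exact (hcomm x hx m hm).symm⟩
    have h2 : Coord (cj u L) z m := ⟨hm, fun x hx => by
      rw [← hlm]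
      show m⁻¹ * (l * m) * x = x * (m⁻¹ * (l * m))
      rw [hcomm l hl m hm, inv_mul_cancel_left]
      exact hcomm l hl x hx⟩
    rw [← Coord.unique (D.component_center hne hL2) h2 hb, ← Coord.unique hZL h1 ha]
    exact hlm.symm
  refine ⟨a, ha.1, hzab, ?_, ?_⟩
  · have hCeq : (Subgroup.centralizer ({a} : Set G)).subgroupOf L =
        (Subgroup.centralizer ({z} : Set G)).subgroupOf L := by
      ext ⟨x, hx⟩
      simp only [Subgroup.mem_subgroupOf, Subgroup.mem_centralizer_singleton_iff]
      have hc : Commute x (u * a * u⁻¹) := hcomm x hx _ hb.1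
      constructor
      · intro h
        rw [hzab]
        exact (Commute.mul_right h hc).eq
      · intro h
        have e : a = z * (u * a * u⁻¹)⁻¹ := eq_mul_inv_of_mul_eq hzab.symm
        rw [e]
        exact (Commute.mul_right h hc.inv_right).eq
    refine ⟨(D.isPGroup_inf hne hL hu huL).toSylow (D.odd_index hne hL), ?_, ?_⟩
    · rw [hCeq]
      rfl
    rw [Subgroup.map_le_iff_le_comap]
    have hS : ∀ x : ↥((Subgroup.centralizer ({z} : Set G)).subgroupOf L),
        ((x : ↥L) : G) * z = z * ((x : ↥L) : G) := fun x => Subgroup.mem_centralizer_singleton_iff.1 x.2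
    refine Cfsg.Agent.PGroup.frattini_le_of_commutator_le_of_pow_mem Nat.prime_two ?_ fun x => ?_
    · rw [commutator_eq_closure, Subgroup.closure_le]
      rintro _ ⟨x, y, rfl⟩
      show ((((⁅x, y⁆ : _) : ↥L)) : G) ∈ Subgroup.zpowers a
      rcases (D.moved_sq hne hL hu huL ha (x : ↥L).2 (hS x) (y : ↥L).2 (hS y)).2 with e | e
      all_goals
        rw [commutatorElement_def]
        push_cast
        rw [e]
      · exact one_mem _
      · exact Subgroup.mem_zpowers _
    · show (((x ^ 2 : _) : ↥L) : G) ∈ Subgroup.zpowers a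
      rcases (D.moved_sq hne hL hu huL ha (x : ↥L).2 (hS x) (x : ↥L).2 (hS x)).1 with e | e
      all_goals
        push_cast
        rw [pow_two, e]
      · exact one_mem _
      · exact Subgroup.mem_zpowers _
  · intro hQO
    obtain ⟨x, hx, hxz, hx1, hxa⟩ := D.exists_noncentral hne hL hu huL ha ha2
    set H := Subgroup.centralizer ({z} : Set G) with hH
    have hxQ : x ∈ Q := by
      rw [hQO]
      haveI := Components.layer_normal (G := G)
      refine ⟨⟨x, Subgroup.mem_centralizer_singleton_iff.2 hxz⟩, ?_, rfl⟩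
      have hsn : (L.subgroupOf H).IsSubnormal := hL.1.subgroupOf
      refine Components.subnormal_le_pCore (X := L.subgroupOf H) hsn ?_ hx
      intro y
      obtain ⟨k, hk⟩ := D.isPGroup_inf hne hL hu huL ⟨⟨((y : ↥H) : G), y.2⟩, (y : ↥H).2⟩
      refine ⟨k, Subtype.ext (Subtype.ext ?_)⟩
      have hk' := congrArg (fun w : ↥((Subgroup.centralizer ({z} : Set G)).subgroupOf L) => ((w : ↥L) : G)) hk
      simpa using hk'
    have hxz' : x ≠ z := fun e => by
      subst e
      exact D.component_not_commute hne hL2 fun y hy => hcomm _ hx y hy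
    obtain ⟨p, hp, hpx⟩ := D.ci.exists_swap hxQ hx1 hxz'
    rcases D.two_components hne hL hu huL (Components.component_conj p hL) with e | e
    · have hmem : x * z ∈ L := hpx ▸ e ▸ mem_cj hx
      have hzL : z ∈ L := by simpa using mul_mem (inv_mem hx) hmem
      exact D.component_not_commute hne hL2 fun y hy => hcomm _ hzL y hy
    · have hmem : x * z ∈ cj u L := hpx ▸ e ▸ mem_cj hx
      have h1 : Coord L (x * z) (x * a) := (Coord.of_mem hx).mul ha
      have h2 : Coord L (x * z) 1 := Coord.of_commute fun y hy => (hcomm y hy _ hmem).symm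
      exact hxa (mul_right_cancel ((Coord.unique hZL h1 h2).trans ha2.symm))

end Cfsg.Agent.S5426
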