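import Cfsg.Statements.S5427
import Cfsg.Agent.LargeExtra.Components

set_option autoImplicit false
open Cfsg

namespace Cfsg.Agent.S5427

open Cfsg.Agent.LargeExtra
open scoped Pointwise commutatorElement

/-- Let z be an involution of the finite group G whose centralizer C has generalized Fitting subgroup Q, an extraspecial 2-group of width at least 2 (order 2^(2w+1), w ≥ 2). Let K be a subgroup of G such that the subgroup U generated by the K-conjugates of z is abelian and C is generated by the C-conjugates of U. Suppose that either some K-conjugate of z other than z lies in Q, or some element u of U ∩ Q outside the subgroup generated by z has z in the largest normal 2-subgroup of its centralizer. Then G is simple and Q is a large extraspecial 2-subgroup of G. -/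
theorem result {G : Type*} [Group G] [Finite G] (z : G) (hz : orderOf z = 2) (Q : Subgroup G) (hQC : Q ≤ Subgroup.centralizer ({z} : Set G)) (hF : (Cfsg.generalizedFittingSubgroup ↥(Subgroup.centralizer ({z} : Set G))).map (Subgroup.centralizer ({z} : Set G)).subtype = Q) (hQ : Cfsg.IsExtraspecial 2 ↥Q) (w : ℕ) (hw : 2 ≤ w) (hcard : Nat.card ↥Q = 2 ^ (2 * w + 1)) (K U : Subgroup G) (hU : U = Subgroup.closure {x : G | ∃ k ∈ K, x = k * z * k⁻¹}) (hUab : IsMulCommutative ↥U) (hgen : Subgroup.closure {x : G | ∃ c ∈ Subgroup.centralizer ({z} : Set G), ∃ u ∈ U, x = c * u * c⁻¹} = Subgroup.centralizer ({z} : Set G)) (h3 : (∃ k ∈ K, k * z * k⁻¹ ∈ Q ∧ k * z * k⁻¹ ≠ z) ∨ ∃ u ∈ U ⊓ Q, u ∉ Subgroup.zpowers z ∧ (∃ hz' : z ∈ Subgroup.centralizer ({u} : Set G), (⟨z, hz'⟩ : ↥(Subgroup.centralizer ({u} : Set G))) ∈ Cfsg.pCore 2 ↥(Subgroup.centralizer ({u} : Set G)))) : IsSimpleGroup G ∧ Cfsg.IsLargeExtraspecial Q := by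
  obtain ⟨hci, hL2, hL3⟩ := centralInvolution_of_genFitting hz hF hQ
  haveI := hUab
  have hQL : Cfsg.IsLargeExtraspecial Q := by
    rcases h3 with ⟨k, -, hkQ, hkz⟩ | ⟨u, ⟨huU, huQ⟩, huz, hz', hzcore⟩
    · exact isLarge_of_conj hci hL2 hL3 hw hcard hkQ hkz
    · have hu2 : u * u = 1 := by
        let S : Subgroup G :=
          { carrier := {x | x ∈ U ∧ x * x = 1}
            one_mem' := ⟨one_mem _, one_mul 1⟩
            mul_mem' := fun {x y} hx hy => ⟨mul_mem hx.1 hy.1, by
              have e : y * x = x * y := setLike_mul_comm hy.1 hx.1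
              calc x * y * (x * y) = x * (y * x) * y := by group
                _ = (x * x) * (y * y) := by rw [e]; group
                _ = 1 := by rw [hx.2, hy.2, one_mul]⟩
            inv_mem' := fun {x} hx => ⟨inv_mem hx.1, by rw [← mul_inv_rev, hx.2, inv_one]⟩ }
        have hle : U ≤ S := by
          conv_lhs => rw [hU]
          rw [Subgroup.closure_le]
          rintro _ ⟨k, hk, rfl⟩
          exact ⟨hU ▸ Subgroup.subset_closure ⟨k, hk, rfl⟩,
            by rw [show k * z * k⁻¹ * (k * z * k⁻¹) = k * (z * z) * k⁻¹ by group, hci.sq, mul_one, mul_inv_cancel]⟩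
        exact (hle huU).2
      refine isLarge_of hci hL2 hL3 huQ (fun e => huz (e ▸ one_mem _))
        (fun e => huz (e ▸ Subgroup.mem_zpowers z)) hu2 (Cores.pCore_isPGroup.map _) ⟨_, hzcore, rfl⟩
        (normalizes_pCore_map 2)
  refine ⟨isSimpleGroup_of_centralizer_le (largeData_of hQL hci.center_eq) ?_, hQL⟩
  haveI : (Subgroup.normalClosure ({z} : Set G)).Normal := Subgroup.normalClosure_normal
  conv_lhs => rw [← hgen]
  rw [Subgroup.closure_le]
  rintro _ ⟨c, -, u, hu, rfl⟩
  refine Subgroup.Normal.conj_mem inferInstance u ?_ c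
  rw [hU] at hu
  refine ((Subgroup.closure_le _).2 ?_) hu
  rintro _ ⟨k, -, rfl⟩
  exact (Subgroup.normalClosure_normal (s := ({z} : Set G))).conj_mem z (Subgroup.subset_normalClosure rfl) k

end Cfsg.Agent.S5427
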