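import Cfsg.Statements.S5428
import Cfsg.Agent.LargeExtra.Image
import Cfsg.Agent.Cores.Pi
import Cfsg.Agent.Coprime.Action

set_option autoImplicit false
open Cfsg

namespace Cfsg.Agent.S5428

open Cfsg.Agent.LargeExtra
open scoped Pointwise

/-- Let z be an involution of the finite group G whose centralizer C has generalized Fitting subgroup Q extraspecial (as a 2-group), let A be a subgroup of C of odd order, and let R be the centralizer of A in Q; suppose R has order at least 32, the largest normal subgroup of odd order of the centralizer of the subgroup generated by A and R lies in A, the order of that centralizer is not divisible by 4, and g is an element of G with g z g⁻¹ in R but outside the centre Z of Q. Let M be the subgroup generated by A and the centralizer of A (A is normal in it). Then: the centralizer in M of the subgroup generated by R and A, joined with A, equals the subgroup generated by A and Z; the image of R in M/A is a large extraspecial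 2-subgroup of M/A; and g z g⁻¹ is conjugate to z inside the subgroup generated by R and the centralizer of A in g Q g⁻¹. -/
theorem result {G : Type*} [Group G] [Finite G] (z : G) (hz : orderOf z = 2) (Q : Subgroup G) (hQC : Q ≤ Subgroup.centralizer ({z} : Set G)) (hF : (Cfsg.generalizedFittingSubgroup ↥(Subgroup.centralizer ({z} : Set G))).map (Subgroup.centralizer ({z} : Set G)).subtype = Q) (hQ : Cfsg.IsExtraspecial 2 ↥Q) (A : Subgroup G) (hA : A ≤ Subgroup.centralizer ({z} : Set G)) (hAodd : Odd (Nat.card ↥A)) (R : Subgroup G) (hR : R = Q ⊓ Subgroup.centralizer (A : Set G)) (hR32 : 32 ≤ Nat.card ↥R) (hO : (Cfsg.oddCore ↥(Subgroup.centralizer ((A ⊔ R : Subgroup G) : Set G))).map (Subgroup.centralizer ((A ⊔ R : Subgroup G) : Set G)).subtype ≤ A) (h4 : ¬ 4 ∣ Nat.card ↥(Subgroup.centralizer ((A ⊔ R : Subgroup G) : Set G))) (g : G) (hgR : g * z * g⁻¹ ∈ R) (hgZ : g * z * g⁻¹ ∉ ((Subgroup.center ↥Q).map Q.subtype)) (M : Subgroup G) (hM : M = Subgroup.centralizer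 (A : Set G) ⊔ A) [hn : (A.subgroupOf M).Normal] : (M ⊓ Subgroup.centralizer ((R ⊔ A : Subgroup G) : Set G)) ⊔ A = A ⊔ ((Subgroup.center ↥Q).map Q.subtype) ∧ Cfsg.IsLargeExtraspecial ((R.subgroupOf M).map (QuotientGroup.mk' (A.subgroupOf M))) ∧ ∃ x ∈ R ⊔ ((Q).map (MulAut.conj g).toMonoidHom ⊓ Subgroup.centralizer (A : Set G)), x * (g * z * g⁻¹) * x⁻¹ = z := by
  haveI : Fact (Nat.Prime 2) := ⟨Nat.prime_two⟩
  obtain ⟨h, hL2, hL3⟩ := centralInvolution_of_genFitting hz hF hQ
  have hL2' : Subgroup.centralizer (Q : Set G) = Subgroup.zpowers z :=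
    le_antisymm hL2 (Subgroup.zpowers_le.2 fun q hq => h.comm q hq)
  rw [h.center_eq] at hgZ ⊢
  set b := g * z * g⁻¹ with hb
  have hbne : b ≠ z := fun e => hgZ (e ▸ Subgroup.mem_zpowers z)
  have h' := h.conj g
  rw [← hb] at h'
  set Q' := Q.map (MulAut.conj g).toMonoidHom with hQ'
  set CA := Subgroup.centralizer (A : Set G) with hCA
  have hRQ : R ≤ Q := hR ▸ inf_le_left
  have hRA : R ≤ CA := hR ▸ inf_le_right
  have memR : ∀ {x : G}, x ∈ Q → x ∈ CA → x ∈ R := fun h1 h2 => hR ▸ ⟨h1, h2⟩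
  have hzA : z ∈ CA := fun a ha => Subgroup.mem_centralizer_singleton_iff.1 (hA ha)
  have hzR : z ∈ R := memR h.mem hzA
  have hbA : ∀ a ∈ A, a * b = b * a := hRA hgR
  have hcard : ∃ w, 2 ≤ w ∧ Nat.card ↥Q = 2 ^ (2 * w + 1) := by
    obtain ⟨w, hw⟩ := PGroup.extraspecial_exists_card hQ
    refine ⟨w, ?_, by simpa [mul_comm] using hw.2⟩
    have h32 := hR32.trans (Nat.le_of_dvd Nat.card_pos (Subgroup.card_dvd_of_le hRQ))
    rw [hw.2] at h32
    by_contra hlt
    have : 2 ^ (2 * w + 1) ≤ 2 ^ 3 := Nat.pow_le_pow_right (by norm_num) (by omega)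
    omega
  obtain ⟨w, hw, hcard⟩ := hcard
  have hzQ' : z ∈ Q' := mem_conj_of_conj_mem h hL2' hL3 hw hcard (hRQ hgR) hbne
  -- the joint centraliser
  set CAR := Subgroup.centralizer ((A ⊔ R : Subgroup G) : Set G) with hCAR
  have hzCAR : z ∈ CAR := by
    have hle : A ⊔ R ≤ Subgroup.centralizer ({z} : Set G) := sup_le hA (hRQ.trans h.le_centralizer)
    exact fun x hx => Subgroup.mem_centralizer_singleton_iff.1 (hle hx)
  have hzcen : ∀ c ∈ CAR, c * z = z * c := fun c hc => (hc z (Subgroup.mem_sup_right hzR)).symm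
  have key : ∀ c ∈ CAR, c ∈ A ∨ z * c ∈ A := by
    let z₁ : ↥CAR := ⟨z, hzCAR⟩
    have hord : orderOf z₁ = 2 := orderOf_eq_prime (Subtype.ext (by simpa [pow_two] using h.sq))
      (fun e => h.ne_one (congrArg Subtype.val e))
    have hS : IsPGroup 2 ↥(Subgroup.zpowers z₁) := IsPGroup.of_card (n := 1) (by rw [Nat.card_zpowers, hord]; rfl)
    have hidx : ¬ 2 ∣ (Subgroup.zpowers z₁).index := fun h2 => by
      refine h4 ?_
      rw [← Subgroup.card_mul_index (Subgroup.zpowers z₁), Nat.card_zpowers, hord]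
      exact Nat.mul_dvd_mul_left 2 h2
    let S : Sylow 2 ↥CAR := hS.toSylow hidx
    have hcen : ∀ c : ↥CAR, ∀ s ∈ (S : Subgroup ↥CAR), s * c = c * s := by
      intro c s hs
      obtain ⟨k, rfl⟩ := (show s ∈ Subgroup.zpowers z₁ from hs)
      exact (Commute.zpow_left (show Commute z₁ c from Subtype.ext (hzcen c c.2).symm) k).eq
    have hc := MonoidHom.ker_transferSylow_isComplement' S (fun c _ s hs => hcen c s hs)
    set K := (MonoidHom.transferSylow S (fun c _ s hs => hcen c s hs)).ker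
    have hKodd : Odd (Nat.card ↥K) := by
      rw [← Nat.not_even_iff_odd, even_iff_two_dvd]
      intro h2
      apply h4
      rw [← hc.card_mul_card, show Nat.card ↥(S : Subgroup ↥CAR) = 2 from (Nat.card_zpowers z₁).trans hord]
      exact Nat.mul_dvd_mul_right h2 2
    have hKA : ∀ c ∈ K, (c : G) ∈ A := fun c hcK =>
      hO ⟨c, Cores.le_oddCore (MonoidHom.normal_ker _) hKodd hcK, rfl⟩
    intro c hcC
    obtain ⟨⟨⟨k, hk⟩, ⟨s, hs⟩⟩, e⟩ := hc.2 ⟨c, hcC⟩
    have e' : (k : G) * s = c := congrArg Subtype.val e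
    rcases (h.mem_zpowers_iff (x := (s : G))).1 (by
      obtain ⟨j, rfl⟩ := (show s ∈ Subgroup.zpowers z₁ from hs)
      exact ⟨j, by simp [z₁]⟩) with es | es
    · left
      rw [← e', es, mul_one]
      exact hKA k hk
    · right
      rw [← e', es, hzcen k k.2, ← mul_assoc, h.sq, one_mul]
      exact hKA k hk
  have hAR : ∀ {x : G}, x ∈ A → x ∈ R → x = 1 := fun h1 h2 => eq_one_of_odd_of_two hAodd h.isPGroup h1 (hRQ h2)
  have hAM : A ≤ M := hM ▸ le_sup_right
  have hCAM : CA ≤ M := hM ▸ le_sup_left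
  have hRM : R ≤ M := hRA.trans hCAM
  refine ⟨?_, ?_, ?_⟩
  · refine le_antisymm (sup_le ?_ le_sup_left) (sup_le le_sup_right ?_)
    · rintro c ⟨-, hc⟩
      rw [sup_comm] at hc
      rcases key c hc with e | e
      · exact Subgroup.mem_sup_left e
      · have := mul_mem (Subgroup.mem_sup_right (S := A) (Subgroup.mem_zpowers z)) (Subgroup.mem_sup_left (T := Subgroup.zpowers z) e)
        rwa [← mul_assoc, h.sq, one_mul] at this
    · refine (Subgroup.zpowers_le.2 ?_).trans le_sup_left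
      exact ⟨hRM hzR, by rw [sup_comm]; exact hzCAR⟩
  · let π : ↥M →* ↥M ⧸ A.subgroupOf M := QuotientGroup.mk' _
    have hπ1 : ∀ {u : ↥M}, π u = 1 ↔ (u : G) ∈ A := fun {u} => QuotientGroup.eq_one_iff u
    have split : ∀ y : ↥M ⧸ A.subgroupOf M, ∃ (c : G) (hc : c ∈ CA), π ⟨c, hCAM hc⟩ = y := by
      intro y
      obtain ⟨m, rfl⟩ := QuotientGroup.mk'_surjective _ y
      have hn : A ≤ Subgroup.normalizer (CA : Set G) := by
        intro a ha
        refine Subgroup.mem_normalizer_iff.2 fun x => ?_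
        have conjA : ∀ a ∈ A, ∀ x ∈ CA, a * x * a⁻¹ ∈ CA := by
          intro a ha x hx y hy
          have h1 := hx (a⁻¹ * y * a) (mul_mem (mul_mem (inv_mem ha) hy) ha)
          calc y * (a * x * a⁻¹) = a * ((a⁻¹ * y * a) * x) * a⁻¹ := by group
            _ = a * x * a⁻¹ * y := by rw [h1]; group
        exact ⟨conjA a ha x, fun hx => by simpa [mul_assoc] using conjA a⁻¹ (inv_mem ha) _ hx⟩
      have hm : (m : G) ∈ ((CA : Set G) * (A : Set G)) := by
        rw [← Subgroup.coe_mul_of_right_le_normalizer_left _ _ hn, ← hM]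
        exact m.2
      obtain ⟨c, hc, a, ha, e⟩ := hm
      refine ⟨c, hc, QuotientGroup.eq.2 ?_⟩
      show c⁻¹ * (m : G) ∈ A
      rw [← e]
      simpa using ha
    have hcommA : ∀ {u v : ↥M}, (u : G) ∈ CA → (v : G) ∈ CA → π u * π v = π v * π u →
        (u : G) * v * (u : G)⁻¹ * (v : G)⁻¹ ∈ A ∧ (u : G) * v * (u : G)⁻¹ * (v : G)⁻¹ ∈ CA := by
      intro u v hu hv he
      refine ⟨hπ1.1 (show π (u * v * u⁻¹ * v⁻¹) = 1 from ?_), mul_mem (mul_mem (mul_mem hu hv) (inv_mem hu)) (inv_mem hv)⟩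
      rw [map_mul, map_mul, map_mul, map_inv, map_inv, he]
      group
    have fixR : ∀ {u v : ↥M}, (u : G) ∈ CA → (v : G) ∈ R → π u * π v = π v * π u → (u : G) * v = v * u := by
      intro u v hu hv he
      obtain ⟨ha, -⟩ := hcommA hu (hRA hv) he
      set a := (u : G) * v * (u : G)⁻¹ * (v : G)⁻¹ with ha'
      have hav : a * v = v * a := hRA hv a ha
      have e : (u : G) * v * (u : G)⁻¹ = a * v := by rw [ha']; group
      obtain ⟨k, hk⟩ := h.isPGroup ⟨(v : G), hRQ hv⟩
      have hk' : (v : G) ^ 2 ^ k = 1 := congrArg Subtype.val hk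
      have h1 : (a * v) ^ 2 ^ k = 1 := by
        rw [← e]
        calc ((u : G) * v * (u : G)⁻¹) ^ 2 ^ k = (MulAut.conj (u : G)) ((v : G) ^ 2 ^ k) := by
              rw [map_pow]; rfl
          _ = 1 := by rw [hk', map_one]
      rw [(show Commute a (v : G) from hav).mul_pow, hk', mul_one] at h1
      have ha1 : a = 1 := orderOf_eq_one_iff.1 (Nat.eq_one_of_dvd_coprimes
        (Nat.Coprime.pow_left k (Nat.coprime_two_left.2 hAodd)) (orderOf_dvd_of_pow_eq_one h1)
        (by rw [← Subgroup.orderOf_mk a ha]; exact orderOf_dvd_natCard _))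
      rw [ha1, one_mul] at e
      exact mul_inv_eq_iff_eq_mul.1 e
    let z₁ : ↥M := ⟨z, hRM hzR⟩
    let b₁ : ↥M := ⟨b, hRM hgR⟩
    have hinj : ∀ {u v : ↥M}, (u : G) ∈ R → (v : G) ∈ R → π u = π v → (u : G) = v := by
      intro u v hu hv e
      have h1 : u⁻¹ * v ∈ A.subgroupOf M := QuotientGroup.eq.1 e
      exact inv_mul_eq_one.1 (hAR (show (u : G)⁻¹ * v ∈ A from h1) (mul_mem (inv_mem hu) hv))
    have hcenR : ∀ x ∈ R, (∀ r ∈ R, r * x = x * r) → x = 1 ∨ x = z := by
      intro x hx hxc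
      have hxC : x ∈ CAR := by
        have hle : A ⊔ R ≤ Subgroup.centralizer ({x} : Set G) := sup_le
          (fun a ha => Subgroup.mem_centralizer_singleton_iff.2 (hRA hx a ha))
          (fun r hr => Subgroup.mem_centralizer_singleton_iff.2 (hxc r hr))
        exact fun y hy => Subgroup.mem_centralizer_singleton_iff.1 (hle hy)
      rcases key x hxC with e | e
      · exact Or.inl (hAR e hx)
      · exact Or.inr ((mul_eq_one_iff_inv_eq.1 (hAR e (mul_mem hzR hx))).symm.trans h.inv_eq)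
    have hnaR : ∃ u ∈ R, ∃ v ∈ R, u * v ≠ v * u := by
      by_contra hc
      push Not at hc
      have hsub : (R : Set G) ⊆ {1, z} := fun x hx => hcenR x hx fun r hr => hc r hr x hx
      have := (Set.ncard_le_ncard hsub (Set.toFinite _)).trans (Set.ncard_insert_le _ _)
      rw [Set.ncard_singleton, ← Nat.card_coe_set_eq] at this
      have h5 : Nat.card ↥R ≤ 2 := this
      omega
    have hci : CentralInvolution ((R.subgroupOf M).map π) (π z₁) := by
      refine centralInvolution_of ?_ ⟨z₁, hzR, rfl⟩ ?_ ?_ ?_ ?_ ?_ ?_ ?_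
      · exact ((h.isPGroup.to_le hRQ).comap_subtype).map π
      · rw [← map_mul, show z₁ * z₁ = 1 from Subtype.ext h.sq, map_one]
      · exact fun e => h.ne_one (hinj (u := z₁) (v := 1) hzR (one_mem R) (e.trans (map_one π).symm))
      · rintro _ ⟨x, hx, rfl⟩
        rw [← map_mul, ← map_mul, show x * z₁ = z₁ * x from Subtype.ext (h.comm x (hRQ hx))]
      · rintro _ ⟨x, hx, rfl⟩ hcomm
        rcases hcenR x hx (fun r hr =>
          fixR (u := ⟨r, hRM hr⟩) (hRA hr) hx (hcomm _ ⟨⟨r, hRM hr⟩, hr, rfl⟩)) with e | e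
        · exact Or.inl (by rw [show x = 1 from Subtype.ext e, map_one])
        · exact Or.inr (by rw [show x = z₁ from Subtype.ext e])
      · rintro _ ⟨u, hu, rfl⟩ _ ⟨v, hv, rfl⟩
        rw [← map_inv, ← map_inv, ← map_mul, ← map_mul, ← map_mul]
        refine map_pair π ?_
        rcases h.comm_mem (hRQ hu) (hRQ hv) with e | e
        · exact Or.inl (Subtype.ext e)
        · exact Or.inr (Subtype.ext e)
      · rintro _ ⟨u, hu, rfl⟩
        rw [← map_mul]
        refine map_pair π ?_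
        rcases h.sq_mem (hRQ hu) with e | e
        · exact Or.inl (Subtype.ext e)
        · exact Or.inr (Subtype.ext e)
      · obtain ⟨u, hu, v, hv, huv⟩ := hnaR
        exact ⟨π ⟨u, hRM hu⟩, ⟨_, hu, rfl⟩, π ⟨v, hRM hv⟩, ⟨_, hv, rfl⟩,
          fun e => huv (fixR (u := ⟨u, hRM hu⟩) (hRA hu) hv e)⟩
    refine isLarge_of hci ?_ ?_ (b := π b₁) ⟨b₁, hgR, rfl⟩ ?_ ?_ ?_
      (T := ((Q' ⊓ CA).subgroupOf M).map π) (((h'.isPGroup.to_le inf_le_left).comap_subtype).map π)
      ⟨z₁, ⟨hzQ', hzA⟩, rfl⟩ ?_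
    · intro y hy
      obtain ⟨c, hc, rfl⟩ := split y
      have hcR : c ∈ CAR := by
        have hle : A ⊔ R ≤ Subgroup.centralizer ({c} : Set G) := sup_le
          (fun a ha => Subgroup.mem_centralizer_singleton_iff.2 (hc a ha))
          (fun r hr => Subgroup.mem_centralizer_singleton_iff.2
            (fixR (u := ⟨c, hCAM hc⟩) (v := ⟨r, hRM hr⟩) hc hr (hy _ ⟨⟨r, hRM hr⟩, hr, rfl⟩).symm).symm)
        exact fun x hx => Subgroup.mem_centralizer_singleton_iff.1 (hle hx)
      refine hci.mem_zpowers_iff.2 ?_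
      rcases key c hcR with e | e
      · exact Or.inl (hπ1.2 e)
      · right
        refine (QuotientGroup.eq.2 ?_).symm
        show z⁻¹ * c ∈ A
        rwa [h.inv_eq]
    · intro y hy
      obtain ⟨c, hc, rfl⟩ := split y
      have hcz := fixR (u := ⟨c, hCAM hc⟩) (v := z₁) hc hzR (Subgroup.mem_centralizer_singleton_iff.1 hy)
      have hcN := hL3 (Subgroup.mem_centralizer_singleton_iff.2 hcz)
      refine Subgroup.le_normalizer_map π ⟨_, Subgroup.mem_normalizer_iff.2 fun x => ?_, rfl⟩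
      show (x : G) ∈ R ↔ c * (x : G) * c⁻¹ ∈ R
      rw [hR]
      exact ⟨fun hx => ⟨(Subgroup.mem_normalizer_iff.1 hcN _).1 hx.1, Subgroup.mul_mem _ (Subgroup.mul_mem _ hc hx.2) (Subgroup.inv_mem _ hc)⟩,
        fun hx => ⟨(Subgroup.mem_normalizer_iff.1 hcN _).2 hx.1, by
          simpa [mul_assoc] using Subgroup.mul_mem _ (Subgroup.mul_mem _ (Subgroup.inv_mem _ hc) hx.2) hc⟩⟩
    · exact fun e => h'.ne_one (hinj (u := b₁) (v := 1) hgR (one_mem R) (e.trans (map_one π).symm))
    · exact fun e => hbne (hinj (u := b₁) (v := z₁) hgR hzR e)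
    · rw [← map_mul, show b₁ * b₁ = 1 from Subtype.ext h'.sq, map_one]
    · intro y hy
      obtain ⟨c, hc, rfl⟩ := split y
      have hcb := fixR (u := ⟨c, hCAM hc⟩) (v := b₁) hc hgR (Subgroup.mem_centralizer_singleton_iff.1 hy)
      have hd : g⁻¹ * c * g ∈ Subgroup.centralizer ({z} : Set G) := by
        rw [Subgroup.mem_centralizer_singleton_iff]
        calc g⁻¹ * c * g * z = g⁻¹ * (c * b) * g := by rw [hb]; group
          _ = z * (g⁻¹ * c * g) := by rw [show c * b = b * c from hcb, hb]; group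
      have hn := Subgroup.le_normalizer_map (H := Q) (MulAut.conj g).toMonoidHom ⟨_, hL3 hd, rfl⟩
      rw [show (MulAut.conj g).toMonoidHom (g⁻¹ * c * g) = c by simp [mul_assoc]] at hn
      refine Subgroup.le_normalizer_map π ⟨_, Subgroup.mem_normalizer_iff.2 fun x => ?_, rfl⟩
      show (x : G) ∈ Q' ⊓ CA ↔ c * (x : G) * c⁻¹ ∈ Q' ⊓ CA
      exact ⟨fun hx => ⟨(Subgroup.mem_normalizer_iff.1 hn _).1 hx.1, Subgroup.mul_mem _ (Subgroup.mul_mem _ hc hx.2) (Subgroup.inv_mem _ hc)⟩,
        fun hx => ⟨(Subgroup.mem_normalizer_iff.1 hn _).2 hx.1, by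
          simpa [mul_assoc] using Subgroup.mul_mem _ (Subgroup.mul_mem _ (Subgroup.inv_mem _ hc) hx.2) hc⟩⟩
  · -- the conjugation
    obtain ⟨q, hqR, hqb⟩ : ∃ q ∈ R, q * b * q⁻¹ = b * z := by
      by_contra hcon
      push Not at hcon
      have hbC : b ∈ CAR := by
        have hle : A ⊔ R ≤ Subgroup.centralizer ({b} : Set G) := sup_le
          (fun a ha => Subgroup.mem_centralizer_singleton_iff.2 (hbA a ha))
          (fun r hr => Subgroup.mem_centralizer_singleton_iff.2 (mul_inv_eq_iff_eq_mul.1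
            ((h.conj_cases (hRQ hr) (hRQ hgR)).resolve_right (hcon r hr))))
        exact fun y hy => Subgroup.mem_centralizer_singleton_iff.1 (hle hy)
      rcases key b hbC with e | e
      · exact h'.ne_one (hAR e hgR)
      · exact hbne ((mul_eq_one_iff_inv_eq.1 (hAR e (mul_mem hzR hgR))).symm.trans h.inv_eq)
    obtain ⟨k, hk, hkz⟩ := h'.exists_swap hzQ' h.ne_one hbne.symm
    have hnormA : ∀ a ∈ A, ∀ x ∈ Q', a * x * a⁻¹ ∈ Q' := by
      intro a ha x hx
      have hd : g⁻¹ * a * g ∈ Subgroup.centralizer ({z} : Set G) := by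
        rw [Subgroup.mem_centralizer_singleton_iff]
        calc g⁻¹ * a * g * z = g⁻¹ * (a * b) * g := by rw [hb]; group
          _ = z * (g⁻¹ * a * g) := by rw [hbA a ha, hb]; group
      obtain ⟨y, hy, rfl⟩ := hx
      refine ⟨g⁻¹ * a * g * y * (g⁻¹ * a * g)⁻¹, (Subgroup.mem_normalizer_iff.1 (hL3 hd) y).1 hy, ?_⟩
      show g * (g⁻¹ * a * g * y * (g⁻¹ * a * g)⁻¹) * g⁻¹ = a * (g * y * g⁻¹) * a⁻¹
      group
    set N := Q' ⊓ Subgroup.centralizer ({z} : Set G) with hN
    have hN2 : IsPGroup 2 ↥N := h'.isPGroup.to_le inf_le_left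
    have hNA : A ≤ Subgroup.normalizer (N : Set G) := by
      have step : ∀ a ∈ A, ∀ x ∈ N, a * x * a⁻¹ ∈ N := fun a ha x hx =>
        ⟨hnormA a ha x hx.1, mul_mem (mul_mem (hA ha) hx.2) (Subgroup.inv_mem _ (hA ha))⟩
      exact fun a ha => Subgroup.mem_normalizer_iff.2 fun x =>
        ⟨step a ha x, fun hx => by simpa [mul_assoc] using step a⁻¹ (inv_mem ha) _ hx⟩
    have hcop : (Nat.card ↥A).Coprime (Nat.card ↥N) := by
      obtain ⟨j, hj⟩ := hN2.exists_card_eq
      rw [hj]
      exact (Nat.Coprime.pow_left j (Nat.coprime_two_left.2 hAodd)).symm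
    haveI := hN2.isNilpotent
    have hfix : ∀ a ∈ A, k⁻¹ * a * k * a⁻¹ ∈ N := by
      intro a ha
      have hm : k⁻¹ * (a * k * a⁻¹) ∈ Q' := mul_mem (inv_mem hk) (hnormA a ha k hk)
      refine ⟨by simpa [mul_assoc] using hm, ?_⟩
      have haz : a * z * a⁻¹ = z := by
        rw [Subgroup.mem_centralizer_singleton_iff.1 (hA ha), mul_inv_cancel_right]
      have hab : a * b * a⁻¹ = b := by rw [hbA a ha, mul_inv_cancel_right]
      have hmove : (a * k * a⁻¹) * z * (a * k * a⁻¹)⁻¹ ≠ z := by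
        intro e
        have e2 : (a * k * a⁻¹) * z * (a * k * a⁻¹)⁻¹ = z * b := by
          calc (a * k * a⁻¹) * z * (a * k * a⁻¹)⁻¹ = a * (k * (a⁻¹ * z * a) * k⁻¹) * a⁻¹ := by group
            _ = a * (k * z * k⁻¹) * a⁻¹ := by
              rw [show a⁻¹ * z * a = z by nth_rewrite 1 [← haz]; group]
            _ = (a * z * a⁻¹) * (a * b * a⁻¹) := by rw [hkz]; group
            _ = z * b := by rw [haz, hab]
        rw [e2, mul_eq_left] at e
        exact h'.ne_one e
      have hc := h'.conj_ratio hzQ' hk (hnormA a ha k hk) hkz hmove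
      refine Subgroup.mem_centralizer_singleton_iff.2 ?_
      simpa [mul_assoc] using hc
    obtain ⟨q', ⟨hq'Q, hq'A⟩, hq'k⟩ := Cfsg.Agent.Coprime.exists_fixed_mem_coset hNA hcop
      (Or.inr inferInstance) (inf_le_left : N ≤ Q') hk hfix
    have hq'z : q' * z * q'⁻¹ = z * b := by
      have hc := Subgroup.mem_centralizer_singleton_iff.1 hq'k.2
      calc q' * z * q'⁻¹ = k * ((k⁻¹ * q') * z * (k⁻¹ * q')⁻¹) * k⁻¹ := by group
        _ = z * b := by rw [hc, mul_inv_cancel_right, hkz]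
    refine ⟨(q * q')⁻¹, inv_mem (mul_mem (Subgroup.mem_sup_left hqR) (Subgroup.mem_sup_right ⟨hq'Q, hq'A⟩)), ?_⟩
    have hzz : q * z * q⁻¹ = z := by rw [h.comm q (hRQ hqR), mul_inv_cancel_right]
    have hzb : z * b = b * z := (h.comm b (hRQ hgR)).symm
    have e : (q * q') * z * (q * q')⁻¹ = b := by
      calc (q * q') * z * (q * q')⁻¹ = q * (q' * z * q'⁻¹) * q⁻¹ := by group
        _ = (q * z * q⁻¹) * (q * b * q⁻¹) := by rw [hq'z]; group
        _ = z * b * z := by rw [hzz, hqb]; group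
        _ = b := by rw [hzb, mul_assoc, h.sq, mul_one]
    rw [← e]
    group

end Cfsg.Agent.S5428
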