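import Cfsg.Statements.S5430
import Cfsg.Agent.LargeExtra.PairGroup

set_option autoImplicit false
open Cfsg

namespace Cfsg.Agent.S5430

/-- Let Q be a large extraspecial 2-subgroup of the finite group G (extraspecial; centralizer equal to its centre; normal in the centralizer of its centre; normalizing no non-trivial subgroup of odd order) with centre generated by z, an involution, of width w ≥ 2 (order 2^(2w+1)); let g be an element outside the centralizer H of z with g z g⁻¹ in Q; write V for the subgroup generated by z and g z g⁻¹, X for the subgroup generated by Q and g Q g⁻¹, R for the subgroup generated by the centralizer of z in g Q g⁻¹ and the centralizer of g z g⁻¹ in Q, and E for the intersection of Q and g Q g⁻¹. Then R is the centralizer of V in X and is the largest normal 2-subgroup of X, and X/R is isomorphic to the symmetric group of degree 3; moreover the normalizer of V is the product of X and the centralizer of V in H, X is normal in it, and modulo R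 it is the direct product of X/R and of the centralizer of V in H modulo R. -/
theorem result {G : Type*} [Group G] [Finite G] (Q : Subgroup G) (hQ : Cfsg.IsLargeExtraspecial Q) (z : G) (hz : ((Subgroup.center ↥Q).map Q.subtype) = Subgroup.zpowers z) (hz2 : orderOf z = 2) (w : ℕ) (hw : 2 ≤ w) (hcard : Nat.card ↥Q = 2 ^ (2 * w + 1)) (g : G) (hgH : g ∉ Subgroup.centralizer ({z} : Set G)) (hgQ : g * z * g⁻¹ ∈ Q) (V X R E : Subgroup G) (hV : V = Subgroup.closure ({z, g * z * g⁻¹} : Set G)) (hX : X = Q ⊔ (Q).map (MulAut.conj g).toMonoidHom) (hR : R = ((Q).map (MulAut.conj g).toMonoidHom ⊓ Subgroup.centralizer ({z} : Set G)) ⊔ (Q ⊓ Subgroup.centralizer ({g * z * g⁻¹} : Set G))) (hE : E = Q ⊓ (Q).map (MulAut.conj g).toMonoidHom) : R = X ⊓ Subgroup.centralizer (V : Set G) ∧ R = (Cfsg.pCore 2 ↥X).map X.subtype ∧ (∃ h : (R.subgroupOf X).Normal, Nonempty (↥X ⧸ R.subgroupOf X ≃* Equiv.Perm (Fin 3))) ∧ Subgroup.normalizer (V : Set G) = X ⊔ (Subgroup.centralizer ({z} : Set G) ⊓ Subgroup.centralizer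 (V : Set G)) ∧ (∀ y ∈ Subgroup.normalizer (V : Set G), ∀ x ∈ X, y * x * y⁻¹ ∈ X) ∧ R ≤ Subgroup.centralizer ({z} : Set G) ⊓ Subgroup.centralizer (V : Set G) ∧ (∀ x ∈ X, ∀ c ∈ Subgroup.centralizer ({z} : Set G) ⊓ Subgroup.centralizer (V : Set G), x * c * x⁻¹ * c⁻¹ ∈ R) ∧ X ⊓ (Subgroup.centralizer ({z} : Set G) ⊓ Subgroup.centralizer (V : Set G)) = R := by
  haveI : Fact (Nat.Prime 2) := ⟨Nat.prime_two⟩
  have D := Cfsg.Agent.LargeExtra.pairData_of_large hQ hz hw hcard hgH hgQ
  set b := g * z * g⁻¹ with hbdef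
  clear_value b
  set Q' := (Q).map (MulAut.conj g).toMonoidHom with hQ'def
  have hR' : R = D.radical := hR
  subst hR' hE hX hV
  set V := Subgroup.closure ({z, b} : Set G) with hVdef
  set X := Q ⊔ Q' with hXdef
  set R := D.radical with hRdef
  have hzb := D.zb
  have hzV : z ∈ V := Subgroup.subset_closure (Or.inl rfl)
  have hbV : b ∈ V := Subgroup.subset_closure (Or.inr rfl)
  have hCV : ∀ x : G, x ∈ Subgroup.centralizer (V : Set G) ↔ x * z = z * x ∧ x * b = b * x := by
    intro x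
    rw [hVdef, Subgroup.centralizer_closure, Subgroup.mem_centralizer_iff]
    exact ⟨fun h => ⟨(h z (Or.inl rfl)).symm, (h b (Or.inr rfl)).symm⟩, fun h u hu => by
      rcases hu with rfl | rfl
      · exact h.1.symm
      · exact h.2.symm⟩
  -- swapping elements
  obtain ⟨y, hy, hyb⟩ := D.hQ.exists_swap D.hb D.hQ'.ne_one D.ne
  obtain ⟨q, hq, hqz⟩ := D.hQ'.exists_swap D.hz D.hQ.ne_one (Ne.symm D.ne)
  have hyz : y * z * y⁻¹ = z := by rw [D.hQ.comm y hy, mul_inv_cancel_right]
  have hqb : q * b * q⁻¹ = b := by rw [D.hQ'.comm q hq, mul_inv_cancel_right]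
  -- the quotient by R
  haveI hn : (R.subgroupOf X).Normal := Subgroup.normal_subgroupOf_of_le_normalizer D.sup_normalizes
  let π : ↥X →* ↥X ⧸ R.subgroupOf X := QuotientGroup.mk' _
  have hπ : ∀ u : ↥X, π u = 1 ↔ (u : G) ∈ R := fun u => QuotientGroup.eq_one_iff u
  have hπeq : ∀ u v : ↥X, (u : G)⁻¹ * v ∈ R → π u = π v := fun u v h => QuotientGroup.eq.2 h
  let Y : ↥X := ⟨y, Subgroup.mem_sup_left hy⟩
  let W : ↥X := ⟨q, Subgroup.mem_sup_right hq⟩
  have hQcase : ∀ u : ↥X, (u : G) ∈ Q → π u = 1 ∨ π u = π Y := by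
    intro u hu
    by_cases hub : (u : G) * b * (u : G)⁻¹ = b
    · exact Or.inl ((hπ u).2 (Subgroup.mem_sup_right ⟨hu, Subgroup.mem_centralizer_singleton_iff.2 (mul_inv_eq_iff_eq_mul.1 hub)⟩))
    · exact Or.inr (hπeq Y u (Subgroup.mem_sup_right ⟨Subgroup.mul_mem _ (Subgroup.inv_mem _ hy) hu,
        Subgroup.mem_centralizer_singleton_iff.2 (D.hQ.conj_ratio D.hb hy hu hyb hub)⟩)).symm
  have hQ'case : ∀ u : ↥X, (u : G) ∈ Q' → π u = 1 ∨ π u = π W := by
    intro u hu
    by_cases huz : (u : G) * z * (u : G)⁻¹ = z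
    · exact Or.inl ((hπ u).2 (Subgroup.mem_sup_left ⟨hu, Subgroup.mem_centralizer_singleton_iff.2 (mul_inv_eq_iff_eq_mul.1 huz)⟩))
    · exact Or.inr (hπeq W u (Subgroup.mem_sup_left ⟨Subgroup.mul_mem _ (Subgroup.inv_mem _ hq) hu,
        Subgroup.mem_centralizer_singleton_iff.2 (D.hQ'.conj_ratio D.hz hq hu hqz huz)⟩)).symm
  have hY2 : π Y * π Y = 1 := by
    rw [← map_mul, hπ]
    refine D.inter_le_radical ?_
    show y * y ∈ Q ⊓ Q'
    rcases D.hQ.sq_mem hy with e | e <;> rw [e]
    · exact one_mem _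
    · exact ⟨D.hQ.mem, D.hz⟩
  have hW2 : π W * π W = 1 := by
    rw [← map_mul, hπ]
    refine D.inter_le_radical ?_
    show q * q ∈ Q ⊓ Q'
    rcases D.hQ'.sq_mem hq with e | e <;> rw [e]
    · exact one_mem _
    · exact ⟨D.hb, D.hQ'.mem⟩
  have hYi : (π Y)⁻¹ = π Y := inv_eq_of_mul_eq_one_right hY2
  have hWi : (π W)⁻¹ = π W := inv_eq_of_mul_eq_one_right hW2
  -- the braid relation
  have hbraid : π W * π Y * π W = π Y * π W * π Y := by
    -- c carries z to b
    have hcm : ∀ m : G, m * z * m⁻¹ = b → Q.map (MulAut.conj m).toMonoidHom = Q' := D.transport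
    have hm : (y * q) * z * (y * q)⁻¹ = b := by
      calc y * q * z * (y * q)⁻¹ = y * (q * z * q⁻¹) * y⁻¹ := by group
        _ = (y * z * y⁻¹) * (y * b * y⁻¹) := by rw [hqz]; group
        _ = z * (b * z) := by rw [hyz, hyb]
        _ = b := by rw [hzb, ← mul_assoc, D.hQ.sq, one_mul]
    have hmem : (y * q) * y * (y * q)⁻¹ ∈ Q' := by
      rw [← hcm _ hm]
      exact ⟨y, hy, rfl⟩
    -- it moves z
    have hmove : (y * q) * y * (y * q)⁻¹ * z * ((y * q) * y * (y * q)⁻¹)⁻¹ ≠ z := by
      intro e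
      have h1 : (y * q)⁻¹ * z * (y * q) = z * b := by
        have h0 : (y * q) * (z * b) * (y * q)⁻¹ = z := by
          calc y * q * (z * b) * (y * q)⁻¹ = y * ((q * z * q⁻¹) * (q * b * q⁻¹)) * y⁻¹ := by group
            _ = y * z * y⁻¹ := by rw [hqz, hqb, mul_assoc z b b, D.hQ'.sq, mul_one]
            _ = z := hyz
        calc (y * q)⁻¹ * z * (y * q) = (y * q)⁻¹ * ((y * q) * (z * b) * (y * q)⁻¹) * (y * q) := by rw [h0]
          _ = z * b := by group
      have h2 : y * (z * b) * y⁻¹ = z * b := by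
        rw [← h1]
        calc y * ((y * q)⁻¹ * z * (y * q)) * y⁻¹ =
            (y * q)⁻¹ * ((y * q) * y * (y * q)⁻¹ * z * ((y * q) * y * (y * q)⁻¹)⁻¹) * (y * q) := by group
          _ = _ := by rw [e]
      have h3 : y * (z * b) * y⁻¹ = z * (b * z) := by
        calc y * (z * b) * y⁻¹ = (y * z * y⁻¹) * (y * b * y⁻¹) := by group
          _ = z * (b * z) := by rw [hyz, hyb]
      exact D.hQ.ne_one (mul_eq_left.1 (mul_left_cancel (h3.symm.trans h2)))
    have hU : π (Y * W * Y * (Y * W)⁻¹) = π W :=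
      hπeq _ W (Subgroup.mem_sup_left ⟨Subgroup.mul_mem _ (inv_mem hmem) hq, by
        show ((y * q) * y * (y * q)⁻¹)⁻¹ * q ∈ Subgroup.centralizer ({z} : Set G)
        rw [Subgroup.mem_centralizer_singleton_iff]
        have hU' := (D.hQ'.conj_cases hmem D.hz).resolve_left hmove
        have := D.hQ'.conj_ratio D.hz (q := (y * q) * y * (y * q)⁻¹) (q' := q) hmem hq hU' (by
          rw [hqz]; exact fun e => D.hQ'.ne_one (mul_eq_left.1 e))
        exact this⟩)
    simp only [map_mul, map_inv, mul_inv_rev, hYi, hWi] at hU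
    calc π W * π Y * π W = (π Y * π W * π Y * (π W * π Y)) * π Y * π W := by rw [hU]
      _ = π Y * π W * π Y * (π W * (π Y * π Y) * π W) := by group
      _ = π Y * π W * π Y := by rw [hY2, mul_one, hW2, mul_one]
  have hcases : ∀ u : ↥X, π u = 1 ∨ π u = π Y ∨ π u = π W ∨ π u = π Y * π W ∨ π u = π W * π Y ∨
      π u = π Y * π W * π Y := by
    have hYY : ∀ t, π Y * (π Y * t) = t := fun t => by rw [← mul_assoc, hY2, one_mul]
    have hWW : ∀ t, π W * (π W * t) = t := fun t => by rw [← mul_assoc, hW2, one_mul]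
    have hb2 : ∀ t, π W * (π Y * (π W * t)) = π Y * (π W * (π Y * t)) := fun t => by
      rw [← mul_assoc, ← mul_assoc, hbraid, mul_assoc, mul_assoc]
    have hb1 : π W * (π Y * π W) = π Y * (π W * π Y) := by rw [← mul_assoc, hbraid, mul_assoc]
    have hbYW : π W * (π Y * (π W * π Y)) = π Y * π W := by
      rw [hb2, hY2, mul_one]
    let T : Subgroup (↥X ⧸ R.subgroupOf X) :=
      { carrier := {u | u = 1 ∨ u = π Y ∨ u = π W ∨ u = π Y * π W ∨ u = π W * π Y ∨ u = π Y * π W * π Y}
        one_mem' := Or.inl rfl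
        mul_mem' := by
          rintro u v (rfl | rfl | rfl | rfl | rfl | rfl) (rfl | rfl | rfl | rfl | rfl | rfl) <;>
            simp [mul_assoc, hY2, hW2, hYY, hWW, hb1, hb2, hbYW]
        inv_mem' := by
          rintro u (rfl | rfl | rfl | rfl | rfl | rfl) <;> simp [mul_assoc, hYi, hWi, hb1] }
    have hYT : π Y ∈ T := Or.inr (Or.inl rfl)
    have hWT : π W ∈ T := Or.inr (Or.inr (Or.inl rfl))
    have hle : X ≤ (T.comap π).map X.subtype := by
      refine sup_le (fun a ha => ?_) (fun a ha => ?_)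
      · refine ⟨⟨a, Subgroup.mem_sup_left ha⟩, ?_, rfl⟩
        rcases hQcase ⟨a, Subgroup.mem_sup_left ha⟩ ha with e | e
        · show π _ ∈ T
          rw [e]; exact T.one_mem
        · show π _ ∈ T
          rw [e]; exact hYT
      · refine ⟨⟨a, Subgroup.mem_sup_right ha⟩, ?_, rfl⟩
        rcases hQ'case ⟨a, Subgroup.mem_sup_right ha⟩ ha with e | e
        · show π _ ∈ T
          rw [e]; exact T.one_mem
        · show π _ ∈ T
          rw [e]; exact hWT
    intro u
    obtain ⟨u', hu', he⟩ := hle u.2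
    exact (Subtype.ext he : u' = u) ▸ hu'
  -- the action on the three involutions of V
  let pts : Fin 3 → G := ![z, b, z * b]
  have hV4 : ∀ x ∈ V, x = 1 ∨ ∃ i, pts i = x := by
    have hzz : ∀ t : G, z * (z * t) = t := fun t => by rw [← mul_assoc, D.hQ.sq, one_mul]
    have hbb : ∀ t : G, b * (b * t) = t := fun t => by rw [← mul_assoc, D.hQ'.sq, one_mul]
    have hbz : ∀ t : G, b * (z * t) = z * (b * t) := fun t => by rw [← mul_assoc, hzb, mul_assoc]
    let U : Subgroup G :=
      { carrier := {x | x = 1 ∨ x = z ∨ x = b ∨ x = z * b}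
        one_mem' := Or.inl rfl
        mul_mem' := by
          rintro u v (rfl | rfl | rfl | rfl) (rfl | rfl | rfl | rfl) <;>
            simp [mul_assoc, hzz, hbb, hbz, D.hQ.sq, D.hQ'.sq, hzb]
        inv_mem' := by
          rintro u (rfl | rfl | rfl | rfl) <;> simp [D.hQ.inv_eq, D.hQ'.inv_eq, hzb] }
    intro x hx
    rcases ((Subgroup.closure_le U).2 (by
      rintro u (rfl | rfl)
      · exact Or.inr (Or.inl rfl)
      · exact Or.inr (Or.inr (Or.inl rfl))) hx : x ∈ U) with e | e | e | e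
    · exact Or.inl e
    · exact Or.inr ⟨0, e.symm⟩
    · exact Or.inr ⟨1, e.symm⟩
    · exact Or.inr ⟨2, e.symm⟩
  have hinj : Function.Injective pts := by
    intro i j h
    have e1 : z * b ≠ z := fun e => D.hQ'.ne_one (mul_eq_left.1 e)
    have e2 : z * b ≠ b := fun e => D.hQ.ne_one (mul_eq_right.1 e)
    fin_cases i <;> fin_cases j <;> simp [pts] at h ⊢ <;>
      first
        | exact D.ne h | exact D.ne h.symm | exact D.hQ.ne_one h | exact D.hQ.ne_one h.symm | exact D.hQ'.ne_one h | exact D.hQ'.ne_one h.symm | exact e1 h | exact e1 h.symm | exact e2 h | exact e2 h.symm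
  have hne1 : ∀ i, pts i ≠ 1 := by
    intro i
    fin_cases i <;> simp [pts]
    · exact D.hQ.ne_one
    · exact D.hQ'.ne_one
    · exact fun e => D.ne (mul_left_cancel (e.trans D.hQ.sq.symm))
  have hptsV : ∀ i, pts i ∈ V := by
    intro i
    fin_cases i
    · exact hzV
    · exact hbV
    · exact mul_mem hzV hbV
  have hXV : ∀ x ∈ X, x ∈ Subgroup.normalizer (V : Set G) := by
    have hgen : ∀ s : G, s * z * s⁻¹ ∈ V → s * b * s⁻¹ ∈ V → s ∈ Subgroup.normalizer (V : Set G) := by
      intro s h1 h2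
      have hle : V.map (MulAut.conj s).toMonoidHom ≤ V := by
        refine Subgroup.map_le_iff_le_comap.2 ((Subgroup.closure_le _).2 ?_)
        rintro u (rfl | rfl)
        · exact h1
        · exact h2
      have heq := Subgroup.eq_of_le_of_card_ge hle
        (Subgroup.card_map_of_injective (f := (MulAut.conj s).toMonoidHom) (MulAut.conj s).injective).ge
      refine Subgroup.mem_normalizer_iff.2 fun u => ⟨fun hu => hle ⟨u, hu, rfl⟩, fun hu => ?_⟩
      rw [← heq] at hu
      obtain ⟨v, hv, hvu⟩ := hu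
      obtain rfl : v = u := (MulAut.conj s).injective hvu
      exact hv
    refine fun x hx => (sup_le (fun a ha => hgen a ?_ ?_) (fun a ha => hgen a ?_ ?_) :
      X ≤ Subgroup.normalizer (V : Set G)) hx
    · rw [D.hQ.comm a ha, mul_inv_cancel_right]; exact hzV
    · rcases D.hQ.conj_cases ha D.hb with e | e <;> rw [e]
      · exact hbV
      · exact mul_mem hbV hzV
    · rcases D.hQ'.conj_cases ha D.hz with e | e <;> rw [e]
      · exact hzV
      · exact mul_mem hzV hbV
    · rw [D.hQ'.comm a ha, mul_inv_cancel_right]; exact hbV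
  let N := Subgroup.normalizer (V : Set G)
  have hact : ∀ (n : ↥N) (i : Fin 3), ∃ j, pts j = (n : G) * pts i * (n : G)⁻¹ := fun n i =>
    (hV4 _ ((Subgroup.mem_normalizer_iff.1 n.2 _).1 (hptsV i))).resolve_left fun e =>
      hne1 i (conj_eq_one_iff.1 e)
  choose act hact using hact
  have hact_mul : ∀ (m n : ↥N) i, act (m * n) i = act m (act n i) := fun m n i => hinj (by
    rw [hact, hact m, hact n, Subgroup.coe_mul]; group)
  have hact_one : ∀ i, act 1 i = i := fun i => hinj (by rw [hact]; simp)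
  let ρ : ↥N →* Equiv.Perm (Fin 3) :=
    MonoidHom.mk' (fun n =>
      { toFun := act n, invFun := act n⁻¹
        left_inv := fun i => by rw [← hact_mul, inv_mul_cancel, hact_one]
        right_inv := fun i => by rw [← hact_mul, mul_inv_cancel, hact_one] })
      fun m n => Equiv.ext fun i => hact_mul m n i
  have hρ : ∀ (n : ↥N), ρ n = 1 ↔ (n : G) ∈ Subgroup.centralizer (V : Set G) := by
    intro n
    rw [hCV]
    constructor
    · intro h
      have e : ∀ i, (n : G) * pts i * (n : G)⁻¹ = pts i := fun i => by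
        rw [← hact n i, show act n i = i from congrFun (congrArg DFunLike.coe h) i]
      exact ⟨mul_inv_eq_iff_eq_mul.1 (e 0), mul_inv_eq_iff_eq_mul.1 (e 1)⟩
    · rintro ⟨h1, h2⟩
      refine Equiv.ext fun i => hinj ((hact n i).trans ?_)
      show (n : G) * pts i * (n : G)⁻¹ = pts i
      refine mul_inv_eq_iff_eq_mul.2 ?_
      fin_cases i
      · exact h1
      · exact h2
      · show (n : G) * (z * b) = z * b * (n : G)
        rw [← mul_assoc, h1, mul_assoc, h2, mul_assoc]
  let ι : ↥X →* ↥N := Subgroup.inclusion hXV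
  let σ : ↥X →* Equiv.Perm (Fin 3) := ρ.comp ι
  have hσY : σ Y = Equiv.swap 1 2 := Equiv.ext fun i => hinj ((hact (ι Y) i).trans (by
    show y * pts i * y⁻¹ = pts (Equiv.swap 1 2 i)
    fin_cases i <;> simp [pts, Equiv.swap_apply_def]
    · exact hyz
    · rw [hyb, hzb]
    · calc y * (z * b) * y⁻¹ = (y * z * y⁻¹) * (y * b * y⁻¹) := by group
        _ = b := by rw [hyz, hyb, hzb, ← mul_assoc, D.hQ.sq, one_mul]))
  have hσW : σ W = Equiv.swap 0 2 := Equiv.ext fun i => hinj ((hact (ι W) i).trans (by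
    show q * pts i * q⁻¹ = pts (Equiv.swap 0 2 i)
    fin_cases i <;> simp [pts, Equiv.swap_apply_def]
    · exact hqz
    · exact hqb
    · calc q * (z * b) * q⁻¹ = (q * z * q⁻¹) * (q * b * q⁻¹) := by group
        _ = z := by rw [hqz, hqb, mul_assoc, D.hQ'.sq, mul_one]))
  have hσsurj : Function.Surjective σ := by
    have : ∀ p : Equiv.Perm (Fin 3), p = 1 ∨ p = Equiv.swap 1 2 ∨ p = Equiv.swap 0 2 ∨
        p = Equiv.swap 1 2 * Equiv.swap 0 2 ∨ p = Equiv.swap 0 2 * Equiv.swap 1 2 ∨
        p = Equiv.swap 1 2 * Equiv.swap 0 2 * Equiv.swap 1 2 := by decide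
    intro p
    rcases this p with e | e | e | e | e | e
    · exact ⟨1, by rw [map_one, e]⟩
    · exact ⟨Y, by rw [hσY, e]⟩
    · exact ⟨W, by rw [hσW, e]⟩
    · exact ⟨Y * W, by rw [map_mul, hσY, hσW, e]⟩
    · exact ⟨W * Y, by rw [map_mul, hσY, hσW, e]⟩
    · exact ⟨Y * W * Y, by rw [map_mul, map_mul, hσY, hσW, e]⟩
  have hRC : ∀ x ∈ R, x ∈ Subgroup.centralizer (V : Set G) := fun x hx => (hCV x).2
    ⟨Subgroup.mem_centralizer_singleton_iff.1 (D.radical_le hx).1, Subgroup.mem_centralizer_singleton_iff.1 (D.radical_le hx).2⟩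
  have hker : σ.ker = R.subgroupOf X := by
    refine le_antisymm (fun u hu => ?_) (fun u hu => (hρ (ι u)).2 (hRC _ hu))
    have hR1 : ∀ v : ↥X, π v = 1 → σ v = 1 := fun v hv => (hρ (ι v)).2 (hRC _ ((hπ v).1 hv))
    have key : ∀ v, π u = π v → σ v = 1 := fun v hv => by
      have h := hR1 (u⁻¹ * v) (by rw [map_mul, map_inv, hv, inv_mul_cancel])
      rwa [map_mul, map_inv, show σ u = 1 from hu, inv_one, one_mul] at h
    rcases hcases u with e | e | e | e | e | e
    · exact (hπ u).1 e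
    · exfalso; have h := key Y e; rw [hσY] at h; revert h; decide
    · exfalso; have h := key W e; rw [hσW] at h; revert h; decide
    · exfalso; have h := key (Y * W) (by rw [e, map_mul]); rw [map_mul, hσY, hσW] at h; revert h; decide
    · exfalso; have h := key (W * Y) (by rw [e, map_mul]); rw [map_mul, hσY, hσW] at h; revert h; decide
    · exfalso; have h := key (Y * W * Y) (by rw [e, map_mul, map_mul]); rw [map_mul, map_mul, hσY, hσW] at h
      revert h; decide
  have hRX : R = X ⊓ Subgroup.centralizer (V : Set G) := by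
    refine le_antisymm (fun x hx => ⟨D.radical_le_sup hx, hRC x hx⟩) ?_
    rintro x ⟨hx, hxc⟩
    have : (⟨x, hx⟩ : ↥X) ∈ σ.ker := (hρ (ι ⟨x, hx⟩)).2 hxc
    rw [hker] at this
    exact this
  have hXn : ∀ n ∈ Subgroup.centralizer (V : Set G), ∀ x ∈ X, n * x * n⁻¹ ∈ X := by
    intro n hn x hx
    obtain ⟨h1, h2⟩ := (hCV n).1 hn
    refine (sup_le (fun a ha => Subgroup.mem_sup_left ?_) (fun a ha => Subgroup.mem_sup_right ?_) :
      X ≤ X.comap (MulAut.conj n).toMonoidHom) hx
    · exact (Subgroup.mem_normalizer_iff.1 (D.hL3 (Subgroup.mem_centralizer_singleton_iff.2 h1)) a).1 ha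
    · exact (Subgroup.mem_normalizer_iff.1 (D.hL3' (Subgroup.mem_centralizer_singleton_iff.2 h2)) a).1 ha
  have hCle : Subgroup.centralizer (V : Set G) ≤ Subgroup.normalizer (V : Set G) := by
    intro n hn
    refine Subgroup.mem_normalizer_iff.2 fun v => ⟨fun hv => ?_, fun hv => ?_⟩
    · rw [← hn v hv, mul_inv_cancel_right]; exact hv
    · have h := hn _ hv
      have e : v = n * v * n⁻¹ := by
        have : n * v * n⁻¹ * n = n * (n * v * n⁻¹) := h
        calc v = n⁻¹ * (n * v * n⁻¹ * n) := by group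
          _ = n * v * n⁻¹ := by rw [this]; group
      rw [e]; exact hv
  have hsplit : ∀ n ∈ Subgroup.normalizer (V : Set G), ∃ x ∈ X, x⁻¹ * n ∈ Subgroup.centralizer (V : Set G) := by
    intro n hn
    obtain ⟨x, hx⟩ := hσsurj (ρ ⟨n, hn⟩)
    refine ⟨x, x.2, ?_⟩
    have : ρ ((ι x)⁻¹ * ⟨n, hn⟩) = 1 := by
      rw [map_mul, map_inv]
      show (σ x)⁻¹ * ρ ⟨n, hn⟩ = 1
      rw [hx, inv_mul_cancel]
    exact (hρ _).1 this
  have hCz : Subgroup.centralizer (V : Set G) ≤ Subgroup.centralizer ({z} : Set G) :=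
    fun n hn => Subgroup.mem_centralizer_singleton_iff.2 ((hCV n).1 hn).1
  rw [inf_eq_right.2 hCz]
  refine ⟨hRX, ?_, ⟨hn, ⟨(QuotientGroup.quotientMulEquivOfEq hker.symm).trans
      (QuotientGroup.quotientKerEquivOfSurjective σ hσsurj)⟩⟩, ?_, ?_, ?_, ?_, hRX.symm⟩
  · -- R is the largest normal 2-subgroup
    refine le_antisymm ?_ ?_
    · intro x hx
      refine ⟨⟨x, D.radical_le_sup hx⟩, ?_, rfl⟩
      exact Cfsg.Agent.Cores.le_pCore hn
        (D.radical_isPGroup.of_equiv (Subgroup.subgroupOfEquivOfLe D.radical_le_sup).symm) hx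
    · rintro _ ⟨x, hx, rfl⟩
      suffices h : σ x = 1 by
        have : x ∈ σ.ker := h
        rw [hker] at this
        exact this
      obtain ⟨k, hk⟩ := Cfsg.Agent.Cores.pCore_isPGroup (p := 2) ⟨x, hx⟩
      have hpow : ∀ v : ↥X, v ∈ Cfsg.pCore 2 ↥X → σ v * σ v = 1 := by
        intro v hv
        obtain ⟨j, hj⟩ := Cfsg.Agent.Cores.pCore_isPGroup (p := 2) ⟨v, hv⟩
        have h1 : orderOf (σ v) ∣ 2 ^ j := orderOf_dvd_of_pow_eq_one (by
          rw [← map_pow, show v ^ 2 ^ j = 1 from congrArg Subtype.val hj, map_one])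
        have h2 : orderOf (σ v) ∣ 6 := by
          have := orderOf_dvd_natCard (σ v)
          rwa [Nat.card_eq_fintype_card, Fintype.card_perm, Fintype.card_fin, show Nat.factorial 3 = 6 from rfl] at this
        have h3 : orderOf (σ v) ∣ 2 := by
          have := Nat.dvd_gcd h1 h2
          refine this.trans ?_
          have hc : Nat.Coprime (2 ^ j) 3 := Nat.Coprime.pow_left j (by norm_num)
          exact Nat.Coprime.dvd_of_dvd_mul_right
            (Nat.Coprime.coprime_dvd_left (Nat.gcd_dvd_left _ _) hc) (Nat.gcd_dvd_right (2 ^ j) (2 * 3))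
        rw [← pow_two]
        exact orderOf_dvd_iff_pow_eq_one.1 h3
      have hall : ∀ p : Equiv.Perm (Fin 3), p * p = 1 →
          (∀ r : Equiv.Perm (Fin 3), (p * (r * p * r⁻¹)) * (p * (r * p * r⁻¹)) = 1) → p = 1 := by decide +kernel
      refine hall _ (hpow x hx) fun r => ?_
      obtain ⟨v, rfl⟩ := hσsurj r
      have := hpow _ (mul_mem hx ((inferInstance : (Cfsg.pCore 2 ↥X).Normal).conj_mem x hx v))
      simpa only [map_mul, map_inv] using this
  · refine le_antisymm (fun n hn => ?_) (sup_le (fun x hx => hXV x hx) hCle)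
    obtain ⟨x, hx, hxn⟩ := hsplit n hn
    rw [show n = x * (x⁻¹ * n) by group]
    exact Subgroup.mul_mem_sup hx hxn
  · intro n hn x hx
    obtain ⟨u, hu, hun⟩ := hsplit n hn
    have := hXn _ hun x hx
    rw [show n * x * n⁻¹ = u * (u⁻¹ * n * x * (u⁻¹ * n)⁻¹) * u⁻¹ by group]
    exact mul_mem (mul_mem hu this) (inv_mem hu)
  · exact fun x hx => hRC x hx
  · intro x hx c hc
    rw [hRX]
    refine ⟨?_, ?_⟩
    · rw [show x * c * x⁻¹ * c⁻¹ = x * (c * x⁻¹ * c⁻¹) by group]
      exact mul_mem hx (hXn c hc _ (inv_mem hx))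
    · have hn2 := hXV x hx
      refine Subgroup.mul_mem _ ?_ (Subgroup.inv_mem _ hc)
      intro v hv
      have h := hc _ ((Subgroup.mem_normalizer_iff''.1 hn2 v).1 hv)
      calc v * (x * c * x⁻¹) = x * ((x⁻¹ * v * x) * c) * x⁻¹ := by group
        _ = x * c * x⁻¹ * v := by rw [h]; group

end Cfsg.Agent.S5430
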