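import Cfsg.Statements.S5431
import Cfsg.Agent.LargeExtra.PairGroup

set_option autoImplicit false
open Cfsg

namespace Cfsg.Agent.S5431

/-- Let Q be a large extraspecial 2-subgroup of the finite group G (extraspecial; centralizer equal to its centre; normal in the centralizer of its centre; normalizing no non-trivial subgroup of odd order) with centre generated by z, an involution, of width w ≥ 2 (order 2^(2w+1)); let g be an element outside the centralizer H of z with g z g⁻¹ in Q; write V for the subgroup generated by z and g z g⁻¹, X for the subgroup generated by Q and g Q g⁻¹, R for the subgroup generated by the centralizer of z in g Q g⁻¹ and the centralizer of g z g⁻¹ in Q, and E for the intersection of Q and g Q g⁻¹. Then V is the centre of R, E lies in the second centre of R, R is nilpotent of class at most 3, E and R/E are elementary abelian, R/E is the direct product of the images of the centralizer of g z g⁻¹ in Q and of the centralizer of z in g Q g⁻¹ (R is their product and they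 meet in E), and the commutator subgroup of X and E lies in V. -/
theorem result {G : Type*} [Group G] [Finite G] (Q : Subgroup G) (hQ : Cfsg.IsLargeExtraspecial Q) (z : G) (hz : ((Subgroup.center ↥Q).map Q.subtype) = Subgroup.zpowers z) (hz2 : orderOf z = 2) (w : ℕ) (hw : 2 ≤ w) (hcard : Nat.card ↥Q = 2 ^ (2 * w + 1)) (g : G) (hgH : g ∉ Subgroup.centralizer ({z} : Set G)) (hgQ : g * z * g⁻¹ ∈ Q) (V X R E : Subgroup G) (hV : V = Subgroup.closure ({z, g * z * g⁻¹} : Set G)) (hX : X = Q ⊔ (Q).map (MulAut.conj g).toMonoidHom) (hR : R = ((Q).map (MulAut.conj g).toMonoidHom ⊓ Subgroup.centralizer ({z} : Set G)) ⊔ (Q ⊓ Subgroup.centralizer ({g * z * g⁻¹} : Set G))) (hE : E = Q ⊓ (Q).map (MulAut.conj g).toMonoidHom) : (Subgroup.center ↥R).map R.subtype = V ∧ E ≤ (Subgroup.upperCentralSeries ↥R 2).map R.subtype ∧ Subgroup.upperCentralSeries ↥R 3 = ⊤ ∧ Cfsg.IsElementaryAbelian 2 E ∧ (∀ x ∈ R, ∀ y ∈ R, x * y * x⁻¹ * y⁻¹ ∈ E ∧ x ^ 2 ∈ E) ∧ ((Q).map (MulAut.conj g).toMonoidHom ⊓ Subgroup.centralizer ({z}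 : Set G)) ⊓ (Q ⊓ Subgroup.centralizer ({g * z * g⁻¹} : Set G)) = E ∧ ⁅X, E⁆ ≤ V := by
  have D := Cfsg.Agent.LargeExtra.pairData_of_large hQ hz hw hcard hgH hgQ
  set Q' := (Q).map (MulAut.conj g).toMonoidHom with hQ'def
  have hR' : R = D.radical := hR
  subst hR' hE hX hV
  have hER := D.inter_le_radical
  have h2 : Q ⊓ Q' ≤ (Subgroup.upperCentralSeries ↥D.radical 2).map D.radical.subtype := by
    intro e he
    refine ⟨⟨e, hER he⟩, ?_, rfl⟩
    rw [SetLike.mem_coe, Subgroup.mem_upperCentralSeries_succ_iff, ]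
    intro r
    rw [Subgroup.upperCentralSeries_one]
    have hmem : (r : G) * e * (r : G)⁻¹ * e⁻¹ ∈ Subgroup.closure ({z, g * z * g⁻¹} : Set G) :=
      D.commutator_le_four (Subgroup.commutator_mem_commutator (D.radical_le_sup r.2) he)
    rw [← D.center_radical] at hmem
    obtain ⟨c, hc, hce⟩ := hmem
    have hinv : (⟨e, hER he⟩ : ↥D.radical) * r * (⟨e, hER he⟩ : ↥D.radical)⁻¹ * r⁻¹ = c⁻¹ := by
      refine Subtype.ext ?_
      show e * (r : G) * e⁻¹ * (r : G)⁻¹ = (c : G)⁻¹
      rw [show (c : G) = (r : G) * e * (r : G)⁻¹ * e⁻¹ from hce]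
      group
    show (⟨e, hER he⟩ : ↥D.radical) * r * (⟨e, hER he⟩ : ↥D.radical)⁻¹ * r⁻¹ ∈ Subgroup.center ↥D.radical
    rw [hinv]
    exact inv_mem hc
  refine ⟨D.center_radical, h2, ?_, D.elementary, fun x hx y hy => D.radical_mod_inter hx hy, ?_, D.commutator_le_four⟩
  · refine top_le_iff.1 fun x _ => ?_
    rw [Subgroup.mem_upperCentralSeries_succ_iff]
    intro y
    obtain ⟨c, hc, hce⟩ := h2 (D.radical_mod_inter x.2 y.2).1
    rw [commutatorElement_def, ← show c = x * y * x⁻¹ * y⁻¹ from Subtype.ext hce]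
    exact hc
  · exact le_antisymm (fun x hx => ⟨hx.2.1, hx.1.1⟩) D.inter_le

end Cfsg.Agent.S5431
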