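import Cfsg.Statements.S5433
import Cfsg.Agent.LargeExtra.Basic

set_option autoImplicit false
set_option linter.style.longLine false
open Cfsg

namespace Cfsg.Agent.S5433

/-- Let Q be a large extraspecial 2-subgroup of the finite group G (extraspecial; centralizer equal to its centre; normal in the centralizer of its centre; normalizing no non-trivial subgroup of odd order), and L a normal subgroup of G containing Q. Then G is the product of L and the normalizer of Q. -/
theorem result {G : Type*} [Group G] [Finite G] (Q : Subgroup G) (hQ : Cfsg.IsLargeExtraspecial Q) (L : Subgroup G) [L.Normal] (hQL : Q ≤ L) : L ⊔ Subgroup.normalizer (Q : Set G) = ⊤ := by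
  obtain ⟨z, hz⟩ := Cfsg.Agent.LargeExtra.exists_centralInvolution hQ.1
  haveI : Fact (Nat.Prime 2) := ⟨Nat.prime_two⟩
  obtain ⟨T, hT⟩ := (hz.isPGroup.comap_of_injective L.subtype L.subtype_injective : IsPGroup 2 ↥(Q.comap L.subtype)).exists_le_sylow
  let T' : Subgroup G := (T : Subgroup ↥L).map L.subtype
  have hQT : Q ≤ T' := fun q hq => ⟨⟨q, hQL hq⟩, hT hq, rfl⟩
  have hTp : IsPGroup 2 ↥T' := T.isPGroup'.map _
  haveI : Nontrivial ↥T' := ⟨⟨⟨z, hQT hz.mem⟩, 1, fun h => hz.ne_one (congrArg Subtype.val h)⟩⟩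
  -- the centre of T' is generated by z
  have hcentre : ∀ x : ↥T', x ∈ Subgroup.center ↥T' → (x : G) = 1 ∨ (x : G) = z := by
    intro x hx
    have : (x : G) ∈ Subgroup.centralizer (Q : Set G) := fun q hq =>
      congrArg Subtype.val (Subgroup.mem_center_iff.1 hx ⟨q, hQT hq⟩)
    rw [hQ.2.1, hz.center_eq] at this
    exact hz.mem_zpowers_iff.1 this
  haveI := hTp.center_nontrivial
  obtain ⟨⟨x, hx⟩, hx1⟩ := exists_ne (1 : Subgroup.center ↥T')
  have hxz : (x : G) = z :=
    (hcentre x hx).resolve_left fun h => hx1 (Subtype.ext (Subtype.ext h))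
  have hN : Subgroup.normalizer (T' : Set G) ≤ Subgroup.normalizer (Q : Set G) := by
    intro n hn
    refine hQ.2.2.1 ?_
    rw [hz.centralizer_center, Subgroup.mem_centralizer_singleton_iff]
    have hmem : n * z * n⁻¹ ∈ T' := (Subgroup.mem_normalizer_iff.1 hn z).1 (hQT hz.mem)
    have hc : (⟨n * z * n⁻¹, hmem⟩ : ↥T') ∈ Subgroup.center ↥T' := by
      refine Subgroup.mem_center_iff.2 fun t => Subtype.ext ?_
      have ht' : n⁻¹ * (t : G) * n ∈ T' := by
        refine (Subgroup.mem_normalizer_iff.1 hn _).2 ?_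
        rw [show n * (n⁻¹ * (t : G) * n) * n⁻¹ = (t : G) by group]
        exact t.2
      have e : (n⁻¹ * (t : G) * n) * z = z * (n⁻¹ * (t : G) * n) := by
        rw [← hxz]
        exact congrArg Subtype.val (Subgroup.mem_center_iff.1 hx ⟨_, ht'⟩)
      show (t : G) * (n * z * n⁻¹) = n * z * n⁻¹ * t
      calc (t : G) * (n * z * n⁻¹) = n * ((n⁻¹ * (t : G) * n) * z) * n⁻¹ := by group
        _ = n * z * n⁻¹ * t := by rw [e]; group
    rcases hcentre _ hc with e | e
    · exact absurd (conj_eq_one_iff.1 e) hz.ne_one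
    · exact mul_inv_eq_iff_eq_mul.1 e
  have hF : Subgroup.normalizer (T' : Set G) ⊔ L = ⊤ := Sylow.normalizer_sup_eq_top T
  exact top_le_iff.1 (hF ▸ sup_le (hN.trans le_sup_right) le_sup_left)

end Cfsg.Agent.S5433
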