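import Cfsg.Statements.S5434
import Cfsg.Agent.LargeExtra.Pair
import Cfsg.Agent.Coprime.Action

set_option autoImplicit false
open Cfsg

namespace Cfsg.Agent.S5434

/-- Let Q be a large extraspecial 2-subgroup of the finite group G (extraspecial; centralizer equal to its centre; normal in the centralizer of its centre; normalizing no non-trivial subgroup of odd order), and A a non-trivial subgroup of odd order of the normalizer of Q. Then Q is the central product of the centralizer of A in Q and the commutator subgroup [Q, A] (they generate Q and commute elementwise), [Q, A] is extraspecial, and the centralizer of A in Q is either the centre of Q or extraspecial. -/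
theorem result {G : Type*} [Group G] [Finite G] (Q : Subgroup G) (hQ : Cfsg.IsLargeExtraspecial Q) (A : Subgroup G) (hA : A ≤ Subgroup.normalizer (Q : Set G)) (hAodd : Odd (Nat.card ↥A)) (hA1 : A ≠ ⊥) : (Q ⊓ Subgroup.centralizer (A : Set G)) ⊔ ⁅Q, A⁆ = Q ∧ (∀ x ∈ Q ⊓ Subgroup.centralizer (A : Set G), ∀ y ∈ ⁅Q, A⁆, x * y = y * x) ∧ Cfsg.IsExtraspecial 2 ↥⁅Q, A⁆ ∧ (Q ⊓ Subgroup.centralizer (A : Set G) = ((Subgroup.center ↥Q).map Q.subtype) ∨ Cfsg.IsExtraspecial 2 ↥(Q ⊓ Subgroup.centralizer (A : Set G))) := by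
  haveI : Fact (Nat.Prime 2) := ⟨Nat.prime_two⟩
  obtain ⟨hE, hL2, hL3, -⟩ := hQ
  obtain ⟨z, hz⟩ := Cfsg.Agent.LargeExtra.exists_centralInvolution hE
  have hQn : ∀ a ∈ A, ∀ q ∈ Q, a * q * a⁻¹ ∈ Q := fun a ha q hq => (Subgroup.mem_normalizer_iff.1 (hA ha) q).1 hq
  have haz : ∀ a ∈ A, a * z * a⁻¹ = z := by
    intro a ha
    refine (hz.of_central _ (hQn a ha z hz.mem) fun q hq => ?_).resolve_left fun e => hz.ne_one (conj_eq_one_iff.1 e)
    have h := hz.comm _ (hQn a⁻¹ (inv_mem ha) q hq)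
    calc q * (a * z * a⁻¹) = a * ((a⁻¹ * q * a⁻¹⁻¹) * z) * a⁻¹ := by group
      _ = a * (z * (a⁻¹ * q * a⁻¹⁻¹)) * a⁻¹ := by rw [h]
      _ = a * z * a⁻¹ * q := by group
  set C := Q ⊓ Subgroup.centralizer (A : Set G) with hC
  set H := ⁅Q, A⁆ with hH
  have hHQ : H ≤ Q := Cfsg.Agent.Coprime.commutator_le_of_le_normalizer hA
  have hcop : (Nat.card ↥A).Coprime (Nat.card ↥Q) := by
    obtain ⟨n, hn⟩ := IsPGroup.iff_card.1 hz.isPGroup
    rw [hn]
    exact (Nat.coprime_two_right.2 hAodd).pow_right n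
  have hsolv : Group.IsSolvable ↥Q := by
    haveI := hz.isPGroup.isNilpotent
    exact inferInstance
  have hsup : C ⊔ H = Q := by
    rw [sup_comm]
    exact Cfsg.Agent.Coprime.commutator_sup_centralizer hA hcop (Or.inr hsolv)
  have hcomm : ∀ x ∈ C, ∀ y ∈ H, x * y = y * x := by
    intro c hc
    suffices hle : H ≤ Subgroup.centralizer ({c} : Set G) from
      fun y hy => (Subgroup.mem_centralizer_singleton_iff.1 (hle hy)).symm
    rw [hH, Subgroup.commutator_le]
    intro q hq a ha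
    rw [Subgroup.mem_centralizer_singleton_iff, commutatorElement_def]
    refine (mul_inv_eq_iff_eq_mul.1 (?_ : c * (q * a * q⁻¹ * a⁻¹) * c⁻¹ = q * a * q⁻¹ * a⁻¹)).symm
    have hca : a * c * a⁻¹ = c := mul_inv_eq_iff_eq_mul.2 (hc.2 a ha)
    have e : c * (q * a * q⁻¹ * a⁻¹) * c⁻¹ = c * q * c⁻¹ * (a * (c * q * c⁻¹)⁻¹ * a⁻¹) := by
      calc c * (q * a * q⁻¹ * a⁻¹) * c⁻¹ = c * q * c⁻¹ * (c * (a * q⁻¹ * a⁻¹) * c⁻¹) := by group
        _ = c * q * c⁻¹ * ((a * c * a⁻¹) * (a * q⁻¹ * a⁻¹) * (a * c * a⁻¹)⁻¹) := by rw [hca]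
        _ = _ := by group
    rcases hz.conj_cases hc.1 hq with r | r
    · rw [e, r]; group
    · rw [e, r]
      calc q * z * (a * (q * z)⁻¹ * a⁻¹) = q * (z * (a * z * a⁻¹)⁻¹) * (a * q⁻¹ * a⁻¹) := by group
        _ = q * a * q⁻¹ * a⁻¹ := by rw [haz a ha]; group
  have hcentral : ∀ x ∈ Q, (∀ y ∈ H, x * y = y * x) → (∀ y ∈ C, x * y = y * x) → x = 1 ∨ x = z := by
    intro x hx h1 h2
    refine hz.of_central x hx fun q hq => ?_
    have hle : C ⊔ H ≤ Subgroup.centralizer ({x} : Set G) :=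
      sup_le (fun y hy => Subgroup.mem_centralizer_singleton_iff.2 (h2 y hy).symm)
        (fun y hy => Subgroup.mem_centralizer_singleton_iff.2 (h1 y hy).symm)
    exact Subgroup.mem_centralizer_singleton_iff.1 (hle (hsup.symm ▸ hq))
  have hzC : z ∈ C := ⟨hz.mem, fun a ha => mul_inv_eq_iff_eq_mul.1 (haz a ha)⟩
  have hAQ : ¬ A ≤ Subgroup.centralizer (Q : Set G) := by
    intro h
    rw [hL2] at h
    refine hA1 ((Subgroup.eq_bot_iff_forall A).2 fun a ha => ?_)
    obtain ⟨q, -, hq⟩ := h ha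
    exact Cfsg.Agent.LargeExtra.eq_one_of_odd_of_two hAodd hz.isPGroup ha (hq ▸ q.2)
  have hHZ : ¬ H ≤ Subgroup.zpowers z := by
    intro h
    refine hAQ (Cfsg.Agent.Coprime.le_centralizer_of_stabilizes hA hcop h fun a ha => ?_)
    intro x hx
    rcases hz.mem_zpowers_iff.1 hx with rfl | rfl
    · simp
    · exact (mul_inv_eq_iff_eq_mul.1 (haz a ha)).symm
  have hQH : Q ≤ Subgroup.normalizer (H : Set G) := Cfsg.Agent.Coprime.le_normalizer_commutator_left Q A
  have hzH : z ∈ H := by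
    by_contra hzH
    refine hHZ fun x hx => hz.mem_zpowers_iff.2 (hz.of_central x (hHQ hx) fun q hq => ?_)
    refine mul_inv_eq_iff_eq_mul.1 ((hz.conj_cases hq (hHQ hx)).resolve_right fun e => hzH ?_)
    have := mul_mem (inv_mem hx) ((Subgroup.mem_normalizer_iff.1 (hQH hq) x).1 hx)
    rwa [e, inv_mul_cancel_left] at this
  -- transfer to subgroups of Q
  have hsub : ∀ K : Subgroup G, K ≤ Q → z ∈ K → ¬ K ≤ Subgroup.zpowers z →
      (∀ x ∈ K, (∀ y ∈ K, x * y = y * x) → x = 1 ∨ x = z) → Cfsg.IsExtraspecial 2 ↥K := by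
    intro K hK hzK hne hcen
    have hcle : Subgroup.center ↥Q ≤ K.subgroupOf Q := by
      intro x hx
      show (x : G) ∈ K
      rcases hz.eq_of_mem hx with e | e <;> rw [e]
      · exact one_mem K
      · exact hzK
    refine Cfsg.Agent.LargeExtra.isExtraspecial_map_equiv
      (Cfsg.Agent.PGroup.extraspecial_subgroup hE (H := K.subgroupOf Q) (lt_of_le_of_ne hcle fun e => hne ?_) ?_)
      (Subgroup.subgroupOfEquivOfLe hK)
    · intro x hx
      have : (⟨x, hK hx⟩ : ↥Q) ∈ Subgroup.center ↥Q := e ▸ hx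
      exact hz.mem_zpowers_iff.2 (hz.eq_of_mem this)
    · refine le_antisymm ?_ (le_inf hcle fun x hx y _ => Subgroup.mem_center_iff.1 hx y)
      rintro x ⟨hxK, hxc⟩
      rcases hcen _ hxK (fun y hy => (congrArg Subtype.val (hxc ⟨y, hK hy⟩ hy)).symm) with e | e
      · rw [show x = 1 from Subtype.ext e]; exact one_mem _
      · refine Subgroup.mem_center_iff.2 fun y => Subtype.ext ?_
        show (y : G) * (x : G) = (x : G) * (y : G)
        have e' : (x : G) = z := e
        rw [e']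
        exact hz.comm y y.2
  refine ⟨hsup, hcomm, hsub H hHQ hzH hHZ fun x hx hxc => hcentral x (hHQ hx) hxc fun y hy => (hcomm y hy x hx).symm, ?_⟩
  by_cases hCZ : C ≤ Subgroup.zpowers z
  · left
    rw [hz.center_eq]
    exact le_antisymm hCZ (Subgroup.zpowers_le.2 hzC)
  · exact Or.inr (hsub C inf_le_left hzC hCZ fun x hx hxc => hcentral x hx.1 (fun y hy => hcomm x hx y hy) hxc)

end Cfsg.Agent.S5434
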