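import Cfsg.Statements.S5436
import Cfsg.Agent.LargeExtra.Components

set_option autoImplicit false
open Cfsg

namespace Cfsg.Agent.S5436

open Cfsg.Agent.LargeExtra
open scoped Pointwise commutatorElement

/-- Let z be an involution of the finite group G with centralizer H whose generalized Fitting subgroup Q is extraspecial of width at least 2 (order 2^(2w+1), w ≥ 2); suppose some conjugate of z other than z lies in Q, H/Q is a non-abelian simple group, H acts irreducibly by conjugation on Q modulo the subgroup generated by z (the only H-invariant subgroups of Q containing z are that subgroup and Q), and Q is not the subgroup generated by the conjugates of z lying in H. Then G is simple. -/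
theorem result {G : Type*} [Group G] [Finite G] (z : G) (hz : orderOf z = 2) (Q : Subgroup (Subgroup.centralizer ({z} : Set G))) [Q.Normal] (hF : Cfsg.generalizedFittingSubgroup ↥(Subgroup.centralizer ({z} : Set G)) = Q) (hQ : Cfsg.IsExtraspecial 2 ↥Q) (w : ℕ) (hw : 2 ≤ w) (hcard : Nat.card ↥Q = 2 ^ (2 * w + 1)) (hnwc : ∃ g : G, (∃ hq : g * z * g⁻¹ ∈ Subgroup.centralizer ({z} : Set G), (⟨g * z * g⁻¹, hq⟩ : Subgroup.centralizer ({z} : Set G)) ∈ Q) ∧ g * z * g⁻¹ ≠ z) (hsimp : IsSimpleGroup (↥(Subgroup.centralizer ({z} : Set G)) ⧸ Q)) (hna : ¬ IsMulCommutative (↥(Subgroup.centralizer ({z} : Set G)) ⧸ Q)) (hirr : ∀ W : Subgroup (Subgroup.centralizer ({z} : Set G)), W.Normal → W ≤ Q → (W = Q ∨ ∀ x ∈ W, (x : G) ∈ Subgroup.zpowers z)) (hwcl : Subgroup.closure {x : Subgroup.centralizer ({z} : Set G) | IsConj z (x : G)} ≠ Q) : IsSimpleGroup G := by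
  set Q' := Q.map (Subgroup.centralizer ({z} : Set G)).subtype with hQ'
  have hQ'E : Cfsg.IsExtraspecial 2 ↥Q' :=
    isExtraspecial_map_equiv hQ (Q.equivMapOfInjective (Subgroup.centralizer ({z} : Set G)).subtype (Subgroup.centralizer ({z} : Set G)).subtype_injective)
  obtain ⟨hci, hL2, hL3⟩ := centralInvolution_of_genFitting hz (Q := Q') (by rw [hQ', hF]) hQ'E
  obtain ⟨g, ⟨hgC, hgQ⟩, hgz⟩ := hnwc
  have hcard' : Nat.card ↥Q' = 2 ^ (2 * w + 1) :=
    (Nat.card_congr (Q.equivMapOfInjective (Subgroup.centralizer ({z} : Set G)).subtype (Subgroup.centralizer ({z} : Set G)).subtype_injective).toEquiv).symm.trans hcard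
  have hQL := isLarge_of_conj hci hL2 hL3 hw hcard' (g := g) ⟨⟨_, hgC⟩, hgQ, rfl⟩ hgz
  set M := Subgroup.normalClosure ({z} : Set G) with hM
  haveI hMn : M.Normal := Subgroup.normalClosure_normal
  haveI : (M.subgroupOf (Subgroup.centralizer ({z} : Set G))).Normal := hMn.subgroupOf (Subgroup.centralizer ({z} : Set G))
  have hgM : g * z * g⁻¹ ∈ M := hMn.conj_mem z (Subgroup.subset_normalClosure rfl) g
  have hQM : Q ≤ M.subgroupOf (Subgroup.centralizer ({z} : Set G)) := by
    have hW := hirr (Q ⊓ M.subgroupOf (Subgroup.centralizer ({z} : Set G))) inferInstance inf_le_left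
    refine inf_eq_left.1 (hW.resolve_right fun h => hgz ?_)
    rcases hci.mem_zpowers_iff.1 (h ⟨_, hgC⟩ ⟨hgQ, hgM⟩) with e | e
    · exact absurd (conj_eq_one_iff.1 e) hci.ne_one
    · exact e
  refine isSimpleGroup_of_centralizer_le (largeData_of hQL hci.center_eq) ?_
  haveI := hsimp
  have hCM : M.subgroupOf (Subgroup.centralizer ({z} : Set G)) = ⊤ := by
    by_contra htop
    apply hwcl
    have hMQ : M.subgroupOf (Subgroup.centralizer ({z} : Set G)) ≤ Q := by
      have hn : ((M.subgroupOf (Subgroup.centralizer ({z} : Set G))).map (QuotientGroup.mk' Q)).Normal :=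
        Subgroup.Normal.map inferInstance _ (QuotientGroup.mk'_surjective Q)
      rcases hn.eq_bot_or_eq_top with hb | ht
      · rwa [Subgroup.map_eq_bot_iff, QuotientGroup.ker_mk'] at hb
      · exfalso
        apply htop
        have := congrArg (Subgroup.comap (QuotientGroup.mk' Q)) ht
        rwa [Subgroup.comap_map_eq, QuotientGroup.ker_mk', Subgroup.comap_top, sup_of_le_left hQM] at this
    set W := Subgroup.closure {x : ↥(Subgroup.centralizer ({z} : Set G)) | IsConj z (x : G)} with hW
    have hWle : W ≤ Q := by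
      refine ((Subgroup.closure_le _).2 ?_ : W ≤ M.subgroupOf (Subgroup.centralizer ({z} : Set G))).trans hMQ
      intro x hx
      obtain ⟨d, hd⟩ := isConj_iff.1 hx
      show (x : G) ∈ M
      rw [← hd]
      exact hMn.conj_mem z (Subgroup.subset_normalClosure rfl) d
    haveI : W.Normal := by
      refine ⟨fun x hx c => ?_⟩
      refine (((Subgroup.closure_le _).2 ?_) : W ≤ W.comap (MulAut.conj c).toMonoidHom) hx
      intro y hy
      refine Subgroup.subset_closure (IsConj.trans (show IsConj z (y : G) from hy) ?_)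
      exact isConj_iff.2 ⟨(c : G), rfl⟩
    refine (hirr W inferInstance hWle).resolve_right fun h => ?_
    have hg' : (⟨g * z * g⁻¹, hgC⟩ : ↥(Subgroup.centralizer ({z} : Set G))) ∈ W := Subgroup.subset_closure (isConj_iff.2 ⟨g, rfl⟩)
    rcases hci.mem_zpowers_iff.1 (h _ hg') with e | e
    · exact absurd (conj_eq_one_iff.1 e) hci.ne_one
    · exact hgz e
  exact Subgroup.subgroupOf_eq_top.1 hCM

end Cfsg.Agent.S5436
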