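import Cfsg.Statements.S5437


set_option autoImplicit false
set_option linter.style.longLine false
open Cfsg

namespace Cfsg.Agent.S5437

/-- Let I be a set of involutions of the finite group G closed under conjugation, and H a subgroup of G. The following are equivalent: (1) for every member x of I lying in H, the conjugates of x lying in H form a single H-class and the centralizer of x lies in H; (2) for every g outside H, no member of I lies in both H and g H g⁻¹; (3) every member of I lying in H fixes exactly one coset in the action of G on the cosets of H. -/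
theorem result {G : Type*} [Group G] [Finite G] (I : Set G) (hI : ∀ x ∈ I, orderOf x = 2) (hIc : ∀ g : G, ∀ x ∈ I, g * x * g⁻¹ ∈ I) (H : Subgroup G) : ((∀ x ∈ I, x ∈ H → (∀ g : G, g * x * g⁻¹ ∈ H → ∃ h ∈ H, h * x * h⁻¹ = g * x * g⁻¹) ∧ Subgroup.centralizer ({x} : Set G) ≤ H) ↔ (∀ g : G, g ∉ H → ∀ x ∈ I, ¬ (x ∈ H ∧ x ∈ (H : Subgroup G).map (MulAut.conj g).toMonoidHom))) ∧ ((∀ g : G, g ∉ H → ∀ x ∈ I, ¬ (x ∈ H ∧ x ∈ (H : Subgroup G).map (MulAut.conj g).toMonoidHom)) ↔ ∀ x ∈ I, x ∈ H → ∃! c : G ⧸ H, x • c = c) := by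
  constructor
  · constructor
    · rintro h g hg x hx ⟨hxH, hxg⟩
      obtain ⟨y, hy, hyx⟩ := hxg
      have hy' : g * y * g⁻¹ = x := hyx
      have hyI : y ∈ I := by
        have := hIc g⁻¹ x hx
        rwa [← hy', show g⁻¹ * (g * y * g⁻¹) * g⁻¹⁻¹ = y by group] at this
      obtain ⟨h1, h2⟩ := h y hyI hy
      obtain ⟨k, hk, hke⟩ := h1 g (hy'.symm ▸ hxH)
      have hc : k⁻¹ * g ∈ Subgroup.centralizer ({y} : Set G) := by
        rw [Subgroup.mem_centralizer_singleton_iff]
        calc k⁻¹ * g * y = k⁻¹ * (g * y * g⁻¹) * g := by group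
          _ = k⁻¹ * (k * y * k⁻¹) * g := by rw [hke]
          _ = y * (k⁻¹ * g) := by group
      exact hg (by simpa using mul_mem hk (h2 hc))
    · intro h x hx hxH
      have key : ∀ g : G, g * x * g⁻¹ ∈ H → g ∈ H := fun g hg => by
        by_contra hgH
        exact h g hgH _ (hIc g x hx) ⟨hg, ⟨x, hxH, rfl⟩⟩
      refine ⟨fun g hg => ⟨g, key g hg, rfl⟩, fun c hc => key c ?_⟩
      rw [Subgroup.mem_centralizer_singleton_iff] at hc
      rwa [hc, mul_inv_cancel_right]
  · have key : ∀ (x g : G), x • (g : G ⧸ H) = (g : G ⧸ H) ↔ g⁻¹ * x * g ∈ H := by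
      intro x g
      rw [eq_comm, MulAction.Quotient.smul_coe, QuotientGroup.eq, smul_eq_mul, ← mul_assoc]
    constructor
    · intro h x hx hxH
      refine ⟨((1 : G) : G ⧸ H), (key x 1).2 (by simpa using hxH), fun c hc => ?_⟩
      obtain ⟨g, rfl⟩ := QuotientGroup.mk_surjective c
      rw [QuotientGroup.eq, mul_one, inv_mem_iff]
      by_contra hgH
      exact h g hgH x hx ⟨hxH, ⟨g⁻¹ * x * g, (key x g).1 hc, by simp [mul_assoc]⟩⟩
    · rintro h g hg x hx ⟨hxH, ⟨y, hy, hyx⟩⟩
      obtain ⟨c, -, hu⟩ := h x hx hxH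
      refine hg ?_
      have h1 := hu ((1 : G) : G ⧸ H) ((key x 1).2 (by simpa using hxH))
      have h2 := hu (g : G ⧸ H) ((key x g).2 (by
        have hy' : g * y * g⁻¹ = x := hyx
        rw [← hy']
        simpa [mul_assoc] using hy))
      have := QuotientGroup.eq.1 (h1.trans h2.symm)
      simpa using this

end Cfsg.Agent.S5437
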