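import Cfsg.Statements.S5438
import Cfsg.Agent.Cores.Basic

set_option autoImplicit false
set_option linter.style.longLine false
open Cfsg

namespace Cfsg.Agent.S5438

/-- Let z be a 2-central involution of the finite group G (an involution central in some Sylow 2-subgroup) and H a subgroup containing z such that the coset H is the only coset of H fixed by z (in the action of G on the cosets of H). Then H has odd index in G, and for every 2-element x of H the conjugates of x lying in H form a single H-class. -/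
theorem result {G : Type*} [Group G] [Finite G] (z : G) (hz : Cfsg.IsTwoCentralInvolution z) (H : Subgroup G) (hzH : z ∈ H) (hfix : ∀ g : G, g⁻¹ * z * g ∈ H → g ∈ H) : Odd H.index ∧ ∀ x ∈ H, (∃ k : ℕ, orderOf x = 2 ^ k) → ∀ g : G, g * x * g⁻¹ ∈ H → ∃ h ∈ H, h * x * h⁻¹ = g * x * g⁻¹ := by
  haveI : Fact (Nat.Prime 2) := ⟨Nat.prime_two⟩
  obtain ⟨hz2, P, hzP, hPz⟩ := hz
  have hPH : (P : Subgroup G) ≤ H := fun p hp => hfix p (by
    rw [mul_assoc, ← hPz p hp]
    simpa using hzH)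
  have hodd : Odd H.index := by
    rw [← Nat.not_even_iff_odd, even_iff_two_dvd]
    intro h2
    exact P.not_dvd_index (h2.trans (Subgroup.index_dvd_of_le hPH))
  refine ⟨hodd, fun x hxH ⟨k, hk⟩ g hg => ?_⟩
  have hfix' : ∀ a c d : G, c⁻¹ * (a * z * a⁻¹) * c ∈ H → d⁻¹ * (a * z * a⁻¹) * d ∈ H → c⁻¹ * d ∈ H := by
    intro a c d hc hd
    have h1 : a⁻¹ * c ∈ H := hfix _ (by simpa [mul_assoc] using hc)
    have h2 : a⁻¹ * d ∈ H := hfix _ (by simpa [mul_assoc] using hd)
    simpa [mul_assoc] using mul_mem (inv_mem h1) h2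
  have hxp : IsPGroup 2 ↥(Subgroup.zpowers x) :=
    IsPGroup.of_card (n := k) (by rw [Nat.card_zpowers, hk])
  -- every Sylow 2-subgroup has a central conjugate of z
  have hcentral : ∀ S : Sylow 2 G, ∃ a : G, a * z * a⁻¹ ∈ (S : Subgroup G) ∧
      ∀ s ∈ (S : Subgroup G), s * (a * z * a⁻¹) = a * z * a⁻¹ * s := by
    intro S
    obtain ⟨a, rfl⟩ := MulAction.exists_smul_eq G P S
    refine ⟨a, ⟨z, hzP, rfl⟩, ?_⟩
    rintro _ ⟨p, hp, rfl⟩
    show a * p * a⁻¹ * (a * z * a⁻¹) = a * z * a⁻¹ * (a * p * a⁻¹)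
    calc a * p * a⁻¹ * (a * z * a⁻¹) = a * (p * z) * a⁻¹ := by group
      _ = _ := by rw [hPz p hp]; group
  -- for each fixed coset some conjugate of z fixing it commutes with x
  have hex : ∀ c : G, c⁻¹ * x * c ∈ H → ∃ a : G, c⁻¹ * (a * z * a⁻¹) * c ∈ H ∧
      (a * z * a⁻¹) * x = x * (a * z * a⁻¹) := by
    intro c hc
    have hy : (⟨c⁻¹ * x * c, hc⟩ : ↥H) ^ (2 ^ k) = 1 := by
      refine Subtype.ext ?_
      show (c⁻¹ * x * c) ^ (2 ^ k) = 1
      have e : c⁻¹ * x * c = MulAut.conj c⁻¹ x := by simp [MulAut.conj_apply]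
      rw [e, ← map_pow, ← hk, pow_orderOf_eq_one, map_one]
    obtain ⟨i, -, hi⟩ := (Nat.dvd_prime_pow Nat.prime_two).1 (orderOf_dvd_of_pow_eq_one hy)
    have hyp : IsPGroup 2 ↥(Subgroup.zpowers (⟨c⁻¹ * x * c, hc⟩ : ↥H)) :=
      IsPGroup.of_card (n := i) (by rw [Nat.card_zpowers, hi])
    obtain ⟨S, hS⟩ := hyp.exists_le_sylow
    obtain ⟨T, hT⟩ := S.isPGroup'.map H.subtype |>.exists_le_sylow
    have hTH : (T : Subgroup G) ≤ H := by
      have h1 : Nat.card ↥(T : Subgroup G) ≤ Nat.card ↥((S : Subgroup ↥H).map H.subtype) := by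
        rw [Subgroup.card_map_of_injective H.subtype_injective, T.card_eq_multiplicity, S.card_eq_multiplicity]
        refine Nat.pow_le_pow_right (by norm_num) ?_
        rw [← Subgroup.card_mul_index H, Nat.factorization_mul Nat.card_pos.ne' H.index_ne_zero_of_finite,
          Finsupp.add_apply, Nat.factorization_eq_zero_of_not_dvd (show ¬ 2 ∣ H.index from fun h =>
            Nat.not_even_iff_odd.2 hodd (even_iff_two_dvd.2 h)), add_zero]
      rw [← Subgroup.eq_of_le_of_card_ge hT h1]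
      exact Subgroup.map_subtype_le _
    obtain ⟨a, ha, hac⟩ := hcentral T
    refine ⟨c * a, ?_, ?_⟩
    · simpa [mul_assoc] using hTH ha
    · have hxT : c⁻¹ * x * c ∈ (T : Subgroup G) := hT ⟨_, hS (Subgroup.mem_zpowers _), rfl⟩
      have e := hac _ hxT
      calc c * a * z * (c * a)⁻¹ * x = c * (a * z * a⁻¹ * (c⁻¹ * x * c)) * c⁻¹ := by group
        _ = c * (c⁻¹ * x * c * (a * z * a⁻¹)) * c⁻¹ := by rw [e]
        _ = x * (c * a * z * (c * a)⁻¹) := by group
  -- a Sylow 2-subgroup of the centralizer of x and the coset it fixes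
  let C := Subgroup.centralizer ({x} : Set G)
  have hxC : Subgroup.zpowers x ≤ C := Subgroup.zpowers_le.2 (Subgroup.mem_centralizer_singleton_iff.2 rfl)
  obtain ⟨S0⟩ : Nonempty (Sylow 2 ↥C) := inferInstance
  obtain ⟨S, hS⟩ := (S0.isPGroup'.map C.subtype).exists_le_sylow
  obtain ⟨b, hbS, hbc⟩ := hcentral S
  have hxS : x ∈ (S : Subgroup G) := by
    have hn : (Subgroup.zpowers x).subgroupOf C ≤ (S0 : Subgroup ↥C) := by
      have hnorm : ((Subgroup.zpowers x).subgroupOf C).Normal := by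
        refine ⟨fun y hy c => ?_⟩
        show (c : G) * y * (c : G)⁻¹ ∈ Subgroup.zpowers x
        obtain ⟨m, hm⟩ := hy
        have hm' : x ^ m = (y : G) := hm
        have hcx : (c : G) * x * (c : G)⁻¹ = x :=
          mul_inv_eq_iff_eq_mul.2 (Subgroup.mem_centralizer_singleton_iff.1 c.2)
        exact ⟨m, by rw [← hm', ← MulAut.conj_apply, map_zpow, MulAut.conj_apply, hcx]⟩
      have hp : IsPGroup 2 ↥((Subgroup.zpowers x).subgroupOf C) :=
        hxp.of_equiv (Subgroup.subgroupOfEquivOfLe hxC).symm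
      exact (Cfsg.Agent.Cores.le_pCore hnorm hp).trans (Cfsg.Agent.Cores.pCore_le_sylow S0)
    exact hS ⟨⟨x, hxC (Subgroup.mem_zpowers x)⟩, hn (Subgroup.mem_zpowers x), rfl⟩
  -- all the fixed cosets of x are in the orbit of the coset of b
  have horb : ∀ c : G, c⁻¹ * x * c ∈ H → ∃ u ∈ C, b⁻¹ * u * c ∈ H := by
    intro c hc
    obtain ⟨a, hac, hax⟩ := hex c hc
    have hzp : IsPGroup 2 ↥(Subgroup.zpowers (a * z * a⁻¹)) := by
      refine IsPGroup.of_card (n := 1) ?_
      rw [Nat.card_zpowers, pow_one, ← MulAut.conj_apply]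
      exact (orderOf_injective (MulAut.conj a).toMonoidHom (MulAut.conj a).injective z).trans hz2
    have haC : a * z * a⁻¹ ∈ C := Subgroup.mem_centralizer_singleton_iff.2 hax
    obtain ⟨R, hR⟩ := (hzp.of_equiv (Subgroup.subgroupOfEquivOfLe (Subgroup.zpowers_le.2 haC)).symm :
      IsPGroup 2 ↥((Subgroup.zpowers (a * z * a⁻¹)).subgroupOf C)).exists_le_sylow
    obtain ⟨u, hu⟩ := MulAction.exists_smul_eq ↥C R S0
    refine ⟨u, u.2, ?_⟩
    have hmem : (u : G) * (a * z * a⁻¹) * (u : G)⁻¹ ∈ (S : Subgroup G) := by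
      refine hS ⟨u * ⟨_, haC⟩ * u⁻¹, ?_, rfl⟩
      rw [← hu]
      exact ⟨⟨_, haC⟩, hR (Subgroup.mem_zpowers _), rfl⟩
    have hSfix : ∀ s ∈ (S : Subgroup G), b⁻¹ * s * b ∈ H := by
      intro s hs
      refine hfix _ ?_
      have e : s⁻¹ * (b * z * b⁻¹) * s = b * z * b⁻¹ := by rw [mul_assoc, ← hbc s hs]; group
      rw [show (b⁻¹ * s * b)⁻¹ * z * (b⁻¹ * s * b) = b⁻¹ * (s⁻¹ * (b * z * b⁻¹) * s) * b by group, e]
      simpa [mul_assoc] using hzH
    have h1 := hfix' ((u : G) * a) b ((u : G) * c) (by simpa [mul_assoc] using hSfix _ hmem)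
      (by simpa [mul_assoc] using hac)
    simpa [mul_assoc] using h1
  obtain ⟨u, hu, huH⟩ := horb 1 (by simpa using hxH)
  obtain ⟨v, hv, hvH⟩ := horb g⁻¹ (by simpa [mul_assoc] using hg)
  refine ⟨g * v⁻¹ * u, ?_, ?_⟩
  · simpa [mul_assoc] using inv_mem (mul_mem (inv_mem huH) hvH)
  · have e : v⁻¹ * u * x = x * (v⁻¹ * u) := Subgroup.mem_centralizer_singleton_iff.1 (mul_mem (inv_mem hv) hu)
    calc g * v⁻¹ * u * x * (g * v⁻¹ * u)⁻¹ = g * (v⁻¹ * u * x) * (v⁻¹ * u)⁻¹ * g⁻¹ := by group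
      _ = g * x * g⁻¹ := by rw [e]; group

end Cfsg.Agent.S5438
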