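import Cfsg.Statements.S5439
import Cfsg.Agent.Invol.Basic

set_option autoImplicit false
open Cfsg

namespace Cfsg.Agent.S5439

/-- Let I and J be two different conjugacy classes of involutions of the finite group G and H a subgroup such that every member of I ∪ J fixes exactly one coset in the action on the cosets of H, and such that for every a in I ∩ H and every b in (I ∪ J) ∩ H different from a and commuting with it, the centralizer of a b lies in H. Then H = G. -/
theorem result {G : Type*} [Group G] [Finite G] (I J : Set G) (a₀ b₀ : G) (ha₀ : orderOf a₀ = 2) (hb₀ : orderOf b₀ = 2) (hI : I = {x | IsConj a₀ x}) (hJ : J = {x | IsConj b₀ x}) (hIJ : I ≠ J) (H : Subgroup G) (hfix : ∀ x ∈ I ∪ J, ∃! c : G ⧸ H, x • c = c) (hcent : ∀ a ∈ I, a ∈ H → ∀ b ∈ I ∪ J, b ∈ H → a ≠ b → a * b = b * a → Subgroup.centralizer ({a * b} : Set G) ≤ H) : H = ⊤ := by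
  have hItwo : ∀ x ∈ I, orderOf x = 2 := fun x hx =>
    (Cfsg.Agent.Invol.orderOf_eq_of_isConj (show IsConj a₀ x by rw [hI] at hx; exact hx)).symm.trans ha₀
  have hJtwo : ∀ x ∈ J, orderOf x = 2 := fun x hx =>
    (Cfsg.Agent.Invol.orderOf_eq_of_isConj (show IsConj b₀ x by rw [hJ] at hx; exact hx)).symm.trans hb₀
  have hIc : ∀ g x : G, x ∈ I → g * x * g⁻¹ ∈ I := by
    intro g x hx
    rw [hI] at hx ⊢
    exact hx.trans (Cfsg.Agent.Invol.isConj_conj g x)
  have hJc : ∀ g x : G, x ∈ J → g * x * g⁻¹ ∈ J := by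
    intro g x hx
    rw [hJ] at hx ⊢
    exact hx.trans (Cfsg.Agent.Invol.isConj_conj g x)
  have key : ∀ (x g : G), x • (g : G ⧸ H) = (g : G ⧸ H) ↔ g⁻¹ * x * g ∈ H := by
    intro x g
    rw [eq_comm, MulAction.Quotient.smul_coe, QuotientGroup.eq, smul_eq_mul, ← mul_assoc]
  have hcomm : ∀ a ∈ I, ∀ y ∈ I ∪ J, a ≠ y → a * y = y * a → ∀ c : G ⧸ H, a • c = c →
      ∀ u : G, u * (a * y) = a * y * u → u • c = c := by
    intro a ha y hy hay hcom c hc u hu
    obtain ⟨d, hd, hdu⟩ := hfix a (Or.inl ha)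
    obtain rfl := hdu c hc
    have hyc : y • c = c := hdu _ (by
      show a • (y • c) = y • c
      rw [← mul_smul, hcom, mul_smul, hc])
    obtain ⟨g, rfl⟩ := QuotientGroup.mk_surjective c
    rw [key] at hc hyc ⊢
    have hy' : g⁻¹ * y * g ∈ I ∪ J := by
      rcases hy with h | h
      · exact Or.inl (by simpa using hIc g⁻¹ y h)
      · exact Or.inr (by simpa using hJc g⁻¹ y h)
    refine hcent _ (by simpa using hIc g⁻¹ a ha) hc _ hy' hyc (fun e => hay ?_) ?_ ?_
    · exact mul_left_cancel (mul_right_cancel e)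
    · calc g⁻¹ * a * g * (g⁻¹ * y * g) = g⁻¹ * (a * y) * g := by group
        _ = _ := by rw [hcom]; group
    · rw [Subgroup.mem_centralizer_singleton_iff]
      calc g⁻¹ * u * g * (g⁻¹ * a * g * (g⁻¹ * y * g)) = g⁻¹ * (u * (a * y)) * g := by group
        _ = _ := by rw [hu]; group
  have hcross : ∀ a ∈ I, ∀ b ∈ J, ∀ c : G ⧸ H, a • c = c → b • c = c := by
    intro a ha b hb c hc
    have hna : ¬ IsConj a b := fun h => by
      refine hIJ ?_
      rw [hI] at ha
      rw [hJ] at hb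
      have h0 : IsConj a₀ b₀ := (IsConj.trans ha h).trans (IsConj.symm hb)
      rw [hI, hJ]
      ext x
      exact ⟨fun h1 => h0.symm.trans h1, fun h1 => h0.trans h1⟩
    have hx := hItwo a ha
    have hy := hJtwo b hb
    have he := Cfsg.Agent.Invol.even_of_not_isConj hx hy hna
    obtain ⟨hca, hcb⟩ := Cfsg.Agent.Invol.commute_pow_half hx hy he
    have hord := Cfsg.Agent.Invol.pow_half_eq_two (orderOf_pos (a * b)) he
    set m := orderOf (a * b) / 2
    have hmem : a * (a * b) ^ m ∈ I ∪ J := by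
      obtain ⟨i, hi | hi⟩ := Int.even_or_odd' (m : ℤ)
      · left
        rw [← zpow_natCast, hi, ← Cfsg.Agent.Invol.conj_left_zpow hx hy i]
        exact hIc _ a ha
      · right
        rw [← zpow_natCast, hi, ← Cfsg.Agent.Invol.conj_right_zpow hx hy i]
        exact hJc _ b hb
    refine hcomm a ha _ hmem ?_ ?_ c hc b ?_
    · intro e
      refine Cfsg.Agent.Invol.inv_ne_one hord ?_
      exact mul_eq_left.1 e.symm
    · calc a * (a * (a * b) ^ m) = a * ((a * b) ^ m * a) := by rw [hca.eq]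
        _ = a * (a * b) ^ m * a := (mul_assoc _ _ _).symm
    · rw [← mul_assoc a a, Cfsg.Agent.Invol.inv_mul_self hx, one_mul]
      exact hcb.eq.symm
  have haI : a₀ ∈ I := by rw [hI]; exact IsConj.refl a₀
  have hbJ : b₀ ∈ J := by rw [hJ]; exact IsConj.refl b₀
  obtain ⟨p, hp, -⟩ := hfix a₀ (Or.inl haI)
  obtain ⟨q, -, hqu⟩ := hfix b₀ (Or.inr hbJ)
  have hall : ∀ g : G, g • p = p := by
    intro g
    have h1 : (g * a₀ * g⁻¹) • (g • p) = g • p := by rw [← mul_smul, inv_mul_cancel_right, mul_smul, hp]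
    exact (hqu _ (hcross _ (hIc g a₀ haI) b₀ hbJ _ h1)).trans (hqu _ (hcross a₀ haI b₀ hbJ _ hp)).symm
  obtain ⟨g, rfl⟩ := QuotientGroup.mk_surjective p
  refine eq_top_iff.2 fun x _ => ?_
  have := (key _ g).1 (hall (g * x * g⁻¹))
  simpa [mul_assoc] using this

end Cfsg.Agent.S5439
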