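import Cfsg.Statements.S5444
import Cfsg.Agent.LargeFischer.Results
import Cfsg.Agent.LargeFischer.ThompsonMain
import Cfsg.Agent.LargeFischer.Classify

set_option autoImplicit false
open Cfsg

namespace Cfsg.Agent.S5444

/-- Let G be a finite group of large Fischer type at the involution z: the generalized Fitting subgroup Q of H = C_G(z) is extraspecial of order 2^13, H has normal subgroups Q ≤ H₁ ≤ H₂ with H₁/Q of order 3, H₂/H₁ the projective special unitary group of dimension 4 over the field with nine elements and H₂ of index 2 in H, and some conjugate of z other than z lies in Q. Let T be a Sylow 2-subgroup of H. Then T has exactly one elementary abelian subgroup A of largest order; A has order 2^11, it meets Q in a subgroup of order 2^7, and its image in H/Q has order 16. -/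
theorem result {G : Type*} [Group G] [Finite G] (z : G) (Q : Subgroup (Subgroup.centralizer ({z} : Set G))) [Q.Normal] (hF : Cfsg.IsOfLargeFischerTypeAt z Q) (T : Sylow 2 ↥(Subgroup.centralizer ({z} : Set G))) : ∃ A : Subgroup ↥(T : Subgroup (Subgroup.centralizer ({z} : Set G))), Cfsg.maxElementaryAbelianSubgroups 2 ↥(T : Subgroup (Subgroup.centralizer ({z} : Set G))) = {A} ∧ Nat.card A = 2 ^ 11 ∧ Nat.card ↥(A.map (T : Subgroup (Subgroup.centralizer ({z} : Set G))).subtype ⊓ Q) = 2 ^ 7 ∧ Nat.card ↥((A.map (T : Subgroup (Subgroup.centralizer ({z} : Set G))).subtype).map (QuotientGroup.mk' Q)) = 16 := by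
  obtain ⟨F, N, hr⟩ := Cfsg.Agent.LargeFischer.exists_normal_frame Cfsg.Agent.LargeFischer.classified hF
  exact Cfsg.Agent.LargeFischer.Thompson.sylow_unique_max hF F N.Kc_le
    (Or.inr (hr ▸ Subgroup.mem_sup_right (Subgroup.mem_zpowers _)))
    (by rw [N.card_range, N.card_Kc]) T

end Cfsg.Agent.S5444
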