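import Cfsg.Statements.S5445
import Cfsg.Agent.LargeFischer.EightMain
import Cfsg.Agent.LargeFischer.Results
import Cfsg.Agent.LargeFischer.Classify

set_option autoImplicit false
open Cfsg

namespace Cfsg.Agent.S5445

/-- Let G be a finite group of large Fischer type at the involution z: the generalized Fitting subgroup Q of H = C_G(z) is extraspecial of order 2^13, H has normal subgroups Q ≤ H₁ ≤ H₂ with H₁/Q of order 3, H₂/H₁ the projective special unitary group of dimension 4 over the field with nine elements and H₂ of index 2 in H, and some conjugate of z other than z lies in Q. Then G has an elementary abelian subgroup V of order 8 containing z whose normalizer L has the following structure: the largest normal 2-subgroup R of L is special of order 2^15 with centre V, and L/R is isomorphic to the direct product of SL(3, 2) and the alternating group of degree 6. -/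
theorem result {G : Type*} [Group G] [Finite G] (z : G) (Q : Subgroup (Subgroup.centralizer ({z} : Set G))) [Q.Normal] (hF : Cfsg.IsOfLargeFischerTypeAt z Q) : ∃ V : Subgroup G, Cfsg.IsElementaryAbelian 2 V ∧ Nat.card V = 8 ∧ z ∈ V ∧ ∃ R : Subgroup G, R = (Cfsg.pCore 2 ↥(Subgroup.normalizer (V : Set G))).map (Subgroup.normalizer (V : Set G)).subtype ∧ Cfsg.IsSpecial 2 ↥R ∧ Nat.card R = 2 ^ 15 ∧ (Subgroup.center ↥R).map R.subtype = V ∧ ∃ _ : (R.subgroupOf (Subgroup.normalizer (V : Set G))).Normal, Nonempty (↥(Subgroup.normalizer (V : Set G)) ⧸ R.subgroupOf (Subgroup.normalizer (V : Set G)) ≃* Matrix.SpecialLinearGroup (Fin 3) (ZMod 2) × ↥(alternatingGroup (Fin 6))) := by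
  obtain ⟨F, N, hR⟩ := Cfsg.Agent.LargeFischer.exists_normal_frame Cfsg.Agent.LargeFischer.classified hF
  refine Cfsg.Agent.LargeFischer.Eight.eight_local hF ⟨F, N.big_map, hR⟩ ?_ ?_
  · rintro s t ⟨c, hc, rfl⟩ ⟨d, hd, rfl⟩ hs ht hs1 ht1
    exact Cfsg.Agent.LargeFischer.conjugates_one_orbit Cfsg.Agent.LargeFischer.classified hF _ _
      ⟨c.2, hc⟩ ⟨d.2, hd⟩ hs ht hs1 ht1
  · rintro s g ⟨c, hc, rfl⟩ hs1 hg X E hX hE
    obtain ⟨-, h1, h2, -, -, h3, h4⟩ := Cfsg.Agent.LargeFischer.stabilizer_structure
      Cfsg.Agent.LargeFischer.classified hF _ ⟨c.2, hc⟩ hs1 g hg X E hX hE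
    exact ⟨h1, h2, h3, h4⟩

end Cfsg.Agent.S5445
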