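import Cfsg.Statements.S5452
import Cfsg.Agent.TTLink.UnitaryLift

set_option autoImplicit false
open Cfsg

namespace Cfsg.Agent.S5452

theorem zpow_cases {G : Type*} [Group G] (d : G) (hd : d * d = 1) (k : ℤ) : d ^ k = 1 ∨ d ^ k = d := by
  rcases Int.even_or_odd k with ⟨m, rfl⟩ | ⟨m, rfl⟩
  · left; rw [← two_mul, zpow_mul, zpow_two, hd, one_zpow]
  · right; rw [zpow_add_one, zpow_mul, zpow_two, hd, one_zpow, one_mul]

theorem mul_zpow_self_aux {G : Type*} [Group G] (d : G) (hd : d * d = 1) (k : ℤ) :
    d ^ k * d ^ k = 1 := by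
  rcases zpow_cases d hd k with h | h <;> rw [h]
  · exact mul_one 1
  · exact hd

/-- The lifting statement for an abstract centralizer. -/
theorem lift {G : Type*} [Group G] (d : G) (hd : orderOf d = 2)
    [((Subgroup.zpowers d).subgroupOf (Subgroup.centralizer ({d} : Set G))).Normal]
    (h : ∀ x : ↥(Subgroup.centralizer ({d} : Set G)) ⧸
        (Subgroup.zpowers d).subgroupOf (Subgroup.centralizer ({d} : Set G)), x * x = 1 →
      ∃ y : ↥(Subgroup.centralizer ({d} : Set G)), y * y = 1 ∧
        (QuotientGroup.mk y : ↥(Subgroup.centralizer ({d} : Set G)) ⧸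
          (Subgroup.zpowers d).subgroupOf (Subgroup.centralizer ({d} : Set G))) = x) :
    (∀ x : ↥(Subgroup.centralizer ({d} : Set G)) ⧸ (Subgroup.zpowers d).subgroupOf (Subgroup.centralizer ({d} : Set G)), orderOf x = 2 → ∃ y : ↥(Subgroup.centralizer ({d} : Set G)), orderOf y = 2 ∧ (QuotientGroup.mk y : ↥(Subgroup.centralizer ({d} : Set G)) ⧸ (Subgroup.zpowers d).subgroupOf (Subgroup.centralizer ({d} : Set G))) = x) ∧ ¬ ∃ g : G, g ^ 2 = d := by
  have hd2 : d * d = 1 := by rw [← pow_two, ← hd, pow_orderOf_eq_one]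
  have hd1 : d ≠ 1 := fun e => by rw [e, orderOf_one] at hd; norm_num at hd
  refine ⟨fun x hx => ?_, ?_⟩
  · obtain ⟨y, hy, hyx⟩ := h x (by rw [← pow_two, ← hx, pow_orderOf_eq_one])
    refine ⟨y, orderOf_eq_prime (by rw [pow_two, hy]) fun e => ?_, hyx⟩
    rw [← hyx, e, QuotientGroup.mk_one, orderOf_one] at hx
    norm_num at hx
  · rintro ⟨g, hg⟩
    have hgC : g ∈ Subgroup.centralizer ({d} : Set G) := by
      rw [Subgroup.mem_centralizer_singleton_iff, ← hg, ← pow_succ, ← pow_succ']
    obtain ⟨y, hy, hyx⟩ := h (QuotientGroup.mk ⟨g, hgC⟩) (by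
      rw [← QuotientGroup.mk_mul, QuotientGroup.eq_one_iff, Subgroup.mem_subgroupOf]
      show g * g ∈ _
      rw [← pow_two, hg]
      exact Subgroup.mem_zpowers d)
    rw [QuotientGroup.eq, Subgroup.mem_subgroupOf] at hyx
    have hy' : (y : G) * y = 1 := congrArg Subtype.val hy
    obtain ⟨k, hk⟩ := Subgroup.mem_zpowers_iff.1 hyx
    have e : g = (y : G) * d ^ k := by rw [hk]; simp
    have hc : Commute (y : G) (d ^ k) :=
      (show Commute (y : G) d from Subgroup.mem_centralizer_singleton_iff.1 y.2).zpow_right k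
    apply hd1
    rw [← hg, pow_two, e]
    calc (y : G) * d ^ k * ((y : G) * d ^ k) = (y : G) * y * (d ^ k * d ^ k) := by
          simp only [mul_assoc]; rw [← mul_assoc (d ^ k), ← hc.eq, mul_assoc]
      _ = 1 := by rw [hy', one_mul, mul_zpow_self_aux d hd2 k]

/-- Let G be a finite group with an involution d whose centralizer C is quasisimple with C modulo the subgroup generated by d isomorphic to the projective special unitary group of dimension 6 over the field with four elements, and suppose some conjugate of d other than d commutes with d. Then every involution of C modulo the subgroup generated by d is the image of an involution of C, and d is not a square in G. -/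
theorem result {G : Type*} [Group G] [Finite G] (d : G) (hd : orderOf d = 2) (hq : Cfsg.IsQuasisimple ↥(Subgroup.centralizer ({d} : Set G))) [hzn : ((Subgroup.zpowers d).subgroupOf (Subgroup.centralizer ({d} : Set G))).Normal] (K : Type) [Field K] [Fintype K] (hK : Fintype.card K = 4) (e : ↥(Subgroup.centralizer ({d} : Set G)) ⧸ (Subgroup.zpowers d).subgroupOf (Subgroup.centralizer ({d} : Set G)) ≃* Cfsg.PSU 6 K 2) (hnwc : ∃ g : G, g * d * g⁻¹ ∈ Subgroup.centralizer ({d} : Set G) ∧ g * d * g⁻¹ ≠ d) : (∀ x : ↥(Subgroup.centralizer ({d} : Set G)) ⧸ (Subgroup.zpowers d).subgroupOf (Subgroup.centralizer ({d} : Set G)), orderOf x = 2 → ∃ y : ↥(Subgroup.centralizer ({d} : Set G)), orderOf y = 2 ∧ (QuotientGroup.mk y : ↥(Subgroup.centralizer ({d} : Set G)) ⧸ (Subgroup.zpowers d).subgroupOf (Subgroup.centralizer ({d} : Set G))) = x) ∧ ¬ ∃ g : G, g ^ 2 = d := by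
  refine lift d hd fun x hx => ?_
  let π : ↥(Subgroup.centralizer ({d} : Set G)) →* Cfsg.PSU 6 K 2 :=
    e.toMonoidHom.comp (QuotientGroup.mk' _)
  have hdC : d ∈ Subgroup.centralizer ({d} : Set G) := Subgroup.mem_centralizer_singleton_iff.2 rfl
  have hd2 : d * d = 1 := by rw [← pow_two, ← hd, pow_orderOf_eq_one]
  obtain ⟨y, hy, hyx⟩ := TTLink.UnitarySix.lift_involution hK π
    (e.surjective.comp (QuotientGroup.mk'_surjective _)) (d := ⟨d, hdC⟩) (Subtype.ext hd2)
    (fun h => by rw [show d = 1 from congrArg Subtype.val h, orderOf_one] at hd; norm_num at hd)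
    (fun c => Subtype.ext (Subgroup.mem_centralizer_singleton_iff.1 c.2).symm)
    (fun c => by
      show e (QuotientGroup.mk c) = 1 ↔ _
      rw [map_eq_one_iff e e.injective, QuotientGroup.eq_one_iff, Subgroup.mem_subgroupOf]
      constructor
      · intro hc
        obtain ⟨k, hk⟩ := Subgroup.mem_zpowers_iff.1 hc
        rcases zpow_cases d hd2 k with h | h
        · exact Or.inl (Subtype.ext (hk.symm.trans h))
        · exact Or.inr (Subtype.ext (hk.symm.trans h))
      · rintro (rfl | rfl)
        · exact one_mem _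
        · exact Subgroup.mem_zpowers d)
    (x := e x) (by rw [← map_mul, hx, map_one])
  exact ⟨y, hy, e.injective hyx⟩

end Cfsg.Agent.S5452
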