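import Cfsg.Statements.S5453
import Cfsg.Agent.TTLink.M22Cover
import Cfsg.Agent.S5452

set_option autoImplicit false
open Cfsg

namespace Cfsg.Agent.S5453

open scoped commutatorElement

/-- A quotient with trivial centre of a quasisimple group. -/
theorem noSolv_quot {C : Type*} [Group C] [Finite C] (N : Subgroup C) [N.Normal]
    (hq : Cfsg.IsQuasisimple C) (hc : Subgroup.center (C ⧸ N) = ⊥) (hnt : Nontrivial (C ⧸ N)) :
    commutator (C ⧸ N) = ⊤ ∧ TTLink.NoSolv (C ⧸ N) := by
  have hperfC := (Group.isPerfect_def).1 hq.1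
  have hperfX : commutator (C ⧸ N) = ⊤ := by
    have := congrArg (Subgroup.map (QuotientGroup.mk' N)) hperfC
    rwa [commutator_def, Subgroup.map_commutator,
      Subgroup.map_top_of_surjective _ (QuotientGroup.mk'_surjective N), ← commutator_def] at this
  refine ⟨hperfX, ?_⟩
  intro M hM hMs
  haveI := hM
  haveI := hq.2
  set P := M.comap (QuotientGroup.mk' N)
  have hPn : (P.map (QuotientGroup.mk' (Subgroup.center C))).Normal :=
    Subgroup.Normal.map inferInstance _ (QuotientGroup.mk'_surjective _)
  rcases hPn.eq_bot_or_eq_top with h | h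
  · refine (Subgroup.eq_bot_iff_forall _).2 fun x hx => ?_
    obtain ⟨c, rfl⟩ := QuotientGroup.mk_surjective x
    have hcz : c ∈ Subgroup.center C := (QuotientGroup.eq_one_iff c).1
      (Subgroup.mem_bot.1 (h ▸ Subgroup.mem_map_of_mem (QuotientGroup.mk' (Subgroup.center C))
        (show c ∈ P from hx)))
    have : (QuotientGroup.mk c : C ⧸ N) ∈ Subgroup.center (C ⧸ N) :=
      Subgroup.mem_center_iff.2 fun g => by
        obtain ⟨g, rfl⟩ := QuotientGroup.mk_surjective g
        rw [← QuotientGroup.mk_mul, ← QuotientGroup.mk_mul, Subgroup.mem_center_iff.1 hcz g]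
    rw [hc] at this
    exact Subgroup.mem_bot.1 this
  · exfalso
    -- then `M` is everything
    have hPC : P ⊔ Subgroup.center C = ⊤ := by
      have := congrArg (Subgroup.comap (QuotientGroup.mk' (Subgroup.center C))) h
      rwa [Subgroup.comap_map_eq, QuotientGroup.ker_mk', Subgroup.comap_top] at this
    have hMt : M = ⊤ := by
      have hle : commutator C ≤ P := by
        rw [commutator_def, ← hPC, Subgroup.commutator_le]
        intro x hx y hy
        obtain ⟨p, hp, z, hz, rfl⟩ := Subgroup.mem_sup_of_normal_right.1 hx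
        obtain ⟨p', hp', z', hz', rfl⟩ := Subgroup.mem_sup_of_normal_right.1 hy
        have e : ⁅p * z, p' * z'⁆ = ⁅p, p'⁆ := by
          have h1 := Subgroup.mem_center_iff.1 hz
          have h2 := Subgroup.mem_center_iff.1 hz'
          rw [commutatorElement_def, commutatorElement_def]
          calc p * z * (p' * z') * (p * z)⁻¹ * (p' * z')⁻¹
              = p * (z * p') * z' * (z⁻¹ * p⁻¹) * (z'⁻¹ * p'⁻¹) := by
                simp only [mul_inv_rev, mul_assoc]
            _ = p * p' * (z * z') * (z⁻¹ * p⁻¹) * (z'⁻¹ * p'⁻¹) := by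
                rw [← h1 p']; simp only [mul_assoc]
            _ = p * p' * (z' * p⁻¹) * (z'⁻¹ * p'⁻¹) := by
                rw [← h1 z']; simp only [mul_assoc, mul_inv_cancel_left]
            _ = p * p' * p⁻¹ * p'⁻¹ := by
                rw [← h2 p⁻¹]; simp only [mul_assoc, mul_inv_cancel_left]
        rw [e]
        exact Subgroup.commutator_le_self P (Subgroup.commutator_mem_commutator hp hp')
      rw [hperfC, top_le_iff] at hle
      refine top_le_iff.1 fun x _ => ?_
      obtain ⟨c, rfl⟩ := QuotientGroup.mk_surjective x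
      exact (hle.symm ▸ Subgroup.mem_top c : c ∈ P)
    subst hMt
    haveI : Group.IsSolvable (C ⧸ N) := Group.isSolvable_of_surjective
      (f := (Subgroup.topEquiv : (⊤ : Subgroup (C ⧸ N)) ≃* _).toMonoidHom)
      Subgroup.topEquiv.surjective
    haveI := hnt
    exact (Group.IsSolvable.commutator_lt_top_of_nontrivial (C ⧸ N)).ne hperfX

/-- Let G be a finite group with an involution d whose centralizer C is quasisimple, such that C modulo the subgroup generated by d is of type M(22) with respect to some conjugacy class of 3-transpositions generating it and also has an involution whose own centralizer is quasisimple with quotient by it isomorphic to the projective special unitary group of dimension 6 over the field with four elements and which is not weakly closed in that centralizer; and suppose some conjugate of d other than d commutes with d. Then every involution of C modulo the subgroup generated by d is the image of an involution of C, and d is not a square in G. -/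
theorem result {G : Type*} [Group G] [Finite G] (d : G) (hd : orderOf d = 2) (hq : Cfsg.IsQuasisimple ↥(Subgroup.centralizer ({d} : Set G))) [hzn : ((Subgroup.zpowers d).subgroupOf (Subgroup.centralizer ({d} : Set G))).Normal] (htype : ∃ E : Set (↥(Subgroup.centralizer ({d} : Set G)) ⧸ (Subgroup.zpowers d).subgroupOf (Subgroup.centralizer ({d} : Set G))), Cfsg.IsThreeTranspositionClass E ∧ Cfsg.IsOfTypeM22 _ E) (hinvol : ∃ d' : ↥(Subgroup.centralizer ({d} : Set G)) ⧸ (Subgroup.zpowers d).subgroupOf (Subgroup.centralizer ({d} : Set G)), orderOf d' = 2 ∧ Cfsg.IsQuasisimple ↥(Subgroup.centralizer ({d'} : Set _)) ∧ (∃ (K : Type) (_ : Field K) (_ : Fintype K), Fintype.card K = 4 ∧ ∃ _ : ((Subgroup.zpowers d').subgroupOf (Subgroup.centralizer ({d'} : Set _))).Normal, Nonempty (↥(Subgroup.centralizer ({d'} : Set _)) ⧸ (Subgroup.zpowers d').subgroupOf (Subgroup.centralizer ({d'} : Set _)) ≃* Cfsg.PSU 6 K 2)) ∧ ∃ g, g * d' * g⁻¹ ∈ Subgroup.centralizer ({d'} : Set _) ∧ g * d' * g⁻¹ ≠ d') (hnwc : ∃ g : G, g * d * g⁻¹ ∈ Subgroup.centralizer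 ({d} : Set G) ∧ g * d * g⁻¹ ≠ d) : (∀ x : ↥(Subgroup.centralizer ({d} : Set G)) ⧸ (Subgroup.zpowers d).subgroupOf (Subgroup.centralizer ({d} : Set G)), orderOf x = 2 → ∃ y : ↥(Subgroup.centralizer ({d} : Set G)), orderOf y = 2 ∧ (QuotientGroup.mk y : ↥(Subgroup.centralizer ({d} : Set G)) ⧸ (Subgroup.zpowers d).subgroupOf (Subgroup.centralizer ({d} : Set G))) = x) ∧ ¬ ∃ g : G, g ^ 2 = d := by
  obtain ⟨E, hE, h22⟩ := htype
  obtain ⟨d', hd', hq', ⟨K, _, _, hK, hn', ⟨e⟩⟩, -⟩ := hinvol
  haveI := hn'
  haveI hnt : Nontrivial (↥(Subgroup.centralizer ({d} : Set G)) ⧸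
      (Subgroup.zpowers d).subgroupOf (Subgroup.centralizer ({d} : Set G))) :=
    ⟨⟨d', 1, fun e => by rw [e, orderOf_one] at hd'; norm_num at hd'⟩⟩
  obtain ⟨hperfX, hsol⟩ := noSolv_quot _ hq h22.1 hnt
  have H := TTLink.m22Hyp hE hsol h22
  obtain ⟨π', hs', hker'⟩ := TTLink.cover_hom hd' e
  have hperf' := (Group.isPerfect_def).1 hq'.1
  have hd'2 : d' * d' = 1 := by rw [← pow_two, ← hd', pow_orderOf_eq_one]
  have hd'E : d' ∈ E := H.mem_of_cover hd'2 (fun h => by rw [h, orderOf_one] at hd'; norm_num at hd')
    hperf' hK π' hs' hker'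
  have hcov : ∀ a ∈ E, Nonempty (TTLink.Cover E hK a) := fun a ha =>
    H.exists_cover hd'E hperf' π' hs' hker' ha
  refine S5452.lift d hd fun x hx => ?_
  have hd2 : d * d = 1 := by rw [← pow_two, ← hd, pow_orderOf_eq_one]
  exact H.lift_involution (hF := hK) hperfX hcov (QuotientGroup.mk' _) (QuotientGroup.mk'_surjective _)
    (d := ⟨d, Subgroup.mem_centralizer_singleton_iff.2 rfl⟩) (Subtype.ext hd2)
    (fun h => by rw [show d = 1 from congrArg Subtype.val h, orderOf_one] at hd; norm_num at hd)
    (fun c => Subtype.ext (Subgroup.mem_centralizer_singleton_iff.1 c.2).symm)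
    (fun c => by
      rw [QuotientGroup.mk'_apply, QuotientGroup.eq_one_iff, Subgroup.mem_subgroupOf]
      constructor
      · intro hc
        obtain ⟨k, hk⟩ := Subgroup.mem_zpowers_iff.1 hc
        rcases S5452.zpow_cases d hd2 k with h | h
        · exact Or.inl (Subtype.ext (hk.symm.trans h))
        · exact Or.inr (Subtype.ext (hk.symm.trans h))
      · rintro (rfl | rfl)
        exacts [one_mem _, Subgroup.mem_zpowers d])
    hx

end Cfsg.Agent.S5453
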