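import Cfsg.Statements.S5454
import Cfsg.Agent.U62Plane.Fusion
import Cfsg.Agent.Modules.Thompson
import Cfsg.Agent.IsoPSU42.Main

set_option autoImplicit false
open Cfsg

namespace Cfsg.Agent.S5454

open Cfsg.Agent.U62Plane

/-- Conclusions for an abstract double cover with the given Sylow subgroup over the standard one. -/
theorem main {G : Type*} [Group G] [Finite G] (d : G) (K : Cov ↥(Subgroup.centralizer ({d} : Set G)))
    (hKd : (K.d : G) = d)
    (hnwc : ∃ g : G, g * d * g⁻¹ ∈ Subgroup.centralizer ({d} : Set G) ∧ g * d * g⁻¹ ≠ d) :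
    Cfsg.IsElementaryAbelian 2 (bigA K) ∧ Nat.card (bigA K) = 2 ^ 10 ∧
      Set.ncard {x : G | x ∈ bigA K ∧ IsConj d x} = 22 ∧
      ∀ x ∈ bigA K, ∀ y ∈ bigA K, IsConj d x → IsConj d y →
        ∃ n ∈ Subgroup.normalizer (bigA K : Set G), n * x * n⁻¹ = y := by
  refine ⟨⟨⟨⟨fun a b => Subtype.ext (bigA_comm K a.2 b.2)⟩⟩, fun a ha => by rw [pow_two]; exact bigA_sq K ha⟩,
    by rw [card_bigA]; norm_num, ncard_conj K hKd hnwc, fun x hx y hy hcx hcy => ?_⟩
  obtain ⟨n, hn, he⟩ := transitive K hKd hx hcx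
  obtain ⟨m, hm, he'⟩ := transitive K hKd hy hcy
  refine ⟨m * n⁻¹, mul_mem hm (inv_mem hn), ?_⟩
  rw [← he, ← he']; group

/-- Let G be a finite group with an involution d whose centralizer C is quasisimple with C modulo the subgroup generated by d isomorphic to the projective special unitary group of dimension 6 over the field with four elements, and suppose some conjugate of d other than d commutes with d. Let S be a Sylow 2-subgroup of C and A the Thompson subgroup of S (generated by the elementary abelian subgroups of S of largest order), regarded as a subgroup of G. Then A is elementary abelian of order 2^10, exactly 22 conjugates of d lie in A, and the normalizer of A permutes them transitively. -/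
theorem result {G : Type*} [Group G] [Finite G] (d : G) (hd : orderOf d = 2) (hq : Cfsg.IsQuasisimple ↥(Subgroup.centralizer ({d} : Set G))) [hzn : ((Subgroup.zpowers d).subgroupOf (Subgroup.centralizer ({d} : Set G))).Normal] (K : Type) [Field K] [Fintype K] (hK : Fintype.card K = 4) (e : ↥(Subgroup.centralizer ({d} : Set G)) ⧸ (Subgroup.zpowers d).subgroupOf (Subgroup.centralizer ({d} : Set G)) ≃* Cfsg.PSU 6 K 2) (hnwc : ∃ g : G, g * d * g⁻¹ ∈ Subgroup.centralizer ({d} : Set G) ∧ g * d * g⁻¹ ≠ d) (S : Sylow 2 ↥(Subgroup.centralizer ({d} : Set G))) (A : Subgroup G) (hA : A = (Cfsg.thompsonSubgroupOf 2 (S : Subgroup ↥(Subgroup.centralizer ({d} : Set G)))).map (Subgroup.centralizer ({d} : Set G)).subtype) : Cfsg.IsElementaryAbelian 2 A ∧ Nat.card A = 2 ^ 10 ∧ Set.ncard {x : G | x ∈ A ∧ IsConj d x} = 22 ∧ ∀ x ∈ A, ∀ y ∈ A, IsConj d x → IsConj d y → ∃ n ∈ Subgroup.normalizer (A : Set G), n * x * n⁻¹ = y := by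
  haveI : Fact (Nat.Prime 2) := ⟨Nat.prime_two⟩
  let C := Subgroup.centralizer ({d} : Set G)
  obtain ⟨eF⟩ := GFour25.exists_ringEquiv hK
  obtain ⟨eS⟩ := IsoPSU42.nonempty_su_equiv 6 2 eF.symm
  obtain ⟨eP⟩ := IsoPSU42.centerQuot_congr eS
  have hd2 : d * d = 1 := by rw [← pow_two, ← hd]; exact pow_orderOf_eq_one d
  have hd1 : d ≠ 1 := fun h => by rw [h, orderOf_one] at hd; norm_num at hd
  have hdC : d ∈ C := Subgroup.mem_centralizer_singleton_iff.2 rfl
  let q : ↥C →* U62Plane.PU :=
    (e.trans eP).toMonoidHom.comp (QuotientGroup.mk' ((Subgroup.zpowers d).subgroupOf C))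
  let K0 : Cov ↥C :=
    { π := q
      surj := (e.trans eP).surjective.comp (QuotientGroup.mk'_surjective _)
      d := ⟨d, hdC⟩
      hd := Subtype.ext hd2
      hd1 := fun h => hd1 (congrArg Subtype.val h)
      hdc := fun c => Subtype.ext (Subgroup.mem_centralizer_singleton_iff.1 c.2).symm
      hker := fun c => by
        constructor
        · intro h
          have h1 : (QuotientGroup.mk c : ↥C ⧸ (Subgroup.zpowers d).subgroupOf C) = 1 :=
            (e.trans eP).injective (h.trans (map_one _).symm)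
          rw [QuotientGroup.eq_one_iff, Subgroup.mem_subgroupOf] at h1
          obtain ⟨k, hk⟩ := mem_powers_iff_mem_zpowers.2 h1
          have hk' : (c : G) = d ^ (k % 2) := by rw [← hd, pow_mod_orderOf]; exact hk.symm
          rcases Nat.mod_two_eq_zero_or_one k with h0 | h0 <;> rw [h0] at hk'
          · exact Or.inl (Subtype.ext (by simpa using hk'))
          · exact Or.inr (Subtype.ext (by simpa using hk'))
        · rintro (rfl | rfl)
          · exact map_one _
          · show (e.trans eP) (QuotientGroup.mk (⟨d, hdC⟩ : ↥C)) = 1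
            rw [(QuotientGroup.eq_one_iff (⟨d, hdC⟩ : ↥C)).2 (Subgroup.mem_subgroupOf.2 (Subgroup.mem_zpowers d)),
              map_one]
      perf := hq.1.commutator_eq_top }
  -- arrange the Sylow subgroup over the standard one
  obtain ⟨c, hc⟩ := K0.exists_conj_P S.isPGroup'
  let K1 : Cov ↥C :=
    { π := (MulAut.conj (K0.π c)).toMonoidHom.comp K0.π
      surj := (MulAut.conj (K0.π c)).surjective.comp K0.surj
      d := K0.d
      hd := K0.hd
      hd1 := K0.hd1
      hdc := K0.hdc
      hker := fun x => by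
        rw [← K0.hker]
        show K0.π c * K0.π x * (K0.π c)⁻¹ = 1 ↔ _
        rw [mul_inv_eq_one, mul_eq_left]
      perf := K0.perf }
  have hSP : (S : Subgroup ↥C) ≤ K1.P := by
    intro x hx
    show K0.π c * K0.π x * (K0.π c)⁻¹ ∈ U62Plane.PP
    have := hc x hx
    rwa [Cov.P, Subgroup.mem_comap, map_mul, map_mul, map_inv] at this
  have hSeq : (S : Subgroup ↥C) = K1.P :=
    (S.is_maximal' (IsPGroup.of_card K1.card_P) hSP).symm
  have hJ : Cfsg.thompsonSubgroupOf 2 (S : Subgroup ↥C) = K1.A := by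
    rw [Modules.thompsonSubgroupOf_eq_sSup]
    have hAS : K1.A ≤ (S : Subgroup ↥C) := hSeq ▸ Subgroup.comap_mono U62Plane.EU_le_PP
    have hmem : ∀ X : Subgroup ↥C, X ∈ Modules.maxElemAbIn 2 (S : Subgroup ↥C) → X = K1.A := by
      intro X hX
      obtain ⟨hXS, ⟨hXc, hX2⟩, hmax⟩ := hX
      have hle := hmax K1.A hAS ⟨⟨⟨fun a b => Subtype.ext (K1.elem_A.1 a a.2 b b.2)⟩⟩,
        fun a ha => by rw [pow_two]; exact K1.elem_A.2 a ha⟩
      rw [K1.card_A] at hle
      have hXA : X ≤ K1.A := K1.le_A (hSeq ▸ hXS)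
        (fun a ha b hb => congrArg Subtype.val (hXc.is_comm.comm ⟨a, ha⟩ ⟨b, hb⟩))
        (fun a ha => by rw [← pow_two]; exact hX2 a ha) hle
      exact Subgroup.eq_of_le_of_card_ge hXA (by rw [K1.card_A]; exact hle)
    refine le_antisymm (sSup_le fun X hX => (hmem X hX).le) ?_
    obtain ⟨X, hX⟩ := Modules.maxElemAbIn_nonempty 2 (S : Subgroup ↥C)
    exact (hmem X hX) ▸ le_sSup hX
  have hAeq : A = bigA K1 := by rw [hA, hJ]; rfl
  rw [hAeq]
  exact main d K1 rfl hnwc

end Cfsg.Agent.S5454
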