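import Cfsg.Statements.S5455
import Cfsg.Agent.TTLink.M22DoubleThompson
import Cfsg.Agent.TTLink.M22Connected

set_option autoImplicit false
open Cfsg Cfsg.Agent.TTLink Cfsg.Agent.ThreeTransp45 Cfsg.Agent.Modules
open scoped IsMulCommutative

namespace Cfsg.Agent.S5455

/-- Let G be a finite group with an involution d whose centralizer C is quasisimple, such that C modulo the subgroup generated by d is of type M(22) with respect to some conjugacy class of 3-transpositions generating it and also has an involution whose own centralizer is quasisimple with quotient by it isomorphic to the projective special unitary group of dimension 6 over the field with four elements and which is not weakly closed in that centralizer; and suppose some conjugate of d other than d commutes with d. Let S be a Sylow 2-subgroup of C and A the Thompson subgroup of S, regarded as a subgroup of G. Then A is elementary abelian of order 2^11, exactly 23 conjugates of d lie in A, and the normalizer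 of A permutes them transitively. -/
theorem result {G : Type*} [Group G] [Finite G] (d : G) (hd : orderOf d = 2) (hq : Cfsg.IsQuasisimple ↥(Subgroup.centralizer ({d} : Set G))) [hzn : ((Subgroup.zpowers d).subgroupOf (Subgroup.centralizer ({d} : Set G))).Normal] (htype : ∃ E : Set (↥(Subgroup.centralizer ({d} : Set G)) ⧸ (Subgroup.zpowers d).subgroupOf (Subgroup.centralizer ({d} : Set G))), Cfsg.IsThreeTranspositionClass E ∧ Cfsg.IsOfTypeM22 _ E) (hinvol : ∃ d' : ↥(Subgroup.centralizer ({d} : Set G)) ⧸ (Subgroup.zpowers d).subgroupOf (Subgroup.centralizer ({d} : Set G)), orderOf d' = 2 ∧ Cfsg.IsQuasisimple ↥(Subgroup.centralizer ({d'} : Set _)) ∧ (∃ (K : Type) (_ : Field K) (_ : Fintype K), Fintype.card K = 4 ∧ ∃ _ : ((Subgroup.zpowers d').subgroupOf (Subgroup.centralizer ({d'} : Set _))).Normal, Nonempty (↥(Subgroup.centralizer ({d'} : Set _)) ⧸ (Subgroup.zpowers d').subgroupOf (Subgroup.centralizer ({d'} : Set _)) ≃* Cfsg.PSU 6 K 2)) ∧ ∃ g, g * d' * g⁻¹ ∈ Subgroup.centralizer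 ({d'} : Set _) ∧ g * d' * g⁻¹ ≠ d') (hnwc : ∃ g : G, g * d * g⁻¹ ∈ Subgroup.centralizer ({d} : Set G) ∧ g * d * g⁻¹ ≠ d) (S : Sylow 2 ↥(Subgroup.centralizer ({d} : Set G))) (A : Subgroup G) (hA : A = (Cfsg.thompsonSubgroupOf 2 (S : Subgroup ↥(Subgroup.centralizer ({d} : Set G)))).map (Subgroup.centralizer ({d} : Set G)).subtype) : Cfsg.IsElementaryAbelian 2 A ∧ Nat.card A = 2 ^ 11 ∧ Set.ncard {x : G | x ∈ A ∧ IsConj d x} = 23 ∧ ∀ x ∈ A, ∀ y ∈ A, IsConj d x → IsConj d y → ∃ n ∈ Subgroup.normalizer (A : Set G), n * x * n⁻¹ = y := by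
  classical
  obtain ⟨E, hE, h22⟩ := htype
  have hd2 : d * d = 1 := by rw [← pow_two, ← hd, pow_orderOf_eq_one]
  have hdC : d ∈ (Subgroup.centralizer ({d} : Set G)) := Subgroup.mem_centralizer_singleton_iff.2 rfl
  set π := QuotientGroup.mk' ((Subgroup.zpowers d).subgroupOf (Subgroup.centralizer ({d} : Set G)))
  set d₀ : ↥(Subgroup.centralizer ({d} : Set G)) := ⟨d, hdC⟩ with hd₀
  have K : DCover π d₀ := by
    refine ⟨QuotientGroup.mk'_surjective _, Subtype.ext hd2, fun h => ?_,
      fun c => Subtype.ext (Subgroup.mem_centralizer_singleton_iff.1 c.2).symm, fun c => ?_,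
      (Group.isPerfect_def).1 hq.1⟩
    · rw [show d = 1 from congrArg Subtype.val h, orderOf_one] at hd; norm_num at hd
    · rw [QuotientGroup.mk'_apply, QuotientGroup.eq_one_iff, Subgroup.mem_subgroupOf]
      constructor
      · intro hc
        obtain ⟨k, hk⟩ := Subgroup.mem_zpowers_iff.1 hc
        rcases Int.even_or_odd k with ⟨j, rfl⟩ | ⟨j, rfl⟩
        · left
          refine Subtype.ext (hk.symm.trans ?_)
          rw [← two_mul, zpow_mul, zpow_two, hd2, one_zpow]; rfl
        · right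
          refine Subtype.ext (hk.symm.trans ?_)
          rw [zpow_add_one, zpow_mul, zpow_two, hd2, one_zpow, one_mul]
      · rintro (rfl | rfl)
        · exact one_mem _
        · exact Subgroup.mem_zpowers d
  have P : M22Prim E := m22Prim_of_class hE h22
  obtain ⟨W, hW, hJ, hconj⟩ := K.thompson P S
  obtain ⟨σ, hσ⟩ := K.exists_sec P
  subst hA
  rw [hJ]
  set J := (Subgroup.closure W).comap π with hJdef
  set A := J.map (Subgroup.centralizer ({d} : Set G)).subtype with hAdef
  have hJe := K.comap_elemAb P hW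
  have hAe : Cfsg.IsElementaryAbelian 2 A := elemAb_map _ hJe
  haveI := hJe.1
  haveI := hAe.1
  letI : Fintype ↥W := Fintype.ofFinite _
  have hdJ : d₀ ∈ J := by
    show π d₀ ∈ Subgroup.closure W
    rw [K.map_d]
    exact one_mem _
  have hσJ : ∀ i : ↥W, σ i ∈ J := fun i => by
    show π (σ i) ∈ Subgroup.closure W
    rw [hσ.map i (hW.sub i.2)]
    exact Subgroup.subset_closure i.2
  let e : ↥J ≃* ↥A := J.equivMapOfInjective (Subgroup.centralizer ({d} : Set G)).subtype Subtype.val_injective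
  have he : ∀ a : ↥J, ((e a : ↥A) : G) = ((a : ↥(Subgroup.centralizer ({d} : Set G))) : G) := fun a => rfl
  let v : ↥W → ↥A := fun i => e ⟨σ i, hσJ i⟩
  let dA : ↥A := e ⟨d₀, hdJ⟩
  have Sy : OrbitTwentyThree.Sys v dA :=
    (K.sys P hW hσ (fun i => ⟨σ i, hσJ i⟩) (fun i => rfl) ⟨d₀, hdJ⟩ rfl).map e
  -- the normaliser and its action
  set H := Subgroup.normalizer (A : Set G)
  letI : MulDistribMulAction ↥H ↥A := MulDistribMulAction.compHom _ A.normalizerMonoidHom
  have hact : ∀ (n : ↥H) (a : ↥A), ((n • a : ↥A) : G) = (n : G) * a * (n : G)⁻¹ := fun n a => rfl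
  have stab : ∀ c : ↥(Subgroup.centralizer ({d} : Set G)), cj (π c) '' W = W → (c : G) ∈ H := by
    intro c hc
    have key : ∀ c : ↥(Subgroup.centralizer ({d} : Set G)), cj (π c) '' W = W → ∀ a ∈ A, (c : G) * a * (c : G)⁻¹ ∈ A := by
      rintro c hc _ ⟨x, hx, rfl⟩
      refine ⟨c * x * c⁻¹, ?_, rfl⟩
      have hle : (Subgroup.closure W).map (MulAut.conj (π c)).toMonoidHom ≤ Subgroup.closure W := by
        rw [MonoidHom.map_closure]
        exact Subgroup.closure_mono (le_of_eq hc)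
      show π (c * x * c⁻¹) ∈ Subgroup.closure W
      rw [map_mul, map_mul, map_inv]
      exact hle ⟨π x, hx, rfl⟩
    rw [Subgroup.mem_normalizer_iff]
    intro a
    refine ⟨key c hc a, fun h => ?_⟩
    have hc' : cj (π c⁻¹) '' W = W := by
      conv_lhs => rw [← hc, ← Set.image_comp, map_inv,
        show cj (π c)⁻¹ ∘ cj (π c) = id from funext (cj_inv_cj _)]
      rw [Set.image_id]
    have := key c⁻¹ hc' _ h
    simpa [mul_assoc] using this
  have T : OrbitTwentyThree.Act ↥H v dA := by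
    refine ⟨fun n hn i => ?_, fun a b c a' b' c' hab hac hbc hab' hac' hbc' => ?_⟩
    · have hnd : (n : G) * d * (n : G)⁻¹ = d := congrArg Subtype.val hn
      have hnC : (n : G) ∈ (Subgroup.centralizer ({d} : Set G)) := Subgroup.mem_centralizer_singleton_iff.2 (mul_inv_eq_iff_eq_mul.1 hnd)
      set c : ↥(Subgroup.centralizer ({d} : Set G)) := ⟨n, hnC⟩
      have hwE : cj (π c) i ∈ E := P.data.inv' _ _ (hW.sub i.2)
      have hm : cj (π c) i ∈ Subgroup.closure W := by
        have h1 : c * σ i * c⁻¹ ∈ J := by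
          have h2 := (Subgroup.mem_normalizer_iff.1 n.2 _).1 (show ((σ i : ↥(Subgroup.centralizer ({d} : Set G))) : G) ∈ A from ⟨σ i, hσJ i, rfl⟩)
          obtain ⟨x, hx, ex⟩ := h2
          rwa [show c * σ i * c⁻¹ = x from Subtype.ext ex.symm]
        have : π (c * σ i * c⁻¹) ∈ Subgroup.closure W := h1
        rwa [map_mul, map_mul, map_inv, hσ.map i (hW.sub i.2)] at this
      have hj : cj (π c) i ∈ W := P.mem_maxSet hW hwE fun x hx =>
        congrArg Subtype.val ((K.maxSet_elemAb P hW).1.is_comm.comm ⟨_, hm⟩ ⟨x, Subgroup.subset_closure hx⟩)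
      refine ⟨⟨_, hj⟩, Subtype.ext ?_⟩
      rw [hact, he, he]
      exact congrArg Subtype.val (hσ.conj c i (hW.sub i.2))
    · have ne : ∀ {x y : ↥W}, x ≠ y → x.1 ≠ y.1 := fun h e => h (Subtype.ext e)
      obtain ⟨g, hg, ea, eb, ec⟩ := P.maxSet_triples hW a.2 b.2 c.2 (ne hab) (ne hac) (ne hbc)
        a'.2 b'.2 c'.2 (ne hab') (ne hac') (ne hbc')
      obtain ⟨z, rfl⟩ := K.surj g
      refine ⟨⟨(z : G), stab z hg⟩, Subtype.ext ?_, ?_⟩
      · rw [hact, he]
        show (z : G) * d * (z : G)⁻¹ = d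
        rw [mul_inv_eq_iff_eq_mul]
        exact Subgroup.mem_centralizer_singleton_iff.1 z.2
      · have mv : ∀ x y : ↥W, cj (π z) x = (y : _) → (⟨(z : G), stab z hg⟩ : ↥H) • v x = v y := by
          intro x y hxy
          refine Subtype.ext ?_
          rw [hact, he, he]
          have := congrArg Subtype.val (hσ.conj z x (hW.sub x.2))
          rw [hxy] at this
          exact this
        exact ⟨mv a a' ea, mv b b' eb, mv c c' ec⟩
  -- conjugates of `d` in `A` are the members of the orbit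
  have toOrb : ∀ x ∈ A, IsConj d x → ∃ n ∈ H, n * d * n⁻¹ = x := by
    intro x hx hxd
    obtain ⟨g, hg⟩ := isConj_iff.1 hxd
    set B := (A.map (MulAut.conj g⁻¹).toMonoidHom).subgroupOf (Subgroup.centralizer ({d} : Set G))
    have hBle : A.map (MulAut.conj g⁻¹).toMonoidHom ≤ (Subgroup.centralizer ({d} : Set G)) := by
      rintro _ ⟨a, ha, rfl⟩
      rw [Subgroup.mem_centralizer_singleton_iff]
      have hc : a * x = x * a := congrArg Subtype.val (hAe.1.is_comm.comm ⟨a, ha⟩ ⟨x, hx⟩)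
      rw [← hg] at hc
      show g⁻¹ * a * g⁻¹⁻¹ * d = d * (g⁻¹ * a * g⁻¹⁻¹)
      rw [inv_inv]
      calc g⁻¹ * a * g * d = g⁻¹ * (a * (g * d * g⁻¹)) * g := by simp [mul_assoc]
        _ = g⁻¹ * ((g * d * g⁻¹) * a) * g := by rw [hc]
        _ = d * (g⁻¹ * a * g) := by simp [mul_assoc]
    have hB : Cfsg.IsElementaryAbelian 2 B := elemAb_subgroupOf (elemAb_map _ hAe)
    have hBcard : Nat.card ↥J ≤ Nat.card ↥B := by
      rw [Nat.card_congr (Subgroup.subgroupOfEquivOfLe hBle).toEquiv,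
        Subgroup.card_map_of_injective (MulAut.conj g⁻¹).injective, Nat.card_congr e.toEquiv]
    obtain ⟨c, hc⟩ := hconj B hB hBcard
    set n := (c : G) * g⁻¹
    have key : ∀ a ∈ A, n * a * n⁻¹ ∈ A := by
      intro a ha
      have hmem : g⁻¹ * a * g ∈ (Subgroup.centralizer ({d} : Set G)) := hBle ⟨a, ha, by simp⟩
      refine ⟨c * ⟨_, hmem⟩ * c⁻¹, hc ▸ ⟨⟨_, hmem⟩, ⟨a, ha, by simp⟩, rfl⟩, ?_⟩
      show (c : G) * (g⁻¹ * a * g) * (c : G)⁻¹ = _
      simp [n, mul_assoc]
    have hn : n ∈ H := Subgroup.mem_normalizer_fintype key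
    refine ⟨n⁻¹, inv_mem hn, ?_⟩
    rw [inv_inv, ← hg]
    have hcd : (c : G)⁻¹ * d * (c : G) = d := by
      rw [mul_assoc, ← Subgroup.mem_centralizer_singleton_iff.1 c.2, inv_mul_cancel_left]
    conv_rhs => rw [← hcd]
    simp [n, mul_assoc]
  have hdA : (dA : G) = d := rfl
  have horb : {x : G | x ∈ A ∧ IsConj d x} = Subtype.val '' MulAction.orbit ↥H dA := by
    ext x
    constructor
    · rintro ⟨hx, hxd⟩
      obtain ⟨n, hn, e'⟩ := toOrb x hx hxd
      exact ⟨(⟨n, hn⟩ : ↥H) • dA, ⟨_, rfl⟩, by rw [hact, hdA]; exact e'⟩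
    · rintro ⟨_, ⟨n, rfl⟩, rfl⟩
      exact ⟨SetLike.coe_mem _, isConj_iff.2 ⟨n, (hact n dA).symm⟩⟩
  refine ⟨hAe, ?_, ?_, fun x hx y hy hxd hyd => ?_⟩
  · rw [Sy.card_group]; norm_num
  · rw [horb, Set.ncard_image_of_injective _ Subtype.val_injective]
    refine OrbitTwentyThree.orbit_ncard Sy T ?_
    obtain ⟨g, hgC, hgd⟩ := hnwc
    set y : ↥(Subgroup.centralizer ({d} : Set G)) := ⟨g * d * g⁻¹, hgC⟩ with hy
    have hy2 : π y * π y = 1 := by
      rw [← map_mul, show y * y = 1 from Subtype.ext (by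
        show g * d * g⁻¹ * (g * d * g⁻¹) = 1
        rw [show g * d * g⁻¹ * (g * d * g⁻¹) = g * (d * d) * g⁻¹ by simp [mul_assoc], hd2, mul_one,
          mul_inv_cancel]), map_one]
    obtain ⟨m, hm, hlen, hmp⟩ := P.factor_three hy2
    obtain ⟨W', hW', hmW'⟩ := P.exists_maxSet (E := {z | z ∈ m}) (fun z hz => hm.mem z hz)
      fun z hz z' hz' => hm.comm z hz z' hz'
    obtain ⟨g₀, hg₀⟩ := P.maxSet_conj hW' hW
    obtain ⟨c, rfl⟩ := K.surj g₀
    have hcy : c * y * c⁻¹ ∈ J := by
      show π (c * y * c⁻¹) ∈ Subgroup.closure W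
      rw [map_mul, map_mul, map_inv, ← hmp, ← hg₀]
      have hle : Subgroup.closure W' ≤
          (Subgroup.closure (cj (π c) '' W')).comap (MulAut.conj (π c)).toMonoidHom :=
        (Subgroup.closure_le _).2 fun z hz => Subgroup.subset_closure ⟨z, hz, rfl⟩
      exact hle (Subgroup.list_prod_mem _ fun z hz => Subgroup.subset_closure (hmW' hz))
    obtain ⟨n, hn, e'⟩ := toOrb ((c * y * c⁻¹ : ↥(Subgroup.centralizer ({d} : Set G))) : G) ⟨_, hcy, rfl⟩
      (isConj_iff.2 ⟨(c : G) * g, by simp [hy, mul_assoc]⟩)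
    refine ⟨(⟨n, hn⟩ : ↥H) • dA, ⟨_, rfl⟩, fun h => hgd ?_⟩
    have h2 : (c : G) * (g * d * g⁻¹) * (c : G)⁻¹ = d := by
      have := congrArg Subtype.val h
      rw [hact, hdA, e'] at this
      exact this
    have hc : (c : G) * d * (c : G)⁻¹ = d := by
      rw [mul_inv_eq_iff_eq_mul]
      exact Subgroup.mem_centralizer_singleton_iff.1 c.2
    exact mul_left_cancel (mul_right_cancel (h2.trans hc.symm))
  · obtain ⟨n, hn, rfl⟩ := toOrb x hx hxd
    obtain ⟨m, hm, rfl⟩ := toOrb y hy hyd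
    exact ⟨m * n⁻¹, mul_mem hm (inv_mem hn), by simp [mul_assoc]⟩

end Cfsg.Agent.S5455
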