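import Cfsg.Statements.S5456
import Cfsg.Agent.TTLink.M22Cover

set_option autoImplicit false
open Cfsg

namespace Cfsg.Agent.S5456

/-- Let G be a finite group with trivial centre generated by a conjugation-invariant set D of 3-transpositions on which it acts primitively, of type M(22), and suppose G also has an involution whose centralizer is quasisimple with quotient by it the projective special unitary group of dimension 6 over the field with four elements and which is not weakly closed in that centralizer. Then D is the only conjugacy class of 3-transpositions generating G. -/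
theorem result {G : Type*} [Group G] [Finite G] {D : Set G} (hD : Cfsg.IsThreeTranspositionGroup D) (hprim : Cfsg.IsPrimitiveUnderConj D) (h22 : Cfsg.IsOfTypeM22 G D) (hM : ∃ d : G, orderOf d = 2 ∧ Cfsg.IsQuasisimple ↥(Subgroup.centralizer ({d} : Set G)) ∧ (∃ (_ : ((Subgroup.zpowers d).subgroupOf (Subgroup.centralizer ({d} : Set G))).Normal) (K : Type) (_ : Field K) (_ : Fintype K), Fintype.card K = 4 ∧ Nonempty (↥(Subgroup.centralizer ({d} : Set G)) ⧸ (Subgroup.zpowers d).subgroupOf (Subgroup.centralizer ({d} : Set G)) ≃* Cfsg.PSU 6 K 2)) ∧ ∃ g : G, g * d * g⁻¹ ∈ Subgroup.centralizer ({d} : Set G) ∧ g * d * g⁻¹ ≠ d) (D' : Set G) (hD' : Cfsg.IsThreeTranspositionClass D') : D' = D := by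
  obtain ⟨d, hd, hq, ⟨hn, K, _, _, hK, ⟨e⟩⟩, -⟩ := hM
  haveI := hn
  have hDd := TTLink.data_of_group hD
  obtain ⟨d₁, hd₁, hs₁, hnt₁⟩ := TTLink.m22_step h22
  obtain ⟨y, hy⟩ : ∃ y, y ∈ ThreeTransp45.link D d₁ := by
    by_contra h
    push Not at h
    obtain ⟨u, v, huv⟩ := hnt₁
    obtain ⟨u, rfl⟩ := QuotientGroup.mk_surjective u
    obtain ⟨v, rfl⟩ := QuotientGroup.mk_surjective v
    have hb : Subgroup.closure (ThreeTransp45.link D d₁) = ⊥ :=
      le_bot_iff.1 ((Subgroup.closure_le _).2 fun y hy => absurd hy (h y))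
    refine huv (congrArg _ (Subtype.ext ?_))
    rw [show (u : G) = 1 from Subgroup.mem_bot.1 (hb ▸ u.2),
      show (v : G) = 1 from Subgroup.mem_bot.1 (hb ▸ v.2)]
  have H := TTLink.m22Hyp (ThreeTransp.class_of_primitive hD hprim)
    (TTLink.noSolv_top hD hprim h22.1 hd₁ hy) h22
  obtain ⟨π, hs, hker⟩ := TTLink.cover_hom hd e
  have hperf := (Group.isPerfect_def).1 hq.1
  have hd2 : d * d = 1 := by rw [← pow_two, ← hd, pow_orderOf_eq_one]
  have hdD : d ∈ D := H.mem_of_cover hd2 (fun h => by rw [h, orderOf_one] at hd; norm_num at hd)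
    hperf hK π hs hker
  have hcov : ∀ a ∈ D, Nonempty (TTLink.Cover D hK a) := fun a ha =>
    H.exists_cover hdD hperf π hs hker ha
  refine H.class_unique (hF := hK) ?_ hcov hD'
  rw [← top_le_iff, ← hD.2.2, Subgroup.closure_le]
  intro a ha
  obtain ⟨cv⟩ := hcov a ha
  have hm : a ∈ (commutator ↥(Subgroup.centralizer ({a} : Set G))).map (Subgroup.subtype _) :=
    ⟨⟨a, Subgroup.mem_centralizer_singleton_iff.2 rfl⟩, cv.perf ▸ Subgroup.mem_top _, rfl⟩
  rw [commutator_def, Subgroup.map_commutator] at hm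
  exact Subgroup.commutator_mono le_top le_top hm

end Cfsg.Agent.S5456
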