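import Cfsg.Statements.S5459
import Cfsg.Agent.Components.Basic

set_option autoImplicit false
open Cfsg
open scoped commutatorElement

namespace Cfsg.Agent.S5459

/-- Let G be a finite group with a quasisimple normal subgroup L and an involution d such that G is generated by L and d, the centre of L has odd order, and d inverts every element of the centre of L. If the commuting graph on the conjugacy class of the image of d in G modulo the centre of L is connected, then the commuting graph on the conjugacy class of d is connected. -/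
theorem result {G : Type*} [Group G] [Finite G] (L : Subgroup G) [L.Normal] (hL : Cfsg.IsQuasisimple ↥L) (d : G) (hd : orderOf d = 2) (hgen : L ⊔ Subgroup.zpowers d = ⊤) (hodd : Odd (Nat.card ↥(Subgroup.center ↥L))) (hinv : ∀ c ∈ (Subgroup.center ↥L).map L.subtype, d * c * d⁻¹ = c⁻¹) [hn : ((Subgroup.center ↥L).map L.subtype).Normal] (hconn : (Cfsg.commutingGraph (conjugatesOf (QuotientGroup.mk d : G ⧸ (Subgroup.center ↥L).map L.subtype))).Connected) : (Cfsg.commutingGraph (conjugatesOf d)).Connected := by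
  classical
  set Z := (Subgroup.center ↥L).map L.subtype with hZdef
  let π : G → G ⧸ Z := QuotientGroup.mk
  set D := conjugatesOf d with hD
  have hDmem : ∀ e, e ∈ D ↔ ∃ v : G, v * d * v⁻¹ = e := fun e => (isConj_iff (a := d) (b := e))
  have hDconj : ∀ g e, e ∈ D → g * e * g⁻¹ ∈ D := by
    intro g e he
    obtain ⟨v, rfl⟩ := (hDmem e).1 he
    exact (hDmem _).2 ⟨g * v, by group⟩
  have hZL : ∀ c ∈ Z, c ∈ L ∧ ∀ l ∈ L, l * c = c * l := by
    rintro c ⟨x, hx, rfl⟩
    exact ⟨x.2, fun l hl => congrArg Subtype.val (Subgroup.mem_center_iff.1 hx ⟨l, hl⟩)⟩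
  have hZcomm : ∀ c ∈ Z, ∀ c' ∈ Z, c * c' = c' * c := fun c hc c' hc' => (hZL c' hc').2 c (hZL c hc).1
  have hinvD : ∀ e ∈ D, e * e = 1 ∧ ∀ c ∈ Z, e * c * e⁻¹ = c⁻¹ := by
    intro e he
    obtain ⟨v, rfl⟩ := (hDmem e).1 he
    refine ⟨?_, fun c hc => ?_⟩
    · calc v * d * v⁻¹ * (v * d * v⁻¹) = v * (d ^ 2) * v⁻¹ := by rw [pow_two]; group
        _ = 1 := by rw [← hd, pow_orderOf_eq_one, mul_one, mul_inv_cancel]
    · have hc' : v⁻¹ * c * v ∈ Z := by simpa using hn.conj_mem c hc v⁻¹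
      calc v * d * v⁻¹ * c * (v * d * v⁻¹)⁻¹ = v * (d * (v⁻¹ * c * v) * d⁻¹) * v⁻¹ := by group
        _ = c⁻¹ := by rw [hinv _ hc']; group
  obtain ⟨m, hm⟩ := hodd
  have hsqrt : ∀ c ∈ Z, ∃ u ∈ Z, u * u = c := by
    rintro c ⟨x, hx, rfl⟩
    have h : (⟨x, hx⟩ : Subgroup.center ↥L) ^ Nat.card (Subgroup.center ↥L) = 1 := pow_card_eq_one'
    refine ⟨((x ^ (m + 1) : ↥L) : G), ⟨_, pow_mem hx _, rfl⟩, ?_⟩
    have h' : x ^ (2 * m + 1) = 1 := by
      rw [hm] at h
      exact congrArg Subtype.val h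
    show ((x ^ (m + 1) : ↥L) : G) * ((x ^ (m + 1) : ↥L) : G) = (x : G)
    rw [← Subgroup.coe_mul, ← pow_add, show m + 1 + (m + 1) = (2 * m + 1) + 1 by ring, pow_succ, h', one_mul]
  -- lifting an edge
  have hlift : ∀ e ∈ D, ∀ f' ∈ conjugatesOf (π d), Commute (π e) f' →
      ∃ f ∈ D, π f = f' ∧ Commute e f := by
    intro e he f' hf' hcom
    obtain ⟨v', rfl⟩ := isConj_iff.1 (hf')
    obtain ⟨v, rfl⟩ := QuotientGroup.mk_surjective v'
    set f := v * d * v⁻¹ with hf
    have hfD : f ∈ D := (hDmem f).2 ⟨v, rfl⟩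
    obtain ⟨hee, heinv⟩ := hinvD e he
    obtain ⟨hff, hfinv⟩ := hinvD f hfD
    have hc : e * f * e⁻¹ * f⁻¹ ∈ Z := by
      refine (QuotientGroup.eq_one_iff (N := Z) _).1 ?_
      have hcom' : π e * π f = π f * π e := hcom
      show π e * π f * (π e)⁻¹ * (π f)⁻¹ = 1
      rw [hcom']; group
    obtain ⟨u, hu, huu⟩ := hsqrt _ hc
    -- the conjugate of f by a square root of u
    obtain ⟨r, hr, hrr⟩ := hsqrt u hu
    refine ⟨r * f * r⁻¹, hDconj r f hfD, ?_, ?_⟩
    · show π r * π f * (π r)⁻¹ = π f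
      rw [show π r = 1 from (QuotientGroup.eq_one_iff r).2 hr, one_mul, inv_one, mul_one]
    · have e1 : r * f * r⁻¹ = u * f := by
        calc r * f * r⁻¹ = r * (f * r⁻¹ * f⁻¹) * f := by group
          _ = u * f := by rw [hfinv _ (inv_mem hr), inv_inv, hrr]
      rw [e1, commute_iff_eq]
      calc e * (u * f) = (e * u * e⁻¹) * (e * f * e⁻¹ * f⁻¹) * f * e := by group
        _ = u⁻¹ * (u * u) * f * e := by rw [heinv u hu, ← huu]
        _ = u * f * e := by group
  -- the component of d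
  have hdD : d ∈ D := (hDmem d).2 ⟨1, by group⟩
  let Γ := Cfsg.commutingGraph D
  let d₁ : ↥D := ⟨d, hdD⟩
  have hadj : ∀ a b : ↥D, Commute (a : G) (b : G) → Γ.Reachable a b := by
    intro a b h
    by_cases hab : a = b
    · exact hab ▸ SimpleGraph.Reachable.refl _
    · exact SimpleGraph.Adj.reachable ((SimpleGraph.fromRel_adj _ a b).2 ⟨hab, Or.inl h⟩)
  have hsurj : ∀ x : ↥(conjugatesOf (π d)), ∃ e : ↥D, Γ.Reachable d₁ e ∧ π e = x := by
    intro x
    have hd' : π d ∈ conjugatesOf (π d) := mem_conjugatesOf_self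
    obtain ⟨p⟩ := hconn.preconnected ⟨π d, hd'⟩ x
    suffices h : ∀ a b, (Cfsg.commutingGraph (conjugatesOf (π d))).Walk a b →
        ∀ e : ↥D, Γ.Reachable d₁ e → π e = a → ∃ e : ↥D, Γ.Reachable d₁ e ∧ π e = b from
      h _ _ p d₁ (SimpleGraph.Reachable.refl _) rfl
    intro a b q
    induction q with
    | nil => exact fun e he hea => ⟨e, he, hea⟩
    | @cons u v w hadj' q ih =>
      intro e he hea
      obtain ⟨-, hcm⟩ := (SimpleGraph.fromRel_adj _ u v).1 hadj'
      have hc : Commute (π e) (v : G ⧸ Z) := by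
        rw [hea]
        exact hcm.elim id Commute.symm
      obtain ⟨f, hf, hfv, hef⟩ := hlift e e.2 v v.2 hc
      exact ih ⟨f, hf⟩ (he.trans (hadj e ⟨f, hf⟩ hef)) hfv
  -- elements preserving the component
  let cj : G → ↥D → ↥D := fun g e => ⟨g * e * g⁻¹, hDconj g e e.2⟩
  let φ : G → (Γ →g Γ) := fun g => ⟨cj g, fun {a b} h => by
    obtain ⟨hab, hc⟩ := (SimpleGraph.fromRel_adj _ a b).1 h
    refine (SimpleGraph.fromRel_adj _ _ _).2 ⟨fun e => hab (Subtype.ext ?_), ?_⟩
    · exact mul_left_cancel (mul_right_cancel (congrArg Subtype.val e))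
    · rcases hc with hc | hc
      · exact Or.inl (by simpa [MulAut.conj_apply, cj] using hc.map (MulAut.conj g).toMonoidHom)
      · exact Or.inr (by simpa [MulAut.conj_apply, cj] using hc.map (MulAut.conj g).toMonoidHom)⟩
  have hφ : ∀ g a b, Γ.Reachable a b → Γ.Reachable (cj g a) (cj g b) := fun g a b h => h.map (φ g)
  have hmulcj : ∀ g h a, cj (g * h) a = cj g (cj h a) := fun g h a => Subtype.ext (by simp only [cj]; group)
  let S : Subgroup G :=
    { carrier := {g | Γ.Reachable d₁ (cj g d₁)}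
      one_mem' := by
        show Γ.Reachable d₁ (cj 1 d₁)
        rw [show cj 1 d₁ = d₁ from Subtype.ext (by simp [cj])]
      mul_mem' := by
        intro g h hg hh
        show Γ.Reachable d₁ (cj (g * h) d₁)
        rw [hmulcj]
        exact SimpleGraph.Reachable.trans hg (hφ g _ _ hh)
      inv_mem' := by
        intro g hg
        have := hφ g⁻¹ _ _ hg
        rw [← hmulcj, inv_mul_cancel, show cj 1 d₁ = d₁ from Subtype.ext (by simp [cj])] at this
        exact this.symm }
  have hcompS : ∀ e : ↥D, Γ.Reachable d₁ e → (e : G) ∈ S := by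
    intro e he
    have h := hφ e _ _ he
    rw [show cj e e = e from Subtype.ext (mul_inv_cancel_right _ _)] at h
    exact he.trans h.symm
  have hclosure : ∀ e ∈ D, ∃ c ∈ Z, e * c ∈ S := by
    intro e he
    obtain ⟨e₁, h1, h2⟩ := hsurj ⟨π e, MonoidHom.map_isConj (QuotientGroup.mk' Z) he⟩
    exact ⟨e⁻¹ * e₁, QuotientGroup.eq.1 h2.symm, by rw [mul_inv_cancel_left]; exact hcompS e₁ h1⟩
  suffices hS : S = ⊤ ∨ Z = ⊥ by
    haveI : Nonempty ↥D := ⟨d₁⟩
    suffices hreach : ∀ e : ↥D, Γ.Reachable d₁ e from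
      ⟨fun a b => (hreach a).symm.trans (hreach b)⟩
    intro e
    rcases hS with hS | hS
    · obtain ⟨v, hv⟩ := (hDmem e).1 e.2
      rw [← show cj v d₁ = e from Subtype.ext hv]
      exact (hS.symm ▸ Subgroup.mem_top v : v ∈ S)
    · obtain ⟨e₁, h1, h2⟩ := hsurj ⟨π e, MonoidHom.map_isConj (QuotientGroup.mk' Z) e.2⟩
      have h3 : (e₁ : G)⁻¹ * e ∈ Z := QuotientGroup.eq.1 h2
      rw [hS, Subgroup.mem_bot, inv_mul_eq_one] at h3
      rwa [← Subtype.ext h3]
  -- the normal subgroup generated by the class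
  let N := Subgroup.normalClosure ({d} : Set G)
  have hNS : N ≤ S ⊔ Z := by
    refine (Subgroup.closure_le _).2 fun e he => ?_
    obtain ⟨a, ha, hea⟩ := Group.mem_conjugatesOfSet_iff.1 he
    obtain rfl : a = d := ha
    obtain ⟨c, hc, hec⟩ := hclosure e hea
    rw [← mul_inv_cancel_right e c]
    exact mul_mem (Subgroup.mem_sup_left hec) (Subgroup.mem_sup_right (inv_mem hc))
  rcases Cfsg.Agent.Components.quasisimple_normalized hL (inf_le_right : N ⊓ L ≤ L)
      (by
        haveI : (N ⊓ L).Normal := Subgroup.normal_inf_normal N L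
        rw [Subgroup.normalizer_eq_top_iff.2 inferInstance]
        exact le_top) with h | h
  · left
    have hLSZ : L ≤ S ⊔ Z := h ▸ inf_le_left.trans hNS
    have hLS : L ≤ S := by
      rw [← Cfsg.Agent.Components.quasisimple_commutator_self hL, Subgroup.commutator_le]
      intro a ha b hb
      obtain ⟨x, hx, c, hc, hxc⟩ := (Subgroup.mem_sup_of_normal_right (s := S) (t := Z)).1 (hLSZ ha)
      obtain ⟨y, hy, c', hc', hyc⟩ := (Subgroup.mem_sup_of_normal_right (s := S) (t := Z)).1 (hLSZ hb)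
      have hxL : x ∈ L := by
        rw [show x = a * c⁻¹ by rw [← hxc]; group]
        exact mul_mem ha (inv_mem (hZL c hc).1)
      have hyL : y ∈ L := by
        rw [show y = b * c'⁻¹ by rw [← hyc]; group]
        exact mul_mem hb (inv_mem (hZL c' hc').1)
      have e : ⁅a, b⁆ = x * y * x⁻¹ * y⁻¹ := by
        rw [← hxc, ← hyc, commutatorElement_def]
        calc x * c * (y * c') * (x * c)⁻¹ * (y * c')⁻¹
            = x * (c * (y * c')) * c⁻¹ * x⁻¹ * c'⁻¹ * y⁻¹ := by group
          _ = x * ((y * c') * c) * c⁻¹ * x⁻¹ * c'⁻¹ * y⁻¹ := by rw [← (hZL c hc).2 _ (mul_mem hyL (hZL c' hc').1)]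
          _ = x * y * (c' * x⁻¹) * c'⁻¹ * y⁻¹ := by group
          _ = x * y * (x⁻¹ * c') * c'⁻¹ * y⁻¹ := by rw [(hZL c' hc').2 _ (inv_mem hxL)]
          _ = x * y * x⁻¹ * y⁻¹ := by group
      rw [e]
      exact mul_mem (mul_mem (mul_mem hx hy) (inv_mem hx)) (inv_mem hy)
    exact top_le_iff.1 (hgen ▸ sup_le hLS (Subgroup.zpowers_le.2 (hcompS d₁ (SimpleGraph.Reachable.refl _))))
  · right
    -- d centralises L, hence inverts and fixes Z
    have hdl : ⁅L, Subgroup.zpowers d⁆ = ⊥ := by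
      refine Cfsg.Agent.Components.perfect_centralizes_of_commutator
        (Cfsg.Agent.Components.quasisimple_commutator_self hL) (le_bot_iff.1 ?_)
      rw [← h, Subgroup.commutator_comm L (N ⊓ L)]
      refine Subgroup.commutator_mono (le_inf ?_ (Subgroup.commutator_le_right _ _)) le_rfl
      exact (Subgroup.commutator_mono (Subgroup.zpowers_le.2 (Subgroup.subset_normalClosure (Set.mem_singleton d))) le_rfl).trans
        (Subgroup.commutator_le_left N L)
    refine (Subgroup.eq_bot_iff_forall Z).2 fun c hc => ?_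
    have hcd : c * d = d * c :=
      (Subgroup.commutator_eq_bot_iff_le_centralizer.1 hdl (hZL c hc).1 d (Subgroup.mem_zpowers d)).symm
    have h1 := hinv c hc
    rw [← hcd, mul_inv_cancel_right] at h1
    -- c = c⁻¹ in a group of odd order
    obtain ⟨x, hx, rfl⟩ := hc
    have h2 : x ^ 2 = 1 := Subtype.ext (by rw [pow_two]; show (x : G) * x = 1; rw [← eq_inv_iff_mul_eq_one]; exact h1)
    have h3 : x ^ (2 * m + 1) = 1 := by
      have h : (⟨x, hx⟩ : Subgroup.center ↥L) ^ Nat.card (Subgroup.center ↥L) = 1 := pow_card_eq_one'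
      rw [hm] at h
      exact congrArg Subtype.val h
    rw [pow_succ, pow_mul, h2, one_pow, one_mul] at h3
    rw [h3]
    rfl

end Cfsg.Agent.S5459
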