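import Cfsg.Statements.S5463
import Cfsg.Agent.TTLink.Hexad

set_option autoImplicit false
open Cfsg

namespace Cfsg.Agent.S5463

/-- Let G be a finite group with trivial centre generated by a conjugation-invariant set D of 3-transpositions on which it acts primitively, such that for some d in D the subgroup generated by the members of D other than d commuting with d has central largest normal 2- and 3-subgroups, and suppose G with D is of type M(22). A product j of two distinct commuting members of D determines the pair: any two 2-element sets of commuting members of D with product j coincide. A product j of three distinct pairwise commuting members of D arises from exactly two such 3-element sets. -/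
theorem result {G : Type*} [Group G] [Finite G] {D : Set G} (hD : Cfsg.IsThreeTranspositionGroup D) (hprim : Cfsg.IsPrimitiveUnderConj D) (d₀ : G) (hd₀ : d₀ ∈ D) (h3 : Cfsg.pCore 3 ↥(Subgroup.closure {y : G | y ∈ D ∧ y ≠ d₀ ∧ Commute d₀ y}) ≤ Subgroup.center ↥(Subgroup.closure {y : G | y ∈ D ∧ y ≠ d₀ ∧ Commute d₀ y})) (h2 : Cfsg.pCore 2 ↥(Subgroup.closure {y : G | y ∈ D ∧ y ≠ d₀ ∧ Commute d₀ y}) ≤ Subgroup.center ↥(Subgroup.closure {y : G | y ∈ D ∧ y ≠ d₀ ∧ Commute d₀ y})) (h22 : Cfsg.IsOfTypeM22 G D) : (∀ (j : G) (l l' : List G), (l.Nodup ∧ l.length = 2 ∧ (∀ a ∈ l, a ∈ D) ∧ (∀ a ∈ l, ∀ b ∈ l, Commute a b) ∧ l.prod = j) → (l'.Nodup ∧ l'.length = 2 ∧ (∀ a ∈ l', a ∈ D) ∧ (∀ a ∈ l', ∀ b ∈ l', Commute a b) ∧ l'.prod = j) → (∀ x : G, x ∈ l ↔ x ∈ l')) ∧ ∀ (j : G) (l₀ : List G), (l₀.Nodup ∧ l₀.length = 3 ∧ (∀ a ∈ l₀, a ∈ D) ∧ (∀ a ∈ l₀, ∀ b ∈ l₀, Commute a b) ∧ l₀.prod = j) → ∃ l₁ l₂ : List G, (l₁.Nodup ∧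 l₁.length = 3 ∧ (∀ a ∈ l₁, a ∈ D) ∧ (∀ a ∈ l₁, ∀ b ∈ l₁, Commute a b) ∧ l₁.prod = j) ∧ (l₂.Nodup ∧ l₂.length = 3 ∧ (∀ a ∈ l₂, a ∈ D) ∧ (∀ a ∈ l₂, ∀ b ∈ l₂, Commute a b) ∧ l₂.prod = j) ∧ ¬ (∀ x : G, x ∈ l₁ ↔ x ∈ l₂) ∧ ∀ l : List G, (l.Nodup ∧ l.length = 3 ∧ (∀ a ∈ l, a ∈ D) ∧ (∀ a ∈ l, ∀ b ∈ l, Commute a b) ∧ l.prod = j) → ((∀ x : G, x ∈ l ↔ x ∈ l₁) ∨ (∀ x : G, x ∈ l ↔ x ∈ l₂)) := by
  classical
  have hDd := TTLink.data_of_group hD
  have htf : ∀ {u v : G}, u ∈ D → v ∈ D → u ≠ v → Commute u v → TTLink.TwinFree D :=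
    fun {u v} hu hv hne hc => TTLink.twinFree_of_noSolv
      (TTLink.noSolv_top hD hprim h22.1 hu ⟨hv, hne.symm, hc⟩) hDd
  have pairs : ∀ (l l' : List G), TTLink.Fac D l → TTLink.Fac D l' → l.length = 2 → l'.length = 2 →
      l.prod = l'.prod → ∀ x, x ∈ l ↔ x ∈ l' := by
    intro l l' hl hl' e e' hp
    refine TTLink.factors_unique hDd 2 (by norm_num) (fun k h1 hk => ?_) l l' hl hl' e e' hp
    obtain rfl | rfl : k = 1 ∨ k = 2 := by omega
    · exact TTLink.indep_two hDd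
    · obtain ⟨u, v, rfl⟩ := List.length_eq_two.1 e
      exact TTLink.indep_four hDd (htf (hl.mem u (by simp)) (hl.mem v (by simp))
        (by simpa using hl.nodup) (hl.comm u (by simp) v (by simp)))
  refine ⟨fun j l l' hl hl' => pairs l l' ⟨hl.1, hl.2.2.1, hl.2.2.2.1⟩ ⟨hl'.1, hl'.2.2.1, hl'.2.2.2.1⟩
    hl.2.1 hl'.2.1 (hl.2.2.2.2.trans hl'.2.2.2.2.symm), ?_⟩
  intro j l₀ hl₀
  obtain ⟨hn₀, hlen₀, hD₀, hc₀, hp₀⟩ := hl₀
  obtain ⟨a, b, c, e₀⟩ := List.length_eq_three.1 hlen₀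
  have hm : ∀ x, x ∈ l₀ ↔ x = a ∨ x = b ∨ x = c := fun x => by simp [e₀]
  have hne : a ≠ b ∧ a ≠ c ∧ b ≠ c := by
    rw [e₀] at hn₀
    simp at hn₀
    tauto
  have ma : a ∈ l₀ := (hm a).2 (Or.inl rfl)
  have mb : b ∈ l₀ := (hm b).2 (Or.inr (Or.inl rfl))
  have mc : c ∈ l₀ := (hm c).2 (Or.inr (Or.inr rfl))
  obtain ⟨s, hs, hsl, hsp, hsm⟩ := TTLink.hexad hD hprim h22 (hD₀ a ma) (hD₀ b mb) (hD₀ c mc)
    hne.1 hne.2.1 hne.2.2 (hc₀ a ma b mb) (hc₀ a ma c mc) (hc₀ b mb c mc)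
  have hsub : ∀ x ∈ l₀, x ∈ s := by
    intro x hx
    refine (hsm x).2 ⟨hD₀ x hx, hc₀ x hx a ma, hc₀ x hx b mb, hc₀ x hx c mc, fun y _ h1 h2 h3 => ?_⟩
    rcases (hm x).1 hx with rfl | rfl | rfl
    exacts [h1, h2, h3]
  have hscomm : ∀ u ∈ s, ∀ v ∈ s, Commute u v := fun u hu v hv => by
    have h1 := (hsm u).1 hu
    exact ((hsm v).1 hv).2.2.2.2 u h1.1 h1.2.1 h1.2.2.1 h1.2.2.2.1
  set l₁ := s.filter (fun x => decide (x ∉ l₀)) with hl₁
  have hsp' : s.Perm (l₀ ++ l₁) := by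
    refine (List.perm_ext_iff_of_nodup hs ?_).2 fun x => ?_
    · exact List.nodup_append.2 ⟨hn₀, hs.filter _, fun u hu v hv huv => by
        simp [hl₁] at hv
        exact hv.2 (huv ▸ hu)⟩
    · by_cases hx : x ∈ l₀ <;> simp [hl₁, hx]
      exact hsub x hx
  have hlen₁ : l₁.length = 3 := by
    have := hsp'.length_eq
    rw [List.length_append, hsl, hlen₀] at this
    omega
  have hF₀ : TTLink.Fac D l₀ := ⟨hn₀, hD₀, hc₀⟩
  have hprod₁ : l₁.prod = j := by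
    have := hsp'.prod_eq' (List.pairwise_of_forall_mem_list hscomm)
    rw [hsp, List.prod_append] at this
    rw [eq_inv_of_mul_eq_one_right this.symm, TTLink.fac_inv hDd hF₀, hp₀]
  refine ⟨l₀, l₁, ⟨hn₀, hlen₀, hD₀, hc₀, hp₀⟩, ⟨hs.filter _, hlen₁,
    fun x hx => ((hsm x).1 (List.mem_of_mem_filter hx)).1,
    fun u hu v hv => hscomm u (List.mem_of_mem_filter hu) v (List.mem_of_mem_filter hv), hprod₁⟩,
    fun e => ?_, ?_⟩
  · have := (e a).1 ma
    simp [hl₁, ma] at this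
  intro l hl
  obtain ⟨hn, hlen, hlD, hlc, hp⟩ := hl
  have hF : TTLink.Fac D l := ⟨hn, hlD, hlc⟩
  by_cases hcom : ∃ u, u ∈ l ∧ u ∈ l₀
  · left
    obtain ⟨u, hu, hu'⟩ := hcom
    have key : ∀ {m : List G}, TTLink.Fac D m → u ∈ m → m.prod = u * (m.erase u).prod :=
      fun {m} hm hum => by
        rw [(List.perm_cons_erase hum).prod_eq' (List.pairwise_of_forall_mem_list fun p hp q hq =>
          hm.comm p hp q hq), List.prod_cons]
    have := pairs (l.erase u) (l₀.erase u) (TTLink.fac_erase hF u) (TTLink.fac_erase hF₀ u)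
      (by rw [List.length_erase_of_mem hu, hlen]) (by rw [List.length_erase_of_mem hu', hlen₀])
      (mul_left_cancel ((key hF hu).symm.trans ((hp.trans hp₀.symm).trans (key hF₀ hu'))))
    intro x
    rw [(List.perm_cons_erase hu).mem_iff, (List.perm_cons_erase hu').mem_iff, List.mem_cons,
      List.mem_cons, this x]
  · right
    push Not at hcom
    have hx := TTLink.cross_commute hDd hF₀ hF (by omega) (hp₀.trans hp.symm)
    have hss : l ⊆ l₁ := by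
      intro y hy
      simp only [hl₁, List.mem_filter, decide_eq_true_eq]
      refine ⟨(hsm y).2 ⟨hlD y hy, hx y hy a ma, hx y hy b mb, hx y hy c mc, fun z hz h1 h2 h3 => ?_⟩,
        hcom y hy⟩
      refine TTLink.commute_prod hDd hF (by omega) hz ?_ y hy
      rw [hp, ← hp₀, e₀]
      simp only [List.prod_cons, List.prod_nil, mul_one]
      exact h1.mul_right (h2.mul_right h3)
    intro x
    exact ((List.subperm_of_subset hn hss).perm_of_length_le (by omega)).mem_iff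

end Cfsg.Agent.S5463
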