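import Cfsg.Statements.S5467
import Cfsg.Agent.TTLink.QuadGroup
import Cfsg.Agent.TTLink.QuadAut
import Cfsg.Agent.TTLink.QuadChart
import Cfsg.Agent.TTLink.QuadLocal
import Cfsg.Agent.TTLink.QuadClique
import Cfsg.Agent.TTLink.QuadOuter

set_option autoImplicit false
open Cfsg

namespace Cfsg.Agent.S5467

/-- Let G be a finite group with trivial centre generated by a conjugation-invariant set D of 3-transpositions on which it acts primitively, such that for some d in D the subgroup generated by the members of D other than d commuting with d has central largest normal 2- and 3-subgroups, and suppose G with D is of type M(24), and let L be the commutator subgroup of G. Let z be the product of four distinct pairwise commuting members of D (an involution of L) and C its centralizer in L. Then the generalized Fitting subgroup Q of C is extraspecial of order 2^13, and C has normal subgroups Q ≤ N ≤ M with N/Q of order 3, M/N isomorphic to the projective special unitary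 group of dimension 4 over the field with nine elements, and M of index 2 in C. -/
theorem result {G : Type*} [Group G] [Finite G] {D : Set G} (hD : Cfsg.IsThreeTranspositionGroup D) (hprim : Cfsg.IsPrimitiveUnderConj D) (d₀ : G) (hd₀ : d₀ ∈ D) (h3 : Cfsg.pCore 3 ↥(Subgroup.closure {y : G | y ∈ D ∧ y ≠ d₀ ∧ Commute d₀ y}) ≤ Subgroup.center ↥(Subgroup.closure {y : G | y ∈ D ∧ y ≠ d₀ ∧ Commute d₀ y})) (h2 : Cfsg.pCore 2 ↥(Subgroup.closure {y : G | y ∈ D ∧ y ≠ d₀ ∧ Commute d₀ y}) ≤ Subgroup.center ↥(Subgroup.closure {y : G | y ∈ D ∧ y ≠ d₀ ∧ Commute d₀ y})) (h24 : Cfsg.IsOfTypeM24 G D) (L : Subgroup G) (hL : L = commutator G) (z : G) (l : List G) (hl : (l.Nodup ∧ l.length = 4 ∧ (∀ a ∈ l, a ∈ D) ∧ (∀ a ∈ l, ∀ b ∈ l, Commute a b) ∧ l.prod = z)) (C : Subgroup G) (hC : C = L ⊓ Subgroup.centralizer ({z} : Set G)) : ∃ (Q : Subgroup ↥C) (_ : Q.Normal), Cfsg.generalizedFittingSubgroup ↥C = Q ∧ Cfsg.IsExtraspecial 2 ↥Q ∧ Nat.card Q = 2 ^ 13 ∧ ∃ (N M : Subgroup ↥C) (_ : N.Normal)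 (_ : M.Normal), Q ≤ N ∧ N ≤ M ∧ Nat.card N = 3 * Nat.card Q ∧ (∃ (K : Type) (_ : Field K) (_ : Fintype K), Fintype.card K = 9 ∧ Nonempty (↥M ⧸ N.subgroupOf M ≃* Cfsg.PSU 4 K 3)) ∧ M.index = 2 := by
  obtain ⟨hnd, hlen, hmem, hcomm, hprod⟩ := hl
  have P : TTLink.M24Prim D := ⟨hD, hprim, h24, d₀, hd₀, h3, h2⟩
  have hq : TTLink.IsQuad D z l := ⟨⟨hnd, hmem, hcomm⟩, hlen, hprod⟩
  have S := P.quadSpace hq
  obtain ⟨x, hx⟩ := List.exists_mem_of_ne_nil l (by intro e; simp [e] at hlen)
  obtain ⟨ψ, hψ⟩ := S.exists_chart S.sixFacts (x := x)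
    (TTLink.Quad.Same.left ⟨l, hq, hx, hx⟩)
  exact P.quad_structure hq S hψ TTLink.Quad.card_adj126 TTLink.Quad.card_link_group
    (fun hl' hg h1 h2 h3 h4 h5 => P.quad_no_swap hl' hg h1 h2 h3 h4 h5) C (hL ▸ hC)

end Cfsg.Agent.S5467
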