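import Cfsg.Statements.S5468
import Cfsg.Agent.TTLink.M23Pair
-- import your own Cfsg.Agent.* helpers here

set_option autoImplicit false
open Cfsg

namespace Cfsg.Agent.S5468

/-- Let G be a finite group with trivial centre generated by a conjugation-invariant set D of 3-transpositions on which it acts primitively, such that for some d in D the subgroup generated by the members of D other than d commuting with d has central largest normal 2- and 3-subgroups, and suppose G with D is of type M(23). Let d₁, d₂ be distinct commuting members of D, j = d₁ d₂, K the joint centralizer of d₁ and d₂ and C the centralizer of j. Then K has index 2 in C, the centre of K is the subgroup generated by d₁ and d₂, K is quasisimple with K modulo its centre isomorphic to the projective special unitary group of dimension 6 over the field with four elements, and C modulo the subgroup generated by d₁ and d₂ has trivial centre (so it is that unitary group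 extended by an outer involution). -/
theorem result {G : Type*} [Group G] [Finite G] {D : Set G} (hD : Cfsg.IsThreeTranspositionGroup D) (hprim : Cfsg.IsPrimitiveUnderConj D) (d₀ : G) (hd₀ : d₀ ∈ D) (h3 : Cfsg.pCore 3 ↥(Subgroup.closure {y : G | y ∈ D ∧ y ≠ d₀ ∧ Commute d₀ y}) ≤ Subgroup.center ↥(Subgroup.closure {y : G | y ∈ D ∧ y ≠ d₀ ∧ Commute d₀ y})) (h2 : Cfsg.pCore 2 ↥(Subgroup.closure {y : G | y ∈ D ∧ y ≠ d₀ ∧ Commute d₀ y}) ≤ Subgroup.center ↥(Subgroup.closure {y : G | y ∈ D ∧ y ≠ d₀ ∧ Commute d₀ y})) (h23 : Cfsg.IsOfTypeM23 G D) (d₁ d₂ : G) (h₁ : d₁ ∈ D) (h₂ : d₂ ∈ D) (hne : d₁ ≠ d₂) (hc : Commute d₁ d₂) (K C V : Subgroup G) (hK : K = Subgroup.centralizer ({d₁, d₂} : Set G)) (hC : C = Subgroup.centralizer ({d₁ * d₂} : Set G)) (hV : V = Subgroup.closure ({d₁, d₂} : Set G)) [hn : (V.subgroupOf C).Normal] : K ≤ C ∧ (K.subgroupOf C).index = 2 ∧ (Subgroup.center ↥K).map K.subtype = V ∧ Cfsg.IsQuasisimple ↥K ∧ (∃ (F : Type) (_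 : Field F) (_ : Fintype F), Fintype.card F = 4 ∧ Nonempty (↥K ⧸ Subgroup.center ↥K ≃* Cfsg.PSU 6 F 2)) ∧ Subgroup.center (↥C ⧸ V.subgroupOf C) = ⊥ := by
  classical
  have P : TTLink.M23Prim D := ⟨hD, hprim, h23⟩
  have hDd := P.data
  have hb : d₂ ∈ ThreeTransp45.link D d₁ := ⟨h₂, hne.symm, hc⟩
  obtain ⟨F, i1, i2, hF, π, hsurj, hker, hperf, hinjM, hcd⟩ := P.pair_structure h₁ hb K hK
  have memK : ∀ {k : G}, k ∈ K ↔ Commute k d₁ ∧ Commute k d₂ := by
    intro k
    rw [hK, Subgroup.mem_centralizer_iff]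
    constructor
    · exact fun h => ⟨(h d₁ (Or.inl rfl)).symm, (h d₂ (Or.inr rfl)).symm⟩
    · rintro ⟨e1, e2⟩ z (rfl | rfl)
      exacts [e1.eq.symm, e2.eq.symm]
  have memC : ∀ {k : G}, k ∈ C ↔ Commute k (d₁ * d₂) := by
    intro k
    rw [hC, Subgroup.mem_centralizer_singleton_iff]
    exact Iff.rfl
  have hKC : K ≤ C := fun k hk => memC.2 ((memK.1 hk).1.mul_right (memK.1 hk).2)
  -- the permutation of the pair
  have hperm : ∀ {c : G}, c ∈ C → (ThreeTransp45.cj c d₁ = d₁ ∧ ThreeTransp45.cj c d₂ = d₂) ∨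
      (ThreeTransp45.cj c d₁ = d₂ ∧ ThreeTransp45.cj c d₂ = d₁) := by
    intro c hcC
    have e := TTLink.factors_unique hDd 2 (by norm_num)
      (fun k h1 h2 => P.indeps (2 * k) (by omega) (by omega))
      [ThreeTransp45.cj c d₁, ThreeTransp45.cj c d₂] [d₁, d₂]
      ⟨by simp [(ThreeTransp45.cj_injective c).ne hne], by simp [hDd.inv' c d₁ h₁, hDd.inv' c d₂ h₂],
        by simp [(ThreeTransp45.cj_commute_iff c d₁ d₂).2 hc, ((ThreeTransp45.cj_commute_iff c d₁ d₂).2 hc).symm]⟩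
      ⟨by simp [hne], by simp [h₁, h₂], by simp [hc, hc.symm]⟩ rfl rfl (by
        simp only [List.prod_cons, List.prod_nil, mul_one]
        rw [← ThreeTransp45.cj_map_mul]
        exact (ThreeTransp45.cj_eq_self_iff c _).2 (memC.1 hcC))
    have e1 := (e (ThreeTransp45.cj c d₁)).1 (by simp)
    have e2 := (e (ThreeTransp45.cj c d₂)).1 (by simp)
    simp only [List.mem_cons, List.not_mem_nil, or_false] at e1 e2
    have hn := (ThreeTransp45.cj_injective c).ne hne
    rcases e1 with e1 | e1 <;> rcases e2 with e2 | e2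
    · exact absurd (e1.trans e2.symm) hn
    · exact Or.inl ⟨e1, e2⟩
    · exact Or.inr ⟨e1, e2⟩
    · exact absurd (e1.trans e2.symm) hn
  obtain ⟨g₁, hg₁⟩ := P.cl d₁ h₁ d₂ h₂
  obtain ⟨g₂, hg₂, hgd⟩ := ThreeTransp45.exists_conj_link P.sol P.cls h₂
    (show ThreeTransp45.cj g₁ d₂ ∈ ThreeTransp45.link D d₂ by
      have h : ThreeTransp45.cj g₁ d₂ ∈ ThreeTransp45.cj g₁ '' ThreeTransp45.link D d₁ := ⟨d₂, hb, rfl⟩
      rwa [ThreeTransp45.link_image hDd, hg₁] at h)
    (⟨h₁, hne, hc.symm⟩ : d₁ ∈ ThreeTransp45.link D d₂)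
  set s := g₂ * g₁ with hs
  have es1 : ThreeTransp45.cj s d₁ = d₂ := by
    rw [ThreeTransp45.cj_mul, hg₁, (ThreeTransp45.cj_eq_self_iff g₂ d₂).2 (TTLink.commute_d hg₂).symm]
  have es2 : ThreeTransp45.cj s d₂ = d₁ := by rw [ThreeTransp45.cj_mul, hgd]
  have hsC : s ∈ C := memC.2 ((ThreeTransp45.cj_eq_self_iff s _).1 (by
    rw [ThreeTransp45.cj_map_mul, es1, es2, hc.eq]))
  have notK : ∀ {c : G}, ThreeTransp45.cj c d₁ = d₂ → c ∉ K := fun e hcK =>
    hne (((ThreeTransp45.cj_eq_self_iff _ _).2 (memK.1 hcK).1).symm.trans e)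
  have isK : ∀ {c : G}, ThreeTransp45.cj c d₁ = d₁ → ThreeTransp45.cj c d₂ = d₂ → c ∈ K := fun e e' =>
    memK.2 ⟨(ThreeTransp45.cj_eq_self_iff _ _).1 e, (ThreeTransp45.cj_eq_self_iff _ _).1 e'⟩
  have hidx : (K.subgroupOf C).index = 2 := by
    refine Subgroup.index_eq_two_iff.2 ⟨⟨s, hsC⟩, fun c => ?_⟩
    rw [Subgroup.mem_subgroupOf, Subgroup.mem_subgroupOf]
    rcases hperm c.2 with ⟨e1, e2⟩ | ⟨e1, e2⟩
    · exact Or.inr ⟨isK e1 e2, notK (show ThreeTransp45.cj ((c : G) * s) d₁ = d₂ by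
        rw [ThreeTransp45.cj_mul, es1, e2])⟩
    · exact Or.inl ⟨isK (show ThreeTransp45.cj ((c : G) * s) d₁ = d₁ by
        rw [ThreeTransp45.cj_mul, es1, e2]) (show ThreeTransp45.cj ((c : G) * s) d₂ = d₂ by
        rw [ThreeTransp45.cj_mul, es2, e1]), notK e1⟩
  -- the kernel
  have hd1V : d₁ ∈ V := hV ▸ Subgroup.subset_closure (Or.inl rfl)
  have hd2V : d₂ ∈ V := hV ▸ Subgroup.subset_closure (Or.inr rfl)
  have hd1K : d₁ ∈ K := memK.2 ⟨Commute.refl _, hc⟩
  have hd2K : d₂ ∈ K := memK.2 ⟨hc.symm, Commute.refl _⟩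
  have hkerV : ∀ k : ↥K, π k = 1 ↔ (k : G) ∈ V := by
    intro k
    constructor
    · intro h
      rcases (hker k).1 h with e | e | e | e <;> rw [e]
      exacts [one_mem _, hd1V, hd2V, mul_mem hd2V hd1V]
    · intro h
      have hle : V ≤ π.ker.map K.subtype := by
        rw [hV, Subgroup.closure_le]
        rintro z (rfl | rfl)
        · exact ⟨⟨_, hd1K⟩, (hker _).2 (Or.inr (Or.inl rfl)), rfl⟩
        · exact ⟨⟨_, hd2K⟩, (hker _).2 (Or.inr (Or.inr (Or.inl rfl))), rfl⟩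
      obtain ⟨k', hk', e⟩ := hle h
      rwa [← Subtype.ext (show (k' : G) = k from e)]
  have hcen : ∀ k : ↥K, k ∈ Subgroup.center ↥K ↔ π k = 1 := by
    intro k
    constructor
    · intro hk
      have : π k ∈ Subgroup.center (Cfsg.PSU 6 F 2) := Subgroup.mem_center_iff.2 fun u => by
        obtain ⟨g, rfl⟩ := hsurj u
        rw [← map_mul, ← map_mul, Subgroup.mem_center_iff.1 hk g]
      rwa [TTLink.psu_center hF, Subgroup.mem_bot] at this
    · intro h
      refine Subgroup.mem_center_iff.2 fun g => Subtype.ext ?_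
      show (g : G) * k = k * g
      obtain ⟨e1, e2⟩ := memK.1 g.2
      rcases (hker k).1 h with e | e | e | e <;> rw [e]
      exacts [(Commute.one_right _).eq, e1.eq, e2.eq, (e2.mul_right e1).eq]
  have hiso : Nonempty (↥K ⧸ Subgroup.center ↥K ≃* Cfsg.PSU 6 F 2) := by
    have e : Subgroup.center ↥K = π.ker := Subgroup.ext fun k => (hcen k).trans MonoidHom.mem_ker.symm
    exact ⟨(QuotientGroup.quotientMulEquivOfEq e).trans
      (QuotientGroup.quotientKerEquivOfSurjective π hsurj)⟩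
  refine ⟨hKC, hidx, ?_, ⟨(Group.isPerfect_def).2 hperf, ?_⟩, ⟨F, i1, i2, hF, hiso⟩, ?_⟩
  · ext z
    constructor
    · rintro ⟨k, hk, rfl⟩
      exact (hkerV k).1 ((hcen k).1 hk)
    · intro hz
      have hle : V ≤ K := by
        rw [hV, Subgroup.closure_le]
        rintro y (rfl | rfl)
        exacts [hd1K, hd2K]
      exact ⟨⟨z, hle hz⟩, (hcen _).2 ((hkerV _).2 hz), rfl⟩
  · obtain ⟨e⟩ := hiso
    haveI := (TTLink.psu_six_two F hF).1
    exact e.isSimpleGroup_congr.2 inferInstance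
  -- the centre of the quotient
  refine (Subgroup.eq_bot_iff_forall _).2 fun x hx => ?_
  obtain ⟨c, rfl⟩ := QuotientGroup.mk_surjective x
  rw [QuotientGroup.eq_one_iff, Subgroup.mem_subgroupOf]
  have hcomm : ∀ k : ↥C, ((c * k * c⁻¹ * k⁻¹ : ↥C) : G) ∈ V := fun k => by
    have h := Subgroup.mem_center_iff.1 hx (QuotientGroup.mk k)
    rw [← Subgroup.mem_subgroupOf, ← QuotientGroup.eq_one_iff, QuotientGroup.mk_mul,
      QuotientGroup.mk_mul, QuotientGroup.mk_mul, QuotientGroup.mk_inv, QuotientGroup.mk_inv, ← h,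
      mul_inv_cancel_right, mul_inv_cancel]
  by_cases hcK : (c : G) ∈ K
  · refine (hkerV ⟨c, hcK⟩).1 ?_
    have : π ⟨c, hcK⟩ ∈ Subgroup.center (Cfsg.PSU 6 F 2) := Subgroup.mem_center_iff.2 fun u => by
      obtain ⟨g, rfl⟩ := hsurj u
      have h1 : π (⟨(c : G), hcK⟩ * g * ⟨(c : G), hcK⟩⁻¹ * g⁻¹) = 1 :=
        (hkerV _).2 (hcomm ⟨g, hKC g.2⟩)
      rw [map_mul, map_mul, map_mul, map_inv, map_inv, mul_inv_eq_one, mul_inv_eq_iff_eq_mul] at h1
      exact h1.symm
    rwa [TTLink.psu_center hF, Subgroup.mem_bot] at this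
  exfalso
  obtain ⟨e1, e2⟩ : ThreeTransp45.cj (c : G) d₁ = d₂ ∧ ThreeTransp45.cj (c : G) d₂ = d₁ :=
    (hperm c.2).resolve_left fun h => hcK (isK h.1 h.2)
  have hcy : ∀ y : ↥K, (y : G) ∈ ThreeTransp45.link D d₁ → (y : G) ≠ d₂ → Commute (c : G) y := by
    intro y hy hyne
    obtain ⟨y1, y2⟩ := memK.1 y.2
    have k2 := (ThreeTransp45.cj_commute_iff (c : G) _ _).2 y1
    rw [e1] at k2
    have k1 := (ThreeTransp45.cj_commute_iff (c : G) _ _).2 y2
    rw [e2] at k1
    have hmem : ThreeTransp45.cj (c : G) (y : G) ∈ K := memK.2 ⟨k1, k2⟩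
    have hlink : ThreeTransp45.cj (c : G) (y : G) ∈ ThreeTransp45.link D d₁ :=
      ⟨hDd.inv' _ _ hy.1, fun e => hyne (ThreeTransp45.cj_injective (c : G) (e.trans e2.symm)), k1.symm⟩
    have hne2 : ThreeTransp45.cj (c : G) (y : G) ≠ d₂ := fun e =>
      hy.2.1 (ThreeTransp45.cj_injective (c : G) (e.trans e1.symm))
    have h1 : π (⟨_, hmem⟩ * y⁻¹) = 1 := (hkerV _).2 (hcomm ⟨y, hKC y.2⟩)
    rw [map_mul, map_inv, mul_inv_eq_one] at h1
    exact (ThreeTransp45.cj_eq_self_iff _ _).1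
      (congrArg Subtype.val (hinjM ⟨_, hmem⟩ y hlink hne2 hy hyne h1))
  have hfix := (ThreeTransp45.cj_eq_self_iff (c : G) d₁).2 (hcd c hcy)
  exact hne (hfix.symm.trans e1)


end Cfsg.Agent.S5468
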