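import Cfsg.Statements.S5470
import Cfsg.Agent.TTLink.M22Count
import Cfsg.Agent.S5463
-- import your own Cfsg.Agent.* helpers here

set_option autoImplicit false
open Cfsg

namespace Cfsg.Agent.S5470

/-- Let G be a finite group with trivial centre generated by a conjugation-invariant set D of 3-transpositions on which it acts primitively, such that for some d in D the subgroup generated by the members of D other than d commuting with d has central largest normal 2- and 3-subgroups, and suppose G with D is of type M(22). Then the centralizer of a product of three distinct pairwise commuting members of D has order 2^16 · 3^3. -/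
theorem result {G : Type*} [Group G] [Finite G] {D : Set G} (hD : Cfsg.IsThreeTranspositionGroup D) (hprim : Cfsg.IsPrimitiveUnderConj D) (d₀ : G) (hd₀ : d₀ ∈ D) (h3 : Cfsg.pCore 3 ↥(Subgroup.closure {y : G | y ∈ D ∧ y ≠ d₀ ∧ Commute d₀ y}) ≤ Subgroup.center ↥(Subgroup.closure {y : G | y ∈ D ∧ y ≠ d₀ ∧ Commute d₀ y})) (h2 : Cfsg.pCore 2 ↥(Subgroup.closure {y : G | y ∈ D ∧ y ≠ d₀ ∧ Commute d₀ y}) ≤ Subgroup.center ↥(Subgroup.closure {y : G | y ∈ D ∧ y ≠ d₀ ∧ Commute d₀ y})) (h22 : Cfsg.IsOfTypeM22 G D) (d₁ d₂ d₃ : G) (h₁ : d₁ ∈ D) (h₂ : d₂ ∈ D) (h₃ : d₃ ∈ D) (h12 : d₁ ≠ d₂) (h13 : d₁ ≠ d₃) (h23 : d₂ ≠ d₃) (c12 : Commute d₁ d₂) (c13 : Commute d₁ d₃) (c23 : Commute d₂ d₃) : Nat.card ↥(Subgroup.centralizer ({d₁ * d₂ * d₃} : Set G)) = 2 ^ 16 * 3 ^ 3 := by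
  classical
  have P : TTLink.M22Prim D := ⟨hD, hprim, h22⟩
  have hDd := P.data
  set j := d₁ * d₂ * d₃ with hj
  have hl₀ : TTLink.Fac D [d₁, d₂, d₃] := ⟨by simp [h12, h13, h23], by simp [h₁, h₂, h₃],
    by simp [c12, c13, c23, c12.symm, c13.symm, c23.symm]⟩
  obtain ⟨l₁, l₂, ⟨n1, e1, m1, k1, p1⟩, ⟨n2, e2, m2, k2, p2⟩, hdiff, hall⟩ :=
    (S5463.result hD hprim d₀ hd₀ h3 h2 h22).2 j [d₁, d₂, d₃]
      ⟨hl₀.nodup, rfl, hl₀.mem, hl₀.comm, by simp [hj, mul_assoc]⟩
  obtain ⟨a, b, c, rfl⟩ := List.length_eq_three.1 e1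
  obtain ⟨a', b', c', rfl⟩ := List.length_eq_three.1 e2
  let P6 : G → G → G → Finset (G × G × G) := fun a b c =>
    {(a, b, c), (a, c, b), (b, a, c), (b, c, a), (c, a, b), (c, b, a)}
  let T : Set (G × G × G) := {t | TTLink.Fac D [t.1, t.2.1, t.2.2] ∧ [t.1, t.2.1, t.2.2].prod = j}
  have inP : ∀ {x y z : G} {t : G × G × G}, [x, y, z].Nodup → [t.1, t.2.1, t.2.2].Nodup →
      ((∀ w, w ∈ [t.1, t.2.1, t.2.2] ↔ w ∈ [x, y, z]) ↔ t ∈ P6 x y z) := by
    intro x y z ⟨p, q, r⟩ hn hn'
    constructor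
    · intro h
      have hp := (h p).1 (by simp)
      have hq := (h q).1 (by simp)
      have hr := (h r).1 (by simp)
      simp only [List.mem_cons, List.not_mem_nil, or_false] at hp hq hr
      simp only [P6, Finset.mem_insert, Finset.mem_singleton, Prod.mk.injEq]
      simp at hn hn'
      grind
    · intro h w
      simp only [P6, Finset.mem_insert, Finset.mem_singleton, Prod.mk.injEq] at h
      rcases h with ⟨rfl, rfl, rfl⟩ | ⟨rfl, rfl, rfl⟩ | ⟨rfl, rfl, rfl⟩ | ⟨rfl, rfl, rfl⟩ | ⟨rfl, rfl, rfl⟩ |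
        ⟨rfl, rfl, rfl⟩ <;> simp [List.mem_cons] <;> tauto
  have mkT : ∀ {x y z : G} {t : G × G × G}, [x, y, z].Nodup → (∀ w ∈ [x, y, z], w ∈ D) →
      (∀ u ∈ [x, y, z], ∀ v ∈ [x, y, z], Commute u v) → [x, y, z].prod = j → t ∈ P6 x y z → t ∈ T := by
    intro x y z t hn hm hc hp ht
    have hperm : List.Perm [t.1, t.2.1, t.2.2] [x, y, z] := by
      simp only [P6, Finset.mem_insert, Finset.mem_singleton] at ht
      rcases ht with rfl | rfl | rfl | rfl | rfl | rfl
      · exact List.Perm.refl _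
      · exact (List.Perm.swap y z []).cons x
      · exact List.Perm.swap x y [z]
      · exact ((List.Perm.swap x z []).cons y).trans (List.Perm.swap x y [z])
      · exact (List.Perm.swap x z [y]).trans ((List.Perm.swap y z []).cons x)
      · exact ((List.Perm.swap x y []).cons z).trans
          ((List.Perm.swap x z [y]).trans ((List.Perm.swap y z []).cons x))
    have hf : TTLink.Fac D [t.1, t.2.1, t.2.2] := ⟨hperm.nodup_iff.2 hn,
      fun w hw => hm w (hperm.mem_iff.1 hw),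
      fun u hu v hv => hc u (hperm.mem_iff.1 hu) v (hperm.mem_iff.1 hv)⟩
    exact ⟨hf, (TTLink.fac_perm_prod hf.comm hperm).trans hp⟩
  have hT : T = ↑(P6 a b c ∪ P6 a' b' c') := by
    ext t
    rw [Finset.coe_union, Set.mem_union, Finset.mem_coe, Finset.mem_coe]
    constructor
    · rintro ⟨hf, hp⟩
      exact (hall _ ⟨hf.nodup, rfl, hf.mem, hf.comm, hp⟩).imp (inP n1 hf.nodup).1 (inP n2 hf.nodup).1
    · rintro (h | h)
      exacts [mkT n1 m1 k1 p1 h, mkT n2 m2 k2 p2 h]
  have card6 : ∀ {x y z : G}, [x, y, z].Nodup → (P6 x y z).card = 6 := by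
    intro x y z hn
    simp at hn
    simp [P6, hn.1.1, hn.1.2, hn.2, Ne.symm hn.1.1, Ne.symm hn.1.2, Ne.symm hn.2]
  have hT12 : T.ncard = 12 := by
    rw [hT, Set.ncard_coe_finset, Finset.card_union_of_disjoint, card6 n1, card6 n2]
    rw [Finset.disjoint_left]
    intro t ht ht'
    have hn := (mkT n1 m1 k1 p1 ht).1.nodup
    exact hdiff fun w => ((inP n1 hn).2 ht w).symm.trans ((inP n2 hn).2 ht' w)
  have hj₀ : [d₁, d₂, d₃].prod = j := by simp [hj, mul_assoc]
  have key := TTLink.card_triples (C := Subgroup.centralizer ({j} : Set G)) T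
    (fun g hg t ht => ⟨⟨by simpa using ht.1.nodup.map (ThreeTransp45.cj_injective g),
        fun z hz => by
          obtain ⟨w, hw, rfl⟩ := List.mem_map.1
            (show z ∈ [t.1, t.2.1, t.2.2].map (ThreeTransp45.cj g) by simpa using hz)
          exact hDd.inv' g w (ht.1.mem w hw),
        fun z hz z' hz' => by
          obtain ⟨w, hw, rfl⟩ := List.mem_map.1
            (show z ∈ [t.1, t.2.1, t.2.2].map (ThreeTransp45.cj g) by simpa using hz)
          obtain ⟨w', hw', rfl⟩ := List.mem_map.1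
            (show z' ∈ [t.1, t.2.1, t.2.2].map (ThreeTransp45.cj g) by simpa using hz')
          exact (ThreeTransp45.cj_commute_iff g w w').2 (ht.1.comm w hw w' hw')⟩, by
      have := ht.2
      simp only [List.prod_cons, List.prod_nil, mul_one] at this ⊢
      rw [← ThreeTransp45.cj_map_mul, ← ThreeTransp45.cj_map_mul, this]
      exact (ThreeTransp45.cj_eq_self_iff g j).2 (Subgroup.mem_centralizer_singleton_iff.1 hg)⟩)
    (a := d₁) (b := d₂) (c := d₃) ⟨hl₀, hj₀⟩
    (fun t ht => by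
      obtain ⟨g, f1, f2, f3⟩ := P.triples hl₀ ht.1
      refine ⟨g, Subgroup.mem_centralizer_singleton_iff.2 ((ThreeTransp45.cj_eq_self_iff g j).1 ?_).eq,
        Prod.ext f1 (Prod.ext f2 f3)⟩
      rw [hj, ThreeTransp45.cj_map_mul, ThreeTransp45.cj_map_mul, f1, f2, f3]
      simpa [hj, mul_assoc] using ht.2)
    (fun g hg => by
      rw [Subgroup.mem_centralizer_iff] at hg
      rw [Subgroup.mem_centralizer_singleton_iff]
      have e1 : Commute g d₁ := (hg d₁ (by simp)).symm
      have e2 : Commute g d₂ := (hg d₂ (by simp)).symm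
      have e3 : Commute g d₃ := (hg d₃ (by simp)).symm
      exact ((e1.mul_right e2).mul_right e3).eq)
  rw [hT12, P.triple_card hl₀] at key
  rw [key]
  norm_num


end Cfsg.Agent.S5470
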