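import Cfsg.Statements.S5471
import Cfsg.Agent.TTLink.M23Classes
-- import your own Cfsg.Agent.* helpers here

set_option autoImplicit false
open Cfsg

namespace Cfsg.Agent.S5471

/-- Let G be a finite group with trivial centre generated by a conjugation-invariant set D of 3-transpositions on which it acts primitively, such that for some d in D the subgroup generated by the members of D other than d commuting with d has central largest normal 2- and 3-subgroups, and suppose G with D is of type M(23). Let d₁, d₂, d₃ be distinct pairwise commuting members of D and j their product. Then the joint centralizer of d₁, d₂, d₃ is normal in the centralizer of j with quotient isomorphic to the symmetric group of degree 3. -/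
theorem result {G : Type*} [Group G] [Finite G] {D : Set G} (hD : Cfsg.IsThreeTranspositionGroup D) (hprim : Cfsg.IsPrimitiveUnderConj D) (d₀ : G) (hd₀ : d₀ ∈ D) (h3 : Cfsg.pCore 3 ↥(Subgroup.closure {y : G | y ∈ D ∧ y ≠ d₀ ∧ Commute d₀ y}) ≤ Subgroup.center ↥(Subgroup.closure {y : G | y ∈ D ∧ y ≠ d₀ ∧ Commute d₀ y})) (h2 : Cfsg.pCore 2 ↥(Subgroup.closure {y : G | y ∈ D ∧ y ≠ d₀ ∧ Commute d₀ y}) ≤ Subgroup.center ↥(Subgroup.closure {y : G | y ∈ D ∧ y ≠ d₀ ∧ Commute d₀ y})) (h23 : Cfsg.IsOfTypeM23 G D) (d₁ d₂ d₃ : G) (h₁ : d₁ ∈ D) (h₂ : d₂ ∈ D) (h₃ : d₃ ∈ D) (h12 : d₁ ≠ d₂) (h13 : d₁ ≠ d₃) (h23 : d₂ ≠ d₃) (c12 : Commute d₁ d₂) (c13 : Commute d₁ d₃) (c23 : Commute d₂ d₃) (K C : Subgroup G) (hK : K = Subgroup.centralizer ({d₁, d₂, d₃} : Set G)) (hC : C = Subgroup.centralizer ({d₁ * d₂ * d₃} : Set G)) : K ≤ C ∧ ∃ _ : (K.subgroupOf C).Normal, Nonempty (↥C ⧸ K.subgroupOf C ≃* Equiv.Perm (Fin 3)) := by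
  classical
  have P : TTLink.M23Prim D := ⟨hD, hprim, by assumption⟩
  have hDd := P.data
  have ne23 : d₂ ≠ d₃ := by assumption
  let f : Fin 3 → G := ![d₁, d₂, d₃]
  have hf : Function.Injective f := by
    intro i j h
    fin_cases i <;> fin_cases j <;> simp [f] at h ⊢ <;>
      first | exact absurd h h12 | exact absurd h h13 | exact absurd h ne23 | exact absurd h.symm h12
            | exact absurd h.symm h13 | exact absurd h.symm ne23
  have hfc : ∀ i j, Commute (f i) (f j) := by
    intro i j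
    fin_cases i <;> fin_cases j <;> simp [f, c12, c13, c23, c12.symm, c13.symm, c23.symm]
  have hfm : ∀ i, f i ∈ D := by
    intro i; fin_cases i <;> simp [f, h₁, h₂, h₃]
  have hfac : ∀ σ : Equiv.Perm (Fin 3), TTLink.Fac D [f (σ 0), f (σ 1), f (σ 2)] := fun σ =>
    ⟨by simp [(hf.comp σ.injective).eq_iff, hf.eq_iff, σ.injective.eq_iff],
      by intro a ha; simp only [List.mem_cons, List.not_mem_nil, or_false] at ha
         rcases ha with rfl | rfl | rfl <;> exact hfm _,
      by intro a ha b hb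
         simp only [List.mem_cons, List.not_mem_nil, or_false] at ha hb
         rcases ha with rfl | rfl | rfl <;> rcases hb with rfl | rfl | rfl <;> exact hfc _ _⟩
  have hlist : [d₁, d₂, d₃] = [f 0, f 1, f 2] := rfl
  have hd : d₁ * d₂ * d₃ = [f 0, f 1, f 2].prod := by simp [f, mul_assoc]
  have memK : ∀ {k : G}, k ∈ K ↔ ∀ i, Commute k (f i) := by
    intro k
    rw [hK, Subgroup.mem_centralizer_iff]
    constructor
    · intro h i
      fin_cases i
      exacts [(h d₁ (Or.inl rfl)).symm, (h d₂ (Or.inr (Or.inl rfl))).symm,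
        (h d₃ (Or.inr (Or.inr rfl))).symm]
    · rintro h z (rfl | rfl | rfl)
      exacts [(h 0).eq.symm, (h 1).eq.symm, (h 2).eq.symm]
  have memC : ∀ {k : G}, k ∈ C ↔ Commute k (d₁ * d₂ * d₃) := by
    intro k
    rw [hC, Subgroup.mem_centralizer_singleton_iff]
    exact Iff.rfl
  have hperm : ∀ c : ↥C, ∀ i, ∃ k, ThreeTransp45.cj (c : G) (f i) = f k := by
    intro c i
    have e := TTLink.factors_unique hDd 3 le_rfl
      (fun k h1 h2 => by
        rcases (show k = 1 ∨ k = 2 ∨ k = 3 by omega) with rfl | rfl | rfl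
        exacts [P.indeps 2 (by norm_num) (by norm_num), P.indeps 4 (by norm_num) (by norm_num),
          P.indep_six])
      ([f 0, f 1, f 2].map (ThreeTransp45.cj (c : G))) [f 0, f 1, f 2]
      (TTLink.fac_map hDd _ (hfac 1)) (hfac 1) (by simp) rfl
      (by rw [← TTLink.cj_list_prod, ← hd]; exact (ThreeTransp45.cj_eq_self_iff _ _).2 (memC.1 c.2))
      (ThreeTransp45.cj (c : G) (f i))
    have h := e.1 (List.mem_map_of_mem (by fin_cases i <;> simp))
    simp only [List.mem_cons, List.not_mem_nil, or_false] at h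
    rcases h with h | h | h
    exacts [⟨0, h⟩, ⟨1, h⟩, ⟨2, h⟩]
  choose p hp using hperm
  have hp_inj : ∀ c : ↥C, Function.Injective (p c) := fun c i k h =>
    hf (ThreeTransp45.cj_injective (c : G) (by rw [hp, hp, h]))
  let φ : ↥C →* Equiv.Perm (Fin 3) :=
    MonoidHom.mk' (fun c => Equiv.ofBijective (p c) (Finite.injective_iff_bijective.1 (hp_inj c)))
      fun c c' => Equiv.ext fun i => by
        refine hf ?_
        show f (p (c * c') i) = f (p c (p c' i))
        rw [← hp, ← hp, Subgroup.coe_mul, ThreeTransp45.cj_mul, hp c' i]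
  have hφ : ∀ (c : ↥C) (i : Fin 3), ThreeTransp45.cj (c : G) (f i) = f (φ c i) := fun c i => hp c i
  have hKC : K ≤ C := fun k hk => memC.2 (((memK.1 hk 0).mul_right (memK.1 hk 1)).mul_right (memK.1 hk 2))
  have hker : K.subgroupOf C = φ.ker := by
    ext c
    rw [Subgroup.mem_subgroupOf, memK, MonoidHom.mem_ker]
    constructor
    · intro h
      refine Equiv.ext fun i => hf ?_
      rw [Equiv.Perm.one_apply, ← hφ]
      exact (ThreeTransp45.cj_eq_self_iff _ _).2 (h i)
    · intro h i
      refine (ThreeTransp45.cj_eq_self_iff _ _).1 ?_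
      rw [hφ, h, Equiv.Perm.one_apply]
  have hsurj : Function.Surjective φ := by
    intro σ
    obtain ⟨g, g0, g1, g2⟩ := P.triples (hfac 1) (hfac σ)
    have hg : g ∈ C := memC.2 ((ThreeTransp45.cj_eq_self_iff _ _).1 (by
      rw [hd, TTLink.cj_list_prod]
      show [ThreeTransp45.cj g (f ((1 : Equiv.Perm (Fin 3)) 0)), ThreeTransp45.cj g (f ((1 : Equiv.Perm (Fin 3)) 1)),
        ThreeTransp45.cj g (f ((1 : Equiv.Perm (Fin 3)) 2))].prod = _
      rw [g0, g1, g2]
      have hpm : List.Perm [f (σ 0), f (σ 1), f (σ 2)] [f 0, f 1, f 2] := by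
        have := (Equiv.Perm.map_finRange_perm σ).map f
        simpa [show List.finRange 3 = [0, 1, 2] from rfl] using this
      exact hpm.prod_eq' (List.pairwise_of_forall_mem_list fun a ha b hb => (hfac σ).comm a ha b hb)))
    refine ⟨⟨g, hg⟩, Equiv.ext fun i => hf ?_⟩
    rw [← hφ]
    fin_cases i
    exacts [g0, g1, g2]
  haveI hn : (K.subgroupOf C).Normal := hker ▸ inferInstance
  exact ⟨hKC, hn, ⟨(QuotientGroup.quotientMulEquivOfEq hker).trans
    (QuotientGroup.quotientKerEquivOfSurjective φ hsurj)⟩⟩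

end Cfsg.Agent.S5471
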