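import Cfsg.Statements.S5514
import Cfsg.Agent.OmegaSevenThree.Classes

set_option autoImplicit false
open Cfsg

namespace Cfsg.Agent.S5514

open Cfsg.Agent.O73 in
/-- The quotient map onto the simple group is bijective. -/
theorem mk_bijective :
    Function.Bijective (QuotientGroup.mk' (Subgroup.center
      ↥(Cfsg.Omega (ZMod 3) (Cfsg.quadFormOdd 3 (ZMod 3))))) := by
  refine ⟨(injective_iff_map_eq_one _).2 fun x hx => ?_, QuotientGroup.mk'_surjective _⟩
  have := (QuotientGroup.eq_one_iff x).1 hx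
  rw [Cfsg.Agent.RecogA.center_Omega_odd_eq_bot (by decide) (by decide)] at this
  exact this

/-- Generators of equal cyclic subgroups of order three. -/
theorem eq_or_inv {G : Type*} [Group G] {a b : G} (hb : b ^ 3 = 1) (ha : a ≠ 1)
    (h : a ∈ Subgroup.zpowers b) : a = b ∨ a = b⁻¹ := by
  obtain ⟨z, rfl⟩ := Subgroup.mem_zpowers_iff.1 h
  have hz : b ^ z = b ^ (z % 3) := by
    conv_lhs => rw [← Int.mul_ediv_add_emod z 3]
    rw [zpow_add, zpow_mul, zpow_ofNat, hb, one_zpow, one_mul]
  rw [hz] at ha ⊢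
  have h1 := Int.emod_nonneg z (by decide : (3 : ℤ) ≠ 0)
  have h2 := Int.emod_lt_of_pos z (by decide : (0 : ℤ) < 3)
  obtain e | e | e : z % 3 = 0 ∨ z % 3 = 1 ∨ z % 3 = 2 := by omega
  all_goals rw [e] at ha ⊢
  · exact absurd (zpow_zero b) ha
  · left; exact zpow_one b
  · right
    rw [zpow_ofNat]
    exact eq_inv_of_mul_eq_one_left (by rw [← pow_succ, hb])

/-- The commutator subgroup of the isometry group of a non-degenerate 7-dimensional quadratic form over the field with three elements, modulo its (trivial) centre — the simple group Ω(7, 3) — has exactly seven conjugacy classes of subgroups of order 3. -/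
theorem result : ∃ Y : Fin 7 → Subgroup (Cfsg.POmega (ZMod 3) (Cfsg.quadFormOdd 3 (ZMod 3))), (∀ i, Nat.card (Y i) = 3) ∧ (∀ i j, (∃ g : Cfsg.POmega (ZMod 3) (Cfsg.quadFormOdd 3 (ZMod 3)), (Y i).map (MulAut.conj g).toMonoidHom = Y j) → i = j) ∧ (∀ X : Subgroup (Cfsg.POmega (ZMod 3) (Cfsg.quadFormOdd 3 (ZMod 3))), Nat.card X = 3 → ∃ i, ∃ g : Cfsg.POmega (ZMod 3) (Cfsg.quadFormOdd 3 (ZMod 3)), X.map (MulAut.conj g).toMonoidHom = Y i) := by
  classical
  let e := MulEquiv.ofBijective _ mk_bijective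
  let r : Fin 7 → ↥(Cfsg.Omega (ZMod 3) (Cfsg.quadFormOdd 3 (ZMod 3))) := fun i =>
    ⟨O73.sevenEl i, O73.mem_omega.2 (O73.theta_sevenEl i)⟩
  have hr : ∀ i, orderOf (r i) = 3 := fun i => by
    rw [← Subgroup.orderOf_coe]; exact O73.sevenEl_order i
  refine ⟨fun i => Subgroup.zpowers (e (r i)), fun i => ?_, fun i j ⟨g, hg⟩ => ?_, fun X hX => ?_⟩
  · rw [Nat.card_zpowers, MulEquiv.orderOf_eq, hr]
  · obtain ⟨w, rfl⟩ := e.surjective g
    simp only [MonoidHom.map_zpowers] at hg
    have hmem : e (w * r i * w⁻¹) ∈ Subgroup.zpowers (e (r j)) := by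
      rw [← hg, map_mul, map_mul, map_inv]
      exact Subgroup.mem_zpowers _
    have hne : e (w * r i * w⁻¹) ≠ 1 := fun h => by
      have h1 := orderOf_eq_one_iff.2 (show r i = 1 by
        rw [← map_one e, e.injective.eq_iff, conj_eq_one_iff] at h; exact h)
      rw [hr] at h1
      omega
    refine O73.seven_distinct (O73.mem_omega.1 w.2) ?_
    have hc : (e (r j)) ^ 3 = 1 := by
      have h := congrArg e (pow_orderOf_eq_one (r j))
      rwa [hr, map_pow, map_one] at h
    rcases eq_or_inv hc hne hmem with h | h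
    · exact Or.inl (congrArg Subtype.val (e.injective h))
    · rw [← map_inv] at h
      exact Or.inr (congrArg Subtype.val (e.injective h))
  · haveI : Fact (Nat.Prime 3) := ⟨Nat.prime_three⟩
    obtain ⟨x', hx', hx1⟩ : ∃ x ∈ X, x ≠ 1 := by
      refine (Subgroup.nontrivial_iff_exists_ne_one _).1 ?_
      exact Finite.one_lt_card_iff_nontrivial.1 (by omega)
    obtain ⟨x, rfl⟩ := e.surjective x'
    have hord : orderOf (e x) = 3 := by
      have hd : orderOf (e x) ∣ 3 := (Subgroup.orderOf_dvd_natCard X hx').trans (dvd_of_eq hX)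
      exact ((Nat.dvd_prime Nat.prime_three).1 hd).resolve_left fun h =>
        hx1 (orderOf_eq_one_iff.1 h)
    rw [MulEquiv.orderOf_eq] at hord
    have hXeq : X = Subgroup.zpowers (e x) := by
      haveI : Finite X := Nat.finite_of_card_ne_zero (by omega)
      exact (Subgroup.eq_of_le_of_card_ge (Subgroup.zpowers_le.2 hx')
        (by rw [Nat.card_zpowers, MulEquiv.orderOf_eq, hord, hX])).symm
    obtain ⟨i, w, hw, hxe⟩ := O73.exists_conj_seven (x := (x : O73.OG))
      (by
        have h := pow_orderOf_eq_one x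
        rw [hord] at h
        exact congrArg Subtype.val h)
      (fun h => hx1 (by rw [show x = 1 from Subtype.ext h, map_one]))
    refine ⟨i, e (⟨w, O73.mem_omega.2 hw⟩⁻¹), ?_⟩
    rw [hXeq, MonoidHom.map_zpowers]
    congr 1
    rw [MulEquiv.coe_toMonoidHom, MulAut.conj_apply, ← map_inv, ← map_mul, ← map_mul]
    congr 1
    apply Subtype.ext
    show w⁻¹ * (x : O73.OG) * w⁻¹⁻¹ = O73.sevenEl i
    rw [hxe]; group

end Cfsg.Agent.S5514
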