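import Cfsg.Statements.S5515
import Cfsg.Agent.ExtUnique.OutSymFour
import Cfsg.Agent.Components.FStar
import Cfsg.Agent.S0296
import Cfsg.Agent.S1082
import Cfsg.Agent.ExtUnique.D4Three

set_option autoImplicit false
open Cfsg

namespace Cfsg.Agent.S5515

/-- The abstract form, for any simple group `T` isomorphic to `P` with `Out T ≅ S₄`. -/
theorem unique_of_out {P T : Type*} [Group P] [Group T] [IsSimpleGroup P]
    (o : Nonempty (Cfsg.Out T ≃* Equiv.Perm (Fin 4))) (i : Nonempty (T ≃* P))
    {G G' : Type*} [Group G] [Finite G] [Group G'] [Finite G'] {N : Subgroup G} [N.Normal]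
    {N' : Subgroup G'} [N'.Normal] (e : N ≃* P) (e' : N' ≃* P)
    (hC : Subgroup.centralizer (N : Set G) ≤ N) (hC' : Subgroup.centralizer (N' : Set G') ≤ N')
    (hi : N.index = 6) (hi' : N'.index = 6) : Nonempty (G ≃* G') := by
  obtain ⟨o⟩ := o
  obtain ⟨i⟩ := i
  haveI : IsSimpleGroup T := i.isSimpleGroup
  haveI : Finite T := Finite.of_equiv _ (e.trans i.symm).toEquiv
  exact Cfsg.Agent.ExtUnique.extension_unique o (e.trans i.symm) (e'.trans i.symm) hC hC' hi hi'

/-- Let G and G′ be finite groups whose generalized Fitting subgroups are isomorphic to PΩ⁺(8, 3) (the commutator subgroup of the isometry group of the hyperbolic quadratic form in dimension 8 over the field with three elements, modulo its centre) with quotients isomorphic to the symmetric group of degree 3. Then G and G′ are isomorphic. -/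
theorem result {G G' : Type*} [Group G] [Finite G] [Group G'] [Finite G'] (hF : Nonempty (↥(Cfsg.generalizedFittingSubgroup G) ≃* Cfsg.POmega (ZMod 3) (Cfsg.quadFormPlus 4 (ZMod 3)))) (hF' : Nonempty (↥(Cfsg.generalizedFittingSubgroup G') ≃* Cfsg.POmega (ZMod 3) (Cfsg.quadFormPlus 4 (ZMod 3)))) [hn : (Cfsg.generalizedFittingSubgroup G).Normal] [hn' : (Cfsg.generalizedFittingSubgroup G').Normal] (hq : Nonempty (G ⧸ Cfsg.generalizedFittingSubgroup G ≃* Equiv.Perm (Fin 3))) (hq' : Nonempty (G' ⧸ Cfsg.generalizedFittingSubgroup G' ≃* Equiv.Perm (Fin 3))) : Nonempty (G ≃* G') := by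
  obtain ⟨e⟩ := hF
  obtain ⟨e'⟩ := hF'
  obtain ⟨q⟩ := hq
  obtain ⟨q'⟩ := hq'
  haveI : IsSimpleGroup (Cfsg.POmega (ZMod 3) (Cfsg.quadFormPlus 4 (ZMod 3))) :=
    Cfsg.Agent.S0296.result 4 le_rfl
  have h6 : Nat.card (Equiv.Perm (Fin 3)) = 6 := by
    rw [Nat.card_eq_fintype_card, Fintype.card_perm, Fintype.card_fin]; rfl
  have hi : (Cfsg.generalizedFittingSubgroup G).index = 6 := by
    rw [Subgroup.index_eq_card, Nat.card_congr q.toEquiv, h6]
  have hi' : (Cfsg.generalizedFittingSubgroup G').index = 6 := by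
    rw [Subgroup.index_eq_card, Nat.card_congr q'.toEquiv, h6]
  exact unique_of_out Cfsg.Agent.ExtUnique.out_D4_three (Cfsg.Agent.S1082.result (F := ZMod 3)) e e'
    Cfsg.Agent.Components.centralizer_genFitting_le Cfsg.Agent.Components.centralizer_genFitting_le
    hi hi'

end Cfsg.Agent.S5515
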