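import Cfsg.Statements.S5516
import Cfsg.Agent.Components.FStar
import Cfsg.Agent.S1082
import Cfsg.Agent.OmegaEightThree.Orbits

set_option autoImplicit false
open Cfsg

namespace Cfsg.Agent.S5516

/-- PΩ⁺(8, 3) (the commutator subgroup of the isometry group of the hyperbolic quadratic form in dimension 8 over the field with three elements, modulo its centre) has exactly 13 conjugacy classes of subgroups of order 3; and a finite group G whose generalized Fitting subgroup L is isomorphic to PΩ⁺(8, 3) with G/L the symmetric group of degree 3 has exactly 7 orbits, under conjugation, on the subgroups of L of order 3. -/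
theorem result {G : Type*} [Group G] [Finite G] (L : Subgroup G) (hL : L = Cfsg.generalizedFittingSubgroup G) (hF : Nonempty (↥L ≃* Cfsg.POmega (ZMod 3) (Cfsg.quadFormPlus 4 (ZMod 3)))) [hn : L.Normal] (hq : Nonempty (G ⧸ L ≃* Equiv.Perm (Fin 3))) : (∃ Y : Fin 13 → Subgroup (Cfsg.POmega (ZMod 3) (Cfsg.quadFormPlus 4 (ZMod 3))), (∀ i, Nat.card (Y i) = 3) ∧ (∀ i j, (∃ g : Cfsg.POmega (ZMod 3) (Cfsg.quadFormPlus 4 (ZMod 3)), (Y i).map (MulAut.conj g).toMonoidHom = Y j) → i = j) ∧ (∀ X : Subgroup (Cfsg.POmega (ZMod 3) (Cfsg.quadFormPlus 4 (ZMod 3))), Nat.card X = 3 → ∃ i, ∃ g : Cfsg.POmega (ZMod 3) (Cfsg.quadFormPlus 4 (ZMod 3)), X.map (MulAut.conj g).toMonoidHom = Y i)) ∧ ∃ Y : Fin 7 → Subgroup G, (∀ i, Y i ≤ L ∧ Nat.card (Y i) = 3) ∧ (∀ i j, (∃ g : G, (Y i).map (MulAut.conj g).toMonoidHom = Y j) → i = j) ∧ ∀ X : Subgroup G, X ≤ L → Nat.card X = 3 → ∃ i, ∃ g : G, X.map (MulAut.conj g).toMonoidHom = Y i := by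
  obtain ⟨q⟩ := hq
  have hi : L.index = 6 := by
    rw [Subgroup.index_eq_card, Nat.card_congr q.toEquiv, Nat.card_eq_fintype_card, Fintype.card_perm,
      Fintype.card_fin]
    rfl
  have hC : Subgroup.centralizer (L : Set G) ≤ L := by
    subst hL
    exact Cfsg.Agent.Components.centralizer_genFitting_le
  have k13 := @Cfsg.Agent.O83.thirteen (Cfsg.POmega (ZMod 3) (Cfsg.quadFormPlus 4 (ZMod 3))) _
  have k7a := @Cfsg.Agent.O83.seven G _ _ L _
  have k7 := fun e => k7a e hC hi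
  have i := Cfsg.Agent.S1082.result (F := ZMod 3)
  have z : Nonempty (Cfsg.Agent.O83.D4T ≃* Cfsg.POmega (ZMod 3) (Cfsg.quadFormPlus 4 (ZMod 3))) := i
  obtain ⟨f⟩ := z
  obtain ⟨e⟩ := hF
  refine ⟨k13 f, ?_⟩
  have e' : L ≃* Cfsg.Agent.O83.D4T := e.trans f.symm
  exact k7 e'

end Cfsg.Agent.S5516
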