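import Cfsg.Statements.S5517
import Cfsg.Agent.H77.Y332Iso
import Cfsg.Agent.S1685
import Cfsg.Agent.S1686

set_option autoImplicit false
open Cfsg

namespace Cfsg.Agent.S5517

open Cfsg.Spor in
/-- The generators of Fi22 are conjugate. -/
theorem gen_conj (x : Cfsg.Spor.Fi22.Gen) :
    (PresentedGroup.of x : Cfsg.Spor.Fi22) ∈ conjugatesOf (PresentedGroup.of Cfsg.Spor.Fi22.Gen.a) := by
  have rel : ∀ y z : Cfsg.Spor.Fi22.Gen,
      ((PresentedGroup.of y : Cfsg.Spor.Fi22) * PresentedGroup.of z) ^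
        coxLabel Cfsg.Spor.Fi22.edges y z = 1 := by
    intro y z
    have hn : ∀ y : Cfsg.Spor.Fi22.Gen, y ∈ coxNodes Cfsg.Spor.Fi22.edges := by
      intro y; cases y <;> decide
    have h := PresentedGroup.one_of_mem (rels := coxRelators Cfsg.Spor.Fi22.edges ∪
      {r | r ∈ Cfsg.Spor.Fi22.extra}) (Or.inl ⟨y, hn y, z, hn z, rfl⟩)
    rwa [map_pow, map_mul] at h
  have step : ∀ y z : Cfsg.Spor.Fi22.Gen, coxLabel Cfsg.Spor.Fi22.edges y z = 3 →
      IsConj (PresentedGroup.of y : Cfsg.Spor.Fi22) (PresentedGroup.of z) := by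
    intro y z h
    have h3 := rel y z
    rw [h] at h3
    have hy := rel y y
    have hz := rel z z
    rw [show coxLabel Cfsg.Spor.Fi22.edges y y = 1 from if_pos rfl, pow_one] at hy
    rw [show coxLabel Cfsg.Spor.Fi22.edges z z = 1 from if_pos rfl, pow_one] at hz
    generalize (PresentedGroup.of y : Cfsg.Spor.Fi22) = u at *
    generalize (PresentedGroup.of z : Cfsg.Spor.Fi22) = v at *
    have hu := inv_eq_of_mul_eq_one_right hy
    have hv := inv_eq_of_mul_eq_one_right hz
    refine isConj_iff.2 ⟨u * v, ?_⟩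
    rw [mul_inv_rev, hu, hv]
    have hb : u * v * u = v * u * v := by
      have h4 : u * v * u * (v * (u * v)) = 1 := by
        rw [← h3, pow_succ, pow_two]; group
      rw [eq_inv_of_mul_eq_one_left h4, mul_inv_rev, mul_inv_rev, hu, hv]
    calc u * v * u * (v * u) = v * u * v * (v * u) := by rw [hb]
      _ = v * u * (v * v) * u := by group
      _ = v * (u * u) := by rw [hz, mul_one, mul_assoc]
      _ = v := by rw [hy, mul_one]
  show IsConj (PresentedGroup.of Cfsg.Spor.Fi22.Gen.a : Cfsg.Spor.Fi22) _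
  have ab := step .a .b (by decide)
  have ac := ab.trans (step .b .c (by decide))
  have ad := ac.trans (step .c .d (by decide))
  have ae := ad.trans (step .d .e (by decide))
  have af := ae.trans (step .e .f (by decide))
  have ah := ad.trans (step .d .h (by decide))
  cases x
  exacts [IsConj.refl _, ab, ac, ad, ae, af, af.trans (step .f .g (by decide)), ah,
    ah.trans (step .h .i (by decide))]

/-- Let G be a finite group with trivial centre generated by a conjugation-invariant set D of 3-transpositions on which it acts primitively, such that for some d in D the subgroup generated by the members of D other than d commuting with d has central largest normal 2- and 3-subgroups, and suppose G with D is of type M(22). Then G has a subgroup L generated by the members of D it contains and isomorphic to Ω(7, 3) (the commutator subgroup of the isometry group of a non-degenerate 7-dimensional quadratic form over the field with three elements, modulo its centre), and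 every Sylow 3-subgroup of L is a Sylow 3-subgroup of G. -/
theorem result {G : Type*} [Group G] [Finite G] {D : Set G} (hD : Cfsg.IsThreeTranspositionGroup D) (hprim : Cfsg.IsPrimitiveUnderConj D) (d₀ : G) (hd₀ : d₀ ∈ D) (h3 : Cfsg.pCore 3 ↥(Subgroup.closure {y : G | y ∈ D ∧ y ≠ d₀ ∧ Commute d₀ y}) ≤ Subgroup.center ↥(Subgroup.closure {y : G | y ∈ D ∧ y ≠ d₀ ∧ Commute d₀ y})) (h2 : Cfsg.pCore 2 ↥(Subgroup.closure {y : G | y ∈ D ∧ y ≠ d₀ ∧ Commute d₀ y}) ≤ Subgroup.center ↥(Subgroup.closure {y : G | y ∈ D ∧ y ≠ d₀ ∧ Commute d₀ y})) (h22 : Cfsg.IsOfTypeM22 G D) : ∃ L : Subgroup G, Cfsg.IsDSubgroup D L ∧ Nonempty (↥L ≃* Cfsg.POmega (ZMod 3) (Cfsg.quadFormOdd 3 (ZMod 3))) ∧ ∀ P : Sylow 3 ↥L, ∃ P' : Sylow 3 G, (P : Subgroup ↥L).map L.subtype = (P' : Subgroup G) := by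
  obtain ⟨φ, hφ⟩ := H77.iso_fi22 (⟨hD, hprim, h22⟩ : TTLink.M22Prim D)
  have hi := S1685.result
  obtain ⟨ψ⟩ := S1686.result
  set H : Subgroup Cfsg.Spor.Fi22 :=
    (Subgroup.closure ({Cfsg.Spor.Fi22.b, Cfsg.Spor.Fi22.c, Cfsg.Spor.Fi22.d, Cfsg.Spor.Fi22.e,
      Cfsg.Spor.Fi22.f, Cfsg.Spor.Fi22.g, Cfsg.Spor.Fi22.h, Cfsg.Spor.Fi22.i} :
        Set (FreeGroup Cfsg.Spor.Fi22.Gen))).map (PresentedGroup.mk _) with hH
  have hcl : ∀ r ∈ ({Cfsg.Spor.Fi22.b, Cfsg.Spor.Fi22.c, Cfsg.Spor.Fi22.d, Cfsg.Spor.Fi22.e,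
      Cfsg.Spor.Fi22.f, Cfsg.Spor.Fi22.g, Cfsg.Spor.Fi22.h, Cfsg.Spor.Fi22.i} :
        Set (FreeGroup Cfsg.Spor.Fi22.Gen)), ∃ x, r = FreeGroup.of x := by
    intro r hr
    simp only [Set.mem_insert_iff, Set.mem_singleton_iff] at hr
    rcases hr with rfl | rfl | rfl | rfl | rfl | rfl | rfl | rfl <;> exact ⟨_, rfl⟩
  set L : Subgroup G := H.map φ.toMonoidHom with hL
  refine ⟨L, le_antisymm ((Subgroup.closure_le _).2 fun d hd => hd.2) ?_, ?_, fun P => ?_⟩
  · show L ≤ _
    rw [hL, Subgroup.map_le_iff_le_comap]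
    conv_lhs => rw [hH]
    rw [Subgroup.map_le_iff_le_comap, Subgroup.closure_le]
    intro r hr
    have hm : PresentedGroup.mk _ r ∈ H := Subgroup.mem_map_of_mem _ (Subgroup.subset_closure hr)
    obtain ⟨x, rfl⟩ := hcl r hr
    refine Subgroup.subset_closure ⟨?_, Subgroup.mem_map_of_mem φ.toMonoidHom hm⟩
    rw [← hφ]
    exact ⟨_, gen_conj x, rfl⟩
  · exact ⟨(Subgroup.equivMapOfInjective H φ.toMonoidHom φ.injective).symm.trans ψ⟩
  · obtain ⟨Q, hQ⟩ := IsPGroup.exists_le_sylow (P.isPGroup'.map L.subtype)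
    refine ⟨Q, Subgroup.eq_of_le_of_card_ge hQ (le_of_eq ?_)⟩
    have hidx : L.index = 14080 := by
      rw [hL]
      exact (Subgroup.index_map_equiv H φ).trans hi
    have : Fact (Nat.Prime 3) := ⟨Nat.prime_three⟩
    rw [Nat.card_congr (Subgroup.equivMapOfInjective _ L.subtype L.subtype_injective).symm.toEquiv,
      Sylow.card_eq_multiplicity, Sylow.card_eq_multiplicity, ← L.card_mul_index, hidx,
      Nat.factorization_mul Nat.card_pos.ne' (by norm_num), Finsupp.add_apply,
      Nat.factorization_eq_zero_of_not_dvd (by norm_num : ¬ 3 ∣ 14080), Nat.add_zero]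

end Cfsg.Agent.S5517
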