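import Cfsg.Statements.S5541

set_option autoImplicit false
open Cfsg

namespace Cfsg.Agent.S5541

/-- Let ρ be a representation of a group H on a finite-dimensional real vector space U whose only ρ-invariant subspaces are the zero subspace and U, and suppose U carries a non-zero ρ-invariant symmetric bilinear form. Then the following are equivalent: (1) there is a non-zero ρ-equivariant commutative bilinear product on U of which every ρ-equivariant bilinear product is a scalar multiple; (2) there is a non-zero ρ-invariant trilinear form on U that is symmetric under all permutations of its arguments and of which every ρ-invariant trilinear form is a scalar multiple. -/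
theorem result {H : Type*} [Group H] {U : Type*} [AddCommGroup U] [Module ℝ U] [FiniteDimensional ℝ U] (ρ : Representation ℝ H U) (hirr : ∀ W : Submodule ℝ U, (∀ g : H, W.map (ρ g) ≤ W) → W = ⊥ ∨ W = ⊤) (B : LinearMap.BilinForm ℝ U) (hB0 : B ≠ 0) (hBs : ∀ u v, B u v = B v u) (hBi : ∀ (g : H) (u v : U), B (ρ g u) (ρ g v) = B u v) : (∃ m : U →ₗ[ℝ] U →ₗ[ℝ] U, m ≠ 0 ∧ (∀ u v, m u v = m v u) ∧ (∀ (g : H) (u v : U), m (ρ g u) (ρ g v) = ρ g (m u v)) ∧ ∀ m' : U →ₗ[ℝ] U →ₗ[ℝ] U, (∀ (g : H) (u v : U), m' (ρ g u) (ρ g v) = ρ g (m' u v)) → ∃ c : ℝ, m' = c • m) ↔ (∃ t : U →ₗ[ℝ] U →ₗ[ℝ] U →ₗ[ℝ] ℝ, t ≠ 0 ∧ (∀ u v w, t u v w = t v u w ∧ t u v w = t u w v) ∧ (∀ (g : H) (u v w : U), t (ρ g u) (ρ g v) (ρ g w) = t u v w) ∧ ∀ t' : U →ₗ[ℝ] U →ₗ[ℝ] U →ₗ[ℝ] ℝ, (∀ (g : H) (u v w : U), t' (ρ g u) (ρ g v) (ρ g w) = t' u v w) → ∃ c : ℝ, t' = c • t) := by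
  have hker : LinearMap.ker B = ⊥ := by
    rcases hirr (LinearMap.ker B) (by
      intro g
      rintro _ ⟨x, hx, rfl⟩
      have hx' : B x = 0 := hx
      refine LinearMap.mem_ker.2 (LinearMap.ext fun v => ?_)
      have h := hBi g x (ρ g⁻¹ v)
      rw [ρ.self_inv_apply, hx'] at h
      simpa using h) with h | h
    · exact h
    · exact absurd (LinearMap.ker_eq_top.1 h) hB0
  have hinj : Function.Injective B := LinearMap.ker_eq_bot.1 hker
  let e : U ≃ₗ[ℝ] Module.Dual ℝ U := LinearEquiv.ofBijective B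
    ⟨hinj, (LinearMap.injective_iff_surjective_of_finrank_eq_finrank
      (Subspace.dual_finrank_eq).symm).1 hinj⟩
  have he : ∀ (f : Module.Dual ℝ U) (w : U), B (e.symm f) w = f w := fun f w =>
    DFunLike.congr_fun (e.apply_symm_apply f) w
  have toT : ∀ m : U →ₗ[ℝ] U →ₗ[ℝ] U, (∀ (g : H) (u v : U), m (ρ g u) (ρ g v) = ρ g (m u v)) →
      ∀ (g : H) (u v w : U), (m.compr₂ B) (ρ g u) (ρ g v) (ρ g w) = (m.compr₂ B) u v w := by
    intro m hm g u v w
    simp only [LinearMap.compr₂_apply, hm, hBi]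
  have toM : ∀ t : U →ₗ[ℝ] U →ₗ[ℝ] U →ₗ[ℝ] ℝ,
      (∀ (g : H) (u v w : U), t (ρ g u) (ρ g v) (ρ g w) = t u v w) →
      ∀ (g : H) (u v : U), (t.compr₂ e.symm.toLinearMap) (ρ g u) (ρ g v)
        = ρ g ((t.compr₂ e.symm.toLinearMap) u v) := by
    intro t ht g u v
    refine hinj (LinearMap.ext fun w => ?_)
    have h := hBi g (e.symm (t u v)) (ρ g⁻¹ w)
    rw [ρ.self_inv_apply] at h
    simp only [LinearMap.compr₂_apply, LinearEquiv.coe_coe, he]
    rw [h, he, ← ht g u v (ρ g⁻¹ w), ρ.self_inv_apply]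
  constructor
  · rintro ⟨m, hm0, hms, hme, hmu⟩
    have hu : ∀ t' : U →ₗ[ℝ] U →ₗ[ℝ] U →ₗ[ℝ] ℝ,
        (∀ (g : H) (u v w : U), t' (ρ g u) (ρ g v) (ρ g w) = t' u v w) →
          ∃ c : ℝ, t' = c • m.compr₂ B := by
      intro t' ht'
      obtain ⟨c, hc⟩ := hmu _ (toM t' ht')
      refine ⟨c, ?_⟩
      ext u v w
      have h := congrArg (fun f : U →ₗ[ℝ] U →ₗ[ℝ] U => B (f u v) w) hc
      simp only [LinearMap.compr₂_apply, LinearEquiv.coe_coe, he, LinearMap.smul_apply, map_smul] at h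
      simpa using h
    have ht0 : m.compr₂ B ≠ 0 := by
      intro h
      refine hm0 (LinearMap.ext fun u => LinearMap.ext fun v => hinj ?_)
      have h2 := DFunLike.congr_fun (DFunLike.congr_fun h u) v
      simpa using h2
    refine ⟨m.compr₂ B, ht0, ?_, toT m hme, hu⟩
    obtain ⟨u₀, v₀, w₀, h0⟩ : ∃ u v w, (m.compr₂ B) u v w ≠ 0 := by
      by_contra h
      push Not at h
      exact ht0 (LinearMap.ext fun u => LinearMap.ext fun v => LinearMap.ext fun w => h u v w)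
    have h12 : ∀ u v w, (m.compr₂ B) u v w = (m.compr₂ B) v u w := fun u v w => by
      simp [hms u v]
    let s : U →ₗ[ℝ] U →ₗ[ℝ] U →ₗ[ℝ] ℝ :=
      LinearMap.mk₂ ℝ (fun u v => ((m.compr₂ B) u).flip v)
        (fun a b c => by ext; simp) (fun a b c => by ext; simp)
        (fun a b c => by ext; simp) (fun a b c => by ext; simp)
    have hs : ∀ u v w, s u v w = (m.compr₂ B) u w v := fun u v w => rfl
    obtain ⟨c, hc⟩ := hu s (fun g u v w => by
      rw [hs, hs]; exact toT m hme g u w v)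
    have h23 : ∀ u v w, (m.compr₂ B) u w v = c * (m.compr₂ B) u v w := fun u v w => by
      rw [← hs, hc]; rfl
    have hc3 : c ^ 3 = 1 := by
      refine mul_right_cancel₀ h0 ?_
      rw [one_mul]
      calc c ^ 3 * (m.compr₂ B) u₀ v₀ w₀ = c * (c * (c * (m.compr₂ B) u₀ v₀ w₀)) := by ring
        _ = c * (c * (m.compr₂ B) u₀ w₀ v₀) := by rw [h23 u₀ v₀ w₀]
        _ = c * (c * (m.compr₂ B) w₀ u₀ v₀) := by rw [h12 u₀ w₀ v₀]
        _ = c * (m.compr₂ B) w₀ v₀ u₀ := by rw [h23 w₀ u₀ v₀]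
        _ = c * (m.compr₂ B) v₀ w₀ u₀ := by rw [h12 w₀ v₀ u₀]
        _ = (m.compr₂ B) v₀ u₀ w₀ := by rw [h23 v₀ w₀ u₀]
        _ = (m.compr₂ B) u₀ v₀ w₀ := by rw [h12 v₀ u₀ w₀]
    have hc1 : c = 1 := by nlinarith [sq_nonneg (c - 1), sq_nonneg (c + 1), sq_nonneg c]
    exact fun u v w => ⟨h12 u v w, by rw [h23 u v w, hc1, one_mul]⟩
  · rintro ⟨t, ht0, hts, hti, htu⟩
    refine ⟨t.compr₂ e.symm.toLinearMap, ?_, ?_, toM t hti, ?_⟩
    · intro h
      refine ht0 (LinearMap.ext fun u => LinearMap.ext fun v => LinearMap.ext fun w => ?_)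
      have h2 := congrArg (fun f : U →ₗ[ℝ] U →ₗ[ℝ] U => B (f u v) w) h
      simpa [he] using h2
    · intro u v
      refine hinj (LinearMap.ext fun w => ?_)
      simp only [LinearMap.compr₂_apply, LinearEquiv.coe_coe, he]
      exact (hts u v w).1
    · intro m' hm'
      obtain ⟨c, hc⟩ := htu _ (toT m' hm')
      refine ⟨c, LinearMap.ext fun u => LinearMap.ext fun v => hinj (LinearMap.ext fun w => ?_)⟩
      have h := congrArg (fun f : U →ₗ[ℝ] U →ₗ[ℝ] U →ₗ[ℝ] ℝ => f u v w) hc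
      simp only [LinearMap.compr₂_apply, LinearMap.smul_apply] at h
      simp [he, h]

end Cfsg.Agent.S5541
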