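import Cfsg.Statements.S5543

set_option autoImplicit false
open Cfsg

namespace Cfsg.Agent.S5543

/-- Let V be a finite-dimensional real vector space with a commutative bilinear product and a positive-definite symmetric bilinear form that associates with the product and satisfies the Norton inequality (the Majorana setting of the definitions). Let X be a group of linear automorphisms of V in which every element squares to the identity, and suppose every non-identity element x of X is a Majorana involution with an axial vector a(x) of squared length 1, such that for any two distinct non-identity x, y the product a(x) ∘ a(y) equals (1/8)(a(x) + a(y) − a(xy)) (the dihedral subalgebra of type 2A whose third axis belongs to the involution xy). Then X has order at most 4. -/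
theorem result {V : Type*} [AddCommGroup V] [Module ℝ V] [FiniteDimensional ℝ V] (mul : V →ₗ[ℝ] V →ₗ[ℝ] V) (B : LinearMap.BilinForm ℝ V) (hV : Cfsg.Axial.IsMajoranaAmbient mul B) (X : Subgroup (V ≃ₗ[ℝ] V)) (hX : ∀ x ∈ X, x * x = 1) (ax : (V ≃ₗ[ℝ] V) → V) (hax : ∀ x ∈ X, x ≠ 1 → Cfsg.Axial.IsMajoranaPair mul B x (ax x)) (h1 : ∀ x ∈ X, x ≠ 1 → B (ax x) (ax x) = 1) (h2A : ∀ x ∈ X, ∀ y ∈ X, x ≠ 1 → y ≠ 1 → x ≠ y → mul (ax x) (ax y) = (1 / 8 : ℝ) • (ax x + ax y - ax (x * y))) : Nat.card ↥X ≤ 4 := by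
  obtain ⟨hcomm, hBs, hpos, hassoc, -⟩ := hV
  by_contra hcard
  push Not at hcard
  classical
  have key : ∀ x ∈ X, ∀ y ∈ X, x * y = y * x := fun x hx y hy => by
    have h1 : ∀ z ∈ X, z⁻¹ = z := fun z hz => inv_eq_of_mul_eq_one_right (hX z hz)
    have h2 := h1 (x * y) (X.mul_mem hx hy)
    rw [mul_inv_rev, h1 x hx, h1 y hy] at h2
    exact h2.symm
  -- three independent elements
  have pick : ∀ s : Finset ↥X, s.card ≤ 4 → ∃ z : ↥X, z ∉ s := by
    intro s hs
    by_contra h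
    push Not at h
    haveI : Finite ↥X := by
      refine Finite.of_surjective (fun a : (s : Set ↥X) => (a : ↥X)) fun z => ⟨⟨z, h z⟩, rfl⟩
    haveI := Fintype.ofFinite ↥X
    have : s = Finset.univ := Finset.eq_univ_of_forall h
    rw [this, Finset.card_univ, ← Nat.card_eq_fintype_card] at hs
    omega
  obtain ⟨⟨x, hx⟩, hx1⟩ := pick {1} (by simp)
  obtain ⟨⟨y, hy⟩, hy1⟩ := pick {1, ⟨x, hx⟩} (Finset.card_le_two.trans (by norm_num))
  obtain ⟨⟨z, hz⟩, hz1⟩ := pick {1, ⟨x, hx⟩, ⟨y, hy⟩, ⟨x, hx⟩ * ⟨y, hy⟩}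
    (Finset.card_le_four)
  simp only [Finset.mem_insert, Finset.mem_singleton, Subtype.ext_iff, Subgroup.coe_one,
    Subgroup.coe_mul, not_or] at hx1 hy1 hz1
  obtain ⟨hy0, hyx⟩ := hy1
  obtain ⟨hz0, hzx, hzy, hzxy⟩ := hz1
  have hxx := hX x hx
  have hyy := hX y hy
  have hzz := hX z hz
  have cxy := key x hx y hy
  have cxz := key x hx z hz
  have cyz := key y hy z hz
  have mxy := X.mul_mem hx hy
  have mxz := X.mul_mem hx hz
  have myz := X.mul_mem hy hz
  have mxyz := X.mul_mem hx myz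
  have n1 : ∀ {a b : V ≃ₗ[ℝ] V}, b * b = 1 → a ≠ b → a * b ≠ 1 := by
    intro a b hb hab h
    apply hab
    have := congrArg (· * b) h
    simpa [mul_assoc, hb] using this
  have n2 : ∀ {a b : V ≃ₗ[ℝ] V}, a * a = 1 → b ≠ 1 → a ≠ a * b := by
    intro a b ha hb h
    apply hb
    have := congrArg (a * ·) h
    simpa [← mul_assoc, ha] using this.symm
  have nxy : x * y ≠ 1 := n1 hyy (Ne.symm hyx)
  have nxz : x * z ≠ 1 := n1 hzz (Ne.symm hzx)
  have nyz : y * z ≠ 1 := n1 hzz (Ne.symm hzy)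
  have nx_yz : x ≠ y * z := by
    intro h
    apply hzxy
    rw [h, mul_assoc, key z hz y hy, ← mul_assoc, hyy, one_mul]
  have nxyz : x * (y * z) ≠ 1 := n1 (hX _ myz) nx_yz
  have p1 : ∀ a ∈ X, ∀ b ∈ X, a ≠ 1 → b ≠ 1 → a ≠ b → ∀ c, a * b = c →
      mul (ax a) (ax b) = (1 / 8 : ℝ) • (ax a + ax b - ax c) := by
    rintro a ha b hb h₁ h₂ h₃ c rfl
    exact h2A a ha b hb h₁ h₂ h₃
  have hxy' : x * (x * y) = y := by rw [← mul_assoc, hxx, one_mul]
  have hxz' : x * (x * z) = z := by rw [← mul_assoc, hxx, one_mul]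
  have hxyz' : x * (x * (y * z)) = y * z := by rw [← mul_assoc, hxx, one_mul]
  obtain ⟨-, -, ⟨⟨-, -, -, hfus⟩, -⟩, -⟩ := hax x hx hx1
  let E := Cfsg.Axial.eigen mul (ax x) (1 / 4)
  have mem : ∀ w ∈ X, w ≠ 1 → w ≠ x → x * w ≠ 1 → ax w - ax (x * w) ∈ E := by
    intro w hw h₁ h₂ h₃
    refine Module.End.mem_eigenspace_iff.2 ?_
    have hxw : x ≠ x * w := n2 hxx h₁
    rw [map_sub, p1 x hx w hw hx1 h₁ (Ne.symm h₂) _ rfl,
      p1 x hx (x * w) (X.mul_mem hx hw) hx1 h₃ hxw w (by rw [← mul_assoc, hxx, one_mul])]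
    module
  have m1 := mem y hy hy0 hyx nxy
  have m2 := mem z hz hz0 hzx nxz
  have m3 := mem (y * z) myz nyz (Ne.symm nx_yz) nxyz
  have d1 : mul (ax y) (ax z) = (1 / 8 : ℝ) • (ax y + ax z - ax (y * z)) :=
    p1 y hy z hz hy0 hz0 (Ne.symm hzy) _ rfl
  have d2 : mul (ax y) (ax (x * z)) = (1 / 8 : ℝ) • (ax y + ax (x * z) - ax (x * (y * z))) :=
    p1 y hy _ mxz hy0 nxz (fun h => hzxy (by rw [h, ← mul_assoc, hxx, one_mul])) _
      (by rw [← mul_assoc, ← cxy, mul_assoc])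
  have d3 : mul (ax (x * y)) (ax z) = (1 / 8 : ℝ) • (ax (x * y) + ax z - ax (x * (y * z))) :=
    p1 _ mxy z hz nxy hz0 (Ne.symm hzxy) _ (mul_assoc _ _ _)
  have d4 : mul (ax (x * y)) (ax (x * z)) = (1 / 8 : ℝ) • (ax (x * y) + ax (x * z) - ax (y * z)) :=
    p1 _ mxy _ mxz nxy nxz (fun h => hzy (mul_left_cancel h).symm) _
      (by rw [cxy, mul_assoc, hxz'])
  have hprod : mul (ax y - ax (x * y)) (ax z - ax (x * z))
      = (-1 / 4 : ℝ) • (ax (y * z) - ax (x * (y * z))) := by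
    simp only [map_sub, LinearMap.sub_apply, d1, d2, d3, d4]
    module
  have hlaw : Cfsg.Axial.monsterLaw (1 / 4 : ℝ) (1 / 32) (1 / 4) (1 / 4) = {1, 0} := by
    unfold Cfsg.Axial.monsterLaw
    norm_num
  have hmem : (1 / 4 : ℝ) ∈ Cfsg.Axial.majoranaSpectrum := by simp [Cfsg.Axial.majoranaSpectrum]
  have hf := hfus _ hmem _ hmem _ m1 _ m2
  rw [hlaw, hprod, Submodule.smul_mem_iff _ (by norm_num)] at hf
  have hdisj : Disjoint E (Cfsg.Axial.eigenSum mul (ax x) {1, 0}) := by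
    refine ((Module.End.eigenspaces_iSupIndep (mul (ax x))).disjoint_biSup ?_)
    norm_num
  have h0 := Submodule.disjoint_def.1 hdisj _ m3 hf
  have heq : ax (y * z) = ax (x * (y * z)) := sub_eq_zero.1 h0
  have hne : y * z ≠ x * (y * z) := fun h => hx1 (mul_eq_right.1 h.symm)
  have hB : B (ax (y * z)) (ax (x * (y * z))) = 1 := by rw [← heq, h1 _ myz nyz]
  have hp := p1 _ myz _ mxyz nyz nxyz hne x (by
    rw [key _ myz _ mxyz, mul_assoc, hX _ myz, mul_one])
  rw [← heq] at hp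
  obtain ⟨-, -, ⟨⟨-, hid, -, -⟩, -⟩, -⟩ := hax _ myz nyz
  rw [hid] at hp
  have hb := congrArg (fun w => B (ax x) w) hp
  have hb' : (6 / 8 : ℝ) * B (ax x) (ax (y * z)) = -(1 / 8) := by
    simp only [map_smul, map_sub, map_add, h1 x hx hx1, smul_eq_mul] at hb
    linarith
  -- the eigenvector lies orthogonally to the axis, and both members have positive inner product
  have hpx := p1 x hx (y * z) myz hx1 nyz nx_yz _ rfl
  have hb2 := congrArg (fun w => B (ax x) w) hpx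
  obtain ⟨-, -, ⟨⟨-, hidx, -, -⟩, -⟩, -⟩ := hax x hx hx1
  simp only [hassoc (ax x) (ax x) (ax (y * z)), hidx, map_smul, map_sub, map_add, h1 x hx hx1,
    smul_eq_mul, ← heq] at hb2
  linarith

end Cfsg.Agent.S5543
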