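import Cfsg.Statements.S5544
import Cfsg.Agent.Majorana.Sakuma

set_option autoImplicit false
open Cfsg

namespace Cfsg.Agent.S5544

open Cfsg.Agent.Majorana

theorem period_of_pairs {V : Type*} [AddCommGroup V] [Module ℝ V] {mul : V →ₗ[ℝ] V →ₗ[ℝ] V}
    {B : LinearMap.BilinForm ℝ V} (hV : Cfsg.Axial.IsMajoranaAmbient mul B) {μ₀ μ₁ : V ≃ₗ[ℝ] V} {a₀ a₁ : V}
    (h₀ : Cfsg.Axial.IsMajoranaPair mul B μ₀ a₀) (h₁ : Cfsg.Axial.IsMajoranaPair mul B μ₁ a₁)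
    (hu₀ : ∀ a : V, Cfsg.Axial.IsMajoranaPair mul B μ₀ a → a = a₀)
    (hu₁ : ∀ a : V, Cfsg.Axial.IsMajoranaPair mul B μ₁ a → a = a₁)
    (hn₀ : B a₀ a₀ = 1) (hn₁ : B a₁ a₁ = 1) : ∃ n : ℕ, 1 ≤ n ∧ n ≤ 6 ∧ (μ₀ * μ₁) ^ n = 1 := by
  obtain ⟨ρ, hρ⟩ : ∃ ρ, μ₀ * μ₁ = ρ := ⟨_, rfl⟩
  rw [hρ]
  have i0 : μ₀ * μ₀ = 1 := pair_invol h₀
  have i1 : μ₁ * μ₁ = 1 := pair_invol h₁
  have j0 : μ₀⁻¹ = μ₀ := inv_eq_of_mul_eq_one_right i0
  have j1 : μ₁⁻¹ = μ₁ := inv_eq_of_mul_eq_one_right i1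
  have hρinv : μ₀ * ρ * μ₀⁻¹ = ρ⁻¹ := by
    rw [← hρ, j0, mul_inv_rev, j0, j1]
    simp only [← mul_assoc, i0, one_mul]
  have sw : ∀ k : ℤ, μ₀ * ρ ^ k = ρ ^ (-k) * μ₀ := fun k => by
    have h := conj_zpow (i := k) (a := μ₀) (b := ρ)
    rw [hρinv, inv_zpow'] at h
    rw [h, inv_mul_cancel_right]
  have hμ₁ : μ₁ = μ₀ * ρ := by rw [← hρ, ← mul_assoc, i0, one_mul]
  have act : ∀ k : ℤ, (∀ u v : V, (ρ ^ k) (mul u v) = mul ((ρ ^ k) u) ((ρ ^ k) v)) ∧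
      ∀ u v : V, B ((ρ ^ k) u) ((ρ ^ k) v) = B u v := by
    have base : (∀ u v : V, ρ (mul u v) = mul (ρ u) (ρ v)) ∧ ∀ u v : V, B (ρ u) (ρ v) = B u v := by
      rw [← hρ]
      exact ⟨fun u v => by simp [h₀.1, h₁.1], fun u v => by simp [h₀.2.1, h₁.2.1]⟩
    intro k
    induction k using Int.induction_on with
    | zero => exact ⟨fun u v => by simp, fun u v => by simp⟩
    | succ i hi =>
      simp only [zpow_add, zpow_one, LinearEquiv.mul_apply]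
      exact ⟨fun u v => by rw [base.1, hi.1], fun u v => by rw [hi.2, base.2]⟩
    | pred i hi =>
      have inv1 : ∀ u v : V, ρ⁻¹ (mul u v) = mul (ρ⁻¹ u) (ρ⁻¹ v) := fun u v => by
        apply ρ.injective
        rw [base.1]
        simp [LinearEquiv.coe_inv]
      have inv2 : ∀ u v : V, B (ρ⁻¹ u) (ρ⁻¹ v) = B u v := fun u v => by
        rw [← base.2]
        simp [LinearEquiv.coe_inv]
      simp only [zpow_sub, zpow_one, LinearEquiv.mul_apply]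
      exact ⟨fun u v => by rw [inv1, hi.1], fun u v => by rw [hi.2, inv2]⟩
  let μ : ℤ → V ≃ₗ[ℝ] V := fun j => μ₀ * ρ ^ j
  let a : ℤ → V := fun j => (ρ ^ (-(j / 2))) (if j % 2 = 0 then a₀ else a₁)
  let b : ℤ → V ≃ₗ[ℝ] V := fun j => if j % 2 = 0 then μ₀ else μ₁
  have conjμ : ∀ j k : ℤ, ρ ^ k * μ j * (ρ ^ k)⁻¹ = μ (j - 2 * k) := fun j k => by
    show ρ ^ k * (μ₀ * ρ ^ j) * (ρ ^ k)⁻¹ = μ₀ * ρ ^ (j - 2 * k)
    have h1 : ρ ^ k * μ₀ = μ₀ * ρ ^ (-k) := by rw [sw (-k), neg_neg]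
    rw [← mul_assoc (ρ ^ k), h1, ← zpow_neg, mul_assoc, mul_assoc, ← zpow_add, ← zpow_add]
    congr 2
    ring
  have hb : ∀ j : ℤ, b j = μ (j % 2) := fun j => by
    rcases Int.emod_two_eq_zero_or_one j with h | h <;> simp [b, μ, h, hμ₁]
  have hμb : ∀ j : ℤ, ρ ^ (-(j / 2)) * b j * (ρ ^ (-(j / 2)))⁻¹ = μ j := fun j => by
    rw [hb, conjμ]; congr 1; omega
  have hpair : ∀ j, Cfsg.Axial.IsMajoranaPair mul B (μ j) (a j) := fun j => by
    rw [← hμb]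
    refine pair_map _ (act _).1 (act _).2 ?_
    by_cases h : j % 2 = 0
    · simpa only [b, if_pos h] using h₀
    · simpa only [b, if_neg h] using h₁
  have huniq : ∀ j c, Cfsg.Axial.IsMajoranaPair mul B (μ j) c → c = a j := fun j c hc => by
    have h := pair_map (ρ ^ (j / 2)) (act _).1 (act _).2 hc
    rw [conjμ, show j - 2 * (j / 2) = j % 2 by omega, ← hb] at h
    have hz : (ρ ^ (j / 2)) c = (if j % 2 = 0 then a₀ else a₁) := by
      by_cases hj : j % 2 = 0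
      · rw [if_pos hj]; exact hu₀ _ (by simpa only [b, if_pos hj] using h)
      · rw [if_neg hj]; exact hu₁ _ (by simpa only [b, if_neg hj] using h)
    show c = (ρ ^ (-(j / 2))) _
    rw [← hz, ← LinearEquiv.mul_apply, ← zpow_add, neg_add_cancel, zpow_zero]
    rfl
  have hnorm : ∀ j, B (a j) (a j) = 1 := fun j => by
    show B ((ρ ^ (-(j / 2))) _) ((ρ ^ (-(j / 2))) _) = 1
    rw [(act _).2]
    split <;> assumption
  have hrefl : ∀ j i, μ j (a i) = a (2 * j - i) := fun j i => by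
    refine huniq _ _ ?_
    have h := pair_map (μ j) (hpair j).1 (hpair j).2.1 (hpair i)
    convert h using 1
    rw [inv_eq_of_mul_eq_one_right (pair_invol (hpair j))]
    show μ₀ * ρ ^ (2 * j - i) = μ₀ * ρ ^ j * (μ₀ * ρ ^ i) * (μ₀ * ρ ^ j)
    rw [show μ₀ * ρ ^ j * (μ₀ * ρ ^ i) * (μ₀ * ρ ^ j)
        = μ₀ * ρ ^ j * (μ₀ * ρ ^ i * μ₀) * ρ ^ j by simp only [mul_assoc],
      sw i, mul_assoc (ρ ^ (-i)), i0, mul_one, mul_assoc, mul_assoc, ← zpow_add, ← zpow_add]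
    congr 2
    ring
  obtain ⟨i, j, hij, hj, he⟩ := AxisSeq.sakuma (a := a) (μ := μ) ⟨hV, hpair, hnorm, hrefl⟩
  have he' : μ i = μ j := pair_unique (hpair i) (he ▸ hpair j)
  have he2 : ρ ^ i = ρ ^ j := mul_left_cancel (a := μ₀) he'
  refine ⟨(j - i).toNat, by omega, by omega, ?_⟩
  rw [← zpow_natCast, Int.toNat_of_nonneg (by omega), zpow_sub, he2, mul_inv_cancel]

/-- Let V be a finite-dimensional real vector space with a commutative bilinear product and a positive-definite symmetric bilinear form that associates with the product and satisfies the Norton inequality (the Majorana setting of the definitions). Let μ₀ and μ₁ be Majorana involutions with axial vectors a₀ and a₁ of squared length 1, each involution having no other axial vector. Then the product μ₀μ₁ has order at most 6: some power (μ₀μ₁)^n with 1 ≤ n ≤ 6 is the identity (so the two involutions generate a dihedral group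 of order at most 12). This is the 6-transposition property of Majorana involutions. -/
theorem result {V : Type*} [AddCommGroup V] [Module ℝ V] [FiniteDimensional ℝ V] (mul : V →ₗ[ℝ] V →ₗ[ℝ] V) (B : LinearMap.BilinForm ℝ V) (hV : Cfsg.Axial.IsMajoranaAmbient mul B) (μ₀ μ₁ : V ≃ₗ[ℝ] V) (a₀ a₁ : V) (h₀ : Cfsg.Axial.IsMajoranaPair mul B μ₀ a₀) (h₁ : Cfsg.Axial.IsMajoranaPair mul B μ₁ a₁) (hu₀ : ∀ a : V, Cfsg.Axial.IsMajoranaPair mul B μ₀ a → a = a₀) (hu₁ : ∀ a : V, Cfsg.Axial.IsMajoranaPair mul B μ₁ a → a = a₁) (hn₀ : B a₀ a₀ = 1) (hn₁ : B a₁ a₁ = 1) : ∃ n : ℕ, 1 ≤ n ∧ n ≤ 6 ∧ (μ₀ * μ₁) ^ n = 1 := by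
  exact period_of_pairs hV h₀ h₁ hu₀ hu₁ hn₀ hn₁

end Cfsg.Agent.S5544
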