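import Cfsg.Statements.S5545

set_option autoImplicit false
open Cfsg

namespace Cfsg.Agent.S5545

section
variable {V : Type*} [AddCommGroup V] [Module ℝ V] (mul : V →ₗ[ℝ] V →ₗ[ℝ] V) (B : LinearMap.BilinForm ℝ V)

theorem pair_transport {μ : V ≃ₗ[ℝ] V} {a : V} (φ : V ≃ₗ[ℝ] V)
    (hm : ∀ u v : V, φ (mul u v) = mul (φ u) (φ v)) (hB : ∀ u v : V, B (φ u) (φ v) = B u v)
    (h : Cfsg.Axial.IsMajoranaPair mul B μ a) :
    Cfsg.Axial.IsMajoranaPair mul B (φ * μ * φ⁻¹) (φ a) := by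
  obtain ⟨hμm, hμB, ⟨⟨ha0, haa, htop, hfus⟩, hprim⟩, hfix, hneg⟩ := h
  have hmem : ∀ c w, w ∈ Cfsg.Axial.eigen mul (φ a) c ↔ φ.symm w ∈ Cfsg.Axial.eigen mul a c := by
    intro c w
    simp only [Cfsg.Axial.eigen, Module.End.mem_eigenspace_iff]
    rw [← φ.injective.eq_iff (a := mul a (φ.symm w)), hm, map_smul, φ.apply_symm_apply]
  have heig : ∀ c, Cfsg.Axial.eigen mul (φ a) c
      = (Cfsg.Axial.eigen mul a c).map φ.toLinearMap := fun c => by
    ext w; rw [hmem]; exact (Submodule.mem_map_equiv _).symm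
  have hsum : ∀ S, Cfsg.Axial.eigenSum mul (φ a) S
      = (Cfsg.Axial.eigenSum mul a S).map φ.toLinearMap := fun S => by
    simp only [Cfsg.Axial.eigenSum, Submodule.map_iSup, heig]
  have happ : ∀ w, (φ * μ * φ⁻¹) w = φ (μ (φ.symm w)) := fun w => rfl
  have hsymm : ∀ u v, φ.symm (mul u v) = mul (φ.symm u) (φ.symm v) := fun u v => by
    apply φ.injective; simp [hm]
  refine ⟨fun u v => by simp only [happ, hsymm, hμm, hm], fun u v => ?_,
    ⟨⟨φ.map_ne_zero_iff.2 ha0, by rw [← hm, haa], ?_, ?_⟩, ?_⟩, ?_, ?_⟩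
  · rw [happ, happ, hB, hμB]
    conv_rhs => rw [← φ.apply_symm_apply u, ← φ.apply_symm_apply v]
    rw [hB]
  · rw [hsum, htop]; simp
  · intro c hc d hd u hu v hv
    rw [hsum, Submodule.mem_map_equiv, hsymm]
    exact hfus c hc d hd _ ((hmem c u).1 hu) _ ((hmem d v).1 hv)
  · rw [heig, hprim, Submodule.map_span]; simp
  · intro v hv
    rw [hsum, Submodule.mem_map_equiv] at hv
    have h := hfix _ hv
    simp only [LinearEquiv.coe_coe] at h ⊢
    rw [happ, h, φ.apply_symm_apply]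
  · intro v hv
    have h := hneg _ ((hmem _ v).1 hv)
    simp only [LinearEquiv.coe_coe] at h ⊢
    rw [happ, h, map_neg, φ.apply_symm_apply]

theorem two_axes_step (hV : Cfsg.Axial.IsMajoranaAmbient mul B) {μ : V ≃ₗ[ℝ] V} {a b : V}
    (ha : Cfsg.Axial.IsMajoranaPair mul B μ a) (hna : B a a = 1) (hb : mul b b = b) (hμb : μ b = b) :
    mul a (mul a b) = (3 * B a b / 4) • a + (1 / 4 : ℝ) • mul a b ∧
    (mul b (mul a b) = (3 * B a b / 4) • b + (1 / 4 : ℝ) • mul a b →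
      (4 : ℝ) • mul (mul a b) (mul a b) = (2 * B a b ^ 2 + B a b / 2) • a + (3 * B a b / 4) • b
        + (B a b - 1 / 4) • mul a b) := by
  obtain ⟨hcomm, hBs, hpos, hassoc, -⟩ := hV
  obtain ⟨-, -, ⟨⟨-, haa, htop, hfus⟩, hprim⟩, hfix, hneg⟩ := ha
  have hfix' : ∀ v ∈ Cfsg.Axial.eigenSum mul a {1, 0, 1 / 4}, μ v = v := hfix
  have hneg' : ∀ v ∈ Cfsg.Axial.eigen mul a (1 / 32), μ v = -v := hneg
  have hdec : Cfsg.Axial.eigenSum mul a {1, 0, 1 / 4} ⊔ Cfsg.Axial.eigen mul a (1 / 32) = ⊤ := by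
    rw [← htop]
    simp only [Cfsg.Axial.eigenSum, Cfsg.Axial.majoranaSpectrum, iSup_insert, iSup_singleton]
    ac_rfl
  obtain ⟨p, hp, q, hq, hpq⟩ := Submodule.mem_sup.1 (hdec ▸ Submodule.mem_top : b ∈ _)
  have hq0 : q = 0 := by
    have h := hμb
    rw [← hpq, map_add, hfix' p hp, hneg' q hq, add_right_inj] at h
    have : (2 : ℝ) • q = 0 := by
      rw [two_smul]; exact neg_eq_iff_add_eq_zero.1 h
    simpa using this
  rw [hq0, add_zero] at hpq
  subst hpq
  simp only [Cfsg.Axial.eigenSum, iSup_insert, iSup_singleton] at hp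
  obtain ⟨x, hx, r, hr, rfl⟩ := Submodule.mem_sup.1 hp
  obtain ⟨u, hu, v, hv, rfl⟩ := Submodule.mem_sup.1 hr
  rw [hprim] at hx
  obtain ⟨al, rfl⟩ := Submodule.mem_span_singleton.1 hx
  have eu : mul a u = 0 := by simpa using Module.End.mem_eigenspace_iff.1 hu
  have ev : mul a v = (1 / 4 : ℝ) • v := Module.End.mem_eigenspace_iff.1 hv
  have hal : B a (al • a + (u + v)) = al := by
    have h1 : B a u = 0 := by
      have := hassoc a a u
      rw [haa, eu, map_zero] at this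
      exact this.symm
    have h2 : B a v = 0 := by
      have := hassoc a a v
      rw [haa, ev, map_smul, smul_eq_mul] at this
      linarith
    simp [hna, h1, h2]
  rw [hal]
  set b := al • a + (u + v) with hbdef
  have hab : mul a b = al • a + (1 / 4 : ℝ) • v := by simp [hbdef, haa, eu, ev]
  refine ⟨?_, ?_⟩
  · rw [hab, map_add, map_smul, map_smul, haa, ev]
    module
  intro hbp
  have s0 : (0 : ℝ) ∈ Cfsg.Axial.majoranaSpectrum := by simp [Cfsg.Axial.majoranaSpectrum]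
  have s4 : (1 / 4 : ℝ) ∈ Cfsg.Axial.majoranaSpectrum := by simp [Cfsg.Axial.majoranaSpectrum]
  have huu := hfus 0 s0 0 s0 u hu u hu
  have hvv := hfus _ s4 _ s4 v hv v hv
  have huv := hfus 0 s0 _ s4 u hu v hv
  norm_num [Cfsg.Axial.monsterLaw] at huu hvv huv
  simp only [Cfsg.Axial.eigenSum, iSup_insert, iSup_singleton] at huu hvv huv
  have hsplit : mul b b = al ^ 2 • a + (mul u u + mul v v) + ((al / 2) • v + (2 : ℝ) • mul u v) := by
    simp only [hbdef, map_add, map_smul, LinearMap.add_apply, LinearMap.smul_apply, haa,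
      hcomm u a, hcomm v a, eu, ev, hcomm v u]
    module
  rw [hb] at hsplit
  have hkey : (al / 2 - 1) • v + (2 : ℝ) • mul u v = 0 := by
    have hlow : al • a + u - al ^ 2 • a - (mul u u + mul v v)
        ∈ Cfsg.Axial.eigenSum mul a {1, 0} := by
      simp only [Cfsg.Axial.eigenSum, iSup_insert, iSup_singleton]
      have hA : a ∈ Cfsg.Axial.eigen mul a 1 := Module.End.mem_eigenspace_iff.2 (by simpa using haa)
      refine sub_mem (sub_mem (add_mem ?_ ?_) ?_) (add_mem ?_ hvv)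
      · exact Submodule.mem_sup_left (Submodule.smul_mem _ _ hA)
      · exact Submodule.mem_sup_right hu
      · exact Submodule.mem_sup_left (Submodule.smul_mem _ _ hA)
      · exact Submodule.mem_sup_right huu
    have hhigh : al • a + u - al ^ 2 • a - (mul u u + mul v v)
        ∈ Cfsg.Axial.eigen mul a (1 / 4) := by
      have : al • a + u - al ^ 2 • a - (mul u u + mul v v)
          = ((al / 2) • v + (2 : ℝ) • mul u v) - v := by
        linear_combination (norm := module) hsplit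
      rw [this]
      exact sub_mem (add_mem (Submodule.smul_mem _ _ hv)
        (Submodule.smul_mem _ _ (by simpa using huv))) hv
    have hdisj : Disjoint (Cfsg.Axial.eigen mul a (1 / 4)) (Cfsg.Axial.eigenSum mul a {1, 0}) := by
      refine ((Module.End.eigenspaces_iSupIndep (mul a)).disjoint_biSup ?_)
      norm_num
    have := Submodule.disjoint_def.1 hdisj _ hhigh hlow
    linear_combination (norm := module) this - hsplit
  have hpaa : mul (mul a b) a = mul a (mul a b) := hcomm _ _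
  have hv' : v = (4 : ℝ) • (mul a b - al • a) := by rw [hab]; module
  have hu' : u = b + (3 * al) • a - (4 : ℝ) • mul a b := by
    rw [hab]; simp only [hbdef]; module
  have hap : mul a (mul a b) = (3 * al / 4) • a + (1 / 4 : ℝ) • mul a b := by
    rw [hab, map_add, map_smul, map_smul, haa, ev]; module
  have huv' : mul u v = (4 : ℝ) • ((3 * al / 4) • b + (1 / 4 : ℝ) • mul a b - al • mul a b
      + (3 * al) • ((3 * al / 4) • a + (1 / 4 : ℝ) • mul a b) - (3 * al ^ 2) • a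
      - (4 : ℝ) • mul (mul a b) (mul a b)
      + (4 * al) • ((3 * al / 4) • a + (1 / 4 : ℝ) • mul a b)) := by
    conv_lhs => rw [hv', hu']
    simp only [map_add, map_sub, map_smul, LinearMap.add_apply, LinearMap.sub_apply,
      LinearMap.smul_apply, hbp, hap, haa, hcomm b a, hpaa]
    module
  rw [huv', hv'] at hkey
  linear_combination (norm := module) (-1 / 8 : ℝ) • hkey

end

/-- Let V be a finite-dimensional real vector space with a commutative bilinear product and a positive-definite symmetric bilinear form that associates with the product and satisfies the Norton inequality (the Majorana setting of the definitions). Let μ₀, μ₁ be commuting Majorana involutions with distinct axial vectors a₀ ≠ a₁ of squared length 1, each involution having no other axial vector. Then either a₀ and a₁ are orthogonal with a₀ ∘ a₁ = 0 (type 2B), or their inner product is 1/8 and, with a₂ = a₀ + a₁ − 8 a₀ ∘ a₁, the vector a₂ is an idempotent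 and a₀ ∘ a₂ = (1/8)(a₀ + a₂ − a₁), a₁ ∘ a₂ = (1/8)(a₁ + a₂ − a₀) (type 2A: the three idempotents span a subalgebra with aᵢ ∘ aⱼ = (1/8)(aᵢ + aⱼ − aₖ)). -/
theorem result {V : Type*} [AddCommGroup V] [Module ℝ V] [FiniteDimensional ℝ V] (mul : V →ₗ[ℝ] V →ₗ[ℝ] V) (B : LinearMap.BilinForm ℝ V) (hV : Cfsg.Axial.IsMajoranaAmbient mul B) (μ₀ μ₁ : V ≃ₗ[ℝ] V) (a₀ a₁ : V) (h₀ : Cfsg.Axial.IsMajoranaPair mul B μ₀ a₀) (h₁ : Cfsg.Axial.IsMajoranaPair mul B μ₁ a₁) (hu₀ : ∀ a : V, Cfsg.Axial.IsMajoranaPair mul B μ₀ a → a = a₀) (hu₁ : ∀ a : V, Cfsg.Axial.IsMajoranaPair mul B μ₁ a → a = a₁) (hn₀ : B a₀ a₀ = 1) (hn₁ : B a₁ a₁ = 1) (hc : μ₀ * μ₁ = μ₁ * μ₀) (hne : a₀ ≠ a₁) : (B a₀ a₁ = 0 ∧ mul a₀ a₁ = 0) ∨ (B a₀ a₁ = 1 / 8 ∧ mul (a₀ + a₁ - (8 : ℝ) • mul a₀ a₁) (a₀ + a₁ - (8 : ℝ) • mul a₀ a₁) = a₀ + a₁ - (8 : ℝ) • mul a₀ a₁ ∧ mul a₀ (a₀ + a₁ - (8 : ℝ) • mul a₀ a₁) = (1 / 8 : ℝ) • (a₀ + (a₀ + a₁ - (8 : ℝ) • mul a₀ a₁) - a₁) ∧ mul a₁ (a₀ + a₁ - (8 :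 ℝ) • mul a₀ a₁) = (1 / 8 : ℝ) • (a₁ + (a₀ + a₁ - (8 : ℝ) • mul a₀ a₁) - a₀)) := by
  obtain ⟨hcomm, hBs, hpos, hassoc, hnorton⟩ := id hV
  have f₀ : μ₀ a₁ = a₁ := hu₁ _ (by
    have h := pair_transport mul B μ₀ h₀.1 h₀.2.1 h₁
    rwa [hc, mul_inv_cancel_right] at h)
  have f₁ : μ₁ a₀ = a₀ := hu₀ _ (by
    have h := pair_transport mul B μ₁ h₁.1 h₁.2.1 h₀
    rwa [← hc, mul_inv_cancel_right] at h)
  obtain ⟨hap, hA⟩ := two_axes_step mul B hV h₀ hn₀ h₁.2.2.1.1.2.1 f₀
  obtain ⟨hbp, hB'⟩ := two_axes_step mul B hV h₁ hn₁ h₀.2.2.1.1.2.1 f₁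
  rw [hBs a₁ a₀, hcomm a₁ a₀] at hbp hB'
  have hA := hA hbp
  have hB' := hB' hap
  set α := B a₀ a₁ with hα
  set p := mul a₀ a₁ with hp
  have hz : (2 * α ^ 2 - α / 4) • (a₀ - a₁) = (0 : V) := by
    linear_combination (norm := module) hB' - hA
  rcases smul_eq_zero.1 hz with h | h
  swap
  · exact absurd (sub_eq_zero.1 h) hne
  have hcases : α = 0 ∨ α = 1 / 8 := by
    rcases mul_eq_zero.1 (show α * (8 * α - 1) = 0 by linarith) with h | h
    · exact Or.inl h
    · exact Or.inr (by linarith)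
  rcases hcases with h0 | h8
  · refine Or.inl ⟨h0, ?_⟩
    by_contra hne0
    have hpp := hpos p hne0
    have h := hassoc p a₀ a₁
    rw [← hp, hcomm p a₀, hap, h0] at h
    simp only [mul_zero, zero_div, zero_smul, zero_add, map_smul, LinearMap.smul_apply,
      smul_eq_mul] at h
    have h' := hassoc a₁ a₁ a₀
    rw [h₁.2.2.1.1.2.1, hcomm a₁ a₀, ← hp, hBs a₁ p, hBs a₁ a₀, ← hα, h0] at h'
    linarith
  · refine Or.inr ⟨h8, ?_, ?_, ?_⟩
    · simp only [map_add, map_sub, map_smul, LinearMap.add_apply, LinearMap.sub_apply,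
        LinearMap.smul_apply, h₀.2.2.1.1.2.1, h₁.2.2.1.1.2.1, hcomm p a₀, hcomm p a₁, hap, hbp,
        hcomm a₁ a₀, ← hp]
      rw [h8] at hA ⊢
      linear_combination (norm := module) (16 : ℝ) • hA
    · simp only [map_add, map_sub, map_smul, h₀.2.2.1.1.2.1, hap, ← hp]
      rw [h8]; module
    · simp only [map_add, map_sub, map_smul, h₁.2.2.1.1.2.1, hbp, hcomm a₁ a₀, ← hp]
      rw [h8]; module

end Cfsg.Agent.S5545
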