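import Cfsg.Statements.S5546
import Cfsg.Agent.ConwayMod.ModThirteen

set_option autoImplicit false
open Cfsg

namespace Cfsg.Agent.S5546

/-- The second Conway group (the stabilizer in the Leech lattice automorphism group of the short vector fixed in the definitions) is isomorphic to a subgroup of the general linear group of degree 23 over the field with 13 elements: there is an injective homomorphism into it. -/
theorem result : ∃ f : ↥Cfsg.Spor.Co2 →* GL (Fin 23) (ZMod 13), Function.Injective f := by
  classical
  let b := Module.finBasisOfFinrankEq (ZMod 13) _ Cfsg.Agent.ConwayMod.finrank_quot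
  let e := LinearMap.toMatrixAlgEquiv b
  refine ⟨(e.toAlgHom.toRingHom.toMonoidHom.comp Cfsg.Agent.ConwayMod.quotAction).toHomUnits,
    fun g g' h => ?_⟩
  have h' := congrArg (fun x : GL (Fin 23) (ZMod 13) => (x : Matrix (Fin 23) (Fin 23) (ZMod 13))) h
  simp only [MonoidHom.coe_toHomUnits] at h'
  exact Cfsg.Agent.ConwayMod.quotAction_injective (e.injective h')

end Cfsg.Agent.S5546
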