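import Cfsg.Statements.S5548
import Cfsg.Agent.Golay94.Tools

set_option autoImplicit false
open Cfsg

namespace Cfsg.Agent.S5548

open Cfsg.Agent.Golay Cfsg.Agent.Golay94
open scoped Pointwise symmDiff

variable {W : Submodule (ZMod 2) (Cfsg.GolayPt → ZMod 2)}

/-- Invariance under the group. -/
def Inv (W : Submodule (ZMod 2) (Cfsg.GolayPt → ZMod 2)) : Prop :=
  ∀ σ ∈ Cfsg.M24, ∀ w ∈ W, (fun p => w (σ.symm p)) ∈ W

theorem inv_indWord (hW : Inv W) {σ : Equiv.Perm Cfsg.GolayPt} (hσ : σ ∈ Cfsg.M24)
    {s : Finset Cfsg.GolayPt} (h : indWord s ∈ W) : indWord (σ • s) ∈ W := by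
  rw [smul_indWord]; exact hW σ hσ _ h

theorem inv_code : Inv Cfsg.golayCode := fun _ hσ w hw => mem_M24_iff.1 hσ w hw

theorem inv_sup {U : Submodule (ZMod 2) (Cfsg.GolayPt → ZMod 2)} (hW : Inv W) (hU : Inv U) :
    Inv (W ⊔ U) := by
  intro σ hσ w hw
  obtain ⟨a, ha, b, hb, rfl⟩ := Submodule.mem_sup.1 hw
  exact Submodule.mem_sup.2 ⟨_, hW σ hσ a ha, _, hU σ hσ b hb, rfl⟩

theorem code_le (hW : Inv W) {c : Cfsg.GolayPt → ZMod 2} (hc : c ∈ W) (hcC : c ∈ Cfsg.golayCode)
    (h0 : c ≠ 0) (h1 : c ≠ 1) : Cfsg.golayCode ≤ W := by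
  have h8 : ∃ o ∈ Cfsg.octads, indWord o ∈ W := by
    have hcases := card_cases_of_mem (s := Cfsg.support₂ c) (by rw [indWord_support₂]; exact hcC)
    rcases hcases with h | h | h | h | h
    · refine absurd ?_ h0
      apply support₂_injective
      rw [Finset.card_eq_zero.1 h]
      ext p; simp
    · exact ⟨_, mem_octads_iff.2 ⟨by rw [indWord_support₂]; exact hcC, h⟩,
        by rw [indWord_support₂]; exact hc⟩
    iterate 2
      · obtain ⟨σ, hσ, h8⟩ := exists_octad_sum hcC (by omega)
        refine ⟨_, mem_octads_iff.2 ⟨?_, h8⟩, ?_⟩ <;> rw [indWord_support₂]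
        · exact add_mem hcC (mem_M24_iff.1 hσ c hcC)
        · exact add_mem hc (hW σ hσ c hc)
    · refine absurd ?_ h1
      apply support₂_injective
      rw [Finset.eq_univ_of_card _ (h.trans card_golayPt.symm)]
      ext p; simp
  obtain ⟨o, ho, hoW⟩ := h8
  obtain ⟨a, ha, ea⟩ := exists_octad_to_oct0 ho
  have hall : ∀ o' ∈ Cfsg.octads, indWord o' ∈ W := by
    intro o' ho'
    obtain ⟨b, hb, eb⟩ := exists_octad_to_oct0 ho'
    have := inv_indWord hW (mul_mem (inv_mem hb) ha) hoW
    rwa [mul_smul, ea, ← eb, inv_smul_smul] at this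
  intro w hw
  obtain ⟨k, -, rfl⟩ := (mem_golayCode_iff w).1 hw
  refine ofBits_xorSel_mem W rows (fun r hr => ?_) k
  rw [← indWord_support₂ (ofBits r)]
  exact hall _ (mem_octads_iff.2 ⟨by rw [indWord_support₂]; exact rows_mem r hr,
    by rw [card_support₂_ofBits]; exact rows_octads r hr⟩)

theorem indWord_empty : indWord (∅ : Finset Cfsg.GolayPt) = 0 := by
  funext p; simp [indWord]

theorem indWord_add_self (s : Finset Cfsg.GolayPt) : indWord s + indWord s = 0 :=
  CharTwo.add_self_eq_zero _

theorem pair_add {a b c : Cfsg.GolayPt} (hab : a ≠ b) (hac : a ≠ c) (hbc : b ≠ c) :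
    indWord ({a, b} : Finset Cfsg.GolayPt) + indWord {b, c} = indWord {a, c} := by
  rw [← indWord_symmDiff]
  congr 1
  ext p
  simp only [Finset.mem_symmDiff, Finset.mem_insert, Finset.mem_singleton]
  constructor
  · rintro (⟨rfl | rfl, h⟩ | ⟨rfl | rfl, h⟩) <;> simp_all
  · rintro (rfl | rfl) <;> simp_all [Ne.symm]

/-- An invariant subspace outside the code contains, modulo the code, every pair. -/
theorem pair_mem_sup (hW : Inv W) {w : Cfsg.GolayPt → ZMod 2} (hw : w ∈ W) (hwC : w ∉ Cfsg.golayCode)
    {p q : Cfsg.GolayPt} (hpq : p ≠ q) : indWord {p, q} ∈ W ⊔ Cfsg.golayCode := by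
  obtain ⟨s, hs, hsC⟩ := exists_small_rep w
  have hsW : indWord s ∈ W ⊔ Cfsg.golayCode := by
    have : indWord s = w + (w + indWord s) := by
      rw [← add_assoc, CharTwo.add_self_eq_zero, zero_add]
    rw [this]
    exact Submodule.add_mem_sup hw hsC
  have hne : s.Nonempty := by
    rw [Finset.nonempty_iff_ne_empty]
    rintro rfl
    rw [indWord_empty, add_zero] at hsC
    exact hwC hsC
  obtain ⟨c, hc⟩ := hne
  obtain ⟨d, -, hd⟩ := Finset.exists_mem_notMem_of_card_lt_card
    (show s.card < (Finset.univ : Finset Cfsg.GolayPt).card by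
      rw [Finset.card_univ, card_golayPt]; omega)
  obtain ⟨σ, hσ, hfix, hσc⟩ := exists_map_exchange hs hc hd
  have hcd : c ≠ d := fun h => hd (h ▸ hc)
  have himg : σ • s = insert d (s.erase c) := by
    ext x
    simp only [Finset.mem_smul_finset, Finset.mem_insert, Finset.mem_erase, Equiv.Perm.smul_def]
    constructor
    · rintro ⟨y, hy, rfl⟩
      by_cases h : y = c
      · left; rw [h, hσc]
      · right; rw [hfix y hy h]; exact ⟨h, hy⟩
    · rintro (rfl | ⟨hxc, hx⟩)
      · exact ⟨c, hc, hσc⟩
      · exact ⟨x, hx, hfix x hx hxc⟩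
  have hsum : indWord ({c, d} : Finset Cfsg.GolayPt) ∈ W ⊔ Cfsg.golayCode := by
    have e : ({c, d} : Finset Cfsg.GolayPt) = s ∆ (σ • s) := by
      rw [himg]
      ext x
      simp only [Finset.mem_symmDiff, Finset.mem_insert, Finset.mem_erase, Finset.mem_singleton]
      constructor
      · rintro (rfl | rfl)
        · exact Or.inl ⟨hc, by simp [hcd]⟩
        · exact Or.inr ⟨Or.inl rfl, hd⟩
      · rintro (⟨hx, h⟩ | ⟨h, hx⟩)
        · left; by_contra hxc; exact h (Or.inr ⟨hxc, hx⟩)
        · exact Or.inr (h.resolve_right fun h' => hx h'.2)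
    rw [e, indWord_symmDiff]
    exact add_mem hsW (inv_indWord (inv_sup hW inv_code) hσ hsW)
  obtain ⟨τ, hτ, hτc, hτd⟩ := exists_map_two hcd hpq
  have := inv_indWord (inv_sup hW inv_code) hτ hsum
  rwa [show τ • ({c, d} : Finset Cfsg.GolayPt) = {p, q} by
    simp [Finset.smul_finset_insert, hτc, hτd]] at this

/-- An invariant subspace outside the code contains every pair. -/
theorem pair_mem (hW : Inv W) {w : Cfsg.GolayPt → ZMod 2} (hw : w ∈ W) (hwC : w ∉ Cfsg.golayCode)
    {p q : Cfsg.GolayPt} (hpq : p ≠ q) : indWord {p, q} ∈ W := by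
  by_cases hbig : ∃ c ∈ W, c ∈ Cfsg.golayCode ∧ c ≠ 0 ∧ c ≠ 1
  · obtain ⟨c, hc, hcC, h0, h1⟩ := hbig
    have h := pair_mem_sup hW hw hwC hpq
    rwa [sup_eq_left.2 (code_le hW hc hcC h0 h1)] at h
  push Not at hbig
  have key : ∀ a b : Cfsg.GolayPt, a ≠ b →
      indWord {a, b} ∈ W ∨ indWord {a, b} + 1 ∈ W := by
    intro a b hab
    obtain ⟨x, hx, c, hc, hxc⟩ := Submodule.mem_sup.1 (pair_mem_sup hW hw hwC hab)
    have hx' : x = indWord {a, b} + c := by
      rw [← hxc, add_assoc, CharTwo.add_self_eq_zero, add_zero]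
    -- the codeword is invariant up to complement under the pair stabilizer, hence trivial
    have hstab : ∀ σ ∈ Cfsg.M24, σ a = a → σ b = b → σ • Cfsg.support₂ c = Cfsg.support₂ c := by
      intro σ hσ ha hb
      have hpair : σ • ({a, b} : Finset Cfsg.GolayPt) = {a, b} := by
        simp [Finset.smul_finset_insert, ha, hb]
      have hσx : indWord {a, b} + indWord (σ • Cfsg.support₂ c) ∈ W := by
        have e : indWord {a, b} + indWord (σ • Cfsg.support₂ c) = fun p => x (σ.symm p) := by
          conv_lhs => rw [← hpair, smul_indWord, smul_indWord, indWord_support₂]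
          rw [hx']
          rfl
        rw [e]
        exact hW σ hσ x hx
      have hd : c + indWord (σ • Cfsg.support₂ c) ∈ W := by
        have := add_mem hx hσx
        rw [hx'] at this
        convert this using 1
        funext p
        simp only [Pi.add_apply]
        linear_combination (norm := ring_nf) -(CharTwo.add_self_eq_zero (indWord ({a, b} : Finset Cfsg.GolayPt) p))
      have hdC : c + indWord (σ • Cfsg.support₂ c) ∈ Cfsg.golayCode := by
        rw [smul_indWord, indWord_support₂]
        exact add_mem hc (mem_M24_iff.1 hσ c hc)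
      by_cases hd0 : c + indWord (σ • Cfsg.support₂ c) = 0
      · have := CharTwo.add_eq_zero.1 hd0
        conv_rhs => rw [this, support₂_indWord]
      · exfalso
        have h1 := congrFun (hbig _ hd hdC hd0) a
        simp only [Pi.add_apply, Pi.one_apply, smul_indWord, indWord_support₂] at h1
        rw [show σ.symm a = a from σ.symm_apply_eq.2 ha.symm, CharTwo.add_self_eq_zero] at h1
        exact zero_ne_one h1
    set R := (Finset.univ : Finset Cfsg.GolayPt) \ {a, b} with hR
    have hRc : R.card = 22 := by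
      rw [hR, Finset.card_sdiff_of_subset (Finset.subset_univ _), Finset.card_univ, card_golayPt,
        Finset.card_pair hab]
    have hRmem : ∀ y ∈ R, a ≠ y ∧ b ≠ y := fun y hy => by
      simp only [hR, Finset.mem_sdiff, Finset.mem_insert, Finset.mem_singleton, not_or] at hy
      exact ⟨Ne.symm hy.2.1, Ne.symm hy.2.2⟩
    have hcases := card_cases_of_mem (s := Cfsg.support₂ c) (by rw [indWord_support₂]; exact hc)
    have hsplit : (Cfsg.support₂ c ∩ R).card = 0 ∨ (Cfsg.support₂ c ∩ R).card = 22 := by
      by_cases h : ∃ y ∈ R, y ∈ Cfsg.support₂ c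
      · obtain ⟨y, hyR, hy⟩ := h
        right
        rw [Finset.inter_eq_right.2, hRc]
        intro z hz
        obtain ⟨σ, hσ, ha, hb, hyz⟩ :=
          exists_map_three hab (hRmem y hyR).1 (hRmem y hyR).2 hab (hRmem z hz).1 (hRmem z hz).2
        rw [← hyz, ← hstab σ hσ ha hb]
        exact Finset.smul_mem_smul_finset hy
      · left
        rw [Finset.card_eq_zero, Finset.eq_empty_iff_forall_notMem]
        intro y hy
        exact h ⟨y, (Finset.mem_inter.1 hy).2, (Finset.mem_inter.1 hy).1⟩
    have hle : (Cfsg.support₂ c).card ≤ (Cfsg.support₂ c ∩ R).card + 2 := by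
      have h := Finset.card_sdiff_add_card_inter (Cfsg.support₂ c) R
      have h2 : Cfsg.support₂ c \ R ⊆ {a, b} := by
        intro y hy; simp [hR] at hy; simp; tauto
      have := (Finset.card_le_card h2).trans Finset.card_le_two
      omega
    have hge : (Cfsg.support₂ c ∩ R).card ≤ (Cfsg.support₂ c).card :=
      Finset.card_le_card Finset.inter_subset_left
    have hext : (Cfsg.support₂ c).card = 0 ∨ (Cfsg.support₂ c).card = 24 := by omega
    rcases hext with h | h
    · left
      have : c = 0 := support₂_injective (by rw [Finset.card_eq_zero.1 h]; ext p; simp)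
      rw [this, add_zero] at hx'; exact hx' ▸ hx
    · right
      have : c = 1 := support₂_injective (by
        rw [Finset.eq_univ_of_card _ (h.trans card_golayPt.symm)]; ext p; simp)
      rw [this] at hx'; exact hx' ▸ hx
  rcases key p q hpq with h | h
  · exact h
  -- a third point: the two complements of pairs add up to a pair
  obtain ⟨r, -, hr⟩ := Finset.exists_mem_notMem_of_card_lt_card
    (show ({p, q} : Finset Cfsg.GolayPt).card < (Finset.univ : Finset Cfsg.GolayPt).card by
      rw [Finset.card_pair hpq, Finset.card_univ, card_golayPt]; norm_num)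
  simp only [Finset.mem_insert, Finset.mem_singleton, not_or] at hr
  obtain ⟨σ, hσ, hp', hq'⟩ := exists_map_two hpq (Ne.symm hr.2 : q ≠ r)
  have h2 : indWord {q, r} + 1 ∈ W := by
    have := hW σ hσ _ h
    convert this using 1
    rw [show ({q, r} : Finset Cfsg.GolayPt) = σ • {p, q} by
      simp [Finset.smul_finset_insert, hp', hq'], smul_indWord]
    rfl
  have h3 : indWord {p, r} ∈ W := by
    have := add_mem h h2
    rw [show indWord {p, q} + 1 + (indWord {q, r} + 1) = indWord {p, q} + indWord {q, r} + (1 + 1) by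
      abel, CharTwo.add_self_eq_zero, add_zero, pair_add hpq (Ne.symm hr.1) (Ne.symm hr.2)] at this
    exact this
  obtain ⟨τ, hτ, hτp, hτr⟩ := exists_map_two (Ne.symm hr.1 : p ≠ r) hpq
  have := inv_indWord hW hτ h3
  rwa [show τ • ({p, r} : Finset Cfsg.GolayPt) = {p, q} by
    simp [Finset.smul_finset_insert, hτp, hτr]] at this

theorem even_mem {U : Submodule (ZMod 2) (Cfsg.GolayPt → ZMod 2)}
    (hU : ∀ p q : Cfsg.GolayPt, p ≠ q → indWord {p, q} ∈ U) :
    ∀ n, ∀ s : Finset Cfsg.GolayPt, s.card = 2 * n → indWord s ∈ U := by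
  intro n
  induction n with
  | zero => intro s hs; rw [Finset.card_eq_zero.1 hs, indWord_empty]; exact zero_mem U
  | succ n ih =>
    intro s hs
    obtain ⟨t, hts, htc⟩ := Finset.exists_subset_card_eq (show 2 ≤ s.card by omega)
    obtain ⟨p, q, hpq, rfl⟩ := Finset.card_eq_two.1 htc
    have e : indWord s = indWord {p, q} + indWord (s \ {p, q}) := by
      rw [← indWord_symmDiff]
      congr 1
      ext y
      simp only [Finset.mem_symmDiff, Finset.mem_sdiff]
      constructor
      · intro hy; by_cases h : y ∈ ({p, q} : Finset Cfsg.GolayPt) <;> simp_all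
      · rintro (⟨hy, -⟩ | ⟨⟨hy, -⟩, -⟩)
        · exact hts hy
        · exact hy
    rw [e]
    exact add_mem (hU p q hpq) (ih _ (by rw [Finset.card_sdiff_of_subset hts, hs, htc]; omega))

theorem sum_eq_card (w : Cfsg.GolayPt → ZMod 2) :
    ∑ p, w p = ((Cfsg.support₂ w).card : ZMod 2) := by
  rw [Cfsg.support₂, Finset.card_filter, Nat.cast_sum]
  refine Finset.sum_congr rfl fun p _ => ?_
  generalize w p = x
  revert x
  decide

/-- For the automorphism group of the length-24 binary Golay code of the definitions (the Mathieu group of degree 24) acting on binary words of length 24 by permuting coordinates, the only invariant subspaces of the space of all words are: zero, the span of the all-ones word, the code itself, the even-weight words, and the whole space. (So the permutation module has a unique composition series.) -/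
theorem result (W : Submodule (ZMod 2) (Cfsg.GolayPt → ZMod 2)) (hW : ∀ σ ∈ Cfsg.M24, ∀ w ∈ W, (fun p => w (σ.symm p)) ∈ W) : W = ⊥ ∨ W = Submodule.span (ZMod 2) {fun _ => (1 : ZMod 2)} ∨ W = Cfsg.golayCode ∨ (W : Set (Cfsg.GolayPt → ZMod 2)) = {w | ∑ p, w p = 0} ∨ W = ⊤ := by
  by_cases hout : ∃ w ∈ W, w ∉ Cfsg.golayCode
  · obtain ⟨w, hw, hwC⟩ := hout
    have heven : ∀ v : Cfsg.GolayPt → ZMod 2, ∑ p, v p = 0 → v ∈ W := by
      intro v hv
      rw [sum_eq_card, ZMod.natCast_eq_zero_iff_even] at hv
      obtain ⟨n, hn⟩ := hv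
      rw [← indWord_support₂ v]
      exact even_mem (fun p q h => pair_mem hW hw hwC h) n _ (by omega)
    by_cases hodd : ∃ v ∈ W, ∑ p, v p ≠ 0
    · right; right; right; right
      obtain ⟨v, hv, hv0⟩ := hodd
      rw [Submodule.eq_top_iff']
      intro u
      by_cases hu : ∑ p, u p = 0
      · exact heven u hu
      · have h2 : ∑ p, (u + v) p = 0 := by
          have key : ∀ a b : ZMod 2, a ≠ 0 → b ≠ 0 → a + b = 0 := by decide
          simp only [Pi.add_apply, Finset.sum_add_distrib]
          exact key _ _ hu hv0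
        have := add_mem (heven _ h2) hv
        rwa [add_assoc, CharTwo.add_self_eq_zero, add_zero] at this
    · right; right; right; left
      push Not at hodd
      ext v
      exact ⟨fun h => hodd v h, fun h => heven v h⟩
  · push Not at hout
    by_cases hbig : ∃ c ∈ W, c ≠ 0 ∧ c ≠ 1
    · obtain ⟨c, hc, h0, h1⟩ := hbig
      exact Or.inr (Or.inr (Or.inl (le_antisymm hout (code_le hW hc (hout c hc) h0 h1))))
    · push Not at hbig
      by_cases h1 : (1 : Cfsg.GolayPt → ZMod 2) ∈ W
      · right; left
        refine le_antisymm (fun w hw => ?_) ?_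
        · rcases eq_or_ne w 0 with rfl | hw0
          · exact zero_mem _
          · rw [hbig w hw hw0]; exact Submodule.mem_span_singleton_self _
        · rw [Submodule.span_le, Set.singleton_subset_iff]; exact h1
      · left
        rw [Submodule.eq_bot_iff]
        intro w hw
        by_contra hw0
        exact h1 (hbig w hw hw0 ▸ hw)

end Cfsg.Agent.S5548
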