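import Cfsg.Statements.S5549
import Cfsg.Agent.Golay94.Pairs

set_option autoImplicit false
open Cfsg
open scoped Pointwise symmDiff

namespace Cfsg.Agent.S5549

open Cfsg.Agent.Golay Cfsg.Agent.Golay94

theorem one_mem_code : (1 : Cfsg.GolayPt → ZMod 2) ∈ Cfsg.golayCode :=
  Submodule.subset_span (Set.mem_union_right _ rfl)

/-- A linear map of the code fixing the all-ones word and mapping each class to a class of the same orbit
is induced modulo the all-ones word by an automorphism of the code. -/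
theorem exists_aut (x : ↥Cfsg.golayCode ≃ₗ[ZMod 2] ↥Cfsg.golayCode) (hx1 : x ⟨1, one_mem_code⟩ = ⟨1, one_mem_code⟩)
    (horb : ∀ c : ↥Cfsg.golayCode, ∃ σ ∈ Cfsg.M24,
      (x c : Cfsg.GolayPt → ZMod 2) = (fun p => (c : Cfsg.GolayPt → ZMod 2) (σ.symm p)) ∨
      (x c : Cfsg.GolayPt → ZMod 2) = (fun p => (c : Cfsg.GolayPt → ZMod 2) (σ.symm p)) + 1) :
    ∃ σ ∈ Cfsg.M24, ∀ c : ↥Cfsg.golayCode,
      (x c : Cfsg.GolayPt → ZMod 2) = (fun p => (c : Cfsg.GolayPt → ZMod 2) (σ.symm p)) ∨
      (x c : Cfsg.GolayPt → ZMod 2) = (fun p => (c : Cfsg.GolayPt → ZMod 2) (σ.symm p)) + 1 := by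
  classical
  have h2 : ∀ S : Finset Cfsg.GolayPt, S.card = 2 → evalOn S 1 = 0 := fun S h => by
    rw [evalOn_one, h]; decide
  -- the map induced on octads
  let oct : {o // o ∈ Cfsg.octads} → ↥Cfsg.golayCode := fun o => ⟨indWord o.1, (mem_octads_iff.1 o.2).1⟩
  have hΦ : ∀ o : {o // o ∈ Cfsg.octads}, ∃ o' : {o // o ∈ Cfsg.octads},
      (x (oct o) : Cfsg.GolayPt → ZMod 2) = indWord o'.1 ∨
      (x (oct o) : Cfsg.GolayPt → ZMod 2) = indWord o'.1 + 1 := by
    intro o
    obtain ⟨σ, hσ, h⟩ := horb (oct o)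
    refine ⟨⟨σ • o.1, smul_mem_octads hσ o.2⟩, ?_⟩
    simp only [smul_indWord]
    exact h
  choose Φ hΦ using hΦ
  have hlin : ∀ o o' : {o // o ∈ Cfsg.octads}, Φ o = Φ o' → o = o' := by
    intro o o' e
    have key : x (oct o) = x (oct o') ∨ x (oct o) = x (oct o' + ⟨1, one_mem_code⟩) := by
      rw [map_add, hx1]
      rcases hΦ o with h | h <;> rcases hΦ o' with h' | h' <;> rw [e] at h
      · exact Or.inl (Subtype.ext (h.trans h'.symm))
      · refine Or.inr (Subtype.ext ?_)
        rw [Submodule.coe_add, h, h', add_assoc, CharTwo.add_self_eq_zero, add_zero]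
      · refine Or.inr (Subtype.ext ?_)
        rw [Submodule.coe_add, h, h']
      · exact Or.inl (Subtype.ext (h.trans h'.symm))
    rcases key with h | h
    · exact Subtype.ext (by simpa [oct] using congrArg Cfsg.support₂ (congrArg Subtype.val (x.injective h)))
    · exfalso
      have h' := congrArg (fun c : ↥Cfsg.golayCode => (Cfsg.support₂ (c : Cfsg.GolayPt → ZMod 2)).card)
        (x.injective h)
      have hc : Cfsg.support₂ (indWord o'.1 + 1 : Cfsg.GolayPt → ZMod 2) = o'.1ᶜ := by
        ext p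
        by_cases hp : p ∈ o'.1 <;> simp [indWord, hp]
        decide
      simp only [oct, Submodule.coe_add, support₂_indWord, hc, Finset.card_compl,
        (mem_octads_iff.1 o.2).2, (mem_octads_iff.1 o'.2).2, card_golayPt] at h'
      omega
  -- images of pairs
  have hP : ∀ a b : Cfsg.GolayPt, ∃ T : Finset Cfsg.GolayPt, a ≠ b →
      T.card = 2 ∧ ∀ c : ↥Cfsg.golayCode, evalOn {a, b} (x c) = evalOn T c := by
    intro a b
    by_cases hab : a = b
    · exact ⟨∅, fun h => absurd hab h⟩
    have hS := h2 {a, b} (Finset.card_pair hab)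
    let f : ↥Cfsg.golayCode →ₗ[ZMod 2] ZMod 2 :=
      { toFun := fun c => evalOn {a, b} (x c)
        map_add' := fun c d => by
          simp only [evalOn, map_add, Submodule.coe_add, Pi.add_apply, Finset.sum_add_distrib]
        map_smul' := fun r c => by
          simp only [evalOn, map_smul, Submodule.coe_smul, Pi.smul_apply, smul_eq_mul,
            RingHom.id_apply, Finset.mul_sum] }
    obtain ⟨T, hT, hTf⟩ := exists_evalOn f
    refine ⟨T, fun _ => ⟨?_, hTf⟩⟩
    have hev : (T.card : ZMod 2) = 0 := by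
      rw [← evalOn_one, ← hTf ⟨1, one_mem_code⟩]
      show evalOn {a, b} (x ⟨1, one_mem_code⟩ : ↥Cfsg.golayCode) = 0
      rw [hx1]; exact hS
    have hcount : oddCount T = 352 := by
      rw [← oddCount_two (Finset.card_pair hab)]
      symm
      have hbij : Function.Bijective Φ := by
        haveI : Finite {o // o ∈ Cfsg.octads} := Set.toFinite _
        exact Finite.injective_iff_bijective.1 hlin
      have hval : ∀ o, evalOn T (indWord o.1) = evalOn {a, b} (indWord (Φ o).1) := by
        intro o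
        rw [← hTf (oct o)]
        show evalOn {a, b} (x (oct o)) = _
        rcases hΦ o with h | h <;> rw [h]
        simp only [evalOn, Pi.add_apply, Finset.sum_add_distrib]
        rw [show ∑ p ∈ ({a, b} : Finset Cfsg.GolayPt), (1 : Cfsg.GolayPt → ZMod 2) p = 0 from hS, add_zero]
      symm
      refine Finset.card_bij (fun o ho => (Φ ⟨o, mem_octadSet.1 (Finset.mem_filter.1 ho).1⟩).1) ?_ ?_ ?_
      · intro o ho
        refine Finset.mem_filter.2 ⟨mem_octadSet.2 (Φ _).2, ?_⟩
        rw [← hval]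
        exact (Finset.mem_filter.1 ho).2
      · intro o ho o' ho' e
        exact congrArg Subtype.val (hlin _ _ (Subtype.ext e))
      · intro o ho
        rw [Finset.mem_filter, mem_octadSet] at ho
        obtain ⟨o', ho'⟩ := hbij.2 ⟨o, ho.1⟩
        refine ⟨o'.1, Finset.mem_filter.2 ⟨mem_octadSet.2 o'.2, ?_⟩, by simp [ho']⟩
        rw [hval, ho']
        exact ho.2
    rcases (show T.card = 0 ∨ T.card = 2 ∨ T.card = 4 by
      rw [ZMod.natCast_eq_zero_iff_even, Nat.even_iff] at hev; omega) with h | h | h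
    · rw [Finset.card_eq_zero.1 h, oddCount_empty] at hcount; norm_num at hcount
    · exact h
    · exact absurd hcount (oddCount_four h).1
  choose P hP using hP
  have hpair : ∀ a b a' b', a ≠ b → a' ≠ b' → P a b = P a' b' →
      ({a, b} : Finset Cfsg.GolayPt) = {a', b'} := by
    intro a b a' b' hab hab' e
    refine pair_eq_of_evalOn (Finset.card_pair hab) (Finset.card_pair hab') fun c hc => ?_
    have h1 := (hP a b hab).2 (x.symm ⟨c, hc⟩)
    have h2' := (hP a' b' hab').2 (x.symm ⟨c, hc⟩)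
    rw [x.apply_symm_apply] at h1 h2'
    rw [h1, h2', e]
  have hsymm : ∀ a b, a ≠ b → P a b = P b a := by
    intro a b hab
    refine pair_eq_of_evalOn (hP a b hab).1 (hP b a hab.symm).1 fun c hc => ?_
    rw [← (hP a b hab).2 ⟨c, hc⟩, ← (hP b a hab.symm).2 ⟨c, hc⟩, Finset.pair_comm]
  have hmeet : ∀ a b c, a ≠ b → a ≠ c → b ≠ c → (P a b ∩ P a c).Nonempty := by
    intro a b c hab hac hbc
    by_contra hne
    rw [Finset.not_nonempty_iff_eq_empty] at hne
    have h4 : (P a b ∆ P a c).card = 4 := by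
      have := Cfsg.Agent.Golay.card_symmDiff_add (P a b) (P a c)
      rw [hne, Finset.card_empty, (hP a b hab).1, (hP a c hac).1] at this
      omega
    refine (oddCount_four h4).1 ?_
    rw [← oddCount_two (hP b c hbc).1]
    refine oddCount_congr fun d hd => ?_
    rw [evalOn_symmDiff, ← (hP a b hab).2 ⟨d, hd⟩, ← (hP a c hac).2 ⟨d, hd⟩,
      ← (hP b c hbc).2 ⟨d, hd⟩, evalOn_pair hab, evalOn_pair hac, evalOn_pair hbc]
    have key : ∀ p q r : ZMod 2, p + q + (p + r) = q + r := by decide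
    exact key _ _ _
  obtain ⟨π, hπ⟩ := exists_perm_of_pair_map P (fun a b h => (hP a b h).1) hsymm hpair hmeet
  -- `x c` is `c ∘ π` up to a constant
  have hform : ∀ c : ↥Cfsg.golayCode, ∀ p, (x c : Cfsg.GolayPt → ZMod 2) p
      = (c : Cfsg.GolayPt → ZMod 2) (π p)
        + ((x c : Cfsg.GolayPt → ZMod 2) none + (c : Cfsg.GolayPt → ZMod 2) (π none)) := by
    intro c p
    have key : ∀ q r s t : ZMod 2, q + r = s + t → q = s + (r + t) := by decide
    refine key _ _ _ _ ?_
    by_cases hp : p = none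
    · rw [hp]
      simp [CharTwo.add_self_eq_zero]
    · have h := (hP p none hp).2 c
      rwa [hπ p none hp, evalOn_pair hp, evalOn_pair (π.injective.ne hp)] at h
  have hcases : ∀ c : ↥Cfsg.golayCode,
      (x c : Cfsg.GolayPt → ZMod 2) = (fun p => (c : Cfsg.GolayPt → ZMod 2) (π p)) ∨
      (x c : Cfsg.GolayPt → ZMod 2) = (fun p => (c : Cfsg.GolayPt → ZMod 2) (π p)) + 1 := by
    intro c
    have h01 : ∀ k : ZMod 2, k = 0 ∨ k = 1 := by decide
    rcases h01 ((x c : Cfsg.GolayPt → ZMod 2) none + (c : Cfsg.GolayPt → ZMod 2) (π none)) with h | h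
    · exact Or.inl (funext fun p => by rw [hform c p, h, add_zero])
    · exact Or.inr (funext fun p => by rw [hform c p, h]; rfl)
  refine ⟨π.symm, mem_M24_iff.2 fun w hw => ?_, fun c => by simpa using hcases c⟩
  rcases hcases ⟨w, hw⟩ with h | h
  · rw [Equiv.symm_symm]; rw [← h]; exact (x ⟨w, hw⟩).2
  · have e : (fun p => w (π.symm.symm p)) = (x ⟨w, hw⟩ : Cfsg.GolayPt → ZMod 2) + 1 := by
      rw [h, add_assoc, CharTwo.add_self_eq_zero, add_zero, Equiv.symm_symm]
    rw [e]
    exact add_mem (x ⟨w, hw⟩).2 one_mem_code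

/-- Let X be a group of linear automorphisms of the length-24 binary Golay code of the definitions that fix the all-ones word, containing the coordinate-permutation action of every element of the code's automorphism group (the Mathieu group of degree 24), and such that every element of X sends each codeword into its orbit under that Mathieu group up to adding the all-ones word (X has the same orbits as the Mathieu group on the code modulo the all-ones word). Then every element of X agrees, modulo the all-ones word, with the action of a single element of the Mathieu group: X induces exactly the Mathieu group on the code modulo the all-ones word. -/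
theorem result (X : Subgroup (↥Cfsg.golayCode ≃ₗ[ZMod 2] ↥Cfsg.golayCode)) (h1 : ∀ x ∈ X, ∀ e : ↥Cfsg.golayCode, (e : (Cfsg.GolayPt → ZMod 2)) = (fun _ => (1 : ZMod 2)) → x e = e) (hM : ∀ σ ∈ Cfsg.M24, ∃ x ∈ X, ∀ c : ↥Cfsg.golayCode, ((x c : ↥Cfsg.golayCode) : (Cfsg.GolayPt → ZMod 2)) = fun p => (c : (Cfsg.GolayPt → ZMod 2)) (σ.symm p)) (horb : ∀ x ∈ X, ∀ c : ↥Cfsg.golayCode, ∃ σ ∈ Cfsg.M24, ((x c : ↥Cfsg.golayCode) : (Cfsg.GolayPt → ZMod 2)) = (fun p => (c : (Cfsg.GolayPt → ZMod 2)) (σ.symm p)) ∨ ((x c : ↥Cfsg.golayCode) : (Cfsg.GolayPt → ZMod 2)) = (fun p => (c : (Cfsg.GolayPt → ZMod 2)) (σ.symm p)) + fun _ => (1 : ZMod 2)) (x : ↥Cfsg.golayCode ≃ₗ[ZMod 2] ↥Cfsg.golayCode) (hx : x ∈ X) : ∃ σ ∈ Cfsg.M24, ∀ c : ↥Cfsg.golayCode, ((x c : ↥Cfsg.golayCode) : (Cfsg.GolayPt → ZMod 2)) = (fun p => (c : (Cfsg.GolayPt → ZMod 2)) (σ.symm p)) ∨ ((x c : ↥Cfsg.golayCode) : (Cfsg.GolayPt → ZMod 2)) = (fun p => (c : (Cfsg.GolayPt → ZMod 2)) (σ.symm p)) + fun _ => (1 : ZMod 2) := by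
  exact exists_aut x (h1 x hx _ rfl) (horb x hx)

end Cfsg.Agent.S5549
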