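import Cfsg.Statements.S5550
import Cfsg.Agent.Golay94.Pairs
import Cfsg.Agent.Golay.Triples

set_option autoImplicit false
open Cfsg
open scoped Pointwise symmDiff

namespace Cfsg.Agent.S5550

open Cfsg.Agent.Golay Cfsg.Agent.Golay94 Finset

/-- `b` has at least four images under elements preserving `P` and fixing `a`. -/
def ManyMoves (P : Finset Cfsg.GolayPt) (a b : Cfsg.GolayPt) : Prop :=
  ∃ Y : Finset Cfsg.GolayPt, 4 ≤ Y.card ∧
    ∀ y ∈ Y, ∃ σ ∈ Cfsg.M24, σ • P = P ∧ σ a = a ∧ σ b = y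

/-- The conclusion for a set of at most four points. -/
theorem exists_move {P T : Finset Cfsg.GolayPt} (hT : T.card ≤ 4) (hne : T.Nonempty)
    (hsingle : ∀ a, ∃ σ ∈ Cfsg.M24, σ • P = P ∧ σ a ≠ a)
    (hmoves : ∀ a ∈ T, ∀ b ∈ T, a ≠ b → (∃ a' ∈ T, ∀ b' ∈ T, b' ≠ a' → ManyMoves P a' b')) :
    ∃ σ ∈ Cfsg.M24, σ • P = P ∧ indWord (σ • T) + indWord T ∉ Cfsg.golayCode := by
  have key : ∀ σ : Equiv.Perm Cfsg.GolayPt, σ • T ≠ T → ((σ • T) ∆ T).card < 8 →
      indWord (σ • T) + indWord T ∉ Cfsg.golayCode := by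
    intro σ hne' hlt hmem
    rw [← indWord_symmDiff] at hmem
    rcases card_cases_of_mem hmem with h | h | h | h | h
    · exact hne' (symmDiff_eq_bot.1 (Finset.card_eq_zero.1 h))
    all_goals omega
  by_cases h1 : T.card = 1
  · obtain ⟨a, rfl⟩ := Finset.card_eq_one.1 h1
    obtain ⟨σ, hσ, hP, ha⟩ := hsingle a
    refine ⟨σ, hσ, hP, key σ ?_ ?_⟩
    · rw [Finset.smul_finset_singleton, Ne, Finset.singleton_inj]; exact ha
    · have := Cfsg.Agent.Golay.card_symmDiff_add (σ • ({a} : Finset Cfsg.GolayPt)) {a}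
      rw [Finset.card_smul_finset, Finset.card_singleton] at this
      omega
  · obtain ⟨a₀, ha₀, b₀, hb₀, hab₀⟩ := Finset.one_lt_card.1
      (show 1 < T.card by have := hne.card_pos; omega)
    obtain ⟨a, ha, hM⟩ := hmoves a₀ ha₀ b₀ hb₀ hab₀
    obtain ⟨b, hb, hba⟩ := Finset.exists_mem_ne (show 1 < T.card by have := hne.card_pos; omega) a
    obtain ⟨Y, hY, hYm⟩ := hM b hb hba
    obtain ⟨y, hy, hyT⟩ := Finset.exists_mem_notMem_of_card_lt_card
      (show (T.erase a).card < Y.card by rw [Finset.card_erase_of_mem ha]; omega)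
    obtain ⟨σ, hσ, hP, hσa, hσb⟩ := hYm y hy
    have hya : y ≠ a := fun e => hba (σ.injective (by rw [hσb, hσa, e]))
    have hyT' : y ∉ T := fun h => hyT (Finset.mem_erase.2 ⟨hya, h⟩)
    refine ⟨σ, hσ, hP, key σ (fun e => hyT' ?_) ?_⟩
    · rw [← e, ← hσb]; exact Finset.smul_mem_smul_finset hb
    · have h2 := Cfsg.Agent.Golay.card_symmDiff_add (σ • T) T
      have h3 : 0 < ((σ • T) ∩ T).card := Finset.card_pos.2 ⟨a, Finset.mem_inter.2
        ⟨Finset.mem_smul_finset.2 ⟨a, ha, hσa⟩, ha⟩⟩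
      rw [Finset.card_smul_finset] at h2
      omega

theorem smul_compl {σ : Equiv.Perm Cfsg.GolayPt} {P : Finset Cfsg.GolayPt} (h : σ • P = P) :
    σ • Pᶜ = Pᶜ := by
  rw [Finset.compl_eq_univ_sdiff, Finset.smul_finset_sdiff, h, Finset.smul_finset_univ]

theorem exists_five_within {s : Finset Cfsg.GolayPt} (hs : 5 ≤ s.card) {a : Cfsg.GolayPt} (ha : a ∈ s) :
    ∀ b ∈ s, b ≠ a → ∃ e : Fin 5 ↪ Cfsg.GolayPt, (∀ i, e i ∈ s) ∧ e 0 = a ∧ e 1 = b := by
  intro b hb hba
  have h3 : 3 ≤ ((s.erase a).erase b).card := by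
    rw [Finset.card_erase_of_mem (Finset.mem_erase.2 ⟨hba, hb⟩), Finset.card_erase_of_mem ha]; omega
  obtain ⟨t, ht, htc⟩ := Finset.exists_subset_card_eq h3
  obtain ⟨c, d, e, hcd, hce, hde, rfl⟩ := Finset.card_eq_three.1 htc
  simp only [Finset.insert_subset_iff, Finset.singleton_subset_iff, Finset.mem_erase] at ht
  refine ⟨⟨![a, b, c, d, e], ?_⟩, ?_, rfl, rfl⟩
  · intro i j h
    fin_cases i <;> fin_cases j <;> simp_all [Ne.symm]
  · intro i; show ![a, b, c, d, e] i ∈ s; fin_cases i <;> simp_all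

theorem octad_moves_inside {o : Finset Cfsg.GolayPt} (ho : o ∈ Cfsg.octads) {a b : Cfsg.GolayPt}
    (ha : a ∈ o) (hb : b ∈ o) (hba : b ≠ a) : ManyMoves o a b := by
  have hc := (mem_octads_iff.1 ho).2
  refine ⟨o.erase a, by rw [Finset.card_erase_of_mem ha, hc]; norm_num, fun y hy => ?_⟩
  obtain ⟨hya, hyo⟩ := Finset.mem_erase.1 hy
  obtain ⟨e, he, e0, e1⟩ := exists_five_within (by omega) ha b hb hba
  obtain ⟨f, hf, f0, f1⟩ := exists_five_within (by omega) ha y hyo hya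
  obtain ⟨σ, hσ, h⟩ := exists_five e f
  refine ⟨σ, hσ, octad_eq_of_five (smul_mem_octads hσ ho) ho ?_, by rw [← e0, h 0, f0, e0],
    by rw [← e1, h 1, f1]⟩
  have hcard : (Finset.univ.map f).card = 5 := by simp
  refine hcard.ge.trans (Finset.card_le_card fun p hp => ?_)
  obtain ⟨i, -, rfl⟩ := Finset.mem_map.1 hp
  refine Finset.mem_inter.2 ⟨?_, hf i⟩
  rw [← h i]
  exact Finset.smul_mem_smul_finset (he i)

theorem oct0_card : oct0ᶜ.card = 16 := by decide +kernel

/-- The translations fixing the octad pointwise, conjugated from the base octad. -/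
theorem octad_translate {o : Finset Cfsg.GolayPt} (ho : o ∈ Cfsg.octads) {x y : Cfsg.GolayPt}
    (hx : x ∉ o) (hy : y ∉ o) :
    ∃ σ ∈ Cfsg.M24, σ • o = o ∧ (∀ p ∈ o, σ p = p) ∧ σ x = y := by
  obtain ⟨g, hg, hgo⟩ := exists_octad_to_oct0 ho
  have hT : ∀ z, z ∉ oct0 → IsTarget 6 z := fun z hz => by
    unfold IsTarget
    rw [if_neg (by norm_num), if_neg (by norm_num)]
    exact hz
  have hm : ∀ p, g p ∈ oct0 ↔ p ∈ o := apply_mem_octad_iff hgo
  obtain ⟨u, hu, hux⟩ := exists_chainStab_move (H := Cfsg.M24) gen3_le (k := 6) (by norm_num)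
    (hT (g x) (fun h => hx ((hm x).1 h)))
  obtain ⟨v, hv, hvy⟩ := exists_chainStab_move (H := Cfsg.M24) gen3_le (k := 6) (by norm_num)
    (hT (g y) (fun h => hy ((hm y).1 h)))
  have hfix : ∀ p ∈ o, (g⁻¹ * (v * u⁻¹) * g) p = p := by
    intro p hp
    have h0 := (hm p).2 hp
    have h1 : u⁻¹ (g p) = g p := fix_oct0_of_six (inv_mem hu) h0
    have h2 : v (g p) = g p := fix_oct0_of_six hv h0
    simp only [Equiv.Perm.mul_apply, h1, h2, Equiv.Perm.inv_eq_iff_eq]
  refine ⟨g⁻¹ * (v * u⁻¹) * g,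
    mul_mem (mul_mem (inv_mem hg) (mul_mem (mem_chainStab.1 hv).1 (inv_mem (mem_chainStab.1 hu).1))) hg,
    ?_, hfix, ?_⟩
  · exact Finset.eq_of_subset_of_card_le (fun p hp => by
      obtain ⟨q, hq, rfl⟩ := Finset.mem_smul_finset.1 hp
      rw [Equiv.Perm.smul_def, hfix q hq]; exact hq) (by rw [Finset.card_smul_finset])
  · have : u⁻¹ (g x) = basePt 6 := by rw [Equiv.Perm.inv_eq_iff_eq, hux]
    simp only [Equiv.Perm.mul_apply, this, hvy, Equiv.Perm.inv_eq_iff_eq]

/-- Words fixing the base octad and the seventh base point. -/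
def outsideWords : List (List ℕ) := [[], [180], [180, 180], [162, 176, 146]]

theorem outsideWords_ok : ∀ w ∈ outsideWords, (∀ i ∈ w, i < 191) ∧
    wordFun w (basePt 6) = basePt 6 ∧ ∀ p ∈ oct0, wordFun w p ∈ oct0 := by decide +kernel

theorem outsideWords_moves : ∀ b : Cfsg.GolayPt, b ∉ oct0 → b ≠ basePt 6 →
    4 ≤ (outsideWords.toFinset.image fun w => wordFun w b).card := by decide +kernel

theorem exists_of_word : ∀ w : List ℕ, (∀ i ∈ w, i < 191) → ∃ g ∈ Cfsg.M24, ⇑g = wordFun w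
  | [], _ => ⟨1, one_mem _, rfl⟩
  | i :: w, h => by
    obtain ⟨g, hg, eg⟩ := exists_of_word w fun x hx => h x (List.mem_cons_of_mem _ hx)
    obtain ⟨a, ha, ea⟩ := node_mem_gen3 i (h i List.mem_cons_self)
    refine ⟨a * g, mul_mem (gen3_le ha) hg, funext fun p => ?_⟩
    rw [wordFun, ← ea, ← eg]; rfl

theorem basePt_six : basePt 6 ∉ oct0 := by decide +kernel

theorem octad_moves_outside {o : Finset Cfsg.GolayPt} (ho : o ∈ Cfsg.octads) {a b : Cfsg.GolayPt}
    (ha : a ∉ o) (hb : b ∉ o) (hba : b ≠ a) : ManyMoves o a b := by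
  classical
  obtain ⟨g, hg, hgo⟩ := exists_octad_to_oct0 ho
  have hm : ∀ p, g p ∈ oct0 ↔ p ∈ o := apply_mem_octad_iff hgo
  obtain ⟨t, ht, hto, -, hta⟩ := octad_translate oct0_mem (x := g a) (y := basePt 6)
    (fun h => ha ((hm a).1 h)) basePt_six
  set c := t * g with hc
  have hco : c • o = oct0 := by rw [hc, mul_smul, hgo, hto]
  have hca : c a = basePt 6 := hta
  have hcb : c b ∉ oct0 := fun h => hb ((apply_mem_octad_iff hco b).1 h)
  have hcne : c b ≠ basePt 6 := fun h => hba (c.injective (h.trans hca.symm))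
  refine ⟨(outsideWords.toFinset.image fun w => wordFun w (c b)).image c.symm, ?_, fun y hy => ?_⟩
  · rw [Finset.card_image_of_injective _ c.symm.injective]
    exact outsideWords_moves _ hcb hcne
  · simp only [Finset.mem_image, List.mem_toFinset] at hy
    obtain ⟨_, ⟨w, hw, rfl⟩, rfl⟩ := hy
    obtain ⟨hlt, hfix, hin⟩ := outsideWords_ok w hw
    obtain ⟨u, hu, eu⟩ := exists_of_word w hlt
    have huo : u • oct0 = oct0 := Finset.eq_of_subset_of_card_le (fun p hp => by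
      obtain ⟨q, hq, rfl⟩ := Finset.mem_smul_finset.1 hp
      rw [Equiv.Perm.smul_def, eu]; exact hin q hq) (by rw [Finset.card_smul_finset])
    refine ⟨c⁻¹ * u * c, mul_mem (mul_mem (inv_mem (mul_mem ht hg)) hu) (mul_mem ht hg), ?_, ?_, ?_⟩
    · rw [mul_smul, hco, mul_smul, huo, ← hco, inv_smul_smul]
    · rw [Equiv.Perm.mul_apply, Equiv.Perm.mul_apply, hca, eu, hfix, Equiv.Perm.inv_eq_iff_eq, hca]
    · rw [Equiv.Perm.mul_apply, Equiv.Perm.mul_apply, eu, Equiv.Perm.coe_inv]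

theorem exists_move_octad {o T : Finset Cfsg.GolayPt} (ho : o ∈ Cfsg.octads) (hT : T.card ≤ 4)
    (hne : T.Nonempty) :
    ∃ σ ∈ Cfsg.M24, σ • o = o ∧ indWord (σ • T) + indWord T ∉ Cfsg.golayCode := by
  have hc := (mem_octads_iff.1 ho).2
  refine exists_move hT hne (fun a => ?_) (fun a₀ ha₀ b₀ hb₀ hab => ?_)
  · by_cases ha : a ∈ o
    · obtain ⟨p, hp, hpa⟩ := Finset.exists_mem_ne (show 1 < o.card by omega) a
      obtain ⟨Y, hY, hYm⟩ := octad_moves_inside ho hp ha hpa.symm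
      obtain ⟨y, hy, hya⟩ := Finset.exists_mem_ne (show 1 < Y.card by omega) a
      obtain ⟨σ, hσ, hσo, -, hσa⟩ := hYm y hy
      exact ⟨σ, hσ, hσo, hσa.trans_ne hya⟩
    · obtain ⟨y, hy, hya⟩ := Finset.exists_mem_ne
        (show 1 < oᶜ.card by rw [Finset.card_compl, card_golayPt, hc]; norm_num) a
      obtain ⟨σ, hσ, hσo, -, hσa⟩ := octad_translate ho ha (Finset.mem_compl.1 hy)
      exact ⟨σ, hσ, hσo, hσa.trans_ne hya⟩
  · by_cases hin : ∃ a ∈ T, a ∈ o
    · obtain ⟨a, haT, ha⟩ := hin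
      refine ⟨a, haT, fun b hbT hba => ?_⟩
      by_cases hb : b ∈ o
      · exact octad_moves_inside ho ha hb hba
      · refine ⟨oᶜ, by rw [Finset.card_compl, card_golayPt, hc]; norm_num, fun y hy => ?_⟩
        obtain ⟨σ, hσ, hσo, hfix, hσb⟩ := octad_translate ho hb (Finset.mem_compl.1 hy)
        exact ⟨σ, hσ, hσo, hfix a ha, hσb⟩
    · push Not at hin
      exact ⟨a₀, ha₀, fun b hbT hba => octad_moves_outside ho (hin a₀ ha₀) (hin b hbT) hba⟩

theorem dodecad_moves {d : Finset Cfsg.GolayPt} (hd : d ∈ Cfsg.dodecads) {a b : Cfsg.GolayPt}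
    (ha : a ∈ d) (hba : b ≠ a) : ManyMoves d a b := by
  have hc := (mem_dodecads_iff.1 hd).2
  by_cases hb : b ∈ d
  · refine ⟨d.erase a, by rw [Finset.card_erase_of_mem ha, hc]; norm_num, fun y hy => ?_⟩
    obtain ⟨hya, hyd⟩ := Finset.mem_erase.1 hy
    obtain ⟨e, he, e0, e1⟩ := exists_five_within (by omega) ha b hb hba
    obtain ⟨f, hf, f0, f1⟩ := exists_five_within (by omega) ha y hyd hya
    obtain ⟨g, hg, -⟩ := existsUnique_dodecad_five hd e f he hf
    refine ⟨((g : Cfsg.M24) : Equiv.Perm Cfsg.GolayPt), (g : Cfsg.M24).2,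
      MulAction.mem_stabilizer_iff.1 g.2, ?_, ?_⟩
    · conv_lhs => rw [← e0]
      rw [hg 0, f0]
    · rw [← e1, hg 1, f1]
  · refine ⟨dᶜ, by rw [Finset.card_compl, card_golayPt, hc]; norm_num, fun y hy => ?_⟩
    have hy' := Finset.mem_compl.1 hy
    have h3 : 3 ≤ dᶜ.card := by rw [Finset.card_compl, card_golayPt, hc]; norm_num
    obtain ⟨x, hx, hx0⟩ : ∃ x : Fin 3 ↪ Cfsg.GolayPt, (∀ i, x i ∉ d) ∧ x 0 = b := by
      obtain ⟨e, he, e0, -⟩ := exists_five_within
        (show 5 ≤ dᶜ.card by rw [Finset.card_compl, card_golayPt, hc]; norm_num)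
        (Finset.mem_compl.2 hb) _
        (Finset.exists_mem_ne (show 1 < dᶜ.card by omega) b).choose_spec.1
        (Finset.exists_mem_ne (show 1 < dᶜ.card by omega) b).choose_spec.2
      exact ⟨(Fin.castLEEmb (by norm_num)).trans e, fun i => Finset.mem_compl.1 (he _), e0⟩
    obtain ⟨x', hx', hx0'⟩ : ∃ x : Fin 3 ↪ Cfsg.GolayPt, (∀ i, x i ∉ d) ∧ x 0 = y := by
      obtain ⟨e, he, e0, -⟩ := exists_five_within
        (show 5 ≤ dᶜ.card by rw [Finset.card_compl, card_golayPt, hc]; norm_num) hy _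
        (Finset.exists_mem_ne (show 1 < dᶜ.card by omega) y).choose_spec.1
        (Finset.exists_mem_ne (show 1 < dᶜ.card by omega) y).choose_spec.2
      exact ⟨(Fin.castLEEmb (by norm_num)).trans e, fun i => Finset.mem_compl.1 (he _), e0⟩
    obtain ⟨g, hg, hgd, hgp, hgx⟩ := exists_move_triple hd ha x x' hx hx'
    refine ⟨g, hg, ?_, ?_, ?_⟩
    · simpa using hgd
    · simpa using hgp
    · rw [← hx0, hgx 0, hx0']

theorem exists_move_dodecad {d T : Finset Cfsg.GolayPt} (hd : d ∈ Cfsg.dodecads) (hT : T.card ≤ 4)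
    (hne : T.Nonempty) :
    ∃ σ ∈ Cfsg.M24, σ • d = d ∧ indWord (σ • T) + indWord T ∉ Cfsg.golayCode := by
  have hd' := Cfsg.Agent.Golay.compl_mem_dodecads hd
  refine exists_move hT hne (fun a => ?_) (fun a₀ ha₀ b₀ hb₀ hab => ?_)
  · have hside : ∀ d' ∈ Cfsg.dodecads, a ∈ d' → ∃ σ ∈ Cfsg.M24, σ • d' = d' ∧ σ a ≠ a := by
      intro d' hd'' ha
      have hc := (mem_dodecads_iff.1 hd'').2
      obtain ⟨p, hp, hpa⟩ := Finset.exists_mem_ne (show 1 < d'.card by omega) a
      obtain ⟨Y, hY, hYm⟩ := dodecad_moves hd'' hp hpa.symm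
      obtain ⟨y, hy, hya⟩ := Finset.exists_mem_ne (show 1 < Y.card by omega) a
      obtain ⟨σ, hσ, hσd, -, hσa⟩ := hYm y hy
      exact ⟨σ, hσ, hσd, hσa.trans_ne hya⟩
    by_cases ha : a ∈ d
    · exact hside d hd ha
    · obtain ⟨σ, hσ, hσd, h⟩ := hside dᶜ hd' (Finset.mem_compl.2 ha)
      exact ⟨σ, hσ, by have := smul_compl hσd; rwa [compl_compl] at this, h⟩
  · refine ⟨a₀, ha₀, fun b _ hba => ?_⟩
    by_cases ha : a₀ ∈ d
    · exact dodecad_moves hd ha hba
    · obtain ⟨Y, hY, hYm⟩ := dodecad_moves hd' (Finset.mem_compl.2 ha) hba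
      refine ⟨Y, hY, fun y hy => ?_⟩
      obtain ⟨σ, hσ, hσd, h⟩ := hYm y hy
      exact ⟨σ, hσ, by have := smul_compl hσd; rwa [compl_compl] at this, h⟩

/-- Let u be a word of the length-24 binary Golay code of the definitions (possibly zero or all-ones) and w any binary word of length 24 outside the code. Then some automorphism of the code (a coordinate permutation preserving it) fixes u but moves w to a word not congruent to w modulo the code: the stabilizer of a codeword fixes no non-zero element of the quotient of the space of all words by the code. -/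
theorem result (u : (Cfsg.GolayPt → ZMod 2)) (hu : u ∈ Cfsg.golayCode) (w : (Cfsg.GolayPt → ZMod 2)) (hw : w ∉ Cfsg.golayCode) : ∃ σ ∈ Cfsg.M24, (fun p => u (σ.symm p)) = u ∧ (fun p => w (σ.symm p)) - w ∉ Cfsg.golayCode := by
  classical
  obtain ⟨T, hT, hwT⟩ := exists_small_rep w
  have hne : T.Nonempty := by
    rw [Finset.nonempty_iff_ne_empty]
    rintro rfl
    have h0 : indWord (∅ : Finset Cfsg.GolayPt) = 0 := by funext p; simp [indWord]
    rw [h0, add_zero] at hwT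
    exact hw hwT
  -- a set with the same stabiliser in the relevant cases
  obtain ⟨P, hP, hstab⟩ : ∃ P, (P ∈ Cfsg.octads ∨ P ∈ Cfsg.dodecads) ∧
      ∀ σ : Equiv.Perm Cfsg.GolayPt, σ • P = P → σ • Cfsg.support₂ u = Cfsg.support₂ u := by
    have hu' : indWord (Cfsg.support₂ u) ∈ Cfsg.golayCode := by rwa [indWord_support₂]
    rcases card_cases_of_mem hu' with h | h | h | h | h
    · exact ⟨oct0, Or.inl oct0_mem, fun σ _ => by rw [Finset.card_eq_zero.1 h, Finset.smul_finset_empty]⟩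
    · exact ⟨_, Or.inl (mem_octads_iff.2 ⟨hu', h⟩), fun σ hσ => hσ⟩
    · exact ⟨_, Or.inr (mem_dodecads_iff.2 ⟨hu', h⟩), fun σ hσ => hσ⟩
    · refine ⟨(Cfsg.support₂ u)ᶜ, Or.inl (mem_octads_iff.2 ⟨?_, ?_⟩), fun σ hσ => ?_⟩
      · have e : indWord (Cfsg.support₂ u)ᶜ = u + 1 := by
          funext p
          have key : ∀ z : ZMod 2, (if z ≠ 0 then (0 : ZMod 2) else 1) = z + 1 := by decide
          rw [Pi.add_apply, Pi.one_apply, ← key (u p)]
          by_cases hp : u p = 0 <;> simp [indWord, hp]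
        rw [e]
        exact add_mem hu (Submodule.subset_span (Set.mem_union_right _ rfl))
      · rw [Finset.card_compl, card_golayPt, h]
      · have := smul_compl hσ; rwa [compl_compl] at this
    · exact ⟨oct0, Or.inl oct0_mem, fun σ _ => by
        rw [Finset.eq_univ_of_card _ (h.trans card_golayPt.symm), Finset.smul_finset_univ]⟩
  obtain ⟨σ, hσ, hσP, hout⟩ : ∃ σ ∈ Cfsg.M24, σ • P = P ∧
      indWord (σ • T) + indWord T ∉ Cfsg.golayCode := by
    rcases hP with hP | hP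
    · exact exists_move_octad hP hT hne
    · exact exists_move_dodecad hP hT hne
  refine ⟨σ, hσ, ?_, fun hmem => hout ?_⟩
  · apply support₂_injective
    rw [← smul_support₂]
    exact hstab σ hσP
  · have h1 := mem_M24_iff.1 hσ _ hwT
    have e : indWord (σ • T) + indWord T
        = (fun p => (w + indWord T) (σ.symm p)) + (w + indWord T) + ((fun p => w (σ.symm p)) - w) := by
      funext p
      rw [smul_indWord]
      simp only [Pi.add_apply, Pi.sub_apply]
      have key : ∀ a b c d : ZMod 2, b + d = (a + b) + (c + d) + (a - c) := by decide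
      exact key _ _ _ _
    rw [e]
    exact add_mem (add_mem h1 hwT) hmem

end Cfsg.Agent.S5550
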