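import Cfsg.Statements.S5563
import Cfsg.Agent.JFourType.PMain

set_option autoImplicit false
open Cfsg

namespace Cfsg.Agent.S5563

/-- Let G be a finite non-abelian simple group of Janko-four type (an involution z whose centralizer H has an extraspecial largest normal 2-subgroup E of order 2^13 containing its centralizer in H, a normal subgroup N ≥ E of H with N/E of order 3 and H/N the automorphism group of M₂₂, and a subgroup P ≤ N of order 3 with C_E(P) = ⟨z⟩, N_H(P) ≠ C_H(P) and P ≤ C_H(P)′). Then the centralizer of P in H is the perfect sixfold cover of M₂₂ — it is perfect, its centre is cyclic of order 6 and its central quotient is isomorphic to M₂₂ — and the normalizer of P in G lies in H. -/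
theorem result {G : Type*} [Group G] [Finite G] [IsSimpleGroup G] (hG : ¬ IsMulCommutative G) (z : G) (P : Subgroup G) (hJ : Cfsg.IsOfJankoFourTypeWith z P) :
    ⁅(Subgroup.centralizer ({z} : Set G) ⊓ Subgroup.centralizer (P : Set G)), (Subgroup.centralizer ({z} : Set G) ⊓ Subgroup.centralizer (P : Set G))⁆ = (Subgroup.centralizer ({z} : Set G) ⊓ Subgroup.centralizer (P : Set G)) ∧
    IsCyclic ↥(Subgroup.center ↥(Subgroup.centralizer ({z} : Set G) ⊓ Subgroup.centralizer (P : Set G))) ∧ Nat.card ↥(Subgroup.center ↥(Subgroup.centralizer ({z} : Set G) ⊓ Subgroup.centralizer (P : Set G))) = 6 ∧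
    Cfsg.Spor.IsoM22 (↥(Subgroup.centralizer ({z} : Set G) ⊓ Subgroup.centralizer (P : Set G)) ⧸ Subgroup.center ↥(Subgroup.centralizer ({z} : Set G) ⊓ Subgroup.centralizer (P : Set G))) ∧ Subgroup.normalizer (P : Set G) ≤ Subgroup.centralizer ({z} : Set G) := by
  exact Cfsg.Agent.JFourType.centralizer_three hG hJ

end Cfsg.Agent.S5563
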