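import Cfsg.Statements.S5565
import Cfsg.Agent.JFourType.SylThree
import Cfsg.Agent.JFourType.PCentral
import Cfsg.Agent.JFourType.PFusion
import Cfsg.Agent.JFourType.ThreeFacts

set_option autoImplicit false
open Cfsg

namespace Cfsg.Agent.S5565

open Cfsg.Agent.JFourType in
/-- The normaliser of the subgroup of order three lies in the centraliser of the involution. -/
theorem normalizer_le_centralizer {G : Type*} [Group G] [Finite G] [IsSimpleGroup G]
    (hG : ¬ IsMulCommutative G) {z : G} {P : Subgroup G} (hP : IsOfJankoFourTypeWith z P) :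
    Subgroup.normalizer (P : Set G) ≤ Subgroup.centralizer ({z} : Set G) := by
  obtain ⟨F⟩ := nonempty_pframe hP
  obtain ⟨x, X⟩ := exists_pgen hP F
  obtain ⟨g, hne, hs⟩ := exists_conj_commute hG hP
  have hI : InvFacts F.rho.range := fun hb hb2 hsemi =>
    inv_fix_aniso F.hK F.hg F.hcR F.hcK hb hb2 hsemi
  have hT : ThreeFacts F.rho.range := fun hp hp3 hns => three_facts F.hK F.hg F.hcR F.hcK hp hp3 hns
  exact X.normalizer_le hI (X.centralizer_facts hI hT hs hne).1

/-- Let G be a finite non-abelian simple group of Janko-four type (an involution z whose centralizer H has an extraspecial largest normal 2-subgroup E of order 2^13 containing its centralizer in H, a normal subgroup N ≥ E of H with N/E of order 3 and H/N the automorphism group of M₂₂, and a subgroup P ≤ N of order 3 with C_E(P) = ⟨z⟩, N_H(P) ≠ C_H(P) and P ≤ C_H(P)′). Then a Sylow 3-subgroup R of G contained in H is extraspecial of order 27 and exponent 3, its normalizer in G lies in H, and that normalizer has order 864. -/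
theorem result {G : Type*} [Group G] [Finite G] [IsSimpleGroup G] (hG : ¬ IsMulCommutative G) (z : G) (hJ : Cfsg.IsOfJankoFourTypeAt z) (R : Sylow 3 G) (hR : (R : Subgroup G) ≤ Subgroup.centralizer ({z} : Set G)) :
    Cfsg.IsExtraspecial 3 ↥(R : Subgroup G) ∧ Nat.card ↥(R : Subgroup G) = 27 ∧ Monoid.exponent ↥(R : Subgroup G) = 3 ∧
    Subgroup.normalizer ((R : Subgroup G) : Set G) ≤ Subgroup.centralizer ({z} : Set G) ∧ Nat.card ↥(Subgroup.normalizer ((R : Subgroup G) : Set G)) = 864 := by
  obtain ⟨P, hP⟩ := hJ
  exact JFourType.SylThree.structure_of hP (normalizer_le_centralizer hG hP) R hR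

end Cfsg.Agent.S5565
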