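import Cfsg.Statements.S5567
import Cfsg.Agent.JFourType.Mat.Root
import Cfsg.Agent.JFourType.Mat.Split

set_option autoImplicit false
open Cfsg

namespace Cfsg.Agent.S5567

/-- Let G be a finite non-abelian simple group of Janko-four type (an involution z whose centralizer H has an extraspecial largest normal 2-subgroup E of order 2^13 containing its centralizer in H, a normal subgroup N ≥ E of H with N/E of order 3 and H/N the automorphism group of M₂₂, and a subgroup P ≤ N of order 3 with C_E(P) = ⟨z⟩, N_H(P) ≠ C_H(P) and P ≤ C_H(P)′). Then every elementary abelian subgroup V of G of order 2^11 contains its centralizer, and its normalizer is a split extension of V by a complement isomorphic to the Mathieu group M₂₄. -/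
theorem result {G : Type*} [Group G] [Finite G] [IsSimpleGroup G] (hG : ¬ IsMulCommutative G) (hJ : Cfsg.IsOfJankoFourType G) (V : Subgroup G) (hV : Cfsg.IsElementaryAbelian 2 V) (hcard : Nat.card ↥V = 2 ^ 11) :
    Subgroup.centralizer (V : Set G) ≤ V ∧ ∃ K : Subgroup G, K ≤ Subgroup.normalizer (V : Set G) ∧ K ⊓ V = ⊥ ∧ K ⊔ V = Subgroup.normalizer (V : Set G) ∧ Cfsg.Spor.IsoM24 ↥K := by
  obtain ⟨z, P, hP⟩ := hJ
  obtain ⟨S⟩ := Cfsg.Agent.JFourType.Mat.exists_setup_full hP
  obtain ⟨hcent, hiso⟩ := S.normalizer_hom V hV hcard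
  obtain ⟨K, hK, hinf, hsup⟩ :=
    Cfsg.Agent.JFourType.Mat.Split.exists_complement hP V hV hcard
  exact ⟨hcent, K, hK, hinf, hsup, hiso K hK hinf hsup⟩

end Cfsg.Agent.S5567
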