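import Cfsg.Statements.S5568
import Cfsg.Agent.JFourType.Mat.Root
import Cfsg.Agent.JFourType.Mat.TBridge

set_option autoImplicit false
open Cfsg

namespace Cfsg.Agent.S5568

/-- Let G be a finite non-abelian simple group of Janko-four type (an involution z whose centralizer H has an extraspecial largest normal 2-subgroup E of order 2^13 containing its centralizer in H, a normal subgroup N ≥ E of H with N/E of order 3 and H/N the automorphism group of M₂₂, and a subgroup P ≤ N of order 3 with C_E(P) = ⟨z⟩, N_H(P) ≠ C_H(P) and P ≤ C_H(P)′). Let V be an elementary abelian subgroup of G of order 2^11. Then under conjugation by the normalizer of V the non-identity elements of V fall into an orbit of length 1771 consisting of conjugates of z and an orbit of length 276 consisting of involutions t not conjugate to z, and for such t the centralizer of t in G lies in the normalizer of V. -/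
theorem result {G : Type*} [Group G] [Finite G] [IsSimpleGroup G] (hG : ¬ IsMulCommutative G) (z : G) (hJ : Cfsg.IsOfJankoFourTypeAt z) (V : Subgroup G) (hV : Cfsg.IsElementaryAbelian 2 V) (hcard : Nat.card ↥V = 2 ^ 11) :
    ∃ z' t : G, z' ∈ V ∧ t ∈ V ∧ t ≠ 1 ∧ IsConj z z' ∧ ¬ IsConj z t ∧
    Set.ncard {v : G | ∃ n ∈ Subgroup.normalizer (V : Set G), n * z' * n⁻¹ = v} = 1771 ∧
    Set.ncard {v : G | ∃ n ∈ Subgroup.normalizer (V : Set G), n * t * n⁻¹ = v} = 276 ∧
    Subgroup.centralizer ({t} : Set G) ≤ Subgroup.normalizer (V : Set G) := by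
  obtain ⟨P, hP⟩ := hJ
  obtain ⟨S⟩ := Cfsg.Agent.JFourType.Mat.exists_setup_full hP
  exact S.orbits (fun t ht => S.centralizer_PG_le ht) V hV hcard

end Cfsg.Agent.S5568
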