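import Cfsg.Statements.S5569
import Cfsg.Agent.S5563
import Cfsg.Agent.S5564
import Cfsg.Agent.S5567
import Cfsg.Agent.S5568
import Cfsg.Agent.JFourType.SecondInvolution

set_option autoImplicit false
open Cfsg

namespace Cfsg.Agent.S5569

/-- Let G be a finite non-abelian simple group of Janko-four type (an involution z whose centralizer H has an extraspecial largest normal 2-subgroup E of order 2^13 containing its centralizer in H, a normal subgroup N ≥ E of H with N/E of order 3 and H/N the automorphism group of M₂₂, and a subgroup P ≤ N of order 3 with C_E(P) = ⟨z⟩, N_H(P) ≠ C_H(P) and P ≤ C_H(P)′). Then the centralizer of an involution t of G that is not conjugate to z is a split extension of an elementary abelian normal subgroup of order 2^11 by a complement isomorphic to the automorphism group of M₂₂. -/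
theorem result {G : Type*} [Group G] [Finite G] [IsSimpleGroup G] (hG : ¬ IsMulCommutative G) (z : G) (hJ : Cfsg.IsOfJankoFourTypeAt z) (t : G) (ht : orderOf t = 2) (hnc : ¬ IsConj z t) :
    ∃ V K : Subgroup G, V ≤ Subgroup.centralizer ({t} : Set G) ∧ K ≤ Subgroup.centralizer ({t} : Set G) ∧
    Subgroup.centralizer ({t} : Set G) ≤ Subgroup.normalizer (V : Set G) ∧ Cfsg.IsElementaryAbelian 2 V ∧ Nat.card ↥V = 2 ^ 11 ∧
    K ⊓ V = ⊥ ∧ K ⊔ V = Subgroup.centralizer ({t} : Set G) ∧ Nonempty (↥K ≃* MulAut ↥Cfsg.Spor.M22) := by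
  have hJ4 : Cfsg.IsOfJankoFourType G := ⟨z, hJ⟩
  obtain ⟨P, hP⟩ := id hJ
  exact JFourType.second_centralizer hG hP (S5564.result hG hJ4)
    (S5563.result hG z P hP).2.2.2.2
    (fun V hV hc => (S5567.result hG hJ4 V hV hc).2)
    (S5568.result hG z hJ) t ht hnc

end Cfsg.Agent.S5569
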