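import Cfsg.Statements.S5570
import Cfsg.Agent.S5571
import Cfsg.Agent.JFourType.TenMain
import Cfsg.Agent.JFourType.TenLocal
import Cfsg.Agent.JFourType.TenSylow
import Cfsg.Agent.JFourType.TenClassify

set_option autoImplicit false
open Cfsg

namespace Cfsg.Agent.S5570

/-- Let G be a finite non-abelian simple group of Janko-four type (an involution z whose centralizer H has an extraspecial largest normal 2-subgroup E of order 2^13 containing its centralizer in H, a normal subgroup N ≥ E of H with N/E of order 3 and H/N the automorphism group of M₂₂, and a subgroup P ≤ N of order 3 with C_E(P) = ⟨z⟩, N_H(P) ≠ C_H(P) and P ≤ C_H(P)′). Then G has self-centralizing elementary abelian subgroups of order 2^10, any two of them are conjugate, and for such a subgroup A the normalizer of A is a split extension of A by a complement isomorphic to L₅(2) under which A has no proper non-trivial invariant subgroup. -/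
theorem result {G : Type*} [Group G] [Finite G] [IsSimpleGroup G] (hG : ¬ IsMulCommutative G) (hJ : Cfsg.IsOfJankoFourType G) :
    (∃ A : Subgroup G, Cfsg.IsElementaryAbelian 2 A ∧ Nat.card ↥A = 2 ^ 10 ∧ Subgroup.centralizer (A : Set G) = A) ∧
    (∀ A A' : Subgroup G, Cfsg.IsElementaryAbelian 2 A → Nat.card ↥A = 2 ^ 10 → Subgroup.centralizer (A : Set G) = A → Cfsg.IsElementaryAbelian 2 A' → Nat.card ↥A' = 2 ^ 10 → Subgroup.centralizer (A' : Set G) = A' → ∃ g : G, A' = A.map (MulAut.conj g).toMonoidHom) ∧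
    ∀ A : Subgroup G, Cfsg.IsElementaryAbelian 2 A → Nat.card ↥A = 2 ^ 10 → Subgroup.centralizer (A : Set G) = A →
      (∃ B : Subgroup G, B ≤ Subgroup.normalizer (A : Set G) ∧ B ⊓ A = ⊥ ∧ B ⊔ A = Subgroup.normalizer (A : Set G) ∧
        Nonempty (↥B ≃* Matrix.SpecialLinearGroup (Fin 5) (ZMod 2))) ∧
      ∀ W : Subgroup G, W ≤ A → Subgroup.normalizer (A : Set G) ≤ Subgroup.normalizer (W : Set G) → W = ⊥ ∨ W = A := by
  obtain ⟨z, P, hP⟩ := id hJ
  obtain ⟨S⟩ := JFourType.Invol.exists_setup hP
  obtain ⟨he, hc, hz⟩ := JFourType.Ten.base_elem hP S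
  obtain ⟨T, X, -, hT, -, hXT, hXB, hXc⟩ := JFourType.Ten.exists_complement_two hP S
  refine JFourType.TenMain.main hP (fun A hA => S5571.result hG hJ A hA.elem hA.card hA.self)
    (fun A A' hA hA' hzA hzA' => ?_) (B := JFourType.Ten.base S)
    ⟨⟨he, hc, JFourType.Ten.base_self hP S⟩, hz, by rw [JFourType.Ten.card_stabilizer hP S]; norm_num,
      ⟨X, hXT.trans (hT.trans inf_le_left), hXB, hXc⟩, JFourType.Ten.geo_data hP S⟩
  obtain ⟨g, -, hg⟩ := JFourType.Ten.classify_z hP S A hA.elem hA.card hA.self hzA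
  obtain ⟨g', -, hg'⟩ := JFourType.Ten.classify_z hP S A' hA'.elem hA'.card hA'.self hzA'
  refine ⟨g' * g⁻¹, ?_⟩
  rw [hg, hg', Subgroup.map_map]
  congr 1
  ext v
  simp [mul_assoc]

end Cfsg.Agent.S5570
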