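import Cfsg.Statements.S5588
import Cfsg.Agent.Y555.Main

set_option autoImplicit false
open Cfsg

namespace Cfsg.Agent.S5588

open Cfsg.Spor Cfsg.Agent.Y555

/-- the numbering of the sixteen nodes -/
def genOf (i : ℕ) : Bimonster.Gen :=
  [Bimonster.Gen.a, Bimonster.Gen.b1, Bimonster.Gen.c1, Bimonster.Gen.d1, Bimonster.Gen.e1, Bimonster.Gen.f1, Bimonster.Gen.b2, Bimonster.Gen.c2, Bimonster.Gen.d2, Bimonster.Gen.e2, Bimonster.Gen.f2, Bimonster.Gen.b3, Bimonster.Gen.c3, Bimonster.Gen.d3, Bimonster.Gen.e3, Bimonster.Gen.f3].getD i .a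

theorem genOf_facts : ∀ i, i < 16 → genOf i ∈ coxNodes Bimonster.edges ∧
    coxLabel Bimonster.edges (genOf i) (genOf i) = 1 ∧
    ∀ j, j < 16 → i ≠ j →
      coxLabel Bimonster.edges (genOf i) (genOf j) = if adjB i j then 3 else 2 := by
  decide +kernel

/-- In the group presented by the sixteen involutions of the Y₅₅₅ Coxeter diagram subject only to the Coxeter relations and the single spider relation (a b₁ c₁ a b₂ c₂ a b₃ c₃)^10 = 1, each of the further relators used in the definitions' presentation of the Bimonster (each end node equals the ninth power of the Coxeter element of a sub-diagram of type E₇) already holds. Equivalently, the Y₅₅₅ diagram with the spider relation alone presents the Bimonster. -/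
theorem result :
    ∀ r ∈ Cfsg.Spor.Bimonster.extra,
      (PresentedGroup.mk (Cfsg.Spor.coxRelators Cfsg.Spor.Bimonster.edges ∪ {r' | r' ∈ [(Cfsg.Spor.Bimonster.a * Cfsg.Spor.Bimonster.b1 * Cfsg.Spor.Bimonster.c1 * Cfsg.Spor.Bimonster.a * Cfsg.Spor.Bimonster.b2 * Cfsg.Spor.Bimonster.c2 * Cfsg.Spor.Bimonster.a * Cfsg.Spor.Bimonster.b3 * Cfsg.Spor.Bimonster.c3) ^ 10]}) r) = 1 := by
  set S := Cfsg.Spor.coxRelators Cfsg.Spor.Bimonster.edges ∪ {r' | r' ∈ [(Cfsg.Spor.Bimonster.a * Cfsg.Spor.Bimonster.b1 * Cfsg.Spor.Bimonster.c1 * Cfsg.Spor.Bimonster.a * Cfsg.Spor.Bimonster.b2 * Cfsg.Spor.Bimonster.c2 * Cfsg.Spor.Bimonster.a * Cfsg.Spor.Bimonster.b3 * Cfsg.Spor.Bimonster.c3) ^ 10]} with hS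
  let v : ℕ → PresentedGroup S := fun i => PresentedGroup.mk S (FreeGroup.of (genOf i))
  have rel : ∀ i j, i < 16 → j < 16 →
      (v i * v j) ^ coxLabel Bimonster.edges (genOf i) (genOf j) = 1 := by
    intro i j hi hj
    rw [← map_mul, ← map_pow]
    exact PresentedGroup.one_of_mem
      (Or.inl ⟨_, (genOf_facts i hi).1, _, (genOf_facts j hj).1, rfl⟩)
  have sq : ∀ i, i < 16 → v i * v i = 1 := by
    intro i hi
    simpa [(genOf_facts i hi).2.1] using rel i i hi hi
  have hR : Rels v := by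
    refine ⟨sq, fun i j hi hj hne ha => ?_, fun i j hi hj ha => ?_⟩
    · have h := rel i j hi hj
      rw [(genOf_facts i hi).2.2 j hj hne, ha, if_neg (by simp), pow_two] at h
      calc v i * v j = (v i * v j)⁻¹ := eq_inv_of_mul_eq_one_left h
        _ = v j * v i := by
          rw [mul_inv_rev, inv_eq_of_mul_eq_one_right (sq i hi), inv_eq_of_mul_eq_one_right (sq j hj)]
    · have hne : i ≠ j := by
        rintro rfl
        exact absurd ha (by revert hi; revert i; decide +kernel)
      have h := rel i j hi hj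
      rw [(genOf_facts i hi).2.2 j hj hne, ha, if_pos rfl, pow_succ, pow_two] at h
      calc v i * v j * v i = (v j * v i * v j)⁻¹ :=
            eq_inv_of_mul_eq_one_left (by rw [← h]; group)
        _ = v j * v i * v j := by
          rw [mul_inv_rev, mul_inv_rev, inv_eq_of_mul_eq_one_right (sq i hi),
            inv_eq_of_mul_eq_one_right (sq j hj), mul_assoc]
  have key : ∀ (k : ℕ) (w : List ℕ) (x : List ℕ), x = (List.replicate k w).flatten →
      ev v x = PresentedGroup.mk S ((w.map fun i => FreeGroup.of (genOf i)).prod ^ k) := by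
    intro k w x hx
    rw [hx, ev_flatten, List.map_replicate, List.prod_replicate, map_pow, map_list_prod,
      List.map_map]
    rfl
  have hY : Spider v := by
    refine ⟨hR, ?_⟩
    rw [key 10 [0, 1, 2, 0, 6, 7, 0, 11, 12] SP (by decide +kernel)]
    exact PresentedGroup.one_of_mem (Or.inr (by simp [genOf, Bimonster.a, Bimonster.b1, Bimonster.c1,
      Bimonster.b2, Bimonster.c2, Bimonster.b3, Bimonster.c3, mul_assoc]))
  obtain ⟨p1, p1'⟩ := arm_one hY
  obtain ⟨p2, p2'⟩ := arm_one hY.rotate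
  obtain ⟨p3, p3'⟩ := arm_one hY.rotate.rotate
  rw [ev_comp v rot] at p2 p2'
  rw [ev_comp (fun x => v (rot x)) rot, ev_comp v rot] at p3 p3'
  rw [key 9 [0, 1, 6, 11, 2, 7, 3] ZW (by decide +kernel)] at p1
  rw [key 9 [0, 1, 11, 6, 2, 12, 3] ZC (by decide +kernel)] at p1'
  rw [key 9 [0, 6, 11, 1, 7, 12, 8] _ (by decide +kernel)] at p2
  rw [key 9 [0, 6, 1, 11, 7, 2, 8] _ (by decide +kernel)] at p2'
  rw [key 9 [0, 11, 1, 6, 12, 2, 13] _ (by decide +kernel)] at p3
  rw [key 9 [0, 11, 6, 1, 12, 7, 13] _ (by decide +kernel)] at p3'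
  intro r hr
  simp only [Bimonster.extra, List.mem_cons, List.not_mem_nil, or_false] at hr
  rcases hr with rfl | rfl | rfl | rfl | rfl | rfl | rfl
  · exact PresentedGroup.one_of_mem (Or.inr (List.mem_singleton.mpr rfl))
  all_goals rw [map_mul, map_inv, mul_inv_eq_one]
  · simpa [v, rot, genOf, mul_assoc] using p1
  · simpa [v, rot, genOf, mul_assoc] using p1'
  · simpa [v, rot, genOf, mul_assoc] using p2'
  · simpa [v, rot, genOf, mul_assoc] using p2
  · simpa [v, rot, genOf, mul_assoc] using p3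
  · simpa [v, rot, genOf, mul_assoc] using p3'

end Cfsg.Agent.S5588
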