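import Cfsg.Statements.S5601
import Cfsg.Agent.M24.ThreeSubgroups

set_option autoImplicit false
open scoped Pointwise
open Cfsg

namespace Cfsg.Agent.S5601

/-- The group of the length-24 code has exactly two conjugacy classes of subgroups of order 3: a subgroup of order 3 fixes either exactly 6 of the 24 points or none of them, both cases occur, and two subgroups of order 3 with the same number of fixed points are conjugate. -/
theorem result : (∀ X : Subgroup ↥Cfsg.M24, Nat.card X = 3 → {p : Cfsg.GolayPt | ∀ x ∈ X, ((x : ↥Cfsg.M24) : Equiv.Perm Cfsg.GolayPt) p = p}.ncard = 6 ∨ {p : Cfsg.GolayPt | ∀ x ∈ X, ((x : ↥Cfsg.M24) : Equiv.Perm Cfsg.GolayPt) p = p}.ncard = 0) ∧ (∃ X : Subgroup ↥Cfsg.M24, Nat.card X = 3 ∧ {p : Cfsg.GolayPt | ∀ x ∈ X, ((x : ↥Cfsg.M24) : Equiv.Perm Cfsg.GolayPt) p = p}.ncard = 6) ∧ (∃ X : Subgroup ↥Cfsg.M24, Nat.card X = 3 ∧ {p : Cfsg.GolayPt | ∀ x ∈ X, ((x :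 ↥Cfsg.M24) : Equiv.Perm Cfsg.GolayPt) p = p}.ncard = 0) ∧ ∀ X Y : Subgroup ↥Cfsg.M24, Nat.card X = 3 → Nat.card Y = 3 → {p : Cfsg.GolayPt | ∀ x ∈ X, ((x : ↥Cfsg.M24) : Equiv.Perm Cfsg.GolayPt) p = p}.ncard = {p : Cfsg.GolayPt | ∀ x ∈ Y, ((x : ↥Cfsg.M24) : Equiv.Perm Cfsg.GolayPt) p = p}.ncard → ∃ k : ↥Cfsg.M24, MulAut.conj k • X = Y := by
  refine ⟨fun X hX => ?_, ?_, ?_, fun X Y hX hY he => ?_⟩
  · obtain ⟨x, h3, -, hf⟩ := M24.exists_gen_three hX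
    rw [hf]
    exact M24.fix_three_cases x.2 h3
  · refine ⟨Subgroup.zpowers ⟨_, (M24.elemOf_spec (M24.reps_good M24.ord3Fix6 (by simp))).1⟩,
      ?_, ?_⟩
    · rw [Nat.card_zpowers, ← Subgroup.orderOf_coe]
      exact M24.order_rep_three.1
    · rw [M24.fixSet_zpowers rfl (M24.reps_good M24.ord3Fix6 (by simp)), M24.rep_fix.1]
  · refine ⟨Subgroup.zpowers ⟨_, (M24.elemOf_spec (M24.reps_good M24.ord3Fix0 (by simp))).1⟩,
      ?_, ?_⟩
    · rw [Nat.card_zpowers, ← Subgroup.orderOf_coe]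
      exact M24.order_rep_three.2
    · rw [M24.fixSet_zpowers rfl (M24.reps_good M24.ord3Fix0 (by simp)), M24.rep_fix.2.1]
  · obtain ⟨x, h3, rfl, hfx⟩ := M24.exists_gen_three hX
    obtain ⟨y, h3', rfl, hfy⟩ := M24.exists_gen_three hY
    rw [hfx, hfy] at he
    obtain ⟨k, hk, e⟩ := M24.conj_of_fix_eq x.2 y.2 h3 h3' he
    refine ⟨⟨k, hk⟩, ?_⟩
    refine (MonoidHom.map_zpowers _ _).trans (congrArg Subgroup.zpowers ?_)
    exact Subtype.ext e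

end Cfsg.Agent.S5601
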