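import Cfsg.Statements.S5602
import Cfsg.Agent.M24.FixedReps

set_option autoImplicit false
open scoped Pointwise
open Cfsg

namespace Cfsg.Agent.S5602

/-- An element of order 3 of the group of the length-24 code having exactly 6 fixed points maps to themselves exactly 21 octads, exactly 15 trios, exactly 16 sextets and exactly 20 dodecads. -/
theorem result (g : Equiv.Perm Cfsg.GolayPt) (hg : g ∈ Cfsg.M24) (h₃ : orderOf g = 3) (h₆ : (Finset.univ.filter fun p => g p = p).card = 6) : {o : Finset Cfsg.GolayPt | o ∈ Cfsg.octads ∧ g • o = o}.ncard = 21 ∧ {T : Finset (Finset Cfsg.GolayPt) | T ∈ Cfsg.trios ∧ g • T = T}.ncard = 15 ∧ {S : Finset (Finset Cfsg.GolayPt) | S ∈ Cfsg.sextets ∧ g • S = S}.ncard = 16 ∧ {d : Finset Cfsg.GolayPt | d ∈ Cfsg.dodecads ∧ g • d = d}.ncard = 20 := by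
  obtain ⟨h, hh, e⟩ := M24.conj_three_fix6 hg h₃ h₆
  have ht := M24.reps_good M24.ord3Fix6 (by simp)
  have hl := M24.reps_aut.1
  exact ⟨(M24.ncard_octFix ht hl hh e).trans M24.octFix_values.1,
    (M24.ncard_trioFix ht hl hh e).trans M24.trioFix_three.1,
    (M24.ncard_sexFix ht hl hh e).trans M24.sexFix_three.1,
    (M24.ncard_dodFix ht hl hh e).trans M24.dodFix_values⟩

end Cfsg.Agent.S5602
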