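import Cfsg.Statements.S5610
import Cfsg.Agent.M24Sub.OctTrio
import Cfsg.Agent.M24Sub.OctSextet
import Cfsg.Agent.M24Sub.Suborbits

set_option autoImplicit false
open scoped Pointwise
open Cfsg

namespace Cfsg.Agent.S5610
open Cfsg.Agent.M24Geo Cfsg.Agent.M24Sub

/-- The stabiliser of an octad in the group of the length-24 code has exactly three orbits on the 3795 trios, of sizes 15, 420 and 3360, and exactly three orbits on the 1771 sextets, of sizes 35, 840 and 896. -/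
theorem result (o : Finset Cfsg.GolayPt) (ho : o ∈ Cfsg.octads) : (∃ X₁ ∈ Cfsg.trios, ∃ X₂ ∈ Cfsg.trios, ∃ X₃ ∈ Cfsg.trios, (MulAction.orbit ↥(MulAction.stabilizer Cfsg.M24 o) X₁).ncard = 15 ∧ (MulAction.orbit ↥(MulAction.stabilizer Cfsg.M24 o) X₂).ncard = 420 ∧ (MulAction.orbit ↥(MulAction.stabilizer Cfsg.M24 o) X₃).ncard = 3360 ∧ Cfsg.trios = MulAction.orbit ↥(MulAction.stabilizer Cfsg.M24 o) X₁ ∪ MulAction.orbit ↥(MulAction.stabilizer Cfsg.M24 o) X₂ ∪ MulAction.orbit ↥(MulAction.stabilizer Cfsg.M24 o) X₃) ∧ (∃ Y₁ ∈ Cfsg.sextets, ∃ Y₂ ∈ Cfsg.sextets, ∃ Y₃ ∈ Cfsg.sextets, (MulAction.orbit ↥(MulAction.stabilizer Cfsg.M24 o) Y₁).ncard = 35 ∧ (MulAction.orbit ↥(MulAction.stabilizer Cfsg.M24 o) Y₂).ncard = 840 ∧ (MulAction.orbit ↥(MulAction.stabilizer Cfsg.M24 o) Y₃).ncard = 896 ∧ Cfsg.sextets = MulAction.orbit ↥(MulAction.stabilizer Cfsg.M24 o) Y₁ ∪ MulAction.orbit ↥(MulAction.stabilizer Cfsg.M24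 o) Y₂ ∪ MulAction.orbit ↥(MulAction.stabilizer Cfsg.M24 o) Y₃) := by
  constructor
  · obtain ⟨c1, c2, c3, -⟩ := octTrioCnt_values
    obtain ⟨X₁, h1, n1, e1⟩ := octTrioFamily.exists_orbit ho (v := 64) (N := 15) c1 (by norm_num)
    obtain ⟨X₂, h2, n2, e2⟩ := octTrioFamily.exists_orbit ho (v := 32) (N := 420) c2 (by norm_num)
    obtain ⟨X₃, h3, n3, e3⟩ := octTrioFamily.exists_orbit ho (v := 24) (N := 3360) c3 (by norm_num)
    refine ⟨X₁, h1, X₂, h2, X₃, h3, n1, n2, n3, ?_⟩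
    rw [e1, e2, e3]
    exact split_three fun y hy => octTrioFamily.vals_mem ho hy
  · obtain ⟨c1, c2, c3, -⟩ := octSextetCnt_values
    obtain ⟨X₁, h1, n1, e1⟩ := octSextetFamily.exists_orbit ho (v := 32) (N := 35) c1 (by norm_num)
    obtain ⟨X₂, h2, n2, e2⟩ := octSextetFamily.exists_orbit ho (v := 16) (N := 840) c2 (by norm_num)
    obtain ⟨X₃, h3, n3, e3⟩ := octSextetFamily.exists_orbit ho (v := 14) (N := 896) c3 (by norm_num)
    refine ⟨X₁, h1, X₂, h2, X₃, h3, n1, n2, n3, ?_⟩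
    rw [e1, e2, e3]
    exact split_three fun y hy => octSextetFamily.vals_mem ho hy

end Cfsg.Agent.S5610
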