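import Cfsg.Statements.S5611
import Cfsg.Agent.M24Sub.OctSextet
import Cfsg.Agent.M24Sub.TrioSextet
import Cfsg.Agent.M24Sub.Suborbits
import Cfsg.Agent.Golay.Octads

set_option autoImplicit false
open scoped Pointwise
open Cfsg

namespace Cfsg.Agent.S5611
open Cfsg.Agent.M24Geo Cfsg.Agent.M24Sub

/-- The stabiliser of a sextet in the group of the length-24 code has exactly three orbits on the 759 octads, of sizes 15, 360 and 384, and exactly four orbits on the 3795 trios, of sizes 15, 180, 720 and 2880. -/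
theorem result (S : Finset (Finset Cfsg.GolayPt)) (hS : S ∈ Cfsg.sextets) : (∃ X₁ ∈ Cfsg.octads, ∃ X₂ ∈ Cfsg.octads, ∃ X₃ ∈ Cfsg.octads, (MulAction.orbit ↥(MulAction.stabilizer Cfsg.M24 S) X₁).ncard = 15 ∧ (MulAction.orbit ↥(MulAction.stabilizer Cfsg.M24 S) X₂).ncard = 360 ∧ (MulAction.orbit ↥(MulAction.stabilizer Cfsg.M24 S) X₃).ncard = 384 ∧ Cfsg.octads = MulAction.orbit ↥(MulAction.stabilizer Cfsg.M24 S) X₁ ∪ MulAction.orbit ↥(MulAction.stabilizer Cfsg.M24 S) X₂ ∪ MulAction.orbit ↥(MulAction.stabilizer Cfsg.M24 S) X₃) ∧ (∃ Y₁ ∈ Cfsg.trios, ∃ Y₂ ∈ Cfsg.trios, ∃ Y₃ ∈ Cfsg.trios, ∃ Y₄ ∈ Cfsg.trios, (MulAction.orbit ↥(MulAction.stabilizer Cfsg.M24 S) Y₁).ncard = 15 ∧ (MulAction.orbit ↥(MulAction.stabilizer Cfsg.M24 S) Y₂).ncard = 180 ∧ (MulAction.orbit ↥(MulAction.stabilizer Cfsg.M24 S) Y₃).ncard = 720 ∧ (MulAction.orbit ↥(MulAction.stabilizer Cfsg.M24 S) Y₄).ncard = 2880 ∧ Cfsg.trios = MulAction.orbit ↥(MulAction.stabilizer Cfsg.M24 S) Y₁ ∪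 MulAction.orbit ↥(MulAction.stabilizer Cfsg.M24 S) Y₂ ∪ MulAction.orbit ↥(MulAction.stabilizer Cfsg.M24 S) Y₃ ∪ MulAction.orbit ↥(MulAction.stabilizer Cfsg.M24 S) Y₄) := by
  constructor
  · obtain ⟨c1, c2, c3, -⟩ := octSextetCnt_values
    have hA : (octads : Set (Finset Cfsg.GolayPt)).Finite := Set.toFinite _
    have hY := sextets_transitive
    obtain ⟨X₁, h1, n1, e1⟩ := octSextetFamily.exists_orbit' hA sextets_finite hY
      Cfsg.Agent.Golay.ncard_octads sextets_ncard hS (v := 32) (M := 35) c1 (N := 15) (by norm_num) (by norm_num) (by norm_num)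
    obtain ⟨X₂, h2, n2, e2⟩ := octSextetFamily.exists_orbit' hA sextets_finite hY
      Cfsg.Agent.Golay.ncard_octads sextets_ncard hS (v := 16) (M := 840) c2 (N := 360) (by norm_num) (by norm_num) (by norm_num)
    obtain ⟨X₃, h3, n3, e3⟩ := octSextetFamily.exists_orbit' hA sextets_finite hY
      Cfsg.Agent.Golay.ncard_octads sextets_ncard hS (v := 14) (M := 896) c3 (N := 384) (by norm_num) (by norm_num) (by norm_num)
    refine ⟨X₁, h1, X₂, h2, X₃, h3, n1, n2, n3, ?_⟩
    rw [e1, e2, e3]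
    exact split_three fun y hy => octSextetFamily.vals_mem hy hS
  · obtain ⟨c1, c2, c3, c4, -⟩ := trioSextetCnt_values
    have hY := sextets_transitive
    obtain ⟨X₁, h1, n1, e1⟩ := trioSextetFamily.exists_orbit' trios_finite sextets_finite hY
      trios_ncard sextets_ncard hS (v := 96) (M := 7) c1 (N := 15) (by norm_num) (by norm_num) (by norm_num)
    obtain ⟨X₂, h2, n2, e2⟩ := trioSextetFamily.exists_orbit' trios_finite sextets_finite hY
      trios_ncard sextets_ncard hS (v := 64) (M := 84) c2 (N := 180) (by norm_num) (by norm_num) (by norm_num)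
    obtain ⟨X₃, h3, n3, e3⟩ := trioSextetFamily.exists_orbit' trios_finite sextets_finite hY
      trios_ncard sextets_ncard hS (v := 48) (M := 336) c3 (N := 720) (by norm_num) (by norm_num) (by norm_num)
    obtain ⟨X₄, h4, n4, e4⟩ := trioSextetFamily.exists_orbit' trios_finite sextets_finite hY
      trios_ncard sextets_ncard hS (v := 44) (M := 1344) c4 (N := 2880) (by norm_num) (by norm_num) (by norm_num)
    refine ⟨X₁, h1, X₂, h2, X₃, h3, X₄, h4, n1, n2, n3, n4, ?_⟩
    rw [e1, e2, e3, e4]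
    exact split_four fun y hy => trioSextetFamily.vals_mem hy hS

end Cfsg.Agent.S5611
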