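import Cfsg.Statements.S5612
import Cfsg.Agent.M24Sub.OctTrio
import Cfsg.Agent.M24Sub.TrioSextet
import Cfsg.Agent.M24Sub.Suborbits
import Cfsg.Agent.Golay.Octads

set_option autoImplicit false
open scoped Pointwise
open Cfsg

namespace Cfsg.Agent.S5612
open Cfsg.Agent.M24Geo Cfsg.Agent.M24Sub

/-- The stabiliser of a trio in the group of the length-24 code has exactly three orbits on the 759 octads, of sizes 3, 84 and 672, and exactly four orbits on the 1771 sextets, of sizes 7, 84, 336 and 1344. -/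
theorem result (T : Finset (Finset Cfsg.GolayPt)) (hT : T ∈ Cfsg.trios) : (∃ X₁ ∈ Cfsg.octads, ∃ X₂ ∈ Cfsg.octads, ∃ X₃ ∈ Cfsg.octads, (MulAction.orbit ↥(MulAction.stabilizer Cfsg.M24 T) X₁).ncard = 3 ∧ (MulAction.orbit ↥(MulAction.stabilizer Cfsg.M24 T) X₂).ncard = 84 ∧ (MulAction.orbit ↥(MulAction.stabilizer Cfsg.M24 T) X₃).ncard = 672 ∧ Cfsg.octads = MulAction.orbit ↥(MulAction.stabilizer Cfsg.M24 T) X₁ ∪ MulAction.orbit ↥(MulAction.stabilizer Cfsg.M24 T) X₂ ∪ MulAction.orbit ↥(MulAction.stabilizer Cfsg.M24 T) X₃) ∧ (∃ Y₁ ∈ Cfsg.sextets, ∃ Y₂ ∈ Cfsg.sextets, ∃ Y₃ ∈ Cfsg.sextets, ∃ Y₄ ∈ Cfsg.sextets, (MulAction.orbit ↥(MulAction.stabilizer Cfsg.M24 T) Y₁).ncard = 7 ∧ (MulAction.orbit ↥(MulAction.stabilizer Cfsg.M24 T) Y₂).ncard = 84 ∧ (MulAction.orbit ↥(MulAction.stabilizer Cfsg.M24 T) Y₃).ncard = 336 ∧ (MulAction.orbit ↥(MulAction.stabilizer Cfsg.M24 T) Y₄).ncard = 1344 ∧ Cfsg.sextets = MulAction.orbit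 ↥(MulAction.stabilizer Cfsg.M24 T) Y₁ ∪ MulAction.orbit ↥(MulAction.stabilizer Cfsg.M24 T) Y₂ ∪ MulAction.orbit ↥(MulAction.stabilizer Cfsg.M24 T) Y₃ ∪ MulAction.orbit ↥(MulAction.stabilizer Cfsg.M24 T) Y₄) := by
  constructor
  · obtain ⟨c1, c2, c3, -⟩ := octTrioCnt_values
    have hA : (octads : Set (Finset Cfsg.GolayPt)).Finite := Set.toFinite _
    have hY := trios_transitive
    obtain ⟨X₁, h1, n1, e1⟩ := octTrioFamily.exists_orbit' hA trios_finite hY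
      Cfsg.Agent.Golay.ncard_octads trios_ncard hT (v := 64) (M := 15) c1 (N := 3) (by norm_num) (by norm_num) (by norm_num)
    obtain ⟨X₂, h2, n2, e2⟩ := octTrioFamily.exists_orbit' hA trios_finite hY
      Cfsg.Agent.Golay.ncard_octads trios_ncard hT (v := 32) (M := 420) c2 (N := 84) (by norm_num) (by norm_num) (by norm_num)
    obtain ⟨X₃, h3, n3, e3⟩ := octTrioFamily.exists_orbit' hA trios_finite hY
      Cfsg.Agent.Golay.ncard_octads trios_ncard hT (v := 24) (M := 3360) c3 (N := 672) (by norm_num) (by norm_num) (by norm_num)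
    refine ⟨X₁, h1, X₂, h2, X₃, h3, n1, n2, n3, ?_⟩
    rw [e1, e2, e3]
    exact split_three fun y hy => octTrioFamily.vals_mem hy hT
  · obtain ⟨c1, c2, c3, c4, -⟩ := trioSextetCnt_values
    obtain ⟨X₁, h1, n1, e1⟩ := trioSextetFamily.exists_orbit hT (v := 96) (N := 7) c1 (by norm_num)
    obtain ⟨X₂, h2, n2, e2⟩ := trioSextetFamily.exists_orbit hT (v := 64) (N := 84) c2 (by norm_num)
    obtain ⟨X₃, h3, n3, e3⟩ := trioSextetFamily.exists_orbit hT (v := 48) (N := 336) c3 (by norm_num)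
    obtain ⟨X₄, h4, n4, e4⟩ := trioSextetFamily.exists_orbit hT (v := 44) (N := 1344) c4 (by norm_num)
    refine ⟨X₁, h1, X₂, h2, X₃, h3, X₄, h4, n1, n2, n3, n4, ?_⟩
    rw [e1, e2, e3, e4]
    exact split_four fun y hy => trioSextetFamily.vals_mem hT hy

end Cfsg.Agent.S5612
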