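import Cfsg.Statements.S5617
import Cfsg.Agent.M24Sub.PairSextet
import Cfsg.Agent.M24Sub.Suborbits

set_option autoImplicit false
open scoped Pointwise
open Cfsg

namespace Cfsg.Agent.S5617
open Cfsg.Agent.M24Geo Cfsg.Agent.M24Sub

/-- The setwise stabiliser, in the group of the length-24 code, of a complementary pair of dodecads has exactly three orbits on the 1771 sextets, of sizes 396, 495 and 880. -/
theorem result (d : Finset Cfsg.GolayPt) (hd : d ∈ Cfsg.dodecads) : ∃ X₁ ∈ Cfsg.sextets, ∃ X₂ ∈ Cfsg.sextets, ∃ X₃ ∈ Cfsg.sextets, (MulAction.orbit ↥(MulAction.stabilizer Cfsg.M24 ({d, Finset.univ \ d} : Finset (Finset Cfsg.GolayPt))) X₁).ncard = 396 ∧ (MulAction.orbit ↥(MulAction.stabilizer Cfsg.M24 ({d, Finset.univ \ d} : Finset (Finset Cfsg.GolayPt))) X₂).ncard = 495 ∧ (MulAction.orbit ↥(MulAction.stabilizer Cfsg.M24 ({d, Finset.univ \ d} : Finset (Finset Cfsg.GolayPt))) X₃).ncard = 880 ∧ Cfsg.sextets = MulAction.orbit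 ↥(MulAction.stabilizer Cfsg.M24 ({d, Finset.univ \ d} : Finset (Finset Cfsg.GolayPt))) X₁ ∪ MulAction.orbit ↥(MulAction.stabilizer Cfsg.M24 ({d, Finset.univ \ d} : Finset (Finset Cfsg.GolayPt))) X₂ ∪ MulAction.orbit ↥(MulAction.stabilizer Cfsg.M24 ({d, Finset.univ \ d} : Finset (Finset Cfsg.GolayPt))) X₃ := by
  obtain ⟨c1, c2, c3, -⟩ := pairSextetCnt_values
  have hP : ({d, Finset.univ \ d} : Finset (Finset Cfsg.GolayPt)) ∈ pairSextetFamily.A := ⟨d, hd, rfl⟩
  obtain ⟨X₁, h1, n1, e1⟩ := pairSextetFamily.exists_orbit hP (v := 48) (N := 396) c1 (by norm_num)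
  obtain ⟨X₂, h2, n2, e2⟩ := pairSextetFamily.exists_orbit hP (v := 64) (N := 495) c2 (by norm_num)
  obtain ⟨X₃, h3, n3, e3⟩ := pairSextetFamily.exists_orbit hP (v := 60) (N := 880) c3 (by norm_num)
  refine ⟨X₁, h1, X₂, h2, X₃, h3, n1, n2, n3, ?_⟩
  rw [e1, e2, e3]
  exact split_three fun y hy => pairSextetFamily.vals_mem hP hy

end Cfsg.Agent.S5617
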