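import Cfsg.Statements.S5625
import Cfsg.Agent.Steiner.Count

set_option autoImplicit false
open Cfsg

namespace Cfsg.Agent.S5625

/-- In any Steiner system S(5, 8, 24) and for any set Y of three points, the blocks meeting Y in exactly 3, 2, 1 and 0 points number 21, 168, 360 and 210 respectively (so there are 759 blocks in all). -/
theorem result (α : Type*) [Fintype α] [DecidableEq α] (hα : Fintype.card α = 24) (B : Set (Finset α)) (hB : Cfsg.IsSteinerSystem 5 8 B) (Y : Finset α) (hY : Y.card = 3) : {b : Finset α | b ∈ B ∧ (b ∩ Y).card = 3}.ncard = 21 ∧ {b : Finset α | b ∈ B ∧ (b ∩ Y).card = 2}.ncard = 168 ∧ {b : Finset α | b ∈ B ∧ (b ∩ Y).card = 1}.ncard = 360 ∧ {b : Finset α | b ∈ B ∧ (b ∩ Y).card = 0}.ncard = 210 := by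
  classical
  obtain ⟨a, b, c, hab, hac, hbc, rfl⟩ := Finset.card_eq_three.mp hY
  simp only [Cfsg.Agent.SteinerCount.ncard_blocks]
  set S := Cfsg.Agent.SteinerCount.blocks B
  have key : ∀ (s : Finset α) (n : ℕ), s.card ≤ 5 →
      (24 - s.card).choose (5 - s.card) = n * (8 - s.card).choose (5 - s.card) →
      (S.filter (fun x => s ⊆ x)).card = n := by
    intro s n hs hn
    have h := Cfsg.Agent.SteinerCount.blocks_through 5 8 hB s hs
    rw [hα, hn] at h
    exact Nat.eq_of_mul_eq_mul_right (Nat.choose_pos (by omega)) h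
  have e0 := key ∅ 759 (by simp) (by rfl)
  have e1 := fun x : α => key {x} 253 (by simp) (by rw [Finset.card_singleton]; rfl)
  have e2 := fun (x y : α) (h : x ≠ y) => key {x, y} 77 (by rw [Finset.card_pair h]; omega)
    (by rw [Finset.card_pair h]; rfl)
  have e3 := key {a, b, c} 21 (by omega) (by rw [hY]; rfl)
  have ea := e1 a
  have eb := e1 b
  have ec := e1 c
  have eab := e2 a b hab
  have eac := e2 a c hac
  have ebc := e2 b c hbc
  simp only [Finset.empty_subset, Finset.filter_true, Finset.singleton_subset_iff,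
    Finset.insert_subset_iff, Finset.card_filter] at e0 e3 ea eb ec eab eac ebc
  simp only [Finset.card_filter]
  rw [Finset.card_eq_sum_ones] at e0
  have hw : ∀ x ∈ S, (x ∩ {a, b, c}).card =
      (if a ∈ x then 1 else 0) + (if b ∈ x then 1 else 0) + (if c ∈ x then 1 else 0) := by
    intro x _
    by_cases ha : a ∈ x <;> by_cases hb : b ∈ x <;> by_cases hc : c ∈ x <;>
      simp [Finset.inter_insert, ha, hb, hc, hab, hac, hbc,
        Finset.inter_singleton_of_mem, Finset.inter_singleton_of_notMem]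
  -- moments of the intersection numbers
  set n : ℕ → ℕ := fun i => ∑ x ∈ S, if (x ∩ {a, b, c}).card = i then 1 else 0 with hn
  show n 3 = 21 ∧ n 2 = 168 ∧ n 1 = 360 ∧ n 0 = 210
  have h3 : n 3 = 21 := by
    rw [← e3]
    refine Finset.sum_congr rfl fun x hx => ?_
    rw [hw x hx]
    by_cases ha : a ∈ x <;> by_cases hb : b ∈ x <;> by_cases hc : c ∈ x <;> simp [ha, hb, hc]
  have h2 : n 2 + 3 * n 3 = 77 + 77 + 77 := by
    conv_rhs => arg 1; arg 1; rw [← eab]
    conv_rhs => arg 1; arg 2; rw [← eac]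
    conv_rhs => arg 2; rw [← ebc]
    simp only [hn, Finset.mul_sum, ← Finset.sum_add_distrib]
    refine Finset.sum_congr rfl fun x hx => ?_
    rw [hw x hx]
    by_cases ha : a ∈ x <;> by_cases hb : b ∈ x <;> by_cases hc : c ∈ x <;> simp [ha, hb, hc]
  have h1 : n 1 + 2 * n 2 + 3 * n 3 = 253 + 253 + 253 := by
    conv_rhs => arg 1; arg 1; rw [← ea]
    conv_rhs => arg 1; arg 2; rw [← eb]
    conv_rhs => arg 2; rw [← ec]
    simp only [hn, Finset.mul_sum, ← Finset.sum_add_distrib]
    refine Finset.sum_congr rfl fun x hx => ?_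
    rw [hw x hx]
    by_cases ha : a ∈ x <;> by_cases hb : b ∈ x <;> by_cases hc : c ∈ x <;> simp [ha, hb, hc]
  have h0 : n 0 + n 1 + n 2 + n 3 = 759 := by
    rw [← e0]
    simp only [hn, ← Finset.sum_add_distrib]
    refine Finset.sum_congr rfl fun x hx => ?_
    rw [hw x hx]
    by_cases ha : a ∈ x <;> by_cases hb : b ∈ x <;> by_cases hc : c ∈ x <;> simp [ha, hb, hc]
  omega

end Cfsg.Agent.S5625
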