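import Cfsg.Statements.S5635
import Cfsg.Agent.NotMax.Linear

set_option autoImplicit false
open Cfsg

namespace Cfsg.Agent.S5635

/-- For a finite field F with q elements and n ≥ 13, let D be a decomposition of F^n into t ≥ 2 independent subspaces of equal dimension m spanning F^n, where m = 1 and q ≤ 4, or m = 2 and q = 2. Then the elements of SL_n(F) permuting the members of D form a subgroup that is not maximal: some subgroup lies strictly between it and SL_n(F). -/
theorem result {F : Type*} [Field F] [Fintype F] (n : ℕ) (hn : 13 ≤ n) {t : ℕ} (m : ℕ) (D : Fin t → Submodule F (Fin n → F)) (hD : Cfsg.Geo.IsMDecomposition m D) (h : (m = 1 ∧ Fintype.card F ≤ 4) ∨ (m = 2 ∧ Fintype.card F = 2)) : ∃ K : Subgroup (Matrix.GeneralLinearGroup (Fin n) F), Cfsg.Geo.decompositionStabilizer D ⊓ Cfsg.Geo.specialLinear (Fin n) F < K ∧ K < Cfsg.Geo.specialLinear (Fin n) F := by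
  have hcard : 13 ≤ Fintype.card (Fin n) := by rwa [Fintype.card_fin]
  rcases h with ⟨rfl, hq⟩ | ⟨rfl, hq⟩
  · have h1 : 1 < Fintype.card F := Fintype.one_lt_card
    obtain h | h | h : Fintype.card F = 2 ∨ Fintype.card F = 3 ∨ Fintype.card F = 4 := by omega
    · exact Cfsg.Agent.NotMax.decomposition_two hcard hD h
    · exact Cfsg.Agent.NotMax.decomposition_three hcard hD h
    · exact Cfsg.Agent.NotMax.decomposition_four hcard hD h
  · exact Cfsg.Agent.NotMax.decomposition_two_two hcard hD hq

end Cfsg.Agent.S5635
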