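import Cfsg.Statements.S5644
import Cfsg.Agent.GeoClasses.OrthSimMax

set_option autoImplicit false
open Cfsg

namespace Cfsg.Agent.S5644

theorem result {F : Type*} [Field F] [Fintype F] (n : ℕ) (hn : 13 ≤ n) (hodd : Odd (Fintype.card F)) (Q : (Fin n → F) → F) (hQ : Cfsg.Geo.IsNondegenerateQuadraticForm Q) : Cfsg.Geo.IsMaximalIn (Cfsg.Geo.specialLinear (Fin n) F) (Cfsg.Geo.quadSimilarityGroup Q ⊓ Cfsg.Geo.specialLinear (Fin n) F) := by
  exact Cfsg.Agent.GeoClasses.quad_similarity_maximal (by simp; omega)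
    (Cfsg.Agent.GeoClasses.two_ne_zero_iff_odd_card.2 hodd) hQ

end Cfsg.Agent.S5644
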