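import Cfsg.Statements.S5675
import Cfsg.Agent.GeoClasses.OrthNondegApp
import Cfsg.Agent.GeoClasses.OrthOddBase

set_option autoImplicit false
open Cfsg

namespace Cfsg.Agent.S5675

/-- Let F be a finite field of odd order q, m ≥ 6, Q the standard quadratic form on F^(2m+1) and Ω the commutator subgroup of its isometry group. Let W be a non-zero subspace of even dimension on which the polar form of Q is non-degenerate; exclude the case q = 3, dim W = 2 with Q vanishing on some line of W (a plus-type plane). Then the elements of Ω stabilising W (equivalently, stabilising its orthogonal complement, of odd dimension) form a maximal subgroup of Ω. -/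
theorem result {F : Type*} [Field F] [Fintype F] (hodd : Odd (Fintype.card F)) (m : ℕ) (hm : 6 ≤ m) (W : Submodule F (Unit ⊕ (Fin m ⊕ Fin m) → F)) (hW0 : W ≠ ⊥) (hev : Even (Module.finrank F W)) (hW : Cfsg.Geo.IsNondegenerateOn (QuadraticMap.polar (Cfsg.quadFormOdd m F)) W) (hex : ¬ (Fintype.card F = 3 ∧ Module.finrank F W = 2 ∧ Cfsg.Geo.IsPlusTypeOn (Cfsg.quadFormOdd m F) W)) : Cfsg.Geo.IsMaximalIn (Cfsg.Geo.omegaGL (Cfsg.quadFormOdd m F)) (Cfsg.Geo.subspaceStabilizer W ⊓ Cfsg.Geo.omegaGL (Cfsg.quadFormOdd m F)) := by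
  have h2 : (2 : F) ≠ 0 := Cfsg.Agent.Classical.two_ne_zero_of_odd
    (by rwa [Nat.card_eq_fintype_card])
  have hQ : Cfsg.Geo.IsNondegenerateQuadraticForm (Cfsg.quadFormOdd m F) :=
    ⟨Cfsg.Agent.GeoClasses.quadFormOdd_smul,
      (Cfsg.Agent.GeoClasses.polar_quadFormOdd (F := F) (m := m)).symm ▸
        (Cfsg.Agent.GeoClasses.isSymmetricForm_formOf
          (Cfsg.Agent.GeoClasses.isPolar_oddGram h2).unit
          Cfsg.Agent.GeoClasses.oddGram_symm).bilinear,
      (Cfsg.Agent.GeoClasses.polar_quadFormOdd (F := F) (m := m)).symm ▸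
        (Cfsg.Agent.GeoClasses.isSymmetricForm_formOf
          (Cfsg.Agent.GeoClasses.isPolar_oddGram h2).unit
          Cfsg.Agent.GeoClasses.oddGram_symm).nondegenerate⟩
  have hc : Fintype.card (Unit ⊕ (Fin m ⊕ Fin m)) = 2 * m + 1 := by
    simp only [Fintype.card_sum, Fintype.card_unit, Fintype.card_fin]
    omega
  refine Cfsg.Agent.GeoClasses.omegaGL_nondeg_maximal hQ (by rw [hc]; omega) hW0 ?_ hW
    (Or.inl (by rw [hc]; omega)) ?_
  · rintro rfl
    rw [finrank_top, Module.finrank_pi, hc] at hev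
    obtain ⟨k, hk⟩ := hev
    omega
  · rintro ⟨hq, U, hU, -, hplus, rfl | ⟨-, hUW⟩⟩
    · obtain ⟨r, hr⟩ := hodd
      exact hex ⟨by have := Fintype.one_lt_card (α := F); omega, hU, hplus⟩
    · obtain ⟨k, hk⟩ := hev
      omega

end Cfsg.Agent.S5675
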