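import Cfsg.Statements.S5677
import Cfsg.Agent.DecompMax.OrthMat

set_option autoImplicit false
open Cfsg

namespace Cfsg.Agent.S5677

/-- Let F be a finite field of odd order q, m ≥ 6, Q the standard quadratic form on F^(2m+1) and Ω the commutator subgroup of its isometry group. Let D be a decomposition of F^(2m+1) into t ≥ 2 pairwise orthogonal, pairwise Q-isometric subspaces of equal dimension k > 1 on which the polar form is non-degenerate. Unless q = 3 and k = 3, the elements of Ω permuting the members of D form a maximal subgroup of Ω. -/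
theorem result {F : Type*} [Field F] [Fintype F] (hodd : Odd (Fintype.card F)) (m : ℕ) (hm : 6 ≤ m) {t : ℕ} (k : ℕ) (hk : 1 < k) (D : Fin t → Submodule F (Unit ⊕ (Fin m ⊕ Fin m) → F)) (hD : Cfsg.Geo.IsOrthogonalMDecomposition (Cfsg.quadFormOdd m F) k D) (hex : ¬ (Fintype.card F = 3 ∧ k = 3)) : Cfsg.Geo.IsMaximalIn (Cfsg.Geo.omegaGL (Cfsg.quadFormOdd m F)) (Cfsg.Geo.decompositionStabilizer D ⊓ Cfsg.Geo.omegaGL (Cfsg.quadFormOdd m F)) := by
  have h2 : (2 : F) ≠ 0 := by
    intro h2
    haveI : CharP F 2 := CharTwo.of_one_ne_zero_of_two_eq_zero one_ne_zero h2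
    have := FiniteField.even_card_iff_char_two.1 (by rw [ringChar.eq_iff]; infer_instance : ringChar F = 2)
    rw [Nat.odd_iff] at hodd
    omega
  have hn : Fintype.card (Unit ⊕ (Fin m ⊕ Fin m)) = 2 * m + 1 := Cfsg.Agent.GeoClasses.card_oddIx
  have hkt : k * t = 2 * m + 1 := by
    obtain ⟨b, -⟩ := Cfsg.Agent.ClassicalMax.exists_adapted_basis hD.decomp.decomp
    have h1 := Module.finrank_eq_card_basis b
    rw [Module.finrank_fintype_fun_eq_card, Fintype.card_prod, Fintype.card_fin, Fintype.card_fin, hn] at h1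
    omega
  have hkodd : k % 2 = 1 := by
    have : (k * t) % 2 = 1 := by omega
    rw [Nat.mul_mod] at this
    rcases Nat.mod_two_eq_zero_or_one k with e | e
    · simp [e] at this
    · exact e
  exact Cfsg.Agent.DecompMax.omegaGL_decomposition_maximal
    (Cfsg.Agent.NotMax.nondegenerate_quadFormOdd h2) (by omega) hD (by omega) hex
    (fun h4 _ => absurd h4 (by omega))

end Cfsg.Agent.S5677
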