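import Cfsg.Statements.S5680
import Cfsg.Agent.MaxSub.OrthExt3.Matrices
import Cfsg.Agent.GeoClasses.OrthOddBase
-- import your own Cfsg.Agent.* helpers here

set_option autoImplicit false
open Cfsg

namespace Cfsg.Agent.S5680

/-- Let F be a finite field of odd order, m ≥ 6, Q the standard quadratic form on F^(2m+1) and Ω the commutator subgroup of its isometry group. Let K be a subfield of the algebra of (2m+1) × (2m+1) matrices over F containing the scalars, of prime degree r over F with r ≠ 2m + 1, whose elements are self-adjoint for the polar form of Q. Then the elements of Ω normalising K form a maximal subgroup of Ω. -/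
theorem result {F : Type*} [Field F] [Fintype F] (hodd : Odd (Fintype.card F)) (m : ℕ) (hm : 6 ≤ m) (r : ℕ) (hr : r.Prime) (hrn : 2 * m + 1 ≠ r) (K : Subalgebra F (Matrix (Unit ⊕ (Fin m ⊕ Fin m)) (Unit ⊕ (Fin m ⊕ Fin m)) F)) (hK : Cfsg.Geo.IsFieldSubalgebra r K) (hsa : Cfsg.Geo.IsSelfAdjointFor (QuadraticMap.polar (Cfsg.quadFormOdd m F)) K) : Cfsg.Geo.IsMaximalIn (Cfsg.Geo.omegaGL (Cfsg.quadFormOdd m F)) (Cfsg.Geo.subalgebraNormalizer K ⊓ Cfsg.Geo.omegaGL (Cfsg.quadFormOdd m F)) := by
  classical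
  have h2 : (2 : F) ≠ 0 := Cfsg.Agent.Classical.two_ne_zero_of_odd
    (by rwa [Nat.card_eq_fintype_card])
  have hQ : Cfsg.Geo.IsNondegenerateQuadraticForm (Cfsg.quadFormOdd m F) :=
    ⟨Cfsg.Agent.GeoClasses.quadFormOdd_smul,
      (Cfsg.Agent.GeoClasses.polar_quadFormOdd (F := F) (m := m)).symm ▸
        (Cfsg.Agent.GeoClasses.isSymmetricForm_formOf
          (Cfsg.Agent.GeoClasses.isPolar_oddGram h2).unit
          Cfsg.Agent.GeoClasses.oddGram_symm).bilinear,
      (Cfsg.Agent.GeoClasses.polar_quadFormOdd (F := F) (m := m)).symm ▸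
        (Cfsg.Agent.GeoClasses.isSymmetricForm_formOf
          (Cfsg.Agent.GeoClasses.isPolar_oddGram h2).unit
          Cfsg.Agent.GeoClasses.oddGram_symm).nondegenerate⟩
  refine MaxSub.OrthExt3.omega_extField_maximal_three hodd (fun d hd => ?_) hr hQ K hK hsa
  simp only [Fintype.card_sum, Fintype.card_unit, Fintype.card_fin] at hd
  rcases Nat.lt_or_ge d 4 with h4 | h4
  · refine Or.inr ?_
    interval_cases d
    · omega
    · omega
    · omega
    · exact ⟨rfl, by omega⟩
  · exact Or.inl h4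

end Cfsg.Agent.S5680
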