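import Cfsg.Statements.S5683
import Cfsg.Agent.GeoClasses.OrthSubfield
import Cfsg.Agent.GeoClasses.OrthOdd

set_option autoImplicit false
open Cfsg

namespace Cfsg.Agent.S5683

/-- Let F be a finite field of odd order, m ≥ 6, Q the standard quadratic form on F^(2m+1) and Ω the commutator subgroup of its isometry group. Let F₀ be a subfield with |F| = |F₀| ^ r for a prime r and P an invertible matrix such that Q takes values in F₀ on the F₀-span of the columns of P. Then the elements of Ω lying in the subfield group of P (the conjugate by P of the product of GL_(2m+1)(F₀) with the scalars) form a maximal subgroup of Ω. -/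
theorem result {F : Type*} [Field F] [Fintype F] (hodd : Odd (Fintype.card F)) (m : ℕ) (hm : 6 ≤ m) (F₀ : Subfield F) (r : ℕ) (hr : r.Prime) (hcard : Fintype.card F = Nat.card F₀ ^ r) (P : Matrix.GeneralLinearGroup (Unit ⊕ (Fin m ⊕ Fin m)) F) (hP : Cfsg.Geo.IsQuadFormRationalStructure (Cfsg.quadFormOdd m F) F₀ P) : Cfsg.Geo.IsMaximalIn (Cfsg.Geo.omegaGL (Cfsg.quadFormOdd m F)) (Cfsg.Geo.subfieldSubgroup F₀ P ⊓ Cfsg.Geo.omegaGL (Cfsg.quadFormOdd m F)) := by
  have h2 : (2 : F) ≠ 0 := Cfsg.Agent.Classical.two_ne_zero_of_odd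
    (by rwa [Nat.card_eq_fintype_card])
  have hQ : Cfsg.Geo.IsNondegenerateQuadraticForm (Cfsg.quadFormOdd m F) :=
    ⟨Cfsg.Agent.GeoClasses.quadFormOdd_smul,
      (Cfsg.Agent.GeoClasses.polar_quadFormOdd (F := F) (m := m)).symm ▸
        (Cfsg.Agent.GeoClasses.isSymmetricForm_formOf
          (Cfsg.Agent.GeoClasses.isPolar_oddGram h2).unit
          Cfsg.Agent.GeoClasses.oddGram_symm).bilinear,
      (Cfsg.Agent.GeoClasses.polar_quadFormOdd (F := F) (m := m)).symm ▸
        (Cfsg.Agent.GeoClasses.isSymmetricForm_formOf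
          (Cfsg.Agent.GeoClasses.isPolar_oddGram h2).unit
          Cfsg.Agent.GeoClasses.oddGram_symm).nondegenerate⟩
  exact Cfsg.Agent.GeoClasses.omegaGL_subfield_maximal hQ
    (by simp only [Fintype.card_sum, Fintype.card_unit, Fintype.card_fin]; omega) hr hcard P hP

end Cfsg.Agent.S5683
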