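import Cfsg.Statements.S5691
import Cfsg.Agent.GeoClasses.OrthPoint

set_option autoImplicit false
open Cfsg

namespace Cfsg.Agent.S5691

theorem result {F : Type*} [Field F] [Fintype F] {n : ℕ} (hn : 13 ≤ n) (heven : Even n) (Q : (Fin n → F) → F) (hQ : Cfsg.Geo.IsNondegenerateQuadraticForm Q) (hchar : ¬ Odd (Fintype.card F)) (v : (Fin n → F)) (hv : Q v ≠ 0) : Cfsg.Geo.IsMaximalIn (Cfsg.Geo.omegaGL Q) (Cfsg.Geo.subspaceStabilizer (Submodule.span F {v}) ⊓ Cfsg.Geo.omegaGL Q) := by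
  exact Cfsg.Agent.GeoClasses.omegaGL_point_maximal hQ
    (by
      by_contra h
      exact hchar (Cfsg.Agent.GeoClasses.two_ne_zero_iff_odd_card.1 h))
    (by rw [Fintype.card_fin]; omega) hv

end Cfsg.Agent.S5691
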