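import Cfsg.Statements.S5699
import Cfsg.Agent.GeoClasses.OrthHalves

set_option autoImplicit false
open Cfsg

namespace Cfsg.Agent.S5699

theorem result {F : Type*} [Field F] [Fintype F] {n : ℕ} (hn : 13 ≤ n) (heven : Even n) (Q : (Fin n → F) → F) (hQ : Cfsg.Geo.IsNondegenerateQuadraticForm Q) (k : ℕ) (hk : 2 * k = n) (hko : Odd k) (D : Fin 2 → Submodule F (Fin n → F)) (hD : Cfsg.Geo.IsNondegenerateMDecomposition (QuadraticMap.polar Q) k D) (hni : ¬ Cfsg.Geo.AreIsometricFor Q (D 0) (D 1)) : Cfsg.Geo.IsMaximalIn (Cfsg.Geo.omegaGL Q) (Cfsg.Geo.decompositionStabilizer D ⊓ Cfsg.Geo.omegaGL Q) := by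
  exact Cfsg.Agent.GeoClasses.omegaGL_nonisometric_halves_maximal hQ (by omega) (by simp [hk]) hD hni

end Cfsg.Agent.S5699
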