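import Cfsg.Statements.S5702
import Cfsg.Agent.GeoClasses.OrthSubfield

set_option autoImplicit false
open Cfsg

namespace Cfsg.Agent.S5702

/-- Let F be a finite field with q elements, n ≥ 13 even, Q a non-degenerate quadratic form on F^n (of either type), and Ω the commutator subgroup of the isometry group of Q, viewed inside GL_n(F). Let F₀ be a subfield with |F| = |F₀| ^ r for a prime r, ζ a non-zero scalar and P an invertible matrix such that ζ·Q takes values in F₀ on the F₀-span of the columns of P. Then the elements of Ω lying in the subfield group of P (the conjugate by P of the product of GL_n(F₀) with the scalars) form a maximal subgroup of Ω. -/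
theorem result {F : Type*} [Field F] [Fintype F] {n : ℕ} (hn : 13 ≤ n) (heven : Even n) (Q : (Fin n → F) → F) (hQ : Cfsg.Geo.IsNondegenerateQuadraticForm Q) (F₀ : Subfield F) (r : ℕ) (hr : r.Prime) (hcard : Fintype.card F = Nat.card F₀ ^ r) (P : Matrix.GeneralLinearGroup (Fin n) F) (ζ : F) (hζ : ζ ≠ 0) (hP : Cfsg.Geo.IsQuadFormRationalStructure (fun v : Fin n → F => ζ * Q v) F₀ P) : Cfsg.Geo.IsMaximalIn (Cfsg.Geo.omegaGL Q) (Cfsg.Geo.subfieldSubgroup F₀ P ⊓ Cfsg.Geo.omegaGL Q) := by
  have hQ' : Cfsg.Geo.IsNondegenerateQuadraticForm (fun v : Fin n → F => ζ * Q v) := by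
    have hp : ∀ x y : Fin n → F, QuadraticMap.polar (fun v : Fin n → F => ζ * Q v) x y =
        ζ * QuadraticMap.polar Q x y := fun x y => by simp only [QuadraticMap.polar]; ring
    refine ⟨fun c v => ?_, ⟨fun x y z => ?_, fun c x y => ?_, fun x y z => ?_, fun c x y => ?_⟩,
      fun x hx => ?_⟩
    · show ζ * Q (c • v) = c ^ 2 * (ζ * Q v)
      rw [hQ.smul]; ring
    · rw [hp, hp, hp, hQ.polar_bilinear.add_left]; ring
    · rw [hp, hp, hQ.polar_bilinear.smul_left]; ring
    · rw [hp, hp, hp, hQ.polar_bilinear.add_right]; ring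
    · rw [hp, hp, hQ.polar_bilinear.smul_right]; ring
    · obtain ⟨⟨y, hy⟩, ⟨z, hz⟩⟩ := hQ.nondegenerate x hx
      exact ⟨⟨y, by rw [hp]; exact mul_ne_zero hζ hy⟩, ⟨z, by rw [hp]; exact mul_ne_zero hζ hz⟩⟩
  rw [← Cfsg.Agent.GeoClasses.omegaGL_const_mul (Q := Q) hζ]
  exact Cfsg.Agent.GeoClasses.omegaGL_subfield_maximal hQ' (by simp; omega) hr hcard P hP

end Cfsg.Agent.S5702
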