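import Cfsg.Statements.S5704
import Cfsg.Agent.MaxSub.TensorMax.SympMain
import Cfsg.Agent.CharTwoInvol.Basic

set_option autoImplicit false
open Cfsg

namespace Cfsg.Agent.S5704

/-- Let F be a finite field with q elements, n ≥ 13 even, Q a non-degenerate quadratic form on F^n of plus type (some subspace of dimension n/2 is totally singular), and Ω the commutator subgroup of the isometry group of Q, viewed inside GL_n(F). Suppose that, through a change of basis P and a bijection of index sets e, the polar form of Q is similar to the tensor product of non-degenerate symplectic forms f₁ on F^(n₁) and f₂ on F^(n₂) with n₁ < n₂, and Q vanishes on the images of all pure tensors. Unless q = 2 and n₁ = 2, the elements of Ω in the stabiliser of this tensor decomposition form a maximal subgroup of Ω. -/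
theorem result {F : Type*} [Field F] [Fintype F] {n : ℕ} (hn : 13 ≤ n) (heven : Even n) (Q : (Fin n → F) → F) (hQ : Cfsg.Geo.IsNondegenerateQuadraticForm Q) (hplus : Cfsg.Geo.IsPlusTypeOn Q ⊤) (n₁ n₂ : ℕ) (h12 : n₁ < n₂) (hex : ¬ (Fintype.card F = 2 ∧ n₁ = 2)) (e : (Fin n) ≃ Fin n₁ × Fin n₂) (P : Matrix.GeneralLinearGroup (Fin n) F) (f₁ : (Fin n₁ → F) → (Fin n₁ → F) → F) (f₂ : (Fin n₂ → F) → (Fin n₂ → F) → F) (hf₁ : Cfsg.Geo.IsSymplecticForm f₁) (hf₂ : Cfsg.Geo.IsSymplecticForm f₂) (hT : Cfsg.Geo.IsTensorFormStructure id (QuadraticMap.polar Q) f₁ f₂ e P) (hpure : (∀ (x₁ : Fin n₁ → F) (x₂ : Fin n₂ → F), Q (Matrix.mulVec (P : Matrix (Fin n) (Fin n) F) ((fun a : Fin n₁ × Fin n₂ => x₁ a.1 * x₂ a.2) ∘ e)) = 0)) : Cfsg.Geo.IsMaximalIn (Cfsg.Geo.omegaGL Q) (Cfsg.Geo.tensorProductSubgroup n₁ n₂ e P ⊓ Cfsg.Geo.omegaGL Q) := by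
  classical
  have heven : ∀ {k : ℕ} (f : (Fin k → F) → (Fin k → F) → F), Cfsg.Geo.IsSymplecticForm f → Even k := by
    intro k f hf
    let B : (Fin k → F) →ₗ[F] (Fin k → F) →ₗ[F] F :=
      LinearMap.mk₂ F f hf.bilinear.add_left hf.bilinear.smul_left hf.bilinear.add_right
        hf.bilinear.smul_right
    have hinj : Function.Injective B := by
      rw [← LinearMap.ker_eq_bot, LinearMap.ker_eq_bot']
      intro v hv
      by_contra h0
      obtain ⟨-, y, hy⟩ := hf.nondegenerate v h0
      exact hy (by simpa [B] using LinearMap.congr_fun hv y)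
    have h := Cfsg.Agent.CharTwoInvol.even_finrank_range_of_alternating B fun v => hf.alternating v
    rwa [LinearMap.finrank_range_of_inj hinj, Module.finrank_fin_fun] at h
  obtain ⟨r₁, hr₁⟩ := heven f₁ hf₁
  obtain ⟨r₂, hr₂⟩ := heven f₂ hf₂
  have hn12 : n = n₁ * n₂ := by
    have := Fintype.card_congr e
    simpa using this
  have h1 : 2 ≤ n₁ := by
    rcases Nat.eq_zero_or_pos n₁ with h0 | h0
    · subst h0; omega
    · omega
  have hb : 6 ≤ n₂ := by
    by_contra hlt
    push Not at hlt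
    have : n₁ * n₂ ≤ 4 * 5 := Nat.mul_le_mul (by omega) (by omega)
    interval_cases n₂ <;> interval_cases n₁ <;> omega
  refine Cfsg.Agent.MaxSub.TensorMax.sympTensor_maximal h1 (by omega) hb ?_ hQ e P f₁ f₂ hf₁ hf₂ hT
    hpure
  by_contra hc
  rw [not_or, not_le] at hc
  obtain ⟨hc1, hc2⟩ := hc
  push Not at hc1
  refine hex ⟨?_, by omega⟩
  have hle : Fintype.card F ≤ ({0, 1} : Finset F).card := by
    rw [← Finset.card_univ]
    refine Finset.card_le_card fun t _ => ?_
    rcases eq_or_ne t 0 with rfl | ht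
    · simp
    · simp [hc1 t ht]
  have h2 : ({0, 1} : Finset F).card ≤ 2 := Finset.card_le_two
  have := Fintype.one_lt_card (α := F)
  omega

end Cfsg.Agent.S5704
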