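import Cfsg.Statements.S5707
import Cfsg.Agent.NotMax.TensorPower

set_option autoImplicit false
open Cfsg

namespace Cfsg.Agent.S5707

/-- Let F be a finite field with q elements, n ≥ 13 even, Q a non-degenerate quadratic form on F^n of plus type (some subspace of dimension n/2 is totally singular), and Ω the commutator subgroup of the isometry group of Q, viewed inside GL_n(F). Suppose q is even and that, through P and e, the polar form of Q is similar to the t-fold tensor power (t ≥ 2) of a non-degenerate symplectic form f₁ on F^k with k ≤ 4 and (q, k) ≠ (2, 2), Q vanishing on the images of all pure tensors. Then the elements of Ω in the stabiliser of this decomposition form a subgroup that is not maximal: some subgroup lies strictly between it and Ω. -/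
theorem result {F : Type*} [Field F] [Fintype F] {n : ℕ} (hn : 13 ≤ n) (heven : Even n) (Q : (Fin n → F) → F) (hQ : Cfsg.Geo.IsNondegenerateQuadraticForm Q) (hplus : Cfsg.Geo.IsPlusTypeOn Q ⊤) (hchar : ¬ Odd (Fintype.card F)) (k t : ℕ) (ht : 2 ≤ t) (hk : k ≤ 4) (hex1 : ¬ (Fintype.card F = 2 ∧ k = 2)) (e : (Fin n) ≃ (Fin t → Fin k)) (P : Matrix.GeneralLinearGroup (Fin n) F) (f₁ : (Fin k → F) → (Fin k → F) → F) (hf₁ : Cfsg.Geo.IsSymplecticForm f₁) (hT : Cfsg.Geo.IsTensorPowerFormStructure id (QuadraticMap.polar Q) f₁ e P) (hpure : (∀ xs : Fin t → (Fin k → F), Q (Matrix.mulVec (P : Matrix (Fin n) (Fin n) F) ((fun a : Fin t → Fin k => ∏ i, xs i (a i)) ∘ e)) = 0)) : ∃ K : Subgroup (Matrix.GeneralLinearGroup (Fin n) F), Cfsg.Geo.tensorWreathSubgroup k t e P ⊓ Cfsg.Geo.omegaGL Q < K ∧ K < Cfsg.Geo.omegaGL Q := by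
  have h2 : (2 : F) = 0 := Cfsg.Agent.NotMax.two_eq_zero_of_even_card (Nat.not_odd_iff_even.1 hchar)
  obtain ⟨hGu, hGskew, hGd⟩ := Cfsg.Agent.GeoClasses.symplecticForm_gram hf₁
  have hnk : n = k ^ t := by simpa using Fintype.card_congr e
  have hkeven : Even k := (Nat.even_pow.1 (hnk ▸ heven)).1
  obtain ⟨E, D, hdata⟩ : ∃ E D, Cfsg.Agent.NotMax.SiteData (Cfsg.Geo.gramMatrix f₁) E D := by
    rcases (by obtain ⟨r, rfl⟩ := hkeven; omega : k = 0 ∨ k = 2 ∨ k = 4) with rfl | rfl | rfl
    · rw [zero_pow (by omega)] at hnk; omega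
    · obtain ⟨a, ha0, ha1⟩ : ∃ a : F, a ≠ 0 ∧ a ≠ 1 := by
        classical
        by_contra hno
        push Not at hno
        have h2' : Fintype.card F ≤ 2 := by
          rw [← Finset.card_univ]
          refine (Finset.card_le_card (fun x _ => ?_ : Finset.univ ⊆ ({0, 1} : Finset F))).trans Finset.card_le_two
          by_cases h : x = 0
          · simp [h]
          · simp [hno x h]
        have := Fintype.one_lt_card (α := F)
        exact hex1 ⟨by omega, rfl⟩
      exact Cfsg.Agent.NotMax.exists_siteData_two h2 hGskew hGd ha0 ha1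
    · exact Cfsg.Agent.NotMax.exists_siteData_four h2 hf₁
  refine Cfsg.Agent.NotMax.tensor_power_between hQ (by simpa using hn) h2 ?_ e P hf₁ hT (fun y => hpure y) hdata
  rcases (by obtain ⟨r, rfl⟩ := hkeven; omega : k = 0 ∨ k = 2 ∨ k = 4) with rfl | rfl | rfl
  · rw [zero_pow (by omega)] at hnk; omega
  · refine Or.inl ⟨rfl, ?_⟩
    by_contra h4
    have := Nat.pow_le_pow_right (n := 2) (by omega) (show t ≤ 3 by omega)
    omega
  · exact Or.inr ⟨rfl, ht⟩

end Cfsg.Agent.S5707
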