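import Cfsg.Statements.S5709
import Cfsg.Agent.MaxSub.OrthTensor.Main

set_option autoImplicit false
open Cfsg

namespace Cfsg.Agent.S5709

/-- Let F be a finite field with q elements, n ≥ 13 even, Q a non-degenerate quadratic form on F^n of minus type (no subspace of dimension n/2 is totally singular), and Ω the commutator subgroup of the isometry group of Q, viewed inside GL_n(F). Suppose q is odd and that, through a change of basis P and a bijection of index sets e, the polar form of Q is similar to the tensor product of non-degenerate symmetric bilinear forms f₁ on F^(n₁), n₁ odd and at least 3, and f₂ on F^(n₂), n₂ even and at least 4 with no totally isotropic subspace of dimension n₂/2 (minus type). Unless q = 3 and n₁ = 3, the elements of Ω in the stabiliser of this tensor decomposition form a maximal subgroup of Ω. -/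
theorem result {F : Type*} [Field F] [Fintype F] {n : ℕ} (hn : 13 ≤ n) (heven : Even n) (Q : (Fin n → F) → F) (hQ : Cfsg.Geo.IsNondegenerateQuadraticForm Q) (hminus : ¬ Cfsg.Geo.IsPlusTypeOn Q ⊤) (hodd : Odd (Fintype.card F)) (n₁ n₂ : ℕ) (h1 : 3 ≤ n₁) (h1o : Odd n₁) (h2 : 4 ≤ n₂) (h2e : Even n₂) (hex : ¬ (Fintype.card F = 3 ∧ n₁ = 3)) (e : (Fin n) ≃ Fin n₁ × Fin n₂) (P : Matrix.GeneralLinearGroup (Fin n) F) (f₁ : (Fin n₁ → F) → (Fin n₁ → F) → F) (f₂ : (Fin n₂ → F) → (Fin n₂ → F) → F) (hf₁ : Cfsg.Geo.IsSymmetricForm f₁) (hf₂ : Cfsg.Geo.IsSymmetricForm f₂) (hf₂m : ¬ Cfsg.Geo.IsPlusTypeOn (fun v : Fin n₂ → F => f₂ v v) ⊤) (hT : Cfsg.Geo.IsTensorFormStructure id (QuadraticMap.polar Q) f₁ f₂ e P) : Cfsg.Geo.IsMaximalIn (Cfsg.Geo.omegaGL Q) (Cfsg.Geo.tensorProductSubgroup n₁ n₂ e P ⊓ Cfsg.Geo.omegaGL Q) := by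
  have h2' : (2 : F) ≠ 0 := Cfsg.Agent.Classical.two_ne_zero_of_odd
    (by rwa [Nat.card_eq_fintype_card])
  have hcard : n₁ * n₂ = n := by
    have h := Fintype.card_congr e
    simp only [Fintype.card_prod, Fintype.card_fin] at h
    omega
  obtain ⟨k, hk⟩ := h1o
  obtain ⟨l, hl⟩ := h2e
  rcases lt_or_gt_of_ne (show n₁ ≠ n₂ by omega) with h12 | h12
  · have hb : 5 ≤ n₂ := by
      by_contra hc
      obtain rfl : n₂ = 4 := by omega
      obtain rfl : n₁ = 3 := by omega
      omega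
    refine MaxSub.OrthTensor.orthTensor_maximal h2' h1 hb h12
      (MaxSub.OrthTensor.big_of_hex hodd h1 hex) hQ e P f₁ f₂ hf₁ hf₂ hT ?_
    rcases (by omega : 5 ≤ n₁ ∨ n₁ = 3) with h | h
    · exact Or.inl h
    · exact Or.inr (Or.inl h)
  · rw [MaxSub.OrthTensor.tensorProductSubgroup_swap e P]
    refine MaxSub.OrthTensor.orthTensor_maximal h2' (by omega) (by omega) h12 (Or.inr h2) hQ _ P
      f₂ f₁ hf₂ hf₁ (MaxSub.OrthTensor.isTensorFormStructure_swap hT) ?_
    rcases (by omega : 5 ≤ n₂ ∨ n₂ = 4) with h | h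
    · exact Or.inl h
    · refine Or.inr (Or.inr ⟨h, fun W hW => ?_⟩)
      by_contra hc
      push Not at hc
      refine hf₂m ⟨W, le_top, fun w hw => hc w hw w hw, ?_⟩
      rw [finrank_top, Module.finrank_fin_fun, hW, h]

end Cfsg.Agent.S5709
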