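import Cfsg.Statements.S5780
import Cfsg.Agent.GeoClasses.TransvGen
import Cfsg.Agent.GeoClasses.SimMax
import Cfsg.Agent.MaxSub.ExtField.Main
import Cfsg.Agent.MaxSub.SLFour.Frame
import Cfsg.Agent.MaxSub.SLFour.Planes
import Cfsg.Agent.MaxSub.SLFour.Subfield
import Cfsg.Agent.MaxSub.SLFour.Quad
import Cfsg.Agent.MaxSub.SLFour.Unitary
import Cfsg.Agent.MaxSub.SLFour.PairMatrix

set_option autoImplicit false
open Cfsg

namespace Cfsg.Agent.S5780

/-- Maximal subgroups of SL_4(q) of geometric type, for a finite field F with q elements (any q). Each of the following subgroups of GL_4(F), intersected with SL_4(F), is a maximal subgroup of SL_4(F): (1) the stabiliser of any proper non-zero subspace of F^4; (2) for q ≥ 7, the stabiliser of any decomposition of F^4 into four independent lines; (3) for q ≥ 4, the stabiliser of any decomposition of F^4 into two independent planes; (4) the normaliser of any degree-2 subfield of the 4 × 4 matrix algebra over F; (5) every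 subfield group for a subfield F₀ with |F| = |F₀|^r, r prime; (6) for q = p prime with p ≡ 1 mod 4, the normaliser of any absolutely irreducible 2-subgroup R of exponent 4 with centre of order 4, all of whose characteristic abelian subgroups are cyclic, of order 2^(2+2m) for some m (here |R| = 64), with 4 dividing p − 1; (7) for q odd, the group of similarities of any non-degenerate quadratic form on F^4 (of either sign); (8) the group of similarities of any non-degenerate symplectic form on F^4; (9) the group of similarities of any non-degenerate unitary form on F^4. -/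
theorem result {F : Type*} [Field F] [Fintype F] :
    (∀ W : Submodule F (Fin 4 → F), W ≠ ⊥ → W ≠ ⊤ → Cfsg.Geo.IsMaximalIn (Cfsg.Geo.specialLinear (Fin 4) F) (Cfsg.Geo.subspaceStabilizer W ⊓ Cfsg.Geo.specialLinear (Fin 4) F)) ∧
    (7 ≤ Fintype.card F → ∀ D : Fin 4 → Submodule F (Fin 4 → F), Cfsg.Geo.IsMDecomposition 1 D → Cfsg.Geo.IsMaximalIn (Cfsg.Geo.specialLinear (Fin 4) F) (Cfsg.Geo.decompositionStabilizer D ⊓ Cfsg.Geo.specialLinear (Fin 4) F)) ∧
    (4 ≤ Fintype.card F → ∀ D : Fin 2 → Submodule F (Fin 4 → F), Cfsg.Geo.IsMDecomposition 2 D → Cfsg.Geo.IsMaximalIn (Cfsg.Geo.specialLinear (Fin 4) F) (Cfsg.Geo.decompositionStabilizer D ⊓ Cfsg.Geo.specialLinear (Fin 4) F)) ∧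
    (∀ K : Subalgebra F (Matrix (Fin 4) (Fin 4) F), Cfsg.Geo.IsFieldSubalgebra 2 K → Cfsg.Geo.IsMaximalIn (Cfsg.Geo.specialLinear (Fin 4) F) (Cfsg.Geo.subalgebraNormalizer K ⊓ Cfsg.Geo.specialLinear (Fin 4) F)) ∧
    (∀ (F₀ : Subfield F) (r : ℕ) (P : Matrix.GeneralLinearGroup (Fin 4) F), r.Prime → Fintype.card F = Nat.card F₀ ^ r → Cfsg.Geo.IsMaximalIn (Cfsg.Geo.specialLinear (Fin 4) F) (Cfsg.Geo.subfieldSubgroup F₀ P ⊓ Cfsg.Geo.specialLinear (Fin 4) F)) ∧
    (∀ (p : ℕ) (R : Subgroup (Matrix.GeneralLinearGroup (Fin 4) F)), p.Prime → Fintype.card F = p → p % 4 = 1 → Cfsg.Geo.IsLinearSymplecticTypeData 2 R → Cfsg.Geo.IsMaximalIn (Cfsg.Geo.specialLinear (Fin 4) F) (Cfsg.Geo.subgroupNormalizer R ⊓ Cfsg.Geo.specialLinear (Fin 4) F)) ∧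
    (Odd (Fintype.card F) → ∀ Q : (Fin 4 → F) → F, Cfsg.Geo.IsNondegenerateQuadraticForm Q → Cfsg.Geo.IsMaximalIn (Cfsg.Geo.specialLinear (Fin 4) F) (Cfsg.Geo.quadSimilarityGroup Q ⊓ Cfsg.Geo.specialLinear (Fin 4) F)) ∧
    (∀ f : (Fin 4 → F) → (Fin 4 → F) → F, Cfsg.Geo.IsSymplecticForm f → Cfsg.Geo.IsMaximalIn (Cfsg.Geo.specialLinear (Fin 4) F) (Cfsg.Geo.similarityGroup f ⊓ Cfsg.Geo.specialLinear (Fin 4) F)) ∧
    (∀ (σ : F ≃+* F) (f : (Fin 4 → F) → (Fin 4 → F) → F), Cfsg.Geo.IsUnitaryForm σ f → Cfsg.Geo.IsMaximalIn (Cfsg.Geo.specialLinear (Fin 4) F) (Cfsg.Geo.similarityGroup f ⊓ Cfsg.Geo.specialLinear (Fin 4) F)) := by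
  open Cfsg.Agent in
  have : Nontrivial (Fin 4) := inferInstance
  refine ⟨fun W h0 h1 => GeoClasses.subspaceStabilizer_maximal h0 h1,
    fun hq D hD => MaxSub.SLFour.frame_maximal hq D hD,
    fun hq D hD => MaxSub.SLFour.planes_maximal hq D hD,
    fun K hK => (MaxSub.subalgebraNormalizer_maximal Nat.prime_two (by norm_num) (by norm_num) K hK).2,
    fun F₀ r P hr hc => MaxSub.SLFour.subfield_maximal hr (Fintype.card_fin 4) hc P,
    fun p R _ _ _ hR => MaxSub.SLFour.symplecticType_normalizer_maximal rfl hR,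
    fun hodd Q hQ => MaxSub.SLFour.quad_maximal (Fintype.card_fin 4) ?_ hQ,
    fun f hf => GeoClasses.symp_similarity_maximal (by simp) hf,
    fun σ f hf => MaxSub.SLFour.unitary_maximal le_rfl hf⟩
  intro h2
  have hch : CharP F 2 := CharTwo.of_one_ne_zero_of_two_eq_zero one_ne_zero h2
  have := FiniteField.even_card_iff_char_two.1 (ringChar.eq F 2)
  exact (Nat.not_even_iff_odd.2 hodd) (Nat.even_iff.2 this)

end Cfsg.Agent.S5780
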