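import Cfsg.Statements.S5792
import Cfsg.Agent.GeoClasses.TransvGen
import Cfsg.Agent.MaxSub.SubfieldMax.Main
import Cfsg.Agent.GeoClasses.OrthSimMax
import Cfsg.Agent.GeoClasses.UnitSimMax
import Cfsg.Agent.DecompMax.LinearMat
import Cfsg.Agent.MaxSub.FieldSub
import Cfsg.Agent.MaxSub.SingerFive.Full
import Cfsg.Agent.MaxSub.SingerFive.PairTrans
import Cfsg.Agent.MaxSub.CSixFive.Main
import Cfsg.Agent.MaxSub.CSixFive.CentJ
-- import your own Cfsg.Agent.* helpers here

set_option autoImplicit false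
open Cfsg

namespace Cfsg.Agent.S5792

/-- Maximal subgroups of SL_5(q) of geometric type, for a finite field F with q elements (any q); p denotes the characteristic. Each of the following subgroups of GL_5(F), intersected with SL_5(F), is a maximal subgroup of SL_5(F): (1) the stabiliser of any proper non-zero subspace of F^5; (2) for q ≥ 5, the stabiliser of any decomposition of F^5 into 5 independent 1-spaces; (3) the normaliser of any degree-5 subfield of the 5 × 5 matrix algebra over F (a commutative subalgebra of dimension 5 in which every non-zero element is invertible); (4) every subfield group (a conjugate of GL_5(F₀) times the scalars of F) for a subfield F₀ with |F| = |F₀|^r, r prime; (5) for q = p prime with p ≡ 1 mod 5, the normaliser of any absolutely irreducible 5-subgroup R of exponent 5 and order 5^(1+2m) with centre of order 5, all of whose characteristic abelian subgroups are cyclic, F being the smallest field of characteristic p containing the fifth roots of unity (here R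 is extraspecial of order 125); (6) for q odd, the group of similarities of any non-degenerate quadratic form on F^5; (7) the group of similarities of any non-degenerate unitary form on F^5 (these exist exactly when q is a square). -/
theorem result {F : Type*} [Field F] [Fintype F] :
    (∀ W : Submodule F (Fin 5 → F), W ≠ ⊥ → W ≠ ⊤ → Cfsg.Geo.IsMaximalIn (Cfsg.Geo.specialLinear (Fin 5) F) (Cfsg.Geo.subspaceStabilizer W ⊓ Cfsg.Geo.specialLinear (Fin 5) F)) ∧
    (5 ≤ Fintype.card F → ∀ D : Fin 5 → Submodule F (Fin 5 → F), Cfsg.Geo.IsMDecomposition 1 D → Cfsg.Geo.IsMaximalIn (Cfsg.Geo.specialLinear (Fin 5) F) (Cfsg.Geo.decompositionStabilizer D ⊓ Cfsg.Geo.specialLinear (Fin 5) F)) ∧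
    (∀ K : Subalgebra F (Matrix (Fin 5) (Fin 5) F), Cfsg.Geo.IsFieldSubalgebra 5 K → Cfsg.Geo.IsMaximalIn (Cfsg.Geo.specialLinear (Fin 5) F) (Cfsg.Geo.subalgebraNormalizer K ⊓ Cfsg.Geo.specialLinear (Fin 5) F)) ∧
    (∀ (F₀ : Subfield F) (r : ℕ) (P : Matrix.GeneralLinearGroup (Fin 5) F), r.Prime → Fintype.card F = Nat.card F₀ ^ r → Cfsg.Geo.IsMaximalIn (Cfsg.Geo.specialLinear (Fin 5) F) (Cfsg.Geo.subfieldSubgroup F₀ P ⊓ Cfsg.Geo.specialLinear (Fin 5) F)) ∧
    ((∃ p : ℕ, p.Prime ∧ Fintype.card F = p ∧ (p % 5 = 1)) → ∀ R : Subgroup (Matrix.GeneralLinearGroup (Fin 5) F), Cfsg.Geo.IsLinearSymplecticTypeData 5 R → Cfsg.Geo.IsMaximalIn (Cfsg.Geo.specialLinear (Fin 5) F) (Cfsg.Geo.subgroupNormalizer R ⊓ Cfsg.Geo.specialLinear (Fin 5) F)) ∧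
    (Odd (Fintype.card F) → ∀ Q : (Fin 5 → F) → F, Cfsg.Geo.IsNondegenerateQuadraticForm Q → Cfsg.Geo.IsMaximalIn (Cfsg.Geo.specialLinear (Fin 5) F) (Cfsg.Geo.quadSimilarityGroup Q ⊓ Cfsg.Geo.specialLinear (Fin 5) F)) ∧
    (∀ (σ : F ≃+* F) (f : (Fin 5 → F) → (Fin 5 → F) → F), Cfsg.Geo.IsUnitaryForm σ f → Cfsg.Geo.IsMaximalIn (Cfsg.Geo.specialLinear (Fin 5) F) (Cfsg.Geo.similarityGroup f ⊓ Cfsg.Geo.specialLinear (Fin 5) F)) := by
  classical
  refine ⟨fun W h0 h1 => GeoClasses.subspaceStabilizer_maximal h0 h1,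
    fun hq D hD => DecompMax.Lin.specialLinear_decomposition_maximal (by simp) hD (by omega) (by omega),
    fun K hK => ?_,
    fun F₀ r P hr hc => MaxSub.SubfieldMax.subfieldSubgroup_maximal hr (by simp) hc P,
    fun ⟨p, hp, hc, hp5⟩ R hR => ?_,
    fun hodd Q hQ => GeoClasses.quad_similarity_maximal (by simp) ?_ hQ,
    fun σ f hf => GeoClasses.unitary_similarity_maximal le_rfl hf⟩
  · refine ⟨lt_of_le_not_ge inf_le_right fun hle =>
      MaxSub.not_specialLinear_le_normalizer (by norm_num) (by simp) hK (hle.trans inf_le_left),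
      fun X hX hXS => ?_⟩
    by_cases hne : X ≤ Cfsg.Geo.subalgebraNormalizer K
    · exact Or.inl (le_antisymm (le_inf hne hXS) hX)
    · exact Or.inr (le_antisymm hXS
        (MaxSub.SingerFive.specialLinear_le (MaxSub.SingerFive.pairTrans hK hX hXS hne)))
  · exact MaxSub.CSixFive.symplecticType_five_maximal_of hp hc hp5 hR fun R M H =>
      ⟨fun g hg hJ h2 => H.involution_eq hg hJ h2,
        fun N h1 h2 h3 g hg => H.odd_normal_scalar h1 h2 h3 hg⟩
  · intro h2
    have hch : CharP F 2 := CharTwo.of_one_ne_zero_of_two_eq_zero one_ne_zero h2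
    have := FiniteField.even_card_iff_char_two.1 (ringChar.eq F 2)
    exact (Nat.not_even_iff_odd.2 hodd) (Nat.even_iff.2 this)

end Cfsg.Agent.S5792
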