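import Cfsg.Statements.S5820
import Cfsg.Agent.MaxSub.FormShapes
import Cfsg.Agent.ClassicalMax.UnitaryExceptions
import Cfsg.Agent.S5663

set_option autoImplicit false
open Cfsg

namespace Cfsg.Agent.S5820

/-- Every maximal subgroup of SU_8(q) is of one of the listed geometric types or lies in the residual class. Let F be the field with q² elements, f the standard unitary form Σ u_i v_i^q on F^8, and H a maximal subgroup of SU_8(q) (inside GL_8(F)). Then H is the intersection with SU_8(q) of one of: the stabiliser of a non-zero totally isotropic subspace; the stabiliser of a non-degenerate 1-, 2- or 3-space; the stabiliser of a decomposition into eight mutually orthogonal non-degenerate 1-spaces; for q ≥ 3, of a decomposition into four mutually orthogonal non-degenerate 2-spaces; of a decomposition into two orthogonal non-degenerate 4-spaces; of a decomposition into two totally isotropic 4-spaces;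 for q ≥ 3, the stabiliser of a tensor decomposition of f into unitary forms on F^2 and F^4; a subfield group of odd prime index whose F₀-structure carries f; a subfield group of index 2 and symplectic type; for q odd, a subfield group of index 2 and orthogonal type; for q = p ≡ 3 mod 4 prime, the normaliser of an absolutely irreducible symplectic-type 2-group of order 2^8 with centre of order 4 inside the similarity group of f — or else H lies in the residual class of the unitary case. -/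
theorem result {F : Type*} [Field F] [Fintype F] (q : ℕ) (hF : Fintype.card F = q ^ 2) (H : Subgroup (Matrix.GeneralLinearGroup (Fin 8) F)) (hH : Cfsg.Geo.IsMaximalIn (Cfsg.GU 8 F q ⊓ Cfsg.Geo.specialLinear (Fin 8) F) H) :
    (∃ W : Submodule F (Fin 8 → F), W ≠ ⊥ ∧ Cfsg.Geo.IsTotallySingularFor (Cfsg.hermForm 8 F q) W ∧ H = Cfsg.Geo.subspaceStabilizer W ⊓ (Cfsg.GU 8 F q ⊓ Cfsg.Geo.specialLinear (Fin 8) F)) ∨
    (∃ W : Submodule F (Fin 8 → F), W ≠ ⊥ ∧ Cfsg.Geo.IsNondegenerateOn (Cfsg.hermForm 8 F q) W ∧ 2 * Module.finrank F W < 8 ∧ H = Cfsg.Geo.subspaceStabilizer W ⊓ (Cfsg.GU 8 F q ⊓ Cfsg.Geo.specialLinear (Fin 8) F)) ∨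
    (∃ D : Fin 8 → Submodule F (Fin 8 → F), Cfsg.Geo.IsNondegenerateMDecomposition (Cfsg.hermForm 8 F q) 1 D ∧ H = Cfsg.Geo.decompositionStabilizer D ⊓ (Cfsg.GU 8 F q ⊓ Cfsg.Geo.specialLinear (Fin 8) F)) ∨
    (3 ≤ q ∧ ∃ D : Fin 4 → Submodule F (Fin 8 → F), Cfsg.Geo.IsNondegenerateMDecomposition (Cfsg.hermForm 8 F q) 2 D ∧ H = Cfsg.Geo.decompositionStabilizer D ⊓ (Cfsg.GU 8 F q ⊓ Cfsg.Geo.specialLinear (Fin 8) F)) ∨
    (∃ D : Fin 2 → Submodule F (Fin 8 → F), Cfsg.Geo.IsNondegenerateMDecomposition (Cfsg.hermForm 8 F q) 4 D ∧ H = Cfsg.Geo.decompositionStabilizer D ⊓ (Cfsg.GU 8 F q ⊓ Cfsg.Geo.specialLinear (Fin 8) F)) ∨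
    (∃ D : Fin 2 → Submodule F (Fin 8 → F), Cfsg.Geo.IsMDecomposition 4 D ∧ (∀ i, Cfsg.Geo.IsTotallySingularFor (Cfsg.hermForm 8 F q) (D i)) ∧ H = Cfsg.Geo.decompositionStabilizer D ⊓ (Cfsg.GU 8 F q ⊓ Cfsg.Geo.specialLinear (Fin 8) F)) ∨
    (3 ≤ q ∧ ∃ (e : Fin 8 ≃ Fin 2 × Fin 4) (P : Matrix.GeneralLinearGroup (Fin 8) F) (f₁ : (Fin 2 → F) → (Fin 2 → F) → F) (f₂ : (Fin 4 → F) → (Fin 4 → F) → F), Cfsg.Geo.IsUnitaryFormPow q f₁ ∧ Cfsg.Geo.IsUnitaryFormPow q f₂ ∧ Cfsg.Geo.IsTensorFormStructure (fun x : F => x ^ q) (Cfsg.hermForm 8 F q) f₁ f₂ e P ∧ H = Cfsg.Geo.tensorProductSubgroup 2 4 e P ⊓ (Cfsg.GU 8 F q ⊓ Cfsg.Geo.specialLinear (Fin 8) F)) ∨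
    (∃ (F₀ : Subfield F) (r : ℕ) (P : Matrix.GeneralLinearGroup (Fin 8) F), r.Prime ∧ Odd r ∧ Fintype.card F = Nat.card F₀ ^ r ∧ Cfsg.Geo.IsFormRationalStructure (Cfsg.hermForm 8 F q) F₀ 1 P ∧ H = Cfsg.Geo.subfieldSubgroup F₀ P ⊓ (Cfsg.GU 8 F q ⊓ Cfsg.Geo.specialLinear (Fin 8) F)) ∨
    (∃ (F₀ : Subfield F) (P : Matrix.GeneralLinearGroup (Fin 8) F) (ζ : F), Fintype.card F = Nat.card F₀ ^ 2 ∧ ζ ≠ 0 ∧ ζ + ζ ^ q = 0 ∧ Cfsg.Geo.IsFormRationalStructure (Cfsg.hermForm 8 F q) F₀ ζ P ∧ (∀ u : Fin 8 → F, (∀ i, u i ∈ F₀) → (Cfsg.hermForm 8 F q) (Matrix.mulVec (P : Matrix (Fin 8) (Fin 8) F) u) (Matrix.mulVec (P : Matrix (Fin 8) (Fin 8) F) u) = 0) ∧ H = Cfsg.Geo.subfieldSubgroup F₀ P ⊓ (Cfsg.GU 8 F q ⊓ Cfsg.Geo.specialLinear (Fin 8) F)) ∨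
    (Odd q ∧ ∃ (F₀ : Subfield F) (P : Matrix.GeneralLinearGroup (Fin 8) F), Fintype.card F = Nat.card F₀ ^ 2 ∧ Cfsg.Geo.IsFormRationalStructure (Cfsg.hermForm 8 F q) F₀ 1 P ∧ H = Cfsg.Geo.subfieldSubgroup F₀ P ⊓ (Cfsg.GU 8 F q ⊓ Cfsg.Geo.specialLinear (Fin 8) F)) ∨
    (∃ (p : ℕ) (R : Subgroup (Matrix.GeneralLinearGroup (Fin 8) F)), p.Prime ∧ q = p ∧ p % 4 = 3 ∧ Cfsg.Geo.IsSymplecticTypeGroup 2 R ∧ Cfsg.Geo.ActsAbsolutelyIrreducibly (Cfsg.Geo.matrixSet R) ∧ R ≤ Cfsg.Geo.similarityGroup (Cfsg.hermForm 8 F q) ∧ Nat.card R = 256 ∧ Nat.card (Subgroup.center R) = 4 ∧ H = Cfsg.Geo.subgroupNormalizer R ⊓ (Cfsg.GU 8 F q ⊓ Cfsg.Geo.specialLinear (Fin 8) F)) ∨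
    Cfsg.Geo.InUnitaryResidualClass H := by
  rcases Cfsg.Agent.MaxSub.su_shapes (n := 8) (by norm_num) (by norm_num) hF
      (fun K hK hp => Cfsg.Agent.S5663.result 8 q hF (by norm_num) (by omega) K hK hp) hH with
    h | h | ⟨t, k, D, hD, htk, ht, hk, he⟩ | ⟨k, D, hk, hD, hts, he⟩ | h | h | ⟨F₀, P, ζ, hev, h⟩ |
    ⟨r, R, ⟨hR, hirr, hsim, p, j, k, hp, hch, hq, hj, hdeg, hk, hcase⟩, he⟩ |
    ⟨r, K, hr, hrodd, hrn, hK, hac, he⟩ | ⟨n₁, n₂, e, P, f₁, f₂, h1, h2, hnn, hf₁, hf₂, hs, he⟩ |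
    ⟨h9, hq3, e, P, f₁, hf₁, hs, he⟩ | hres
  · exact Or.inl h
  · exact Or.inr (Or.inl h)
  · obtain ⟨rfl, rfl⟩ | ⟨rfl, rfl⟩ | ⟨rfl, rfl⟩ : (t = 8 ∧ k = 1) ∨ (t = 4 ∧ k = 2) ∨ (t = 2 ∧ k = 4) := by
      have hdvd : k ∣ 8 := ⟨t, by rw [← htk, mul_comm]⟩
      have hkn := Nat.le_of_dvd (by norm_num) hdvd
      interval_cases k <;> omega
    · iterate 2 right
      exact Or.inl ⟨D, hD, he⟩
    · by_cases hq3 : 3 ≤ q
      · iterate 3 right
        exact Or.inl ⟨hq3, D, hD, he⟩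
      · have hsq := Cfsg.Agent.Classical.U.sqField_of_fintype hF
        obtain rfl : q = 2 := by have := hsq.one_lt; omega
        obtain ⟨E, hE, hle⟩ := Cfsg.Agent.ClassicalMax.planes_le_frame hsq hD
        iterate 2 right
        refine Or.inl ⟨E, hE, Cfsg.Agent.ClassicalMax.eq_inf_max hH ?_
          (Cfsg.Agent.ClassicalMax.suGL_not_le_frameStabilizer hsq (by norm_num) (by omega) hE (by norm_num))⟩
        exact (he.le.trans (inf_le_inf_left _ inf_le_left)).trans hle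
    · iterate 4 right
      exact Or.inl ⟨D, hD, he⟩
  · obtain rfl : k = 4 := by omega
    iterate 5 right
    exact Or.inl ⟨D, hD, hts, he⟩
  · iterate 7 right
    exact Or.inl h
  · iterate 9 right
    exact Or.inl h
  · iterate 8 right
    exact Or.inl ⟨F₀, P, ζ, h⟩
  · obtain rfl : r = 2 := (Nat.prime_dvd_prime_iff_eq hR.prime Nat.prime_two).mp
      (hR.prime.dvd_of_dvd_pow (n := 3) (hdeg ▸ dvd_pow_self r (by omega) : r ∣ 8))
    obtain rfl : k = 3 := Nat.pow_right_injective le_rfl (hdeg.symm.trans (by norm_num))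
    rcases hcase with ⟨ho, -⟩ | ⟨-, hZ, hR', hj1, hp4⟩
    · exact absurd ho (by decide)
    · subst hj1
      iterate 10 right
      exact Or.inl ⟨p, R, hp, by rw [hq, pow_one], hp4, hR, hirr, hsim, hR', hZ, he⟩
  · exfalso
    have hle := Nat.le_of_dvd (by norm_num) hrn
    interval_cases r <;> first | omega | (revert hr hrodd; decide)
  · obtain ⟨rfl, rfl⟩ : (n₁ = 2 ∧ n₂ = 4) := by
      have hle : n₁ ≤ 8 := Nat.le_of_dvd (by norm_num) ⟨n₂, hnn.symm⟩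
      interval_cases n₁ <;> omega
    by_cases hq3 : 3 ≤ q
    · iterate 6 right
      exact Or.inl ⟨hq3, e, P, f₁, f₂, hf₁, hf₂, hs, he⟩
    · have hsq := Cfsg.Agent.Classical.U.sqField_of_fintype hF
      obtain rfl : q = 2 := by have := hsq.one_lt; omega
      obtain ⟨D, hD, hle⟩ := Cfsg.Agent.ClassicalMax.tensor_le_decomposition_of_four hsq (by norm_num) e P hf₁ hf₂ hs
      iterate 4 right
      refine Or.inl ⟨D, hD, Cfsg.Agent.ClassicalMax.eq_inf_max hH ?_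
        (Cfsg.Agent.ClassicalMax.suGL_not_le_decompositionStabilizer hsq hD.decomp (by norm_num))⟩
      exact (he.le.trans (inf_le_inf_left _ inf_le_left)).trans hle
  · omega
  · iterate 11 right
    exact hres

end Cfsg.Agent.S5820
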