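import Cfsg.Statements.S5826
import Cfsg.Agent.OrthMax.EvenCases

set_option autoImplicit false
open Cfsg Cfsg.Agent.OrthMax

namespace Cfsg.Agent.S5826

set_option maxHeartbeats 1600000 in
/-- Every maximal subgroup of Ω_8^-(q) is of one of the listed geometric types or lies in the residual class. Let F be a finite field with q elements, Q a non-degenerate quadratic form on F^8 of minus type (no totally singular 4-space), Ω the commutator subgroup of its isometry group, and H a maximal subgroup of Ω (inside GL_8(F)). Then H is the intersection with Ω of one of: the stabiliser of a non-zero totally singular subspace; for q odd, the stabiliser of a non-degenerate subspace of odd dimension; the stabiliser of a non-degenerate 2-space of minus type; for q ≥ 4, the stabiliser of a non-degenerate 2-space of plus type; the stabiliser of a non-degenerate 4-space; for q even, the stabiliser of the span of a non-singular vector; the normaliser of a degree-2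 subfield of the matrix algebra; a subfield group of odd prime index whose F₀-structure carries a non-zero multiple of Q — or else H lies in the residual class of the orthogonal case (modulo scalars H is almost simple, with absolutely irreducible perfect socle preimage realisable over no proper subfield and fixing no non-degenerate unitary form). -/
theorem result {F : Type*} [Field F] [Fintype F] (Q : (Fin 8 → F) → F) (hQ : Cfsg.Geo.IsNondegenerateQuadraticForm Q) (hminus : ¬ Cfsg.Geo.IsPlusTypeOn Q ⊤) (H : Subgroup (Matrix.GeneralLinearGroup (Fin 8) F)) (hH : Cfsg.Geo.IsMaximalIn (Cfsg.Geo.omegaGL Q) H) :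
    (∃ W : Submodule F (Fin 8 → F), W ≠ ⊥ ∧ Cfsg.Geo.IsTotallySingularQuad Q W ∧ H = Cfsg.Geo.subspaceStabilizer W ⊓ Cfsg.Geo.omegaGL Q) ∨
    (Odd (Fintype.card F) ∧ ∃ W : Submodule F (Fin 8 → F), W ≠ ⊥ ∧ W ≠ ⊤ ∧ Odd (Module.finrank F W) ∧ Cfsg.Geo.IsNondegenerateOn (QuadraticMap.polar Q) W ∧ H = Cfsg.Geo.subspaceStabilizer W ⊓ Cfsg.Geo.omegaGL Q) ∨
    (∃ W : Submodule F (Fin 8 → F), Module.finrank F W = 2 ∧ Cfsg.Geo.IsNondegenerateOn (QuadraticMap.polar Q) W ∧ ¬ Cfsg.Geo.IsPlusTypeOn Q W ∧ H = Cfsg.Geo.subspaceStabilizer W ⊓ Cfsg.Geo.omegaGL Q) ∨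
    (4 ≤ Fintype.card F ∧ ∃ W : Submodule F (Fin 8 → F), Module.finrank F W = 2 ∧ Cfsg.Geo.IsNondegenerateOn (QuadraticMap.polar Q) W ∧ Cfsg.Geo.IsPlusTypeOn Q W ∧ H = Cfsg.Geo.subspaceStabilizer W ⊓ Cfsg.Geo.omegaGL Q) ∨
    (∃ W : Submodule F (Fin 8 → F), Module.finrank F W = 4 ∧ Cfsg.Geo.IsNondegenerateOn (QuadraticMap.polar Q) W ∧ H = Cfsg.Geo.subspaceStabilizer W ⊓ Cfsg.Geo.omegaGL Q) ∨
    (¬ Odd (Fintype.card F) ∧ ∃ v : (Fin 8 → F), Q v ≠ 0 ∧ H = Cfsg.Geo.subspaceStabilizer (Submodule.span F {v}) ⊓ Cfsg.Geo.omegaGL Q) ∨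
    (∃ K : Subalgebra F (Matrix (Fin 8) (Fin 8) F), Cfsg.Geo.IsFieldSubalgebra 2 K ∧ H = Cfsg.Geo.subalgebraNormalizer K ⊓ Cfsg.Geo.omegaGL Q) ∨
    (∃ (F₀ : Subfield F) (r : ℕ) (P : Matrix.GeneralLinearGroup (Fin 8) F) (ζ : F), r.Prime ∧ Odd r ∧ Fintype.card F = Nat.card F₀ ^ r ∧ ζ ≠ 0 ∧ Cfsg.Geo.IsQuadFormRationalStructure (fun v : Fin 8 → F => ζ * Q v) F₀ P ∧ H = Cfsg.Geo.subfieldSubgroup F₀ P ⊓ Cfsg.Geo.omegaGL Q) ∨
    Cfsg.Geo.InOrthogonalResidualClass H := by
  classical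
  obtain ⟨Q, hB, hfun⟩ : ∃ Q' : QuadraticForm F (Fin 8 → F), Classical.BNondeg Q' ∧ ⇑Q' = Q :=
    ⟨GeoClasses.toQF hQ, GeoClasses.bNondeg_toQF hQ, rfl⟩
  clear hQ
  subst hfun
  have hcard : Fintype.card (Fin 8) = 8 := Fintype.card_fin _
  have hHiso : H ≤ Cfsg.isometryGroup F ⇑Q := hH.1.le.trans omega_le_isometry
  rcases irreducible_cases hB (by omega) (fun _ => hminus) hH.1.le with
    ⟨W, hb, hW, hle⟩ | ⟨h2, v, hv, hle⟩ | ⟨W, hd0, hd, hW, hle, -⟩ | ⟨t, k, D, hD, -⟩ |
    ⟨k, D, hk, hD, hts, -⟩ | ⟨r, K, hr, hrn, hK, -, hle, -⟩ | ⟨b, L, J₁, J₂, -, -, -, -, -, -, -, -, hp⟩ |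
    ⟨h12, -⟩ | h | h
  · exact Or.inl (ts_case hB (by omega) hH hb hW hle)
  · exact Or.inr <| Or.inr <| Or.inr <| Or.inr <| Or.inr <| Or.inl (point_case hB (by omega) hH h2 hv hle)
  · rcases (show Module.finrank F W = 1 ∨ Module.finrank F W = 2 ∨ Module.finrank F W = 3 ∨
      Module.finrank F W = 4 by omega) with e | e | e | e
    · obtain ⟨ho, W, hb, ht, hod, -, hnd, heq⟩ :=
        odd_nondeg_case hB (by omega) hH (by rw [e]; decide) (by omega) hW hle
      exact Or.inr <| Or.inl ⟨ho, W, hb, ht, hod, hnd, heq⟩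
    · rcases plane_case hB (by omega) hH e hW hle with h | h | h | ⟨ho, W, hb, ht, hod, -, hnd, heq⟩
      · exact Or.inr <| Or.inr <| Or.inl h
      · exact Or.inr <| Or.inr <| Or.inr <| Or.inl h
      · exact Or.inr <| Or.inr <| Or.inr <| Or.inr <| Or.inr <| Or.inl h
      · exact Or.inr <| Or.inl ⟨ho, W, hb, ht, hod, hnd, heq⟩
    · obtain ⟨ho, W, hb, ht, hod, -, hnd, heq⟩ :=
        odd_nondeg_case hB (by omega) hH (by rw [e]; decide) (by omega) hW hle
      exact Or.inr <| Or.inl ⟨ho, W, hb, ht, hod, hnd, heq⟩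
    · exact Or.inr <| Or.inr <| Or.inr <| Or.inr <| Or.inl ⟨W, e, hW,
        eq_stabilizer hB (by omega) hH (ne_bot_of_finrank e (by omega)) (by omega) hle⟩
  · exfalso
    obtain ⟨ht, hk, htk⟩ := decomposition_sizes hD
    rw [hcard] at htk
    have : t ≤ 8 := by nlinarith
    apply hminus
    rcases (show t = 2 ∨ 4 ∣ t by interval_cases t <;> omega) with rfl | h4
    · exact plus_of_even_even hD (by rw [show k = 4 by omega]; decide) (by decide)
    · exact plus_of_four_dvd hD h4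
  · exfalso
    refine hminus (plus_of_ts (le_top : D 0 ≤ ⊤) (hts 0) ?_ ?_)
    · rw [finrank_top_eq, hcard]; decide
    · rw [finrank_top_eq, hD.finrank_eq, hk]
  · obtain rfl : r = 2 :=
      (Nat.prime_dvd_prime_iff_eq hr Nat.prime_two).1 (hr.dvd_of_dvd_pow (show r ∣ 2 ^ 3 by rw [hcard] at hrn; exact hrn))
    exact Or.inr <| Or.inr <| Or.inr <| Or.inr <| Or.inr <| Or.inr <| Or.inl
      ⟨K, hK, eq_normalizer hB (by omega) hH hr hK hle⟩
  · exact absurd hp hminus
  · omega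
  · exact Or.inr <| Or.inr <| Or.inr <| Or.inr <| Or.inr <| Or.inr <| Or.inr <| Or.inr h
  · exact Or.inr <| Or.inr <| Or.inr <| Or.inr <| Or.inr <| Or.inr <| Or.inr <| Or.inl
      (eq_subfield_odd hB (by omega) (by rw [hcard]; decide) hminus hH h)

end Cfsg.Agent.S5826
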