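import Cfsg.Statements.S5829
import Cfsg.Agent.MaxSub.LinearClasses
import Cfsg.Agent.S5630
-- import your own Cfsg.Agent.* helpers here

set_option autoImplicit false
open Cfsg

namespace Cfsg.Agent.S5829

/-- Every maximal subgroup of SL_9(q) is of one of the listed geometric types or lies in the residual class. Let F be a finite field with q elements (p its characteristic) and H a maximal subgroup of SL_9(F) (inside GL_9(F)). Then H is the intersection with SL_9(F) of one of: the stabiliser of a proper non-zero subspace; for q ≥ 5, the stabiliser of a decomposition into 9 independent 1-spaces; the stabiliser of a decomposition into 3 independent 3-spaces; the normaliser of a degree-3 subfield of the matrix algebra; a subfield group for a subfield F₀ with |F| = |F₀|^r, r prime; for q = p prime with p ≡ 1 mod 3, the normaliser of an absolutely irreducible 3-subgroup R of exponent 3 and order 3^(1+2m) with centre of order 3, all of whose characteristic abelian subgroups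 are cyclic, F being the smallest field of characteristic p containing the cube roots of unity (here R is extraspecial of order 3^5); the stabiliser of a tensor decomposition into 2 factors of dimension 3; for q odd, the similarity group of a non-degenerate quadratic form; the similarity group of a non-degenerate unitary form — or else H lies in the residual class of the linear case (modulo scalars H is almost simple, with absolutely irreducible perfect socle preimage realisable over no proper subfield and fixing no non-degenerate quadratic, symplectic or unitary form). -/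
theorem result {F : Type*} [Field F] [Fintype F] (H : Subgroup (Matrix.GeneralLinearGroup (Fin 9) F)) (hH : Cfsg.Geo.IsMaximalIn (Cfsg.Geo.specialLinear (Fin 9) F) H) :
    (∃ W : Submodule F (Fin 9 → F), W ≠ ⊥ ∧ W ≠ ⊤ ∧ H = Cfsg.Geo.subspaceStabilizer W ⊓ Cfsg.Geo.specialLinear (Fin 9) F) ∨
    (5 ≤ Fintype.card F ∧ ∃ D : Fin 9 → Submodule F (Fin 9 → F), Cfsg.Geo.IsMDecomposition 1 D ∧ H = Cfsg.Geo.decompositionStabilizer D ⊓ Cfsg.Geo.specialLinear (Fin 9) F) ∨
    (∃ D : Fin 3 → Submodule F (Fin 9 → F), Cfsg.Geo.IsMDecomposition 3 D ∧ H = Cfsg.Geo.decompositionStabilizer D ⊓ Cfsg.Geo.specialLinear (Fin 9) F) ∨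
    (∃ K : Subalgebra F (Matrix (Fin 9) (Fin 9) F), Cfsg.Geo.IsFieldSubalgebra 3 K ∧ H = Cfsg.Geo.subalgebraNormalizer K ⊓ Cfsg.Geo.specialLinear (Fin 9) F) ∨
    (∃ (F₀ : Subfield F) (r : ℕ) (P : Matrix.GeneralLinearGroup (Fin 9) F), r.Prime ∧ Fintype.card F = Nat.card F₀ ^ r ∧ H = Cfsg.Geo.subfieldSubgroup F₀ P ⊓ Cfsg.Geo.specialLinear (Fin 9) F) ∨
    ((∃ p : ℕ, p.Prime ∧ Fintype.card F = p ∧ (p % 3 = 1)) ∧ ∃ R : Subgroup (Matrix.GeneralLinearGroup (Fin 9) F), Cfsg.Geo.IsLinearSymplecticTypeData 3 R ∧ H = Cfsg.Geo.subgroupNormalizer R ⊓ Cfsg.Geo.specialLinear (Fin 9) F) ∨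
    (∃ (e : Fin 9 ≃ (Fin 2 → Fin 3)) (P : Matrix.GeneralLinearGroup (Fin 9) F), H = Cfsg.Geo.tensorWreathSubgroup 3 2 e P ⊓ Cfsg.Geo.specialLinear (Fin 9) F) ∨
    (Odd (Fintype.card F) ∧ ∃ Q : (Fin 9 → F) → F, Cfsg.Geo.IsNondegenerateQuadraticForm Q ∧ H = Cfsg.Geo.quadSimilarityGroup Q ⊓ Cfsg.Geo.specialLinear (Fin 9) F) ∨
    (∃ (σ : F ≃+* F) (f : (Fin 9 → F) → (Fin 9 → F) → F), Cfsg.Geo.IsUnitaryForm σ f ∧ H = Cfsg.Geo.similarityGroup f ⊓ Cfsg.Geo.specialLinear (Fin 9) F) ∨
    Cfsg.Geo.InLinearResidualClass H := by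
  have hcases := Cfsg.Agent.MaxSub.maximal_cases (n := 9) (by norm_num)
    (fun H h1 h2 => Cfsg.Agent.S5630.result 9 (by norm_num) H h1 h2) hH
  rcases hcases with hW | ⟨t, m, D, hD, htm, he⟩ | ⟨r, K, hr, hrn, hK, he⟩ | ⟨n₁, n₂, e, P, h1, h2, hprod, he⟩ |
    hsub | ⟨r, m, R, hr, hpow, hrn, hR, he⟩ | ⟨m, t, e, P, hm, ht, hpow, he⟩ | ⟨f, hf, hev, he⟩ | ⟨σ, f, hf, he⟩ |
    ⟨Q, hQ, hodd, he⟩ | hres
  · exact Or.inl (hW)
  · have h2 := hD.two_le
    have hpos := hD.pos
    have hmt : m ∣ 9 := ⟨t, by rw [mul_comm]; exact htm.symm⟩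
    have hmle : m ≤ 9 := Nat.le_of_dvd (by norm_num) hmt
    obtain rfl | rfl : m = 1 ∨ m = 3 := by
      interval_cases m <;> omega
    · obtain rfl : t = 9 := by omega
      by_cases hq : 5 ≤ Fintype.card F
      · exact Or.inr (Or.inl (⟨hq, D, hD, he⟩))
      rcases Cfsg.Agent.MaxSub.lines_cases (by norm_num) hD hH he (by omega) with h | ⟨Q, h1, h2, h3⟩ | h
      · exact Or.inl (h)
      · exact Or.inr (Or.inr (Or.inr (Or.inr (Or.inr (Or.inr (Or.inr (Or.inl (⟨h1, Q, h2, h3⟩))))))))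
      · exact Or.inr (Or.inr (Or.inr (Or.inr (Or.inr (Or.inr (Or.inr (Or.inr (Or.inl (h)))))))))
    · obtain rfl : t = 3 := by omega
      exact Or.inr (Or.inr (Or.inl (⟨D, hD, he⟩)))
  · have hle := Nat.le_of_dvd (by norm_num) hrn
    have := hr.two_le
    obtain rfl : r = 3 := by
      interval_cases r <;> first | rfl | omega | (revert hr; decide)
    exact Or.inr (Or.inr (Or.inr (Or.inl (⟨K, hK, he⟩))))
  · have hle : n₁ ≤ 9 := Nat.le_of_dvd (by norm_num) ⟨n₂, hprod⟩
    exfalso
    interval_cases n₁ <;> omega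
  · exact Or.inr (Or.inr (Or.inr (Or.inr (Or.inl (hsub)))))
  · have hle := Nat.le_of_dvd (by norm_num) hrn
    have := hr.two_le
    obtain rfl : r = 3 := by
      interval_cases r <;> first | rfl | omega | (revert hr; decide)
    obtain ⟨p, k, hp, hch, hq, hodd, hpe, hdvd, hmin⟩ := Cfsg.Agent.MaxSub.data_odd (by norm_num) hR
    have hk := Nat.le_of_dvd (by norm_num) hdvd
    obtain rfl : k = 1 := by
      obtain ⟨c, hc⟩ := hodd
      omega
    rw [pow_one] at hpe hq
    have hp3 : p % 3 = 1 := by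
      rw [← ZMod.val_natCast, hpe, ZMod.val_one]
    exact Or.inr (Or.inr (Or.inr (Or.inr (Or.inr (Or.inl (⟨⟨p, hp, hq, hp3⟩, R, hR, he⟩))))))
  · have hle : m ^ 2 ≤ 9 := hpow ▸ Nat.pow_le_pow_right (by omega) ht
    obtain rfl : m = 3 := by nlinarith
    have htle : t ≤ 2 := by
      by_contra hc
      have := Nat.pow_le_pow_right (show 1 ≤ 3 by norm_num) (show 3 ≤ t by omega)
      omega
    obtain rfl : t = 2 := by omega
    exact Or.inr (Or.inr (Or.inr (Or.inr (Or.inr (Or.inr (Or.inl (⟨e, P, he⟩)))))))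
  · exact absurd hev (by decide)
  · exact Or.inr (Or.inr (Or.inr (Or.inr (Or.inr (Or.inr (Or.inr (Or.inr (Or.inl (⟨σ, f, hf, he⟩)))))))))
  · exact Or.inr (Or.inr (Or.inr (Or.inr (Or.inr (Or.inr (Or.inr (Or.inl (⟨hodd, Q, hQ, he⟩))))))))
  · exact Or.inr (Or.inr (Or.inr (Or.inr (Or.inr (Or.inr (Or.inr (Or.inr (Or.inr (hres)))))))))


end Cfsg.Agent.S5829
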