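import Cfsg.Statements.S5832
import Cfsg.Agent.MaxSub.FormShapes
import Cfsg.Agent.ClassicalMax.UnitaryExceptions
import Cfsg.Agent.S5663

set_option autoImplicit false
open Cfsg

namespace Cfsg.Agent.S5832

/-- Every maximal subgroup of SU_9(q) is of one of the listed geometric types or lies in the residual class. Let F be the field with q² elements, f the standard unitary form Σ u_i v_i^q on F^9, and H a maximal subgroup of SU_9(q) (inside GL_9(F)). Then H is the intersection with SU_9(q) of one of: the stabiliser of a non-zero totally isotropic subspace; the stabiliser of a non-degenerate 1-, 2-, 3- or 4-space; the stabiliser of a decomposition into nine mutually orthogonal non-degenerate 1-spaces; of a decomposition into three mutually orthogonal non-degenerate 3-spaces; the normaliser of an adjoint-closed degree-3 subfield of the matrix algebra; a subfield group of odd prime index whose F₀-structure carries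 f; for q odd, a subfield group of index 2 whose F₀-structure carries f; for q = p ≡ 2 mod 3 prime, the normaliser of an absolutely irreducible extraspecial group 3_+^(1+4) of exponent 3 inside the similarity group of f; for q ≥ 3, the stabiliser of a tensor decomposition of f as a tensor square of a unitary form on F^3 — or else H lies in the residual class of the unitary case. -/
theorem result {F : Type*} [Field F] [Fintype F] (q : ℕ) (hF : Fintype.card F = q ^ 2) (H : Subgroup (Matrix.GeneralLinearGroup (Fin 9) F)) (hH : Cfsg.Geo.IsMaximalIn (Cfsg.GU 9 F q ⊓ Cfsg.Geo.specialLinear (Fin 9) F) H) :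
    (∃ W : Submodule F (Fin 9 → F), W ≠ ⊥ ∧ Cfsg.Geo.IsTotallySingularFor (Cfsg.hermForm 9 F q) W ∧ H = Cfsg.Geo.subspaceStabilizer W ⊓ (Cfsg.GU 9 F q ⊓ Cfsg.Geo.specialLinear (Fin 9) F)) ∨
    (∃ W : Submodule F (Fin 9 → F), W ≠ ⊥ ∧ Cfsg.Geo.IsNondegenerateOn (Cfsg.hermForm 9 F q) W ∧ 2 * Module.finrank F W < 9 ∧ H = Cfsg.Geo.subspaceStabilizer W ⊓ (Cfsg.GU 9 F q ⊓ Cfsg.Geo.specialLinear (Fin 9) F)) ∨
    (∃ D : Fin 9 → Submodule F (Fin 9 → F), Cfsg.Geo.IsNondegenerateMDecomposition (Cfsg.hermForm 9 F q) 1 D ∧ H = Cfsg.Geo.decompositionStabilizer D ⊓ (Cfsg.GU 9 F q ⊓ Cfsg.Geo.specialLinear (Fin 9) F)) ∨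
    (∃ D : Fin 3 → Submodule F (Fin 9 → F), Cfsg.Geo.IsNondegenerateMDecomposition (Cfsg.hermForm 9 F q) 3 D ∧ H = Cfsg.Geo.decompositionStabilizer D ⊓ (Cfsg.GU 9 F q ⊓ Cfsg.Geo.specialLinear (Fin 9) F)) ∨
    (∃ K : Subalgebra F (Matrix (Fin 9) (Fin 9) F), Cfsg.Geo.IsFieldSubalgebra 3 K ∧ Cfsg.Geo.IsAdjointClosedFor (Cfsg.hermForm 9 F q) K ∧ H = Cfsg.Geo.subalgebraNormalizer K ⊓ (Cfsg.GU 9 F q ⊓ Cfsg.Geo.specialLinear (Fin 9) F)) ∨
    (∃ (F₀ : Subfield F) (r : ℕ) (P : Matrix.GeneralLinearGroup (Fin 9) F), r.Prime ∧ Odd r ∧ Fintype.card F = Nat.card F₀ ^ r ∧ Cfsg.Geo.IsFormRationalStructure (Cfsg.hermForm 9 F q) F₀ 1 P ∧ H = Cfsg.Geo.subfieldSubgroup F₀ P ⊓ (Cfsg.GU 9 F q ⊓ Cfsg.Geo.specialLinear (Fin 9) F)) ∨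
    (Odd q ∧ ∃ (F₀ : Subfield F) (P : Matrix.GeneralLinearGroup (Fin 9) F), Fintype.card F = Nat.card F₀ ^ 2 ∧ Cfsg.Geo.IsFormRationalStructure (Cfsg.hermForm 9 F q) F₀ 1 P ∧ H = Cfsg.Geo.subfieldSubgroup F₀ P ⊓ (Cfsg.GU 9 F q ⊓ Cfsg.Geo.specialLinear (Fin 9) F)) ∨
    (∃ (p : ℕ) (R : Subgroup (Matrix.GeneralLinearGroup (Fin 9) F)), p.Prime ∧ q = p ∧ p % 3 = 2 ∧ Cfsg.Geo.IsSymplecticTypeGroup 3 R ∧ Cfsg.Geo.ActsAbsolutelyIrreducibly (Cfsg.Geo.matrixSet R) ∧ R ≤ Cfsg.Geo.similarityGroup (Cfsg.hermForm 9 F q) ∧ Nat.card R = 243 ∧ Nat.card (Subgroup.center R) = 3 ∧ H = Cfsg.Geo.subgroupNormalizer R ⊓ (Cfsg.GU 9 F q ⊓ Cfsg.Geo.specialLinear (Fin 9) F)) ∨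
    (3 ≤ q ∧ ∃ (e : Fin 9 ≃ (Fin 2 → Fin 3)) (P : Matrix.GeneralLinearGroup (Fin 9) F) (f₁ : (Fin 3 → F) → (Fin 3 → F) → F), Cfsg.Geo.IsUnitaryFormPow q f₁ ∧ Cfsg.Geo.IsTensorPowerFormStructure (fun x : F => x ^ q) (Cfsg.hermForm 9 F q) f₁ e P ∧ H = Cfsg.Geo.tensorWreathSubgroup 3 2 e P ⊓ (Cfsg.GU 9 F q ⊓ Cfsg.Geo.specialLinear (Fin 9) F)) ∨
    Cfsg.Geo.InUnitaryResidualClass H := by
  rcases Cfsg.Agent.MaxSub.su_shapes (n := 9) (by norm_num) (by norm_num) hF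
      (fun K hK hp => Cfsg.Agent.S5663.result 9 q hF (by norm_num) (by omega) K hK hp) hH with
    h | h | ⟨t, k, D, hD, htk, ht, hk, he⟩ | ⟨k, D, hk, hD, hts, he⟩ | h | h | ⟨F₀, P, ζ, hev, h⟩ |
    ⟨r, R, ⟨hR, hirr, hsim, p, j, k, hp, hch, hq, hj, hdeg, hk, hcase⟩, he⟩ |
    ⟨r, K, hr, hrodd, hrn, hK, hac, he⟩ | ⟨n₁, n₂, e, P, f₁, f₂, h1, h2, hnn, hf₁, hf₂, hs, he⟩ |
    ⟨h9, hq3, e, P, f₁, hf₁, hs, he⟩ | hres
  · exact Or.inl h
  · exact Or.inr (Or.inl h)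
  · obtain ⟨rfl, rfl⟩ | ⟨rfl, rfl⟩ : (t = 9 ∧ k = 1) ∨ (t = 3 ∧ k = 3) := by
      have hdvd : k ∣ 9 := ⟨t, by rw [← htk, mul_comm]⟩
      have hkn := Nat.le_of_dvd (by norm_num) hdvd
      interval_cases k <;> omega
    · iterate 2 right
      exact Or.inl ⟨D, hD, he⟩
    · iterate 3 right
      exact Or.inl ⟨D, hD, he⟩
  · omega
  · iterate 5 right
    exact Or.inl h
  · iterate 6 right
    exact Or.inl h
  · exact absurd hev (by decide)
  · obtain rfl : r = 3 := (Nat.prime_dvd_prime_iff_eq hR.prime Nat.prime_three).mp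
      (hR.prime.dvd_of_dvd_pow (n := 2) (hdeg ▸ dvd_pow_self r (by omega) : r ∣ 9))
    obtain rfl : k = 2 := Nat.pow_right_injective (by norm_num : 2 ≤ 3) (hdeg.symm.trans (by norm_num))
    rcases hcase with ⟨-, hZ, hR', hdvd, h1, hmin⟩ | ⟨h, -⟩
    · obtain rfl : j = 1 := by
        have := Nat.le_of_dvd (by norm_num) hdvd
        omega
      have hlt := Nat.mod_lt p (show 3 > 0 by norm_num)
      have hcast : (p : ZMod 3) = ((p % 3 : ℕ) : ZMod 3) := (ZMod.natCast_mod p 3).symm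
      rw [hcast] at h1
      have h2 := hmin 1 one_pos (by norm_num)
      rw [pow_one, hcast] at h2
      have h3 : p % 3 = 2 := by
        generalize p % 3 = a at h1 h2 hlt ⊢
        interval_cases a <;> first | rfl | (exfalso; revert h1 h2; decide)
      iterate 7 right
      exact Or.inl ⟨p, R, hp, by rw [hq, pow_one], h3, hR, hirr, hsim, hR', hZ, he⟩
    · exact absurd h (by norm_num)
  · obtain rfl : r = 3 := by
      have hle := Nat.le_of_dvd (by norm_num) hrn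
      interval_cases r <;> first | omega | (revert hr hrodd; decide)
    iterate 4 right
    exact Or.inl ⟨K, hK, hac, he⟩
  · exfalso
    have hle : n₁ ≤ 9 := Nat.le_of_dvd (by norm_num) ⟨n₂, hnn.symm⟩
    interval_cases n₁ <;> omega
  · iterate 8 right
    exact Or.inl ⟨hq3, e, P, f₁, hf₁, hs, he⟩
  · iterate 9 right
    exact hres

end Cfsg.Agent.S5832
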