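import Cfsg.Statements.S5837
import Cfsg.Agent.GeoClasses.TransvGen
import Cfsg.Agent.GeoClasses.SimMax
import Cfsg.Agent.GeoClasses.UnitSimMax
import Cfsg.Agent.GeoClasses.OrthSimMax
import Cfsg.Agent.DecompMax.LinearMat
import Cfsg.Agent.MaxSub.SubfieldMax.Main
import Cfsg.Agent.MaxSub.ExtField.Main
import Cfsg.Agent.MaxSub.TensorMax.Main
-- import your own Cfsg.Agent.* helpers here

set_option autoImplicit false
open Cfsg

namespace Cfsg.Agent.S5837

/-- Maximal subgroups of SL_10(q) of geometric type, for a finite field F with q elements (any q); p denotes the characteristic. Each of the following subgroups of GL_10(F), intersected with SL_10(F), is a maximal subgroup of SL_10(F): (1) the stabiliser of any proper non-zero subspace of F^10; (2) for q ≥ 5, the stabiliser of any decomposition of F^10 into 10 independent 1-spaces; (3) for q ≥ 3, the stabiliser of any decomposition of F^10 into 5 independent 2-spaces; (4) the stabiliser of any decomposition of F^10 into 2 independent 5-spaces;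 (5) the normaliser of any degree-5 subfield of the 10 × 10 matrix algebra over F (a commutative subalgebra of dimension 5 in which every non-zero element is invertible); (6) the normaliser of any degree-2 subfield of the 10 × 10 matrix algebra over F (a commutative subalgebra of dimension 2 in which every non-zero element is invertible); (7) for q ≥ 3, the stabiliser of any tensor decomposition F^10 = F^2 ⊗ F^5 (a conjugate of the Kronecker-product subgroup); (8) every subfield group (a conjugate of GL_10(F₀) times the scalars of F) for a subfield F₀ with |F| = |F₀|^r, r prime; (9) for q odd, the group of similarities of any non-degenerate quadratic form on F^10 (either sign); (10) the group of similarities of any non-degenerate symplectic form on F^10; (11) the group of similarities of any non-degenerate unitary form on F^10 (these exist exactly when q is a square). -/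
theorem result {F : Type*} [Field F] [Fintype F] :
    (∀ W : Submodule F (Fin 10 → F), W ≠ ⊥ → W ≠ ⊤ → Cfsg.Geo.IsMaximalIn (Cfsg.Geo.specialLinear (Fin 10) F) (Cfsg.Geo.subspaceStabilizer W ⊓ Cfsg.Geo.specialLinear (Fin 10) F)) ∧
    (5 ≤ Fintype.card F → ∀ D : Fin 10 → Submodule F (Fin 10 → F), Cfsg.Geo.IsMDecomposition 1 D → Cfsg.Geo.IsMaximalIn (Cfsg.Geo.specialLinear (Fin 10) F) (Cfsg.Geo.decompositionStabilizer D ⊓ Cfsg.Geo.specialLinear (Fin 10) F)) ∧
    (3 ≤ Fintype.card F → ∀ D : Fin 5 → Submodule F (Fin 10 → F), Cfsg.Geo.IsMDecomposition 2 D → Cfsg.Geo.IsMaximalIn (Cfsg.Geo.specialLinear (Fin 10) F) (Cfsg.Geo.decompositionStabilizer D ⊓ Cfsg.Geo.specialLinear (Fin 10) F)) ∧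
    (∀ D : Fin 2 → Submodule F (Fin 10 → F), Cfsg.Geo.IsMDecomposition 5 D → Cfsg.Geo.IsMaximalIn (Cfsg.Geo.specialLinear (Fin 10) F) (Cfsg.Geo.decompositionStabilizer D ⊓ Cfsg.Geo.specialLinear (Fin 10) F)) ∧
    (∀ K : Subalgebra F (Matrix (Fin 10) (Fin 10) F), Cfsg.Geo.IsFieldSubalgebra 5 K → Cfsg.Geo.IsMaximalIn (Cfsg.Geo.specialLinear (Fin 10) F) (Cfsg.Geo.subalgebraNormalizer K ⊓ Cfsg.Geo.specialLinear (Fin 10) F)) ∧
    (∀ K : Subalgebra F (Matrix (Fin 10) (Fin 10) F), Cfsg.Geo.IsFieldSubalgebra 2 K → Cfsg.Geo.IsMaximalIn (Cfsg.Geo.specialLinear (Fin 10) F) (Cfsg.Geo.subalgebraNormalizer K ⊓ Cfsg.Geo.specialLinear (Fin 10) F)) ∧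
    (3 ≤ Fintype.card F → ∀ (e : Fin 10 ≃ Fin 2 × Fin 5) (P : Matrix.GeneralLinearGroup (Fin 10) F), Cfsg.Geo.IsMaximalIn (Cfsg.Geo.specialLinear (Fin 10) F) (Cfsg.Geo.tensorProductSubgroup 2 5 e P ⊓ Cfsg.Geo.specialLinear (Fin 10) F)) ∧
    (∀ (F₀ : Subfield F) (r : ℕ) (P : Matrix.GeneralLinearGroup (Fin 10) F), r.Prime → Fintype.card F = Nat.card F₀ ^ r → Cfsg.Geo.IsMaximalIn (Cfsg.Geo.specialLinear (Fin 10) F) (Cfsg.Geo.subfieldSubgroup F₀ P ⊓ Cfsg.Geo.specialLinear (Fin 10) F)) ∧
    (Odd (Fintype.card F) → ∀ Q : (Fin 10 → F) → F, Cfsg.Geo.IsNondegenerateQuadraticForm Q → Cfsg.Geo.IsMaximalIn (Cfsg.Geo.specialLinear (Fin 10) F) (Cfsg.Geo.quadSimilarityGroup Q ⊓ Cfsg.Geo.specialLinear (Fin 10) F)) ∧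
    (∀ f : (Fin 10 → F) → (Fin 10 → F) → F, Cfsg.Geo.IsSymplecticForm f → Cfsg.Geo.IsMaximalIn (Cfsg.Geo.specialLinear (Fin 10) F) (Cfsg.Geo.similarityGroup f ⊓ Cfsg.Geo.specialLinear (Fin 10) F)) ∧
    (∀ (σ : F ≃+* F) (f : (Fin 10 → F) → (Fin 10 → F) → F), Cfsg.Geo.IsUnitaryForm σ f → Cfsg.Geo.IsMaximalIn (Cfsg.Geo.specialLinear (Fin 10) F) (Cfsg.Geo.similarityGroup f ⊓ Cfsg.Geo.specialLinear (Fin 10) F)) := by
  have : Nontrivial (Fin 10) := Fin.nontrivial_iff_two_le.2 (by norm_num)
  have hc : Fintype.card (Fin 10) = 10 := Fintype.card_fin 10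
  refine ⟨fun W h0 h1 => Cfsg.Agent.GeoClasses.subspaceStabilizer_maximal h0 h1,
    fun hq D hD => Cfsg.Agent.DecompMax.Lin.specialLinear_decomposition_maximal (by omega) hD (by omega) (by omega),
    fun hq D hD => Cfsg.Agent.DecompMax.Lin.specialLinear_decomposition_maximal (by omega) hD (by omega) (by omega),
    fun D hD => Cfsg.Agent.DecompMax.Lin.specialLinear_decomposition_maximal (by omega) hD (by omega) (by omega),
    fun K hK => (Cfsg.Agent.MaxSub.subalgebraNormalizer_maximal (by norm_num) (by norm_num) (by norm_num) K hK).2,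
    fun K hK => (Cfsg.Agent.MaxSub.subalgebraNormalizer_maximal Nat.prime_two (by norm_num) (by norm_num) K hK).2,
    ?_,
    fun F₀ r P hr hcard => Cfsg.Agent.MaxSub.SubfieldMax.subfieldSubgroup_maximal hr (by omega) hcard P,
    fun hodd Q hQ => Cfsg.Agent.GeoClasses.quad_similarity_maximal (by omega)
      (Cfsg.Agent.GeoClasses.two_ne_zero_iff_odd_card.2 hodd) hQ,
    fun f hf => Cfsg.Agent.GeoClasses.symp_similarity_maximal (by omega) hf,
    fun σ f hf => Cfsg.Agent.GeoClasses.unitary_similarity_maximal (by norm_num) hf⟩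
  · intro hq e P
    classical
    refine Cfsg.Agent.MaxSub.TensorMax.tensorProduct_maximal (by norm_num) (by norm_num) (Or.inl ?_) e P
    obtain ⟨t, -, ht⟩ := Finset.exists_mem_notMem_of_card_lt_card (s := ({0, 1} : Finset F))
      (t := Finset.univ) (by rw [Finset.card_univ]; exact Finset.card_le_two.trans_lt (by omega))
    simp only [Finset.mem_insert, Finset.mem_singleton, not_or] at ht
    exact ⟨t, ht⟩

end Cfsg.Agent.S5837
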