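import Cfsg.Statements.S5838
import Cfsg.Agent.MaxSub.LinearClasses
import Cfsg.Agent.S5630
-- import your own Cfsg.Agent.* helpers here

set_option autoImplicit false
open Cfsg

namespace Cfsg.Agent.S5838

/-- Every maximal subgroup of SL_10(q) is of one of the listed geometric types or lies in the residual class. Let F be a finite field with q elements (p its characteristic) and H a maximal subgroup of SL_10(F) (inside GL_10(F)). Then H is the intersection with SL_10(F) of one of: the stabiliser of a proper non-zero subspace; for q ≥ 5, the stabiliser of a decomposition into 10 independent 1-spaces; for q ≥ 3, the stabiliser of a decomposition into 5 independent 2-spaces; the stabiliser of a decomposition into 2 independent 5-spaces; the normaliser of a degree-5 subfield of the matrix algebra; the normaliser of a degree-2 subfield of the matrix algebra; for q ≥ 3, the stabiliser of a tensor decomposition F^2 ⊗ F^5; a subfield group for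 a subfield F₀ with |F| = |F₀|^r, r prime; for q odd, the similarity group of a non-degenerate quadratic form; the similarity group of a non-degenerate symplectic form; the similarity group of a non-degenerate unitary form — or else H lies in the residual class of the linear case (modulo scalars H is almost simple, with absolutely irreducible perfect socle preimage realisable over no proper subfield and fixing no non-degenerate quadratic, symplectic or unitary form). -/
theorem result {F : Type*} [Field F] [Fintype F] (H : Subgroup (Matrix.GeneralLinearGroup (Fin 10) F)) (hH : Cfsg.Geo.IsMaximalIn (Cfsg.Geo.specialLinear (Fin 10) F) H) :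
    (∃ W : Submodule F (Fin 10 → F), W ≠ ⊥ ∧ W ≠ ⊤ ∧ H = Cfsg.Geo.subspaceStabilizer W ⊓ Cfsg.Geo.specialLinear (Fin 10) F) ∨
    (5 ≤ Fintype.card F ∧ ∃ D : Fin 10 → Submodule F (Fin 10 → F), Cfsg.Geo.IsMDecomposition 1 D ∧ H = Cfsg.Geo.decompositionStabilizer D ⊓ Cfsg.Geo.specialLinear (Fin 10) F) ∨
    (3 ≤ Fintype.card F ∧ ∃ D : Fin 5 → Submodule F (Fin 10 → F), Cfsg.Geo.IsMDecomposition 2 D ∧ H = Cfsg.Geo.decompositionStabilizer D ⊓ Cfsg.Geo.specialLinear (Fin 10) F) ∨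
    (∃ D : Fin 2 → Submodule F (Fin 10 → F), Cfsg.Geo.IsMDecomposition 5 D ∧ H = Cfsg.Geo.decompositionStabilizer D ⊓ Cfsg.Geo.specialLinear (Fin 10) F) ∨
    (∃ K : Subalgebra F (Matrix (Fin 10) (Fin 10) F), Cfsg.Geo.IsFieldSubalgebra 5 K ∧ H = Cfsg.Geo.subalgebraNormalizer K ⊓ Cfsg.Geo.specialLinear (Fin 10) F) ∨
    (∃ K : Subalgebra F (Matrix (Fin 10) (Fin 10) F), Cfsg.Geo.IsFieldSubalgebra 2 K ∧ H = Cfsg.Geo.subalgebraNormalizer K ⊓ Cfsg.Geo.specialLinear (Fin 10) F) ∨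
    (3 ≤ Fintype.card F ∧ ∃ (e : Fin 10 ≃ Fin 2 × Fin 5) (P : Matrix.GeneralLinearGroup (Fin 10) F), H = Cfsg.Geo.tensorProductSubgroup 2 5 e P ⊓ Cfsg.Geo.specialLinear (Fin 10) F) ∨
    (∃ (F₀ : Subfield F) (r : ℕ) (P : Matrix.GeneralLinearGroup (Fin 10) F), r.Prime ∧ Fintype.card F = Nat.card F₀ ^ r ∧ H = Cfsg.Geo.subfieldSubgroup F₀ P ⊓ Cfsg.Geo.specialLinear (Fin 10) F) ∨
    (Odd (Fintype.card F) ∧ ∃ Q : (Fin 10 → F) → F, Cfsg.Geo.IsNondegenerateQuadraticForm Q ∧ H = Cfsg.Geo.quadSimilarityGroup Q ⊓ Cfsg.Geo.specialLinear (Fin 10) F) ∨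
    (∃ f : (Fin 10 → F) → (Fin 10 → F) → F, Cfsg.Geo.IsSymplecticForm f ∧ H = Cfsg.Geo.similarityGroup f ⊓ Cfsg.Geo.specialLinear (Fin 10) F) ∨
    (∃ (σ : F ≃+* F) (f : (Fin 10 → F) → (Fin 10 → F) → F), Cfsg.Geo.IsUnitaryForm σ f ∧ H = Cfsg.Geo.similarityGroup f ⊓ Cfsg.Geo.specialLinear (Fin 10) F) ∨
    Cfsg.Geo.InLinearResidualClass H := by
  have hcases := Cfsg.Agent.MaxSub.maximal_cases (n := 10) (by norm_num)
    (fun H h1 h2 => Cfsg.Agent.S5630.result 10 (by norm_num) H h1 h2) hH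
  rcases hcases with hW | ⟨t, m, D, hD, htm, he⟩ | ⟨r, K, hr, hrn, hK, he⟩ | ⟨n₁, n₂, e, P, h1, h2, hprod, he⟩ |
    hsub | ⟨r, m, R, hr, hpow, hrn, hR, he⟩ | ⟨m, t, e, P, hm, ht, hpow, he⟩ | ⟨f, hf, hev, he⟩ | ⟨σ, f, hf, he⟩ |
    ⟨Q, hQ, hodd, he⟩ | hres
  · exact Or.inl (hW)
  · have h2 := hD.two_le
    have hpos := hD.pos
    have hmt : m ∣ 10 := ⟨t, by rw [mul_comm]; exact htm.symm⟩
    have hmle : m ≤ 10 := Nat.le_of_dvd (by norm_num) hmt
    obtain rfl | rfl | rfl : m = 1 ∨ m = 2 ∨ m = 5 := by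
      interval_cases m <;> omega
    · obtain rfl : t = 10 := by omega
      by_cases hq : 5 ≤ Fintype.card F
      · exact Or.inr (Or.inl (⟨hq, D, hD, he⟩))
      rcases Cfsg.Agent.MaxSub.lines_cases (by norm_num) hD hH he (by omega) with h | ⟨Q, h1, h2, h3⟩ | h
      · exact Or.inl (h)
      · exact Or.inr (Or.inr (Or.inr (Or.inr (Or.inr (Or.inr (Or.inr (Or.inr (Or.inl (⟨h1, Q, h2, h3⟩)))))))))
      · exact Or.inr (Or.inr (Or.inr (Or.inr (Or.inr (Or.inr (Or.inr (Or.inr (Or.inr (Or.inr (Or.inl (h)))))))))))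
    · obtain rfl : t = 5 := by omega
      by_cases hq : 3 ≤ Fintype.card F
      · exact Or.inr (Or.inr (Or.inl (⟨hq, D, hD, he⟩)))
      exact Or.inr (Or.inr (Or.inr (Or.inr (Or.inr (Or.inr (Or.inr (Or.inr (Or.inr (Or.inl (Cfsg.Agent.MaxSub.planes_case (by norm_num) hD hH he (by omega)))))))))))
    · obtain rfl : t = 2 := by omega
      exact Or.inr (Or.inr (Or.inr (Or.inl (⟨D, hD, he⟩))))
  · have hle := Nat.le_of_dvd (by norm_num) hrn
    have := hr.two_le
    obtain rfl | rfl : r = 2 ∨ r = 5 := by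
      interval_cases r <;> first | omega | (revert hr; decide)
    · exact Or.inr (Or.inr (Or.inr (Or.inr (Or.inr (Or.inl (⟨K, hK, he⟩))))))
    · exact Or.inr (Or.inr (Or.inr (Or.inr (Or.inl (⟨K, hK, he⟩)))))
  · have hle : n₁ ≤ 10 := Nat.le_of_dvd (by norm_num) ⟨n₂, hprod⟩
    obtain ⟨rfl, rfl⟩ : n₁ = 2 ∧ n₂ = 5 := by interval_cases n₁ <;> omega
    by_cases hq : 3 ≤ Fintype.card F
    · exact Or.inr (Or.inr (Or.inr (Or.inr (Or.inr (Or.inr (Or.inl (⟨hq, e, P, he⟩)))))))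
    obtain ⟨K, hK, hle⟩ := Cfsg.Agent.MaxSub.tensor_two_le_normalizer (F := F) (n := 10) (b := 5) (by norm_num)
      (by have := Fintype.one_lt_card (α := F); omega) e P
    exact Or.inr (Or.inr (Or.inr (Or.inr (Or.inr (Or.inl (⟨K, hK, Cfsg.Agent.MaxSub.eq_inf_of_le hH ((he.le.trans inf_le_left).trans hle) (Cfsg.Agent.MaxSub.not_specialLinear_le_normalizer one_lt_two (by simp) hK)⟩))))))
  · exact Or.inr (Or.inr (Or.inr (Or.inr (Or.inr (Or.inr (Or.inr (Or.inl (hsub))))))))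
  · exfalso
    have h2 : 2 ∣ r ^ m := hpow ▸ (by norm_num)
    have hp : 5 ∣ r ^ m := hpow ▸ (by norm_num)
    have e1 := (Nat.prime_dvd_prime_iff_eq Nat.prime_two hr).mp (Nat.prime_two.dvd_of_dvd_pow h2)
    have e2 := (Nat.prime_dvd_prime_iff_eq (by norm_num) hr).mp ((show Nat.Prime 5 by norm_num).dvd_of_dvd_pow hp)
    omega
  · have hle : m ^ 2 ≤ 10 := hpow ▸ Nat.pow_le_pow_right (by omega) ht
    obtain rfl : m = 3 := by nlinarith
    have htle : t ≤ 2 := by
      by_contra hc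
      have := Nat.pow_le_pow_right (show 1 ≤ 3 by norm_num) (show 3 ≤ t by omega)
      omega
    obtain rfl : t = 2 := by omega
    norm_num at hpow
  · exact Or.inr (Or.inr (Or.inr (Or.inr (Or.inr (Or.inr (Or.inr (Or.inr (Or.inr (Or.inl (⟨f, hf, he⟩))))))))))
  · exact Or.inr (Or.inr (Or.inr (Or.inr (Or.inr (Or.inr (Or.inr (Or.inr (Or.inr (Or.inr (Or.inl (⟨σ, f, hf, he⟩)))))))))))
  · exact Or.inr (Or.inr (Or.inr (Or.inr (Or.inr (Or.inr (Or.inr (Or.inr (Or.inl (⟨hodd, Q, hQ, he⟩)))))))))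
  · exact Or.inr (Or.inr (Or.inr (Or.inr (Or.inr (Or.inr (Or.inr (Or.inr (Or.inr (Or.inr (Or.inr (hres)))))))))))


end Cfsg.Agent.S5838
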