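import Cfsg.Statements.S5841
import Cfsg.Agent.MaxSub.FormShapes
import Cfsg.Agent.ClassicalMax.UnitaryExceptions
import Cfsg.Agent.S5663

set_option autoImplicit false
open Cfsg

namespace Cfsg.Agent.S5841

/-- Every maximal subgroup of SU_10(q) is of one of the listed geometric types or lies in the residual class. Let F be the field with q² elements (characteristic p), f the standard unitary form Σ u_i v_i^q on F^10, and H a maximal subgroup of SU_10(q) (inside GL_10(F)). Then H is the intersection with SU_10(q) of one of: the stabiliser of a non-zero totally isotropic subspace; the stabiliser of a non-zero non-degenerate subspace W with 2 dim W < 10; the stabiliser of a decomposition into 10 mutually orthogonal non-degenerate 1-spaces; for q ≥ 3, the stabiliser of a decomposition into 5 mutually orthogonal non-degenerate 2-spaces; the stabiliser of a decomposition into 2 mutually orthogonal non-degenerate 5-spaces;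 of a decomposition into two totally isotropic 5-spaces; the normaliser of an adjoint-closed degree-5 subfield of the matrix algebra; for q ≥ 3, the stabiliser of a tensor decomposition of f into unitary forms on F^2 and F^5; a subfield group of odd prime index whose F₀-structure carries f; a subfield group of index 2 and symplectic type; for q odd, a subfield group of index 2 whose F₀-structure carries f — or else H lies in the residual class of the unitary case (modulo scalars H is almost simple, with absolutely irreducible perfect socle preimage realisable over no proper subfield and fixing no non-degenerate quadratic or symplectic form). -/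
theorem result {F : Type*} [Field F] [Fintype F] (q : ℕ) (hF : Fintype.card F = q ^ 2) (H : Subgroup (Matrix.GeneralLinearGroup (Fin 10) F)) (hH : Cfsg.Geo.IsMaximalIn (Cfsg.GU 10 F q ⊓ Cfsg.Geo.specialLinear (Fin 10) F) H) :
    (∃ W : Submodule F (Fin 10 → F), W ≠ ⊥ ∧ Cfsg.Geo.IsTotallySingularFor (Cfsg.hermForm 10 F q) W ∧ H = Cfsg.Geo.subspaceStabilizer W ⊓ (Cfsg.GU 10 F q ⊓ Cfsg.Geo.specialLinear (Fin 10) F)) ∨
    (∃ W : Submodule F (Fin 10 → F), W ≠ ⊥ ∧ Cfsg.Geo.IsNondegenerateOn (Cfsg.hermForm 10 F q) W ∧ 2 * Module.finrank F W < 10 ∧ H = Cfsg.Geo.subspaceStabilizer W ⊓ (Cfsg.GU 10 F q ⊓ Cfsg.Geo.specialLinear (Fin 10) F)) ∨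
    (∃ D : Fin 10 → Submodule F (Fin 10 → F), Cfsg.Geo.IsNondegenerateMDecomposition (Cfsg.hermForm 10 F q) 1 D ∧ H = Cfsg.Geo.decompositionStabilizer D ⊓ (Cfsg.GU 10 F q ⊓ Cfsg.Geo.specialLinear (Fin 10) F)) ∨
    (3 ≤ q ∧ ∃ D : Fin 5 → Submodule F (Fin 10 → F), Cfsg.Geo.IsNondegenerateMDecomposition (Cfsg.hermForm 10 F q) 2 D ∧ H = Cfsg.Geo.decompositionStabilizer D ⊓ (Cfsg.GU 10 F q ⊓ Cfsg.Geo.specialLinear (Fin 10) F)) ∨
    (∃ D : Fin 2 → Submodule F (Fin 10 → F), Cfsg.Geo.IsNondegenerateMDecomposition (Cfsg.hermForm 10 F q) 5 D ∧ H = Cfsg.Geo.decompositionStabilizer D ⊓ (Cfsg.GU 10 F q ⊓ Cfsg.Geo.specialLinear (Fin 10) F)) ∨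
    (∃ D : Fin 2 → Submodule F (Fin 10 → F), Cfsg.Geo.IsMDecomposition 5 D ∧ (∀ i, Cfsg.Geo.IsTotallySingularFor (Cfsg.hermForm 10 F q) (D i)) ∧ H = Cfsg.Geo.decompositionStabilizer D ⊓ (Cfsg.GU 10 F q ⊓ Cfsg.Geo.specialLinear (Fin 10) F)) ∨
    (∃ K : Subalgebra F (Matrix (Fin 10) (Fin 10) F), Cfsg.Geo.IsFieldSubalgebra 5 K ∧ Cfsg.Geo.IsAdjointClosedFor (Cfsg.hermForm 10 F q) K ∧ H = Cfsg.Geo.subalgebraNormalizer K ⊓ (Cfsg.GU 10 F q ⊓ Cfsg.Geo.specialLinear (Fin 10) F)) ∨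
    (3 ≤ q ∧ ∃ (e : Fin 10 ≃ Fin 2 × Fin 5) (P : Matrix.GeneralLinearGroup (Fin 10) F) (f₁ : (Fin 2 → F) → (Fin 2 → F) → F) (f₂ : (Fin 5 → F) → (Fin 5 → F) → F), Cfsg.Geo.IsUnitaryFormPow q f₁ ∧ Cfsg.Geo.IsUnitaryFormPow q f₂ ∧ Cfsg.Geo.IsTensorFormStructure (fun x : F => x ^ q) (Cfsg.hermForm 10 F q) f₁ f₂ e P ∧ H = Cfsg.Geo.tensorProductSubgroup 2 5 e P ⊓ (Cfsg.GU 10 F q ⊓ Cfsg.Geo.specialLinear (Fin 10) F)) ∨
    (∃ (F₀ : Subfield F) (r : ℕ) (P : Matrix.GeneralLinearGroup (Fin 10) F), r.Prime ∧ Odd r ∧ Fintype.card F = Nat.card F₀ ^ r ∧ Cfsg.Geo.IsFormRationalStructure (Cfsg.hermForm 10 F q) F₀ 1 P ∧ H = Cfsg.Geo.subfieldSubgroup F₀ P ⊓ (Cfsg.GU 10 F q ⊓ Cfsg.Geo.specialLinear (Fin 10) F)) ∨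
    (∃ (F₀ : Subfield F) (P : Matrix.GeneralLinearGroup (Fin 10) F) (ζ : F), Fintype.card F = Nat.card F₀ ^ 2 ∧ ζ ≠ 0 ∧ ζ + ζ ^ q = 0 ∧ Cfsg.Geo.IsFormRationalStructure (Cfsg.hermForm 10 F q) F₀ ζ P ∧ (∀ u : Fin 10 → F, (∀ i, u i ∈ F₀) → (Cfsg.hermForm 10 F q) (Matrix.mulVec (P : Matrix (Fin 10) (Fin 10) F) u) (Matrix.mulVec (P : Matrix (Fin 10) (Fin 10) F) u) = 0) ∧ H = Cfsg.Geo.subfieldSubgroup F₀ P ⊓ (Cfsg.GU 10 F q ⊓ Cfsg.Geo.specialLinear (Fin 10) F)) ∨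
    (Odd q ∧ ∃ (F₀ : Subfield F) (P : Matrix.GeneralLinearGroup (Fin 10) F), Fintype.card F = Nat.card F₀ ^ 2 ∧ Cfsg.Geo.IsFormRationalStructure (Cfsg.hermForm 10 F q) F₀ 1 P ∧ H = Cfsg.Geo.subfieldSubgroup F₀ P ⊓ (Cfsg.GU 10 F q ⊓ Cfsg.Geo.specialLinear (Fin 10) F)) ∨
    Cfsg.Geo.InUnitaryResidualClass H := by
  rcases Cfsg.Agent.MaxSub.su_shapes (n := 10) (by norm_num) (by norm_num) hF
      (fun K hK hp => Cfsg.Agent.S5663.result 10 q hF (by norm_num) (by omega) K hK hp) hH with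
    h | h | ⟨t, k, D, hD, htk, ht, hk, he⟩ | ⟨k, D, hk, hD, hts, he⟩ | h | h | ⟨F₀, P, ζ, hev, h⟩ |
    ⟨r, R, ⟨hR, hirr, hsim, p, j, k, hp, hch, hq, hj, hdeg, hk, hcase⟩, he⟩ |
    ⟨r, K, hr, hrodd, hrn, hK, hac, he⟩ | ⟨n₁, n₂, e, P, f₁, f₂, h1, h2, hnn, hf₁, hf₂, hs, he⟩ |
    ⟨h9, hq3, e, P, f₁, hf₁, hs, he⟩ | hres
  · exact Or.inl h
  · exact Or.inr (Or.inl h)
  · obtain ⟨rfl, rfl⟩ | ⟨rfl, rfl⟩ | ⟨rfl, rfl⟩ : (t = 10 ∧ k = 1) ∨ (t = 5 ∧ k = 2) ∨ (t = 2 ∧ k = 5) := by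
      have hdvd : k ∣ 10 := ⟨t, by rw [← htk, mul_comm]⟩
      have hkn := Nat.le_of_dvd (by norm_num) hdvd
      interval_cases k <;> omega
    · iterate 2 right
      exact Or.inl ⟨D, hD, he⟩
    · by_cases hq3 : 3 ≤ q
      · iterate 3 right
        exact Or.inl ⟨hq3, D, hD, he⟩
      · have hsq := Cfsg.Agent.Classical.U.sqField_of_fintype hF
        obtain rfl : q = 2 := by have := hsq.one_lt; omega
        obtain ⟨E, hE, hle⟩ := Cfsg.Agent.ClassicalMax.planes_le_frame hsq hD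
        iterate 2 right
        refine Or.inl ⟨E, hE, Cfsg.Agent.ClassicalMax.eq_inf_max hH ?_
          (Cfsg.Agent.ClassicalMax.suGL_not_le_frameStabilizer hsq (by norm_num) (by omega) hE (by norm_num))⟩
        exact (he.le.trans (inf_le_inf_left _ inf_le_left)).trans hle
    · iterate 4 right
      exact Or.inl ⟨D, hD, he⟩
  · obtain rfl : k = 5 := by omega
    iterate 5 right
    exact Or.inl ⟨D, hD, hts, he⟩
  · iterate 8 right
    exact Or.inl h
  · iterate 10 right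
    exact Or.inl h
  · iterate 9 right
    exact Or.inl ⟨F₀, P, ζ, h⟩
  · exfalso
    obtain ⟨a, b, ha, hb, hab, hna, hnb⟩ : ∃ a b : ℕ, a.Prime ∧ b.Prime ∧ a ≠ b ∧ a ∣ 10 ∧ b ∣ 10 :=
      ⟨2, 5, Nat.prime_two, by norm_num, by norm_num, by norm_num, by norm_num⟩
    rw [hdeg] at hna hnb
    exact hab ((((Nat.prime_dvd_prime_iff_eq ha hR.prime).mp (ha.dvd_of_dvd_pow hna))).trans
      ((Nat.prime_dvd_prime_iff_eq hb hR.prime).mp (hb.dvd_of_dvd_pow hnb)).symm)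
  · obtain rfl : r = 5 := by
      have hle := Nat.le_of_dvd (by norm_num) hrn
      interval_cases r <;> first | omega | (revert hr hrodd; decide)
    iterate 6 right
    exact Or.inl ⟨K, hK, hac, he⟩
  · obtain ⟨rfl, rfl⟩ : (n₁ = 2 ∧ n₂ = 5) := by
      have hle : n₁ ≤ 10 := Nat.le_of_dvd (by norm_num) ⟨n₂, hnn.symm⟩
      interval_cases n₁ <;> omega
    by_cases hq3 : 3 ≤ q
    · iterate 7 right
      exact Or.inl ⟨hq3, e, P, f₁, f₂, hf₁, hf₂, hs, he⟩
    · have hsq := Cfsg.Agent.Classical.U.sqField_of_fintype hF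
      obtain rfl : q = 2 := by have := hsq.one_lt; omega
      obtain ⟨D, hD, hle⟩ := Cfsg.Agent.ClassicalMax.tensor_le_decomposition_of_four hsq (by norm_num) e P hf₁ hf₂ hs
      iterate 4 right
      refine Or.inl ⟨D, hD, Cfsg.Agent.ClassicalMax.eq_inf_max hH ?_
        (Cfsg.Agent.ClassicalMax.suGL_not_le_decompositionStabilizer hsq hD.decomp (by norm_num))⟩
      exact (he.le.trans (inf_le_inf_left _ inf_le_left)).trans hle
  · omega
  · iterate 11 right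
    exact hres

end Cfsg.Agent.S5841
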