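import Cfsg.Statements.S5844
import Cfsg.Agent.MaxSub.SympShapes
import Cfsg.Agent.S5662

set_option autoImplicit false
open Cfsg

namespace Cfsg.Agent.S5844

/-- Every maximal subgroup of Sp_10(q) is of one of the listed geometric types or lies in the residual class. Let F be a finite field with q elements (characteristic p), f the standard alternating form on F^10 (coordinates Fin 5 ⊕ Fin 5), and H a maximal subgroup of Sp_10(F) (inside GL_10(F)). Then H is the intersection with Sp_10(F) of one of: the stabiliser of a non-zero totally isotropic subspace; the stabiliser of a non-zero non-degenerate subspace of dimension less than 5; for q ≥ 3, the stabiliser of a decomposition into 5 mutually orthogonal non-degenerate 2-spaces; for q odd, of a decomposition into two totally isotropic 5-spaces; the normaliser of a degree-5 subfield K of the matrix algebra, self-adjoint with f(k v, v) = 0; for q odd, the normaliser of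 a degree-2 subfield closed under adjoints but not self-adjoint; for q odd, the stabiliser of a tensor decomposition of f into an alternating form on F^2 and a symmetric form on F^5; a subfield group (|F| = |F₀|^r, r prime) whose F₀-structure carries a non-zero multiple of f; for q even, the similarity group of a non-degenerate quadratic form polarising to f — or else H lies in the residual class of the symplectic case (modulo scalars H is almost simple, with absolutely irreducible perfect socle preimage realisable over no proper subfield and fixing no non-degenerate quadratic or unitary form). -/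
theorem result {F : Type*} [Field F] [Fintype F] (H : Subgroup (Matrix.GeneralLinearGroup (Fin 5 ⊕ Fin 5) F)) (hH : Cfsg.Geo.IsMaximalIn (Cfsg.spGL 5 F) H) :
    (∃ W : Submodule F (Fin 5 ⊕ Fin 5 → F), W ≠ ⊥ ∧ Cfsg.Geo.IsTotallySingularFor (Cfsg.sympForm 5 F) W ∧ H = Cfsg.Geo.subspaceStabilizer W ⊓ Cfsg.spGL 5 F) ∨
    (∃ W : Submodule F (Fin 5 ⊕ Fin 5 → F), W ≠ ⊥ ∧ Cfsg.Geo.IsNondegenerateOn (Cfsg.sympForm 5 F) W ∧ Module.finrank F W < 5 ∧ H = Cfsg.Geo.subspaceStabilizer W ⊓ Cfsg.spGL 5 F) ∨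
    (3 ≤ Fintype.card F ∧ ∃ D : Fin 5 → Submodule F (Fin 5 ⊕ Fin 5 → F), Cfsg.Geo.IsNondegenerateMDecomposition (Cfsg.sympForm 5 F) 2 D ∧ H = Cfsg.Geo.decompositionStabilizer D ⊓ Cfsg.spGL 5 F) ∨
    (Odd (Fintype.card F) ∧ ∃ D : Fin 2 → Submodule F (Fin 5 ⊕ Fin 5 → F), Cfsg.Geo.IsMDecomposition 5 D ∧ (∀ i, Cfsg.Geo.IsTotallySingularFor (Cfsg.sympForm 5 F) (D i)) ∧ H = Cfsg.Geo.decompositionStabilizer D ⊓ Cfsg.spGL 5 F) ∨
    (∃ K : Subalgebra F (Matrix (Fin 5 ⊕ Fin 5) (Fin 5 ⊕ Fin 5) F), Cfsg.Geo.IsFieldSubalgebra 5 K ∧ Cfsg.Geo.IsSelfAdjointFor (Cfsg.sympForm 5 F) K ∧ (∀ k ∈ K, ∀ v : (Fin 5 ⊕ Fin 5 → F), (Cfsg.sympForm 5 F) (Matrix.mulVec k v) v = 0) ∧ H = Cfsg.Geo.subalgebraNormalizer K ⊓ Cfsg.spGL 5 F) ∨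
    (Odd (Fintype.card F) ∧ ∃ K : Subalgebra F (Matrix (Fin 5 ⊕ Fin 5) (Fin 5 ⊕ Fin 5) F), Cfsg.Geo.IsFieldSubalgebra 2 K ∧ Cfsg.Geo.IsAdjointClosedFor (Cfsg.sympForm 5 F) K ∧ ¬ Cfsg.Geo.IsSelfAdjointFor (Cfsg.sympForm 5 F) K ∧ H = Cfsg.Geo.subalgebraNormalizer K ⊓ Cfsg.spGL 5 F) ∨
    (Odd (Fintype.card F) ∧ ∃ (e : (Fin 5 ⊕ Fin 5) ≃ Fin 2 × Fin 5) (P : Matrix.GeneralLinearGroup (Fin 5 ⊕ Fin 5) F) (f₁ : (Fin 2 → F) → (Fin 2 → F) → F) (f₂ : (Fin 5 → F) → (Fin 5 → F) → F), Cfsg.Geo.IsSymplecticForm f₁ ∧ Cfsg.Geo.IsSymmetricForm f₂ ∧ Cfsg.Geo.IsTensorFormStructure id (Cfsg.sympForm 5 F) f₁ f₂ e P ∧ H = Cfsg.Geo.tensorProductSubgroup 2 5 e P ⊓ Cfsg.spGL 5 F) ∨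
    (∃ (F₀ : Subfield F) (r : ℕ) (P : Matrix.GeneralLinearGroup (Fin 5 ⊕ Fin 5) F) (ζ : F), r.Prime ∧ Fintype.card F = Nat.card F₀ ^ r ∧ ζ ≠ 0 ∧ Cfsg.Geo.IsFormRationalStructure (Cfsg.sympForm 5 F) F₀ ζ P ∧ H = Cfsg.Geo.subfieldSubgroup F₀ P ⊓ Cfsg.spGL 5 F) ∨
    (¬ Odd (Fintype.card F) ∧ ∃ Q : (Fin 5 ⊕ Fin 5 → F) → F, Cfsg.Geo.IsNondegenerateQuadraticForm Q ∧ (∀ u v : (Fin 5 ⊕ Fin 5 → F), QuadraticMap.polar Q u v = (Cfsg.sympForm 5 F) u v) ∧ H = Cfsg.Geo.quadSimilarityGroup Q ⊓ Cfsg.spGL 5 F) ∨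
    Cfsg.Geo.InSymplecticResidualClass H := by
  have hone := Fintype.one_lt_card (α := F)
  rcases Cfsg.Agent.MaxSub.sp_shapes (m := 5) (by norm_num) (by norm_num)
      (fun K hK hp => Cfsg.Agent.S5662.result 5 (by norm_num) (by omega) K hK hp) hH with
    hW | ⟨W, hb, hnd, hd, -, he⟩ | ⟨t, k, D, hD, htk, hk, ht2, hk2, he⟩ | hts | hsub |
    ⟨R, p, k, hR, hirr, hsim, hp, hpodd, hc, hcard, hZ, hminus, hk, he⟩ | hQ |
    ⟨r, K, hr, hrd, hK, hsa, halt, he⟩ | hadj |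
    ⟨n₁, n₂, e, P, f₁, f₂, hodd, h1, h2, hn, hf₁, hf₂, hs, he⟩ | ⟨hm4, hodd, h5, hw⟩ | hres
  · exact Or.inl hW
  · exact Or.inr (Or.inl ⟨W, hb, hnd, hd, he⟩)
  · obtain ⟨rfl, rfl⟩ : t = 5 ∧ k = 2 := by
      obtain ⟨j, rfl⟩ := hk
      have : t ≤ 5 := by nlinarith
      interval_cases t <;> omega
    by_cases hq : 3 ≤ Fintype.card F
    · iterate 2 right
      exact Or.inl ⟨hq, D, hD, he⟩
    · have hF : Fintype.card F = 2 := by omega
      obtain ⟨Q, hQ', hpol, hle⟩ := Cfsg.Agent.ClassicalMax.decomposition_le_quadSimilarityGroup_of_two hF hD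
      iterate 8 right
      exact Or.inl ⟨by rw [hF]; decide, Q, hQ', hpol, Cfsg.Agent.ClassicalMax.eq_inf_max hH
        ((he.le.trans inf_le_left).trans hle) (Cfsg.Agent.ClassicalMax.spGL_not_le_quadSimilarityGroup (by norm_num) hpol)⟩
  · iterate 3 right
    exact Or.inl hts
  · iterate 7 right
    exact Or.inl hsub
  · exfalso
    have hk4 : k < 4 := by
      by_contra hge
      have : 2 ^ 4 ≤ 2 ^ k := Nat.pow_le_pow_right (by norm_num) (by omega)
      omega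
    interval_cases k <;> omega
  · iterate 8 right
    exact Or.inl hQ
  · obtain rfl | rfl : r = 2 ∨ r = 5 := by
      rcases hr.dvd_mul.mp hrd with h | h
      · exact Or.inl ((Nat.prime_dvd_prime_iff_eq hr Nat.prime_two).mp h)
      · exact Or.inr ((Nat.prime_dvd_prime_iff_eq hr (by norm_num)).mp h)
    · exact absurd (Cfsg.Agent.ClassicalMax.two_mul_degree_dvd_of_selfAdjoint (by norm_num) hK hsa halt) (by norm_num)
    · iterate 4 right
      exact Or.inl ⟨K, hK, hsa, halt, he⟩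
  · iterate 5 right
    exact Or.inl hadj
  · obtain ⟨rfl, rfl⟩ : n₁ = 2 ∧ n₂ = 5 := by
      have hle : n₁ ≤ 3 := by nlinarith
      interval_cases n₁ <;> omega
    iterate 6 right
    exact Or.inl ⟨hodd, e, P, f₁, f₂, hf₁, hf₂, hs, he⟩
  · exact absurd hm4 (by norm_num)
  · iterate 9 right
    exact hres

end Cfsg.Agent.S5844
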