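import Cfsg.Statements.S5853
import Cfsg.Agent.MaxSub.LinearClasses
import Cfsg.Agent.S5630
-- import your own Cfsg.Agent.* helpers here

set_option autoImplicit false
open Cfsg

namespace Cfsg.Agent.S5853

/-- Every maximal subgroup of SL_11(q) is of one of the listed geometric types or lies in the residual class. Let F be a finite field with q elements (p its characteristic) and H a maximal subgroup of SL_11(F) (inside GL_11(F)). Then H is the intersection with SL_11(F) of one of: the stabiliser of a proper non-zero subspace; for q ≥ 5, the stabiliser of a decomposition into 11 independent 1-spaces; the normaliser of a degree-11 subfield of the matrix algebra; a subfield group for a subfield F₀ with |F| = |F₀|^r, r prime; for q = p prime with p ≡ 1 mod 11, or q = p⁵ with p ≡ 3, 4, 5 or 9 mod 11, the normaliser of an absolutely irreducible 11-subgroup R of exponent 11 and order 11^(1+2m) with centre of order 11, all of whose characteristic abelian subgroups are cyclic,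 F being the smallest field of characteristic p containing the eleventh roots of unity (here R is extraspecial of order 11³); for q odd, the similarity group of a non-degenerate quadratic form; the similarity group of a non-degenerate unitary form — or else H lies in the residual class of the linear case (modulo scalars H is almost simple, with absolutely irreducible perfect socle preimage realisable over no proper subfield and fixing no non-degenerate quadratic, symplectic or unitary form). -/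
theorem result {F : Type*} [Field F] [Fintype F] (H : Subgroup (Matrix.GeneralLinearGroup (Fin 11) F)) (hH : Cfsg.Geo.IsMaximalIn (Cfsg.Geo.specialLinear (Fin 11) F) H) :
    (∃ W : Submodule F (Fin 11 → F), W ≠ ⊥ ∧ W ≠ ⊤ ∧ H = Cfsg.Geo.subspaceStabilizer W ⊓ Cfsg.Geo.specialLinear (Fin 11) F) ∨
    (5 ≤ Fintype.card F ∧ ∃ D : Fin 11 → Submodule F (Fin 11 → F), Cfsg.Geo.IsMDecomposition 1 D ∧ H = Cfsg.Geo.decompositionStabilizer D ⊓ Cfsg.Geo.specialLinear (Fin 11) F) ∨
    (∃ K : Subalgebra F (Matrix (Fin 11) (Fin 11) F), Cfsg.Geo.IsFieldSubalgebra 11 K ∧ H = Cfsg.Geo.subalgebraNormalizer K ⊓ Cfsg.Geo.specialLinear (Fin 11) F) ∨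
    (∃ (F₀ : Subfield F) (r : ℕ) (P : Matrix.GeneralLinearGroup (Fin 11) F), r.Prime ∧ Fintype.card F = Nat.card F₀ ^ r ∧ H = Cfsg.Geo.subfieldSubgroup F₀ P ⊓ Cfsg.Geo.specialLinear (Fin 11) F) ∨
    ((∃ p : ℕ, p.Prime ∧ CharP F p ∧ ((Fintype.card F = p ∧ p % 11 = 1) ∨ (Fintype.card F = p ^ 5 ∧ (p % 11 = 3 ∨ p % 11 = 4 ∨ p % 11 = 5 ∨ p % 11 = 9)))) ∧ ∃ R : Subgroup (Matrix.GeneralLinearGroup (Fin 11) F), Cfsg.Geo.IsLinearSymplecticTypeData 11 R ∧ H = Cfsg.Geo.subgroupNormalizer R ⊓ Cfsg.Geo.specialLinear (Fin 11) F) ∨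
    (Odd (Fintype.card F) ∧ ∃ Q : (Fin 11 → F) → F, Cfsg.Geo.IsNondegenerateQuadraticForm Q ∧ H = Cfsg.Geo.quadSimilarityGroup Q ⊓ Cfsg.Geo.specialLinear (Fin 11) F) ∨
    (∃ (σ : F ≃+* F) (f : (Fin 11 → F) → (Fin 11 → F) → F), Cfsg.Geo.IsUnitaryForm σ f ∧ H = Cfsg.Geo.similarityGroup f ⊓ Cfsg.Geo.specialLinear (Fin 11) F) ∨
    Cfsg.Geo.InLinearResidualClass H := by
  have hcases := Cfsg.Agent.MaxSub.maximal_cases (n := 11) (by norm_num)
    (fun H h1 h2 => Cfsg.Agent.S5630.result 11 (by norm_num) H h1 h2) hH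
  rcases hcases with hW | ⟨t, m, D, hD, htm, he⟩ | ⟨r, K, hr, hrn, hK, he⟩ | ⟨n₁, n₂, e, P, h1, h2, hprod, he⟩ |
    hsub | ⟨r, m, R, hr, hpow, hrn, hR, he⟩ | ⟨m, t, e, P, hm, ht, hpow, he⟩ | ⟨f, hf, hev, he⟩ | ⟨σ, f, hf, he⟩ |
    ⟨Q, hQ, hodd, he⟩ | hres
  · exact Or.inl (hW)
  · have h2 := hD.two_le
    have hpos := hD.pos
    have hmt : m ∣ 11 := ⟨t, by rw [mul_comm]; exact htm.symm⟩
    have hmle : m ≤ 11 := Nat.le_of_dvd (by norm_num) hmt
    obtain rfl : m = 1 := by
      interval_cases m <;> omega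
    obtain rfl : t = 11 := by omega
    by_cases hq : 5 ≤ Fintype.card F
    · exact Or.inr (Or.inl (⟨hq, D, hD, he⟩))
    rcases Cfsg.Agent.MaxSub.lines_cases (by norm_num) hD hH he (by omega) with h | ⟨Q, h1, h2, h3⟩ | h
    · exact Or.inl (h)
    · exact Or.inr (Or.inr (Or.inr (Or.inr (Or.inr (Or.inl (⟨h1, Q, h2, h3⟩))))))
    · exact Or.inr (Or.inr (Or.inr (Or.inr (Or.inr (Or.inr (Or.inl (h)))))))
  · have hle := Nat.le_of_dvd (by norm_num) hrn
    have := hr.two_le
    obtain rfl : r = 11 := by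
      interval_cases r <;> first | rfl | omega | (revert hr; decide)
    exact Or.inr (Or.inr (Or.inl (⟨K, hK, he⟩)))
  · have hle : n₁ ≤ 11 := Nat.le_of_dvd (by norm_num) ⟨n₂, hprod⟩
    exfalso
    interval_cases n₁ <;> omega
  · exact Or.inr (Or.inr (Or.inr (Or.inl (hsub))))
  · have hle := Nat.le_of_dvd (by norm_num) hrn
    have := hr.two_le
    obtain rfl : r = 11 := by
      interval_cases r <;> first | rfl | omega | (revert hr; decide)
    obtain ⟨p, k, hp, hch, hq, hodd, hpe, hdvd, hmin⟩ := Cfsg.Agent.MaxSub.data_odd (by norm_num) hR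
    have hk := Nat.le_of_dvd (by norm_num) hdvd
    obtain rfl | rfl : k = 1 ∨ k = 5 := by
      obtain ⟨c, hc⟩ := hodd
      interval_cases k <;> omega
    · rw [pow_one] at hpe hq
      have hp1 : p % 11 = 1 := by
        rw [← ZMod.val_natCast, hpe]; rfl
      exact Or.inr (Or.inr (Or.inr (Or.inr (Or.inl (⟨⟨p, hp, hch, Or.inl ⟨hq, hp1⟩⟩, R, hR, he⟩)))))
    · have h1 := hmin 1 (by norm_num) (by norm_num)
      rw [pow_one] at h1
      have hp5 : p % 11 = 3 ∨ p % 11 = 4 ∨ p % 11 = 5 ∨ p % 11 = 9 := by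
        rw [← ZMod.val_natCast]
        revert hpe h1
        generalize (p : ZMod 11) = x
        revert x
        decide
      exact Or.inr (Or.inr (Or.inr (Or.inr (Or.inl (⟨⟨p, hp, hch, Or.inr ⟨hq, hp5⟩⟩, R, hR, he⟩)))))
  · have hle : m ^ 2 ≤ 11 := hpow ▸ Nat.pow_le_pow_right (by omega) ht
    obtain rfl : m = 3 := by nlinarith
    have htle : t ≤ 2 := by
      by_contra hc
      have := Nat.pow_le_pow_right (show 1 ≤ 3 by norm_num) (show 3 ≤ t by omega)
      omega
    obtain rfl : t = 2 := by omega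
    norm_num at hpow
  · exact absurd hev (by decide)
  · exact Or.inr (Or.inr (Or.inr (Or.inr (Or.inr (Or.inr (Or.inl (⟨σ, f, hf, he⟩)))))))
  · exact Or.inr (Or.inr (Or.inr (Or.inr (Or.inr (Or.inl (⟨hodd, Q, hQ, he⟩))))))
  · exact Or.inr (Or.inr (Or.inr (Or.inr (Or.inr (Or.inr (Or.inr (hres)))))))


end Cfsg.Agent.S5853
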