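import Cfsg.Statements.S5856
import Cfsg.Agent.MaxSub.FormShapes
import Cfsg.Agent.ClassicalMax.UnitaryExceptions
import Cfsg.Agent.S5663

set_option autoImplicit false
open Cfsg

namespace Cfsg.Agent.S5856

/-- Every maximal subgroup of SU_11(q) is of one of the listed geometric types or lies in the residual class. Let F be the field with q² elements (characteristic p), f the standard unitary form Σ u_i v_i^q on F^11, and H a maximal subgroup of SU_11(q) (inside GL_11(F)). Then H is the intersection with SU_11(q) of one of: the stabiliser of a non-zero totally isotropic subspace; the stabiliser of a non-zero non-degenerate subspace W with 2 dim W < 11; the stabiliser of a decomposition into 11 mutually orthogonal non-degenerate 1-spaces; the normaliser of an adjoint-closed degree-11 subfield of the matrix algebra; a subfield group of odd prime index whose F₀-structure carries f; for q odd, a subfield group of index 2 whose F₀-structure carries f; for q = p with p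 ≡ 10 mod 11, or q = p⁵ with p ≡ 2, 6, 7 or 8 mod 11, the normaliser of an absolutely irreducible 11-group of exponent 11, order 11³ and centre of order 11 with all characteristic abelian subgroups cyclic consisting of isometries of f — or else H lies in the residual class of the unitary case (modulo scalars H is almost simple, with absolutely irreducible perfect socle preimage realisable over no proper subfield and fixing no non-degenerate quadratic or symplectic form). -/
theorem result {F : Type*} [Field F] [Fintype F] (q : ℕ) (hF : Fintype.card F = q ^ 2) (H : Subgroup (Matrix.GeneralLinearGroup (Fin 11) F)) (hH : Cfsg.Geo.IsMaximalIn (Cfsg.GU 11 F q ⊓ Cfsg.Geo.specialLinear (Fin 11) F) H) :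
    (∃ W : Submodule F (Fin 11 → F), W ≠ ⊥ ∧ Cfsg.Geo.IsTotallySingularFor (Cfsg.hermForm 11 F q) W ∧ H = Cfsg.Geo.subspaceStabilizer W ⊓ (Cfsg.GU 11 F q ⊓ Cfsg.Geo.specialLinear (Fin 11) F)) ∨
    (∃ W : Submodule F (Fin 11 → F), W ≠ ⊥ ∧ Cfsg.Geo.IsNondegenerateOn (Cfsg.hermForm 11 F q) W ∧ 2 * Module.finrank F W < 11 ∧ H = Cfsg.Geo.subspaceStabilizer W ⊓ (Cfsg.GU 11 F q ⊓ Cfsg.Geo.specialLinear (Fin 11) F)) ∨
    (∃ D : Fin 11 → Submodule F (Fin 11 → F), Cfsg.Geo.IsNondegenerateMDecomposition (Cfsg.hermForm 11 F q) 1 D ∧ H = Cfsg.Geo.decompositionStabilizer D ⊓ (Cfsg.GU 11 F q ⊓ Cfsg.Geo.specialLinear (Fin 11) F)) ∨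
    (∃ K : Subalgebra F (Matrix (Fin 11) (Fin 11) F), Cfsg.Geo.IsFieldSubalgebra 11 K ∧ Cfsg.Geo.IsAdjointClosedFor (Cfsg.hermForm 11 F q) K ∧ H = Cfsg.Geo.subalgebraNormalizer K ⊓ (Cfsg.GU 11 F q ⊓ Cfsg.Geo.specialLinear (Fin 11) F)) ∨
    (∃ (F₀ : Subfield F) (r : ℕ) (P : Matrix.GeneralLinearGroup (Fin 11) F), r.Prime ∧ Odd r ∧ Fintype.card F = Nat.card F₀ ^ r ∧ Cfsg.Geo.IsFormRationalStructure (Cfsg.hermForm 11 F q) F₀ 1 P ∧ H = Cfsg.Geo.subfieldSubgroup F₀ P ⊓ (Cfsg.GU 11 F q ⊓ Cfsg.Geo.specialLinear (Fin 11) F)) ∨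
    (Odd q ∧ ∃ (F₀ : Subfield F) (P : Matrix.GeneralLinearGroup (Fin 11) F), Fintype.card F = Nat.card F₀ ^ 2 ∧ Cfsg.Geo.IsFormRationalStructure (Cfsg.hermForm 11 F q) F₀ 1 P ∧ H = Cfsg.Geo.subfieldSubgroup F₀ P ⊓ (Cfsg.GU 11 F q ⊓ Cfsg.Geo.specialLinear (Fin 11) F)) ∨
    (∃ (p : ℕ) (R : Subgroup (Matrix.GeneralLinearGroup (Fin 11) F)), p.Prime ∧ CharP F p ∧ ((q = p ∧ p % 11 = 10) ∨ (q = p ^ 5 ∧ (p % 11 = 2 ∨ p % 11 = 6 ∨ p % 11 = 7 ∨ p % 11 = 8))) ∧ Cfsg.Geo.IsSymplecticTypeGroup 11 R ∧ Cfsg.Geo.ActsAbsolutelyIrreducibly (Cfsg.Geo.matrixSet R) ∧ R ≤ Cfsg.GU 11 F q ∧ Nat.card R = 1331 ∧ Nat.card (Subgroup.center R) = 11 ∧ H = Cfsg.Geo.subgroupNormalizer R ⊓ (Cfsg.GU 11 F q ⊓ Cfsg.Geo.specialLinear (Fin 11) F)) ∨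
    Cfsg.Geo.InUnitaryResidualClass H := by
  rcases Cfsg.Agent.MaxSub.su_shapes (n := 11) (by norm_num) (by norm_num) hF
      (fun K hK hp => Cfsg.Agent.S5663.result 11 q hF (by norm_num) (by omega) K hK hp) hH with
    h | h | ⟨t, k, D, hD, htk, ht, hk, he⟩ | ⟨k, D, hk, hD, hts, he⟩ | h | h | ⟨F₀, P, ζ, hev, h⟩ |
    ⟨r, R, ⟨hR, hirr, hsim, p, j, k, hp, hch, hq, hj, hdeg, hk, hcase⟩, he⟩ |
    ⟨r, K, hr, hrodd, hrn, hK, hac, he⟩ | ⟨n₁, n₂, e, P, f₁, f₂, h1, h2, hnn, hf₁, hf₂, hs, he⟩ |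
    ⟨h9, hq3, e, P, f₁, hf₁, hs, he⟩ | hres
  · exact Or.inl h
  · exact Or.inr (Or.inl h)
  · obtain ⟨rfl, rfl⟩ : (t = 11 ∧ k = 1) := by
      have hdvd : k ∣ 11 := ⟨t, by rw [← htk, mul_comm]⟩
      have hkn := Nat.le_of_dvd (by norm_num) hdvd
      interval_cases k <;> omega
    iterate 2 right
    exact Or.inl ⟨D, hD, he⟩
  · omega
  · iterate 4 right
    exact Or.inl h
  · iterate 5 right
    exact Or.inl h
  · exact absurd hev (by decide)
  · obtain rfl : r = 11 := (Nat.prime_dvd_prime_iff_eq hR.prime (by norm_num)).mp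
      (hdeg ▸ dvd_pow_self r (by omega) : r ∣ 11)
    obtain rfl : k = 1 := Nat.pow_right_injective (by norm_num : 2 ≤ 11) (hdeg.symm.trans (by norm_num))
    rcases hcase with ⟨-, hZ, hR', hdvd, h1, hmin⟩ | ⟨h, -⟩
    · have hlt := Nat.mod_lt p (show 11 > 0 by norm_num)
      have hcast : (p : ZMod 11) = ((p % 11 : ℕ) : ZMod 11) := (ZMod.natCast_mod p 11).symm
      rw [hcast] at h1
      have hj' : j = 1 ∨ j = 5 := by
        have := Nat.le_of_dvd (by norm_num) hdvd
        have : j ≤ 5 := by omega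
        interval_cases j <;> omega
      have hqp : (q = p ∧ p % 11 = 10) ∨
          (q = p ^ 5 ∧ (p % 11 = 2 ∨ p % 11 = 6 ∨ p % 11 = 7 ∨ p % 11 = 8)) := by
        rcases hj' with rfl | rfl
        · have h2 := hmin 1 one_pos (by norm_num)
          rw [pow_one, hcast] at h2
          refine Or.inl ⟨by simpa using hq, ?_⟩
          generalize p % 11 = a at h1 h2 hlt ⊢
          interval_cases a <;> first | rfl | (exfalso; revert h1 h2; decide)
        · have h2 := hmin 2 (by norm_num) (by norm_num)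
          have h3 := hmin 5 (by norm_num) (by norm_num)
          rw [hcast] at h2 h3
          refine Or.inr ⟨hq, ?_⟩
          generalize p % 11 = a at h1 h2 h3 hlt ⊢
          interval_cases a <;> first | omega | (exfalso; revert h1 h2 h3; decide)
      have hq11 : q % 11 = 10 := by
        rcases hqp with ⟨rfl, h⟩ | ⟨rfl, h⟩
        · exact h
        · rw [Nat.pow_mod]
          rcases h with h | h | h | h <;> rw [h]
      have hcop : Nat.Coprime 11 (q - 1) := by
        rw [(by norm_num : Nat.Prime 11).coprime_iff_not_dvd]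
        omega
      have hsqF := Cfsg.Agent.Classical.U.sqField_of_fintype hF
      have hRU : R ≤ Cfsg.GU 11 F q := fun g hg =>
        Cfsg.Agent.MaxSub.mem_GU_of_pow_eq_one hsqF (by norm_num) hcop (hsim hg) (by
          have h := Monoid.pow_exponent_eq_one (⟨g, hg⟩ : R)
          rw [hR.exponent_eq] at h
          simpa using congrArg Subtype.val h)
      iterate 6 right
      exact Or.inl ⟨p, R, hp, hch, hqp, hR, hirr, hRU, hR', hZ, he⟩
    · exact absurd h (by norm_num)
  · obtain rfl : r = 11 := by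
      have hle := Nat.le_of_dvd (by norm_num) hrn
      interval_cases r <;> first | omega | (revert hr hrodd; decide)
    iterate 3 right
    exact Or.inl ⟨K, hK, hac, he⟩
  · exfalso
    have hle : n₁ ≤ 11 := Nat.le_of_dvd (by norm_num) ⟨n₂, hnn.symm⟩
    interval_cases n₁ <;> omega
  · omega
  · iterate 7 right
    exact hres

end Cfsg.Agent.S5856
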