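import Cfsg.Statements.S5877
import Cfsg.Agent.MaxSub.ExtraEig

set_option autoImplicit false
open Cfsg

namespace Cfsg.Agent.S5877

/-- Eigenspaces of elements normalising an absolutely irreducible extraspecial group. Let F be a finite field, r a prime, and R ≤ GL_n(F) an absolutely irreducible extraspecial r-group (an r-group whose centre equals its derived subgroup and has order r) of exponent r or 4. Let g ∈ GL_n(F) normalise the product of R with the scalar matrices, have prime order ϖ and not be scalar, and let W be the eigenspace of g for any c ∈ F (W may be the zero subspace). Then dim W ≤ 3n/4 if ϖ = 2, dim W ≤ 2n/3 if ϖ = 3, and dim W ≤ n/2 if ϖ > 3; moreover if ϖ = 3 and 3 does not divide n then dim W ≤ n/2. -/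
theorem result {F : Type*} [Field F] [Fintype F] {n r ϖ : ℕ} (R : Subgroup (Matrix.GeneralLinearGroup (Fin n) F)) (hr : r.Prime) (hR : IsPGroup r R) (hZ : Nat.card (Subgroup.center R) = r) (hext : commutator R = Subgroup.center R) (hexp : Monoid.exponent R = r ∨ Monoid.exponent R = 4) (hirr : Cfsg.Geo.ActsAbsolutelyIrreducibly (Cfsg.Geo.matrixSet R)) (g : Matrix.GeneralLinearGroup (Fin n) F) (hg : g ∈ Cfsg.Geo.subgroupNormalizer (R ⊔ Cfsg.Geo.scalars (Fin n) F)) (hϖ : ϖ.Prime) (hord : orderOf g = ϖ) (hns : g ∉ Cfsg.Geo.scalars (Fin n) F) (c : F) :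
    (ϖ = 2 → 4 * Module.finrank F (Module.End.eigenspace (Matrix.toLin' (g : Matrix (Fin n) (Fin n) F)) c) ≤ 3 * n) ∧
    (ϖ = 3 → 3 * Module.finrank F (Module.End.eigenspace (Matrix.toLin' (g : Matrix (Fin n) (Fin n) F)) c) ≤ 2 * n) ∧
    (3 < ϖ → 2 * Module.finrank F (Module.End.eigenspace (Matrix.toLin' (g : Matrix (Fin n) (Fin n) F)) c) ≤ n) ∧
    (ϖ = 3 → ¬ 3 ∣ n → 2 * Module.finrank F (Module.End.eigenspace (Matrix.toLin' (g : Matrix (Fin n) (Fin n) F)) c) ≤ n) := by
  have h := Cfsg.Agent.MaxSub.ExtraEig.eigenspace_bounds R hr hR hZ hext hirr g hg hϖ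
    (hord ▸ pow_orderOf_eq_one g) hns c
  simp only [Cfsg.Agent.MaxSub.EigenTools.eig] at h
  rcases h with h | ⟨rfl, h⟩ | ⟨rfl, hr2, hdvd, h⟩
  · exact ⟨fun _ => by omega, fun _ => by omega, fun _ => h, fun _ _ => h⟩
  · exact ⟨fun _ => h, fun h3 => by omega, fun h3 => by omega, fun h3 => by omega⟩
  · refine ⟨fun h2 => absurd h2 hr2, fun h3 => by subst h3; exact h, fun h3 => ?_, fun h3 hn => absurd (h3 ▸ hdvd) hn⟩
    have h5 : 5 ≤ ϖ := by
      by_contra hlt
      obtain rfl : ϖ = 4 := by omega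
      exact absurd hϖ (by decide)
    have := (Nat.mul_le_mul_right _ h5).trans h
    omega

end Cfsg.Agent.S5877
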