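import Cfsg.Statements.S5938
import Cfsg.Agent.MaxSubTwo.Coatom
import Cfsg.Agent.S0803

set_option autoImplicit false
open Cfsg

namespace Cfsg.Agent.S5938

/-- A field of cardinality `p` has no proper subfield. -/
theorem subfield_full {F : Type*} [Field F] [Fintype F] {p : ℕ} (hp : p.Prime) (hF : Fintype.card F = p)
    (F₀ : Subfield F) : Nat.card F₀ = p := by
  have he : Fintype.card F = Nat.card F₀ ^ Module.finrank F₀ F := by
    rw [← Nat.card_eq_fintype_card]; exact Module.natCard_eq_pow_finrank (K := F₀) (V := F)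
  rw [hF] at he
  exact ((Nat.Prime.pow_eq_iff hp).1 he.symm).1

/-- Let p be a prime with p ≡ ±1 (mod 8) and F a field with p elements. Then PSL_2(F) has a maximal subgroup isomorphic to the symmetric group S_4. -/
theorem result {F : Type*} [Field F] [Fintype F] (p : ℕ) [Fact p.Prime] (hF : Fintype.card F = p) (hp : p % 8 = 1 ∨ p % 8 = 7) : ∃ H : Subgroup (Matrix.ProjectiveSpecialLinearGroup (Fin 2) F), IsCoatom H ∧ Nonempty (H ≃* Equiv.Perm (Fin 4)) := by
  classical
  subst hF
  have hp5 : 5 ≤ Fintype.card F := by have := (Fact.out : (Fintype.card F).Prime).two_le; omega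
  have hodd : Odd (Fintype.card F) := by rw [Nat.odd_iff]; omega
  have : CharP F (Fintype.card F) := charP_of_card_eq_prime rfl
  obtain ⟨H, ⟨e⟩⟩ := (S0803.result (F := F) rfl).2 (by
    rw [Nat.pow_mod]
    rcases (show Fintype.card F % 16 = 1 ∨ Fintype.card F % 16 = 7 ∨ Fintype.card F % 16 = 9 ∨ Fintype.card F % 16 = 15 by omega) with h | h | h | h <;> rw [h] <;> rfl)
  have hG := Linear.card_PSL_two_of_odd (F := F) hodd
  have hH : Nat.card H = 24 := by
    rw [Nat.card_congr e.toEquiv, Nat.card_perm, Nat.card_fin]; rfl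
  have h7 : 7 ≤ Fintype.card F := by omega
  refine ⟨H, MaxSubTwo.isCoatom_of_card H ?_ fun M hM hMlt => ?_, ⟨e⟩⟩
  · have h1 : 7 * 6 * 8 ≤ Fintype.card F * (Fintype.card F - 1) * (Fintype.card F + 1) :=
      Nat.mul_le_mul (Nat.mul_le_mul h7 (by omega)) (by omega)
    omega
  cases MaxSubTwo.exists_over (Fintype.card F) M with
  | tame h =>
    refine absurd h (MaxSubTwo.not_tame_of_alt_four (by omega) Fact.out
      (((Subgroup.inclusion hM).comp e.symm.toMonoidHom).comp (alternatingGroup (Fin 4)).subtype) ?_)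
    exact ((Subgroup.inclusion_injective hM).comp e.symm.injective).comp Subtype.val_injective
  | small hp h =>
    have hd : Nat.card H ∣ Nat.card M := Subgroup.card_dvd_of_le hM
    rcases h with h | ⟨h, -⟩ | ⟨h, -⟩
    · omega
    · omega
    · rw [hH, h] at hd; norm_num at hd
  | field F₀ h4 h =>
    have : Fintype F₀ := Fintype.ofFinite _
    have h0 : Fintype.card F₀ = Fintype.card F := by
      rw [← Nat.card_eq_fintype_card]; exact subfield_full Fact.out rfl F₀
    rcases h with ⟨⟨f⟩⟩ | ⟨hodd', ⟨f⟩⟩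
    · rw [Nat.card_congr f.toEquiv, MaxSubTwo.card_pgl, h0] at hMlt
      omega
    · have := Linear.card_PSL_two_of_odd (F := F₀) (by rwa [← Nat.card_eq_fintype_card])
      rw [Nat.card_congr f.toEquiv] at hMlt
      rw [h0] at this
      omega

end Cfsg.Agent.S5938
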