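import Cfsg.Statements.S5941
import Cfsg.Agent.MaxSubTwo.Coatom
import Cfsg.Agent.S0802
import Cfsg.Agent.S0805

set_option autoImplicit false
open Cfsg

namespace Cfsg.Agent.S5941

/-- `A_4` embeds in `PSL(2, K)` for `|K|` odd. -/
theorem exists_alt_four {K : Type*} [Field K] [Fintype K] (hodd : Odd (Fintype.card K)) :
    ∃ f : alternatingGroup (Fin 4) →* Matrix.ProjectiveSpecialLinearGroup (Fin 2) K, Function.Injective f := by
  obtain ⟨n, hp, hK⟩ := FiniteField.card K (ringChar K)
  have : Fact (ringChar K).Prime := ⟨hp⟩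
  obtain ⟨H, ⟨e⟩⟩ := (S0802.result (F := K) (ringChar K) n hK).2 (fun h => by
    rw [hK, h.1] at hodd
    exact absurd hodd (Nat.not_odd_iff_even.2 ((Nat.even_pow' n.pos.ne').2 even_two)))
  exact ⟨H.subtype.comp e.symm.toMonoidHom, H.subtype_injective.comp e.symm.injective⟩

/-- Let K and F be finite fields of odd characteristic with #F = (#K)². Then PSL_2(F) has a maximal subgroup isomorphic to PGL_2(K). -/
theorem result {F K : Type*} [Field F] [Fintype F] [Field K] [Fintype K] (q : ℕ) (hK : Fintype.card K = q) (hF : Fintype.card F = q ^ 2) (hq : Odd q) : ∃ H : Subgroup (Matrix.ProjectiveSpecialLinearGroup (Fin 2) F), IsCoatom H ∧ Nonempty (H ≃* Matrix.ProjGenLinGroup (Fin 2) K) := by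
  classical
  have : Fact (ringChar F).Prime := ⟨CharP.char_is_prime F _⟩
  subst hK
  set q := Fintype.card K with hqdef
  have h3 : 3 ≤ q := by
    have := Fintype.one_lt_card (α := K)
    rcases Nat.lt_or_ge q 3 with h | h
    · exfalso; rw [Nat.odd_iff] at hq; omega
    · exact h
  have hFodd : Odd (Fintype.card F) := hF ▸ hq.pow
  obtain ⟨-, hpgl⟩ := S0805.result (F := F) (K := K) rfl hFodd 2 (by norm_num) hF.symm
  obtain ⟨H, ⟨e⟩⟩ := hpgl.2 even_two
  have hG := Linear.card_PSL_two_of_odd (F := F) hFodd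
  have hH : Nat.card H = q * (q - 1) * (q + 1) := by rw [Nat.card_congr e.toEquiv, MaxSubTwo.card_pgl]
  have h24 : 3 * 2 * 4 ≤ q * (q - 1) * (q + 1) := Nat.mul_le_mul (Nat.mul_le_mul h3 (by omega)) (by omega)
  refine ⟨H, MaxSubTwo.isCoatom_of_card H ?_ fun M hM hMlt => ?_, ⟨e⟩⟩
  · have h1 : 3 * (q * (q - 1) * (q + 1)) ≤ Fintype.card F * (Fintype.card F - 1) * (Fintype.card F + 1) := by
      rw [hF, mul_comm 3]
      have hle : 3 * q ≤ q ^ 2 := by rw [pow_two]; exact Nat.mul_le_mul_right q h3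
      calc q * (q - 1) * (q + 1) * 3 = (3 * q) * (q - 1) * (q + 1) := by ring
        _ ≤ _ := Nat.mul_le_mul (Nat.mul_le_mul hle (by omega)) (by omega)
    omega
  cases MaxSubTwo.exists_over (ringChar F) M with
  | tame h =>
    obtain ⟨f, hf⟩ := exists_alt_four hq
    refine absurd h (MaxSubTwo.not_tame_of_alt_four (fun h2 => ?_) Fact.out
      (((Subgroup.inclusion hM).comp e.symm.toMonoidHom).comp (Matrix.ProjectiveSpecialLinearGroup.toPGL.comp f)) ?_)
    · exact absurd (FiniteField.even_card_iff_char_two.1 h2) (by rw [Nat.odd_iff] at hFodd; omega)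
    · exact ((Subgroup.inclusion_injective hM).comp e.symm.injective).comp
        (Matrix.ProjectiveSpecialLinearGroup.toPGL_injective.comp hf)
  | small hp h =>
    have hd : Nat.card H ∣ Nat.card M := Subgroup.card_dvd_of_le hM
    rcases h with h | ⟨h, -⟩ | ⟨h, -⟩
    · omega
    · omega
    · rw [hH, h] at hd
      rcases Nat.lt_or_ge q 5 with h5 | h5
      · obtain h' : q = 3 := by rw [Nat.odd_iff] at hq; omega
        rw [h'] at hd; norm_num at hd
      · have h1 : 5 * 4 * 6 ≤ q * (q - 1) * (q + 1) := Nat.mul_le_mul (Nat.mul_le_mul h5 (by omega)) (by omega)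
        have := Nat.le_of_dvd (by norm_num) hd
        omega
  | field F₀ h4 h =>
    have : Fintype F₀ := Fintype.ofFinite _
    have hd : Nat.card H ∣ Nat.card M := Subgroup.card_dvd_of_le hM
    have hdvd : q * (q - 1) * (q + 1) ∣ 2 * (Nat.card F₀ * (Nat.card F₀ - 1) * (Nat.card F₀ + 1)) := by
      rw [hH] at hd
      rcases h with ⟨⟨f⟩⟩ | ⟨hodd', ⟨f⟩⟩
      · rw [Nat.card_congr f.toEquiv, MaxSubTwo.card_pgl, ← Nat.card_eq_fintype_card] at hd
        exact hd.mul_left 2
      · rw [Nat.card_congr f.toEquiv] at hd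
        have := Linear.card_PSL_two_of_odd (F := F₀) (by rwa [← Nat.card_eq_fintype_card])
        rw [← Nat.card_eq_fintype_card] at this
        rw [← this]
        exact (hd.mul_left 2).mul_left 2
    rcases MaxSubTwo.subfield_card_cases Nat.prime_two hF F₀ hdvd with h0 | h0 <;> rw [Nat.card_eq_fintype_card] at h0
    · rcases h with ⟨⟨f⟩⟩ | ⟨hodd', ⟨f⟩⟩
      · rw [Nat.card_congr f.toEquiv, MaxSubTwo.card_pgl, h0, hH]
      · have := Linear.card_PSL_two_of_odd (F := F₀) (by rwa [← Nat.card_eq_fintype_card])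
        rw [h0, ← hqdef] at this
        rw [Nat.card_congr f.toEquiv, hH]
        omega
    · exfalso
      rcases h with ⟨⟨f⟩⟩ | ⟨hodd', ⟨f⟩⟩
      · rw [Nat.card_congr f.toEquiv, MaxSubTwo.card_pgl, h0] at hMlt
        omega
      · have := Linear.card_PSL_two_of_odd (F := F₀) (by rwa [← Nat.card_eq_fintype_card])
        rw [Nat.card_congr f.toEquiv] at hMlt
        rw [h0] at this
        omega

end Cfsg.Agent.S5941
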