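import Cfsg.Statements.S5943
import Cfsg.Agent.MaxSubTwo.Coatom

set_option autoImplicit false
open Cfsg

namespace Cfsg.Agent.S5943

/-- Let K and F be finite fields of characteristic 2 with #K = q > 2 and #F = q^r for a prime r. Then PSL_2(F) has a maximal subgroup isomorphic to PSL_2(K) (which equals PGL_2(K) in characteristic 2). -/
theorem result {F K : Type*} [Field F] [Fintype F] [Field K] [Fintype K] (q r : ℕ) (hK : Fintype.card K = q) (hF : Fintype.card F = q ^ r) (hq : Even q) (hq2 : q ≠ 2) (hr : r.Prime) : ∃ H : Subgroup (Matrix.ProjectiveSpecialLinearGroup (Fin 2) F), IsCoatom H ∧ Nonempty (H ≃* Matrix.ProjectiveSpecialLinearGroup (Fin 2) K) := by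
  classical
  have : Fact (ringChar F).Prime := ⟨CharP.char_is_prime F _⟩
  subst hK
  set q := Fintype.card K with hqdef
  have h4 : 4 ≤ q := by
    have := Fintype.one_lt_card (α := K)
    rw [Nat.even_iff] at hq
    omega
  have hFeven : Even (Fintype.card F) := hF ▸ (Nat.even_pow' hr.ne_zero).2 hq
  obtain ⟨φ⟩ := PSLTwo25.exists_ringHom_of_card_pow (F := F) (K := K) hr.one_le hF.symm
  obtain ⟨H, ⟨e⟩⟩ := PSLTwo25.exists_psl_embedding φ
  have hG := Linear.card_PSL_two_of_even (F := F) hFeven
  have hX := Linear.card_PSL_two_of_even (F := K) hq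
  have hH : Nat.card H = q * (q - 1) * (q + 1) := by rw [Nat.card_congr e.toEquiv, hX]
  refine ⟨H, MaxSubTwo.isCoatom_of_card H ?_ fun M hM hMlt => ?_, ⟨e⟩⟩
  · have hlt : q < q ^ r := by
      calc q = q ^ 1 := (pow_one q).symm
        _ < q ^ r := Nat.pow_lt_pow_right (by omega) hr.one_lt
    rw [hH, hG, hF]
    exact Nat.mul_lt_mul_of_lt_of_le (Nat.mul_lt_mul_of_lt_of_le hlt (by omega) (by omega)) (by omega) (by omega)
  cases MaxSubTwo.exists_over (ringChar F) M with
  | tame h =>
    exact absurd (h.of_injective ((Subgroup.inclusion hM).comp e.symm.toMonoidHom)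
      ((Subgroup.inclusion_injective hM).comp e.symm.injective)) (MaxSubTwo.not_tame_psl K h4)
  | small hp h =>
    exact absurd ((FiniteField.even_card_iff_char_two (F := F)).2 (Nat.even_iff.1 hFeven)) hp
  | field F₀ h4' h =>
    have : Fintype F₀ := Fintype.ofFinite _
    have hd : Nat.card H ∣ Nat.card M := Subgroup.card_dvd_of_le hM
    have he : Fintype.card F = Nat.card F₀ ^ Module.finrank F₀ F := by
      rw [← Nat.card_eq_fintype_card]; exact Module.natCard_eq_pow_finrank (K := F₀) (V := F)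
    rw [he, Nat.even_pow] at hFeven
    rcases h with ⟨⟨f⟩⟩ | ⟨hodd', -⟩
    swap
    · exact absurd hodd' (Nat.not_odd_iff_even.2 hFeven.1)
    have hdvd : q * (q - 1) * (q + 1) ∣ 2 * (Nat.card F₀ * (Nat.card F₀ - 1) * (Nat.card F₀ + 1)) := by
      rw [hH, Nat.card_congr f.toEquiv, MaxSubTwo.card_pgl, ← Nat.card_eq_fintype_card] at hd
      exact hd.mul_left 2
    rcases MaxSubTwo.subfield_card_cases hr hF F₀ hdvd with h0 | h0 <;> rw [Nat.card_eq_fintype_card] at h0
    · rw [Nat.card_congr f.toEquiv, MaxSubTwo.card_pgl, h0, hH]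
    · exfalso
      rw [Nat.card_congr f.toEquiv, MaxSubTwo.card_pgl, h0] at hMlt
      omega

end Cfsg.Agent.S5943
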