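import Cfsg.Statements.S5945
import Cfsg.Agent.SymIndex.Six

set_option autoImplicit false
open Cfsg

namespace Cfsg.Agent.S5945

/-- The symmetric group S_6 has exactly 12 subgroups of index 6; each of them is isomorphic to S_5, and at least one of them is not the stabilizer of any point. -/
theorem result : Nat.card {H : Subgroup (Equiv.Perm (Fin 6)) // H.index = 6} = 12 ∧ (∀ H : Subgroup (Equiv.Perm (Fin 6)), H.index = 6 → Nonempty (H ≃* Equiv.Perm (Fin 5))) ∧ ∃ H : Subgroup (Equiv.Perm (Fin 6)), H.index = 6 ∧ ∀ a : Fin 6, H ≠ MulAction.stabilizer (Equiv.Perm (Fin 6)) a := by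
  classical
  have h6 : Fintype.card (Fin 6) = 6 := Fintype.card_fin 6
  obtain ⟨E, hE, hE'⟩ := SymIndex.exists_exotic h6
  refine ⟨?_, fun H hH => SymIndex.nonempty_mulEquiv_perm_five h6 hH, E, hE, hE'⟩
  obtain ⟨ψ, a, -, ha, -⟩ := SymIndex.exotic_conj h6 hE hE hE' hE'
  have key : ∀ H : Subgroup (Equiv.Perm (Fin 6)), H.index = 6 →
      (∀ x : Fin 6, H ≠ MulAction.stabilizer (Equiv.Perm (Fin 6)) x) →
      ∃ z : Fin 6, (MulAction.stabilizer (Equiv.Perm (Fin 6)) z).map ψ.toMonoidHom = H := by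
    intro H hH hH'
    obtain ⟨χ, b, c, hb, hc⟩ := SymIndex.exotic_conj h6 hE hH hE' hH'
    obtain ⟨g, hg⟩ := SymIndex.exists_conj_map_stabilizer χ b c
    rw [← hb, ← hc, ha] at hg
    refine ⟨ψ.symm g a, ?_⟩
    rw [← hg, ← SymIndex.map_conj_stabilizer (ψ.symm g) a, Subgroup.map_map, Subgroup.map_map]
    congr 1
    ext1 k
    simp
  have hidx : ∀ z : Fin 6, (MulAction.stabilizer (Equiv.Perm (Fin 6)) z).index = 6 := fun z => by
    rw [MulAction.index_stabilizer_of_transitive (Equiv.Perm (Fin 6)) z, Nat.card_eq_fintype_card, h6]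
  let f : Fin 6 ⊕ Fin 6 → Subgroup (Equiv.Perm (Fin 6)) := Sum.elim
    (fun z => MulAction.stabilizer (Equiv.Perm (Fin 6)) z)
    (fun z => (MulAction.stabilizer (Equiv.Perm (Fin 6)) z).map ψ.toMonoidHom)
  have hf : Function.Injective f := by
    refine Function.Injective.sumElim (SymIndex.stabilizer_injective (by simp))
      (fun z w h => SymIndex.stabilizer_injective (by simp)
        (Subgroup.map_injective (f := ψ.toMonoidHom) ψ.injective h)) ?_
    intro z w h
    obtain ⟨g, hg⟩ := SymIndex.exists_conj_map_stabilizer ψ w a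
    rw [← h, SymIndex.map_conj_stabilizer, ← ha] at hg
    exact hE' _ hg.symm
  have hset : {H : Subgroup (Equiv.Perm (Fin 6)) | H.index = 6} = Set.range f := by
    ext H
    constructor
    · intro hH
      by_cases hx : ∃ x : Fin 6, H = MulAction.stabilizer (Equiv.Perm (Fin 6)) x
      · obtain ⟨x, hx⟩ := hx; exact ⟨Sum.inl x, hx.symm⟩
      · push Not at hx
        obtain ⟨z, hz⟩ := key H hH hx
        exact ⟨Sum.inr z, hz⟩
    · rintro ⟨z | z, rfl⟩
      · exact hidx z
      · exact (Subgroup.index_map_of_bijective (f := ψ.toMonoidHom) ψ.bijective _).trans (hidx z)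
  show Nat.card {H : Subgroup (Equiv.Perm (Fin 6)) | H.index = 6} = 12
  rw [hset, Nat.card_range_of_injective hf]
  simp

end Cfsg.Agent.S5945
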