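import Cfsg.Statements.S5950
import Cfsg.Agent.Elusive.SLCriterion
import Cfsg.Agent.Elusive.SubspaceCount
import Cfsg.Agent.Elusive.NilpotentPairs
import Cfsg.Agent.Elusive.Unipotent

set_option autoImplicit false
open scoped MatrixGroups
open Cfsg

namespace Cfsg.Agent.S5950

open Matrix

/-- `g` fixes the members of a decomposition with dimensions `m`, `n - m`. -/
abbrev FixesPair {F : Type*} [Field F] {n : ℕ} (m : ℕ) (g : Module.End F (Fin n → F)) : Prop :=
  ∃ U W : Submodule F (Fin n → F), IsCompl U W ∧ Module.finrank F U = m ∧ U.map g ≤ U ∧ W.map g ≤ W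

theorem fixesPair_smul {F : Type*} [Field F] [Fintype F] {n m : ℕ} (g : Module.End F (Fin n → F)) (w : F)
    (h : FixesPair m g) : FixesPair m (w • g) :=
  let ⟨U, W, h1, h2, h3, h4⟩ := h
  ⟨U, W, h1, h2, Elusive.map_smul_le_of_map_le w h3, Elusive.map_smul_le_of_map_le w h4⟩

theorem fixesPair_of_semisimple {F : Type*} [Field F] [Fintype F] {n m : ℕ} {g : Module.End F (Fin n → F)}
    (hs : g.IsSemisimple) (h : ∃ U : Submodule F (Fin n → F), Module.finrank F U = m ∧ U.map g ≤ U) :
    FixesPair m g := by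
  obtain ⟨U, hU, hUg⟩ := h
  obtain ⟨W, hW, hUW⟩ := Module.End.isSemisimple_iff.1 hs U (Elusive.invariant_of_map_le hUg)
  exact ⟨U, W, hUW, hU, hUg, Elusive.map_le_of_invariant hW⟩

/-- The criterion for unipotent elements. -/
theorem unipotent_iff {F : Type*} [Field F] [Fintype F] (p : ℕ) [Fact p.Prime] [CharP F p] {n m : ℕ}
    (hn : 0 < n) (hm : m ≤ n) :
    (∀ x : Matrix.SpecialLinearGroup (Fin n) F,
      (∃ c : F, ((x ^ p : Matrix.SpecialLinearGroup (Fin n) F) : Matrix (Fin n) (Fin n) F) = c • (1 : Matrix (Fin n) (Fin n) F)) →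
      (∀ c : F, (x : Matrix (Fin n) (Fin n) F) ≠ c • (1 : Matrix (Fin n) (Fin n) F)) →
      FixesPair m (Matrix.toLin' (x : Matrix (Fin n) (Fin n) F))) ↔
    (∀ μ : Multiset ℕ, (∀ a ∈ μ, 0 < a ∧ a ≤ p) → μ.sum = n → ∃ ν : Multiset ℕ, ν ≤ μ ∧ ν.sum = m) := by
  have hpp := (Fact.out : p.Prime)
  have : Nonempty (Fin n) := ⟨⟨0, hn⟩⟩
  have : CharP (Module.End F (Fin n → F)) p :=
    charP_of_injective_algebraMap (RingHom.injective (algebraMap F (Module.End F (Fin n → F)))) p
  constructor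
  · intro h μ hμb hμn
    by_cases hone : ∀ b ∈ μ, b = 1
    · refine ⟨Multiset.replicate m 1, ?_, by simp⟩
      rw [Multiset.eq_replicate_card.2 hone] at hμn ⊢
      simp only [Multiset.sum_replicate, smul_eq_mul, mul_one] at hμn
      exact (Multiset.replicate_le_replicate 1).2 (by omega)
    push Not at hone
    obtain ⟨b0, hb0, hb01⟩ := hone
    subst hμn
    obtain ⟨N, hN, hNp⟩ := Elusive.exists_nilpotent_model F μ
    have hNp' : N ^ p = 0 := hNp p fun b hb => (hμb b hb).2
    have hxp : (1 + N) ^ p = 1 := by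
      rw [add_pow_char_of_commute (p := p) (Commute.one_left N), one_pow, hNp', add_zero]
    have hdet : LinearMap.det (1 + N) = 1 := by
      have h1 : LinearMap.det (1 + N) ^ p = 1 := by rw [← map_pow, hxp, map_one]
      have h2 : (LinearMap.det (1 + N) - 1) ^ p = 0 := by rw [sub_pow_char, h1, one_pow, sub_self]
      exact sub_eq_zero.1 (eq_zero_of_pow_eq_zero h2)
    let x : Matrix.SpecialLinearGroup (Fin μ.sum) F :=
      ⟨LinearMap.toMatrix' (1 + N), by rw [LinearMap.det_toMatrix', hdet]⟩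
    have hxl : Matrix.toLin' (x : Matrix (Fin μ.sum) (Fin μ.sum) F) = 1 + N := Matrix.toLin'_toMatrix' _
    have hns : ∀ z : F, (x : Matrix (Fin μ.sum) (Fin μ.sum) F) ≠ z • (1 : Matrix (Fin μ.sum) (Fin μ.sum) F) := by
      intro z hz
      rw [Elusive.toLin'_eq_smul_one, hxl] at hz
      have hNz : N = (z - 1) • (1 : Module.End F (Fin μ.sum → F)) := by
        refine LinearMap.ext fun v => ?_
        have h3 := LinearMap.congr_fun hz v
        simp only [LinearMap.add_apply, Module.End.one_apply, LinearMap.smul_apply] at h3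
        simp only [LinearMap.smul_apply, Module.End.one_apply, sub_smul, one_smul]
        exact eq_sub_of_add_eq' h3
      have hN1 := hN 1
      have h0 := hNp'
      rw [hNz, _root_.smul_pow, one_pow] at h0
      rcases smul_eq_zero.1 h0 with h0 | h0
      · rw [hNz, eq_zero_of_pow_eq_zero h0, zero_smul, Elusive.layerDim, Elusive.layerSpace, pow_one,
          Submodule.map_zero, finrank_bot] at hN1
        have hpos : 0 < μ.countP fun b => 1 < b :=
          Multiset.countP_pos.2 ⟨b0, hb0, by have := (hμb b0 hb0).1; omega⟩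
        omega
      · exact one_ne_zero h0
    obtain ⟨U, W, hUW, hU, hUx, hWx⟩ := h x ⟨1, Elusive.toLin'_pow_eq_smul_one.2 (by rw [hxl, hxp, one_smul])⟩ hns
    rw [hxl] at hUx hWx
    have hinv : ∀ {A : Submodule F (Fin μ.sum → F)}, A.map (1 + N) ≤ A → ∀ v ∈ A, N v ∈ A := fun {A} hA v hv => by
      simpa using sub_mem (Elusive.invariant_of_map_le hA v hv) hv
    obtain ⟨ν, hν, hνs⟩ := Elusive.exists_subpartition hN hNp' hUW (hinv hUx) (hinv hWx)
    exact ⟨ν, hν, by rw [hνs, hU]⟩
  · intro h x ⟨z, hz⟩ _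
    have hz' := Elusive.toLin'_pow_eq_smul_one.1 hz
    obtain ⟨w, hw⟩ := (PerfectRing.bijective_frobenius (R := F) (p := p)).surjective z
    change w ^ p = z at hw
    set f : Module.End F (Fin n → F) := Matrix.toLin' (x : Matrix (Fin n) (Fin n) F)
    set N : Module.End F (Fin n → F) := f - w • 1
    have hN : N ^ p = 0 := by
      rw [sub_pow_char_of_commute (p := p) ((Commute.one_right f).smul_right w), hz', _root_.smul_pow, hw, one_pow,
        sub_self]
    obtain ⟨μ, hμ, hsum, hpairs⟩ := Elusive.exists_partition_pairs hN ⊤ fun v _ => trivial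
    rw [finrank_top, Module.finrank_fin_fun] at hsum
    obtain ⟨ν, hν, hνs⟩ := h μ hμ hsum
    obtain ⟨A, B, hA, hB, hAB, hd, hAd⟩ := hpairs ν hν
    have hinv : ∀ {A : Submodule F (Fin n → F)}, (∀ v ∈ A, N v ∈ A) → A.map f ≤ A := fun {A} hA =>
      Elusive.map_le_of_invariant fun v hv => by
        have := add_mem (hA v hv) (A.smul_mem w hv)
        simpa [N] using this
    exact ⟨A, B, ⟨hd, codisjoint_iff.2 hAB⟩, hAd.trans hνs, hinv hA, hinv hB⟩

/-- Elements of prime order of PSL_n(q) fixing no decomposition `F^n = U ⊕ W` with `dim U = m`. Here `T = PSL_n(F)` for a field `F` with `q = p^f` elements (`n ≥ 2`, `(n, q) ≠ (2, 2), (2, 3)`); an element of `T` of prime order `r` is represented by a matrix `x` of determinant 1 with `x^r` scalar and `x` not scalar; `i` denotes the multiplicative order of `q` modulo `r` (when `r ≠ p`), and `(a)_r` the `r`-part of `a`. Let `n ≥ 3`, `1 ≤ m < n/2`, and let `r` be a prime dividing the number of such decompositions (unordered pairs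 `{U, W}` of complementary subspaces with `dim U = m`; since `m ≠ n − m` these are the ordered pairs with `dim U = m`). Then every element of `T` of order `r` fixes such a pair (fixes both `U` and `W` for some complementary `U, W` with `dim U = m`) if and only if one of: (i) `r = p > 2` and every partition of `n` into parts of size at most `p` contains, as a sub-multiset, a partition of `m`; (ii) `r = p = 2` and `n` is odd or `m` is even; (iii) `r ≠ p`, `i = 1`, and `r ∣ m` or `(q−1)_r ≥ (n)_r` (with `q ≡ 1 (mod 4)` required when `r = 2` and `n` is even); (iv) `r ≠ p`, `2 ≤ i ≤ m` and `n mod i ≥ m mod i`. -/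
theorem result {F : Type*} [Field F] [Fintype F] {p : ℕ} [Fact p.Prime] [CharP F p] {q : ℕ} (hq : Fintype.card F = q)
    (n m : ℕ) (hn : 3 ≤ n) (hm : 1 ≤ m) (hmn : 2 * m < n)
    (r : ℕ) [Fact r.Prime]
    (hrΩ : r ∣ Nat.card {P : Submodule F (Fin n → F) × Submodule F (Fin n → F) // IsCompl P.1 P.2 ∧ Module.finrank F ↥P.1 = m}) :
    (∀ x : Matrix.SpecialLinearGroup (Fin n) F,
      (∃ c : F, ((x ^ r : Matrix.SpecialLinearGroup (Fin n) F) : Matrix (Fin n) (Fin n) F) = c • (1 : Matrix (Fin n) (Fin n) F)) →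
      (∀ c : F, (x : Matrix (Fin n) (Fin n) F) ≠ c • (1 : Matrix (Fin n) (Fin n) F)) →
      ∃ U W : Submodule F (Fin n → F), IsCompl U W ∧ Module.finrank F ↥U = m ∧
        U.map (Matrix.toLin' (x : Matrix (Fin n) (Fin n) F)) ≤ U ∧ W.map (Matrix.toLin' (x : Matrix (Fin n) (Fin n) F)) ≤ W) ↔
    ((r = p ∧ 2 < p ∧ (∀ μ : Multiset ℕ, (∀ a ∈ μ, 0 < a ∧ a ≤ p) → μ.sum = n → ∃ ν : Multiset ℕ, ν ≤ μ ∧ ν.sum = m)) ∨
     (r = p ∧ p = 2 ∧ (Odd n ∨ Even m)) ∨
     (r ≠ p ∧
      ((orderOf (q : ZMod r) = 1 ∧ (r ∣ m ∨ (padicValNat r n ≤ padicValNat r (q - 1) ∧ (r = 2 → Even n → q % 4 = 1)))) ∨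
       (2 ≤ orderOf (q : ZMod r) ∧ orderOf (q : ZMod r) ≤ m ∧ m % orderOf (q : ZMod r) ≤ n % orderOf (q : ZMod r))))) := by
  classical
  by_cases hrp : r = p
  · subst hrp
    refine (unipotent_iff r (by omega) (by omega : m ≤ n)).trans ⟨fun h => ?_, ?_⟩
    · rcases (Fact.out : r.Prime).eq_two_or_odd' with h2 | h2
      · exact Or.inr (Or.inl ⟨rfl, h2, (Elusive.parts_le_two_iff (by omega)).1 (by rw [← h2]; exact h)⟩)
      · exact Or.inl ⟨rfl, by rcases h2 with ⟨a, ha⟩; have := (Fact.out : r.Prime).two_le; omega, h⟩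
    · rintro (⟨-, -, h⟩ | ⟨-, h2, h⟩ | ⟨h, -⟩)
      · exact h
      · rw [h2]; exact (Elusive.parts_le_two_iff (by omega)).2 h
      · exact absurd rfl h
  have hrq : ¬ r ∣ Fintype.card F := by
    intro h
    obtain ⟨e, hp, he⟩ := FiniteField.card F p
    rw [he] at h
    exact hrp ((Nat.prime_dvd_prime_iff_eq Fact.out hp).1 ((Fact.out : r.Prime).dvd_of_dvd_pow h))
  obtain ⟨j, hj, hjd⟩ := Elusive.dvd_card_compl (F := F) (V := Fin n → F) (Fact.out : r.Prime) hrq
    (by rw [Module.finrank_fin_fun]; omega) hrΩ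
  rw [Module.finrank_fin_fun] at hjd
  subst hq
  have hij : orderOf ((Fintype.card F : ℕ) : ZMod r) ∣ n - j := by
    rw [orderOf_dvd_iff_pow_eq_one]
    rw [← CharP.cast_eq_zero_iff (ZMod r) r, Nat.cast_sub (Nat.one_le_pow _ _ Fintype.card_pos), Nat.cast_pow,
      Nat.cast_one, sub_eq_zero] at hjd
    exact hjd
  have hi0 := Elusive.orderOf_pos_of_not_dvd hrq
  have hgood : m % orderOf ((Fintype.card F : ℕ) : ZMod r) ≤ n % orderOf ((Fintype.card F : ℕ) : ZMod r) →
      ∀ g : Module.End F (Fin n → F), g ^ r = 1 → g ≠ 1 → FixesPair m g := fun hmod g hg _ =>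
    fixesPair_of_semisimple (Elusive.semisimple_of_order hg hrq) (Elusive.exists_invariant_of_mod hg hrq (by omega) hmod)
  rcases Nat.lt_or_ge (orderOf ((Fintype.card F : ℕ) : ZMod r)) 2 with h1 | h2
  · have h1' : orderOf ((Fintype.card F : ℕ) : ZMod r) = 1 := by omega
    refine (Elusive.forall_iff_of_order_one (FixesPair m) fixesPair_smul (by omega) m (Elusive.orderOf_eq_one_iff_dvd.1 h1')
      (hgood (by rw [h1', Nat.mod_one]; exact Nat.zero_le _))
      (fun g z hz hg => ⟨fun ⟨U, W, _, hU, hUg, _⟩ => (Elusive.exists_invariant_bad_iff hrq hz hg (by omega)).1 ⟨U, hU, hUg⟩,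
        fun hrm => fixesPair_of_semisimple
          (Elusive.semisimple_irreducible (Elusive.natCast_ne_zero_of_not_dvd hrq) hz hg).1
          ((Elusive.exists_invariant_bad_iff hrq hz hg (by omega)).2 hrm)⟩)).trans
      ⟨fun h => Or.inr (Or.inr ⟨hrp, Or.inl ⟨h1', h⟩⟩), ?_⟩
    rintro (⟨h, -⟩ | ⟨h, -⟩ | ⟨-, ⟨-, h⟩ | ⟨h, -⟩⟩)
    · exact absurd h hrp
    · exact absurd h hrp
    · exact h
    · omega
  · constructor
    · intro h
      refine Or.inr (Or.inr ⟨hrp, Or.inr ⟨h2, ?_⟩⟩)
      set i := orderOf ((Fintype.card F : ℕ) : ZMod r) with hidef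
      obtain ⟨l, hl⟩ := hij
      have hlj : n = j + i * l := by omega
      have hnj : n % i ≤ j := by
        rw [hlj, Nat.add_mul_mod_self_left]; exact Nat.mod_le _ _
      have hni : 0 < n / i := Nat.div_pos (by
        rcases Nat.eq_zero_or_pos l with rfl | hl0
        · omega
        · have := Nat.le_mul_of_pos_right i hl0; omega) (by omega)
      obtain ⟨x, hx, hx', hxk⟩ := Elusive.exists_element_fixed (F := F) (n := n) p h2 hni (c := n % i) (Nat.mod_add_div' n i)
      have hxr := Elusive.toLin'_pow_eq_smul_one.1 hx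
      rw [one_smul] at hxr
      obtain ⟨U, W, -, hU, hUx, -⟩ := h x ⟨1, hx⟩ hx'
      obtain ⟨t, ht, htc⟩ := Elusive.finrank_invariant hxr hrq (Elusive.invariant_of_map_le hUx)
      rw [hU, ← hidef] at ht
      rw [hxk] at htc
      rcases Nat.eq_zero_or_pos t with rfl | ht0
      · omega
      have hit : i ≤ t * i := Nat.le_mul_of_pos_left i ht0
      refine ⟨by omega, ?_⟩
      rw [ht, Nat.add_mul_mod_self_right]
      exact le_trans (Nat.mod_le _ _) htc
    · rintro (⟨h, -⟩ | ⟨h, -⟩ | ⟨-, ⟨h1, -⟩ | ⟨-, -, hmod⟩⟩)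
      · exact absurd h hrp
      · exact absurd h hrp
      · omega
      · exact Elusive.forall_of_forall_order (FixesPair m) fixesPair_smul (by omega) h2 (hgood hmod)

end Cfsg.Agent.S5950
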