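import Cfsg.Statements.S5951
import Cfsg.Agent.Elusive.SLCriterion
import Cfsg.Agent.Elusive.SubspaceCount

set_option autoImplicit false
open scoped MatrixGroups
open Cfsg

namespace Cfsg.Agent.S5951

/-- Elements of prime order of PSL_n(q) fixing no pair of subspaces `U < W` with `dim U = m`, `dim W = n − m`. Here `T = PSL_n(F)` for a field `F` with `q = p^f` elements (`n ≥ 2`, `(n, q) ≠ (2, 2), (2, 3)`); an element of `T` of prime order `r` is represented by a matrix `x` of determinant 1 with `x^r` scalar and `x` not scalar; `i` denotes the multiplicative order of `q` modulo `r` (when `r ≠ p`), and `(a)_r` the `r`-part of `a`. Let `1 ≤ m < n/2` and let `r` be a prime dividing the number of such pairs. Then every element of `T` of order `r` fixes such a pair (both `U` and `W`) if and only if `r ≠ p` and either (i) `i = 1` and (`r ∣ m`, or `(q−1)_r ≥ (n)_r` with `q ≡ 1 (mod 4)` required when `r = 2` and `n` is even), or (ii) `2 ≤ i ≤ m` and `n mod i ≥ 2 (m mod i)`. -/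
theorem result {F : Type*} [Field F] [Fintype F] {p : ℕ} [Fact p.Prime] [CharP F p] {q : ℕ} (hq : Fintype.card F = q)
    (n m : ℕ) (hn : 2 ≤ n) (hT : (n, q) ≠ (2, 2) ∧ (n, q) ≠ (2, 3)) (hm : 1 ≤ m) (hmn : 2 * m < n)
    (r : ℕ) [Fact r.Prime]
    (hrΩ : r ∣ Nat.card {P : Submodule F (Fin n → F) × Submodule F (Fin n → F) //
        P.1 ≤ P.2 ∧ Module.finrank F ↥P.1 = m ∧ Module.finrank F ↥P.2 = n - m}) :
    (∀ x : Matrix.SpecialLinearGroup (Fin n) F,
      (∃ c : F, ((x ^ r : Matrix.SpecialLinearGroup (Fin n) F) : Matrix (Fin n) (Fin n) F) = c • (1 : Matrix (Fin n) (Fin n) F)) →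
      (∀ c : F, (x : Matrix (Fin n) (Fin n) F) ≠ c • (1 : Matrix (Fin n) (Fin n) F)) →
      ∃ U W : Submodule F (Fin n → F), U ≤ W ∧ Module.finrank F ↥U = m ∧ Module.finrank F ↥W = n - m ∧
        U.map (Matrix.toLin' (x : Matrix (Fin n) (Fin n) F)) ≤ U ∧ W.map (Matrix.toLin' (x : Matrix (Fin n) (Fin n) F)) ≤ W) ↔
    (r ≠ p ∧
      ((orderOf (q : ZMod r) = 1 ∧ (r ∣ m ∨ (padicValNat r n ≤ padicValNat r (q - 1) ∧ (r = 2 → Even n → q % 4 = 1)))) ∨
       (2 ≤ orderOf (q : ZMod r) ∧ orderOf (q : ZMod r) ≤ m ∧ 2 * (m % orderOf (q : ZMod r)) ≤ n % orderOf (q : ZMod r)))) := by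
  classical
  obtain ⟨hrq, j, hj, hjd⟩ := Elusive.dvd_card_flags (F := F) (V := Fin n → F) (m := m) (Fact.out : r.Prime)
    (by rw [Module.finrank_fin_fun]; omega) (by rw [Module.finrank_fin_fun]; exact hrΩ)
  rw [Module.finrank_fin_fun] at hjd
  have hrp : r ≠ p := by
    rintro rfl
    obtain ⟨e, -, he⟩ := FiniteField.card F r
    exact hrq (by rw [he]; exact dvd_pow_self r e.pos.ne')
  subst hq
  set P : Module.End F (Fin n → F) → Prop := fun g => ∃ U W : Submodule F (Fin n → F), U ≤ W ∧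
    Module.finrank F ↥U = m ∧ Module.finrank F ↥W = n - m ∧ U.map g ≤ U ∧ W.map g ≤ W
  have hP : ∀ g w, P g → P (w • g) := fun g w ⟨U, W, h1, h2, h3, h4, h5⟩ =>
    ⟨U, W, h1, h2, h3, Elusive.map_smul_le_of_map_le w h4, Elusive.map_smul_le_of_map_le w h5⟩
  have hij : orderOf ((Fintype.card F : ℕ) : ZMod r) ∣ n - j := by
    rw [orderOf_dvd_iff_pow_eq_one]
    rw [← CharP.cast_eq_zero_iff (ZMod r) r, Nat.cast_sub (Nat.one_le_pow _ _ Fintype.card_pos), Nat.cast_pow,
      Nat.cast_one, sub_eq_zero] at hjd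
    exact hjd
  have hi0 := Elusive.orderOf_pos_of_not_dvd hrq
  rcases Nat.lt_or_ge (orderOf ((Fintype.card F : ℕ) : ZMod r)) 2 with h1 | h2
  · have h1' : orderOf ((Fintype.card F : ℕ) : ZMod r) = 1 := by omega
    refine (Elusive.forall_iff_of_order_one P hP (by omega) m (Elusive.orderOf_eq_one_iff_dvd.1 h1')
      (fun g hg _ => Elusive.exists_invariant_flag_of_mod hg hrq (by omega) (by simp [h1', Nat.mod_one]))
      (fun g z hz hg => ⟨fun ⟨U, W, _, hU, _, hUg, _⟩ => (Elusive.exists_invariant_bad_iff hrq hz hg (by omega)).1 ⟨U, hU, hUg⟩,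
        fun hrm => ?_⟩)).trans ⟨fun h => ⟨hrp, Or.inl ⟨h1', h⟩⟩, ?_⟩
    · obtain ⟨hs, hirr, h0, hd⟩ := Elusive.semisimple_irreducible (Elusive.natCast_ne_zero_of_not_dvd hrq) hz hg
      have hrn : r ∣ n := by
        have := Elusive.dvd_finrank_of_irreducible hs hirr h0 (W := ⊤) (fun v _ => trivial)
        rwa [hd, finrank_top, Module.finrank_fin_fun] at this
      obtain ⟨a, rfl⟩ := hrm
      obtain ⟨b, rfl⟩ := hrn
      obtain ⟨U, W, hUW, hU, hW, hUd, hWd⟩ := Elusive.exists_invariant_of_irreducible hs hirr h0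
        (t₁ := a) (t₂ := b - a) (by
          have : 2 * a < b := Nat.lt_of_mul_lt_mul_left (a := r) (by rw [mul_left_comm]; exact hmn)
          omega)
        (by rw [Module.finrank_fin_fun, hd, mul_comm]; exact Nat.mul_le_mul_left r (Nat.sub_le b a))
      refine ⟨U, W, hUW, by rw [hUd, hd, mul_comm], by rw [hWd, hd, mul_comm, Nat.mul_sub],
        Elusive.map_le_of_invariant hU, Elusive.map_le_of_invariant hW⟩
    rintro ⟨-, ⟨-, h⟩ | ⟨h, -⟩⟩
    · exact h
    · omega
  · constructor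
    · intro h
      refine ⟨hrp, Or.inr ⟨h2, ?_⟩⟩
      set i := orderOf ((Fintype.card F : ℕ) : ZMod r) with hidef
      obtain ⟨l, hl⟩ := hij
      have hlj : n = j + i * l := by omega
      have hnj : n % i ≤ j := by
        rw [hlj, Nat.add_mul_mod_self_left]; exact Nat.mod_le _ _
      have hni : 0 < n / i := Nat.div_pos (by
        rcases Nat.eq_zero_or_pos l with rfl | hl0
        · omega
        · have := Nat.le_mul_of_pos_right i hl0; omega) (by omega)
      obtain ⟨x, hx, hx', hxk⟩ := Elusive.exists_element_fixed (F := F) (n := n) p h2 hni (c := n % i) (Nat.mod_add_div' n i)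
      have hxr := Elusive.toLin'_pow_eq_smul_one.1 hx
      rw [one_smul] at hxr
      obtain ⟨U, W, hUW, hU, hW, hUx, hWx⟩ := h x ⟨1, hx⟩ hx'
      obtain ⟨t, ht, htc⟩ := Elusive.finrank_invariant hxr hrq (Elusive.invariant_of_map_le hUx)
      obtain ⟨s, hs, hsc⟩ := Elusive.finrank_invariant hxr hrq (Elusive.invariant_of_map_le hWx)
      rw [hU, ← hidef] at ht
      rw [hW, ← hidef] at hs
      rw [hxk] at htc hsc
      set c1 := Module.finrank F ↥(U ⊓ LinearMap.ker ((Matrix.toLin' (x : Matrix (Fin n) (Fin n) F) : Module.End F (Fin n → F)) - 1))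
      set c2 := Module.finrank F ↥(W ⊓ LinearMap.ker ((Matrix.toLin' (x : Matrix (Fin n) (Fin n) F) : Module.End F (Fin n → F)) - 1))
      have hc12 : c1 ≤ c2 := Submodule.finrank_mono (inf_le_inf_right _ hUW)
      have hlt : n % i < i := Nat.mod_lt n (by omega)
      have hn' : n = (c1 + c2) + (t + s) * i := by rw [Nat.add_mul]; omega
      have hsum : c1 + c2 < i := by
        by_contra hge
        have e : n % i = c1 + c2 - i := by
          rw [hn', Nat.add_mul_mod_self_right, Nat.mod_eq_sub_mod (Nat.not_lt.1 hge), Nat.mod_eq_of_lt (by omega)]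
        omega
      have e : n % i = c1 + c2 := by
        rw [hn', Nat.add_mul_mod_self_right, Nat.mod_eq_of_lt hsum]
      rcases Nat.eq_zero_or_pos t with rfl | ht0
      · omega
      have hit : i ≤ t * i := Nat.le_mul_of_pos_left i ht0
      refine ⟨by omega, ?_⟩
      rw [ht, Nat.add_mul_mod_self_right, Nat.mod_eq_of_lt (by omega : c1 < i)]
      omega
    · rintro ⟨-, ⟨h1, -⟩ | ⟨-, -, hmod⟩⟩
      · omega
      · exact Elusive.forall_of_forall_order P hP (by omega) h2
          fun g hg _ => Elusive.exists_invariant_flag_of_mod hg hrq (by omega) hmod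

end Cfsg.Agent.S5951
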