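import Cfsg.Statements.S5952


set_option autoImplicit false
open Cfsg

namespace Cfsg.Agent.S5952

/-- Which dimensions of invariant subspaces a semisimple linear map has. Let `V` be a finite-dimensional vector space over a field `F` and `f` an invertible semisimple linear map of `V`. Suppose `V` is the internal direct sum of the fixed space `C_V(f)` (the eigenspace for 1) and subspaces `U_1, …, U_s`, each `f`-invariant of dimension `a ≥ 1` on which `f` acts irreducibly (no `f`-invariant subspaces other than 0 and `U_j`). Let `0 < m < dim V` and `ℓ = m mod a`. Then `f` leaves some `m`-dimensional subspace invariant if and only if `dim C_V(f) ≥ m`, or `a ≤ m` and `dim C_V(f) ≥ ℓ`. -/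
theorem result {F V : Type*} [Field F] [AddCommGroup V] [Module F V]
    [FiniteDimensional F V] (f : V →ₗ[F] V) (hf : Function.Bijective f) (hss : Module.End.IsSemisimple f)
    {s a : ℕ} (ha : 1 ≤ a) (U : Fin s → Submodule F V)
    (hUinv : ∀ j, (U j).map f ≤ U j) (hUdim : ∀ j, Module.finrank F ↥(U j) = a)
    (hUirr : ∀ j, ∀ W : Submodule F V, W ≤ U j → W.map f ≤ W → W = ⊥ ∨ W = U j)
    (hdec : DirectSum.IsInternal (fun o : Option (Fin s) => o.elim (Module.End.eigenspace f 1) U))
    (m : ℕ) (hm : 0 < m) (hmV : m < Module.finrank F V) :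
    (∃ W : Submodule F V, Module.finrank F ↥W = m ∧ W.map f ≤ W) ↔
    (m ≤ Module.finrank F ↥(Module.End.eigenspace f 1) ∨
      (a ≤ m ∧ m % a ≤ Module.finrank F ↥(Module.End.eigenspace f 1))) := by
  classical
  set C := Module.End.eigenspace f 1 with hC
  set c := Module.finrank F ↥C with hcdef
  have hindep := hdec.submodule_iSupIndep
  have htop := hdec.submodule_iSup_eq_top
  have hCinv : ∀ W : Submodule F V, W ≤ C → W.map f ≤ W := by
    rintro W hW _ ⟨x, hx, rfl⟩
    have : f x = x := by simpa [hC, Module.End.mem_eigenspace_iff] using hW hx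
    rw [this]; exact hx
  have hsupinv : ∀ J : Finset (Fin s), (J.sup U).map f ≤ J.sup U := by
    intro J
    induction J using Finset.induction with
    | empty => simp
    | @insert j J hj ih =>
      rw [Finset.sup_insert, Submodule.map_sup]
      exact sup_le_sup (hUinv j) ih
  have hdisj : ∀ (J : Finset (Fin s)) (o : Option (Fin s)), (∀ i ∈ J, some i ≠ o) →
      Disjoint (o.elim C U) (J.sup U) := by
    intro J o hJ
    refine (hindep o).mono_right (Finset.sup_le fun i hi => ?_)
    exact le_iSup₂_of_le (some i) (hJ i hi) le_rfl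
  have hdim : ∀ J : Finset (Fin s), Module.finrank F ↥(J.sup U) = J.card * a := by
    intro J
    induction J using Finset.induction with
    | empty => simp
    | @insert j J hj ih =>
      have hd : Disjoint (U j) (J.sup U) := hdisj J (some j) (fun i hi h => hj (Option.some.inj h ▸ hi))
      have := Submodule.finrank_sup_add_finrank_inf_eq (U j) (J.sup U)
      rw [hd.eq_bot, finrank_bot, ih, hUdim] at this
      rw [Finset.sup_insert, Finset.card_insert_of_notMem hj, add_mul]
      omega
  have hdvd : ∀ (J : Finset (Fin s)) (X : Submodule F V), X.map f ≤ X → X ≤ J.sup U →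
      a ∣ Module.finrank F ↥X := by
    intro J
    induction J using Finset.induction with
    | empty =>
      intro X _ hX
      rw [Finset.sup_empty, le_bot_iff] at hX
      subst hX
      rw [finrank_bot]
      exact dvd_zero a
    | @insert j J hj ih =>
      intro X hXinv hX
      rw [Finset.sup_insert] at hX
      have h1 : a ∣ Module.finrank F ↥(X ⊓ J.sup U) :=
        ih _ ((Submodule.map_inf_le f).trans (inf_le_inf hXinv (hsupinv J))) inf_le_right
      have h2 := Submodule.finrank_sup_add_finrank_inf_eq X (J.sup U)
      have hS : a ∣ Module.finrank F ↥(X ⊔ J.sup U) := by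
        have heq : X ⊔ J.sup U = ((X ⊔ J.sup U) ⊓ U j) ⊔ J.sup U := by
          rw [inf_sup_assoc_of_le (U j) (le_sup_right : J.sup U ≤ X ⊔ J.sup U),
            inf_eq_left.2 (sup_le hX le_sup_right)]
        rcases hUirr j _ inf_le_right ((Submodule.map_inf_le f).trans (inf_le_inf
          (by rw [Submodule.map_sup]; exact sup_le_sup hXinv (hsupinv J)) (hUinv j))) with h | h
        · rw [heq, h, bot_sup_eq, hdim]; exact dvd_mul_left _ _
        · rw [heq, h, ← Finset.sup_insert, hdim]; exact dvd_mul_left _ _
      have h3 : a ∣ Module.finrank F ↥(J.sup U) := by rw [hdim]; exact dvd_mul_left _ _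
      have h4 : a ∣ Module.finrank F ↥(X ⊔ J.sup U) + Module.finrank F ↥(X ⊓ J.sup U) :=
        dvd_add hS h1
      rw [h2] at h4
      exact (Nat.dvd_add_left h3).1 h4
  have htop2 : C ⊔ Finset.univ.sup U = ⊤ := by
    refine top_unique (htop ▸ iSup_le fun o => ?_)
    cases o with
    | none => exact le_sup_left
    | some i => exact (Finset.le_sup (f := U) (Finset.mem_univ i)).trans le_sup_right
  have hVdim : c + s * a = Module.finrank F V := by
    have hd : Disjoint C (Finset.univ.sup U) := hdisj Finset.univ none (fun i _ => Option.some_ne_none i)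
    have := Submodule.finrank_sup_add_finrank_inf_eq C (Finset.univ.sup U)
    rw [hd.eq_bot, finrank_bot, htop2, finrank_top, hdim, Finset.card_univ, Fintype.card_fin] at this
    omega
  constructor
  · rintro ⟨W, hWm, hW⟩
    let g : V →ₗ[F] V := f - LinearMap.id
    have hfg : ∀ x, f (g x) = g (f x) := fun x => by simp [g]
    have hg : (W.map g).map f ≤ W.map g := by
      rintro _ ⟨_, ⟨x, hx, rfl⟩, rfl⟩
      exact ⟨f x, hW ⟨x, hx, rfl⟩, (hfg x).symm⟩
    have hle : W.map g ≤ Finset.univ.sup U := by
      rintro _ ⟨x, _, rfl⟩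
      obtain ⟨u, hu, w, hw, rfl⟩ := Submodule.mem_sup.1 (htop2.symm ▸ Submodule.mem_top (x := x))
      have hu' : f u = u := by simpa [hC, Module.End.mem_eigenspace_iff] using hu
      have hw' : f w ∈ Finset.univ.sup U := hsupinv _ ⟨w, hw, rfl⟩
      have : g (u + w) = f w - w := by simp [g, hu']
      rw [this]; exact Submodule.sub_mem _ hw' hw
    obtain ⟨k, hk⟩ := hdvd _ _ hg hle
    have hrn := LinearMap.finrank_range_add_finrank_ker (g.comp W.subtype)
    have hr : LinearMap.range (g.comp W.subtype) = W.map g := by
      rw [LinearMap.range_comp, Submodule.range_subtype]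
    have hkc : Module.finrank F ↥(LinearMap.ker (g.comp W.subtype)) ≤ c := by
      refine LinearMap.finrank_le_finrank_of_injective
        (f := ((W.subtype.comp (LinearMap.ker (g.comp W.subtype)).subtype).codRestrict C ?_)) ?_
      · intro x
        have hz : f x.1.1 - x.1.1 = 0 := x.2
        rw [hC, Module.End.mem_eigenspace_iff, one_smul]
        exact sub_eq_zero.1 hz
      · intro x y h
        have h' : x.1.1 = y.1.1 := congrArg (fun z : ↥C => (z : V)) h
        exact Subtype.ext (Subtype.ext h')
    rw [hr, hk, hWm] at hrn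
    by_cases hmc : m ≤ c
    · exact Or.inl hmc
    · refine Or.inr ⟨?_, ?_⟩
      · rcases Nat.eq_zero_or_pos k with rfl | hk0
        · omega
        · have := Nat.le_mul_of_pos_right a hk0; omega
      · rw [← hrn, Nat.mul_add_mod]
        exact (Nat.mod_le _ _).trans hkc
  · intro h
    obtain ⟨k, hks, hkm, hkc⟩ : ∃ k, k ≤ s ∧ k * a ≤ m ∧ m - k * a ≤ c := by
      rcases h with h | ⟨_, h⟩
      · exact ⟨0, Nat.zero_le _, by simp, by simpa using h⟩
      · rcases le_or_gt (m / a) s with h' | h'
        · refine ⟨m / a, h', Nat.div_mul_le_self m a, ?_⟩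
          have := Nat.mod_add_div m a
          rw [mul_comm] at this; omega
        · refine ⟨s, le_rfl, ?_, by omega⟩
          exact (Nat.mul_le_mul_right a h'.le).trans (Nat.div_mul_le_self m a)
    obtain ⟨J, -, hJ⟩ := Finset.exists_subset_card_eq (s := (Finset.univ : Finset (Fin s))) (by simpa using hks)
    obtain ⟨D, hD, hDdim⟩ : ∃ D : Submodule F V, D ≤ C ∧ Module.finrank F ↥D = m - k * a := by
      let b := Module.finBasis F ↥C
      refine ⟨Submodule.span F (Set.range fun i : Fin (m - k * a) => (b (Fin.castLE hkc i) : V)), ?_, ?_⟩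
      · rw [Submodule.span_le]; rintro _ ⟨i, rfl⟩; exact (b _).2
      · rw [finrank_span_eq_card, Fintype.card_fin]
        exact (b.linearIndependent.map' C.subtype (Submodule.ker_subtype C)).comp _
          (Fin.castLE_injective hkc)
    refine ⟨D ⊔ J.sup U, ?_, ?_⟩
    · have hd : Disjoint D (J.sup U) := (hdisj J none (fun i _ => Option.some_ne_none i)).mono_left hD
      have := Submodule.finrank_sup_add_finrank_inf_eq D (J.sup U)
      rw [hd.eq_bot, finrank_bot, hdim, hJ, hDdim] at this
      omega
    · rw [Submodule.map_sup]; exact sup_le_sup (hCinv D hD) (hsupinv J)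

end Cfsg.Agent.S5952
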