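import Cfsg.Statements.S5953
import Cfsg.Agent.Elusive.UnitaryTI

set_option autoImplicit false
open scoped MatrixGroups
open Cfsg

namespace Cfsg.Agent.S5953

open Cfsg.Agent.Elusive Cfsg.Agent.Elusive.UnitarySub Cfsg.Agent.Classical Polynomial Module

section

variable {F : Type*} [Field F] [Fintype F] {n m q : ℕ}

/-- The criterion for involutions. -/
theorem two_iff (hF : U.SqField F q) (hq : Odd q) (h2 : (2 : F) ≠ 0) (hn : 3 ≤ n) (hmn : 2 * m ≤ n) :
    (∀ g : GL (Fin n) F, g ∈ Cfsg.GU n F q → (g : Matrix (Fin n) (Fin n) F).det = 1 →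
      ∀ z : F, glEnd g ^ 2 = z • 1 → (∀ c : F, glEnd g ≠ c • (1 : Module.End F (Fin n → F))) → FixTI n m q (glEnd g)) ↔
    (2 * m < n ∨ padicValNat 2 (q + 1) ≤ padicValNat 2 n) := by
  classical
  haveI : Fact (Nat.Prime 2) := ⟨Nat.prime_two⟩
  constructor
  · intro h
    by_contra hc
    push Not at hc
    obtain ⟨hle, hv⟩ := hc
    obtain ⟨ξ, hξ⟩ := exists_norm_one_generator hF
    obtain ⟨t, ht⟩ : 2 ^ padicValNat 2 n ∣ n := pow_padicValNat_dvd
    obtain ⟨u, hu⟩ : 2 ^ (padicValNat 2 n + 1) ∣ q + 1 :=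
      (padicValNat_dvd_iff_le (Nat.succ_ne_zero q)).2 hv
    have htodd : Odd t := Nat.not_even_iff_odd.1 fun ⟨s, hs⟩ =>
      pow_succ_padicValNat_not_dvd (p := 2) (by omega : n ≠ 0) ⟨s, by rw [pow_succ, mul_assoc, two_mul, ← hs, ← ht]⟩
    have hu0 : 0 < u := Nat.pos_of_ne_zero fun h => by rw [h, mul_zero] at hu; omega
    set w := ξ ^ u with hw
    have hwq : w ^ (q + 1) = 1 := by rw [hw, ← pow_mul, mul_comm, pow_mul, hξ.pow_eq_one, one_pow]
    have hhalf : w ^ 2 ^ padicValNat 2 n = -1 := by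
      have h1 : w ^ 2 ^ padicValNat 2 n * w ^ 2 ^ padicValNat 2 n = 1 := by
        rw [← pow_add, ← two_mul, ← pow_succ', hw, ← pow_mul, mul_comm, ← hu, hξ.pow_eq_one]
      refine (mul_self_eq_one_iff.1 h1).resolve_left fun h => ?_
      rw [hw, ← pow_mul] at h
      have h3 := Nat.le_of_dvd (Nat.mul_pos hu0 (by positivity)) ((hξ.pow_eq_one_iff_dvd _).1 h)
      rw [hu, pow_succ, mul_comm u, mul_assoc] at h3
      have := Nat.le_of_mul_le_mul_left h3 (by positivity)
      omega
    have hwn : w ^ n = -1 := by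
      rw [ht, pow_mul, hhalf, htodd.neg_one_pow]
    have hw0 : w ≠ 0 := fun h => by rw [h, zero_pow (Nat.succ_ne_zero q)] at hwq; exact zero_ne_one hwq
    have hne : -w ≠ w := fun h => hw0 ((mul_eq_zero.1 (by linear_combination -h : (2 : F) * w = 0)).resolve_left h2)
    obtain ⟨g, hg, hdet, hgv⟩ := exists_diag_element hF (fun k : Fin n => if (k : ℕ) = 0 then -w else w) fun k => by
      split_ifs
      · rw [hq.add_one.neg_pow, hwq]
      · exact hwq
    have hd1 : (g : Matrix (Fin n) (Fin n) F).det = 1 := by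
      obtain ⟨l, rfl⟩ : ∃ l, n = l + 1 := ⟨n - 1, by omega⟩
      rw [hdet, Fin.prod_univ_succ]
      simp only [Fin.val_zero, if_true, Fin.val_succ, Nat.succ_ne_zero, if_false, Finset.prod_const, Finset.card_univ,
        Fintype.card_fin]
      rw [pow_succ] at hwn
      linear_combination -hwn
    have hns : ∀ c : F, glEnd g ≠ c • (1 : Module.End F (Fin n → F)) := fun c hcg => by
      have h0 := congrFun (LinearMap.congr_fun hcg (fun _ => 1)) ⟨0, by omega⟩
      have h1 := congrFun (LinearMap.congr_fun hcg (fun _ => 1)) ⟨1, by omega⟩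
      simp [hgv] at h0 h1
      exact hne (h0.trans h1.symm)
    obtain ⟨W, hWd, hWT, hW⟩ := h g hg hd1 (w ^ 2) (diag_pow hgv fun k => by split_ifs <;> simp) hns
    have h5 := two_mul_le_card_eigen hF hgv (a := w) (fun k hk j hj => ?_) (fun v hv => hW ⟨v, hv, rfl⟩) hWT
    · have h6 : Nat.card {k : Fin n // (if (k : ℕ) = 0 then -w else w) = w} < n := by
        rw [Nat.card_eq_fintype_card]
        exact (Fintype.card_subtype_lt (x := ⟨0, by omega⟩) (by simpa using hne)).trans_eq (Fintype.card_fin n)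
      omega
    · have hk0 : (k : ℕ) = 0 := by by_contra h; exact hk (if_neg h)
      have hj0 : (j : ℕ) ≠ 0 := fun h => hj (Fin.ext (h.trans hk0.symm))
      simp only [if_pos hk0, if_neg hj0]
      exact hne.symm
  · intro hcond g hg hdet z hgz hns
    have hn0 : 0 < n := by omega
    by_cases hroot : ∃ w : F, w ^ (q + 1) = 1 ∧ w ^ 2 = z
    swap
    · push Not at hroot
      obtain ⟨W, hWd, hWT, hW⟩ := (nonsquare_case hF hq h2 hn0 hg hroot hgz).2.2.1 m hmn
      exact ⟨W, hWd, hWT, map_le_self hW⟩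
    obtain ⟨w, hw, rfl⟩ := hroot
    obtain ⟨g', hg', hg'2, -, he⟩ := reduce_order hF hg hw hgz hns
    rw [he]
    refine fixTI_smul w ?_
    obtain ⟨S, hfix, hS⟩ := exists_dualFactors_two hF h2
    by_cases hlt : 2 * m < n
    · exact fixTI_of_conditions S two_pos one_pos
        (Or.inl ⟨hfix, rfl, by simp only [Nat.div_one]; omega⟩) hmn (by simp [Nat.mod_one]) hg' hg'2
    have hv := hcond.resolve_left hlt
    set a := finrank F (glKer g' (X + 1)) with ha
    have hae : Even a := Nat.not_odd_iff_even.1 fun hodd => by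
      have hda := det_involution hF h2 S hS hg'2
      rw [← ha, hodd.neg_one_pow] at hda
      have hsm : (g : Matrix (Fin n) (Fin n) F) = w • (g' : Matrix (Fin n) (Fin n) F) := by
        apply Matrix.toLinAlgEquiv'.injective
        rw [map_smul]
        exact he
      rw [hsm, Matrix.det_smul, Fintype.card_fin, hda, mul_neg, mul_one, neg_eq_iff_eq_neg] at hdet
      obtain ⟨u, hu⟩ : 2 ^ padicValNat 2 (q + 1) ∣ q + 1 := pow_padicValNat_dvd
      obtain ⟨t, ht⟩ : 2 ^ padicValNat 2 (q + 1) ∣ n := (padicValNat_dvd_iff_le (by omega : n ≠ 0)).2 hv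
      have huodd : Odd u := Nat.not_even_iff_odd.1 fun ⟨s, hs⟩ =>
        pow_succ_padicValNat_not_dvd (p := 2) (Nat.succ_ne_zero q) ⟨s, by rw [pow_succ, mul_assoc, two_mul, ← hs, ← hu]⟩
      have h1 : (w ^ n) ^ u = 1 := by rw [← pow_mul, ht, mul_right_comm, ← hu, pow_mul, hw, one_pow]
      rw [hdet, huodd.neg_one_pow] at h1
      exact h2 (by linear_combination -h1)
    obtain ⟨W, hWd, hWT, hWi⟩ := S.exists_ti two_pos hg' hg'2 (fun _ => a / 2) (fun j => one_dvd _)
      (fun j => by rw [hS, ← ha]; omega) (e := m - ∑ _j : S.s, a / 2) (by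
        have hd := S.dims hg'2
        rw [Finset.sum_congr rfl fun (j : S.s) _ => show finrank F (glKer g' (j : F[X])) = a by rw [hS]] at hd
        have hcard : Fintype.card S.s = 1 := by
          have := S.card_mul; rw [Fintype.card_coe]; omega
        simp only [Finset.sum_const, Finset.card_univ, hcard, one_smul] at hd ⊢
        obtain ⟨k, hk⟩ := hae
        omega)
    refine ⟨W, ?_, hWT, map_le_self hWi⟩
    have hd := S.dims hg'2
    rw [Finset.sum_congr rfl fun (j : S.s) _ => show finrank F (glKer g' (j : F[X])) = a by rw [hS]] at hd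
    have hcard : Fintype.card S.s = 1 := by
      have := S.card_mul; rw [Fintype.card_coe]; omega
    simp only [Finset.sum_const, Finset.card_univ, hcard, one_smul] at hd hWd
    obtain ⟨k, hk⟩ := hae
    omega

/-- The criterion for odd primes. -/
theorem odd_iff {p r i b c : ℕ} [Fact p.Prime] [CharP F p] [Fact r.Prime] (hcard : Fintype.card F = q ^ 2) (hn : 3 ≤ n)
    (hm : 1 ≤ m) (hmn : 2 * m ≤ n) (hr2 : r ≠ 2) (hrp : r ≠ p) (hrq : ¬ r ∣ q)
    (hi : i = orderOf (q : ZMod r)) (hb : b = if Even i then i / 2 else i)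
    (hc : c = if i % 4 = 0 then i else if i % 4 = 2 then i / 2 else 2 * i) (hnc : n % c < 2 * m) (hcn : c ≤ n) :
    (∀ g : GL (Fin n) F, g ∈ Cfsg.GU n F q → (g : Matrix (Fin n) (Fin n) F).det = 1 →
      ∀ z : F, glEnd g ^ r = z • 1 → (∀ c : F, glEnd g ≠ c • (1 : Module.End F (Fin n → F))) → FixTI n m q (glEnd g)) ↔
    (b ≤ m ∧ 2 * (m % b) ≤ n % c ∧
      (i % 4 ≠ 2 ∨ (i % 4 = 2 ∧ (r - 1) / b + 2 * (m / b) ≤ n / b ∧
        (2 < i ∨ (i = 2 ∧ (r ∣ m ∨ padicValNat r n ≤ padicValNat r (q + 1))))))) := by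
  classical
  have hr : r.Prime := Fact.out
  have hF := U.sqField_of_fintype hcard
  have hrF : ¬ r ∣ Fintype.card F := fun h => hrq (hr.dvd_of_dvd_pow (hcard ▸ h))
  have hq0 : (q : ZMod r) ≠ 0 := fun h => hrq ((ZMod.natCast_eq_zero_iff q r).1 h)
  have hi0 : 0 < i := hi ▸ (IsUnit.isOfFinOrder (Ne.isUnit hq0)).orderOf_pos
  have hb' : b = if Odd i then i else i / 2 := by
    rw [hb]
    rcases Nat.even_or_odd i with h | h
    · rw [if_pos h, if_neg (Nat.not_odd_iff_even.2 h)]
    · rw [if_neg (Nat.not_even_iff_odd.2 h), if_pos h]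
  obtain ⟨S, hS⟩ := exists_dualFactors (F := F) hcard hr hr2 hrp hi hb'
  have hb0 : 0 < b := by
    rw [hb']; split_ifs with h
    · exact hi0
    · have := Nat.even_iff.1 (Nat.not_odd_iff_even.1 h); omega
  have hcb : c = if i % 4 = 2 then b else 2 * b := by
    rw [hc, hb']
    rcases Nat.even_or_odd i with h | h
    · have := Nat.even_iff.1 h
      rw [if_neg (Nat.not_odd_iff_even.2 h)]
      split_ifs <;> omega
    · have := Nat.odd_iff.1 h
      rw [if_pos h]
      split_ifs <;> omega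
  have hi2 : r ∣ q + 1 ↔ i = 2 := by
    haveI : Fact (2 < r) := ⟨by have := hr.two_le; omega⟩
    constructor
    · intro h
      have h1 : (q : ZMod r) = -1 := by
        rw [← CharP.cast_eq_zero_iff (ZMod r) r, Nat.cast_add, Nat.cast_one, add_eq_zero_iff_eq_neg] at h
        exact h
      rw [hi, h1, orderOf_neg_one, if_neg]
      rw [ringChar.eq (ZMod r) r]; exact hr2
    · intro h
      have h1 : (q : ZMod r) ^ 2 = 1 := by rw [← h, hi]; exact pow_orderOf_eq_one _
      rcases sq_eq_one_iff.1 h1 with h2 | h2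
      · rw [hi, h2, orderOf_one] at h; omega
      · rw [← CharP.cast_eq_zero_iff (ZMod r) r, Nat.cast_add, Nat.cast_one, h2, neg_add_cancel]
  have hscard : Fintype.card S.s * b = r - 1 := by rw [Fintype.card_coe]; exact S.card_mul
  constructor
  · intro h
    -- elements with prescribed kernels
    have model : ∀ a : S.s → ℕ, (∀ j, b ∣ a j) → (∀ j, a (S.τ j) = a j) → ∑ j, a j ≤ n → (∃ j, a j ≠ 0) →
        i ≠ 2 → ∃ (e : ℕ) (w : S.s → ℕ), 2 * e + ∑ j, a j ≤ n ∧ e + ∑ j, w j = m ∧ (∀ j, b ∣ w j) ∧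
          ∀ j, w j ≤ a j ∧ (S.τ j = j → 2 * w j ≤ a j) := by
      intro a ha haτ hale ⟨j₀, hj₀⟩ hi2'
      obtain ⟨g, hg, hgr, hga⟩ := S.exists_unitary hr.pos a ha hale haτ
      have hg1 : g ≠ 1 := fun h1 => hj₀ (by
        have h1r : (1 : GL (Fin n) F) ^ r = 1 := one_pow r
        have h4 : finrank F (glKer (1 : GL (Fin n) F) (X - 1)) = n := by
          have : glKer (1 : GL (Fin n) F) (X - 1) = ⊤ := by
            rw [glKer, map_sub, aeval_X, map_one, glEnd_one, sub_self, LinearMap.ker_zero]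
          rw [this, finrank_top, finrank_fin_fun]
        have h5 := S.dims h1r
        rw [h4] at h5
        rw [← hga j₀, h1]
        exact Finset.sum_eq_zero_iff.1 (by omega : ∑ j : S.s, finrank F (glKer (1 : GL (Fin n) F) j) = 0) j₀
          (Finset.mem_univ _))
      obtain ⟨hdet, hns⟩ := order_props hF (by omega) hr (fun h => hi2' (hi2.1 h)) hg hgr hg1
      obtain ⟨e, w, h1, h2, h3, h4⟩ := ti_data S hr.pos hg hgr
        (h g hg hdet 1 (by rw [glEnd_pow hgr, one_smul]) hns)
      have hd := S.dims hgr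
      simp only [hga] at hd h4
      exact ⟨e, w, by omega, h2, h3, h4⟩
    have hmm := Nat.mod_add_div m b
    have hbm : b ≤ m ∧ 2 * (m % b) ≤ n % c := by
      by_cases hi2' : i = 2
      · have hb1 : b = 1 := by rw [hb', if_neg (by rw [hi2']; decide), hi2']
        exact ⟨by omega, by rw [hb1, Nat.mod_one]; exact Nat.zero_le _⟩
      have hne : S.s.Nonempty := Finset.card_pos.1 (Nat.pos_of_ne_zero fun h => by
        have := S.card_mul; rw [h, zero_mul] at this; have := hr.two_le; omega)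
      obtain ⟨j₀, hj₀⟩ := hne
      let J : S.s := ⟨j₀, hj₀⟩
      have hc0 : 0 < c := by rw [hcb]; split_ifs <;> omega
      have hsum : ∑ j, (if j = J ∨ j = S.τ J then b * (n / c) else 0) = c * (n / c) := by
        rw [← Finset.sum_filter]
        by_cases hfx : S.τ J = J
        · rw [show Finset.univ.filter (fun j => j = J ∨ j = S.τ J) = {J} by ext; simp [hfx], Finset.sum_singleton,
            hcb, if_pos ((hS J).1 hfx)]
        · rw [show Finset.univ.filter (fun j => j = J ∨ j = S.τ J) = {J, S.τ J} by ext; simp,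
            Finset.sum_pair (Ne.symm hfx), hcb, if_neg fun h => hfx ((hS J).2 h)]
          ring
      obtain ⟨e, w, h1, h2, h3, -⟩ := model (fun j => if j = J ∨ j = S.τ J then b * (n / c) else 0)
        (fun j => by split_ifs <;> simp)
        (fun j => by
          refine if_congr ⟨fun h' => ?_, fun h' => ?_⟩ rfl rfl
          · rcases h' with h' | h'
            · exact Or.inr (by rw [← h', S.tau_tau])
            · exact Or.inl (by rw [← S.tau_tau j, h', S.tau_tau])
          · rcases h' with rfl | rfl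
            exacts [Or.inr rfl, Or.inl (S.tau_tau J)])
        (by rw [hsum]; exact Nat.mul_div_le n c)
        ⟨J, by rw [if_pos (Or.inl rfl)]; exact (Nat.mul_pos hb0 (Nat.div_pos hcn hc0)).ne'⟩ hi2'
      rw [hsum] at h1
      have hnn := Nat.mod_add_div n c
      obtain ⟨k, hk⟩ : b ∣ ∑ j, w j := Finset.dvd_sum fun j _ => h3 j
      have he : m % b ≤ e := by
        rw [← h2, hk, Nat.add_mul_mod_self_left]
        exact Nat.mod_le _ _
      refine ⟨?_, by omega⟩
      rcases Nat.eq_zero_or_pos k with rfl | hk0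
      · omega
      · have := Nat.le_mul_of_pos_right b hk0
        omega
    refine ⟨hbm.1, hbm.2, ?_⟩
    by_cases h4 : i % 4 = 2
    swap
    · exact Or.inl h4
    have hfix : ∀ j, S.τ j = j := fun j => (hS j).2 h4
    have hcb' : c = b := by rw [hcb, if_pos h4]
    refine Or.inr ⟨h4, ?_, ?_⟩
    · rw [show (r - 1) / b = Fintype.card S.s from hscard ▸ Nat.mul_div_cancel _ hb0]
      by_cases hi2' : i = 2
      · have hb1 : b = 1 := by rw [hb', if_neg (by rw [hi2']; decide), hi2']
        obtain ⟨g, hg, hdet, hgr, hns, hW⟩ := exists_simple_eigen (r := r) hF hr2 (hi2.2 hi2') hn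
        obtain ⟨W, hWd, hWT, hWi⟩ := h g hg hdet 1 hgr hns
        have := hW W (fun v hv => hWi ⟨v, hv, rfl⟩) hWT
        subst hb1
        rw [Nat.div_one, Nat.div_one]
        rw [mul_one] at hscard
        have := hr.two_le
        omega
      obtain ⟨T, -, hT⟩ := Finset.exists_subset_card_eq (s := (Finset.univ : Finset S.s))
        (n := min (Fintype.card S.s) (n / b)) (by rw [Finset.card_univ]; exact min_le_left _ _)
      have hnb : 0 < n / b := Nat.div_pos (hcb' ▸ hcn) hb0
      have hs0 : 0 < Fintype.card S.s := Nat.pos_of_ne_zero fun h => by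
        rw [h, zero_mul] at hscard; have := hr.two_le; omega
      obtain ⟨j₁, hj₁⟩ : T.Nonempty := Finset.card_pos.1 (by rw [hT]; exact lt_min hs0 hnb)
      have hsum : ∑ j, (if j ∈ T then b else 0) = b * min (Fintype.card S.s) (n / b) := by
        rw [Finset.sum_ite_mem, Finset.univ_inter, Finset.sum_const, hT, smul_eq_mul, mul_comm]
      obtain ⟨e, w, h1, h2, h3, h4'⟩ := model (fun j => if j ∈ T then b else 0) (fun j => by split_ifs <;> simp)
        (fun j => by rw [hfix]) (by rw [hsum]; exact (Nat.mul_le_mul_left b (min_le_right _ _)).trans (Nat.mul_div_le n b))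
        ⟨j₁, by rw [if_pos hj₁]; omega⟩ hi2'
      rw [hsum] at h1
      have hw0 : ∑ j, w j = 0 := Finset.sum_eq_zero fun j _ => by
        obtain ⟨k, hk⟩ := h3 j
        have h9 := (h4' j).2 (hfix j)
        rcases Nat.eq_zero_or_pos k with rfl | hk0
        · simp [hk]
        · have := Nat.le_mul_of_pos_right b hk0
          beta_reduce at h9
          split_ifs at h9 <;> omega
      have hnn := Nat.mod_add_div n b
      rcases le_total (Fintype.card S.s) (n / b) with hle | hle
      · rw [min_eq_left hle] at h1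
        have h6 : b * (Fintype.card S.s + 2 * (m / b)) ≤ n := by
          rw [Nat.mul_add, mul_left_comm]
          omega
        exact (Nat.le_div_iff_mul_le hb0).2 (by rw [mul_comm]; exact h6)
      · rw [min_eq_right hle] at h1
        rw [hcb'] at hnc
        omega
    · by_cases hi2' : i = 2
      · refine Or.inr ⟨hi2', or_iff_not_imp_right.2 fun hv => ?_⟩
        obtain ⟨g, z, hg, hdet, hgz, hns, hz⟩ := exists_bad_unitary (r := r) hF (hi2.2 hi2') (by omega) hr2
          (Nat.lt_of_not_le hv)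
        obtain ⟨W, hWd, -, hWi⟩ := h g hg hdet z hgz hns
        exact hWd ▸ (irreducible_case hF hrF (by omega) hg hz hgz).2.2.1 W fun v hv => hWi ⟨v, hv, rfl⟩
      · exact Or.inl (by omega)
  · rintro ⟨hbm, hmod, hextra⟩ g hg hdet z hgz hns
    have hcase : (∃ w : F, w ^ (q + 1) = 1 ∧ w ^ r = z) ∨ ((∀ w : F, w ^ (q + 1) = 1 → w ^ r ≠ z) ∧ r ∣ m ∧ r ∣ q + 1) := by
      by_cases hd : r ∣ q + 1
      · by_cases hw : ∃ w : F, w ^ (q + 1) = 1 ∧ w ^ r = z
        · exact Or.inl hw
        refine Or.inr ⟨fun w h1 h2 => hw ⟨w, h1, h2⟩, ?_, hd⟩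
        have h2i := hi2.1 hd
        rcases hextra with h | ⟨-, -, h | ⟨-, h | h⟩⟩
        · omega
        · omega
        · exact h
        · exact absurd (exists_root_of_det hF hrF hr2 hd (by omega) h hg hdet hgz) hw
      · exact Or.inl (exists_norm_one_root hF (norm_one_of_smul hF (by omega) hg hgz) hr hd)
    rcases hcase with ⟨w, hw, rfl⟩ | ⟨hno, hrm, hd⟩
    · obtain ⟨g', hg', hg'r, -, he⟩ := reduce_order hF hg hw hgz hns
      rw [he]
      refine fixTI_smul w (fixTI_of_conditions S hr.pos hb0 ?_ hmn hmod hg' hg'r)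
      by_cases h4 : i % 4 = 2
      · refine Or.inl ⟨fun j => (hS j).2 h4, by rw [hcb, if_pos h4], ?_⟩
        obtain ⟨-, hs, -⟩ := hextra.resolve_left (not_not.2 h4)
        rw [show (r - 1) / b = Fintype.card S.s from hscard ▸ Nat.mul_div_cancel _ hb0] at hs
        calc r - 1 + 2 * b * (m / b) = b * (Fintype.card S.s + 2 * (m / b)) := by rw [← hscard]; ring
          _ ≤ b * (n / b) := Nat.mul_le_mul_left b hs
      · exact Or.inr ⟨fun j h => h4 ((hS j).1 h), by rw [hcb, if_neg h4]⟩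
    · obtain ⟨W, hWd, hWT, hWi⟩ := (irreducible_case hF hrF (by omega) hg
        (nonroot_field hF hr hr2 hd (norm_one_of_smul hF (by omega) hg hgz) hno) hgz).2.2.2.2 m hmn hrm
      exact ⟨W, hWd, hWT, map_le_self hWi⟩

end

/-- Elements of prime order of PSU_n(q) with no fixed totally isotropic `m`-space. Here `T = PSU_n(q)` (`n ≥ 3`, `(n, q) ≠ (3, 2)`), realised through the matrices of determinant 1 over the field `F` with `q²` elements preserving the Hermitian form `h(u, v) = Σ u_i v_i^q`; an element of `T` of prime order `r` is such a matrix `x` with `x^r` scalar and `x` not scalar. For `r ≠ p` let `i` be the multiplicative order of `q` modulo `r`, `b = i/2` for `i` even and `b = i` for `i` odd, `c = i, i/2, 2i` according as `i ≡ 0, 2 (mod 4)` or `i` odd, and write `k = n mod c`, `ℓ = m mod b`, `ℓ' = m mod c`, `n' = ⌊n/b⌋`, `m' = ⌊m/b⌋`, `s = (r−1)/b`; `(a)_r` is the `r`-part of `a`. Let `1 ≤ m ≤ n/2` and let `r` be a prime dividing the number of totally isotropic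 `m`-spaces. Then every element of `T` of order `r` fixes a totally isotropic `m`-space if and only if either (i) `r = 2`, `p ≠ 2`, and (`m < n/2` or `(q+1)_2 ≤ (n)_2`); or (ii) `r ≠ p`, `r > 2`, `b ≤ m`, `k ≥ 2ℓ`, and either `i ≢ 2 (mod 4)`, or `i ≡ 2 (mod 4)`, `n' − 2m' ≥ s` and (`i > 2`, or `i = 2` and (`r ∣ m` or `(q+1)_r ≥ (n)_r`)). -/
theorem result {F : Type*} [Field F] [Fintype F] {p : ℕ} [Fact p.Prime] [CharP F p] {q : ℕ} (hq : Fintype.card F = q ^ 2)
    (n m : ℕ) (hn : 3 ≤ n) (hT : (n, q) ≠ (3, 2)) (hm : 1 ≤ m) (hmn : 2 * m ≤ n)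
    (r : ℕ) [Fact r.Prime]
    (hrΩ : r ∣ Nat.card {W : Submodule F (Fin n → F) // Module.finrank F ↥W = m ∧ (∀ u ∈ W, ∀ v ∈ W, Cfsg.hermForm n F q u v = 0)})
    (i b c : ℕ) (hi : i = orderOf (q : ZMod r)) (hb : b = if Even i then i / 2 else i)
    (hc : c = if i % 4 = 0 then i else if i % 4 = 2 then i / 2 else 2 * i) :
    (∀ x : Matrix.SpecialLinearGroup (Fin n) F, x ∈ Cfsg.SU n F q →
      (∃ z : F, ((x ^ r : Matrix.SpecialLinearGroup (Fin n) F) : Matrix (Fin n) (Fin n) F) = z • (1 : Matrix (Fin n) (Fin n) F)) →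
      (∀ z : F, (x : Matrix (Fin n) (Fin n) F) ≠ z • (1 : Matrix (Fin n) (Fin n) F)) →
      ∃ W : Submodule F (Fin n → F), Module.finrank F ↥W = m ∧ (∀ u ∈ W, ∀ v ∈ W, Cfsg.hermForm n F q u v = 0) ∧
        W.map (Matrix.toLin' (x : Matrix (Fin n) (Fin n) F)) ≤ W) ↔
    ((r = 2 ∧ p ≠ 2 ∧ (2 * m < n ∨ padicValNat 2 (q + 1) ≤ padicValNat 2 n)) ∨
     (r ≠ p ∧ 2 < r ∧ b ≤ m ∧ 2 * (m % b) ≤ n % c ∧
       (i % 4 ≠ 2 ∨ (i % 4 = 2 ∧ (r - 1) / b + 2 * (m / b) ≤ n / b ∧
         (2 < i ∨ (i = 2 ∧ (r ∣ m ∨ padicValNat r n ≤ padicValNat r (q + 1)))))))) := by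
  classical
  have hF := U.sqField_of_fintype hq
  obtain ⟨e, -, hqe⟩ := FiniteField.card F p
  have hpq : p ∣ q := Fact.out (p := p.Prime) |>.dvd_of_dvd_pow (hq ▸ hqe ▸ dvd_pow_self p e.pos.ne')
  obtain ⟨hrq, j, hj1, hj2, hjd⟩ := dvd_card_TI hF (k := m) (Fact.out : r.Prime) hmn hrΩ
  have hrp : r ≠ p := fun h => hrq (h ▸ hpq)
  refine (forall_su_iff (n := n) (q := q) (r := r) (FixTI n m q)).trans ?_
  by_cases hr2 : r = 2
  · subst hr2
    have hq2 : Odd q := Nat.not_even_iff_odd.1 fun h => hrq (even_iff_two_dvd.1 h)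
    have h2 : (2 : F) ≠ 0 := fun h => hrp (by
      exact CharP.eq F (CharTwo.of_one_ne_zero_of_two_eq_zero one_ne_zero h) ‹CharP F p›)
    rw [two_iff hF hq2 h2 hn hmn]
    constructor
    · exact fun h => Or.inl ⟨rfl, Ne.symm hrp, h⟩
    · rintro (⟨-, -, h⟩ | ⟨-, h, -⟩)
      · exact h
      · omega
  · obtain ⟨hnc, -, hcn⟩ := mod_lt_of_dvd (order_dvd (Fact.out : r.Prime) hr2 hF.one_lt hi hc hjd) hj1 hj2
    rw [odd_iff hq hn hm hmn hr2 hrp hrq hi hb hc hnc hcn]
    have h3 : 2 < r := by have := (Fact.out : r.Prime).two_le; omega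
    constructor
    · exact fun h => Or.inr ⟨hrp, h3, h⟩
    · rintro (⟨h, -⟩ | ⟨-, -, h⟩)
      · exact absurd h hr2
      · exact h

end Cfsg.Agent.S5953
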