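import Cfsg.Statements.S5954
import Cfsg.Agent.Elusive.UnitaryND
import Cfsg.Agent.Elusive.UnitaryUnip
import Cfsg.Agent.Elusive.NilpotentPairs

set_option autoImplicit false
open scoped MatrixGroups
open Cfsg

namespace Cfsg.Agent.S5954

open Cfsg.Agent.Elusive Cfsg.Agent.Elusive.UnitarySub Cfsg.Agent.Classical Polynomial Module

section

variable {F : Type*} [Field F] [Fintype F] {n m q : ℕ}

/-- The criterion for unipotent elements. -/
theorem unipotent_iff {p : ℕ} [Fact p.Prime] [CharP F p] (hF : U.SqField F q) (hn : 0 < n) (hm : m ≤ n) (hpq : ¬ p ∣ q + 1) :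
    (∀ g : GL (Fin n) F, g ∈ Cfsg.GU n F q → (g : Matrix (Fin n) (Fin n) F).det = 1 →
      ∀ z : F, glEnd g ^ p = z • 1 → (∀ c : F, glEnd g ≠ c • (1 : Module.End F (Fin n → F))) → FixND n m q (glEnd g)) ↔
    (∀ μ : Multiset ℕ, (∀ a ∈ μ, 0 < a ∧ a ≤ p) → μ.sum = n → ∃ ν : Multiset ℕ, ν ≤ μ ∧ ν.sum = m) := by
  classical
  have hp : p.Prime := Fact.out
  haveI : Nonempty (Fin n) := ⟨⟨0, hn⟩⟩
  haveI : CharP (Module.End F (Fin n → F)) p :=
    charP_of_injective_algebraMap (RingHom.injective (algebraMap F (Module.End F (Fin n → F)))) p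
  have hnil : ∀ g : GL (Fin n) F, g ^ p = 1 → (glEnd g - 1) ^ p = 0 := fun g hg => by
    rw [sub_pow_char_of_commute p (Commute.one_right _), glEnd_pow hg, one_pow, sub_self]
  constructor
  · intro h μ hμb hμn
    by_cases hone : ∀ b ∈ μ, b = 1
    · refine ⟨Multiset.replicate m 1, ?_, by simp⟩
      rw [Multiset.eq_replicate_card.2 hone] at hμn ⊢
      simp only [Multiset.sum_replicate, smul_eq_mul, mul_one] at hμn
      exact (Multiset.replicate_le_replicate 1).2 (by omega)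
    push Not at hone
    obtain ⟨b0, hb0, hb01⟩ := hone
    obtain ⟨g, hg, hgp, hgl⟩ := exists_unitary_unipotent hF μ (fun a ha => (hμb a ha).2) hμn
    have hg1 : g ≠ 1 := by
      rintro rfl
      have h1 := hgl 1
      rw [glEnd_one, sub_self, Elusive.layerDim, Elusive.layerSpace, pow_one, Submodule.map_zero, finrank_bot] at h1
      have h2 := Multiset.countP_eq_zero.1 h1.symm b0 hb0
      have := (hμb b0 hb0).1
      omega
    obtain ⟨hdet, hns⟩ := order_props hF hn hp hpq hg hgp hg1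
    obtain ⟨W, hWd, hWN, hW⟩ := fixND_dest (h g hg hdet 1 (by rw [glEnd_pow hgp, one_smul]) hns)
    rw [← hWd]
    exact exists_unitary_subpartition hF ((mem_GU_iff g).1 hg) (hnil g hgp) hgl hW hWN
  · intro h g hg hdet z hgz hns
    obtain ⟨w, hw, rfl⟩ := exists_norm_one_root hF (norm_one_of_smul hF hn hg hgz) hp hpq
    obtain ⟨g', hg', hg'p, -, he⟩ := reduce_order hF hg hw hgz hns
    rw [he]
    refine fixND_smul w ?_
    obtain ⟨μ, hμb, hμs, hμA⟩ := exists_unitary_partition hF ((mem_GU_iff g').1 hg') (hnil g' hg'p) ⊤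
      (fun _ _ => trivial) (fun u _ h => hF.eq_zero_of_herm u fun v => h v trivial)
    rw [finrank_top, finrank_fin_fun] at hμs
    obtain ⟨ν, hν, hνs⟩ := h μ hμb hμs
    obtain ⟨A, -, hA, hAN, hAd⟩ := hμA ν hν
    exact fixND_mk (hAd.trans hνs) hAN hA

/-- The criterion for involutions in odd characteristic. -/
theorem two_iff (hF : U.SqField F q) (hq : Odd q) (h2 : (2 : F) ≠ 0) (hn : 0 < n) (hm : m ≤ n) :
    (∀ g : GL (Fin n) F, g ∈ Cfsg.GU n F q → (g : Matrix (Fin n) (Fin n) F).det = 1 →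
      ∀ z : F, glEnd g ^ 2 = z • 1 → (∀ c : F, glEnd g ≠ c • (1 : Module.End F (Fin n → F))) → FixND n m q (glEnd g)) ↔
    (Odd n ∨ Even m ∨ (padicValNat 2 n ≤ padicValNat 2 (q + 1) ∧ q % 4 = 3)) := by
  classical
  haveI : Fact (Nat.Prime 2) := ⟨Nat.prime_two⟩
  constructor
  · intro h
    by_contra hc
    push Not at hc
    obtain ⟨hnodd, hmodd, hv⟩ := hc
    obtain ⟨g, z, hg, hdet, hgz, hns, hz⟩ := exists_nonsquare_unitary hF hq hn (Nat.not_odd_iff_even.1 hnodd)
      (fun h' => hv h'.1 h'.2)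
    obtain ⟨W, hWd, hWN, hW⟩ := fixND_dest (h g hg hdet z hgz hns)
    exact hmodd (hWd ▸ (nonsquare_case hF hq h2 hn hg hz hgz).2.2.2.2 W hWN hW)
  · intro hcond g hg hdet z hgz hns
    by_cases hroot : ∃ w : F, w ^ (q + 1) = 1 ∧ w ^ 2 = z
    · obtain ⟨w, hw, rfl⟩ := hroot
      obtain ⟨g', hg', hg'2, -, he⟩ := reduce_order hF hg hw hgz hns
      rw [he]
      obtain ⟨S, hfix, -⟩ := exists_dualFactors_two hF h2
      exact fixND_smul w (fixND_of_conditions S (c := 1) one_lt_two (Or.inl ⟨hfix, rfl⟩) hm (by simp [Nat.mod_one]) hg' hg'2)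
    · have hno : ∀ b : F, b ^ (q + 1) = 1 → b ^ 2 ≠ z := fun b h1 h2 => hroot ⟨b, h1, h2⟩
      rcases hcond with h | h | h
      · exact absurd (exists_sqrt_of_det hF hq h2 hn (Or.inl h) hg hdet hgz) hroot
      · obtain ⟨W, hWd, hWN, hW⟩ := (nonsquare_case hF hq h2 hn hg hno hgz).2.2.2.1 m hm h
        exact fixND_mk hWd hWN hW
      · exact absurd (exists_sqrt_of_det hF hq h2 hn (Or.inr h) hg hdet hgz) hroot

/-- The criterion for odd primes away from the characteristic. -/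
theorem odd_iff {p r i b c : ℕ} [Fact p.Prime] [CharP F p] [Fact r.Prime] (hcard : Fintype.card F = q ^ 2) (hn : 3 ≤ n)
    (hm : m ≤ n) (hr2 : r ≠ 2) (hrp : r ≠ p) (hrq : ¬ r ∣ q)
    (hi : i = orderOf (q : ZMod r)) (hb : b = if Even i then i / 2 else i)
    (hc : c = if i % 4 = 0 then i else if i % 4 = 2 then i / 2 else 2 * i) (hnc : n % c < m) (hcn : c ≤ n) :
    (∀ g : GL (Fin n) F, g ∈ Cfsg.GU n F q → (g : Matrix (Fin n) (Fin n) F).det = 1 →
      ∀ z : F, glEnd g ^ r = z • 1 → (∀ c : F, glEnd g ≠ c • (1 : Module.End F (Fin n → F))) → FixND n m q (glEnd g)) ↔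
    ((i ≠ 2 ∧ c ≤ m ∧ m % c ≤ n % c) ∨ (i = 2 ∧ (r ∣ m ∨ padicValNat r n ≤ padicValNat r (q + 1)))) := by
  classical
  have hr : r.Prime := Fact.out
  have hF := U.sqField_of_fintype hcard
  have hrF : ¬ r ∣ Fintype.card F := fun h => hrq (hr.dvd_of_dvd_pow (hcard ▸ h))
  have hq0 : (q : ZMod r) ≠ 0 := fun h => hrq ((ZMod.natCast_eq_zero_iff q r).1 h)
  have hi0 : 0 < i := hi ▸ (IsUnit.isOfFinOrder (Ne.isUnit hq0)).orderOf_pos
  have hb' : b = if Odd i then i else i / 2 := by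
    rw [hb]
    rcases Nat.even_or_odd i with h | h
    · rw [if_pos h, if_neg (Nat.not_odd_iff_even.2 h)]
    · rw [if_neg (Nat.not_even_iff_odd.2 h), if_pos h]
  obtain ⟨S, hS⟩ := exists_dualFactors (F := F) hcard hr hr2 hrp hi hb'
  have hb0 : 0 < b := by
    rw [hb']; split_ifs with h
    · exact hi0
    · have := Nat.even_iff.1 (Nat.not_odd_iff_even.1 h); omega
  have hcb : c = if i % 4 = 2 then b else 2 * b := by
    rw [hc, hb']
    rcases Nat.even_or_odd i with h | h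
    · have := Nat.even_iff.1 h
      rw [if_neg (Nat.not_odd_iff_even.2 h)]
      split_ifs <;> omega
    · have := Nat.odd_iff.1 h
      rw [if_pos h]
      split_ifs <;> omega
  have hShyp : ((∀ j, S.τ j = j) ∧ c = b) ∨ ((∀ j, S.τ j ≠ j) ∧ c = 2 * b) := by
    by_cases h4 : i % 4 = 2
    · exact Or.inl ⟨fun j => (hS j).2 h4, by rw [hcb, if_pos h4]⟩
    · exact Or.inr ⟨fun j h => h4 ((hS j).1 h), by rw [hcb, if_neg h4]⟩
  have hi2 : r ∣ q + 1 ↔ i = 2 := by
    haveI : Fact (2 < r) := ⟨by have := hr.two_le; omega⟩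
    constructor
    · intro h
      have h1 : (q : ZMod r) = -1 := by
        rw [← CharP.cast_eq_zero_iff (ZMod r) r, Nat.cast_add, Nat.cast_one, add_eq_zero_iff_eq_neg] at h
        exact h
      rw [hi, h1, orderOf_neg_one, if_neg]
      rw [ringChar.eq (ZMod r) r]; exact hr2
    · intro h
      have h1 : (q : ZMod r) ^ 2 = 1 := by rw [← h, hi]; exact pow_orderOf_eq_one _
      rcases sq_eq_one_iff.1 h1 with h2 | h2
      · rw [hi, h2, orderOf_one] at h; omega
      · rw [← CharP.cast_eq_zero_iff (ZMod r) r, Nat.cast_add, Nat.cast_one, h2, neg_add_cancel]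
  have hc0 : 0 < c := by rw [hcb]; split_ifs <;> omega
  constructor
  · intro h
    by_cases hi2' : i = 2
    · refine Or.inr ⟨hi2', or_iff_not_imp_right.2 fun hv => ?_⟩
      obtain ⟨g, z, hg, hdet, hgz, hns, hz⟩ := exists_bad_unitary (r := r) hF (hi2.2 hi2') (by omega) hr2
        (Nat.lt_of_not_le hv)
      obtain ⟨W, hWd, -, hW⟩ := fixND_dest (h g hg hdet z hgz hns)
      exact hWd ▸ (irreducible_case hF hrF (by omega) hg hz hgz).2.2.1 W hW
    refine Or.inl ⟨hi2', ?_⟩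
    obtain ⟨j₀, hj₀⟩ : S.s.Nonempty := Finset.card_pos.1 (Nat.pos_of_ne_zero fun h => by
      have := S.card_mul; rw [h, zero_mul] at this; have := hr.two_le; omega)
    let J : S.s := ⟨j₀, hj₀⟩
    have hsum : ∑ j, (if j = J ∨ j = S.τ J then b * (n / c) else 0) = c * (n / c) := by
      rw [← Finset.sum_filter]
      by_cases hfx : S.τ J = J
      · rw [show Finset.univ.filter (fun j => j = J ∨ j = S.τ J) = {J} by ext; simp [hfx], Finset.sum_singleton,
          hcb, if_pos ((hS J).1 hfx)]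
      · rw [show Finset.univ.filter (fun j => j = J ∨ j = S.τ J) = {J, S.τ J} by ext; simp,
          Finset.sum_pair (Ne.symm hfx), hcb, if_neg fun h => hfx ((hS J).2 h)]
        ring
    obtain ⟨g, hg, hgr, hga⟩ := S.exists_unitary (n := n) hr.pos (fun j => if j = J ∨ j = S.τ J then b * (n / c) else 0)
      (fun j => by split_ifs <;> simp) (by rw [hsum]; exact Nat.mul_div_le n c)
      (fun j => by
        refine if_congr ⟨fun h' => ?_, fun h' => ?_⟩ rfl rfl
        · rcases h' with h' | h'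
          · exact Or.inr (by rw [← h', S.tau_tau])
          · exact Or.inl (by rw [← S.tau_tau j, h', S.tau_tau])
        · rcases h' with rfl | rfl
          exacts [Or.inr rfl, Or.inl (S.tau_tau J)])
    have hd := S.dims hgr
    simp only [hga, hsum] at hd
    have hnn := Nat.mod_add_div n c
    have hq1 : 0 < n / c := Nat.div_pos hcn hc0
    have hg1 : g ≠ 1 := by
      rintro rfl
      have : glKer (1 : GL (Fin n) F) (X - 1) = ⊤ := by
        rw [glKer, map_sub, aeval_X, map_one, glEnd_one, sub_self, LinearMap.ker_zero]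
      rw [this, finrank_top, finrank_fin_fun] at hd
      have := Nat.mul_pos hc0 hq1
      omega
    obtain ⟨hdet, hns⟩ := order_props hF (by omega) hr (fun h => hi2' (hi2.1 h)) hg hgr hg1
    obtain ⟨e, k, he, hek⟩ := nd_data S hShyp hg hgr (h g hg hdet 1 (by rw [glEnd_pow hgr, one_smul]) hns)
    have hec : e ≤ n % c := by omega
    rcases Nat.eq_zero_or_pos k with rfl | hk
    · rw [mul_zero] at hek
      omega
    have h1 := Nat.le_mul_of_pos_right c hk
    refine ⟨by omega, ?_⟩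
    rw [← hek, Nat.add_mul_mod_self_left, Nat.mod_eq_of_lt (lt_of_le_of_lt hec (Nat.mod_lt n hc0))]
    exact hec
  · intro hcond g hg hdet z hgz hns
    have hmod : m % c ≤ n % c := by
      rcases hcond with ⟨-, -, h⟩ | ⟨h, -⟩
      · exact h
      · have : c = 1 := by rw [hc, h]; rfl
        rw [this, Nat.mod_one]; exact Nat.zero_le _
    by_cases hw : ∃ w : F, w ^ (q + 1) = 1 ∧ w ^ r = z
    · obtain ⟨w, hw, rfl⟩ := hw
      obtain ⟨g', hg', hg'r, -, he⟩ := reduce_order hF hg hw hgz hns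
      rw [he]
      exact fixND_smul w (fixND_of_conditions S hr.one_lt hShyp hm hmod hg' hg'r)
    have hz := norm_one_of_smul hF (by omega) hg hgz
    have hd : r ∣ q + 1 := by
      by_contra hd
      exact hw (exists_norm_one_root hF hz hr hd)
    rcases hcond with ⟨h, -⟩ | ⟨-, h | h⟩
    · exact absurd (hi2.1 hd) h
    · obtain ⟨W, hWd, hWN, hW⟩ := (irreducible_case hF hrF (by omega) hg
        (nonroot_field hF hr hr2 hd hz fun w h1 h2 => hw ⟨w, h1, h2⟩) hgz).2.2.2.1 m hm h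
      exact fixND_mk hWd hWN hW
    · exact absurd (exists_root_of_det hF hrF hr2 hd (by omega) h hg hdet hgz) hw

end

/-- Elements of prime order of PSU_n(q) with no fixed nondegenerate `m`-space. Here `T = PSU_n(q)` (`n ≥ 3`, `(n, q) ≠ (3, 2)`), realised through the matrices of determinant 1 over the field `F` with `q²` elements preserving the Hermitian form `h(u, v) = Σ u_i v_i^q`; an element of `T` of prime order `r` is such a matrix `x` with `x^r` scalar and `x` not scalar. For `r ≠ p` let `i` be the multiplicative order of `q` modulo `r`, `b = i/2` for `i` even and `b = i` for `i` odd, `c = i, i/2, 2i` according as `i ≡ 0, 2 (mod 4)` or `i` odd, and write `k = n mod c`, `ℓ = m mod b`, `ℓ' = m mod c`, `n' = ⌊n/b⌋`, `m' = ⌊m/b⌋`, `s = (r−1)/b`; `(a)_r` is the `r`-part of `a`. Let `1 ≤ m < n/2` and let `r` be a prime dividing the number of nondegenerate `m`-spaces. Then every element of `T` of order `r` fixes a nondegenerate `m`-space if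 and only if one of: (i) `r = p > 2` and every partition of `n` into parts of size at most `p` contains (as a sub-multiset) a partition of `m`; (ii) `r = p = 2` and (`n` is odd or `m` is even); (iii) `r = 2 ≠ p` and (`n` is odd, or `m` is even, or `(q+1)_2 ≥ (n)_2` and `q ≡ 3 (mod 4)`); (iv) `r ≠ p`, `r > 2`, and either `i ≠ 2`, `c ≤ m` and `k ≥ ℓ'`, or `i = 2` and (`r ∣ m` or `(q+1)_r ≥ (n)_r`). -/
theorem result {F : Type*} [Field F] [Fintype F] {p : ℕ} [Fact p.Prime] [CharP F p] {q : ℕ} (hq : Fintype.card F = q ^ 2)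
    (n m : ℕ) (hn : 3 ≤ n) (hT : (n, q) ≠ (3, 2)) (hm : 1 ≤ m) (hmn : 2 * m < n)
    (r : ℕ) [Fact r.Prime]
    (hrΩ : r ∣ Nat.card {W : Submodule F (Fin n → F) // Module.finrank F ↥W = m ∧ (∀ u ∈ W, u ≠ 0 → ∃ v ∈ W, Cfsg.hermForm n F q u v ≠ 0)})
    (i b c : ℕ) (hi : i = orderOf (q : ZMod r)) (hb : b = if Even i then i / 2 else i)
    (hc : c = if i % 4 = 0 then i else if i % 4 = 2 then i / 2 else 2 * i) :
    (∀ x : Matrix.SpecialLinearGroup (Fin n) F, x ∈ Cfsg.SU n F q →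
      (∃ z : F, ((x ^ r : Matrix.SpecialLinearGroup (Fin n) F) : Matrix (Fin n) (Fin n) F) = z • (1 : Matrix (Fin n) (Fin n) F)) →
      (∀ z : F, (x : Matrix (Fin n) (Fin n) F) ≠ z • (1 : Matrix (Fin n) (Fin n) F)) →
      ∃ W : Submodule F (Fin n → F), Module.finrank F ↥W = m ∧ (∀ u ∈ W, u ≠ 0 → ∃ v ∈ W, Cfsg.hermForm n F q u v ≠ 0) ∧
        W.map (Matrix.toLin' (x : Matrix (Fin n) (Fin n) F)) ≤ W) ↔
    ((r = p ∧ 2 < p ∧ (∀ μ : Multiset ℕ, (∀ a ∈ μ, 0 < a ∧ a ≤ p) → μ.sum = n → ∃ ν : Multiset ℕ, ν ≤ μ ∧ ν.sum = m)) ∨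
     (r = p ∧ p = 2 ∧ (Odd n ∨ Even m)) ∨
     (r = 2 ∧ p ≠ 2 ∧ (Odd n ∨ Even m ∨ (padicValNat 2 n ≤ padicValNat 2 (q + 1) ∧ q % 4 = 3))) ∨
     (r ≠ p ∧ 2 < r ∧ ((i ≠ 2 ∧ c ≤ m ∧ m % c ≤ n % c) ∨ (i = 2 ∧ (r ∣ m ∨ padicValNat r n ≤ padicValNat r (q + 1)))))) := by
  classical
  have hF := U.sqField_of_fintype hq
  obtain ⟨e, -, hqe⟩ := FiniteField.card F p
  have hp : p.Prime := Fact.out
  have hpq : p ∣ q := hp.dvd_of_dvd_pow (hq ▸ hqe ▸ dvd_pow_self p e.pos.ne')
  have hpq1 : ¬ p ∣ q + 1 := fun h => hp.not_dvd_one ((Nat.dvd_add_right hpq).1 h)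
  refine (forall_su_iff (n := n) (q := q) (r := r) (FixND n m q)).trans ?_
  by_cases hrp : r = p
  · subst hrp
    rw [unipotent_iff hF (by omega) (by omega) hpq1]
    rcases eq_or_lt_of_le hp.two_le with h2 | h2
    · subst h2
      rw [Elusive.parts_le_two_iff (by omega : m ≤ n)]
      constructor
      · exact fun h => Or.inr (Or.inl ⟨rfl, rfl, h⟩)
      · rintro (⟨-, h, -⟩ | ⟨-, -, h⟩ | ⟨-, h, -⟩ | ⟨h, -⟩)
        · omega
        · exact h
        · exact absurd rfl h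
        · exact absurd rfl h
    · constructor
      · exact fun h => Or.inl ⟨rfl, h2, h⟩
      · rintro (⟨-, -, h⟩ | ⟨-, h, -⟩ | ⟨h, -, -⟩ | ⟨h, -⟩)
        · exact h
        · omega
        · omega
        · exact absurd rfl h
  have hrq : ¬ r ∣ q := fun h => hrp (by
    have hd : r ∣ p ^ (e : ℕ) := hqe ▸ hq ▸ dvd_pow h two_ne_zero
    exact (Nat.prime_dvd_prime_iff_eq (Fact.out : r.Prime) hp).1 ((Fact.out : r.Prime).dvd_of_dvd_pow hd))
  obtain ⟨j, hj1, hj2, hjd⟩ := dvd_card_ND hF (k := m) (Fact.out : r.Prime) (by omega) hrq hrΩ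
  by_cases hr2 : r = 2
  · subst hr2
    have hq2 : Odd q := Nat.not_even_iff_odd.1 fun h => hrq (even_iff_two_dvd.1 h)
    have h2 : (2 : F) ≠ 0 := fun h => hrp
      (CharP.eq F (CharTwo.of_one_ne_zero_of_two_eq_zero one_ne_zero h) ‹CharP F p›)
    rw [two_iff hF hq2 h2 (by omega) (by omega)]
    constructor
    · exact fun h => Or.inr (Or.inr (Or.inl ⟨rfl, Ne.symm hrp, h⟩))
    · rintro (⟨h, -⟩ | ⟨h, -⟩ | ⟨-, -, h⟩ | ⟨-, h, -⟩)
      · exact absurd h hrp
      · exact absurd h hrp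
      · exact h
      · omega
  · obtain ⟨hnc, -, hcn⟩ := mod_lt_of_dvd (order_dvd (Fact.out : r.Prime) hr2 hF.one_lt hi hc hjd) hj1 hj2
    rw [odd_iff hq hn (by omega) hr2 hrp hrq hi hb hc hnc hcn]
    have h3 : 2 < r := by have := (Fact.out : r.Prime).two_le; omega
    constructor
    · exact fun h => Or.inr (Or.inr (Or.inr ⟨hrp, h3, h⟩))
    · rintro (⟨h, -⟩ | ⟨h, -⟩ | ⟨h, -⟩ | ⟨-, -, h⟩)
      · exact absurd h hrp
      · exact absurd h hrp
      · exact absurd h hr2
      · exact h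

end Cfsg.Agent.S5954
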