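import Cfsg.Statements.S5955
import Cfsg.Agent.Elusive.SympBlocks
import Cfsg.Agent.Elusive.SkewPlanes
import Cfsg.Agent.Elusive.SympInvolution
import Cfsg.Agent.SympSub.Count
import Mathlib.LinearAlgebra.Matrix.GeneralLinearGroup.Card
import Mathlib.NumberTheory.LegendreSymbol.QuadraticChar.Basic
-- import your own Cfsg.Agent.* helpers here

set_option autoImplicit false
open scoped MatrixGroups
open Cfsg

namespace Cfsg.Agent.S5955

open Cfsg.Agent.Forms Submodule

variable {F : Type*} [Field F] {d : ℕ}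

/-- The totally isotropic subspaces, counted. -/
theorem card_isoSubspaces [Fintype F] {m : ℕ} (hmd : m ≤ d) :
    Nat.card {W : Submodule F (Fin d ⊕ Fin d → F) // Module.finrank F ↥W = m ∧ (∀ u ∈ W, ∀ v ∈ W, Cfsg.sympForm d F u v = 0)} *
      ∏ i ∈ Finset.range m, (Fintype.card F ^ (m - i) - 1) =
      ∏ i ∈ Finset.range m, (Fintype.card F ^ (2 * (d - i)) - 1) := by
  classical
  have hq0 : 0 < Fintype.card F := Fintype.card_pos
  let T := {W : Submodule F (Fin d ⊕ Fin d → F) // Module.finrank F ↥W = m ∧ (∀ u ∈ W, ∀ v ∈ W, Cfsg.sympForm d F u v = 0)}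
  let g : (Σ W : T, {t : Fin m → W.1 // LinearIndependent F t}) →
      {s : Fin m → (Fin d ⊕ Fin d → F) // SympSub.IsIsoTuple s} := fun p =>
    ⟨fun l => (p.2.1 l : Fin d ⊕ Fin d → F), p.2.2.map' p.1.1.subtype (ker_subtype _), fun a b => by
      rw [sympBil_apply]; exact p.1.2.2 _ (p.2.1 a).2 _ (p.2.1 b).2⟩
  have hspan : ∀ p, span F (Set.range (g p).1) = p.1.1 := fun p => by
    refine eq_of_le_of_finrank_le (span_le.2 ?_) ?_
    · rintro _ ⟨l, rfl⟩; exact (p.2.1 l).2
    · rw [finrank_span_eq_card (g p).2.1, Fintype.card_fin, p.1.2.1]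
  have hg : Function.Bijective g := by
    constructor
    · intro p p' h
      have hW : p.1 = p'.1 := Subtype.ext (by rw [← hspan, h, hspan])
      obtain ⟨W, t, ht⟩ := p
      obtain ⟨W', t', ht'⟩ := p'
      obtain rfl : W = W' := hW
      have : t = t' := funext fun l => Subtype.ext (congrFun (congrArg Subtype.val h) l)
      subst this
      rfl
    · rintro ⟨s, hs⟩
      refine ⟨⟨⟨span F (Set.range s), by rw [finrank_span_eq_card hs.1, Fintype.card_fin], fun u hu v hv => ?_⟩,
        ⟨fun l => ⟨s l, subset_span ⟨l, rfl⟩⟩, LinearIndependent.of_comp (span F (Set.range s)).subtype hs.1⟩⟩, rfl⟩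
      rw [← sympBil_apply]
      have h1 : ∀ l, sympBil d F (s l) v = 0 := fun l => by
        induction hv using span_induction with
        | mem x hx => obtain ⟨l', rfl⟩ := hx; exact hs.2 l l'
        | zero => simp
        | add x y _ _ hx hy => simp [hx, hy]
        | smul a x _ hx => simp [hx]
      induction hu using span_induction with
      | mem x hx => obtain ⟨l, rfl⟩ := hx; exact h1 l
      | zero => simp
      | add x y _ _ hx hy => simp [hx, hy]
      | smul a x _ hx => simp [hx]
  have key := Nat.card_eq_of_bijective g hg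
  rw [Nat.card_sigma, SympSub.card_isoTuple, Finset.sum_congr rfl (g := fun _ => ∏ i ∈ Finset.range m,
      (Fintype.card F ^ m - Fintype.card F ^ i)) (fun W _ => by
      rw [card_linearIndependent (le_of_eq W.2.1.symm), W.2.1]
      exact Fin.prod_univ_eq_prod_range (fun i => Fintype.card F ^ m - Fintype.card F ^ i) m),
    Finset.sum_const, Finset.card_univ, ← Nat.card_eq_fintype_card, smul_eq_mul] at key
  have e1 : ∏ i ∈ Finset.range m, (Fintype.card F ^ m - Fintype.card F ^ i) =
      (∏ i ∈ Finset.range m, Fintype.card F ^ i) * ∏ i ∈ Finset.range m, (Fintype.card F ^ (m - i) - 1) := by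
    rw [← Finset.prod_mul_distrib]
    refine Finset.prod_congr rfl fun i hi => ?_
    rw [Finset.mem_range] at hi
    rw [Nat.mul_sub, mul_one, ← pow_add, Nat.add_sub_cancel' hi.le]
  have e2 : ∏ i ∈ Finset.range m, (Fintype.card F ^ (2 * d - i) - Fintype.card F ^ i) =
      (∏ i ∈ Finset.range m, Fintype.card F ^ i) * ∏ i ∈ Finset.range m, (Fintype.card F ^ (2 * (d - i)) - 1) := by
    rw [← Finset.prod_mul_distrib]
    refine Finset.prod_congr rfl fun i hi => ?_
    rw [Finset.mem_range] at hi
    rw [Nat.mul_sub, mul_one, ← pow_add, show i + 2 * (d - i) = 2 * d - i by omega]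
  rw [e1, e2, mul_left_comm] at key
  exact Nat.eq_of_mul_eq_mul_left (Finset.prod_pos fun i _ => pow_pos hq0 i) key

/-- A prime dividing the number of totally isotropic subspaces divides some `q ^ (2 j) - 1`. -/
theorem exists_dvd_pow_sub_one [Fintype F] {m r : ℕ} [Fact r.Prime] (hmd : m ≤ d)
    (h : r ∣ Nat.card {W : Submodule F (Fin d ⊕ Fin d → F) // Module.finrank F ↥W = m ∧ (∀ u ∈ W, ∀ v ∈ W, Cfsg.sympForm d F u v = 0)}) :
    ¬ r ∣ Fintype.card F ∧ ∃ j, d < j + m ∧ j ≤ d ∧ 0 < j ∧ r ∣ Fintype.card F ^ (2 * j) - 1 := by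
  have hr := (Fact.out : r.Prime)
  have h' := (h.mul_right _).trans (dvd_of_eq (card_isoSubspaces (F := F) hmd))
  obtain ⟨i, hi, hi'⟩ := (Prime.dvd_finsetProd_iff hr.prime _).1 h'
  rw [Finset.mem_range] at hi
  refine ⟨fun hq => ?_, d - i, by omega, by omega, by omega, hi'⟩
  have h1 : r ∣ Fintype.card F ^ (2 * (d - i)) := dvd_pow hq (by omega)
  have h2 := Nat.dvd_sub h1 hi'
  rw [Nat.sub_sub_self (Nat.one_le_pow _ _ Fintype.card_pos)] at h2
  exact hr.ne_one (Nat.dvd_one.1 h2)

/-- A scalar symplectic matrix has square one. -/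
theorem mul_self_of_scalar (hd : 0 < d) (y : Matrix.symplecticGroup (Fin d) F) {z : F}
    (hz : (y : Matrix (Fin d ⊕ Fin d) (Fin d ⊕ Fin d) F) = z • (1 : Matrix (Fin d ⊕ Fin d) (Fin d ⊕ Fin d) F)) :
    z * z = 1 := by
  have h1 : sympBil d F (Pi.single (Sum.inr ⟨0, hd⟩) 1) (Pi.single (Sum.inl ⟨0, hd⟩) 1) = 1 := by
    simp [sympBil_apply, sympForm_apply, Pi.single_apply]
  have := Elusive.sympBil_toLin' y (Pi.single (Sum.inr ⟨0, hd⟩) 1) (Pi.single (Sum.inl ⟨0, hd⟩) 1)
  rw [hz, Matrix.toLin'_apply, Matrix.toLin'_apply, Matrix.smul_mulVec, Matrix.one_mulVec, Matrix.smul_mulVec,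
    Matrix.one_mulVec, map_smul, map_smul, LinearMap.smul_apply, h1] at this
  simpa using this

/-- An element of odd prime order is not scalar. -/
theorem not_scalar (hd : 0 < d) {r : ℕ} (hodd : Odd r) {y : Matrix.symplecticGroup (Fin d) F} (hy : y ^ r = 1)
    (h1 : y ≠ 1) : ∀ z : F, (y : Matrix (Fin d ⊕ Fin d) (Fin d ⊕ Fin d) F) ≠ z • (1 : Matrix (Fin d ⊕ Fin d) (Fin d ⊕ Fin d) F) := by
  intro z hz
  have hzz := mul_self_of_scalar hd y hz
  refine h1 (Subtype.ext ?_)
  obtain ⟨w, rfl⟩ := hodd
  have h := congrArg Subtype.val hy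
  rw [SubmonoidClass.coe_pow, hz, smul_pow, one_pow, pow_succ, pow_mul, sq, hzz, one_pow, one_mul,
    OneMemClass.coe_one, ← hz] at h
  rw [h]; rfl

/-- Nonsquare `-1`: no invariant subspace of odd dimension for a map squaring to `-1`. -/
theorem even_finrank_of_sq_neg_one {V : Type*} [AddCommGroup V] [Module F V] (hsq : ¬ IsSquare (-1 : F))
    {f : Module.End F V} (hf : ∀ v, f (f v) = -v) {W : Submodule F V} [FiniteDimensional F W]
    (hW : ∀ v ∈ W, f v ∈ W) : Even (Module.finrank F W) := by
  by_contra h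
  refine hsq ⟨LinearMap.det (f.restrict hW), ?_⟩
  have h2 : (f.restrict hW).comp (f.restrict hW) = (-1 : F) • LinearMap.id := LinearMap.ext fun v => Subtype.ext (by
    simp [hf])
  rw [← LinearMap.det_comp, h2, LinearMap.det_smul, LinearMap.det_id, mul_one,
    (Nat.not_even_iff_odd.1 h).neg_one_pow]

variable [Fintype F]

/-- Involutions and elements with square `-1` fix totally isotropic subspaces. -/
theorem exists_iso_of_sq (hd : 0 < d) (h2 : (2 : F) ≠ 0) {m : ℕ} (hmd : m ≤ d) (hor : Even m ∨ Fintype.card F % 4 = 1)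
    {f : Module.End F (Fin d ⊕ Fin d → F)} (hB : ∀ u v, sympBil d F (f u) (f v) = sympBil d F u v) {z : F}
    (hz : z * z = 1) (hff : ∀ v, f (f v) = z • v) :
    ∃ W : Submodule F (Fin d ⊕ Fin d → F), Module.finrank F W = m ∧ Elusive.IsoOn (sympBil d F) W ∧ ∀ v ∈ W, f v ∈ W := by
  classical
  set B := sympBil d F with hBdef
  have hA : B.IsAlt := sympBil_isAlt
  have hV : Module.finrank F (Fin d ⊕ Fin d → F) = 2 * d := by
    rw [Module.finrank_fintype_fun_eq_card, Fintype.card_sum, Fintype.card_fin, two_mul]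
  have hneg : ∀ u v, B u v = -B u v → B u v = 0 := fun u v h => by
    have : (2 : F) * B u v = 0 := by rw [two_mul]; nth_rewrite 1 [h]; exact neg_add_cancel _
    exact (mul_eq_zero.1 this).resolve_left h2
  rcases mul_self_eq_one_iff.1 hz with rfl | rfl
  · -- eigenspaces of an involution
    let C : Submodule F (Fin d ⊕ Fin d → F) := LinearMap.ker (f - 1)
    let C' : Submodule F (Fin d ⊕ Fin d → F) := LinearMap.ker (f + 1)
    have hC : ∀ {v}, v ∈ C ↔ f v = v := fun {v} => Elusive.mem_ker_sub_one
    have hC' : ∀ {v}, v ∈ C' ↔ f v = -v := fun {v} => by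
      rw [LinearMap.mem_ker, LinearMap.add_apply, Module.End.one_apply, add_eq_zero_iff_eq_neg]
    have hsplit : ∀ v, v + f v ∈ C ∧ v - f v ∈ C' := fun v => by
      constructor
      · rw [hC, map_add, hff, one_smul, add_comm]
      · rw [hC', map_sub, hff, one_smul, neg_sub]
    have ho : ∀ u ∈ C, ∀ v ∈ C', B u v = 0 := fun u hu v hv => hneg u v (by
      conv_lhs => rw [← hB, hC.1 hu, hC'.1 hv, map_neg])
    have hsup : C ⊔ C' = ⊤ := eq_top_iff'.2 fun v => by
      have : v = (2 : F)⁻¹ • (v + f v) + (2 : F)⁻¹ • (v - f v) := by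
        rw [← smul_add, show v + f v + (v - f v) = (2 : F) • v by rw [two_smul]; abel, smul_smul, inv_mul_cancel₀ h2, one_smul]
      rw [this]
      exact add_mem (mem_sup_left (C.smul_mem _ (hsplit v).1)) (mem_sup_right (C'.smul_mem _ (hsplit v).2))
    have hdis : Disjoint C C' := disjoint_def.2 fun v hv hv' => by
      have h : (2 : F) • v = 0 := by
        rw [two_smul]; nth_rewrite 1 [← hC.1 hv]; rw [hC'.1 hv', neg_add_cancel]
      exact (smul_eq_zero.1 h).resolve_left h2
    have hCN : Elusive.NonDegOn B C := fun u hu h => sympBil_nondegenerate.1 u fun v => by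
      obtain ⟨a, ha, b, hb, rfl⟩ := mem_sup.1 (hsup ▸ mem_top : v ∈ C ⊔ C')
      rw [map_add, h a ha, ho u hu b hb, add_zero]
    have hC'N : Elusive.NonDegOn B C' := fun u hu h => sympBil_nondegenerate.1 u fun v => by
      obtain ⟨a, ha, b, hb, rfl⟩ := mem_sup.1 (hsup ▸ mem_top : v ∈ C ⊔ C')
      rw [map_add, h b hb, Elusive.alt_symm_zero hA (ho a ha u hu), zero_add]
    have hsum := finrank_sup_add_finrank_inf_eq C C'
    rw [hsup, hdis.eq_bot, finrank_bot, finrank_top, hV, add_zero] at hsum
    obtain ⟨a', ha'⟩ := Elusive.even_finrank_of_nonDegOn hA hCN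
    obtain ⟨X, hXC, hX, hXd⟩ := Elusive.exists_isoOn hA hCN (a := min m a') (by omega)
    obtain ⟨Y, hYC, hY, hYd⟩ := Elusive.exists_isoOn hA hC'N (a := m - min m a') (by omega)
    refine ⟨X ⊔ Y, ?_, Elusive.isoOn_sup hA hX hY (fun x hx y hy => ho x (hXC hx) y (hYC hy)), ?_⟩
    · have := finrank_sup_add_finrank_inf_eq X Y
      rw [(hdis.mono hXC hYC).eq_bot, finrank_bot, add_zero, hXd, hYd] at this
      omega
    · intro v hv
      obtain ⟨a, ha, b, hb, rfl⟩ := mem_sup.1 hv
      rw [map_add, hC.1 (hXC ha), hC'.1 (hYC hb)]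
      exact add_mem (mem_sup_left ha) (mem_sup_right (Y.neg_mem hb))
  · by_cases hq : Fintype.card F % 4 = 1
    · -- totally isotropic eigenspaces
      obtain ⟨ι, hι⟩ := FiniteField.isSquare_neg_one_iff.2 (show Fintype.card F % 4 ≠ 3 by omega)
      have hι0 : ι ≠ 0 := fun h => by simp [h] at hι
      have hTI : ∀ w : F, w * w = -1 → Elusive.IsoOn B (LinearMap.ker (f - w • 1)) := fun w hw u hu v hv => hneg u v (by
        rw [LinearMap.mem_ker, LinearMap.sub_apply, LinearMap.smul_apply, Module.End.one_apply, sub_eq_zero] at hu hv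
        conv_lhs => rw [← hB, hu, hv, map_smul, map_smul, LinearMap.smul_apply, smul_eq_mul, smul_eq_mul, ← mul_assoc, hw,
          neg_one_mul])
      have hsup : LinearMap.ker (f - ι • 1) ⊔ LinearMap.ker (f - (-ι) • 1) = ⊤ := eq_top_iff'.2 fun v => by
        have h1 : f v + ι • v ∈ LinearMap.ker (f - ι • 1) := by
          simp only [LinearMap.mem_ker, LinearMap.sub_apply, LinearMap.smul_apply, Module.End.one_apply, map_add, map_smul,
            hff]
          match_scalars <;> first | ring1 | linear_combination hι | linear_combination -hι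
        have h2' : f v - ι • v ∈ LinearMap.ker (f - (-ι) • 1) := by
          simp only [LinearMap.mem_ker, LinearMap.sub_apply, LinearMap.smul_apply, Module.End.one_apply, map_sub, map_smul,
            hff]
          match_scalars <;> first | ring1 | linear_combination hι | linear_combination -hι
        have h3 : (2 * ι)⁻¹ • ((f v + ι • v) - (f v - ι • v)) = v := by
          rw [show (f v + ι • v) - (f v - ι • v) = (2 * ι) • v by rw [mul_smul, two_smul]; abel, smul_smul,
            inv_mul_cancel₀ (mul_ne_zero h2 hι0), one_smul]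
        rw [← h3]
        exact Submodule.smul_mem _ _ (sub_mem (mem_sup_left h1) (mem_sup_right h2'))
      have hsum := finrank_sup_add_finrank_inf_eq (LinearMap.ker (f - ι • 1)) (LinearMap.ker (f - (-ι) • 1))
      rw [hsup, finrank_top, hV] at hsum
      have h1 := Elusive.two_mul_finrank_le le_top (Elusive.nonDegOn_top sympBil_nondegenerate) (hTI (-ι) (by
        rw [neg_mul_neg, ← hι]))
      rw [finrank_top, hV] at h1
      let b := Module.finBasis F ↥(LinearMap.ker (f - ι • 1))
      have hm' : m ≤ Module.finrank F ↥(LinearMap.ker (f - ι • 1)) := by omega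
      let v : Fin m → (Fin d ⊕ Fin d → F) := fun l => (b (Fin.castLE hm' l) : Fin d ⊕ Fin d → F)
      have hvli : LinearIndependent F v :=
        (b.linearIndependent.map' _ (ker_subtype _)).comp _ (Fin.castLE_injective hm')
      have hle : span F (Set.range v) ≤ LinearMap.ker (f - ι • 1) := span_le.2 (by rintro _ ⟨l, rfl⟩; exact (b _).2)
      refine ⟨span F (Set.range v), by rw [finrank_span_eq_card hvli, Fintype.card_fin],
        fun x hx y hy => hTI ι hι.symm x (hle hx) y (hle hy), fun x hx => ?_⟩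
      have := hle hx
      rw [LinearMap.mem_ker, LinearMap.sub_apply, LinearMap.smul_apply, Module.End.one_apply, sub_eq_zero] at this
      rw [this]
      exact Submodule.smul_mem _ _ hx
    · -- planes paired with opposite signs
      obtain ⟨l, hl⟩ := hor.resolve_right hq
      have hq2 : Fintype.card F % 2 = 1 := by
        rcases Nat.mod_two_eq_zero_or_one (Fintype.card F) with h | h
        · rw [← FiniteField.even_card_iff_char_two] at h
          exfalso
          have := ringChar.spec F 2
          rw [h] at this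
          exact h2 (by exact_mod_cast this.2 dvd_rfl)
        · exact h
      have hS : ∀ u v, B (f u) v = -B u (f v) := fun u v => by
        have h := hB u (f v)
        rw [hff, neg_one_smul, map_neg] at h
        rw [← h, neg_neg]
      let lam : Fin (2 * l) → F := fun j => if Even (j : ℕ) then 1 else -1
      have hlam : ∀ j, lam j ≠ 0 := fun j => by
        simp only [lam]; split_ifs <;> simp
      obtain ⟨u, -, hu⟩ := Elusive.exists_skew_planes hq2 hA hS (neg_ne_zero.2 one_ne_zero) hff (2 * l) lam hlam ⊤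
        (fun _ _ => trivial) (Elusive.nonDegOn_top sympBil_nondegenerate) (by rw [finrank_top, hV]; omega)
      let e₀ : Fin l → Fin (2 * l) := fun k => ⟨2 * (k : ℕ), by omega⟩
      let e₁ : Fin l → Fin (2 * l) := fun k => ⟨2 * (k : ℕ) + 1, by omega⟩
      let v : Fin l → (Fin d ⊕ Fin d → F) := fun k => u (e₀ k) + u (e₁ k)
      have hl0 : ∀ k, lam (e₀ k) = 1 := fun k => if_pos (even_two_mul _)
      have hl1 : ∀ k, lam (e₁ k) = -1 := fun k => if_neg (Nat.not_even_two_mul_add_one _)
      have hne : ∀ k k', e₀ k ≠ e₁ k' := fun k k' h => by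
        have := congrArg Fin.val h; simp only [e₀, e₁] at this; omega
      have hei : ∀ k k', e₀ k = e₀ k' ↔ k = k' := fun k k' => by simp [e₀, Fin.ext_iff]
      have hei' : ∀ k k', e₁ k = e₁ k' ↔ k = k' := fun k k' => by simp [e₁, Fin.ext_iff]
      have hvS : ∀ k k', B (v k) (f (v k')) = 0 := fun k k' => by
        simp only [v, map_add, LinearMap.add_apply, (hu _ _).1, if_neg (hne _ _), if_neg (Ne.symm (hne _ _)), hl0, hl1,
          hei, hei', add_zero, zero_add]
        split_ifs <;> simp
      have hvv : ∀ k k', B (v k) (v k') = 0 := fun k k' => by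
        simp only [v, map_add, LinearMap.add_apply, (hu _ _).2, add_zero]
      let w : Fin l ⊕ Fin l → (Fin d ⊕ Fin d → F) := Sum.elim v fun k => f (v k)
      have hww : ∀ a b, B (w a) (w b) = 0 := by
        rintro (a | a) (b | b) <;> simp only [w, Sum.elim_inl, Sum.elim_inr]
        · exact hvv a b
        · exact hvS a b
        · exact Elusive.alt_symm_zero hA (hvS b a)
        · rw [hB]; exact hvv a b
      have hwli : LinearIndependent F w := by
        rw [Fintype.linearIndependent_iff]
        intro c hc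
        have key : ∀ k, c (Sum.inl k) = 0 ∧ c (Sum.inr k) = 0 := by
          intro k
          have h1 := congrArg (fun x => B (f (u (e₀ k))) x) hc
          have h2' := congrArg (fun x => B (u (e₀ k)) x) hc
          simp only [map_sum, map_smul, map_zero, Fintype.sum_sum_type, w, Sum.elim_inl, Sum.elim_inr, v, map_add,
            hB, hS, hff, (hu _ _).1, (hu _ _).2, if_neg (hne _ _), hl0, hei, add_zero, smul_eq_mul, mul_zero,
            Finset.sum_const_zero, mul_neg, mul_ite, mul_one, Finset.sum_neg_distrib, Finset.sum_ite_eq,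
            Finset.mem_univ, if_true, zero_add, neg_zero, neg_eq_zero] at h1 h2'
          exact ⟨h1, h2'⟩
        rintro (k | k)
        exacts [(key k).1, (key k).2]
      refine ⟨span F (Set.range w), ?_, ?_, ?_⟩
      · rw [finrank_span_eq_card hwli, Fintype.card_sum, Fintype.card_fin, hl]
      · intro x hx y hy
        have h1 : ∀ a, B (w a) y = 0 := fun a => by
          induction hy using span_induction with
          | mem y hy => obtain ⟨b, rfl⟩ := hy; exact hww a b
          | zero => simp
          | add a b _ _ ha hb => simp [ha, hb]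
          | smul a b _ hb => simp [hb]
        induction hx using span_induction with
        | mem x hx => obtain ⟨a, rfl⟩ := hx; exact h1 a
        | zero => simp
        | add a b _ _ ha hb => simp [ha, hb]
        | smul a b _ hb => simp [hb]
      · intro x hx
        induction hx using span_induction with
        | mem x hx =>
          obtain ⟨(a | a), rfl⟩ := hx
          · exact subset_span ⟨Sum.inr a, rfl⟩
          · show f (f (v a)) ∈ _
            rw [hff]
            exact Submodule.smul_mem _ _ (subset_span ⟨Sum.inl a, rfl⟩)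
        | zero => simp
        | add a b _ _ ha hb => rw [map_add]; exact add_mem ha hb
        | smul a b _ hb => rw [map_smul]; exact Submodule.smul_mem _ _ hb

/-- Elements of prime order of PSp_n(q) with no fixed totally isotropic `m`-space. Here `T = PSp_n(q)` with `n = 2d ≥ 4`, `(n, q) ≠ (4, 2)`, realised through the symplectic matrices over the field `F` with `q` elements (preserving the standard alternating form); an element of `T` of prime order `r` is such a matrix `x` with `x^r` scalar and `x` not scalar. For `r ≠ p` let `i` be the multiplicative order of `q` modulo `r`, `c = i` for `i` even and `c = 2i` for `i` odd, and write `k = n mod c`, `ℓ = m mod i`, `ℓ' = m mod c`, `n' = ⌊n/i⌋`, `m' = ⌊m/i⌋`, `t = (r−1)/i`. Let `1 ≤ m ≤ n/2` and let `r` be a prime dividing the number of totally isotropic `m`-spaces. Then every element of `T` of order `r` fixes a totally isotropic `m`-space if and only if either (i) `r = 2 ≠ p` and (`m` is even or `q ≡ 1 (mod 4)`); or (ii) `r ≠ p`, `r > 2`, `i ≤ m`,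 `k ≥ 2ℓ`, and (`i` is odd or `n' − 2m' ≥ t`). -/
theorem result {F : Type*} [Field F] [Fintype F] {p : ℕ} [Fact p.Prime] [CharP F p] {q : ℕ} (hq : Fintype.card F = q)
    (d m : ℕ) (hd : 2 ≤ d) (hT : (d, q) ≠ (2, 2)) (hm : 1 ≤ m) (hmd : m ≤ d)
    (r : ℕ) [Fact r.Prime]
    (hrΩ : r ∣ Nat.card {W : Submodule F (Fin d ⊕ Fin d → F) // Module.finrank F ↥W = m ∧ (∀ u ∈ W, ∀ v ∈ W, Cfsg.sympForm d F u v = 0)})
    (i c : ℕ) (hi : i = orderOf (q : ZMod r)) (hc : c = if Even i then i else 2 * i) :
    (∀ x : ↥(Matrix.symplecticGroup (Fin d) F),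
      (∃ z : F, ((x ^ r : ↥(Matrix.symplecticGroup (Fin d) F)) : Matrix (Fin d ⊕ Fin d) (Fin d ⊕ Fin d) F) = z • (1 : Matrix (Fin d ⊕ Fin d) (Fin d ⊕ Fin d) F)) →
      (∀ z : F, (x : Matrix (Fin d ⊕ Fin d) (Fin d ⊕ Fin d) F) ≠ z • (1 : Matrix (Fin d ⊕ Fin d) (Fin d ⊕ Fin d) F)) →
      ∃ W : Submodule F (Fin d ⊕ Fin d → F), Module.finrank F ↥W = m ∧ (∀ u ∈ W, ∀ v ∈ W, Cfsg.sympForm d F u v = 0) ∧
        W.map (Matrix.toLin' (x : Matrix (Fin d ⊕ Fin d) (Fin d ⊕ Fin d) F)) ≤ W) ↔
    ((r = 2 ∧ p ≠ 2 ∧ (Even m ∨ q % 4 = 1)) ∨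
     (r ≠ p ∧ 2 < r ∧ i ≤ m ∧ 2 * (m % i) ≤ (2 * d) % c ∧ (Odd i ∨ (r - 1) / i + 2 * (m / i) ≤ (2 * d) / i))) := by
  classical
  subst hq
  have hr := (Fact.out : r.Prime)
  obtain ⟨hrq, j₀, hj₀m, hj₀d, hj₀, hj₀r⟩ := exists_dvd_pow_sub_one hmd hrΩ
  have hrp : r ≠ p := by
    obtain ⟨e, -, he⟩ := FiniteField.card F p
    rintro rfl
    exact hrq (he ▸ dvd_pow_self r e.pos.ne')
  set B := sympBil d F with hBdef
  have hA : B.IsAlt := sympBil_isAlt
  have hV : Module.finrank F (Fin d ⊕ Fin d → F) = 2 * d := by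
    rw [Module.finrank_fintype_fun_eq_card, Fintype.card_sum, Fintype.card_fin, two_mul]
  rcases eq_or_ne r 2 with rfl | hr2
  · -- involutions
    have hp : p ≠ 2 := hrp.symm
    have h2 : (2 : F) ≠ 0 := fun h => hp ((Nat.prime_dvd_prime_iff_eq (Fact.out : p.Prime) Nat.prime_two).1
      ((CharP.cast_eq_zero_iff F p 2).1 (by exact_mod_cast h)))
    have hodd : Fintype.card F % 2 = 1 := by
      rcases Nat.mod_two_eq_zero_or_one (Fintype.card F) with h | h
      · exact absurd (Nat.dvd_of_mod_eq_zero h) hrq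
      · exact h
    constructor
    · intro h
      refine Or.inl ⟨rfl, hp, ?_⟩
      by_contra hcon
      push Not at hcon
      have hsq : ¬ IsSquare (-1 : F) := by
        rw [FiniteField.isSquare_neg_one_iff]; omega
      let x : Matrix.symplecticGroup (Fin d) F := ⟨Matrix.J (Fin d) F, SymplecticGroup.J_mem _ _⟩
      obtain ⟨W, hWd, -, hW⟩ := h x ⟨-1, by
          rw [SubmonoidClass.coe_pow, sq, neg_one_smul]; exact Matrix.J_squared (Fin d) F⟩ (fun z hz => by
          have := congrFun (congrFun hz (Sum.inr ⟨0, by omega⟩)) (Sum.inl ⟨0, by omega⟩)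
          simp [x, Matrix.J] at this)
      refine hcon.1 (hWd ▸ even_finrank_of_sq_neg_one hsq
        (f := Matrix.toLin' (Matrix.J (Fin d) F)) (fun v => ?_) fun v hv => hW (mem_map_of_mem hv))
      rw [Matrix.toLin'_apply, Matrix.toLin'_apply, Matrix.mulVec_mulVec, Matrix.J_squared, Matrix.neg_mulVec,
        Matrix.one_mulVec]
    · intro h x ⟨z, hz⟩ _
      obtain ⟨-, -, hor⟩ | ⟨-, h', -⟩ := h
      swap; · omega
      obtain ⟨hiso, hff, hzz⟩ := Elusive.symp_sq_scalar (by omega) x hz
      obtain ⟨W, hWd, hWI, hW⟩ := exists_iso_of_sq (by omega) h2 hmd hor hiso hzz hff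
      exact ⟨W, hWd, fun u hu v hv => by rw [← sympBil_apply]; exact hWI u hu v hv, map_le_iff_le_comap.2 hW⟩
  -- odd primes
  have hrodd : Odd r := hr.odd_of_ne_two hr2
  have h3 : 2 < r := lt_of_le_of_ne hr.two_le (Ne.symm hr2)
  have hi0 : 0 < i := hi ▸ Elusive.orderOf_pos_of_not_dvd hrq
  have hir : i ∣ r - 1 := hi ▸ ZMod.orderOf_dvd_card_sub_one (fun h => hrq ((ZMod.natCast_eq_zero_iff _ _).1 h))
  have ht0 : 0 < (r - 1) / i := Nat.div_pos (Nat.le_of_dvd (by omega) hir) hi0
  have hc0 : 0 < c := by rw [hc]; split_ifs <;> omega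
  -- `c` divides `2 j₀`
  have hcj : c ∣ 2 * j₀ := by
    rw [← ZMod.natCast_eq_zero_iff, Nat.cast_sub (Nat.one_le_pow _ _ Fintype.card_pos), Nat.cast_pow, Nat.cast_one,
      sub_eq_zero, ← orderOf_dvd_iff_pow_eq_one, ← hi] at hj₀r
    rw [hc]
    split_ifs with he
    · exact hj₀r
    · exact mul_dvd_mul_left 2 ((Nat.coprime_two_right.2 (Nat.not_even_iff_odd.1 he)).dvd_of_dvd_mul_left hj₀r)
  have hk2m : (2 * d) % c < 2 * m := by
    obtain ⟨w, hw⟩ := hcj
    have : (2 * d) % c = (2 * (d - j₀)) % c := by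
      rw [show 2 * d = 2 * (d - j₀) + c * w by omega, Nat.add_mul_mod_self_left]
    rw [this]
    have := Nat.mod_le (2 * (d - j₀)) c
    omega
  have hc2d : c ≤ 2 * d := (Nat.le_of_dvd (by omega) hcj).trans (by omega)
  constructor
  · intro h
    refine Or.inr ⟨hrp, h3, ?_⟩
    -- an element moving as much as possible
    set j := 2 * d / c with hjdef
    have hjc : j * c ≤ 2 * d := Nat.div_mul_le_self _ _
    have hj0 : 0 < j := Nat.div_pos hc2d hc0
    obtain ⟨x, hx, hxC⟩ := Elusive.exists_moving_element hrq hr2 hi hc hjc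
    have hx1 : x ≠ 1 := by
      rintro rfl
      rw [OneMemClass.coe_one, Matrix.toLin'_one, ← Module.End.one_eq_id, sub_self, LinearMap.ker_zero, finrank_top, hV] at hxC
      have := Nat.mul_pos hj0 hc0
      omega
    obtain ⟨W, hWd, hWI, hW⟩ := h x ⟨1, by rw [hx, OneMemClass.coe_one, one_smul]⟩ (not_scalar (by omega) hrodd hx hx1)
    set f := Matrix.toLin' (x : Matrix (Fin d ⊕ Fin d) (Fin d ⊕ Fin d) F)
    have hfr : f ^ r = 1 := Elusive.toLin'_pow_of_pow_eq_one hx
    have hW' : ∀ v ∈ W, f v ∈ W := fun v hv => hW (mem_map_of_mem hv)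
    obtain ⟨Y, -, hY, hYC, -, hsum⟩ := Elusive.exists_fixed_moving hfr hrq hW'
    obtain ⟨b, hb⟩ := hi ▸ Elusive.dvd_finrank_moving hfr hrq hY hYC
    set a := Module.finrank F ↥(W ⊓ LinearMap.ker (f - 1))
    have hCN : Elusive.NonDegOn B (LinearMap.ker (f - 1)) := by
      have := Elusive.nonDegOn_inf_ker hA (Elusive.sympBil_toLin' x) hfr hrq (W := ⊤) (fun _ _ => trivial)
        (Elusive.nonDegOn_top sympBil_nondegenerate)
      rwa [top_inf_eq] at this
    have ha := Elusive.two_mul_finrank_le inf_le_right hCN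
      (X := W ⊓ LinearMap.ker (f - 1)) fun u hu v hv => by rw [sympBil_apply]; exact hWI u hu.1 v hv.1
    have hk : 2 * d - j * c = (2 * d) % c := by
      have := Nat.div_add_mod' (2 * d) c
      rw [← hjdef] at this
      omega
    rw [hxC, hk] at ha
    rw [hWd, hb] at hsum
    have him : i ≤ m := by
      rcases Nat.eq_zero_or_pos b with rfl | hb0
      · rw [Nat.mul_zero] at hsum; omega
      · have := Nat.le_mul_of_pos_right i hb0; omega
    have hl : 2 * (m % i) ≤ (2 * d) % c := by
      rw [hsum, Nat.add_mul_mod_self_left]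
      have := Nat.mod_le a i
      omega
    refine ⟨him, hl, (Nat.even_or_odd i).symm.imp_right fun hev => ?_⟩
    -- few classes of blocks
    have hci : c = i := by rw [hc, if_pos hev]
    rw [hci] at hjdef hk2m
    by_contra hcon
    have hjd : j * i ≤ 2 * d := by rw [← hci]; exact hjc
    have ht'0 : 0 < min ((r - 1) / i) j := lt_min ht0 hj0
    obtain ⟨y, hy, hy1, hsmall⟩ := Elusive.exists_small_isotropic (d := d) hrq hi hev (j := min ((r - 1) / i) j)
      (t' := min ((r - 1) / i) j) ((Nat.mul_le_mul_right i (min_le_right _ _)).trans hjd) ht'0 le_rfl (min_le_left _ _)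
      (by rw [Nat.sub_self]; exact Even.zero)
    obtain ⟨U, hUd, hUI, hU⟩ := h y ⟨1, by rw [hy, OneMemClass.coe_one, one_smul]⟩ (not_scalar (by omega) hrodd hy hy1)
    have h2' := hsmall U (fun u hu v hv => by rw [sympBil_apply]; exact hUI u hu v hv) fun v hv => hU (mem_map_of_mem hv)
    rw [hUd] at h2'
    have hdm := Nat.div_add_mod' (2 * d) i
    have hdl := Nat.mod_lt (2 * d) hi0
    have hmm := Nat.div_add_mod' m i
    rw [← hjdef] at hdm hcon
    rcases le_total ((r - 1) / i) j with htj | htj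
    · rw [min_eq_left htj] at h2'
      have : ((r - 1) / i + 2 * (m / i)) * i < (j + 1) * i := by
        rw [Nat.add_mul, Nat.mul_assoc, Nat.add_mul j, Nat.one_mul]; omega
      exact hcon (Nat.le_of_lt_succ (Nat.lt_of_mul_lt_mul_right this))
    · rw [min_eq_right htj] at h2'
      omega
  · intro h x ⟨z, hz⟩ _
    obtain ⟨h', -⟩ | ⟨-, -, him, hl, hor⟩ := h
    · exact absurd h' hr2
    have hzz := mul_self_of_scalar (by omega) (x ^ r) hz
    set g := Matrix.toLin' (x : Matrix (Fin d ⊕ Fin d) (Fin d ⊕ Fin d) F) with hg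
    set f : Module.End F (Fin d ⊕ Fin d → F) := z • g with hfdef
    have hfB : ∀ u v, B (f u) (f v) = B u v := fun u v => by
      rw [hfdef, LinearMap.smul_apply, LinearMap.smul_apply, map_smul, map_smul, LinearMap.smul_apply, hg,
        Elusive.sympBil_toLin', smul_smul, hzz, one_smul]
    have hfr : f ^ r = 1 := by
      have hgr : g ^ r = z • 1 := by
        rw [hg, ← Matrix.toLin'_pow, ← SubmonoidClass.coe_pow, hz, map_smul, Matrix.toLin'_one]; rfl
      obtain ⟨w, hw⟩ := hrodd
      rw [hfdef, smul_pow, hgr, smul_smul, ← pow_succ, hw, show 2 * w + 1 + 1 = 2 * (w + 1) by ring, pow_mul, sq, hzz,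
        one_pow, one_smul]
    obtain ⟨M, -, hM, hMN, hCMo, hCM, -, -, j, hj, hMd⟩ := Elusive.exists_moving_part hA hfB hfr hrq hr2 (W := ⊤)
      (fun _ _ => trivial) (Elusive.nonDegOn_top sympBil_nondegenerate) hi hc
    rw [finrank_top, hV, top_inf_eq] at hj
    set φ := Module.finrank F ↥(LinearMap.ker (f - 1))
    have hCN : Elusive.NonDegOn B (LinearMap.ker (f - 1)) := by
      have := Elusive.nonDegOn_inf_ker hA hfB hfr hrq (W := ⊤) (fun _ _ => trivial)
        (Elusive.nonDegOn_top sympBil_nondegenerate)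
      rwa [top_inf_eq] at this
    have hφ : φ / c * c + (2 * d) % c = φ ∧ φ / c + j = 2 * d / c := by
      refine ⟨?_, ?_⟩
      · rw [hj, Nat.add_mul_mod_self_right]; exact Nat.div_add_mod' φ c
      · rw [hj, Nat.add_mul_div_right _ _ hc0]
    set e := φ / c
    -- the dimensions of the fixed and of the moving part
    obtain ⟨b, a, hab, ha, hX⟩ : ∃ b a : ℕ, a + b * i = m ∧ 2 * a ≤ φ ∧
        ∃ X ≤ M, (∀ v ∈ X, f v ∈ X) ∧ Elusive.IsoOn B X ∧ Module.finrank F X = b * i := by
      have hmm := Nat.div_add_mod' m i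
      rcases Nat.even_or_odd i with hev | hodd
      · have hci : c = i := by rw [hc, if_pos hev]
        rw [hci] at hφ hMd hl
        have hcon := hor.resolve_left (Nat.not_odd_iff_even.2 hev)
        refine ⟨m / i - min (e / 2) (m / i), m % i + min (e / 2) (m / i) * i, ?_, ?_,
          Elusive.exists_isoOn_even hA hfB hfr hrq hr2 hi hev _ j M hM hMN hCM hMd ?_⟩
        · rw [Nat.sub_mul]
          have := Nat.mul_le_mul_right i (min_le_right (e / 2) (m / i))
          omega
        · have h1 : (2 * min (e / 2) (m / i)) * i ≤ e * i :=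
            Nat.mul_le_mul_right i (by have := min_le_left (e / 2) (m / i); omega)
          rw [Nat.mul_assoc] at h1
          omega
        · omega
      · have hci : c = 2 * i := by rw [hc, if_neg (Nat.not_even_iff_odd.2 hodd)]
        rw [hci] at hφ hMd hl
        have hmd' : m / i ≤ 2 * d / (2 * i) := by
          rw [Nat.mul_div_mul_left _ _ (by norm_num)]; exact Nat.div_le_div_right hmd
        refine ⟨m / i - min e (m / i), m % i + min e (m / i) * i, ?_, ?_,
          Elusive.exists_isoOn_odd hA hfB hfr hrq hr2 hi (Nat.not_even_iff_odd.2 hodd) _ M hM hMN hCM ?_⟩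
        · rw [Nat.sub_mul]
          have := Nat.mul_le_mul_right i (min_le_right e (m / i))
          omega
        · have h1 : min e (m / i) * i ≤ e * i := Nat.mul_le_mul_right i (min_le_left _ _)
          have h2 : e * (2 * i) = 2 * (e * i) := Nat.mul_left_comm _ _ _
          omega
        · have h1 : m / i - min e (m / i) ≤ j := by omega
          have h2 := Nat.mul_le_mul_right i h1
          have h4 : j * (2 * i) = 2 * (j * i) := Nat.mul_left_comm _ _ _
          omega
    obtain ⟨X, hXM, hX, hXI, hXd⟩ := hX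
    obtain ⟨A, hAC, hAI, hAd⟩ := Elusive.exists_isoOn hA hCN ha
    refine ⟨A ⊔ X, ?_, fun u hu v hv => ?_, map_le_iff_le_comap.2 fun v hv => ?_⟩
    · have := finrank_sup_add_finrank_inf_eq A X
      rw [(hCM.mono hAC hXM).eq_bot, finrank_bot, add_zero, hAd, hXd, hab] at this
      exact this
    · rw [← sympBil_apply]
      exact Elusive.isoOn_sup hA hAI hXI (fun a ha' y hy => hCMo a ⟨trivial, hAC ha'⟩ y (hXM hy)) u hu v hv
    · have hgf : g v = z • f v := by rw [hfdef, LinearMap.smul_apply, smul_smul, hzz, one_smul]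
      show g v ∈ A ⊔ X
      rw [hgf]
      refine Submodule.smul_mem _ _ ?_
      obtain ⟨a', ha', y, hy, rfl⟩ := mem_sup.1 hv
      rw [map_add, Elusive.mem_ker_sub_one.1 (hAC ha')]
      exact add_mem (mem_sup_left ha') (mem_sup_right (hX y hy))

end Cfsg.Agent.S5955
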