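import Cfsg.Statements.S5956
import Cfsg.Agent.Elusive.UnipSymp
import Cfsg.Agent.Elusive.SympDecomp
import Cfsg.Agent.Elusive.SkewPlanes
import Cfsg.Agent.Elusive.SympInvolution
import Cfsg.Agent.SympSub.Count
-- import your own Cfsg.Agent.* helpers here

set_option autoImplicit false
open scoped MatrixGroups
open Cfsg

namespace Cfsg.Agent.S5956

open Cfsg.Agent.Forms Submodule

variable {F : Type*} [Field F] {d : ℕ}

theorem nonDegOn_iff {W : Submodule F (Fin d ⊕ Fin d → F)} :
    (∀ u ∈ W, u ≠ 0 → ∃ v ∈ W, Cfsg.sympForm d F u v ≠ 0) ↔ Elusive.NonDegOn (sympBil d F) W := by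
  constructor
  · intro h u hu h'
    by_contra hne
    obtain ⟨v, hv, hne'⟩ := h u hu hne
    exact hne' (by rw [← sympBil_apply]; exact h' v hv)
  · intro h u hu hne
    by_contra hc
    push Not at hc
    exact hne (h u hu fun v hv => by rw [sympBil_apply]; exact hc v hv)

theorem finrank_space : Module.finrank F (Fin d ⊕ Fin d → F) = 2 * d := by
  rw [Module.finrank_fintype_fun_eq_card, Fintype.card_sum, Fintype.card_fin, two_mul]

/-- The nondegenerate subspaces, counted. -/
theorem card_nondegSubspaces [Fintype F] {k : ℕ} (hk : k ≤ d) :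
    Nat.card {W : Submodule F (Fin d ⊕ Fin d → F) // Module.finrank F ↥W = 2 * k ∧ (∀ u ∈ W, u ≠ 0 → ∃ v ∈ W, Cfsg.sympForm d F u v ≠ 0)} *
      (SympSub.spOrder (Fintype.card F) k * SympSub.spOrder (Fintype.card F) (d - k)) =
      SympSub.spOrder (Fintype.card F) d := by
  classical
  set B := sympBil d F with hBdef
  have hA : B.IsAlt := sympBil_isAlt
  let T := {W : Submodule F (Fin d ⊕ Fin d → F) // Module.finrank F ↥W = 2 * k ∧ (∀ u ∈ W, u ≠ 0 → ∃ v ∈ W, Cfsg.sympForm d F u v ≠ 0)}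
  obtain ⟨W₀, -, hW₀N, hW₀d⟩ := Elusive.exists_nonDegOn_of_even hA (W := ⊤)
    (Elusive.nonDegOn_top sympBil_nondegenerate) (even_two_mul k) (by rw [finrank_top, finrank_space]; omega)
  have hparts : ∀ W : Submodule F (Fin d ⊕ Fin d → F), Elusive.NonDegOn B W → Module.finrank F W = 2 * k →
      IsCompl W (B.orthogonal W) ∧
      (∃ e : W ≃ₗ[F] (Fin k ⊕ Fin k → F), ∀ x y, sympBil k F (e x) (e y) = B.restrict W x y) ∧
      ∃ e : B.orthogonal W ≃ₗ[F] (Fin (d - k) ⊕ Fin (d - k) → F),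
        ∀ x y, sympBil (d - k) F (e x) (e y) = B.restrict (B.orthogonal W) x y := by
    intro W hN hd'
    obtain ⟨hsup, hd, hPN⟩ := Elusive.nonDegOn_split hA le_top hN (Elusive.nonDegOn_top sympBil_nondegenerate)
    rw [top_inf_eq] at hsup hd hPN
    obtain ⟨hA₁, hN₁⟩ := Elusive.nonDegOn_restrict hA hN
    obtain ⟨hA₂, hN₂⟩ := Elusive.nonDegOn_restrict hA hPN
    refine ⟨⟨hd, codisjoint_iff.2 hsup⟩, SympSub.exists_iso_sympBil hA₁ hN₁ hd', SympSub.exists_iso_sympBil hA₂ hN₂ ?_⟩
    have := finrank_sup_add_finrank_inf_eq W (B.orthogonal W)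
    rw [hsup, hd.eq_bot, finrank_bot, finrank_top, finrank_space, hd', add_zero] at this
    omega
  let f : ↥(SympSub.isoGroup B) → T := fun g =>
    ⟨W₀.map ((g : (Fin d ⊕ Fin d → F) ≃ₗ[F] (Fin d ⊕ Fin d → F)) : (Fin d ⊕ Fin d → F) →ₗ[F] (Fin d ⊕ Fin d → F)),
      (LinearEquiv.finrank_map_eq _ _).trans hW₀d, nonDegOn_iff.2 (by
        rintro _ ⟨u, hu, rfl⟩ h
        rw [hW₀N u hu fun v hv => (g.2 u v).symm.trans (h _ ⟨v, hv, rfl⟩), map_zero])⟩
  obtain ⟨hc₀, ⟨e₁, he₁⟩, ⟨e₂, he₂⟩⟩ := hparts W₀ hW₀N hW₀d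
  have hsurj : Function.Surjective f := by
    rintro ⟨W, hWd, hW⟩
    obtain ⟨hc, ⟨a₁, ha₁⟩, ⟨a₂, ha₂⟩⟩ := hparts W (nonDegOn_iff.1 hW) hWd
    let g : (Fin d ⊕ Fin d → F) ≃ₗ[F] (Fin d ⊕ Fin d → F) :=
      (prodEquivOfIsCompl W₀ _ hc₀).symm.trans (((e₁.trans a₁.symm).prodCongr (e₂.trans a₂.symm)).trans
        (prodEquivOfIsCompl W _ hc))
    have hg : ∀ (x : W₀) (y : B.orthogonal W₀), g ((x : Fin d ⊕ Fin d → F) + y) =
        (a₁.symm (e₁ x) : Fin d ⊕ Fin d → F) + a₂.symm (e₂ y) := by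
      intro x y
      have h : (prodEquivOfIsCompl W₀ _ hc₀).symm ((x : Fin d ⊕ Fin d → F) + y) = (x, y) := by
        rw [LinearEquiv.symm_apply_eq]; rfl
      simp only [g, LinearEquiv.trans_apply, h]
      rfl
    have hgB : g ∈ SympSub.isoGroup B := by
      intro u v
      obtain ⟨x, hx, y, hy, rfl⟩ := mem_sup.1 (hc₀.sup_eq_top.symm ▸ mem_top : u ∈ W₀ ⊔ B.orthogonal W₀)
      obtain ⟨x', hx', y', hy', rfl⟩ := mem_sup.1 (hc₀.sup_eq_top.symm ▸ mem_top : v ∈ W₀ ⊔ B.orthogonal W₀)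
      rw [hg ⟨x, hx⟩ ⟨y, hy⟩, hg ⟨x', hx'⟩ ⟨y', hy'⟩]
      have o1 : ∀ (s : W) (t : B.orthogonal W), B (s : Fin d ⊕ Fin d → F) t = 0 ∧ B (t : Fin d ⊕ Fin d → F) s = 0 :=
        fun s t => ⟨t.2 s s.2, Elusive.alt_symm_zero hA (t.2 s s.2)⟩
      have e1 : ∀ a b : W₀, B (a₁.symm (e₁ a) : Fin d ⊕ Fin d → F) (a₁.symm (e₁ b)) = B (a : Fin d ⊕ Fin d → F) b :=
        fun a b => by
          show B.restrict W _ _ = B.restrict W₀ a b
          rw [← ha₁, a₁.apply_symm_apply, a₁.apply_symm_apply, he₁]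
      have e2 : ∀ a b : B.orthogonal W₀,
          B (a₂.symm (e₂ a) : Fin d ⊕ Fin d → F) (a₂.symm (e₂ b)) = B (a : Fin d ⊕ Fin d → F) b := fun a b => by
        show B.restrict (B.orthogonal W) _ _ = B.restrict (B.orthogonal W₀) a b
        rw [← ha₂, a₂.apply_symm_apply, a₂.apply_symm_apply, he₂]
      simp only [map_add, LinearMap.add_apply, (o1 _ _).1, (o1 _ _).2, e1, e2, hy' x hx,
        Elusive.alt_symm_zero hA (hy x' hx')]
    refine ⟨⟨g, hgB⟩, Subtype.ext (eq_of_le_of_finrank_le ?_ ?_)⟩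
    · rintro _ ⟨x, hx, rfl⟩
      have := hg ⟨x, hx⟩ 0
      simp only [ZeroMemClass.coe_zero, map_zero, add_zero] at this
      show g x ∈ W
      rw [this]
      exact SetLike.coe_mem _
    · show Module.finrank F W ≤ Module.finrank F (W₀.map _)
      rw [LinearEquiv.finrank_map_eq, hW₀d, hWd]
  have hfib : ∀ a b, f a = f b ↔ a⁻¹ * b ∈ SympSub.isoStab B W₀ := by
    intro a b
    rw [Subtype.ext_iff]
    show W₀.map _ = W₀.map _ ↔ ∀ v, v ∈ W₀ ↔ (((a⁻¹ * b : ↥(SympSub.isoGroup B))) : (Fin d ⊕ Fin d → F) ≃ₗ[F] _) v ∈ W₀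
    have key : ∀ v, ((a⁻¹ * b : ↥(SympSub.isoGroup B)) : (Fin d ⊕ Fin d → F) ≃ₗ[F] (Fin d ⊕ Fin d → F)) v =
        (a : (Fin d ⊕ Fin d → F) ≃ₗ[F] (Fin d ⊕ Fin d → F)).symm
          ((b : (Fin d ⊕ Fin d → F) ≃ₗ[F] (Fin d ⊕ Fin d → F)) v) := fun v => rfl
    simp only [key]
    constructor
    · intro h v
      rw [← mem_map_equiv, h, mem_map_equiv, LinearEquiv.symm_apply_apply]
    · intro h
      ext w
      obtain ⟨v, rfl⟩ := (b : (Fin d ⊕ Fin d → F) ≃ₗ[F] (Fin d ⊕ Fin d → F)).surjective w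
      rw [mem_map_equiv, mem_map_equiv, LinearEquiv.symm_apply_apply, ← h v]
  have key := SympSub.card_eq_of_fibres _ f hsurj hfib
  obtain ⟨E⟩ := SympSub.isoStab_nondeg_equiv (fun _ _ h => Elusive.alt_symm_zero hA h) W₀ hc₀
  rw [Nat.card_congr E.toEquiv, Nat.card_prod, Nat.card_congr (SympSub.isoCongr e₁ he₁).toEquiv,
    Nat.card_congr (SympSub.isoCongr e₂ he₂).toEquiv, ← Nat.card_congr (SympSub.spEquiv k F).toEquiv,
    ← Nat.card_congr (SympSub.spEquiv (d - k) F).toEquiv, ← Nat.card_congr (SympSub.spEquiv d F).toEquiv,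
    SympSub.card_symplecticGroup, SympSub.card_symplecticGroup, SympSub.card_symplecticGroup] at key
  exact key.symm

/-- A prime other than the characteristic dividing the number of nondegenerate subspaces. -/
theorem exists_dvd_pow_sub_one [Fintype F] {k r : ℕ} [Fact r.Prime] (hk : k ≤ d) (hr : ¬ r ∣ Fintype.card F)
    (h : r ∣ Nat.card {W : Submodule F (Fin d ⊕ Fin d → F) // Module.finrank F ↥W = 2 * k ∧ (∀ u ∈ W, u ≠ 0 → ∃ v ∈ W, Cfsg.sympForm d F u v ≠ 0)}) :
    ∃ j, d < j + k ∧ j ≤ d ∧ 0 < j ∧ r ∣ Fintype.card F ^ (2 * j) - 1 := by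
  set q := Fintype.card F with hq
  have hprod0 : 0 < ∏ i ∈ Finset.range (d - k), (q ^ (2 * (i + 1)) - 1) := Finset.prod_pos fun i _ =>
    Nat.sub_pos_of_lt (Nat.one_lt_pow (by omega) Fintype.one_lt_card)
  have key := card_nondegSubspaces (F := F) hk
  rw [← hq, SympSub.spOrder, SympSub.spOrder, SympSub.spOrder,
    show Finset.range d = Finset.range (d - k + k) by rw [Nat.sub_add_cancel hk], Finset.prod_range_add] at key
  have key' : Nat.card {W : Submodule F (Fin d ⊕ Fin d → F) // Module.finrank F ↥W = 2 * k ∧ (∀ u ∈ W, u ≠ 0 → ∃ v ∈ W, Cfsg.sympForm d F u v ≠ 0)} *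
      (q ^ (k ^ 2) * (∏ i ∈ Finset.range k, (q ^ (2 * (i + 1)) - 1)) * q ^ ((d - k) ^ 2)) =
      q ^ (d ^ 2) * ∏ i ∈ Finset.range k, (q ^ (2 * (d - k + i + 1)) - 1) :=
    Nat.eq_of_mul_eq_mul_left hprod0 (by linear_combination key)
  have hr' := (Fact.out : r.Prime)
  rcases hr'.dvd_mul.1 ((h.mul_right _).trans (dvd_of_eq key')) with h' | h'
  · exact absurd (hr'.dvd_of_dvd_pow h') hr
  · obtain ⟨i, hi, hi'⟩ := (Prime.dvd_finsetProd_iff hr'.prime _).1 h'
    rw [Finset.mem_range] at hi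
    exact ⟨d - k + i + 1, by omega, by omega, by omega, hi'⟩

omit [Field F] in
theorem sub_pow_char_end {K : Type*} [Field K] {p : ℕ} [Fact p.Prime] [CharP K p] {n : ℕ}
    (f : Module.End K (Fin n ⊕ Fin n → K)) : (f - 1) ^ p = f ^ p - 1 := by
  have h : ((Polynomial.X : Polynomial K) - 1) ^ p = Polynomial.X ^ p - 1 := by rw [sub_pow_char, one_pow]
  simpa using congrArg (Polynomial.aeval f) h

theorem mul_self_of_scalar (hd : 0 < d) (y : Matrix.symplecticGroup (Fin d) F) {z : F}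
    (hz : (y : Matrix (Fin d ⊕ Fin d) (Fin d ⊕ Fin d) F) = z • (1 : Matrix (Fin d ⊕ Fin d) (Fin d ⊕ Fin d) F)) :
    z * z = 1 := by
  have h1 : sympBil d F (Pi.single (Sum.inr ⟨0, hd⟩) 1) (Pi.single (Sum.inl ⟨0, hd⟩) 1) = 1 := by
    simp [sympBil_apply, sympForm_apply, Pi.single_apply]
  have := Elusive.sympBil_toLin' y (Pi.single (Sum.inr ⟨0, hd⟩) 1) (Pi.single (Sum.inl ⟨0, hd⟩) 1)
  rw [hz, Matrix.toLin'_apply, Matrix.toLin'_apply, Matrix.smul_mulVec, Matrix.one_mulVec, Matrix.smul_mulVec,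
    Matrix.one_mulVec, map_smul, map_smul, LinearMap.smul_apply, h1] at this
  simpa using this

theorem not_scalar (hd : 0 < d) {r : ℕ} (hodd : Odd r) {y : Matrix.symplecticGroup (Fin d) F} (hy : y ^ r = 1)
    (h1 : y ≠ 1) : ∀ z : F, (y : Matrix (Fin d ⊕ Fin d) (Fin d ⊕ Fin d) F) ≠ z • (1 : Matrix (Fin d ⊕ Fin d) (Fin d ⊕ Fin d) F) := by
  intro z hz
  have hzz := mul_self_of_scalar hd y hz
  refine h1 (Subtype.ext ?_)
  obtain ⟨w, rfl⟩ := hodd
  have h := congrArg Subtype.val hy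
  rw [SubmonoidClass.coe_pow, hz, smul_pow, one_pow, pow_succ, pow_mul, sq, hzz, one_pow, one_mul,
    OneMemClass.coe_one, ← hz] at h
  rw [h]; rfl

/-- Odd prime powers that are scalar: a multiple has order dividing `r`. -/
theorem exists_normalised (hd : 0 < d) {r : ℕ} (hodd : Odd r) (x : Matrix.symplecticGroup (Fin d) F) {z : F}
    (hz : ((x ^ r : Matrix.symplecticGroup (Fin d) F) : Matrix (Fin d ⊕ Fin d) (Fin d ⊕ Fin d) F) = z • (1 : Matrix (Fin d ⊕ Fin d) (Fin d ⊕ Fin d) F)) :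
    ∃ f : Module.End F (Fin d ⊕ Fin d → F), f ^ r = 1 ∧
      (∀ u v, sympBil d F (f u) (f v) = sympBil d F u v) ∧
      ∀ W : Submodule F (Fin d ⊕ Fin d → F), (∀ v ∈ W, f v ∈ W) →
        W.map (Matrix.toLin' (x : Matrix (Fin d ⊕ Fin d) (Fin d ⊕ Fin d) F)) ≤ W := by
  have hzz := mul_self_of_scalar hd (x ^ r) hz
  set g : Module.End F (Fin d ⊕ Fin d → F) := Matrix.toLin' (x : Matrix (Fin d ⊕ Fin d) (Fin d ⊕ Fin d) F) with hg
  refine ⟨z • g, ?_, fun u v => ?_, fun W hW => map_le_iff_le_comap.2 fun v hv => ?_⟩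
  · have hgr : g ^ r = z • 1 := by
      rw [hg, ← Matrix.toLin'_pow, ← SubmonoidClass.coe_pow, hz, map_smul, Matrix.toLin'_one]; rfl
    obtain ⟨w, hw⟩ := hodd
    rw [smul_pow, hgr, smul_smul, ← pow_succ, hw, show 2 * w + 1 + 1 = 2 * (w + 1) by ring, pow_mul, sq, hzz,
      one_pow, one_smul]
  · rw [LinearMap.smul_apply, LinearMap.smul_apply, map_smul, map_smul, LinearMap.smul_apply, hg,
      Elusive.sympBil_toLin', smul_smul, hzz, one_smul]
  · show g v ∈ W
    have : g v = z • (z • g) v := by rw [LinearMap.smul_apply, smul_smul, hzz, one_smul]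
    rw [this]
    exact W.smul_mem _ (hW v hv)

/-- An involution with square `±1` fixes nondegenerate subspaces of every even dimension. -/
theorem exists_nondeg_of_sq [Fintype F] (h2 : (2 : F) ≠ 0) {m : ℕ} (hme : Even m) (hmd : m ≤ d)
    {f : Module.End F (Fin d ⊕ Fin d → F)} (hB : ∀ u v, sympBil d F (f u) (f v) = sympBil d F u v) {z : F}
    (hz : z * z = 1) (hff : ∀ v, f (f v) = z • v) :
    ∃ W : Submodule F (Fin d ⊕ Fin d → F), Module.finrank F W = m ∧ Elusive.NonDegOn (sympBil d F) W ∧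
      ∀ v ∈ W, f v ∈ W := by
  classical
  set B := sympBil d F with hBdef
  have hA : B.IsAlt := sympBil_isAlt
  rcases mul_self_eq_one_iff.1 hz with rfl | rfl
  · -- eigenspaces of an involution
    have hneg : ∀ u v, B u v = -B u v → B u v = 0 := fun u v h => by
      have : (2 : F) * B u v = 0 := by rw [two_mul]; nth_rewrite 1 [h]; exact neg_add_cancel _
      exact (mul_eq_zero.1 this).resolve_left h2
    let C : Submodule F (Fin d ⊕ Fin d → F) := LinearMap.ker (f - 1)
    let C' : Submodule F (Fin d ⊕ Fin d → F) := LinearMap.ker (f + 1)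
    have hC : ∀ {v}, v ∈ C ↔ f v = v := fun {v} => by
      rw [LinearMap.mem_ker, LinearMap.sub_apply, Module.End.one_apply, sub_eq_zero]
    have hC' : ∀ {v}, v ∈ C' ↔ f v = -v := fun {v} => by
      rw [LinearMap.mem_ker, LinearMap.add_apply, Module.End.one_apply, add_eq_zero_iff_eq_neg]
    have ho : ∀ u ∈ C, ∀ v ∈ C', B u v = 0 := fun u hu v hv => hneg u v (by
      conv_lhs => rw [← hB, hC.1 hu, hC'.1 hv, map_neg])
    have hsplit : ∀ v, v + f v ∈ C ∧ v - f v ∈ C' := fun v => by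
      constructor
      · rw [hC, map_add, hff, one_smul, add_comm]
      · rw [hC', map_sub, hff, one_smul, neg_sub]
    have hsup : C ⊔ C' = ⊤ := eq_top_iff'.2 fun v => by
      have : v = (2 : F)⁻¹ • (v + f v) + (2 : F)⁻¹ • (v - f v) := by
        rw [← smul_add, show v + f v + (v - f v) = (2 : F) • v by rw [two_smul]; abel, smul_smul, inv_mul_cancel₀ h2, one_smul]
      rw [this]
      exact add_mem (mem_sup_left (C.smul_mem _ (hsplit v).1)) (mem_sup_right (C'.smul_mem _ (hsplit v).2))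
    have hdis : Disjoint C C' := disjoint_def.2 fun v hv hv' => by
      have h : (2 : F) • v = 0 := by
        rw [two_smul]; nth_rewrite 1 [← hC.1 hv]; rw [hC'.1 hv', neg_add_cancel]
      exact (smul_eq_zero.1 h).resolve_left h2
    have hCN : Elusive.NonDegOn B C := fun u hu h => sympBil_nondegenerate.1 u fun v => by
      obtain ⟨a, ha, b, hb, rfl⟩ := mem_sup.1 (hsup ▸ mem_top : v ∈ C ⊔ C')
      rw [map_add, h a ha, ho u hu b hb, add_zero]
    have hC'N : Elusive.NonDegOn B C' := fun u hu h => sympBil_nondegenerate.1 u fun v => by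
      obtain ⟨a, ha, b, hb, rfl⟩ := mem_sup.1 (hsup ▸ mem_top : v ∈ C ⊔ C')
      rw [map_add, h b hb, Elusive.alt_symm_zero hA (ho a ha u hu), zero_add]
    have hsum := finrank_sup_add_finrank_inf_eq C C'
    rw [hsup, hdis.eq_bot, finrank_bot, finrank_top, finrank_space, add_zero] at hsum
    obtain ⟨a', ha'⟩ := Elusive.even_finrank_of_nonDegOn hA hCN
    obtain ⟨m', hm'⟩ := hme
    obtain ⟨X, hXC, hXN, hXd⟩ := Elusive.exists_nonDegOn_of_even hA hCN (k := 2 * min m' a') (even_two_mul _) (by omega)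
    obtain ⟨Y, hYC, hYN, hYd⟩ := Elusive.exists_nonDegOn_of_even hA hC'N (k := 2 * (m' - min m' a')) (even_two_mul _)
      (by omega)
    obtain ⟨Z, -, hZ, hZN, hZd⟩ := Elusive.join_invariant (f := f) hA (le_top : X ≤ ⊤) (le_top : Y ≤ ⊤)
      (fun v hv => by rwa [hC.1 (hXC hv)]) (fun v hv => by rw [hC'.1 (hYC hv)]; exact Y.neg_mem hv) hXN hYN
      (fun x hx y hy => ho x (hXC hx) y (hYC hy)) (hdis.mono hXC hYC)
    exact ⟨Z, by omega, hZN, hZ⟩
  · -- planes of a complex structure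
    obtain ⟨l, rfl⟩ := hme
    have hq2 : Fintype.card F % 2 = 1 := by
      rcases Nat.mod_two_eq_zero_or_one (Fintype.card F) with h | h
      · rw [← FiniteField.even_card_iff_char_two] at h
        exfalso
        have := ringChar.spec F 2
        rw [h] at this
        exact h2 (by exact_mod_cast this.2 dvd_rfl)
      · exact h
    have hS : ∀ u v, B (f u) v = -B u (f v) := fun u v => by
      have h := hB u (f v)
      rw [hff, neg_one_smul, map_neg] at h
      rw [← h, neg_neg]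
    obtain ⟨u, -, hu⟩ := Elusive.exists_skew_planes hq2 hA hS (neg_ne_zero.2 one_ne_zero) hff l (fun _ => 1)
      (fun _ => one_ne_zero) ⊤ (fun _ _ => trivial) (Elusive.nonDegOn_top sympBil_nondegenerate)
      (by rw [finrank_top, finrank_space]; omega)
    let w : Fin l ⊕ Fin l → (Fin d ⊕ Fin d → F) := Sum.elim u fun k => f (u k)
    have key : ∀ c : Fin l ⊕ Fin l → F, (∀ a, B (w a) (∑ b, c b • w b) = 0) → c = 0 := by
      intro c hc
      have : ∀ k, c (Sum.inl k) = 0 ∧ c (Sum.inr k) = 0 := fun k => by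
        have h1 := hc (Sum.inr k)
        have h2' := hc (Sum.inl k)
        simp only [Fintype.sum_sum_type, w, Sum.elim_inl, Sum.elim_inr, map_add, map_sum, map_smul] at h1 h2'
        simp only [hS, hff, map_neg, map_smul, (hu _ _).1,
          (hu _ _).2, smul_eq_mul, mul_zero, Finset.sum_const_zero, mul_neg, mul_ite, mul_one, Finset.sum_neg_distrib,
          Finset.sum_ite_eq, Finset.mem_univ, if_true, zero_add, add_zero, neg_zero, neg_eq_zero] at h1 h2'
        exact ⟨h1, h2'⟩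
      funext x
      rcases x with k | k
      exacts [(this k).1, (this k).2]
    have hwli : LinearIndependent F w := Fintype.linearIndependent_iff.2 fun c hc x =>
      congrFun (key c fun a => by rw [hc, map_zero]) x
    refine ⟨span F (Set.range w), ?_, fun x hx h => ?_, fun x hx => ?_⟩
    · rw [finrank_span_eq_card hwli, Fintype.card_sum, Fintype.card_fin]
    · obtain ⟨c, rfl⟩ := mem_span_range_iff_exists_fun F |>.1 hx
      rw [key c fun a => Elusive.alt_symm_zero hA (h _ (subset_span ⟨a, rfl⟩))]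
      simp
    · induction hx using span_induction with
      | mem x hx =>
        obtain ⟨(a | a), rfl⟩ := hx
        · exact subset_span ⟨Sum.inr a, rfl⟩
        · show f (f (u a)) ∈ _
          rw [hff]
          exact Submodule.smul_mem _ _ (subset_span ⟨Sum.inl a, rfl⟩)
      | zero => simp
      | add a b _ _ ha hb => rw [map_add]; exact add_mem ha hb
      | smul a b _ hb => rw [map_smul]; exact Submodule.smul_mem _ _ hb

/-- An involution of `Sp_{4n}`, `q` even, whose fixed nondegenerate subspaces have dimension divisible by four. -/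
theorem exists_four_dvd [CharP F 2] (hd : 0 < d) (he : Even d) :
    ∃ x : Matrix.symplecticGroup (Fin d) F, x ^ 2 = 1 ∧
      (∀ z : F, (x : Matrix (Fin d ⊕ Fin d) (Fin d ⊕ Fin d) F) ≠ z • (1 : Matrix (Fin d ⊕ Fin d) (Fin d ⊕ Fin d) F)) ∧
      ∀ W : Submodule F (Fin d ⊕ Fin d → F), Elusive.NonDegOn (sympBil d F) W →
        (∀ v ∈ W, Matrix.toLin' (x : Matrix (Fin d ⊕ Fin d) (Fin d ⊕ Fin d) F) v ∈ W) → 4 ∣ Module.finrank F W := by
  classical
  obtain ⟨e, rfl⟩ := he
  let σ : Fin (e + e) → Fin (e + e) := fun l =>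
    if h : (l : ℕ) % 2 = 0 then ⟨l + 1, by omega⟩ else ⟨l - 1, by omega⟩
  have hσ : ∀ l, σ (σ l) = l := fun l => by
    apply Fin.ext
    simp only [σ]
    by_cases h : (l : ℕ) % 2 = 0
    · simp only [dif_pos h]; rw [dif_neg (by omega)]; simp
    · simp only [dif_neg h]; rw [dif_pos (by omega)]; simp only; omega
  have hσne : ∀ l, σ l ≠ l := fun l h => by
    have := congrArg Fin.val h
    simp only [σ] at this
    split_ifs at this <;> simp at this <;> omega
  let S : Matrix (Fin (e + e)) (Fin (e + e)) F := Matrix.of fun a b => if b = σ a then 1 else 0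
  have hS : S.transpose = S := by
    ext a b
    simp only [S, Matrix.transpose_apply, Matrix.of_apply]
    exact if_congr ⟨fun h => by rw [h, hσ], fun h => by rw [h, hσ]⟩ rfl rfl
  have hmem : Matrix.fromBlocks 1 0 S 1 ∈ Matrix.symplecticGroup (Fin (e + e)) F :=
    SymplecticGroup.fromBlocks_mem_iff.mpr (by simp [hS])
  refine ⟨⟨_, hmem⟩, Subtype.ext ?_, fun z hz => ?_, fun W hN hW => ?_⟩
  · rw [SubmonoidClass.coe_pow, sq, Matrix.fromBlocks_multiply]
    simp only [Matrix.one_mul, Matrix.mul_one, Matrix.zero_mul, Matrix.mul_zero, add_zero, zero_add,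
      OneMemClass.coe_one]
    rw [show S + S = 0 by ext a b; exact CharTwo.add_self_eq_zero _, Matrix.fromBlocks_one]
  · have := congrFun (congrFun hz (Sum.inr ⟨0, hd⟩)) (Sum.inl (σ ⟨0, hd⟩))
    simp [S] at this
  · set f := Matrix.toLin' (Matrix.fromBlocks (1 : Matrix (Fin (e + e)) (Fin (e + e)) F) 0 S
      (1 : Matrix (Fin (e + e)) (Fin (e + e)) F)) with hf
    have hB : ∀ u v, sympBil (e + e) F (f u) (f v) = sympBil (e + e) F u v := Elusive.sympBil_toLin' ⟨_, hmem⟩
    have hN' : ∀ v, (f - 1) v = Sum.elim (0 : Fin (e + e) → F) fun l => v (Sum.inl (σ l)) := fun v => by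
      rw [LinearMap.sub_apply, Module.End.one_apply, hf, Matrix.toLin'_apply]
      funext x
      rcases x with a | a <;>
        simp [Matrix.mulVec, dotProduct, S, Matrix.one_apply, Fintype.sum_sum_type]
    have hp : (f - 1) ^ 2 = 0 := LinearMap.ext fun v => by
      rw [sq, Module.End.mul_apply, hN', hN']
      funext x
      rcases x with a | a <;> simp
    have hinj : Function.Injective f := fun x y h => sub_eq_zero.1 (sympBil_nondegenerate.1 _ fun z => by
      rw [← hB, map_sub, h, sub_self, map_zero, LinearMap.zero_apply])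
    refine Elusive.four_dvd_finrank sympBil_isAlt hB hinj hp (fun v => ?_) (fun u v hu hv => ?_) _ W rfl hW hN
    · rw [hN', sympBil_apply, sympForm_apply]
      simp only [Sum.elim_inl, Sum.elim_inr, Pi.zero_apply, mul_zero, sub_zero, zero_sub]
      refine Finset.sum_ninvolution σ (fun a => ?_) (fun a _ => hσne a) (fun a => Finset.mem_univ _) hσ
      rw [hσ, mul_comm, CharTwo.add_self_eq_zero]
    · rw [sympBil_apply, sympForm_apply]
      refine Finset.sum_eq_zero fun a _ => ?_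
      have h1 := congrFun hu (Sum.inr (σ a))
      have h2 := congrFun hv (Sum.inr (σ a))
      rw [hN'] at h1 h2
      simp only [Sum.elim_inr, hσ, Pi.zero_apply] at h1 h2
      rw [h1, h2]
      ring

/-- An element of order dividing `p` with prescribed admissible block sizes. -/
theorem exists_element_of_type {p : ℕ} [Fact p.Prime] [CharP F p] {μ : Multiset ℕ}
    (hb : ∀ a ∈ μ, 0 < a ∧ a ≤ p) (hodd : ∀ a, Odd a → Even (μ.count a)) (hsum : μ.sum = 2 * d) :
    ∃ x : Matrix.symplecticGroup (Fin d) F, x ^ p = 1 ∧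
      (Matrix.toLin' (x : Matrix (Fin d ⊕ Fin d) (Fin d ⊕ Fin d) F) - 1) ^ p = 0 ∧
      ∀ k, Elusive.layerDim (Matrix.toLin' (x : Matrix (Fin d ⊕ Fin d) (Fin d ⊕ Fin d) F) - 1) ⊤ k =
        μ.countP fun b => k < b := by
  classical
  obtain ⟨n, B, f, hG, hBN, hf, ht⟩ := ClassConj.FormTypes.formType_alt (F := F) (fun a ha => (hb a ha).1) hodd
  have hA : B.IsAlt := hG
  obtain ⟨e, he⟩ := SympSub.exists_iso_sympBil hA hBN (k := d) ((ClassConj.FormTypes.hasType_finrank ht).trans hsum)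
  let g : Module.End F (Fin d ⊕ Fin d → F) := e.toLinearMap ∘ₗ f ∘ₗ e.symm.toLinearMap
  have hgB : ∀ u v, sympBil d F (g u) (g v) = sympBil d F u v := fun u v => by
    simp only [g, LinearMap.comp_apply, LinearEquiv.coe_coe, he, hf]
    rw [← he, e.apply_symm_apply, e.apply_symm_apply]
  let x : Matrix.symplecticGroup (Fin d) F := ⟨LinearMap.toMatrix' g, by
    rw [mem_symplecticGroup_iff_sympForm]
    intro u v
    rw [LinearMap.toMatrix'_mulVec, LinearMap.toMatrix'_mulVec, ← sympBil_apply, ← sympBil_apply]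
    exact hgB u v⟩
  have hx : Matrix.toLin' (x : Matrix (Fin d ⊕ Fin d) (Fin d ⊕ Fin d) F) = g := Matrix.toLin'_toMatrix' g
  have hgt : ClassConj.FormTypes.HasType g μ := ClassConj.FormTypes.hasType_conj e (fun v => by simp [g]) ht
  have hgp : (g - 1) ^ p = 0 := by
    obtain ⟨P, hP⟩ := hgt.1
    have h1 := Elusive.sum_layerDim (g - 1) ⊤ (p + P)
    rw [pow_eq_zero_of_le (Nat.le_add_left P p) hP, LinearMap.ker_zero, inf_top_eq, finrank_top,
      Finset.sum_range_add, Finset.sum_eq_zero (s := Finset.range P) fun i _ => ?_, add_zero,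
      Elusive.sum_layerDim, top_inf_eq] at h1
    · exact LinearMap.ker_eq_top.1 (eq_top_of_finrank_eq h1)
    · rw [hgt.2, Multiset.countP_eq_zero]
      intro a ha
      have := (hb a ha).2
      omega
  refine ⟨x, Subtype.ext (Matrix.toLin'.injective ?_), by rw [hx]; exact hgp, fun k => by rw [hx, hgt.2]⟩
  rw [SubmonoidClass.coe_pow, Matrix.toLin'_pow, hx, OneMemClass.coe_one, Matrix.toLin'_one]
  have h := sub_pow_char_end (p := p) g
  rw [hgp] at h
  exact sub_eq_zero.1 h.symm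

/-- Elements of prime order of PSp_n(q) with no fixed nondegenerate `m`-space. Here `T = PSp_n(q)` with `n = 2d ≥ 4`, `(n, q) ≠ (4, 2)`, realised through the symplectic matrices over the field `F` with `q` elements (preserving the standard alternating form); an element of `T` of prime order `r` is such a matrix `x` with `x^r` scalar and `x` not scalar. For `r ≠ p` let `i` be the multiplicative order of `q` modulo `r`, `c = i` for `i` even and `c = 2i` for `i` odd, and write `k = n mod c`, `ℓ = m mod i`, `ℓ' = m mod c`, `n' = ⌊n/i⌋`, `m' = ⌊m/i⌋`, `t = (r−1)/i`. Let `m` be even with `2 ≤ m < n/2` and let `r` be a prime dividing the number of nondegenerate `m`-spaces. Then every element of `T` of order `r` fixes a nondegenerate `m`-space if and only if one of: (i) `r = p > 2` and every partition of `n` into parts of size at most `p` in which every odd part has even multiplicity contains (as a sub-multiset) a partition of `m` in which every odd part has even multiplicity;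 (ii) `r = p = 2` and (`n ≡ 2 (mod 4)` or `m ≡ 0 (mod 4)`); (iii) `r = 2 ≠ p`; (iv) `r ≠ p`, `r > 2`, `c ≤ m` and `k ≥ ℓ'`. -/
theorem result {F : Type*} [Field F] [Fintype F] {p : ℕ} [Fact p.Prime] [CharP F p] {q : ℕ} (hq : Fintype.card F = q)
    (d m : ℕ) (hd : 2 ≤ d) (hT : (d, q) ≠ (2, 2)) (hm : 2 ≤ m) (hme : Even m) (hmd : m < d)
    (r : ℕ) [Fact r.Prime]
    (hrΩ : r ∣ Nat.card {W : Submodule F (Fin d ⊕ Fin d → F) // Module.finrank F ↥W = m ∧ (∀ u ∈ W, u ≠ 0 → ∃ v ∈ W, Cfsg.sympForm d F u v ≠ 0)})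
    (i c : ℕ) (hi : i = orderOf (q : ZMod r)) (hc : c = if Even i then i else 2 * i) :
    (∀ x : ↥(Matrix.symplecticGroup (Fin d) F),
      (∃ z : F, ((x ^ r : ↥(Matrix.symplecticGroup (Fin d) F)) : Matrix (Fin d ⊕ Fin d) (Fin d ⊕ Fin d) F) = z • (1 : Matrix (Fin d ⊕ Fin d) (Fin d ⊕ Fin d) F)) →
      (∀ z : F, (x : Matrix (Fin d ⊕ Fin d) (Fin d ⊕ Fin d) F) ≠ z • (1 : Matrix (Fin d ⊕ Fin d) (Fin d ⊕ Fin d) F)) →
      ∃ W : Submodule F (Fin d ⊕ Fin d → F), Module.finrank F ↥W = m ∧ (∀ u ∈ W, u ≠ 0 → ∃ v ∈ W, Cfsg.sympForm d F u v ≠ 0) ∧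
        W.map (Matrix.toLin' (x : Matrix (Fin d ⊕ Fin d) (Fin d ⊕ Fin d) F)) ≤ W) ↔
    ((r = p ∧ 2 < p ∧ (∀ μ : Multiset ℕ, (∀ a ∈ μ, 0 < a ∧ a ≤ p) → (∀ a : ℕ, Odd a → Even (μ.count a)) → μ.sum = 2 * d →
        ∃ ν : Multiset ℕ, ν ≤ μ ∧ ν.sum = m ∧ ∀ a : ℕ, Odd a → Even (ν.count a))) ∨
     (r = p ∧ p = 2 ∧ ((2 * d) % 4 = 2 ∨ m % 4 = 0)) ∨
     (r = 2 ∧ p ≠ 2) ∨
     (r ≠ p ∧ 2 < r ∧ c ≤ m ∧ m % c ≤ (2 * d) % c)) := by
  classical
  subst hq
  have hr := (Fact.out : r.Prime)
  have hp := (Fact.out : p.Prime)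
  set B := sympBil d F with hBdef
  have hA : B.IsAlt := sympBil_isAlt
  have hinjf : ∀ {f : Module.End F (Fin d ⊕ Fin d → F)}, (∀ u v, B (f u) (f v) = B u v) → Function.Injective f :=
    fun hB x y h => sub_eq_zero.1 (sympBil_nondegenerate.1 _ fun z => by
      rw [← hB, map_sub, h, sub_self, map_zero, LinearMap.zero_apply])
  rcases eq_or_ne r p with rfl | hrp
  · rcases eq_or_ne r 2 with rfl | hr2
    · -- involutions in characteristic two
      have hzone : ∀ {z : F}, z * z = 1 → z = 1 := fun {z} hz => by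
        rcases mul_self_eq_one_iff.1 hz with h | h
        · exact h
        · rwa [CharTwo.neg_eq] at h
      constructor
      · intro h
        refine Or.inr (Or.inl ⟨rfl, rfl, ?_⟩)
        by_contra hcon
        push Not at hcon
        obtain ⟨x, hx, hns, hfour⟩ := exists_four_dvd (F := F) (d := d) (by omega) ⟨d / 2, by omega⟩
        obtain ⟨W, hWd, hWN, hW⟩ := h x ⟨1, by rw [hx, OneMemClass.coe_one, one_smul]⟩ hns
        have := hfour W (nonDegOn_iff.1 hWN) fun v hv => hW (mem_map_of_mem hv)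
        obtain ⟨m', rfl⟩ := hme
        omega
      · intro h x ⟨z, hz⟩ _
        obtain ⟨-, h, -⟩ | ⟨-, -, hcond⟩ | ⟨-, h⟩ | ⟨h, -⟩ := h
        · omega
        · obtain ⟨hiso, hff, hzz⟩ := Elusive.symp_sq_scalar (by omega) x hz
          obtain rfl := hzone hzz
          set f := Matrix.toLin' (x : Matrix (Fin d ⊕ Fin d) (Fin d ⊕ Fin d) F) with hf
          have hp2 : (f - 1) ^ 2 = 0 := LinearMap.ext fun v => by
            rw [sq, Module.End.mul_apply, LinearMap.sub_apply, LinearMap.sub_apply, Module.End.one_apply,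
              Module.End.one_apply, map_sub, hff, one_smul, LinearMap.zero_apply]
            funext a
            simp [CharTwo.sub_eq_add, add_comm, add_left_comm, CharTwo.add_self_eq_zero]
          obtain ⟨A, -, hA', hAN, hAd⟩ := Elusive.exists_nonDegOn_two hA hiso (hinjf hiso) hp2 (2 * d) ⊤
            (by rw [finrank_top, finrank_space]) (fun _ _ => trivial) (Elusive.nonDegOn_top sympBil_nondegenerate)
            m hme (by omega) (by omega)
          exact ⟨A, hAd, nonDegOn_iff.2 hAN, map_le_iff_le_comap.2 hA'⟩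
        · exact absurd rfl h
        · exact absurd rfl h
    · -- unipotent elements in odd characteristic
      have h2 : (2 : F) ≠ 0 := fun h => hr2 ((Nat.prime_dvd_prime_iff_eq hr Nat.prime_two).1
        ((CharP.cast_eq_zero_iff F r 2).1 (by exact_mod_cast h)))
      have hr3 : 2 < r := lt_of_le_of_ne hr.two_le (Ne.symm hr2)
      have hodd : Odd r := hr.odd_of_ne_two hr2
      constructor
      · intro h
        refine Or.inl ⟨rfl, hr3, fun μ hb hcnt hsum => ?_⟩
        obtain ⟨x, hx, hxp, hμ⟩ := exists_element_of_type (F := F) hb hcnt hsum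
        rcases eq_or_ne x 1 with rfl | hx1
        · -- all blocks trivial
          have hone : ∀ a ∈ μ, a = 1 := fun a ha => by
            have h1 := hμ 1
            rw [OneMemClass.coe_one, Matrix.toLin'_one, ← Module.End.one_eq_id, sub_self, Elusive.layerDim,
              Elusive.layerSpace, pow_one, Submodule.map_zero, finrank_bot, eq_comm, Multiset.countP_eq_zero] at h1
            have := (hb a ha).1
            have := h1 a ha
            omega
          refine ⟨Multiset.replicate m 1, ?_, by simp, fun a ha => ?_⟩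
          · rw [Multiset.eq_replicate_card.2 hone] at hsum ⊢
            rw [Multiset.sum_replicate, smul_eq_mul, mul_one] at hsum
            exact (Multiset.replicate_le_replicate 1).2 (by omega)
          · rw [Multiset.count_replicate]
            split_ifs
            exacts [hme, Even.zero]
        · obtain ⟨W, hWd, hWN, hW⟩ := h x ⟨1, by rw [hx, OneMemClass.coe_one, one_smul]⟩
            (not_scalar (by omega) hodd hx hx1)
          rw [← hWd]
          exact Elusive.exists_subpartition_alt hA sympBil_nondegenerate (Elusive.sympBil_toLin' x) hxp hμ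
            (fun v hv => hW (mem_map_of_mem hv)) (nonDegOn_iff.1 hWN)
      · intro h x ⟨z, hz⟩ _
        obtain ⟨-, -, hcond⟩ | ⟨-, h, -⟩ | ⟨h, -⟩ | ⟨h, -⟩ := h
        · obtain ⟨f, hfr, hfB, hfW⟩ := exists_normalised (by omega) hodd x hz
          have hfp : (f - 1) ^ r = 0 := by
            rw [sub_pow_char_end f, hfr, sub_self]
          obtain ⟨μ, hb, hcnt, hsum, hμ⟩ := Elusive.exists_nonDegOn_partition hA hfB (hinjf hfB) hfp h2 ⊤
            (fun _ _ => trivial) (Elusive.nonDegOn_top sympBil_nondegenerate)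
          rw [finrank_top, finrank_space] at hsum
          obtain ⟨ν, hν, hνs, hνc⟩ := hcond μ hb hcnt hsum
          obtain ⟨A, -, hA', hAN, hAd⟩ := hμ ν hν hνc
          exact ⟨A, hAd.trans hνs, nonDegOn_iff.2 hAN, hfW A hA'⟩
        · exact absurd h hr2
        · exact absurd h hr2
        · exact absurd rfl h
  have hrq : ¬ r ∣ Fintype.card F := by
    obtain ⟨e, -, he⟩ := FiniteField.card F p
    intro h
    rw [he] at h
    exact hrp ((Nat.prime_dvd_prime_iff_eq hr hp).1 (hr.dvd_of_dvd_pow h))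
  rcases eq_or_ne r 2 with rfl | hr2
  · -- involutions in odd characteristic
    have h2 : (2 : F) ≠ 0 := fun h => hrp ((Nat.prime_dvd_prime_iff_eq hp Nat.prime_two).1
      ((CharP.cast_eq_zero_iff F p 2).1 (by exact_mod_cast h))).symm
    refine iff_of_true (fun x ⟨z, hz⟩ _ => ?_) (Or.inr (Or.inr (Or.inl ⟨rfl, hrp.symm⟩)))
    obtain ⟨hiso, hff, hzz⟩ := Elusive.symp_sq_scalar (by omega) x hz
    obtain ⟨W, hWd, hWN, hW⟩ := exists_nondeg_of_sq h2 hme hmd.le hiso hzz hff
    exact ⟨W, hWd, nonDegOn_iff.2 hWN, map_le_iff_le_comap.2 hW⟩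
  -- odd primes other than the characteristic
  have hodd : Odd r := hr.odd_of_ne_two hr2
  have h3 : 2 < r := lt_of_le_of_ne hr.two_le (Ne.symm hr2)
  have hi0 : 0 < i := hi ▸ Elusive.orderOf_pos_of_not_dvd hrq
  have hc0 : 0 < c := by rw [hc]; split_ifs <;> omega
  have hce : Even c := by rw [hc]; split_ifs with h; exacts [h, even_two_mul _]
  obtain ⟨mh, hmh⟩ := hme
  obtain rfl : m = 2 * mh := by omega
  obtain ⟨j₀, hj₀m, hj₀d, hj₀, hj₀r⟩ := exists_dvd_pow_sub_one (by omega) hrq hrΩ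
  have hcj : c ∣ 2 * j₀ := by
    rw [← ZMod.natCast_eq_zero_iff, Nat.cast_sub (Nat.one_le_pow _ _ Fintype.card_pos), Nat.cast_pow, Nat.cast_one,
      sub_eq_zero, ← orderOf_dvd_iff_pow_eq_one, ← hi] at hj₀r
    rw [hc]
    split_ifs with he
    · exact hj₀r
    · exact mul_dvd_mul_left 2 ((Nat.coprime_two_right.2 (Nat.not_even_iff_odd.1 he)).dvd_of_dvd_mul_left hj₀r)
  have hkm : (2 * d) % c < 2 * mh := by
    obtain ⟨w, hw⟩ := hcj
    rw [show 2 * d = 2 * (d - j₀) + c * w by omega, Nat.add_mul_mod_self_left]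
    have := Nat.mod_le (2 * (d - j₀)) c
    omega
  have hc2d : c ≤ 2 * d := (Nat.le_of_dvd (by omega) hcj).trans (by omega)
  constructor
  · intro h
    refine Or.inr (Or.inr (Or.inr ⟨hrp, h3, ?_⟩))
    set j := 2 * d / c with hjdef
    have hjc : j * c ≤ 2 * d := Nat.div_mul_le_self _ _
    have hj0 : 0 < j := Nat.div_pos hc2d hc0
    obtain ⟨x, hx, hxC⟩ := Elusive.exists_moving_element hrq hr2 hi hc hjc
    have hx1 : x ≠ 1 := by
      rintro rfl
      rw [OneMemClass.coe_one, Matrix.toLin'_one, ← Module.End.one_eq_id, sub_self, LinearMap.ker_zero, finrank_top,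
        finrank_space] at hxC
      have := Nat.mul_pos hj0 hc0
      omega
    obtain ⟨W, hWd, hWN, hW⟩ := h x ⟨1, by rw [hx, OneMemClass.coe_one, one_smul]⟩ (not_scalar (by omega) hodd hx hx1)
    set f := Matrix.toLin' (x : Matrix (Fin d ⊕ Fin d) (Fin d ⊕ Fin d) F)
    obtain ⟨M, -, -, -, -, -, -, -, b, hb, -⟩ := Elusive.exists_moving_part hA (Elusive.sympBil_toLin' x)
      (Elusive.toLin'_pow_of_pow_eq_one hx) hrq hr2 (W := W) (fun v hv => hW (mem_map_of_mem hv))
      (nonDegOn_iff.1 hWN) hi hc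
    have ha : Module.finrank F ↥(W ⊓ LinearMap.ker (f - 1)) ≤ (2 * d) % c := by
      refine (Submodule.finrank_mono inf_le_right).trans (le_of_eq ?_)
      rw [hxC]
      have := Nat.div_add_mod' (2 * d) c
      rw [← hjdef] at this
      omega
    rw [hWd] at hb
    change 2 * mh = Module.finrank F ↥(W ⊓ LinearMap.ker (f - 1)) + b * c at hb
    constructor
    · rcases Nat.eq_zero_or_pos b with rfl | hb0
      · rw [Nat.zero_mul, add_zero] at hb; omega
      · have := Nat.le_mul_of_pos_left c hb0; omega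
    · rw [hb, Nat.add_mul_mod_self_right]
      exact (Nat.mod_le _ _).trans ha
  · intro h x ⟨z, hz⟩ _
    obtain ⟨h', -⟩ | ⟨h', -⟩ | ⟨h', -⟩ | ⟨-, -, hcm, hl⟩ := h
    · exact absurd h' hrp
    · exact absurd h' hrp
    · exact absurd h' hr2
    obtain ⟨f, hfr, hfB, hfW⟩ := exists_normalised (by omega) hodd x hz
    obtain ⟨M, -, hM, hMN, hCMo, hCM, -, hmult, j, hj, hMd⟩ := Elusive.exists_moving_part hA hfB hfr hrq hr2 (W := ⊤)
      (fun _ _ => trivial) (Elusive.nonDegOn_top sympBil_nondegenerate) hi hc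
    rw [finrank_top, finrank_space, top_inf_eq] at hj
    set φ := Module.finrank F ↥(LinearMap.ker (f - 1))
    have hCN : Elusive.NonDegOn B (LinearMap.ker (f - 1)) := by
      have := Elusive.nonDegOn_inf_ker hA hfB hfr hrq (W := ⊤) (fun _ _ => trivial)
        (Elusive.nonDegOn_top sympBil_nondegenerate)
      rwa [top_inf_eq] at this
    have hφ : φ / c * c + (2 * d) % c = φ ∧ φ / c + j = 2 * d / c := by
      refine ⟨?_, ?_⟩
      · rw [hj, Nat.add_mul_mod_self_right]; exact Nat.div_add_mod' φ c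
      · rw [hj, Nat.add_mul_div_right _ _ hc0]
    set e := φ / c
    have hmm := Nat.div_add_mod' (2 * mh) c
    have hle := Nat.mul_le_mul_right c (min_le_right e (2 * mh / c))
    have hle' := Nat.mul_le_mul_right c (min_le_left e (2 * mh / c))
    have hbj : 2 * mh / c - min e (2 * mh / c) ≤ j := by
      have := Nat.div_le_div_right (c := c) (show 2 * mh ≤ 2 * d by omega)
      omega
    obtain ⟨U, hUM, hU, hUN, hUd⟩ := hmult (2 * mh / c - min e (2 * mh / c))
      (by rw [hMd]; exact Nat.mul_le_mul_right c hbj)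
    obtain ⟨X, hXC, hXN, hXd⟩ := Elusive.exists_nonDegOn_of_even hA hCN
      (k := 2 * mh - (2 * mh / c - min e (2 * mh / c)) * c)
      (Nat.even_sub (by rw [Nat.sub_mul]; omega) |>.2 (iff_of_true (even_two_mul _) (hce.mul_left _)))
      (by rw [Nat.sub_mul]; omega)
    obtain ⟨Z, -, hZ, hZN, hZd⟩ := Elusive.join_invariant (f := f) hA (le_top : X ≤ ⊤) (le_top : U ≤ ⊤)
      (fun v hv => by
        have := LinearMap.mem_ker.1 (hXC hv)
        rw [LinearMap.sub_apply, Module.End.one_apply, sub_eq_zero] at this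
        rwa [this]) hU hXN hUN (fun a ha y hy => hCMo a ⟨trivial, hXC ha⟩ y (hUM hy)) (hCM.mono hXC hUM)
    refine ⟨Z, ?_, nonDegOn_iff.2 hZN, hfW Z hZ⟩
    rw [hZd, hXd, hUd, Nat.sub_mul]
    omega

end Cfsg.Agent.S5956
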