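import Cfsg.Statements.S5958
import Cfsg.Agent.Elusive.ImprimitiveBound

set_option autoImplicit false
open scoped MatrixGroups
open Cfsg

namespace Cfsg.Agent.S5958

/-- Elements of odd prime order of PSL_n(q) and imprimitive subgroups. Here `T = PSL_n(F)` for a field `F` with `q = p^f` elements (`n ≥ 2`, `(n, q) ≠ (2, 2), (2, 3)`), `n = a·t` with `t ≥ 2`, and Ω is the set of direct-sum decompositions of `F^n` into `t` subspaces of dimension `a` (unordered; their number is the number of ordered ones divided by `t!`), whose stabilizers are the imprimitive subgroups of type GL_a(q) ≀ S_t (maximal except in some small cases; maximality is not assumed); an element of `T` of prime order `r` (a matrix `x` of determinant 1 with `x^r` scalar, `x` not scalar) fixes a point of Ω when it permutes the summands of some such decomposition. Let `r ≠ p` be an odd prime dividing the number of such decompositions, let `c` be the multiplicative order of `q` modulo `r`, and write `k = n mod c`, `ℓ = a mod c`. Then every element of `T` of order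 `r` stabilizes such a decomposition if and only if either `a = 1`, `c = r − 1 > 1` and `n ≤ k·r`, or `c ≤ a` and `k = t·ℓ`. -/
theorem result {F : Type*} [Field F] [Fintype F] {p : ℕ} [Fact p.Prime] [CharP F p] {q : ℕ} (hq : Fintype.card F = q)
    (n a t : ℕ) (hn : 2 ≤ n) (hT : (n, q) ≠ (2, 2) ∧ (n, q) ≠ (2, 3)) (hat : n = a * t) (ha : 1 ≤ a) (ht : 2 ≤ t)
    (r : ℕ) [Fact r.Prime] (hr2 : r ≠ 2) (hrp : r ≠ p) (hΩ : r ∣ Nat.card {D : Fin t → Submodule F (Fin n → F) // Cfsg.Geo.IsMDecomposition a D} / Nat.factorial t)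
    (c : ℕ) (hc : c = orderOf (q : ZMod r)) :
    (∀ x : Matrix.SpecialLinearGroup (Fin n) F,
      (∃ z : F, ((x ^ r : Matrix.SpecialLinearGroup (Fin n) F) : Matrix (Fin n) (Fin n) F) = z • (1 : Matrix (Fin n) (Fin n) F)) →
      (∀ z : F, (x : Matrix (Fin n) (Fin n) F) ≠ z • (1 : Matrix (Fin n) (Fin n) F)) →
      ∃ D : Fin t → Submodule F (Fin n → F), Cfsg.Geo.IsMDecomposition a D ∧
        ∃ σ : Equiv.Perm (Fin t), ∀ j, (D j).map (Matrix.toLin' (x : Matrix (Fin n) (Fin n) F)) = D (σ j)) ↔
    ((a = 1 ∧ 1 < c ∧ c = r - 1 ∧ n ≤ (n % c) * r) ∨ (c ≤ a ∧ n % c = t * (a % c))) := by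
  classical
  subst hq
  have hr := (Fact.out : r.Prime)
  have : NeZero r := ⟨hr.ne_zero⟩
  have hn0 : 0 < n := by omega
  have : Nonempty (Fin n) := ⟨⟨0, hn0⟩⟩
  have hr3 : 3 ≤ r := by have := hr.two_le; omega
  have hrF : ¬ r ∣ Fintype.card F := fun h => by
    obtain ⟨e, hp, he⟩ := FiniteField.card F p
    rw [he] at h
    exact hrp ((Nat.prime_dvd_prime_iff_eq hr hp).1 (hr.dvd_of_dvd_pow h))
  have hc0 : 0 < c := hc ▸ Elusive.orderOf_pos_of_not_dvd hrF
  have hcr : c ∣ r - 1 := hc ▸ ZMod.orderOf_dvd_card_sub_one fun h => hrF ((ZMod.natCast_eq_zero_iff _ _).1 h)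
  have hkmod : n % c = t * (a % c) % c := by rw [hat, mul_comm t, Nat.mod_mul_mod]
  -- maps with a scalar factor permute the same subspaces
  have hscale : ∀ {w : F} (g : Module.End F (Fin n → F)), w ≠ 0 → ∀ S : Submodule F (Fin n → F),
      S.map (w • g) = S.map g := fun g hw S => Submodule.map_smul g S _ hw
  constructor
  · intro h
    by_contra hcon
    rw [not_or] at hcon
    obtain ⟨hA, hB⟩ := hcon
    have hc2 : 2 ≤ c := by
      by_contra hlt
      obtain rfl : c = 1 := by omega
      exact hB ⟨ha, by simp [Nat.mod_one]⟩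
    -- `c ≤ n`
    have hcn : c ≤ n := by
      set X := {D : Fin t → Submodule F (Fin n → F) // Cfsg.Geo.IsMDecomposition a D}
      have hne : Nonempty X := by
        let e : Fin n ≃ Fin t × Fin a := (finCongr (by rw [hat, mul_comm])).trans finProdFinEquiv.symm
        let b := (Pi.basisFun F (Fin n)).reindex e
        exact ⟨⟨Elusive.blockSpan b Prod.fst, ht, ha, fun j => by
          rw [Elusive.blockSpan_finrank b.linearIndependent, Fintype.card_congr
            (show {i : Fin t × Fin a // i.1 = j} ≃ Fin a from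
              ⟨fun x => x.1.2, fun i => ⟨(j, i), rfl⟩, fun x => Subtype.ext (Prod.ext x.2.symm rfl), fun i => rfl⟩),
            Fintype.card_fin],
          Elusive.blockSpan_indep b.linearIndependent _, by rw [Elusive.blockSpan_iSup, b.span_eq]⟩⟩
      obtain ⟨h1, h2⟩ := Elusive.card_decompositions hne
      have hrX : r ∣ Nat.card X := dvd_trans hΩ (Nat.div_dvd_of_dvd h1)
      have hrGL := hrX.trans h2
      rw [Linear.card_GL_factor] at hrGL
      rcases hr.dvd_mul.1 hrGL with h3 | h3
      · exact absurd (hr.dvd_of_dvd_pow h3) hrF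
      · obtain ⟨i, -, hi⟩ := (Prime.dvd_finset_prod_iff hr.prime _).1 h3
        rw [← ZMod.natCast_eq_zero_iff, Nat.cast_sub (Nat.one_le_pow _ _ Fintype.card_pos), Nat.cast_pow, Nat.cast_one,
          sub_eq_zero, ← orderOf_dvd_iff_pow_eq_one, ← hc] at hi
        exact (Nat.le_of_dvd (by have := i.2; omega) hi).trans (Nat.sub_le _ _)
    have key : ∀ j, 0 < j → j * c ≤ n → ∃ s u : ℕ, r * s + u = t ∧ s * a + u * (a % c) ≤ n - j * c ∧
        s * a * (r - 1) ≤ j * c := by
      intro j hj hjn
      obtain ⟨x, hx, hx', hker⟩ := Elusive.exists_element_fixed (F := F) (n := n) p (r := r) (hc ▸ hc2) (c := n - j * c) (t := j)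
        hj (by rw [← hc]; omega)
      obtain ⟨D, hD, σ, hσ⟩ := h x ⟨1, hx⟩ hx'
      have hg : (Matrix.toLin' (x : Matrix (Fin n) (Fin n) F) : Module.End F (Fin n → F)) ^ r = 1 := by
        rw [Elusive.toLin'_pow_eq_smul_one.1 hx, one_smul]
      obtain ⟨s, u, h1, h2, h3⟩ := Elusive.decomposition_bounds hg hrF hD σ hσ
      rw [hker] at h2 h3
      rw [← hc] at h2
      exact ⟨s, u, h1, h2, by omega⟩
    have hQ : 0 < n / c := Nat.div_pos hcn hc0
    have hQc : n / c * c + n % c = n := Nat.div_add_mod' n c
    have hklt : n % c < c := Nat.mod_lt _ hc0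
    obtain ⟨s, u, h1, h2, h3⟩ := key (n / c) hQ (by omega)
    rw [show n - n / c * c = n % c by omega] at h2
    rcases Nat.lt_or_ge a c with hac | hac
    swap
    · refine hB ⟨hac, ?_⟩
      have hs : s = 0 := by
        by_contra hs
        have : a ≤ s * a := Nat.le_mul_of_pos_left a (Nat.pos_of_ne_zero hs)
        omega
      subst hs
      rw [Nat.mul_zero, Nat.zero_add] at h1
      subst h1
      rw [Nat.zero_mul, Nat.zero_add] at h2
      rw [hkmod, Nat.mod_eq_of_lt (lt_of_le_of_lt h2 hklt)]
    rw [Nat.mod_eq_of_lt hac] at h2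
    obtain ⟨s₁, u₁, g1, g2, g3⟩ := key 1 one_pos (by omega)
    rw [Nat.mod_eq_of_lt hac, one_mul] at g2
    rw [one_mul] at g3
    have hn' : n = r * s₁ * a + u₁ * a := by rw [← add_mul, g1, hat, mul_comm]
    have hs1 : s₁ = 1 ∧ a = 1 ∧ c = r - 1 := by
      have hcle : c ≤ r - 1 := Nat.le_of_dvd (by omega) hcr
      have hs0 : 0 < s₁ := by
        by_contra hs0
        obtain rfl : s₁ = 0 := by omega
        rw [Nat.mul_zero, Nat.zero_mul, Nat.zero_add] at hn'
        omega
      have h4 : 1 ≤ s₁ * a := Nat.one_le_iff_ne_zero.2 (Nat.mul_ne_zero hs0.ne' (by omega))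
      have h6 : s₁ * a * (r - 1) ≤ 1 * (r - 1) := by omega
      have h5 : s₁ * a ≤ 1 := Nat.le_of_mul_le_mul_right h6 (by omega)
      have h7 : s₁ * a = 1 := le_antisymm h5 h4
      obtain ⟨e1, e2⟩ := mul_eq_one.1 h7
      rw [h7, one_mul] at g3
      exact ⟨e1, e2, le_antisymm hcle g3⟩
    obtain ⟨-, ha1, hcr1⟩ := hs1
    subst ha1
    refine hA ⟨rfl, by omega, hcr1, ?_⟩
    rw [mul_one, mul_one] at h2
    have : n = t := by rw [hat, one_mul]
    calc n = r * s + u := this.trans h1.symm
      _ ≤ r * s + r * u := Nat.add_le_add_left (Nat.le_mul_of_pos_left u hr.pos) _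
      _ = (s + u) * r := by ring
      _ ≤ n % c * r := Nat.mul_le_mul_right r h2
  · intro hcase x ⟨z, hz⟩ hx'
    rcases Elusive.order_reduction hr hn0 hz hx' with ⟨w, g, hw, hxg, hg, -⟩ | hbad
    · have hginj : Function.Injective g := fun u v huv => by
        have := congrArg (fun y => (g ^ (r - 1)) y) huv
        simp only [← Module.End.mul_apply, ← pow_succ, Nat.sub_add_cancel hr.one_le, hg, Module.End.one_apply] at this
        exact this
      suffices ∃ D : Fin t → Submodule F (Fin n → F), Cfsg.Geo.IsMDecomposition a D ∧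
          ∃ σ : Equiv.Perm (Fin t), ∀ j, (D j).map g = D (σ j) by
        obtain ⟨D, hD, σ, hσ⟩ := this
        exact ⟨D, hD, σ, fun j => by rw [hxg, hscale g hw]; exact hσ j⟩
      obtain ⟨m, hm, -⟩ := Elusive.finrank_invariant hg hrF (W := ⊤) (fun v _ => trivial)
      rw [finrank_top, top_inf_eq, Module.finrank_fin_fun, ← hc] at hm
      set φ := Module.finrank F (LinearMap.ker (g - 1))
      have hφk : n % c ≤ φ := by rw [hm, Nat.add_mul_mod_self_right]; exact Nat.mod_le _ _
      rcases hcase with ⟨ha1, -, hcr1, hnk⟩ | ⟨-, hk⟩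
      · subst ha1
        obtain ⟨j, u, v, y, hspan, hju, hy⟩ := Elusive.exists_cycle_family hg hrF (hc ▸ hcr1) ⊤ (fun v _ => trivial) (by
          rw [finrank_top, top_inf_eq, Module.finrank_fin_fun]
          exact hnk.trans (by rw [mul_comm]; exact Nat.mul_le_mul_left r hφk))
        rw [finrank_top, Module.finrank_fin_fun] at hju
        let ι := (Fin j × Fin r) ⊕ Fin u
        have hι : Fintype.card ι = n := by simp [ι, hju]
        let e : ι ≃ Fin t := Fintype.equivFinOfCardEq (by rw [hι, hat, one_mul])
        let π : Equiv.Perm ι := Equiv.sumCongr (Equiv.prodCongr (Equiv.refl _) (Equiv.addRight 1)) (Equiv.refl _)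
        refine Elusive.exists_decomposition_of_family ha ht hat hginj _ hι hspan e (fun j' => ?_)
          (e.symm.trans (π.trans e)) ?_
        · rw [Fintype.card_eq_one_iff]
          exact ⟨⟨e.symm j', e.apply_symm_apply j'⟩, fun i => Subtype.ext (e.injective (i.2.trans (e.apply_symm_apply j').symm))⟩
        · intro i
          refine Submodule.subset_span ⟨π i, by simp, ?_⟩
          rcases i with ⟨b, l⟩ | i
          · show (g ^ (((l + 1 : Fin r) : ℕ))) (v b) = g ((g ^ (l : ℕ)) (v b))
            rw [← Module.End.mul_apply, ← pow_succ', Fin.val_add, Fin.val_one', Nat.add_mod_mod, ← pow_eq_pow_mod _ hg]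
          · exact (hy i).symm
      · obtain ⟨w', hspan, hinv⟩ := Elusive.exists_block_family_of_order hg hrF (a := a) (t := t)
          (by rw [Module.finrank_fin_fun, hat]) (by rw [← hc, ← hk]; exact hφk)
        refine Elusive.exists_decomposition_of_family ha ht hat hginj _ (by simp [hat, mul_comm]) hspan Prod.fst
          (fun j => by
            rw [Fintype.card_congr (show {i : Fin t × Fin a // i.1 = j} ≃ Fin a from
              ⟨fun x => x.1.2, fun i => ⟨(j, i), rfl⟩, fun x => Subtype.ext (Prod.ext x.2.symm rfl), fun i => rfl⟩),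
              Fintype.card_fin]) 1 (fun i => ?_)
        refine Submodule.span_mono ?_ (hinv i.1 i.2)
        rintro _ ⟨l, rfl⟩
        exact ⟨(i.1, l), rfl, rfl⟩
    · -- `x ^ r` has no `r`-th root among the scalars
      set g : Module.End F (Fin n → F) := Matrix.toLin' (x : Matrix (Fin n) (Fin n) F)
      have hgz : g ^ r = z • 1 := Elusive.toLin'_pow_eq_smul_one.1 hz
      have hz0 : z ≠ 0 := fun h0 => hbad 0 (by rw [h0, zero_pow hr.ne_zero])
      have hrF' : (r : F) ≠ 0 := fun h0 => hrp ((Nat.prime_dvd_prime_iff_eq (Fact.out : p.Prime) hr).1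
        ((CharP.cast_eq_zero_iff F p r).1 h0)).symm
      have hs := Elusive.isSemisimple_of_pow_eq_smul hrF' hz0 hgz
      have hginj : Function.Injective g := fun u v huv => by
        have := congrArg (fun y => (g ^ (r - 1)) y) huv
        simp only [← Module.End.mul_apply, ← pow_succ, Nat.sub_add_cancel hr.one_le, hgz, LinearMap.smul_apply,
          Module.End.one_apply] at this
        exact smul_right_injective _ hz0 this
      have hP := X_pow_sub_C_irreducible_of_prime hr hbad
      obtain ⟨j, v, hspan, hj⟩ := Elusive.exists_cycle_family_bad hr hs hbad hgz ⊤ (fun v _ => trivial)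
      rw [finrank_top, Module.finrank_fin_fun] at hj
      by_cases hra : r ∣ a
      · obtain ⟨i, hi⟩ := hra
        have haeval : Polynomial.aeval g (Polynomial.X ^ r - Polynomial.C z) = 0 := by
          simp [hgz, Algebra.algebraMap_eq_smul_one]
        obtain ⟨w', hspan', hinv⟩ := Elusive.exists_block_family hs (fun _ _ => True) (a := a) (fun t' W hW hd _ => by
          obtain ⟨U, -, hUW, hU, hUd⟩ := Elusive.exists_between hs hW (X := ⊥) (fun v hv => by simp_all) bot_le
            (i := r) (fun Y _ hY _ hne => by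
              obtain ⟨b, hb, hb0⟩ := Submodule.exists_mem_ne_zero_of_ne_bot hne
              obtain ⟨U, hUY, hU, hUd⟩ := Elusive.exists_cyclic hP (by rw [haeval]; rfl) hb0 hY hb
              exact ⟨U, hUY, hU, by rw [hUd, Polynomial.natDegree_X_pow_sub_C]⟩) i
            (by rw [finrank_bot, hd, hi, Nat.zero_add, mul_comm r i]; exact Nat.le_mul_of_pos_right _ (Nat.succ_pos _))
          rw [finrank_bot, Nat.zero_add, mul_comm] at hUd
          exact ⟨U, hUW, hU, hUd.trans hi.symm, fun _ _ _ _ _ => trivial⟩) t ⊤ (fun v _ => trivial)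
          (by rw [finrank_top, Module.finrank_fin_fun, hat]) trivial
        refine Elusive.exists_decomposition_of_family ha ht hat hginj _ (by simp [hat, mul_comm]) hspan' Prod.fst
          (fun j => by
            rw [Fintype.card_congr (show {i : Fin t × Fin a // i.1 = j} ≃ Fin a from
              ⟨fun x => x.1.2, fun i => ⟨(j, i), rfl⟩, fun x => Subtype.ext (Prod.ext x.2.symm rfl), fun i => rfl⟩),
              Fintype.card_fin]) 1 (fun i => ?_)
        refine Submodule.span_mono ?_ (hinv i.1 i.2)
        rintro _ ⟨l, rfl⟩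
        exact ⟨(i.1, l), rfl, rfl⟩
      · have hrt : r ∣ t := (hr.dvd_mul.1 (hat ▸ hj ▸ Dvd.intro_left j rfl)).resolve_left hra
        obtain ⟨t', ht'⟩ := hrt
        have hjt : j = t' * a := Nat.eq_of_mul_eq_mul_right hr.pos (by rw [hj, hat, ht']; ring)
        let eJ : Fin j ≃ Fin t' × Fin a := (finCongr hjt).trans finProdFinEquiv.symm
        let eT : Fin t' × Fin r ≃ Fin t := finProdFinEquiv.trans (finCongr (by rw [ht', mul_comm]))
        let G : Fin j × Fin r → Fin t := fun x => eT ((eJ x.1).1, x.2)
        refine Elusive.exists_decomposition_of_family ha ht hat hginj _ (by simp [hj]) hspan G (fun s => ?_)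
          (eT.symm.trans ((Equiv.prodCongr (Equiv.refl _) (Equiv.addRight 1)).trans eT)) ?_
        · let E : {x : Fin j × Fin r // G x = s} ≃ Fin a :=
            { toFun := fun x => (eJ x.1.1).2
              invFun := fun i => ⟨(eJ.symm ((eT.symm s).1, i), (eT.symm s).2), by simp [G]⟩
              left_inv := fun x => by
                have h' : ((eJ x.1.1).1, x.1.2) = eT.symm s := (Equiv.eq_symm_apply eT).2 x.2
                refine Subtype.ext (Prod.ext ?_ ?_)
                · show eJ.symm ((eT.symm s).1, (eJ x.1.1).2) = x.1.1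
                  rw [← h']; simp
                · show (eT.symm s).2 = x.1.2
                  rw [← h']
              right_inv := fun i => by simp }
          rw [Fintype.card_congr E, Fintype.card_fin]
        · rintro ⟨b, l⟩
          have hσ : (eT.symm.trans ((Equiv.prodCongr (Equiv.refl _) (Equiv.addRight 1)).trans eT)) (G (b, l)) = G (b, l + 1) := by
            simp [G]
          rw [hσ]
          rcases Nat.lt_or_ge ((l : ℕ) + 1) r with hl | hl
          · refine Submodule.subset_span ⟨(b, l + 1), rfl, ?_⟩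
            show (g ^ (((l + 1 : Fin r) : ℕ))) (v b) = g ((g ^ (l : ℕ)) (v b))
            rw [← Module.End.mul_apply, ← pow_succ', Fin.val_add, Fin.val_one', Nat.add_mod_mod, Nat.mod_eq_of_lt hl]
          · have hl' : (l : ℕ) + 1 = r := by omega
            have h1 : ((l + 1 : Fin r) : ℕ) = 0 := by
              rw [Fin.val_add, Fin.val_one', Nat.add_mod_mod, hl', Nat.mod_self]
            show g ((g ^ (l : ℕ)) (v b)) ∈ _
            rw [← Module.End.mul_apply, ← pow_succ', hl', hgz]
            refine Submodule.smul_mem _ z (Submodule.subset_span ⟨(b, l + 1), rfl, ?_⟩)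
            show (g ^ (((l + 1 : Fin r) : ℕ))) (v b) = (1 : Module.End F (Fin n → F)) (v b)
            rw [h1, pow_zero]

end Cfsg.Agent.S5958
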