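import Cfsg.Statements.S5959
import Cfsg.Agent.Elusive.Unipotent

set_option autoImplicit false
open scoped MatrixGroups
open Cfsg

namespace Cfsg.Agent.S5959

/-- Elements of order `p` of PSL_n(q) and imprimitive subgroups: a necessary condition. Here `T = PSL_n(F)` for a field `F` with `q = p^f` elements (`n ≥ 2`, `(n, q) ≠ (2, 2), (2, 3)`), `n = a·t` with `t ≥ 2`, and Ω is the set of direct-sum decompositions of `F^n` into `t` subspaces of dimension `a` (unordered; their number is the number of ordered ones divided by `t!`), whose stabilizers are the imprimitive subgroups of type GL_a(q) ≀ S_t (maximal except in some small cases; maximality is not assumed); an element of `T` of prime order `r` (a matrix `x` of determinant 1 with `x^r` scalar, `x` not scalar) fixes a point of Ω when it permutes the summands of some such decomposition. Suppose `p > 2` divides the number of such decompositions. If every element of `T` of order `p` stabilizes such a decomposition, then every partition of `n` into parts of size at most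 `p` in which the part `p` occurs fewer than `a` times contains (as a sub-multiset) a partition of `a`. -/
theorem result {F : Type*} [Field F] [Fintype F] {p : ℕ} [Fact p.Prime] [CharP F p] {q : ℕ} (hq : Fintype.card F = q)
    (n a t : ℕ) (hn : 2 ≤ n) (hT : (n, q) ≠ (2, 2) ∧ (n, q) ≠ (2, 3)) (hat : n = a * t) (ha : 1 ≤ a) (ht : 2 ≤ t)
    (hp : 2 < p) (hΩ : p ∣ Nat.card {D : Fin t → Submodule F (Fin n → F) // Cfsg.Geo.IsMDecomposition a D} / Nat.factorial t)
    (h : ∀ x : Matrix.SpecialLinearGroup (Fin n) F,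
      (∃ z : F, ((x ^ p : Matrix.SpecialLinearGroup (Fin n) F) : Matrix (Fin n) (Fin n) F) = z • (1 : Matrix (Fin n) (Fin n) F)) →
      (∀ z : F, (x : Matrix (Fin n) (Fin n) F) ≠ z • (1 : Matrix (Fin n) (Fin n) F)) →
      ∃ D : Fin t → Submodule F (Fin n → F), Cfsg.Geo.IsMDecomposition a D ∧
        ∃ σ : Equiv.Perm (Fin t), ∀ j, (D j).map (Matrix.toLin' (x : Matrix (Fin n) (Fin n) F)) = D (σ j)) :
    (∀ μ : Multiset ℕ, (∀ b ∈ μ, 0 < b ∧ b ≤ p) → μ.sum = n → μ.count p < a → ∃ ν : Multiset ℕ, ν ≤ μ ∧ ν.sum = a) := by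
  classical
  intro μ hμb hμn hμp
  have hpp := (Fact.out : p.Prime)
  by_cases hone : ∀ b ∈ μ, b = 1
  · refine ⟨Multiset.replicate a 1, ?_, by simp⟩
    rw [Multiset.eq_replicate_card.2 hone] at hμn ⊢
    rw [Multiset.replicate_le_replicate]
    simp only [Multiset.sum_replicate, smul_eq_mul, mul_one] at hμn
    rw [hμn, hat]
    exact Nat.le_mul_of_pos_right a (by omega)
  push Not at hone
  obtain ⟨b0, hb0, hb01⟩ := hone
  subst hμn
  obtain ⟨N, hN, hNp⟩ := Elusive.exists_nilpotent_model F μ
  have hNp' : N ^ p = 0 := hNp p fun b hb => (hμb b hb).2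
  have : Nonempty (Fin μ.sum) := ⟨⟨0, by omega⟩⟩
  have : CharP (Module.End F (Fin μ.sum → F)) p := by
    exact charP_of_injective_algebraMap (RingHom.injective (algebraMap F (Module.End F (Fin μ.sum → F)))) p
  have hxp : (1 + N) ^ p = 1 := by
    rw [add_pow_char_of_commute p (Commute.one_left N), one_pow, hNp', add_zero]
  have hdet : (LinearMap.toMatrix' (1 + N)).det = 1 := by
    rw [LinearMap.det_toMatrix']
    have h1 : LinearMap.det (1 + N) ^ p = 1 := by rw [← map_pow, hxp, map_one]
    have h2 : (LinearMap.det (1 + N) - 1) ^ p = 0 := by rw [sub_pow_char, h1, one_pow, sub_self]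
    exact sub_eq_zero.1 (eq_zero_of_pow_eq_zero h2)
  let x : Matrix.SpecialLinearGroup (Fin μ.sum) F := ⟨LinearMap.toMatrix' (1 + N), hdet⟩
  have hxl : Matrix.toLin' (x : Matrix (Fin μ.sum) (Fin μ.sum) F) = 1 + N := Matrix.toLin'_toMatrix' _
  obtain ⟨D, hD, σ, hσ⟩ := h x ⟨1, by
      apply Matrix.toLinAlgEquiv'.injective
      rw [Matrix.SpecialLinearGroup.coe_pow, map_pow, one_smul, map_one]
      show (Matrix.toLin' (x : Matrix (Fin μ.sum) (Fin μ.sum) F) : Module.End F _) ^ p = 1
      rw [hxl, hxp]⟩ (by
      intro z hz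
      have hl := congrArg Matrix.toLin' hz
      rw [hxl, map_smul, Matrix.toLin'_one] at hl
      have hNz : N = (z - 1) • (1 : Module.End F (Fin μ.sum → F)) := by
        refine LinearMap.ext fun v => ?_
        have h3 := LinearMap.congr_fun hl v
        simp only [LinearMap.add_apply, Module.End.one_apply, LinearMap.smul_apply, LinearMap.id_apply] at h3
        simp only [LinearMap.smul_apply, Module.End.one_apply, sub_smul, one_smul]
        exact eq_sub_of_add_eq' h3
      have hz1 : z = 1 := by
        have h0 := hNp'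
        rw [hNz, smul_pow, one_pow] at h0
        rcases smul_eq_zero.1 h0 with h0 | h0
        · exact sub_eq_zero.1 (eq_zero_of_pow_eq_zero h0)
        · exact absurd h0 one_ne_zero
      have hN1 := hN 1
      rw [hNz, hz1, sub_self, zero_smul, Elusive.layerDim, Elusive.layerSpace, pow_one,
        Submodule.map_zero, finrank_bot] at hN1
      have hpos : 0 < μ.countP fun b => 1 < b :=
        Multiset.countP_pos.2 ⟨b0, hb0, by have := (hμb b0 hb0).1; omega⟩
      omega)
  have hne : ∀ j, D j ≠ ⊥ := fun j hb => by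
    have := hD.finrank_eq j
    rw [hb, finrank_bot] at this
    omega
  simp only [hxl] at hσ
  have hfix : ∀ j, σ j = j := by
    intro j
    by_contra hj
    have h1 := Elusive.finrank_le_layerDim p hxp hD.indep σ hσ hne hj
    rw [hD.finrank_eq, add_sub_cancel_left, hN] at h1
    have : (μ.countP fun b => p - 1 < b) = μ.count p := by
      rw [Multiset.count]
      refine Multiset.countP_congr rfl fun b hb => ?_
      have := (hμb b hb).2
      simp only [eq_iff_iff]
      omega
    omega
  let j0 : Fin t := ⟨0, by omega⟩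
  have hinv : ∀ j, ∀ v ∈ D j, N v ∈ D j := by
    intro j v hv
    have h1 : (1 + N) v ∈ D j := by
      have h2 := hσ j
      rw [hfix] at h2
      exact h2.le ⟨v, hv, rfl⟩
    simpa using sub_mem h1 hv
  have hcompl : IsCompl (D j0) (⨆ (j) (_ : j ≠ j0), D j) :=
    ⟨hD.indep j0, codisjoint_iff.2 (by rw [← iSup_split_single D j0, hD.iSup_eq_top])⟩
  have hR : ∀ v ∈ ⨆ (j) (_ : j ≠ j0), D j, N v ∈ ⨆ (j) (_ : j ≠ j0), D j := by
    intro v hv
    have hle : (⨆ (j) (_ : j ≠ j0), D j) ≤ (⨆ (j) (_ : j ≠ j0), D j).comap N :=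
      iSup₂_le fun j hj w hw => (le_iSup₂ (f := fun j (_ : j ≠ j0) => D j) j hj) (hinv j w hw)
    exact hle hv
  obtain ⟨ν, hν, hνs⟩ := Elusive.exists_subpartition hN hNp' hcompl (hinv j0) hR
  exact ⟨ν, hν, by rw [hνs, hD.finrank_eq]⟩

end Cfsg.Agent.S5959
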