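import Cfsg.Statements.S5960
import Cfsg.Agent.Elusive.SympInvolution

set_option autoImplicit false
open scoped MatrixGroups
open Cfsg

namespace Cfsg.Agent.S5960

/-- Involutions of PSp_n(q) and imprimitive subgroups. Here `T = PSp_n(q)`, `n = 2d ≥ 4`, `(n, q) ≠ (4, 2)`, realised through the symplectic matrices over the field `F` with `q` elements and the standard alternating form; `n = a·t` with `a` even and `t ≥ 2`, and Ω is the (nonempty) set of orthogonal decompositions of `F^n` into `t` nondegenerate subspaces of dimension `a` (unordered; counted as ordered ones divided by `t!`), whose stabilizers are the imprimitive subgroups of type Sp_a(q) ≀ S_t (maximality is not assumed); an element of `T` of prime order `r` (a symplectic matrix `x` with `x^r` scalar, `x` not scalar) fixes a point of Ω when it permutes the summands of some such decomposition. If the number of such decompositions is even, then every involution of `T` stabilizes one of them (the action is 2-elusive). -/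
theorem result {F : Type*} [Field F] [Fintype F] {p : ℕ} [Fact p.Prime] [CharP F p] {q : ℕ} (hq : Fintype.card F = q)
    (d : ℕ) (hd : 2 ≤ d) (hT : (d, q) ≠ (2, 2))
    (a t : ℕ) (hat : 2 * d = a * t) (ha : 2 ≤ a) (hae : Even a) (ht : 2 ≤ t) (hΩ : 2 ∣ Nat.card {D : Fin t → Submodule F (Fin d ⊕ Fin d → F) // (Cfsg.Geo.IsMDecomposition a D ∧ (∀ j, ∀ u ∈ D j, u ≠ 0 → ∃ v ∈ D j, Cfsg.sympForm d F u v ≠ 0) ∧
          (∀ j j', j ≠ j' → ∀ u ∈ D j, ∀ v ∈ D j', Cfsg.sympForm d F u v = 0))} / Nat.factorial t)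
    (x : ↥(Matrix.symplecticGroup (Fin d) F))
    (hx1 : ∃ z : F, ((x ^ 2 : ↥(Matrix.symplecticGroup (Fin d) F)) : Matrix (Fin d ⊕ Fin d) (Fin d ⊕ Fin d) F) = z • (1 : Matrix (Fin d ⊕ Fin d) (Fin d ⊕ Fin d) F))
    (hx2 : ∀ z : F, (x : Matrix (Fin d ⊕ Fin d) (Fin d ⊕ Fin d) F) ≠ z • (1 : Matrix (Fin d ⊕ Fin d) (Fin d ⊕ Fin d) F)) :
    ∃ D : Fin t → Submodule F (Fin d ⊕ Fin d → F), (Cfsg.Geo.IsMDecomposition a D ∧ (∀ j, ∀ u ∈ D j, u ≠ 0 → ∃ v ∈ D j, Cfsg.sympForm d F u v ≠ 0) ∧
          (∀ j j', j ≠ j' → ∀ u ∈ D j, ∀ v ∈ D j', Cfsg.sympForm d F u v = 0)) ∧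
        ∃ σ : Equiv.Perm (Fin t), ∀ j, (D j).map (Matrix.toLin' (x : Matrix (Fin d ⊕ Fin d) (Fin d ⊕ Fin d) F)) = D (σ j) := by
  classical
  obtain ⟨z, hz⟩ := hx1
  obtain ⟨hiso, hff, hzz⟩ := Elusive.symp_sq_scalar (by omega) x hz
  set f := Matrix.toLin' (x : Matrix (Fin d ⊕ Fin d) (Fin d ⊕ Fin d) F)
  have hB := Forms.sympBil_isAlt (m := d) (F := F)
  have hz0 : z ≠ 0 := left_ne_zero_of_mul_eq_one hzz
  have step : ∀ S, Elusive.NondegInv (Forms.sympBil d F) f S → S ≠ ⊥ →
      Elusive.HasBlock (Forms.sympBil d F) f S (fun _ _ => True) := by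
    intro S hS hne
    by_cases hv : ∃ u ∈ S, Forms.sympBil d F u (f u) ≠ 0
    · obtain ⟨u, hu, hun⟩ := hv
      exact Elusive.hasBlock_of_ne _ f S hB hff hS hu hun _ (fun _ _ _ => trivial)
    push Not at hv
    have key : z = 1 := by
      rcases mul_self_eq_one_iff.1 hzz with h | h
      · exact h
      · have h2 := Elusive.two_eq_zero_of_isotropic _ f S hB (fun v => by rw [hff, h, neg_one_smul]) hiso hS hne hv
        rw [h]; linear_combination -h2
    have hf1 : ∀ v, f (f v) = v := fun v => by rw [hff, key, one_smul]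
    by_cases h2 : (2 : F) = 0
    · exact Elusive.hasBlock_char_two _ f S hB h2 hf1 hiso hS hne hv
    · exact Elusive.hasBlock_eigen _ f S hB h2 hf1 hiso hS hne _ (fun _ _ _ _ => trivial)
  obtain ⟨ι, _, _, v, w, π, hfam, hspan, hπ, hmap, -⟩ :=
    Elusive.exists_planes _ f hB hz0 hff hiso _ step ⊤ (Elusive.nondegInv_top f)
  obtain ⟨b, hb⟩ := hae
  have hcard : Fintype.card ι = b * t := by
    rw [Elusive.card_planes hfam hspan]
    have : 2 * d = 2 * (b * t) := by rw [hat, hb]; ring
    omega
  obtain ⟨g, σ, hσ, hg⟩ := Elusive.exists_block_fun π hπ (by omega : 0 < b) hcard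
  let g2 : ι ⊕ ι → Fin t := Sum.elim g g
  let D : Fin t → Submodule F (Fin d ⊕ Fin d → F) := Elusive.blockSpan (Sum.elim v w) g2
  have hli := hfam.linearIndependent hB
  have hdim : ∀ j, Module.finrank F (D j) = a := fun j => by
    rw [Elusive.blockSpan_finrank hli,
      Fintype.card_congr (Equiv.subtypeSum (p := fun i => g2 i = j)), Fintype.card_sum]
    show Fintype.card {i // g i = j} + Fintype.card {i // g i = j} = a
    rw [hg, hb]
  have hmem : ∀ i j, g i = j → v i ∈ D j ∧ w i ∈ D j := fun i j h =>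
    ⟨Submodule.subset_span ⟨Sum.inl i, h, rfl⟩, Submodule.subset_span ⟨Sum.inr i, h, rfl⟩⟩
  have horth : ∀ j j', j ≠ j' → ∀ u ∈ D j, ∀ y ∈ D j', Forms.sympBil d F u y = 0 := by
    intro j j' hjj u hu y hy
    induction hu using Submodule.span_induction with
    | mem p hp =>
      induction hy using Submodule.span_induction with
      | mem q hq =>
        obtain ⟨i, hi, rfl⟩ := hp
        obtain ⟨k, hk, rfl⟩ := hq
        have hne : ∀ i' k', g i' = j → g k' = j' → i' ≠ k' := fun i' k' h h' e => hjj (by rw [← h, ← h', e])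
        cases i <;> cases k <;> simp only [Sum.elim_inl, Sum.elim_inr]
        · exact hfam.vv _ _
        · rw [hfam.vw, if_neg (hne _ _ hi hk)]
        · rw [← LinearMap.IsAlt.neg hB (v _) (w _), hfam.vw, if_neg (hne _ _ hi hk).symm, neg_zero]
        · exact hfam.ww _ _
      | zero => simp
      | add _ _ _ _ h1 h2 => rw [map_add, h1, h2, add_zero]
      | smul c _ _ h1 => rw [map_smul, h1, smul_zero]
    | zero => simp
    | add _ _ _ _ h1 h2 => rw [map_add, LinearMap.add_apply, h1, h2, add_zero]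
    | smul c _ _ h1 => rw [map_smul, LinearMap.smul_apply, h1, smul_zero]
  have htopD : iSup D = ⊤ := by rw [Elusive.blockSpan_iSup, hspan]
  have hinj : Function.Injective f := fun u y h => by
    have := congrArg f h
    rw [hff, hff] at this
    exact smul_right_injective _ hz0 this
  refine ⟨D, ⟨⟨ht, by omega, hdim, Elusive.blockSpan_indep hli g2, htopD⟩, fun j u hu hu0 => ?_,
    fun j j' hjj u hu y hy => Forms.sympBil_apply u y ▸ horth j j' hjj u hu y hy⟩, σ, fun j => ?_⟩
  · by_contra h
    push Not at h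
    refine hu0 (Forms.sympBil_nondegenerate.1 u fun y => ?_)
    have hy : y ∈ LinearMap.ker (Forms.sympBil d F u) := by
      have hle : iSup D ≤ LinearMap.ker (Forms.sympBil d F u) := iSup_le fun j' y' hy' => by
        rw [LinearMap.mem_ker]
        by_cases hj : j = j'
        · subst hj; rw [Forms.sympBil_apply]; exact h y' hy'
        · exact horth j j' hj u hu y' hy'
      exact hle (htopD.symm ▸ Submodule.mem_top)
    exact LinearMap.mem_ker.1 hy
  · refine Submodule.eq_of_le_of_finrank_le ?_ ?_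
    · show (Submodule.span F _).map f ≤ _
      rw [Submodule.map_span, Submodule.span_le]
      rintro _ ⟨_, ⟨i, hi, rfl⟩, rfl⟩
      have hsub : ∀ i', g i' = j → Submodule.span F {v (π i'), w (π i')} ≤ D (σ j) := fun i' h => by
        have := hmem (π i') (σ j) (by rw [hσ, h])
        rw [Submodule.span_le]
        rintro _ (rfl | rfl)
        exacts [this.1, this.2]
      cases i with
      | inl i => exact hsub i hi (hmap i).1
      | inr i => exact hsub i hi (hmap i).2
    · rw [← (Submodule.equivMapOfInjective f hinj _).finrank_eq, hdim, hdim]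

end Cfsg.Agent.S5960
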