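import Cfsg.Statements.S5961
import Cfsg.Agent.Elusive.SympDecomp
import Cfsg.Agent.Elusive.ImprimitiveBound
-- import your own Cfsg.Agent.* helpers here

set_option autoImplicit false
open scoped MatrixGroups
open Cfsg

namespace Cfsg.Agent.S5961

/-- Elements of odd prime order of PSp_n(q) and imprimitive subgroups. Here `T = PSp_n(q)`, `n = 2d ≥ 4`, `(n, q) ≠ (4, 2)`, realised through the symplectic matrices over the field `F` with `q` elements and the standard alternating form; `n = a·t` with `a` even and `t ≥ 2`, and Ω is the (nonempty) set of orthogonal decompositions of `F^n` into `t` nondegenerate subspaces of dimension `a` (unordered; counted as ordered ones divided by `t!`), whose stabilizers are the imprimitive subgroups of type Sp_a(q) ≀ S_t (maximality is not assumed); an element of `T` of prime order `r` (a symplectic matrix `x` with `x^r` scalar, `x` not scalar) fixes a point of Ω when it permutes the summands of some such decomposition. Let `r ≠ p` be an odd prime dividing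 the number of such decompositions, let `i` be the multiplicative order of `q` modulo `r`, `c = i` if `i` is even and `c = 2i` if `i` is odd, and write `k = n mod c`, `ℓ = a mod c`. Then every element of `T` of order `r` stabilizes such a decomposition if and only if `c ≤ a` and `k = t·ℓ`. -/
theorem result {F : Type*} [Field F] [Fintype F] {p : ℕ} [Fact p.Prime] [CharP F p] {q : ℕ} (hq : Fintype.card F = q)
    (d : ℕ) (hd : 2 ≤ d) (hT : (d, q) ≠ (2, 2))
    (a t : ℕ) (hat : 2 * d = a * t) (ha : 2 ≤ a) (hae : Even a) (ht : 2 ≤ t)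
    (r : ℕ) [Fact r.Prime] (hr2 : r ≠ 2) (hrp : r ≠ p) (hΩ : r ∣ Nat.card {D : Fin t → Submodule F (Fin d ⊕ Fin d → F) // (Cfsg.Geo.IsMDecomposition a D ∧ (∀ j, ∀ u ∈ D j, u ≠ 0 → ∃ v ∈ D j, Cfsg.sympForm d F u v ≠ 0) ∧
          (∀ j j', j ≠ j' → ∀ u ∈ D j, ∀ v ∈ D j', Cfsg.sympForm d F u v = 0))} / Nat.factorial t)
    (i c : ℕ) (hi : i = orderOf (q : ZMod r)) (hc : c = if Even i then i else 2 * i) :
    (∀ x : ↥(Matrix.symplecticGroup (Fin d) F),
      (∃ z : F, ((x ^ r : ↥(Matrix.symplecticGroup (Fin d) F)) : Matrix (Fin d ⊕ Fin d) (Fin d ⊕ Fin d) F) = z • (1 : Matrix (Fin d ⊕ Fin d) (Fin d ⊕ Fin d) F)) →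
      (∀ z : F, (x : Matrix (Fin d ⊕ Fin d) (Fin d ⊕ Fin d) F) ≠ z • (1 : Matrix (Fin d ⊕ Fin d) (Fin d ⊕ Fin d) F)) →
      ∃ D : Fin t → Submodule F (Fin d ⊕ Fin d → F), (Cfsg.Geo.IsMDecomposition a D ∧ (∀ j, ∀ u ∈ D j, u ≠ 0 → ∃ v ∈ D j, Cfsg.sympForm d F u v ≠ 0) ∧
          (∀ j j', j ≠ j' → ∀ u ∈ D j, ∀ v ∈ D j', Cfsg.sympForm d F u v = 0)) ∧
        ∃ σ : Equiv.Perm (Fin t), ∀ j, (D j).map (Matrix.toLin' (x : Matrix (Fin d ⊕ Fin d) (Fin d ⊕ Fin d) F)) = D (σ j)) ↔
    (c ≤ a ∧ (2 * d) % c = t * (a % c)) := by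
  classical
  subst hq
  have hr := (Fact.out : r.Prime)
  have : NeZero r := ⟨hr.ne_zero⟩
  have hrF : ¬ r ∣ Fintype.card F := fun h => by
    obtain ⟨e, hp, he⟩ := FiniteField.card F p
    rw [he] at h
    exact hrp ((Nat.prime_dvd_prime_iff_eq hr hp).1 (hr.dvd_of_dvd_pow h))
  have hr3 : 3 ≤ r := by have := hr.two_le; omega
  have hi0 : 0 < i := hi ▸ Elusive.orderOf_pos_of_not_dvd hrF
  have hc0 : 0 < c := by rw [hc]; split_ifs <;> omega
  have hir : i ∣ r - 1 := hi ▸ ZMod.orderOf_dvd_card_sub_one fun h => hrF ((ZMod.natCast_eq_zero_iff _ _).1 h)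
  have hcr : c ≤ r - 1 := by
    refine Nat.le_of_dvd (by omega) ?_
    rw [hc]
    split_ifs with he
    · exact hir
    · exact (Nat.coprime_two_left.2 (Nat.not_even_iff_odd.1 he)).mul_dvd_of_dvd_of_dvd
        (even_iff_two_dvd.1 (Nat.Odd.sub_odd (hr.odd_of_ne_two hr2) odd_one)) hir
  set B := Forms.sympBil d F
  have hfam : ∀ (g : Module.End F (Fin d ⊕ Fin d → F)), g ^ r = 1 → (∀ u v, B (g u) (g v) = B u v) →
      t * (a % c) ≤ Module.finrank F (LinearMap.ker (g - 1)) →
      ∃ D : Fin t → Submodule F (Fin d ⊕ Fin d → F), Elusive.IsOrthDecomp d a D ∧ ∀ j, (D j).map g = D j := by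
    intro g hg hgB hle
    obtain ⟨D, hD, ho, hsup⟩ := Elusive.exists_orth_family Forms.sympBil_isAlt hgB hg hrF hr2 hi hc hae t ⊤
      (fun v _ => trivial) (Elusive.nonDegOn_top Forms.sympBil_nondegenerate)
      (by rw [finrank_top, Module.finrank_fintype_fun_eq_card, Fintype.card_sum, Fintype.card_fin]; omega)
      (by rwa [top_inf_eq])
    refine ⟨D, Elusive.isOrthDecomp_of_family ht (by omega) (fun j => (hD j).1) (fun j => (hD j).2.2) ho hsup, fun j =>
      Submodule.eq_of_le_of_finrank_le (Submodule.map_le_iff_le_comap.2 (hD j).2.1)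
        (Submodule.equivMapOfInjective g (Elusive.injective_of_pow_eq_one (r := r) hg) _).finrank_eq.le⟩
  constructor
  · intro h
    have hne : Nonempty {D : Fin t → Submodule F (Fin d ⊕ Fin d → F) // Elusive.IsOrthDecomp d a D} := by
      obtain ⟨D, hD, -⟩ := hfam 1 (one_pow r) (fun _ _ => rfl) (by
        rw [sub_self, LinearMap.ker_zero, finrank_top, Module.finrank_fintype_fun_eq_card, Fintype.card_sum, Fintype.card_fin]
        calc t * (a % c) ≤ t * a := Nat.mul_le_mul_left t (Nat.mod_le a c)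
          _ = d + d := by rw [mul_comm, ← hat]; omega)
      exact ⟨⟨D, hD⟩⟩
    obtain ⟨h1, h2⟩ := Elusive.card_orthDecomp hae hne
    have hcn : c ≤ 2 * d := Elusive.le_of_dvd_card_symplecticGroup hrF hi hc
      ((hΩ.trans (Nat.div_dvd_of_dvd h1)).trans h2)
    have key : ∀ j, 0 < j → j * c ≤ 2 * d →
        ∃ s u : ℕ, r * s + u = t ∧ s * a + u * (a % c) ≤ 2 * d - j * c ∧ s * a * (r - 1) ≤ j * c := by
      intro j hj hjn
      obtain ⟨x, hx, hker⟩ := Elusive.exists_moving_element (F := F) (d := d) hrF hr2 hi hc hjn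
      obtain ⟨D, hD, σ, hσ⟩ := h x ⟨1, by rw [hx, OneMemClass.coe_one, one_smul]⟩ (fun z hz => by
        have hgr := Elusive.toLin'_pow_of_pow_eq_one hx
        have hBx := Elusive.sympBil_toLin' x (Pi.single (Sum.inl ⟨0, by omega⟩) 1) (Pi.single (Sum.inr ⟨0, by omega⟩) 1)
        rw [hz, map_smul, Matrix.toLin'_one, ← Module.End.one_eq_id] at hker hgr hBx
        have : z = 1 := by
          have hzr : z ^ r = 1 := by
            rw [smul_pow, one_pow] at hgr
            have := congrFun (LinearMap.congr_fun hgr (Pi.single (Sum.inl ⟨0, by omega⟩) 1)) (Sum.inl ⟨0, by omega⟩)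
            simpa using this
          have hz2 : z * z = 1 := by
            simpa [Forms.sympBil_apply, Forms.sympForm_apply, Pi.single_apply, mul_assoc] using hBx
          obtain ⟨k, hk⟩ := hr.odd_of_ne_two hr2
          rw [hk, pow_succ, pow_mul, pow_two, hz2, one_pow, one_mul] at hzr
          exact hzr
        rw [this, one_smul, sub_self, LinearMap.ker_zero, finrank_top, Module.finrank_fintype_fun_eq_card, Fintype.card_sum,
          Fintype.card_fin] at hker
        have := Nat.le_mul_of_pos_left c hj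
        omega)
      obtain ⟨s, u, h1, h2, h3⟩ := Elusive.decomposition_bounds' (Elusive.toLin'_pow_of_pow_eq_one hx) hD.1 σ hσ
        (ℓ := a % c) fun l hl => by
          have hinv : ∀ v ∈ D l, Matrix.toLin' (x : Matrix (Fin d ⊕ Fin d) (Fin d ⊕ Fin d) F) v ∈ D l := fun v hv => by
            have h := (hσ l).le ⟨v, hv, rfl⟩
            rwa [hl] at h
          obtain ⟨M, -, -, -, -, -, -, -, m, hm, -⟩ := Elusive.exists_moving_part Forms.sympBil_isAlt
            (Elusive.sympBil_toLin' x) (Elusive.toLin'_pow_of_pow_eq_one hx) hrF hr2 hinv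
            (Elusive.IsOrthDecomp.nonDegOn hD l) hi hc
          rw [hD.1.finrank_eq] at hm
          conv_lhs => rw [hm, Nat.add_mul_mod_self_right]
          exact Nat.mod_le _ _
      rw [hker] at h2 h3
      rw [Fintype.card_sum, Fintype.card_fin] at h3
      exact ⟨s, u, h1, h2, by omega⟩
    have hkmod : (2 * d) % c = t * (a % c) % c := by rw [hat, mul_comm t, Nat.mod_mul_mod]
    have hca : c ≤ a := by
      by_contra hlt
      obtain ⟨s, u, g1, g2, g3⟩ := key 1 one_pos (by omega)
      have hs : s = 0 := by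
        by_contra hs
        have h4 : 2 * (r - 1) ≤ s * a * (r - 1) :=
          Nat.mul_le_mul_right _ (ha.trans (Nat.le_mul_of_pos_left a (Nat.pos_of_ne_zero hs)))
        omega
      subst hs
      rw [Nat.mul_zero, Nat.zero_add] at g1
      subst g1
      rw [Nat.zero_mul, Nat.zero_add, Nat.mod_eq_of_lt (by omega : a < c), mul_comm, ← hat] at g2
      omega
    refine ⟨hca, ?_⟩
    have hQc := Nat.div_add_mod' (2 * d) c
    obtain ⟨s, u, g1, g2, -⟩ := key (2 * d / c) (Nat.div_pos hcn hc0) (by omega)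
    rw [show 2 * d - 2 * d / c * c = (2 * d) % c by omega] at g2
    have hlt : (2 * d) % c < c := Nat.mod_lt _ hc0
    have hs : s = 0 := by
      by_contra hs
      have : a ≤ s * a := Nat.le_mul_of_pos_left a (Nat.pos_of_ne_zero hs)
      omega
    subst hs
    rw [Nat.mul_zero, Nat.zero_add] at g1
    subst g1
    rw [Nat.zero_mul, Nat.zero_add] at g2
    rw [hkmod, Nat.mod_eq_of_lt (lt_of_le_of_lt g2 hlt)]
  · rintro ⟨-, hk⟩ x ⟨z, hz⟩ -
    set f : Module.End F (Fin d ⊕ Fin d → F) := Matrix.toLin' (x : Matrix (Fin d ⊕ Fin d) (Fin d ⊕ Fin d) F)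
    have hfz : f ^ r = z • 1 := by
      show (Matrix.toLinAlgEquiv' (x : Matrix (Fin d ⊕ Fin d) (Fin d ⊕ Fin d) F) : Module.End F _) ^ r = _
      rw [← map_pow, ← SubmonoidClass.coe_pow, hz, map_smul, map_one]
    have hfB : ∀ u v, B (f u) (f v) = B u v := Elusive.sympBil_toLin' x
    have hz2 : z * z = 1 := by
      have hpowB : ∀ k u v, B ((f ^ k) u) ((f ^ k) v) = B u v := fun k => by
        induction k with
        | zero => intro u v; simp
        | succ k ih => intro u v; rw [pow_succ', Module.End.mul_apply, Module.End.mul_apply, hfB, ih]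
      have := hpowB r (Pi.single (Sum.inl ⟨0, by omega⟩) 1) (Pi.single (Sum.inr ⟨0, by omega⟩) 1)
      rw [hfz] at this
      simpa [B, Forms.sympBil_apply, Forms.sympForm_apply, Pi.single_apply, mul_assoc] using this
    set g := z • f with hg
    have hgr : g ^ r = 1 := by
      obtain ⟨k, hk'⟩ := hr.odd_of_ne_two hr2
      rw [hg, smul_pow, hfz, smul_smul, ← pow_succ, hk', show 2 * k + 1 + 1 = 2 * (k + 1) by ring, pow_mul, pow_two,
        hz2, one_pow, one_smul]
    have hgB : ∀ u v, B (g u) (g v) = B u v := fun u v => by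
      rw [hg, LinearMap.smul_apply, LinearMap.smul_apply, map_smul, map_smul, LinearMap.smul_apply, smul_eq_mul,
        smul_eq_mul, hfB, ← mul_assoc, hz2, one_mul]
    obtain ⟨M, -, -, -, -, -, -, -, m, hm, -⟩ := Elusive.exists_moving_part (W := ⊤) Forms.sympBil_isAlt hgB hgr hrF hr2
      (fun v _ => trivial) (Elusive.nonDegOn_top Forms.sympBil_nondegenerate) hi hc
    rw [finrank_top, top_inf_eq, Module.finrank_fintype_fun_eq_card, Fintype.card_sum, Fintype.card_fin, ← two_mul] at hm
    obtain ⟨D, hD, hmap⟩ := hfam g hgr hgB (by rw [← hk, hm, Nat.add_mul_mod_self_right]; exact Nat.mod_le _ _)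
    refine ⟨D, hD, 1, fun j => ?_⟩
    have hz0 : z ≠ 0 := left_ne_zero_of_mul (by rw [hz2]; exact one_ne_zero)
    rw [← Submodule.map_smul f _ z hz0, Equiv.Perm.one_apply]
    exact hmap j

end Cfsg.Agent.S5961
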