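import Cfsg.Statements.S5962
import Cfsg.Agent.Elusive.SympInvolution

set_option autoImplicit false
open scoped MatrixGroups
open Cfsg

namespace Cfsg.Agent.S5962

/-- Involutions of PSp_n(q), q odd, and the subgroups GL_{n/2}(q).2. Here `T = PSp_n(q)`, `n = 2d ≥ 4`, `q` odd, realised through the symplectic matrices over the field `F` with `q` elements; Ω is the set of unordered pairs `{U, W}` of complementary totally isotropic `d`-spaces (`F^n = U ⊕ W`), whose stabilizers are the subgroups of type GL_d(q).2 (maximal except in some small cases; maximality is not assumed); an element of `T` of prime order `r` (a symplectic matrix `x` with `x^r` scalar, `x` not scalar) fixes such a pair when it fixes or interchanges `U` and `W`. If the number of such pairs is even, every involution of `T` fixes one of them (the action is 2-elusive). -/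
theorem result {F : Type*} [Field F] [Fintype F] {p : ℕ} [Fact p.Prime] [CharP F p] {q : ℕ} (hq : Fintype.card F = q)
    (d : ℕ) (hd : 2 ≤ d) (hT : (d, q) ≠ (2, 2)) (hodd : Odd q)
    (hΩ : 2 ∣ Nat.card {P : Submodule F (Fin d ⊕ Fin d → F) × Submodule F (Fin d ⊕ Fin d → F) // IsCompl P.1 P.2 ∧ (∀ u ∈ P.1, ∀ v ∈ P.1, Cfsg.sympForm d F u v = 0) ∧ (∀ u ∈ P.2, ∀ v ∈ P.2, Cfsg.sympForm d F u v = 0)} / 2)
    (x : ↥(Matrix.symplecticGroup (Fin d) F))
    (hx1 : ∃ z : F, ((x ^ 2 : ↥(Matrix.symplecticGroup (Fin d) F)) : Matrix (Fin d ⊕ Fin d) (Fin d ⊕ Fin d) F) = z • (1 : Matrix (Fin d ⊕ Fin d) (Fin d ⊕ Fin d) F))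
    (hx2 : ∀ z : F, (x : Matrix (Fin d ⊕ Fin d) (Fin d ⊕ Fin d) F) ≠ z • (1 : Matrix (Fin d ⊕ Fin d) (Fin d ⊕ Fin d) F)) :
    ∃ U W : Submodule F (Fin d ⊕ Fin d → F), IsCompl U W ∧ (∀ u ∈ U, ∀ v ∈ U, Cfsg.sympForm d F u v = 0) ∧ (∀ u ∈ W, ∀ v ∈ W, Cfsg.sympForm d F u v = 0) ∧
        ((U.map (Matrix.toLin' (x : Matrix (Fin d ⊕ Fin d) (Fin d ⊕ Fin d) F)) = U ∧ W.map (Matrix.toLin' (x : Matrix (Fin d ⊕ Fin d) (Fin d ⊕ Fin d) F)) = W) ∨
         (U.map (Matrix.toLin' (x : Matrix (Fin d ⊕ Fin d) (Fin d ⊕ Fin d) F)) = W ∧ W.map (Matrix.toLin' (x : Matrix (Fin d ⊕ Fin d) (Fin d ⊕ Fin d) F)) = U)) := by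
  classical
  have h2 : (2 : F) ≠ 0 := Ring.two_ne_zero fun hc => by
    have := FiniteField.even_card_iff_char_two.1 hc
    rw [hq] at this
    exact Nat.not_even_iff_odd.2 hodd (Nat.even_iff.2 this)
  obtain ⟨z, hz⟩ := hx1
  obtain ⟨hiso, hff, hzz⟩ := Elusive.symp_sq_scalar (by omega) x hz
  set f := Matrix.toLin' (x : Matrix (Fin d ⊕ Fin d) (Fin d ⊕ Fin d) F)
  have hB := Forms.sympBil_isAlt (m := d) (F := F)
  have hz0 : z ≠ 0 := left_ne_zero_of_mul_eq_one hzz
  let Q : (Fin d ⊕ Fin d → F) → (Fin d ⊕ Fin d → F) → Prop := fun v w =>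
    if z = 1 then f v ∈ Submodule.span F {v} ∧ f w ∈ Submodule.span F {w}
    else f v ∈ Submodule.span F {w} ∧ f w ∈ Submodule.span F {v}
  have step : ∀ S, Elusive.NondegInv (Forms.sympBil d F) f S → S ≠ ⊥ →
      Elusive.HasBlock (Forms.sympBil d F) f S Q := by
    intro S hS hne
    by_cases hz1 : z = 1
    · exact Elusive.hasBlock_eigen _ f S hB h2 (fun v => by rw [hff, hz1, one_smul]) hiso hS hne _
        (fun v w h h' => by simp only [Q, if_pos hz1]; exact ⟨h, h'⟩)
    · have hzm : z = -1 := (mul_self_eq_one_iff.1 hzz).resolve_left hz1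
      by_cases hv : ∃ u ∈ S, Forms.sympBil d F u (f u) ≠ 0
      · obtain ⟨u, hu, hun⟩ := hv
        refine Elusive.hasBlock_of_ne _ f S hB hff hS hu hun _ fun u c hc => ?_
        simp only [Q, if_neg hz1]
        refine ⟨Submodule.mem_span_singleton.2 ⟨c⁻¹, by rw [smul_smul, inv_mul_cancel₀ hc, one_smul]⟩,
          Submodule.mem_span_singleton.2 ⟨c * z, by rw [map_smul, hff, smul_smul]⟩⟩
      · push Not at hv
        exact absurd (Elusive.two_eq_zero_of_isotropic _ f S hB
          (fun v => by rw [hff, hzm, neg_one_smul]) hiso hS hne hv) h2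
  obtain ⟨ι, _, _, v, w, π, hfam, hspan, -, -, hQ⟩ :=
    Elusive.exists_planes _ f hB hz0 hff hiso _ step ⊤ (Elusive.nondegInv_top f)
  have hli := hfam.linearIndependent hB
  let U := Submodule.span F (Set.range v)
  let W := Submodule.span F (Set.range w)
  have hinj : Function.Injective f := fun u y h => by
    have := congrArg f h
    rw [hff, hff] at this
    exact smul_right_injective _ hz0 this
  have hU : Module.finrank F U = Fintype.card ι := finrank_span_eq_card (hli.comp _ Sum.inl_injective)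
  have hW : Module.finrank F W = Fintype.card ι := finrank_span_eq_card (hli.comp _ Sum.inr_injective)
  have hzero : ∀ (y : ι → Fin d ⊕ Fin d → F), (∀ i j, Forms.sympBil d F (y i) (y j) = 0) →
      ∀ a ∈ Submodule.span F (Set.range y), ∀ b ∈ Submodule.span F (Set.range y), sympForm d F a b = 0 := by
    intro y hy a ha b hb
    rw [← Forms.sympBil_apply]
    induction ha using Submodule.span_induction with
    | mem p hp =>
      induction hb using Submodule.span_induction with
      | mem q hq => obtain ⟨i, rfl⟩ := hp; obtain ⟨j, rfl⟩ := hq; exact hy i j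
      | zero => simp
      | add _ _ _ _ h1 h2 => rw [map_add, h1, h2, add_zero]
      | smul c _ _ h1 => rw [map_smul, h1, smul_zero]
    | zero => simp
    | add _ _ _ _ h1 h2 => rw [map_add, LinearMap.add_apply, h1, h2, add_zero]
    | smul c _ _ h1 => rw [map_smul, LinearMap.smul_apply, h1, smul_zero]
  have hmaps : ∀ (y y' : ι → Fin d ⊕ Fin d → F), (∀ i, f (y i) ∈ Submodule.span F {y' i}) →
      Module.finrank F (Submodule.span F (Set.range y')) ≤ Module.finrank F (Submodule.span F (Set.range y)) →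
      (Submodule.span F (Set.range y)).map f = Submodule.span F (Set.range y') := by
    intro y y' h hle
    refine Submodule.eq_of_le_of_finrank_le ?_ ?_
    · rw [Submodule.map_span, Submodule.span_le]
      rintro _ ⟨_, ⟨i, rfl⟩, rfl⟩
      exact Submodule.span_mono (Set.singleton_subset_iff.2 (Set.mem_range_self i)) (h i)
    · rwa [← (Submodule.equivMapOfInjective f hinj _).finrank_eq]
  refine ⟨U, W, ⟨?_, ?_⟩, hzero v hfam.vv, hzero w hfam.ww, ?_⟩
  · have := (linearIndependent_sum.1 hli).2.2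
    simpa [U, W, Function.comp_def] using this
  · rw [codisjoint_iff, ← Submodule.span_union, ← Set.Sum.elim_range, hspan]
  · by_cases hz1 : z = 1
    · simp only [Q, if_pos hz1] at hQ
      exact Or.inl ⟨hmaps v v (fun i => (hQ i).1) le_rfl, hmaps w w (fun i => (hQ i).2) le_rfl⟩
    · simp only [Q, if_neg hz1] at hQ
      exact Or.inr ⟨hmaps v w (fun i => (hQ i).1) (hW.trans hU.symm).le,
        hmaps w v (fun i => (hQ i).2) (hU.trans hW.symm).le⟩

end Cfsg.Agent.S5962
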