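import Cfsg.Statements.S5963
import Cfsg.Agent.Elusive.PairCount
import Cfsg.Agent.Elusive.Primitive
import Cfsg.Agent.Elusive.Embed

set_option autoImplicit false
open scoped MatrixGroups
open Cfsg

namespace Cfsg.Agent.S5963

/-- Derangements of odd prime order of PSp_n(q), q odd, on pairs of complementary totally isotropic subspaces. Here `T = PSp_n(q)`, `n = 2d ≥ 4`, `q` odd, realised through the symplectic matrices over the field `F` with `q` elements; Ω is the set of unordered pairs `{U, W}` of complementary totally isotropic `d`-spaces (`F^n = U ⊕ W`), whose stabilizers are the subgroups of type GL_d(q).2 (maximal except in some small cases; maximality is not assumed); an element of `T` of prime order `r` (a symplectic matrix `x` with `x^r` scalar, `x` not scalar) fixes such a pair when it fixes or interchanges `U` and `W`. For every odd prime `r ≠ p` dividing the number of such pairs, some element of `T` of order `r` fixes no such pair (the action is never `r`-elusive for odd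 `r ≠ p`). -/
theorem result {F : Type*} [Field F] [Fintype F] {p : ℕ} [Fact p.Prime] [CharP F p] {q : ℕ} (hq : Fintype.card F = q)
    (d : ℕ) (hd : 2 ≤ d) (hT : (d, q) ≠ (2, 2)) (hodd : Odd q)
    (r : ℕ) [Fact r.Prime] (hr2 : r ≠ 2) (hrp : r ≠ p) (hΩ : r ∣ Nat.card {P : Submodule F (Fin d ⊕ Fin d → F) × Submodule F (Fin d ⊕ Fin d → F) // IsCompl P.1 P.2 ∧ (∀ u ∈ P.1, ∀ v ∈ P.1, Cfsg.sympForm d F u v = 0) ∧ (∀ u ∈ P.2, ∀ v ∈ P.2, Cfsg.sympForm d F u v = 0)} / 2) :
    ∃ x : ↥(Matrix.symplecticGroup (Fin d) F),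
      (∃ z : F, ((x ^ r : ↥(Matrix.symplecticGroup (Fin d) F)) : Matrix (Fin d ⊕ Fin d) (Fin d ⊕ Fin d) F) = z • (1 : Matrix (Fin d ⊕ Fin d) (Fin d ⊕ Fin d) F)) ∧
      (∀ z : F, (x : Matrix (Fin d ⊕ Fin d) (Fin d ⊕ Fin d) F) ≠ z • (1 : Matrix (Fin d ⊕ Fin d) (Fin d ⊕ Fin d) F)) ∧
      ¬ (∃ U W : Submodule F (Fin d ⊕ Fin d → F), IsCompl U W ∧ (∀ u ∈ U, ∀ v ∈ U, Cfsg.sympForm d F u v = 0) ∧ (∀ u ∈ W, ∀ v ∈ W, Cfsg.sympForm d F u v = 0) ∧
        ((U.map (Matrix.toLin' (x : Matrix (Fin d ⊕ Fin d) (Fin d ⊕ Fin d) F)) = U ∧ W.map (Matrix.toLin' (x : Matrix (Fin d ⊕ Fin d) (Fin d ⊕ Fin d) F)) = W) ∨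
         (U.map (Matrix.toLin' (x : Matrix (Fin d ⊕ Fin d) (Fin d ⊕ Fin d) F)) = W ∧ W.map (Matrix.toLin' (x : Matrix (Fin d ⊕ Fin d) (Fin d ⊕ Fin d) F)) = U))) := by
  classical
  have hrpr := (Fact.out : r.Prime)
  have hrq : ¬ r ∣ Fintype.card F := by
    intro h
    obtain ⟨e, hp', he⟩ := FiniteField.card F p
    rw [he] at h
    exact hrp ((Nat.prime_dvd_prime_iff_eq hrpr hp').1 (hrpr.dvd_of_dvd_pow h))
  have hdvdΩ : r ∣ Nat.card (Elusive.IsoPair F d) := by
    rcases Nat.even_or_odd (Nat.card (Elusive.IsoPair F d)) with ⟨c, hc⟩ | hodd2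
    · rw [show Nat.card (Elusive.IsoPair F d) = c * 2 by omega, Nat.mul_div_cancel _ (by norm_num : 0 < 2)] at hΩ
      rw [show Nat.card (Elusive.IsoPair F d) = c * 2 by omega]
      exact hΩ.mul_right 2
    · exfalso
      -- swapping the members is a fixed-point-free involution
      have hpair : Even (Nat.card (Elusive.IsoPair F d)) := by
        rw [Nat.even_iff]
        have : Fintype (Elusive.IsoPair F d) := Fintype.ofFinite _
        let sw : Elusive.IsoPair F d → Elusive.IsoPair F d := fun P => ⟨(P.1.2, P.1.1), P.2.1.symm, P.2.2.2, P.2.2.1⟩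
        have hsw : ∀ P, sw P ≠ P := by
          intro P h
          have he : P.1.2 = P.1.1 := congrArg (fun Q => Q.1.1) h
          have hbot := P.2.1.inf_eq_bot
          have htop := P.2.1.sup_eq_top
          rw [he, inf_idem] at hbot
          rw [he, sup_idem, hbot] at htop
          have := congrArg (fun S : Submodule F (Fin d ⊕ Fin d → F) => Module.finrank F S) htop
          simp [finrank_bot, finrank_top] at this
          omega
        have := Finset.prod_involution (s := (Finset.univ : Finset (Elusive.IsoPair F d))) (f := fun _ => (-1 : ℤ))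
          (fun P _ => sw P) (fun P _ => by simp) (fun P _ _ => hsw P) (fun P _ => Finset.mem_univ _)
          (fun P _ => rfl)
        rw [Finset.prod_const, Finset.card_univ, neg_one_pow_eq_one_iff_even (by decide)] at this
        rw [Nat.card_eq_fintype_card]
        exact Nat.even_iff.1 this
      exact Nat.not_even_iff_odd.2 hodd2 hpair
  obtain ⟨i, hid, hri⟩ := Elusive.exists_dvd_pow_add_one hrpr hrq hdvdΩ
  set e := orderOf ((Fintype.card F : ℕ) : ZMod r)
  have hne1 : ((Fintype.card F : ℕ) : ZMod r) ^ (i + 1) = -1 := by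
    have h0 : ((Fintype.card F ^ (i + 1) + 1 : ℕ) : ZMod r) = 0 := (CharP.cast_eq_zero_iff (ZMod r) r _).2 hri
    push_cast at h0
    exact eq_neg_of_add_eq_zero_left h0
  have h2r : (-1 : ZMod r) ≠ 1 := by
    intro h
    have h2 : ((2 : ℕ) : ZMod r) = 0 := by push_cast; linear_combination -h
    exact hr2 ((Nat.prime_dvd_prime_iff_eq hrpr Nat.prime_two).1 ((CharP.cast_eq_zero_iff (ZMod r) r _).1 h2))
  have he2 : e ∣ 2 * (i + 1) := orderOf_dvd_of_pow_eq_one (by
    rw [mul_comm, pow_mul, hne1, neg_one_sq])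
  have he1 : ¬ e ∣ i + 1 := fun h => h2r (hne1.symm.trans (orderOf_dvd_iff_pow_eq_one.1 h))
  obtain ⟨j, hj⟩ : 2 ∣ e := by
    by_contra h
    exact he1 ((Nat.Coprime.dvd_of_dvd_mul_left
      ((Nat.prime_two.coprime_iff_not_dvd.2 h).symm) he2))
  have hj0 : 0 < j := by
    rcases Nat.eq_zero_or_pos j with rfl | h
    · rw [hj] at he2; simp at he2
    · exact h
  have hjd : j ≤ d := by
    have := Nat.le_of_dvd (by omega) he2
    omega
  obtain ⟨y, hy, hirr⟩ := Elusive.exists_irreducible_symp (F := F) hj0 hj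
  set fy := Matrix.toLin' (y : Matrix (Fin j ⊕ Fin j) (Fin j ⊕ Fin j) F)
  let x := Elusive.sympEmbed hjd y
  have hxl := Elusive.toLin'_sympEmbed hjd y
  have hxr : x ^ r = 1 := by
    simp only [x]
    rw [← map_pow, ← hy, pow_orderOf_eq_one, map_one]
  have hy1 : fy ≠ 1 := fun h => by
    have hy1' : y = 1 := Subtype.ext (Matrix.toLin'.injective (by
      rw [show Matrix.toLin' (y : Matrix (Fin j ⊕ Fin j) (Fin j ⊕ Fin j) F) = fy from rfl, h,
        Module.End.one_eq_id]
      exact Matrix.toLin'_one.symm))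
    rw [hy1', orderOf_one] at hy
    exact hrpr.ne_one hy.symm
  refine ⟨x, ⟨1, by rw [hxr, one_smul]; rfl⟩, fun z hz => ?_, ?_⟩
  · -- a scalar would fix every line
    have hl : ∀ a, fy a = z • a := fun a => by
      have h1 := congrArg (fun M => Elusive.sympProj F hjd (Matrix.toLin' M (Elusive.sympExt F hjd a))) hz
      rw [hxl, Elusive.sympProj_blockEnd, Elusive.sympProj_sympExt, map_smul, Matrix.toLin'_one,
        LinearMap.smul_apply, LinearMap.id_apply, map_smul, Elusive.sympProj_sympExt] at h1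
      exact h1
    let a : Fin j ⊕ Fin j → F := Pi.single (Sum.inl ⟨0, hj0⟩) 1
    have ha : a ≠ 0 := fun h => by simpa [a] using congrFun h (Sum.inl ⟨0, hj0⟩)
    rcases hirr (Submodule.span F {a}) (fun v hv => by rw [show Matrix.toLin' (y : Matrix (Fin j ⊕ Fin j) (Fin j ⊕ Fin j) F) v = z • v from hl v]; exact Submodule.smul_mem _ _ hv) with h | h
    · exact ha (Submodule.span_singleton_eq_bot.1 h)
    · have := congrArg (fun S : Submodule F (Fin j ⊕ Fin j → F) => Module.finrank F S) h
      simp only [finrank_span_singleton ha, finrank_top, Module.finrank_fintype_fun_eq_card,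
        Fintype.card_sum, Fintype.card_fin] at this
      omega
  rintro ⟨U, W, hc, hU, hW, hfix⟩
  have hpowmap : ∀ (S : Submodule F (Fin d ⊕ Fin d → F)) (k : ℕ),
      S.map (Matrix.toLin' (x : Matrix (Fin d ⊕ Fin d) (Fin d ⊕ Fin d) F)) = S →
      S.map (Matrix.toLin' ((x ^ k : ↥(Matrix.symplecticGroup (Fin d) F)) : Matrix (Fin d ⊕ Fin d) (Fin d ⊕ Fin d) F)) = S := by
    intro S k hS
    induction k with
    | zero => rw [pow_zero, Submonoid.coe_one, Matrix.toLin'_one, Submodule.map_id]
    | succ k ih => rw [pow_succ', Submonoid.coe_mul, Matrix.toLin'_mul, Submodule.map_comp, ih, hS]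
  rcases hfix with ⟨hxU, hxW⟩ | ⟨hxU, hxW⟩
  swap
  · -- an element of odd order does not interchange
    obtain ⟨k, hk⟩ := hrpr.odd_of_ne_two hr2
    have h1 : ∀ k, U.map (Matrix.toLin' ((x ^ (2 * k + 1) : ↥(Matrix.symplecticGroup (Fin d) F)) : Matrix (Fin d ⊕ Fin d) (Fin d ⊕ Fin d) F)) = W := by
      intro k
      induction k with
      | zero => rw [mul_zero, zero_add, pow_one, hxU]
      | succ k ih =>
        rw [show 2 * (k + 1) + 1 = (2 * k + 1) + 1 + 1 by ring, pow_succ', pow_succ', Submonoid.coe_mul,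
          Submonoid.coe_mul, Matrix.toLin'_mul, Matrix.toLin'_mul, Submodule.map_comp, Submodule.map_comp,
          ih, hxW, hxU]
    have hUW := h1 k
    rw [← hk, hxr, Submonoid.coe_one, Matrix.toLin'_one, Submodule.map_id] at hUW
    have hbot := hc.inf_eq_bot
    have htop := hc.sup_eq_top
    rw [← hUW, inf_idem] at hbot
    rw [← hUW, sup_idem, hbot] at htop
    have := congrArg (fun S : Submodule F (Fin d ⊕ Fin d → F) => Module.finrank F S) htop
    simp [finrank_bot, finrank_top] at this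
    omega
  · have key : ∀ S : Submodule F (Fin d ⊕ Fin d → F), (∀ u ∈ S, ∀ v ∈ S, sympForm d F u v = 0) →
        S.map (Matrix.toLin' (x : Matrix (Fin d ⊕ Fin d) (Fin d ⊕ Fin d) F)) = S →
        ∀ u ∈ S, (fy - 1) (Elusive.sympProj F hjd u) = 0 := by
      intro S hS hxS
      rw [hxl] at hxS
      let T := S.map ((fy - 1) ∘ₗ Elusive.sympProj F hjd)
      have hT : ∀ v ∈ T, fy v ∈ T := by
        rintro _ ⟨u, hu, rfl⟩
        refine ⟨Elusive.blockEnd hjd fy u, hxS.le ⟨u, hu, rfl⟩, ?_⟩
        simp [Elusive.sympProj_blockEnd]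
      have hE : ∀ v ∈ T, Elusive.sympExt F hjd v ∈ S := by
        rintro _ ⟨u, hu, rfl⟩
        have h1 : Elusive.blockEnd hjd fy u ∈ S := hxS.le ⟨u, hu, rfl⟩
        have h2 := sub_mem h1 hu
        simpa [Elusive.blockEnd] using h2
      rcases hirr T hT with h | h
      · intro u hu
        have : (fy - 1) (Elusive.sympProj F hjd u) ∈ T := ⟨u, hu, rfl⟩
        rw [h] at this
        exact this
      · exfalso
        have h1 := hS _ (hE (Pi.single (Sum.inr ⟨0, hj0⟩) 1) (h ▸ Submodule.mem_top))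
          _ (hE (Pi.single (Sum.inl ⟨0, hj0⟩) 1) (h ▸ Submodule.mem_top))
        rw [← Forms.sympBil_apply, Elusive.sympBil_sympExt, Elusive.sympProj_sympExt, Forms.sympBil_apply,
          Forms.sympForm_apply] at h1
        simp [Pi.single_apply] at h1
    apply hy1
    refine LinearMap.ext fun a => ?_
    obtain ⟨u, hu, w, hw, he⟩ := Submodule.mem_sup.1 (hc.sup_eq_top.symm ▸ Submodule.mem_top (x := Elusive.sympExt F hjd a))
    have h1 := congrArg₂ (· + ·) (key U hU hxU u hu) (key W hW hxW w hw)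
    rw [← map_add, ← map_add, he, Elusive.sympProj_sympExt, add_zero, LinearMap.sub_apply, sub_eq_zero] at h1
    exact h1

end Cfsg.Agent.S5963
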