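import Cfsg.Statements.S5964
import Cfsg.Agent.Elusive.QuadStructure
import Cfsg.Agent.Elusive.SLCriterion
import Cfsg.Agent.Linear.Orders

set_option autoImplicit false
open scoped MatrixGroups
open Cfsg

namespace Cfsg.Agent.S5964

open Matrix Finset

/-- The index of the subfield subgroup is odd for odd `q` and odd degree. -/
theorem odd_index {F : Type*} [Field F] [Fintype F] (F₀ : Subfield F) {n k q₀ : ℕ} (hn : 0 < n)
    (hF₀ : Nat.card F₀ = q₀) (hqk : Fintype.card F = q₀ ^ k) (hk : Odd k) (hq : Odd (Fintype.card F))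
    (H : Subgroup (Matrix.SpecialLinearGroup (Fin n) F))
    (hH : ∀ M : Matrix.SpecialLinearGroup (Fin n) F₀, Matrix.SpecialLinearGroup.map F₀.subtype M ∈ H) :
    Odd H.index := by
  classical
  have : Fintype F₀ := Fintype.ofFinite _
  have : Nonempty (Fin n) := ⟨⟨0, hn⟩⟩
  rw [Nat.card_eq_fintype_card] at hF₀
  have hq₀ : Odd q₀ := by
    rw [hqk] at hq; exact (Nat.odd_pow_iff hk.pos.ne').1 hq
  have hq₀1 : 2 ≤ q₀ := by rw [← hF₀]; exact Fintype.one_lt_card
  let R : ℕ → ℕ := fun j => ∑ i ∈ range k, (q₀ ^ j) ^ i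
  have hR : ∀ j, R j * (q₀ ^ j - 1) = Fintype.card F ^ j - 1 := fun j => by
    rw [geom_sum_mul_of_one_le (Nat.one_le_pow _ _ (by omega)), hqk, ← pow_mul, ← pow_mul, mul_comm j k]
  have hRodd : ∀ j, Odd (R j) := fun j => by
    rw [Finset.odd_sum_iff_odd_card_odd, Finset.filter_true_of_mem (fun i _ => hq₀.pow.pow), card_range]
    exact hk
  let ψ : Matrix.SpecialLinearGroup (Fin n) F₀ →* H :=
    (Matrix.SpecialLinearGroup.map F₀.subtype).codRestrict H hH
  have hψ : Function.Injective ψ := fun A B h => by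
    apply Subtype.ext
    ext a b
    exact congrFun (congrFun (congrArg (fun z : H => ((z.1 : Matrix.SpecialLinearGroup (Fin n) F) : Matrix (Fin n) (Fin n) F)) h) a) b
  obtain ⟨c, hc⟩ := Subgroup.card_dvd_of_injective ψ hψ
  have hGL := Linear.card_GL_eq_mul_card_SL (F := F) (ι := Fin n)
  have hGL0 := Linear.card_GL_eq_mul_card_SL (F := F₀) (ι := Fin n)
  rw [Linear.card_GL_factor, Nat.card_units, Nat.card_eq_fintype_card] at hGL hGL0
  rw [hF₀] at hGL0
  set s := n * (n - 1) / 2
  set P := ∏ i : Fin n, R (n - i)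
  have hP : Odd P := prod_induction _ _ (fun a b => Odd.mul) odd_one fun i _ => hRodd _
  have e1 : ∏ i : Fin n, (Fintype.card F ^ (n - (i : ℕ)) - 1) = P * ∏ i : Fin n, (q₀ ^ (n - (i : ℕ)) - 1) := by
    rw [← prod_mul_distrib]; exact prod_congr rfl fun i _ => (hR _).symm
  have e2 : Fintype.card F - 1 = R 1 * (q₀ - 1) := by simpa using (hR 1).symm
  obtain ⟨u, hu⟩ : ∃ u, k = u + 1 := ⟨k - 1, by have := hk.pos; omega⟩
  have e3 : Fintype.card F ^ s = q₀ ^ s * (q₀ ^ u) ^ s := by
    rw [hqk, hu, pow_succ, mul_pow, mul_comm]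
  rw [e1, e2, e3, ← H.card_mul_index, hc] at hGL
  set T := Nat.card (Matrix.SpecialLinearGroup (Fin n) F₀)
  have key : (q₀ - 1) * T * ((q₀ ^ u) ^ s * P) = (q₀ - 1) * T * (R 1 * (c * H.index)) := by
    rw [← hGL0]
    calc q₀ ^ s * (∏ i : Fin n, (q₀ ^ (n - (i : ℕ)) - 1)) * ((q₀ ^ u) ^ s * P)
        = q₀ ^ s * (q₀ ^ u) ^ s * (P * ∏ i : Fin n, (q₀ ^ (n - (i : ℕ)) - 1)) := by ring
      _ = _ := by rw [hGL]
      _ = _ := by rw [hGL0]; ring
  have hT : 0 < (q₀ - 1) * T := Nat.mul_pos (by omega) Nat.card_pos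
  have h1 := Nat.eq_of_mul_eq_mul_left hT key
  have h2 : Odd ((q₀ ^ u) ^ s * P) := hq₀.pow.pow.mul hP
  rw [h1] at h2
  exact (Nat.odd_mul.1 (Nat.odd_mul.1 h2).2).2

/-- A map with square `w²` is `w` times a map with coefficients in the prime field in some basis. -/
theorem exists_subfield_basis {F : Type*} [Field F] {n : ℕ} (F₀ : Subfield F) {g : Module.End F (Fin n → F)}
    {w : F} (hw : w ≠ 0) (hgg : ∀ v, g (g v) = (w * w) • v) :
    ∃ (e : (Fin n → F) ≃ₗ[F] (Fin n → F)) (M : GL (Fin n) F₀),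
      ∀ v, e (g v) = w • (((M : Matrix (Fin n) (Fin n) F₀).map F₀.subtype) *ᵥ e v) := by
  classical
  obtain ⟨ι, _, b, π, a, hπ, hb, ha⟩ := Elusive.exists_monomial g (mul_ne_zero hw hw) hgg
  have haa : ∀ i, a i ≠ 0 := fun i h => mul_ne_zero hw hw (by rw [← ha i, h, zero_mul])
  let o := Fintype.equivFin ι
  let sc : ι → Fˣ := fun i => if o (π i) < o i then Units.mk0 (a (π i) / w) (div_ne_zero (haa _) hw) else 1
  let b' := b.unitsSMul sc
  let c : ι → F₀ := fun i => if π i = i then (if a i = w then 1 else -1) else 1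
  have hcc : ∀ i, c i * c (π i) = 1 := fun i => by
    simp only [c, hπ]
    by_cases h : π i = i
    · simp only [if_pos h, h]
      split_ifs <;> norm_num
    · rw [if_neg h, if_neg (fun h' => h h'.symm), one_mul]
  have hgb : ∀ i, g (b' i) = (w * (c i : F)) • b' (π i) := by
    intro i
    rw [Module.Basis.unitsSMul_apply, Module.Basis.unitsSMul_apply, Units.smul_def, Units.smul_def, map_smul, hb,
      smul_smul, smul_smul]
    congr 1
    by_cases h : π i = i
    · have h2 := ha i
      rw [h] at h2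
      simp only [sc, c, h, if_pos, lt_irrefl, if_false, Units.val_one, one_mul, mul_one]
      split_ifs with hw'
      · simp [hw']
      · have : a i = -w := (mul_self_eq_mul_self_iff.1 h2).resolve_left hw'
        simp [this]
    · simp only [sc, c, if_neg h, hπ, OneMemClass.coe_one, mul_one]
      rcases lt_or_gt_of_ne (fun e => h (o.injective e)) with hlt | hlt
      · rw [if_pos hlt, if_neg hlt.not_gt, Units.val_mk0, Units.val_one, mul_one]
        have := ha i
        field_simp
        linear_combination this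
      · rw [if_neg hlt.not_gt, if_pos hlt, Units.val_mk0, Units.val_one, one_mul]
        field_simp
  have hcard : Fintype.card ι = n := by rw [← Module.finrank_eq_card_basis b, Module.finrank_fin_fun]
  let σ : ι ≃ Fin n := o.trans (finCongr hcard)
  let B := b'.reindex σ
  let M₀ : Matrix (Fin n) (Fin n) F₀ := Matrix.of fun j k => if j = σ (π (σ.symm k)) then c (σ.symm k) else 0
  have hMM : M₀ * M₀ = 1 := by
    refine Matrix.ext fun j k => ?_
    simp only [M₀, Matrix.mul_apply, Matrix.of_apply]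
    rw [Finset.sum_eq_single (σ (π (σ.symm k))) (fun l _ hl => by rw [if_neg hl, mul_zero]) (fun h => absurd (mem_univ _) h)]
    simp only [σ.symm_apply_apply, hπ, σ.apply_symm_apply, if_true, Matrix.one_apply]
    split_ifs with h
    · rw [mul_comm]; exact hcc _
    · rw [zero_mul]
  refine ⟨B.equivFun, ⟨M₀, M₀, hMM, hMM⟩, fun v => ?_⟩
  have key : (w • Matrix.toLin' (M₀.map F₀.subtype)) ∘ₗ B.equivFun.toLinearMap = B.equivFun.toLinearMap ∘ₗ g := by
    refine B.ext fun k => ?_
    have h1 : g (B k) = (w * (c (σ.symm k) : F)) • B (σ (π (σ.symm k))) := by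
      simp only [B, Module.Basis.reindex_apply, σ.symm_apply_apply, hgb]
    simp only [LinearMap.comp_apply, LinearEquiv.coe_coe, h1, map_smul, Module.Basis.equivFun_self,
      LinearMap.smul_apply, Matrix.toLin'_apply]
    funext j
    simp only [Pi.smul_apply, Matrix.mulVec, dotProduct, Matrix.map_apply, M₀, Matrix.of_apply, smul_eq_mul]
    rw [Finset.sum_eq_single k (fun l _ hl => by rw [Module.Basis.equivFun_self, if_neg (Ne.symm hl), mul_zero]) (fun h => absurd (mem_univ _) h)]
    simp only [Module.Basis.equivFun_self, if_true, mul_one, eq_comm (a := j)]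
    split_ifs <;> simp
  exact (LinearMap.congr_fun key v).symm

/-- Involutions of PSL_n(q) and subfield subgroups. Here `T = PSL_n(F)` for a field `F` with `q = p^f` elements (`n ≥ 2`, `(n, q) ≠ (2, 2), (2, 3)`), `F₀` is the subfield with `q₀` elements where `q = q₀^k` for a prime `k`, and `H` is the subgroup of matrices of determinant 1 lying in the subfield group of `F₀` (invertible matrices over `F₀` times scalars) — a maximal subgroup of type GL_n(q₀) (the case `n = 2`, `q₀ = 2` is excluded); Ω is the set of `T`-conjugates of `H` (cosets of `H`), so an element of `T` of prime order `r` (a matrix `x` of determinant 1 with `x^r` scalar, `x` not scalar) fixes a point of Ω when some conjugate of `x` by a matrix of determinant 1 lies in `H`. Suppose the index of `H` is even. Then every involution of `T` is conjugate in `T` into `H` if and only if either `q` is even, or `k = 2` and `(n)_2 ≤ (q − 1)_2`. (For `q` odd and `k` odd the index of `H` is odd, so that case does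 not arise.) -/
theorem result {F : Type*} [Field F] [Fintype F] {p : ℕ} [Fact p.Prime] [CharP F p] {q : ℕ} (hq : Fintype.card F = q)
    (n : ℕ) (hn : 2 ≤ n) (hT : (n, q) ≠ (2, 2) ∧ (n, q) ≠ (2, 3))
    (F₀ : Subfield F) (k q₀ : ℕ) (hk : k.Prime) (hF₀ : Nat.card ↥F₀ = q₀) (hqk : q = q₀ ^ k) (hC5 : ¬ (n = 2 ∧ q₀ = 2)) (hΩ : 2 ∣ ((Cfsg.Geo.subfieldSubgroup F₀ 1).comap (Matrix.SpecialLinearGroup.toGL : Matrix.SpecialLinearGroup (Fin n) F →* GL (Fin n) F)).index) :
    (∀ x : Matrix.SpecialLinearGroup (Fin n) F,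
      (∃ z : F, ((x ^ 2 : Matrix.SpecialLinearGroup (Fin n) F) : Matrix (Fin n) (Fin n) F) = z • (1 : Matrix (Fin n) (Fin n) F)) →
      (∀ z : F, (x : Matrix (Fin n) (Fin n) F) ≠ z • (1 : Matrix (Fin n) (Fin n) F)) →
      ∃ P : Matrix.SpecialLinearGroup (Fin n) F, P⁻¹ * x * P ∈ ((Cfsg.Geo.subfieldSubgroup F₀ 1).comap (Matrix.SpecialLinearGroup.toGL : Matrix.SpecialLinearGroup (Fin n) F →* GL (Fin n) F))) ↔
    (Odd q → (k = 2 ∧ padicValNat 2 n ≤ padicValNat 2 (q - 1))) := by
  classical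
  subst hq
  have hn0 : 0 < n := by omega
  have : Nonempty (Fin n) := ⟨⟨0, hn0⟩⟩
  have : Fintype F₀ := Fintype.ofFinite _
  set H := (Cfsg.Geo.subfieldSubgroup F₀ 1).comap (Matrix.SpecialLinearGroup.toGL : Matrix.SpecialLinearGroup (Fin n) F →* GL (Fin n) F) with hHdef
  have mem_of : ∀ (X : Matrix.SpecialLinearGroup (Fin n) F) (w : Fˣ) (M : GL (Fin n) F₀),
      (X : Matrix (Fin n) (Fin n) F) = (w : F) • ((M : Matrix (Fin n) (Fin n) F₀).map F₀.subtype) → X ∈ H := by
    intro X w M hX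
    rw [hHdef, Subgroup.mem_comap, Cfsg.Geo.subfieldSubgroup, Subgroup.mem_map]
    refine ⟨Matrix.GeneralLinearGroup.map (F₀.subtype : F₀ →+* F) M *
      Units.map (Matrix.scalar (Fin n) : F →+* Matrix (Fin n) (Fin n) F).toMonoidHom w,
      Subgroup.mul_mem_sup ⟨M, rfl⟩ ⟨w, rfl⟩, ?_⟩
    apply Units.ext
    simp only [MulEquiv.coe_toMonoidHom, MulAut.conj_apply, one_mul, inv_one, mul_one, Units.val_mul,
      Matrix.SpecialLinearGroup.coe_GL_coe_matrix, hX]
    show (M : Matrix (Fin n) (Fin n) F₀).map F₀.subtype * Matrix.scalar (Fin n) (w : F) = _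
    rw [Matrix.scalar_apply, ← Matrix.smul_one_eq_diagonal, Matrix.mul_smul, mul_one]
  have of_mem : ∀ X ∈ H, ∃ (w : Fˣ) (M : GL (Fin n) F₀),
      (X : Matrix (Fin n) (Fin n) F) = (w : F) • ((M : Matrix (Fin n) (Fin n) F₀).map F₀.subtype) := by
    intro X hX
    rw [hHdef, Subgroup.mem_comap, Cfsg.Geo.subfieldSubgroup, Subgroup.mem_map] at hX
    obtain ⟨Y, hY, hYX⟩ := hX
    have hnormal : (Cfsg.Geo.scalars (Fin n) F).Normal := ⟨fun a ha g => by
      obtain ⟨c, rfl⟩ := ha
      refine ⟨c, ?_⟩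
      apply Units.ext
      simp only [Units.coe_map, Units.val_mul, RingHom.toMonoidHom_eq_coe, MonoidHom.coe_coe]
      rw [← (Matrix.scalar_commute (c : F) (fun r => Commute.all _ r) _).eq, mul_assoc, Units.mul_inv, mul_one]⟩
    obtain ⟨A, ⟨M, rfl⟩, S, ⟨w, rfl⟩, rfl⟩ := Subgroup.mem_sup_of_normal_right.1 hY
    refine ⟨w, M, ?_⟩
    have := congrArg (fun g : GL (Fin n) F => (g : Matrix (Fin n) (Fin n) F)) hYX
    simp only [MulEquiv.coe_toMonoidHom, MulAut.conj_apply, one_mul, inv_one, mul_one, Units.val_mul,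
      Matrix.SpecialLinearGroup.coe_GL_coe_matrix] at this
    rw [← this]
    show (M : Matrix (Fin n) (Fin n) F₀).map F₀.subtype * Matrix.scalar (Fin n) (w : F) = _
    rw [Matrix.scalar_apply, ← Matrix.smul_one_eq_diagonal, Matrix.mul_smul, mul_one]
  have hcardF : Fintype.card F = q₀ ^ k := hqk
  -- squares as `2`nd powers are conjugate into `H`
  have good : ∀ (x : Matrix.SpecialLinearGroup (Fin n) F) (w : F), w ≠ 0 →
      (∀ v, Matrix.toLin' (x : Matrix (Fin n) (Fin n) F) (Matrix.toLin' (x : Matrix (Fin n) (Fin n) F) v) = (w * w) • v) →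
      ∃ P : Matrix.SpecialLinearGroup (Fin n) F, P⁻¹ * x * P ∈ H := by
    intro x w hw hgg
    set g : Module.End F (Fin n → F) := Matrix.toLin' (x : Matrix (Fin n) (Fin n) F)
    obtain ⟨e, M, he⟩ := exists_subfield_basis F₀ hw hgg
    obtain ⟨ι, _, b, π, a, hπ, hb, ha⟩ := Elusive.exists_monomial g (mul_ne_zero hw hw) hgg
    have : Nonempty ι := b.index_nonempty
    obtain ⟨y, hy, hyd⟩ := Elusive.exists_commute_det b π hπ a hb (fun i => by rw [ha]; exact mul_ne_zero hw hw)
      (LinearMap.det e.toLinearMap)⁻¹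
    let Q : Matrix.SpecialLinearGroup (Fin n) F := ⟨LinearMap.toMatrix' (e.toLinearMap * y), by
      rw [LinearMap.det_toMatrix', map_mul, hyd, mul_inv_cancel₀ e.isUnit_det'.ne_zero]⟩
    refine ⟨Q⁻¹, mem_of _ (Units.mk0 w hw) M ?_⟩
    rw [inv_inv, Units.val_mk0]
    have hQx : (Q : Matrix (Fin n) (Fin n) F) * (x : Matrix (Fin n) (Fin n) F) =
        (w • (M : Matrix (Fin n) (Fin n) F₀).map F₀.subtype) * (Q : Matrix (Fin n) (Fin n) F) := by
      apply Matrix.toLinAlgEquiv'.injective
      rw [map_mul, map_mul, map_smul]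
      have hQ : Matrix.toLinAlgEquiv' (Q : Matrix (Fin n) (Fin n) F) = e.toLinearMap * y := by
        show Matrix.toLin' (LinearMap.toMatrix' (e.toLinearMap * y)) = _
        exact Matrix.toLin'_toMatrix' _
      refine LinearMap.ext fun v => ?_
      rw [hQ]
      show e (y (g v)) = w • ((M : Matrix (Fin n) (Fin n) F₀).map F₀.subtype *ᵥ e (y v))
      rw [show y (g v) = g (y v) from LinearMap.congr_fun hy v, he]
    rw [Matrix.SpecialLinearGroup.coe_mul, Matrix.SpecialLinearGroup.coe_mul, hQx, mul_assoc,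
      ← Matrix.SpecialLinearGroup.coe_mul, mul_inv_cancel, Matrix.SpecialLinearGroup.coe_one, mul_one]
  constructor
  · intro h hodd
    have hk2 : k = 2 := by
      by_contra hk2
      have hkodd := hk.odd_of_ne_two hk2
      have hi := odd_index F₀ hn0 hF₀ hcardF hkodd hodd H (fun M => mem_of _ 1 (Matrix.SpecialLinearGroup.toGL M) (by
        rw [Units.val_one, one_smul]; rfl))
      exact Nat.not_even_iff_odd.2 hi (even_iff_two_dvd.2 hΩ)
    refine ⟨hk2, ?_⟩
    by_contra hc
    have hF2 : ringChar F ≠ 2 := fun hc' => by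
      have := (FiniteField.even_card_iff_char_two (F := F)).1 hc'
      rw [Nat.odd_iff] at hodd; omega
    have hd2 : 2 ∣ Fintype.card F - 1 := by rw [Nat.odd_iff] at hodd; omega
    obtain ⟨z, hz, t, ht, het⟩ := (Elusive.exists_bad_scalar_iff hd2 hn0).2 fun h' => hc h'.1
    have ht0 : 0 < t := Nat.pos_of_ne_zero fun h0 => by rw [h0, zero_mul] at ht; omega
    obtain ⟨x, hx, hx'⟩ := Elusive.exists_element_bad Nat.prime_two ht ht0 hz het
    obtain ⟨P, hP⟩ := h x ⟨z, hx⟩ hx'
    obtain ⟨w, M, hM⟩ := of_mem _ hP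
    -- `z / w²` lies in the subfield, hence is a square
    have hsq : ((P⁻¹ * x * P) ^ 2 : Matrix.SpecialLinearGroup (Fin n) F) = P⁻¹ * x ^ 2 * P := by
      rw [pow_two, pow_two]; group
    have h1 : ((w : F) * w) • ((M * M : GL (Fin n) F₀) : Matrix (Fin n) (Fin n) F₀).map F₀.subtype = z • (1 : Matrix (Fin n) (Fin n) F) := by
      have e1 := congrArg (fun g : Matrix.SpecialLinearGroup (Fin n) F => (g : Matrix (Fin n) (Fin n) F)) hsq
      simp only [Matrix.SpecialLinearGroup.coe_mul, Matrix.SpecialLinearGroup.coe_pow] at e1 hM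
      rw [hM, ← Matrix.SpecialLinearGroup.coe_pow x 2, hx, Matrix.mul_smul, mul_one, Matrix.smul_mul,
        ← Matrix.SpecialLinearGroup.coe_mul, inv_mul_cancel, Matrix.SpecialLinearGroup.coe_one, pow_two,
        Matrix.smul_mul, Matrix.mul_smul, smul_smul, ← Matrix.map_mul] at e1
      exact e1
    set i0 : Fin n := ⟨0, hn0⟩
    have h2 := congrFun (congrFun h1 i0) i0
    simp only [Matrix.smul_apply, Matrix.map_apply, Matrix.one_apply_eq, smul_eq_mul, mul_one] at h2
    set m : F₀ := ((M * M : GL (Fin n) F₀) : Matrix (Fin n) (Fin n) F₀) i0 i0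
    have hsq' : IsSquare (F₀.subtype m) := by
      rcases eq_or_ne m 0 with h0 | h0
      · exact ⟨0, by rw [h0, map_zero, mul_zero]⟩
      rw [FiniteField.isSquare_iff hF2 (fun e => h0 (F₀.subtype.injective (e.trans (map_zero _).symm))), ← map_pow,
        ← map_one F₀.subtype]
      congr 1
      have hq0 : Odd q₀ := by
        have hodd' := hodd
        rw [hcardF] at hodd'; exact (Nat.odd_pow_iff hk.ne_zero).1 hodd'
      obtain ⟨j, hj⟩ := hq0
      rw [show Fintype.card F / 2 = (Fintype.card F₀ - 1) * (j + 1) by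
        rw [hcardF, hk2, ← Nat.card_eq_fintype_card (α := F₀), hF₀, hj]
        rw [show (2 * j + 1) ^ 2 = 2 * (2 * j * (j + 1)) + 1 by ring, show 2 * j + 1 - 1 = 2 * j by omega]
        omega, pow_mul, FiniteField.pow_card_sub_one_eq_one m h0, one_pow]
    obtain ⟨s, hs⟩ := hsq'
    exact hz ((w : F) * s) (by rw [← h2, hs]; ring)
  · intro h x ⟨z, hz⟩ _
    have hz' := Elusive.toLin'_pow_eq_smul_one.1 hz
    have hgg : ∀ v, Matrix.toLin' (x : Matrix (Fin n) (Fin n) F) (Matrix.toLin' (x : Matrix (Fin n) (Fin n) F) v) = z • v := fun v => by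
      have := LinearMap.congr_fun hz' v
      rwa [pow_two] at this
    have hz0 : z ≠ 0 := by
      intro h0
      have h1 := (x ^ 2).det_coe
      rw [hz, h0, zero_smul, Matrix.det_zero] at h1
      exact zero_ne_one h1
    by_cases hsq : ∃ w, w * w = z
    · obtain ⟨w, rfl⟩ := hsq
      exact good x w (left_ne_zero_of_mul hz0) hgg
    exfalso
    have hno : ∀ b : F, b ^ 2 ≠ z := fun b hb => hsq ⟨b, by rw [← pow_two, hb]⟩
    have hF2 : ringChar F ≠ 2 := fun hc' => by
      obtain ⟨w, hw⟩ := FiniteField.isSquare_of_char_two hc' z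
      exact hsq ⟨w, hw.symm⟩
    have hodd : Odd (Fintype.card F) := Nat.odd_iff.2 (FiniteField.odd_card_of_char_ne_two hF2)
    obtain ⟨hk2, hv⟩ := h hodd
    have hq4 : Fintype.card F % 4 = 1 := by
      rw [hcardF, hk2]
      have hq0 : Odd q₀ := by rw [hcardF] at hodd; exact (Nat.odd_pow_iff hk.ne_zero).1 hodd
      obtain ⟨j, rfl⟩ := hq0
      rw [show (2 * j + 1) ^ 2 = 4 * (j * (j + 1)) + 1 by ring]; omega
    have hz2 : (x : Matrix (Fin n) (Fin n) F) ^ 2 = z • 1 := (Matrix.SpecialLinearGroup.coe_pow x 2).symm.trans hz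
    obtain ⟨t, ht, hdet⟩ := Elusive.det_of_pow_eq_scalar Nat.prime_two hno hz2
    exact (Elusive.exists_bad_scalar_iff (by rw [Nat.odd_iff] at hodd; omega) hn0).1
      ⟨z, hno, t, ht, hdet.symm.trans x.det_coe⟩ ⟨hv, fun _ _ => hq4⟩

end Cfsg.Agent.S5964
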