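import Cfsg.Statements.S5965
import Cfsg.Agent.Elusive.SubfieldConj

set_option autoImplicit false
open scoped MatrixGroups
open Cfsg

namespace Cfsg.Agent.S5965

open Matrix

/-- Five residues mod five with sum zero are symmetric about some point. -/
theorem symm_five : ∀ a b c d : ZMod 5, ∃ s : ZMod 5,
    ([s - a, s - b, s - c, s - d, s - -(a + b + c + d)] : List (ZMod 5)).Perm [a, b, c, d, -(a + b + c + d)] := by
  decide +kernel

/-- Three residues mod three with sum zero are symmetric about some point. -/
theorem symm_three : ∀ a b : ZMod 3, ∃ s : ZMod 3,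
    ([s - a, s - b, s - -(a + b)] : List (ZMod 3)).Perm [a, b, -(a + b)] := by
  decide +kernel

theorem exists_symm {r : ℕ} (hr : r = 3 ∨ r = 5) (D : Multiset (ZMod r)) (hD : Multiset.card D = r) (hs : D.sum = 0) :
    ∃ s, D.map (fun j => s - j) = D := by
  induction D using Quotient.inductionOn with
  | h l =>
  simp only [Multiset.quot_mk_to_coe, Multiset.coe_card, Multiset.sum_coe] at hD hs
  rcases hr with rfl | rfl
  · match l, hD with
    | [a, b, c], _ =>
      simp only [List.sum_cons, List.sum_nil, add_zero] at hs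
      obtain rfl : c = -(a + b) := by linear_combination hs
      obtain ⟨s, h⟩ := symm_three a b
      exact ⟨s, Multiset.coe_eq_coe.2 h⟩
  · match l, hD with
    | [a, b, c, d, e], _ =>
      simp only [List.sum_cons, List.sum_nil, add_zero] at hs
      obtain rfl : e = -(a + b + c + d) := by linear_combination hs
      obtain ⟨s, h⟩ := symm_five a b c d
      exact ⟨s, Multiset.coe_eq_coe.2 h⟩

/-- A multiset with two points of unique multiplicity is fixed by no map `j ↦ λ j + s` with `λ ≠ 1`. -/
theorem not_affine {r : ℕ} [Fact r.Prime] {lam : ZMod r} (hl : lam ≠ 0) (hl1 : lam ≠ 1) (D : Multiset (ZMod r))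
    {a b : ZMod r} (hab : a ≠ b) (ha : ∀ j, D.count j = D.count a → j = a) (hb : ∀ j, D.count j = D.count b → j = b)
    (s : ZMod r) : D.map (fun j => lam * j + s) ≠ D := by
  intro h
  have hinj : Function.Injective fun j : ZMod r => lam * j + s := fun x y e =>
    mul_left_cancel₀ hl (add_right_cancel e)
  have fix : ∀ c, (∀ j, D.count j = D.count c → j = c) → lam * c + s = c := fun c hc => hc _ (by
    conv_lhs => rw [← h]
    exact Multiset.count_map_eq_count' _ D hinj c)
  apply hl1
  have h1 := fix a ha
  have h2 := fix b hb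
  exact mul_right_cancel₀ (sub_ne_zero.2 hab) (show lam * (a - b) = 1 * (a - b) by linear_combination h1 - h2)

theorem prod_pow_val {F : Type*} [CommMonoid F] {r : ℕ} [NeZero r] {ζ : F} (hζ : ζ ^ r = 1) (D : Multiset (ZMod r)) :
    (D.map fun j : ZMod r => ζ ^ j.val).prod = ζ ^ D.sum.val := by
  induction D using Multiset.induction_on with
  | empty => simp
  | cons a D ih =>
    rw [Multiset.map_cons, Multiset.prod_cons, ih, Multiset.sum_cons, ← pow_add, ZMod.val_add,
      ← pow_eq_pow_mod _ hζ]

/-- Multiplicities of a multiset with at most three values. -/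
theorem count_three {α : Type*} [DecidableEq α] (x y z j : α) (i₁ i₂ i₃ : ℕ) :
    (Multiset.replicate i₁ x + Multiset.replicate i₂ y + Multiset.replicate i₃ z).count j =
      (if x = j then i₁ else 0) + (if y = j then i₂ else 0) + (if z = j then i₃ else 0) := by
  simp [Multiset.count_replicate]

/-- Elements of odd prime order r ≠ p of PSL_n(q) and subfield subgroups. Here `T = PSL_n(F)` for a field `F` with `q = p^f` elements (`n ≥ 2`, `(n, q) ≠ (2, 2), (2, 3)`), `F₀` is the subfield with `q₀` elements where `q = q₀^k` for a prime `k`, and `H` is the subgroup of matrices of determinant 1 lying in the subfield group of `F₀` (invertible matrices over `F₀` times scalars) — a maximal subgroup of type GL_n(q₀) (the case `n = 2`, `q₀ = 2` is excluded); Ω is the set of `T`-conjugates of `H` (cosets of `H`), so an element of `T` of prime order `r` (a matrix `x` of determinant 1 with `x^r` scalar, `x` not scalar) fixes a point of Ω when some conjugate of `x` by a matrix of determinant 1 lies in `H`. Let `r ≠ p` be an odd prime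 dividing the index of `H`, with `(n, r) ≠ (6, 3)` and, when `r = k` divides `q₀ − 1`, with `(n)_r ≤ (q − 1)_r`. Then every element of `T` of order `r` is conjugate in `T` into `H` if and only if `r = k`, or `k = 2`, `r = n ∈ {3, 5}` and `(q₀ + 1)_r = r`. The two excluded cases, `(n, r) = (6, 3)` and `r = k ∣ q₀ − 1` with `(n)_r > (q − 1)_r`, are ones where this criterion can fail, so they are left out. -/
theorem result {F : Type*} [Field F] [Fintype F] {p : ℕ} [Fact p.Prime] [CharP F p] {q : ℕ} (hq : Fintype.card F = q)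
    (n : ℕ) (hn : 2 ≤ n) (hT : (n, q) ≠ (2, 2) ∧ (n, q) ≠ (2, 3))
    (F₀ : Subfield F) (k q₀ : ℕ) (hk : k.Prime) (hF₀ : Nat.card ↥F₀ = q₀) (hqk : q = q₀ ^ k) (hC5 : ¬ (n = 2 ∧ q₀ = 2)) (r : ℕ) [Fact r.Prime] (hr2 : r ≠ 2) (hrp : r ≠ p) (hgap : ¬ (n = 6 ∧ r = 3)) (hgapk : r = k → r ∣ q₀ - 1 → padicValNat r n ≤ padicValNat r (q - 1)) (hΩ : r ∣ ((Cfsg.Geo.subfieldSubgroup F₀ 1).comap (Matrix.SpecialLinearGroup.toGL : Matrix.SpecialLinearGroup (Fin n) F →* GL (Fin n) F)).index) :
    (∀ x : Matrix.SpecialLinearGroup (Fin n) F,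
      (∃ z : F, ((x ^ r : Matrix.SpecialLinearGroup (Fin n) F) : Matrix (Fin n) (Fin n) F) = z • (1 : Matrix (Fin n) (Fin n) F)) →
      (∀ z : F, (x : Matrix (Fin n) (Fin n) F) ≠ z • (1 : Matrix (Fin n) (Fin n) F)) →
      ∃ P : Matrix.SpecialLinearGroup (Fin n) F, P⁻¹ * x * P ∈ ((Cfsg.Geo.subfieldSubgroup F₀ 1).comap (Matrix.SpecialLinearGroup.toGL : Matrix.SpecialLinearGroup (Fin n) F →* GL (Fin n) F))) ↔
    (r = k ∨ (k = 2 ∧ r = n ∧ (n = 3 ∨ n = 5) ∧ padicValNat r (q₀ + 1) = 1)) := by
  classical
  subst hq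
  have hr := (Fact.out : r.Prime)
  have : NeZero r := ⟨hr.ne_zero⟩
  have : Fintype F₀ := Fintype.ofFinite _
  have hn0 : 0 < n := by omega
  have : Nonempty (Fin n) := ⟨⟨0, hn0⟩⟩
  rw [Nat.card_eq_fintype_card] at hF₀
  have hq₀1 : 2 ≤ q₀ := by rw [← hF₀]; exact Fintype.one_lt_card
  have hr3 : 3 ≤ r := by have := hr.two_le; omega
  have hrF : ¬ r ∣ Fintype.card F := fun h => by
    obtain ⟨e, hp, he⟩ := FiniteField.card F p
    rw [he] at h
    exact hrp ((Nat.prime_dvd_prime_iff_eq hr hp).1 (hr.dvd_of_dvd_pow h))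
  have hrq₀ : ¬ r ∣ q₀ := fun h => hrF (hqk ▸ dvd_pow h hk.ne_zero)
  set a : ZMod r := (q₀ : ZMod r) with hadef
  have ha0 : a ≠ 0 := fun h => hrq₀ ((ZMod.natCast_eq_zero_iff _ _).1 h)
  have hqa : ((Fintype.card F : ℕ) : ZMod r) = a ^ k := by rw [hqk, Nat.cast_pow]
  set e₀ := orderOf a with he₀
  have he₀d : e₀ ∣ r - 1 := ZMod.orderOf_dvd_card_sub_one ha0
  have he₀pos : 0 < e₀ := Nat.pos_of_ne_zero fun h => by rw [h, zero_dvd_iff] at he₀d; omega
  have hfin : IsOfFinOrder a := orderOf_pos_iff.1 he₀pos
  set e := orderOf ((Fintype.card F : ℕ) : ZMod r) with he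
  have hee : e = e₀ / Nat.gcd e₀ k := by rw [he, hqa, hfin.orderOf_pow]
  -- divisors of `(q^i - 1)/(q₀^i - 1)`
  have hRdiv : ∀ i, r ∣ ∑ l ∈ Finset.range k, (q₀ ^ i) ^ l → r ≠ k →
      a ^ (i * k) = 1 ∧ a ^ i ≠ 1 := by
    intro i hi hrk
    have h0 : ∑ l ∈ Finset.range k, (a ^ i) ^ l = 0 := by
      have := (ZMod.natCast_eq_zero_iff _ _).2 hi
      simpa [hadef] using this
    refine ⟨?_, fun h1 => ?_⟩
    · have := geom_sum_mul (a ^ i) k
      rw [h0, zero_mul, ← pow_mul] at this
      exact sub_eq_zero.1 this.symm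
    · rw [h1] at h0
      simp only [one_pow, Finset.sum_const, Finset.card_range, nsmul_eq_mul, mul_one] at h0
      exact hrk ((Nat.prime_dvd_prime_iff_eq hr hk).1 ((ZMod.natCast_eq_zero_iff _ _).1 h0))
  set H := (Cfsg.Geo.subfieldSubgroup F₀ 1).comap (Matrix.SpecialLinearGroup.toGL : Matrix.SpecialLinearGroup (Fin n) F →* GL (Fin n) F)
  have hindex : r ≠ k → ∃ i, 2 ≤ i ∧ i ≤ n ∧ a ^ (i * k) = 1 ∧ a ^ i ≠ 1 := by
    intro hrk
    by_contra hno
    push Not at hno
    refine Elusive.not_dvd_index_of_forall F₀ hr hn0 (by rw [Nat.card_eq_fintype_card, hF₀]) hqk hk.pos hrq₀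
      (fun i h1 h2 hd => (hRdiv i hd hrk).2 (hno i h1 h2 (hRdiv i hd hrk).1)) H (fun M => ?_) hΩ
    exact Elusive.mem_subfield_of F₀ one_ne_zero (Matrix.SpecialLinearGroup.toGL M) (by rw [one_smul]; rfl)
  have hkdvd : r ≠ k → k ∣ e₀ := by
    intro hrk
    obtain ⟨i, -, -, h1, h2⟩ := hindex hrk
    by_contra hnd
    have hcop : Nat.Coprime e₀ k := ((hk.coprime_iff_not_dvd).2 hnd).symm
    exact h2 (orderOf_dvd_iff_pow_eq_one.1 (hcop.dvd_of_dvd_mul_right (orderOf_dvd_of_pow_eq_one h1)))
  constructor
  · intro h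
    by_contra hcon
    rw [not_or] at hcon
    obtain ⟨hrk, hcase⟩ := hcon
    have hke := hkdvd hrk
    have hek : e * k = e₀ := by rw [hee, Nat.gcd_eq_right hke, Nat.div_mul_cancel hke]
    obtain ⟨i, hi2, hin, hi1, hine⟩ := hindex hrk
    have hei : e ∣ i := Nat.dvd_of_mul_dvd_mul_right hk.pos (hek ▸ orderOf_dvd_of_pow_eq_one hi1)
    have hen : e ≤ n := (Nat.le_of_dvd (by omega) hei).trans hin
    have hr0 : ¬ r ∣ q₀ - 1 := fun hd => by
      have h1 : a = 1 := by
        rw [hadef, ← sub_eq_zero, ← Nat.cast_one, ← Nat.cast_sub (by omega), ZMod.natCast_eq_zero_iff]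
        exact hd
      have : e₀ = 1 := by rw [he₀, h1, orderOf_one]
      rw [this, Nat.dvd_one] at hke
      exact hk.ne_one hke
    rcases Nat.lt_or_ge e 2 with he2 | he2
    swap
    · -- a single moving block
      obtain ⟨x, hx, hx', hker⟩ := Elusive.exists_element_fixed (F := F) (n := n) p (r := r) he2 (c := n - e) (t := 1)
        one_pos (by omega)
      obtain ⟨P, hP⟩ := h x ⟨1, hx⟩ hx'
      obtain ⟨v, M, hM⟩ := Elusive.exists_of_mem_subfield F₀ hP
      rw [Matrix.SpecialLinearGroup.coe_pow, one_smul] at hx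
      have h1 : ((v : F) • (M : Matrix (Fin n) (Fin n) F₀).map F₀.subtype) ^ r = 1 := by
        rw [← hM, ← Matrix.SpecialLinearGroup.coe_pow]
        have : (P⁻¹ * x * P) ^ r = P⁻¹ * x ^ r * P := by
          have := (conj_pow (a := P⁻¹) (b := x) (i := r))
          simpa using this
        rw [this, Matrix.SpecialLinearGroup.coe_mul, Matrix.SpecialLinearGroup.coe_mul, Matrix.SpecialLinearGroup.coe_pow, hx,
          mul_one, ← Matrix.SpecialLinearGroup.coe_mul, inv_mul_cancel, Matrix.SpecialLinearGroup.coe_one]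
      -- the scalar lies in the subfield
      have hvF : (v : F) ∈ F₀ := by
        rw [_root_.smul_pow] at h1
        have h00 := congrFun (congrFun h1 ⟨0, hn0⟩) ⟨0, hn0⟩
        rw [Matrix.smul_apply, smul_eq_mul, Matrix.one_apply_eq] at h00
        have hmem : (v : F) ^ r ∈ F₀ := by
          rw [eq_inv_of_mul_eq_one_left h00]
          refine inv_mem ?_
          have h := Matrix.map_pow (M : Matrix (Fin n) (Fin n) F₀) F₀.subtype r
          simp only [← h, Matrix.map_apply]
          exact Subtype.prop _
        obtain ⟨b, hb⟩ := Elusive.exists_pow_eq_of_not_dvd hr (by rwa [hF₀]) (⟨_, hmem⟩ : F₀)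
        have hb' : (b : F) ^ r = (v : F) ^ r := congrArg Subtype.val hb
        have hne : (v : F) / b ≠ 0 := div_ne_zero v.ne_zero (fun h0 => by
          rw [h0, zero_pow hr.ne_zero] at hb'; exact pow_ne_zero r v.ne_zero hb'.symm)
        have hvb : ((v : F) / b) ^ r = 1 := by rw [div_pow, hb', div_self (pow_ne_zero r v.ne_zero)]
        have := pow_gcd_eq_one.2 ⟨hvb, FiniteField.pow_card_sub_one_eq_one _ hne⟩
        rw [((hr.coprime_iff_not_dvd).2 (Elusive.not_dvd_sub_one he2)).gcd_eq_one, pow_one] at this
        rw [eq_of_div_eq_one this]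
        exact b.2
      set Y : Matrix (Fin n) (Fin n) F₀ := (⟨_, hvF⟩ : F₀) • (M : Matrix (Fin n) (Fin n) F₀)
      have hY : Y.map F₀.subtype = ((P⁻¹ * x * P : Matrix.SpecialLinearGroup (Fin n) F) : Matrix (Fin n) (Fin n) F) := by
        rw [hM]; exact Matrix.ext fun i j => rfl
      have hYr : (Matrix.toLin' Y : Module.End F₀ (Fin n → F₀)) ^ r = 1 := by
        show (Matrix.toLinAlgEquiv' Y) ^ r = 1
        rw [← map_pow, ← map_one (Matrix.toLinAlgEquiv' : Matrix (Fin n) (Fin n) F₀ ≃ₐ[F₀] _)]
        congr 1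
        refine Matrix.map_injective (f := F₀.subtype) Subtype.val_injective ?_
        simp only [Matrix.map_pow, hY, hM, h1, Matrix.map_one _ (map_zero _) (map_one _)]
      have hmod := Elusive.finrank_fixed_mod (r := r) hYr (by rwa [hF₀])
      have hcc : Module.finrank F₀ (LinearMap.ker ((Matrix.toLin' Y : Module.End F₀ (Fin n → F₀)) - 1)) = n - e := by
        rw [show (Matrix.toLin' Y : Module.End F₀ (Fin n → F₀)) - 1 = Matrix.toLin' (Y - 1) by
          rw [map_sub, Matrix.toLin'_one]; rfl, ← Elusive.finrank_ker_map F₀ hF₀ hqk, ← hker,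
          Matrix.map_sub _ (map_sub F₀.subtype), hY, Matrix.map_one _ (map_zero _) (map_one _)]
        -- conjugation by `P`
        let E : (Fin n → F) ≃ₗ[F] (Fin n → F) := LinearEquiv.ofLinearMap (Matrix.toLin' (P : Matrix (Fin n) (Fin n) F))
          (Matrix.toLin' ((P⁻¹ : Matrix.SpecialLinearGroup (Fin n) F) : Matrix (Fin n) (Fin n) F))
          (by rw [← Matrix.toLin'_mul, ← Matrix.SpecialLinearGroup.coe_mul, mul_inv_cancel, Matrix.SpecialLinearGroup.coe_one, Matrix.toLin'_one])
          (by rw [← Matrix.toLin'_mul, ← Matrix.SpecialLinearGroup.coe_mul, inv_mul_cancel, Matrix.SpecialLinearGroup.coe_one, Matrix.toLin'_one])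
        rw [← LinearEquiv.finrank_map_eq E]
        refine congrArg (fun S : Submodule F (Fin n → F) => Module.finrank F S) (Submodule.ext fun u => ?_)
        have hPP : ∀ w : Fin n → F, (P : Matrix (Fin n) (Fin n) F) *ᵥ (((P⁻¹ : Matrix.SpecialLinearGroup (Fin n) F) : Matrix (Fin n) (Fin n) F) *ᵥ w) = w := fun w => by
          rw [Matrix.mulVec_mulVec, ← Matrix.SpecialLinearGroup.coe_mul, mul_inv_cancel, Matrix.SpecialLinearGroup.coe_one, Matrix.one_mulVec]
        rw [Submodule.mem_map_equiv, LinearMap.mem_ker, LinearMap.mem_ker, show E.symm u = ((P⁻¹ : Matrix.SpecialLinearGroup (Fin n) F) : Matrix (Fin n) (Fin n) F) *ᵥ u from rfl,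
          Matrix.toLin'_apply, Matrix.sub_mulVec, Matrix.one_mulVec, LinearMap.sub_apply, Module.End.one_apply,
          Matrix.toLin'_apply, sub_eq_zero, sub_eq_zero, Matrix.SpecialLinearGroup.coe_mul, Matrix.SpecialLinearGroup.coe_mul,
          ← Matrix.mulVec_mulVec, hPP, ← Matrix.mulVec_mulVec]
        constructor
        · intro h'
          have := congrArg (fun w => (P : Matrix (Fin n) (Fin n) F) *ᵥ w) h'
          simpa only [hPP] using this
        · intro h'
          rw [h']
      rw [hcc, hF₀, Module.finrank_fin_fun, ← hadef, ← he₀] at hmod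
      have hdvd : e₀ ∣ e := by
        have := Nat.ModEq.symm hmod
        rw [Nat.ModEq.comm, Nat.modEq_iff_dvd' (Nat.sub_le _ _), Nat.sub_sub_self hen] at this
        exact this
      have hle := Nat.le_of_dvd (by omega) hdvd
      have := Nat.mul_le_mul_left e hk.two_le
      omega
    -- now `r ∣ q - 1`
    have he1 : e = 1 := by
      have : 0 < e := Nat.pos_of_ne_zero fun h0 => by rw [h0, zero_mul] at hek; omega
      omega
    rw [he1, one_mul] at hek
    have hd : r ∣ Fintype.card F - 1 := Elusive.orderOf_eq_one_iff_dvd.1 he1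
    have hk2n : k = 2 → 3 ≤ n := by
      rintro rfl
      by_contra hn3
      obtain rfl : i = 2 := by omega
      exact hine (by rw [hek]; exact pow_orderOf_eq_one a)
    have ha1 : a ≠ 1 := fun h1 => hk.ne_one (by rw [hek, he₀, h1, orderOf_one])
    have hcardU : Nat.card Fˣ = Fintype.card F - 1 := by rw [Nat.card_units, Nat.card_eq_fintype_card]
    -- it suffices to find suitable multiplicities
    suffices hex : ∃ (w ζ : F) (D : Multiset (ZMod r)), IsPrimitiveRoot ζ r ∧ Multiset.card D = n ∧
        w ^ n * ζ ^ D.sum.val = 1 ∧ (∀ s, D.map (fun j => a * j + s) ≠ D) ∧ ∃ c d, c ∈ D ∧ d ∈ D ∧ c ≠ d by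
      obtain ⟨w, ζ, D, hζ, hD, hdet, hno, c, d, hc, hd', hcd⟩ := hex
      obtain ⟨x, hx, hx', hx''⟩ := Elusive.exists_not_conj_of_multiset F₀ hF₀ hζ D hD
        (by rw [prod_pow_val hζ.pow_eq_one]; exact hdet) hno hc hd' hcd
      obtain ⟨P, hP⟩ := h x ⟨_, hx⟩ hx'
      exact hx'' P hP
    by_cases hv : padicValNat r n < padicValNat r (Fintype.card F - 1)
    · -- a scalar absorbs the determinant
      set b := padicValNat r n with hb
      have hdvd : r ^ (b + 1) ∣ Nat.card Fˣ := by
        rw [hcardU]; exact (pow_dvd_pow r hv).trans pow_padicValNat_dvd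
      obtain ⟨γ, hγ⟩ := IsCyclic.exists_generator (α := Fˣ)
      have hoγ := orderOf_eq_card_of_forall_mem_zpowers hγ
      set w : Fˣ := γ ^ (Nat.card Fˣ / r ^ (b + 1))
      have hw : orderOf w = r ^ (b + 1) := by
        rw [orderOf_pow_of_dvd (Nat.div_pos (Nat.le_of_dvd Nat.card_pos hdvd) (pow_pos hr.pos _)).ne'
          (hoγ.symm ▸ Nat.div_dvd_of_dvd hdvd), hoγ, Nat.div_div_self hdvd Nat.card_pos.ne']
      have hwn : orderOf (w ^ n)⁻¹ = r := by
        obtain ⟨n', hn', hnn⟩ : ∃ n', ¬ r ∣ n' ∧ n = r ^ b * n' := by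
          obtain ⟨n', hn'⟩ : r ^ b ∣ n := pow_padicValNat_dvd
          refine ⟨n', fun hd' => ?_, hn'⟩
          have : r ^ (b + 1) ∣ n := by rw [hn', pow_succ]; exact Nat.mul_dvd_mul_left _ hd'
          exact pow_succ_padicValNat_not_dvd hn0.ne' this
        have hg : Nat.gcd (r ^ (b + 1)) n = r ^ b := by
          rw [hnn, pow_succ, Nat.gcd_mul_left, ((hr.coprime_iff_not_dvd).2 hn').gcd_eq_one, mul_one]
        rw [orderOf_inv, orderOf_pow, hw, hg, pow_succ, Nat.mul_div_cancel_left _ (pow_pos hr.pos _)]
      refine ⟨w, (((w ^ n)⁻¹ : Fˣ) : F), Multiset.replicate (n - 1) 0 + Multiset.replicate 1 1,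
        IsPrimitiveRoot.coe_units_iff.2 (by have := IsPrimitiveRoot.orderOf (w ^ n)⁻¹; rwa [hwn] at this),
        by rw [Multiset.card_add, Multiset.card_replicate, Multiset.card_replicate]; omega, ?_, fun s => ?_,
        0, 1, ?_, ?_, zero_ne_one⟩
      · rw [Multiset.sum_add, Multiset.sum_replicate, Multiset.sum_replicate, smul_zero, one_smul, zero_add,
          ZMod.val_one_eq_one_mod, Nat.mod_eq_of_lt hr.one_lt, pow_one, ← Units.val_pow_eq_pow_val, Units.mul_inv]
      · rcases Nat.lt_or_ge n 3 with h2 | h2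
        · -- two points: an affine map of odd order swapping them
          obtain rfl : n = 2 := by omega
          intro hmap
          have hkodd : Odd k := hk.odd_of_ne_two fun h' => by have := hk2n h'; omega
          rw [Multiset.map_add, Multiset.map_replicate, Multiset.map_replicate, mul_zero, zero_add, mul_one] at hmap
          have e1 := congrArg Multiset.sum hmap
          have e2 : (0 : ZMod r) ∈ ({s, a + s} : Multiset (ZMod r)) := by
            rw [show ({s, a + s} : Multiset (ZMod r)) = Multiset.replicate (2 - 1) s + Multiset.replicate 1 (a + s) from rfl, hmap]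
            simp
          simp only [Multiset.insert_eq_cons, Multiset.mem_cons, Multiset.mem_singleton] at e2
          simp only [Multiset.sum_add, Multiset.sum_replicate, Nat.add_one_sub_one, one_smul, zero_add] at e1
          rcases e2 with h0 | h0
          · exact ha1 (by linear_combination e1 + 2 * h0)
          · have ham : a = -1 := by linear_combination -e1 - 2 * h0
            have h1 : a ^ k = 1 := by rw [hek]; exact pow_orderOf_eq_one a
            rw [ham, hkodd.neg_one_pow] at h1
            exact ha1 (ham.trans h1)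
        · refine not_affine ha0 ha1 _ (a := 0) (b := 1) zero_ne_one (fun j hj => ?_) (fun j hj => ?_) s <;>
          · simp only [Multiset.count_add, Multiset.count_replicate] at hj
            simp only [if_pos, one_ne_zero, zero_ne_one, if_false] at hj
            split_ifs at hj <;> first | omega | exact Eq.symm ‹_› | (subst_vars; first | rfl | omega)
      · simp [Multiset.mem_replicate]; omega
      · simp [Multiset.mem_replicate]
    -- now `r ∣ n`
    push Not at hv
    have hv1 : 1 ≤ padicValNat r (Fintype.card F - 1) :=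
      one_le_padicValNat_of_dvd (by have := Fintype.one_lt_card (α := F); omega) hd
    have hrn : r ∣ n := dvd_of_one_le_padicValNat (by omega)
    obtain ⟨ζu, hζu⟩ := exists_prime_orderOf_dvd_card' (G := Fˣ) r (hcardU.symm ▸ hd)
    have hζ : IsPrimitiveRoot (ζu : F) r :=
      IsPrimitiveRoot.coe_units_iff.2 (by have := IsPrimitiveRoot.orderOf ζu; rwa [hζu] at this)
    by_cases hn2 : n ≠ r ∧ n ≠ 2 * r
    · have hrn' := Nat.le_of_dvd hn0 hrn
      refine ⟨1, ζu, Multiset.replicate (n - r) 0 + Multiset.replicate r 1, hζ,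
        by rw [Multiset.card_add, Multiset.card_replicate, Multiset.card_replicate]; omega, ?_, fun s => ?_,
        0, 1, ?_, ?_, zero_ne_one⟩
      · simp
      · refine not_affine ha0 ha1 _ (a := 0) (b := 1) zero_ne_one (fun j hj => ?_) (fun j hj => ?_) s <;>
        · simp only [Multiset.count_add, Multiset.count_replicate] at hj
          simp only [if_pos, one_ne_zero, zero_ne_one, if_false] at hj
          split_ifs at hj <;> first | omega | exact Eq.symm ‹_› | (subst_vars; first | rfl | omega)
      · simp [Multiset.mem_replicate]; omega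
      · simp [Multiset.mem_replicate]; omega
    have hn2' : n = r ∨ n = 2 * r := by omega
    -- small multiples of `r`
    have hvn : padicValNat r n = 1 := by
      rcases hn2' with h' | h' <;> rw [h']
      · exact padicValNat_self
      · rw [padicValNat.mul two_ne_zero hr.ne_zero, padicValNat_self,
          padicValNat.eq_zero_of_not_dvd (fun hd2 => by have := Nat.le_of_dvd two_pos hd2; omega)]
    have hsmall : k = 2 → r = n → padicValNat r (q₀ + 1) = 1 := by
      rintro rfl hrn''
      have hfac : Fintype.card F - 1 = (q₀ - 1) * (q₀ + 1) := by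
        rw [hqk]; zify [show 1 ≤ q₀ ^ 2 from Nat.one_le_pow _ _ (by omega), show 1 ≤ q₀ by omega]; ring
      rw [hfac, padicValNat.mul (by omega) (by omega), padicValNat.eq_zero_of_not_dvd hr0, zero_add] at hv hv1
      omega
    have hbig : 7 ≤ n ∧ r ≠ 3 := by
      have hkr : k ∣ r - 1 := hek ▸ he₀d
      rcases (show r = 3 ∨ 4 ≤ r by omega) with rfl | h4
      · exfalso
        have hk' : k = 2 := (Nat.prime_dvd_prime_iff_eq hk Nat.prime_two).1 hkr
        rcases hn2' with h' | h'
        · exact hcase ⟨hk', h'.symm, Or.inl h', hsmall hk' h'.symm⟩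
        · exact hgap ⟨h', rfl⟩
      · refine ⟨?_, by omega⟩
        rcases hn2' with h' | h'
        swap
        · omega
        by_contra h7
        obtain rfl : r = 5 := by
          have h46 : r ≠ 4 ∧ r ≠ 6 := ⟨fun e => by rw [e] at hr; norm_num at hr, fun e => by rw [e] at hr; norm_num at hr⟩
          omega
        have hk' : k = 2 := by
          have := Nat.le_of_dvd (by norm_num) hkr
          have := hk.two_le
          interval_cases k <;> first | rfl | (norm_num at hkr; done) | (exact absurd hk (by norm_num))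
        exact hcase ⟨hk', h'.symm, Or.inr h', hsmall hk' h'.symm⟩
    have hm2 : (-2 : ZMod r) ≠ 0 ∧ (-2 : ZMod r) ≠ 1 := by
      constructor <;> intro h'
      · have : ((2 : ℕ) : ZMod r) = 0 := by push_cast; linear_combination -h'
        rw [ZMod.natCast_eq_zero_iff] at this
        have := Nat.le_of_dvd two_pos this; omega
      · have : ((3 : ℕ) : ZMod r) = 0 := by push_cast; linear_combination -h'
        rw [ZMod.natCast_eq_zero_iff, Nat.prime_dvd_prime_iff_eq hr Nat.prime_three] at this
        exact hbig.2 this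
    refine ⟨1, ζu, Multiset.replicate (n - 3) 0 + Multiset.replicate 2 1 + Multiset.replicate 1 (-2), hζ,
      by simp only [Multiset.card_add, Multiset.card_replicate]; omega, ?_, fun s => ?_, 0, 1, ?_, ?_, zero_ne_one⟩
    · have h0 : (Multiset.replicate (n - 3) (0 : ZMod r) + Multiset.replicate 2 (1 : ZMod r) +
          Multiset.replicate 1 (-2 : ZMod r)).sum = 0 := by
        simp only [Multiset.sum_add, Multiset.sum_replicate, smul_zero, one_smul, two_smul]; ring
      rw [one_pow, one_mul, h0, ZMod.val_zero, pow_zero]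
    · refine not_affine ha0 ha1 _ (a := 0) (b := 1) zero_ne_one (fun j hj => ?_) (fun j hj => ?_) s <;>
      · rw [count_three, count_three] at hj
        simp only [if_pos, one_ne_zero, zero_ne_one, hm2.1, hm2.2, if_false] at hj
        split_ifs at hj <;> first | omega | exact Eq.symm ‹_› | (subst_vars; first | rfl | omega)
    · simp [Multiset.mem_replicate]; omega
    · simp [Multiset.mem_replicate]
  · rintro hcase x ⟨z, hz⟩ hx'
    rcases hcase with hrk | ⟨hk2, hrn, hn35, hv⟩
    · -- `r = k`
      have hnd : ¬ k ∣ e₀ := fun hd => by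
        have := Nat.le_of_dvd he₀pos hd
        have := Nat.le_of_dvd (by omega) he₀d
        omega
      have hee' : e = e₀ := by rw [hee, ((hk.coprime_iff_not_dvd).2 hnd).symm.gcd_eq_one, Nat.div_one]
      rcases Elusive.order_reduction hr hn0 hz hx' with ⟨w, g, hw, hxg, hg, -⟩ | hbad
      swap
      · exfalso
        by_cases hd : r ∣ Fintype.card F - 1
        · obtain ⟨t, ht, hdet⟩ := Elusive.det_of_pow_eq_scalar hr hbad
            ((Matrix.SpecialLinearGroup.coe_pow x r).symm.trans hz)
          have hd0 : r ∣ q₀ - 1 := by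
            have h1 : a = 1 := orderOf_eq_one_iff.1 (by rw [← he₀, ← hee']; exact Elusive.orderOf_eq_one_iff_dvd.2 hd)
            rw [← ZMod.natCast_eq_zero_iff, Nat.cast_sub (by omega), ← hadef, h1, Nat.cast_one, sub_self]
          exact (Elusive.exists_bad_scalar_iff hd hn0).1 ⟨z, hbad, t, ht, hdet.symm.trans x.det_coe⟩
            ⟨hgapk hrk hd0, fun h2 => absurd h2 hr2⟩
        · obtain ⟨b, hb⟩ := Elusive.exists_pow_eq_of_not_dvd hr hd z
          exact hbad b hb
      obtain ⟨ι, _, u, hli, hspan, hu⟩ := Elusive.exists_subfield_family F₀ hrF (by rwa [hF₀])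
        (show _ = orderOf ((Fintype.card F₀ : ℕ) : ZMod r) by rw [hF₀, ← hadef, ← he₀, ← he, hee']) hg ⊤ (fun v _ => trivial)
      let B₀ := Module.Basis.mk hli hspan.ge
      let σ : ι ≃ Fin n := Fintype.equivFinOfCardEq ((Module.finrank_eq_card_basis B₀).symm.trans (Module.finrank_fin_fun F))
      refine Elusive.conj_mem_of_basis F₀ hr.ne_zero hw hxg hg (B₀.reindex σ) (fun j => ?_)
        (fun lam _ => Elusive.exists_commute_det_of_order hrF hg (by rw [Module.finrank_fin_fun]; exact hn0) lam)
      rw [Module.Basis.reindex_apply, Module.Basis.mk_apply, Module.Basis.range_reindex,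
        show Set.range B₀ = Set.range u from congrArg Set.range (Module.Basis.coe_mk hli hspan.ge)]
      exact hu _
    · -- `k = 2`, `r = n ∈ {3, 5}`
      subst hk2
      subst hrn
      have hk' : (2 : ℕ) ≠ r := by omega
      have hr1 : r ∣ q₀ + 1 := dvd_of_one_le_padicValNat (by omega)
      have hr0 : ¬ r ∣ q₀ - 1 := fun h0 => by
        have h2 : r ∣ (q₀ + 1) - (q₀ - 1) := Nat.dvd_sub hr1 h0
        rw [show q₀ + 1 - (q₀ - 1) = 2 by omega] at h2
        have := Nat.le_of_dvd two_pos h2; omega
      have hfac : Fintype.card F - 1 = (q₀ - 1) * (q₀ + 1) := by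
        rw [hqk]; zify [show 1 ≤ q₀ ^ 2 from Nat.one_le_pow _ _ (by omega), show 1 ≤ q₀ by omega]; ring
      have hd : r ∣ Fintype.card F - 1 := hfac ▸ dvd_mul_of_dvd_right hr1 _
      have ham : a = -1 := by
        rw [hadef, eq_neg_iff_add_eq_zero, ← Nat.cast_one, ← Nat.cast_add, ZMod.natCast_eq_zero_iff]
        exact hr1
      have hroot : ∀ c : F, c ^ (r * r) = 1 → c ^ r = 1 := fun c hc => by
        have hc0 : c ≠ 0 := fun h0 => by rw [h0, zero_pow (Nat.mul_pos hr.pos hr.pos).ne'] at hc; exact zero_ne_one hc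
        have := pow_gcd_eq_one.2 ⟨hc, FiniteField.pow_card_sub_one_eq_one c hc0⟩
        have hg : Nat.gcd (r * r) (Fintype.card F - 1) = r := by
          rw [← pow_two]
          obtain ⟨j, hj, hje⟩ := (Nat.dvd_prime_pow hr).1 (Nat.gcd_dvd_left (r ^ 2) (Fintype.card F - 1))
          have h1 : r ∣ r ^ j := hje ▸ Nat.dvd_gcd (dvd_pow_self r two_ne_zero) hd
          rw [hje]
          interval_cases j
          · rw [pow_zero, Nat.dvd_one] at h1; exact absurd h1 hr.ne_one
          · exact pow_one r
          · exfalso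
            have h2 : r ^ 2 ∣ Fintype.card F - 1 := hje ▸ Nat.gcd_dvd_right _ _
            rw [hfac] at h2
            have h3 : r ^ 2 ∣ q₀ + 1 := ((Nat.Coprime.pow_left 2 ((hr.coprime_iff_not_dvd).2 hr0))).dvd_of_dvd_mul_left h2
            have := (padicValNat_dvd_iff_le (by omega)).1 h3
            omega
        rwa [hg] at this
      have hzr : z ^ r = 1 := by
        have := (x ^ r).det_coe
        rwa [hz, Matrix.det_smul, Matrix.det_one, mul_one, Fintype.card_fin] at this
      obtain ⟨c, hc⟩ : ∃ c, c ^ r = z := by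
        by_contra hno
        push Not at hno
        obtain ⟨t, ht, hdet⟩ := Elusive.det_of_pow_eq_scalar hr hno ((Matrix.SpecialLinearGroup.coe_pow x r).symm.trans hz)
        obtain rfl : t = 1 := by
          rcases Nat.lt_or_ge t 2 with h' | h'
          · rcases t with _ | t <;> omega
          · have := Nat.mul_le_mul_right r h'; omega
        rw [x.det_coe, pow_one, Even.neg_one_pow ((hr.odd_of_ne_two hr2).add_one), one_mul] at hdet
        exact hno 1 (by rw [one_pow, hdet])
      obtain rfl : z = 1 := by rw [← hc]; exact hroot c (by rw [pow_mul, hc, hzr])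
      set g : Module.End F (Fin r → F) := Matrix.toLin' (x : Matrix (Fin r) (Fin r) F) with hgdef
      have hgr : g ^ r = 1 := by rw [hgdef, Elusive.toLin'_pow_eq_smul_one.1 hz, one_smul]
      obtain ⟨ζu, hζu⟩ := exists_prime_orderOf_dvd_card' (G := Fˣ) r (by rwa [Nat.card_units, Nat.card_eq_fintype_card])
      set ζ : F := (ζu : F)
      have hζ : IsPrimitiveRoot ζ r :=
        IsPrimitiveRoot.coe_units_iff.2 (by have := IsPrimitiveRoot.orderOf ζu; rwa [hζu] at this)
      -- eigenvectors span
      set ev : Set (Fin r → F) := {v | ∃ j : ZMod r, g v = ζ ^ j.val • v} with hev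
      have hspanev : Submodule.span F ev = ⊤ := by
        rw [eq_top_iff]
        intro v _
        have hrF' : (r : F) ≠ 0 := fun h0 => hrp ((Nat.prime_dvd_prime_iff_eq (Fact.out : p.Prime) hr).1
          ((CharP.cast_eq_zero_iff F p r).1 h0)).symm
        have hsum : (r : F) • v = ∑ j : ZMod r, ∑ l ∈ Finset.range r, ((ζ ^ j.val) ^ l) • (g ^ l) v := by
          rw [Finset.sum_comm]
          have h1 : ∀ l ∈ Finset.range r, ∑ j : ZMod r, ((ζ ^ j.val) ^ l) • (g ^ l) v = if l = 0 then (r : F) • v else 0 := by
            intro l hl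
            rw [← Finset.sum_smul]
            have : ∑ j : ZMod r, (ζ ^ j.val) ^ l = ∑ i ∈ Finset.range r, (ζ ^ l) ^ i := by
              refine Finset.sum_nbij' (fun j => j.val) (fun i => (i : ZMod r)) ?_ ?_ ?_ ?_ ?_
              · intro j _; exact Finset.mem_range.2 (ZMod.val_lt j)
              · intro i _; exact Finset.mem_univ _
              · intro j _; exact ZMod.natCast_zmod_val j
              · intro i hi; exact ZMod.val_natCast_of_lt (Finset.mem_range.1 hi)
              · intro j _; rw [← pow_mul, ← pow_mul, mul_comm]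
            rw [this]
            split_ifs with h0
            · subst h0; simp
            · have hne : ζ ^ l ≠ 1 := hζ.pow_ne_one_of_pos_of_lt h0 (Finset.mem_range.1 hl)
              have := geom_sum_mul (ζ ^ l) r
              rw [← pow_mul, mul_comm l, pow_mul, hζ.pow_eq_one, one_pow, sub_self] at this
              rw [(mul_eq_zero.1 this).resolve_right (sub_ne_zero.2 hne), zero_smul]
          rw [Finset.sum_congr rfl h1, Finset.sum_ite_eq' (Finset.range r) 0, if_pos (Finset.mem_range.2 hr.pos)]
        rw [← inv_smul_smul₀ hrF' v, hsum]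
        refine Submodule.smul_mem _ _ (Submodule.sum_mem _ fun j _ => Submodule.subset_span ⟨-j, ?_⟩)
        set c := ζ ^ j.val
        have hcr : c ^ r = 1 := by rw [← pow_mul, mul_comm, pow_mul, hζ.pow_eq_one, one_pow]
        have hcinv : ζ ^ (-j).val * c = 1 := by
          rw [← pow_add, pow_eq_pow_mod _ hζ.pow_eq_one, ← ZMod.val_add, neg_add_cancel, ZMod.val_zero, pow_zero]
        rw [map_sum, Finset.smul_sum]
        calc ∑ l ∈ Finset.range r, g ((c ^ l) • (g ^ l) v)
            = ∑ l ∈ Finset.range r, (ζ ^ (-j).val) • ((c ^ (l + 1)) • (g ^ (l + 1)) v) := by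
              refine Finset.sum_congr rfl fun l _ => ?_
              rw [map_smul, ← Module.End.mul_apply, ← pow_succ', smul_smul,
                show ζ ^ (-j).val * c ^ (l + 1) = c ^ l by rw [pow_succ', ← mul_assoc, hcinv, one_mul]]
          _ = ∑ l ∈ Finset.range r, (ζ ^ (-j).val) • ((c ^ l) • (g ^ l) v) := by
              set f := fun l => (ζ ^ (-j).val) • ((c ^ l) • (g ^ l) v)
              show ∑ l ∈ Finset.range r, f (l + 1) = ∑ l ∈ Finset.range r, f l
              have h1 := Finset.sum_range_succ' f r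
              have h2 := Finset.sum_range_succ f r
              have h3 : f r = f 0 := by simp [f, hcr, hgr]
              rw [h2, h3] at h1
              exact add_right_cancel h1.symm
      let b₀ := Module.Basis.ofSpan hspanev.ge
      have := Module.Basis.finite_index_of_rank_lt_aleph0 b₀ (Module.rank_lt_aleph0 F (Fin r → F))
      have : Fintype _ := Fintype.ofFinite (↥((linearIndepOn_empty F (id : (Fin r → F) → _)).extend (Set.empty_subset ev)))
      let b : Module.Basis (Fin r) F (Fin r → F) :=
        b₀.reindex (Fintype.equivFinOfCardEq ((Module.finrank_eq_card_basis b₀).symm.trans (Module.finrank_fin_fun F)))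
      have hbev : ∀ i, b i ∈ ev := fun i => Module.Basis.ofSpan_subset hspanev.ge ⟨_, (Module.Basis.reindex_apply b₀ _ i).symm⟩
      choose d hd using hbev
      set D : Multiset (ZMod r) := (Finset.univ : Finset (Fin r)).val.map d
      have hsumD : D.sum = 0 := by
        have h1 : LinearMap.det g = 1 := by rw [hgdef, LinearMap.det_toLin', x.det_coe]
        rw [← LinearMap.det_toMatrix b, show LinearMap.toMatrix b b g = Matrix.diagonal (fun i => ζ ^ (d i).val) from
          Matrix.ext fun i j => by
            rw [LinearMap.toMatrix_apply, hd, map_smul, Module.Basis.repr_self, Finsupp.smul_apply, Finsupp.single_apply,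
              Matrix.diagonal_apply]
            by_cases h' : i = j
            · subst h'; simp
            · simp [h', Ne.symm h'], Matrix.det_diagonal, Finset.prod_eq_multiset_prod] at h1
        have h2 : (D.map fun j : ZMod r => ζ ^ j.val).prod = 1 := by rw [Multiset.map_map]; exact h1
        rw [prod_pow_val hζ.pow_eq_one] at h2
        by_contra hne
        exact hne ((ZMod.val_eq_zero _).1 (Nat.eq_zero_of_dvd_of_lt ((hζ.pow_eq_one_iff_dvd _).1 h2) (ZMod.val_lt _)))
      obtain ⟨s, hs⟩ := exists_symm hn35 D (by rw [Multiset.card_map]; simp) hsumD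
      -- shift to the centre
      set h := s / 2
      set c₁ : F := ζ ^ h.val
      have hc1 : c₁ ≠ 0 := pow_ne_zero _ (hζ.ne_zero hr.ne_zero)
      set ι := {y : ZMod r × Fin r // (y.2 : ℕ) < D.count (y.1 + h)}
      have h2ne : (2 : ZMod r) ≠ 0 := fun h' => by
        have : ((2 : ℕ) : ZMod r) = 0 := by exact_mod_cast h'
        rw [ZMod.natCast_eq_zero_iff] at this
        have := Nat.le_of_dvd two_pos this; omega
      have hcount : ∀ j : ZMod r, D.count (-j + h) = D.count (j + h) := fun j => by
        conv_lhs => rw [← hs]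
        rw [show -j + h = (fun u => s - u) (j + h) by
          simp only [h]; field_simp; ring,
          Multiset.count_map_eq_count' _ D (fun u v e => sub_right_injective e)]
      let π : ι → ι := fun y => ⟨(-y.1.1, y.1.2), by rw [hcount]; exact y.2⟩
      have hle : ∀ j, D.count j ≤ r := fun j => (Multiset.count_le_card j D).trans (by rw [Multiset.card_map]; simp)
      have hfib : ∀ j : ZMod r, Fintype.card {i // d i = j} = D.count j := fun j => by
        rw [Fintype.card_subtype, Multiset.count_map, ← Finset.filter_val]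
        exact congrArg Finset.card (Finset.filter_congr fun i _ => eq_comm)
      let σ : ι ≃ Fin r :=
        ((Equiv.subtypeEquivRight (fun _ => Iff.rfl)).trans
          ((Equiv.subtypeProdEquivSigmaSubtype fun (j : ZMod r) (l : Fin r) => (l : ℕ) < D.count (j + h)).trans
            (Equiv.sigmaCongr (β₂ := fun j => {i // d i = j}) (Equiv.addRight h) fun j => Fintype.equivOfCardEq (by
              show _ = Fintype.card {i // d i = j + h}
              rw [hfib, Fintype.card_congr (Fin.castLEquiv (hle (j + h))).symm, Fintype.card_fin])))).trans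
          (Equiv.sigmaFiberEquiv d)
      have hσ : ∀ y : ι, d (σ y) = y.1.1 + h := fun y => by
        simp only [σ, Equiv.trans_apply, Equiv.sigmaFiberEquiv_apply]
        exact ((Equiv.sigmaCongr (β₂ := fun j => {i // d i = j}) (Equiv.addRight h) _) _).2.2.trans rfl
      set g' : Module.End F (Fin r → F) := c₁⁻¹ • g
      have hxg : Matrix.toLin' (x : Matrix (Fin r) (Fin r) F) = c₁ • g' := (smul_inv_smul₀ hc1 g).symm
      have hc1r : c₁ ^ r = 1 := by rw [← pow_mul, mul_comm, pow_mul, hζ.pow_eq_one, one_pow]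
      have hgr' : g' ^ r = 1 := by rw [_root_.smul_pow, hgr, inv_pow, hc1r, inv_one, one_smul]
      have hψ : ∀ j : ZMod r, c₁⁻¹ * ζ ^ (j + h).val = ζ ^ j.val := fun j => by
        rw [inv_mul_eq_iff_eq_mul₀ hc1, ← pow_add, ZMod.val_add, ← pow_eq_pow_mod _ hζ.pow_eq_one, add_comm]
      obtain ⟨B, hB⟩ := Elusive.exists_pair_basis F₀ hF₀ hqk g' (b.reindex σ.symm) (fun y => ζ ^ y.1.1.val)
        (fun y => by
          rw [Module.Basis.reindex_apply, Equiv.symm_symm, LinearMap.smul_apply, hd, smul_smul, hσ, hψ])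
        π (fun y => Subtype.ext (Prod.ext (neg_neg _) rfl))
        (fun y => by
          show ζ ^ (-y.1.1).val = (ζ ^ y.1.1.val) ^ q₀
          rw [← pow_mul, pow_eq_pow_mod (y.1.1.val * q₀) hζ.pow_eq_one]
          congr 1
          rw [← ZMod.val_natCast, Nat.cast_mul, ZMod.natCast_zmod_val, ← hadef, ham, mul_neg_one])
      refine Elusive.conj_mem_of_basis F₀ hr.ne_zero hc1 hxg hgr' (B.reindex σ) (fun j => ?_)
        (fun lam _ => Elusive.exists_commute_det_of_order hrF hgr' (by rw [Module.finrank_fin_fun]; exact hr.pos) lam)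
      rw [Module.Basis.reindex_apply, Module.Basis.range_reindex]
      exact hB _

end Cfsg.Agent.S5965
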