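import Cfsg.Statements.S5966
import Cfsg.Agent.Elusive.SLElements
import Cfsg.Agent.Elusive.Unipotent
import Cfsg.Agent.Elusive.NilpotentPairs
import Cfsg.Agent.Elusive.JordanBasis
import Cfsg.Agent.Elusive.SubfieldGroup

set_option autoImplicit false
open scoped MatrixGroups
open Cfsg

namespace Cfsg.Agent.S5966

open Matrix

/-- A unipotent element with all blocks of size two whose conjugating determinant is a non-square stays outside. -/
theorem exists_not_conj {F : Type*} [Field F] [Fintype F] [CharP F 3] (F₀ : Subfield F) {n m : ℕ}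
    (e : Fin n ≃ Fin m ⊕ Fin m) (hm : 0 < m) (hsq : ∀ c : F₀, IsSquare (c : F)) :
    ∃ x : Matrix.SpecialLinearGroup (Fin n) F,
      ((x ^ 3 : Matrix.SpecialLinearGroup (Fin n) F) : Matrix (Fin n) (Fin n) F) = (1 : F) • 1 ∧
      (∀ z : F, (x : Matrix (Fin n) (Fin n) F) ≠ z • 1) ∧
      ∀ P : Matrix.SpecialLinearGroup (Fin n) F, P⁻¹ * x * P ∉ (Cfsg.Geo.subfieldSubgroup F₀ 1).comap
        (Matrix.SpecialLinearGroup.toGL : Matrix.SpecialLinearGroup (Fin n) F →* GL (Fin n) F) := by
  classical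
  have : Fintype F₀ := Fintype.ofFinite _
  have hF2 : ringChar F ≠ 2 := by rw [ringChar.eq F 3]; norm_num
  obtain ⟨ν, hν⟩ := FiniteField.exists_nonsquare hF2
  have hν0 : ν ≠ 0 := fun h => hν (h ▸ IsSquare.zero)
  let R := Matrix.reindexAlgEquiv F F e
  have : Nonempty (Fin n) := ⟨e.symm (Sum.inl ⟨0, hm⟩)⟩
  set J : Matrix (Fin m ⊕ Fin m) (Fin m ⊕ Fin m) F := Matrix.fromBlocks 1 1 0 1
  set N : Matrix (Fin m ⊕ Fin m) (Fin m ⊕ Fin m) F := Matrix.fromBlocks 0 1 0 0
  have hJN : J = 1 + N := by rw [← Matrix.fromBlocks_one, Matrix.fromBlocks_add]; simp [J]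
  have hNN : N * N = 0 := by simp [N, Matrix.fromBlocks_multiply]
  have hJ3 : J ^ 3 = 1 := by
    have h : (1 + N) ^ 3 = 1 + (N + N + N) + (N * N + N * N + N * N) + N * N * N := by noncomm_ring
    rw [hJN, h, hNN, zero_mul, add_zero, add_zero, add_zero, add_zero,
      show N + N + N = (3 : F) • N by module, show (3 : F) = ((3 : ℕ) : F) by norm_num, CharP.cast_eq_zero F 3,
      zero_smul, add_zero]
  have hJns : ∀ z : F, J ≠ z • 1 := fun z hz => by
    have := congrFun (congrFun hz (Sum.inl ⟨0, hm⟩)) (Sum.inr ⟨0, hm⟩)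
    simp [J] at this
  set d : Fin m ⊕ Fin m → F := fun i => if i = Sum.inl ⟨0, hm⟩ then ν else 1 with hd
  have hdet : (Matrix.diagonal d).det = ν := by
    rw [Matrix.det_diagonal, Finset.prod_eq_single (Sum.inl ⟨0, hm⟩) (fun i _ hi => by simp [hd, hi])
      (fun h => absurd (Finset.mem_univ _) h)]
    simp [hd]
  have hJdet : J.det = 1 := by rw [Matrix.det_fromBlocks_zero₂₁, Matrix.det_one, one_mul]
  set D := Matrix.diagonal d
  have hDu : IsUnit D.det := by rw [hdet]; exact hν0.isUnit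
  set X' := D⁻¹ * J * D with hX'
  have hX'det : (R.symm X').det = 1 := by
    rw [show R.symm X' = Matrix.reindexAlgEquiv F F e.symm X' from rfl, Matrix.det_reindexAlgEquiv, hX',
      Matrix.det_mul, Matrix.det_mul, hJdet, mul_one, ← Matrix.det_mul, Matrix.nonsing_inv_mul _ hDu, Matrix.det_one]
  obtain ⟨x, hx⟩ : ∃ x : Matrix.SpecialLinearGroup (Fin n) F, (x : Matrix (Fin n) (Fin n) F) = R.symm X' :=
    ⟨⟨_, hX'det⟩, rfl⟩
  have hX3 : X' ^ 3 = 1 := by
    have : X' ^ 3 = D⁻¹ * J ^ 3 * D := by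
      simp only [hX', pow_succ, pow_zero, one_mul, ← mul_assoc, Matrix.mul_nonsing_inv_cancel_right _ _ hDu]
    rw [this, hJ3, mul_one, Matrix.nonsing_inv_mul _ hDu]
  refine ⟨x, by rw [Matrix.SpecialLinearGroup.coe_pow, hx, ← map_pow, hX3, map_one, one_smul], fun z hz => hJns z ?_,
    fun P hP => ?_⟩
  · rw [hx] at hz
    have h' : X' = z • 1 := by rw [← R.apply_symm_apply X', hz, map_smul, map_one]
    calc J = D * X' * D⁻¹ := by
          rw [hX', ← mul_assoc, ← mul_assoc, Matrix.mul_nonsing_inv _ hDu, one_mul,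
            Matrix.mul_nonsing_inv_cancel_right _ _ hDu]
      _ = z • 1 := by rw [h', Matrix.mul_smul, mul_one, Matrix.smul_mul, Matrix.mul_nonsing_inv _ hDu]
  obtain ⟨w, M, hM⟩ := Elusive.exists_of_mem_subfield F₀ hP
  -- the scalar lies in the subfield
  have h3 : (((w : F) • ((M : Matrix (Fin n) (Fin n) F₀).map F₀.subtype)) ^ 3) = 1 := by
    rw [← hM, ← Matrix.SpecialLinearGroup.coe_pow, show (P⁻¹ * x * P) ^ 3 = P⁻¹ * x ^ 3 * P by simp [pow_succ, mul_assoc],
      Matrix.SpecialLinearGroup.coe_mul, Matrix.SpecialLinearGroup.coe_mul, Matrix.SpecialLinearGroup.coe_pow, hx,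
      ← map_pow, hX3, map_one, mul_one, ← Matrix.SpecialLinearGroup.coe_mul, inv_mul_cancel,
      Matrix.SpecialLinearGroup.coe_one]
  have hwF : (w : F) ∈ F₀ := by
    rw [_root_.smul_pow] at h3
    have h30 := congrFun (congrFun h3 (e.symm (Sum.inl ⟨0, hm⟩))) (e.symm (Sum.inl ⟨0, hm⟩))
    rw [Matrix.smul_apply, smul_eq_mul, Matrix.one_apply_eq] at h30
    set a := ((M : Matrix (Fin n) (Fin n) F₀).map F₀.subtype ^ 3) (e.symm (Sum.inl ⟨0, hm⟩)) (e.symm (Sum.inl ⟨0, hm⟩))
    have ha : a ∈ F₀ := by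
      have h := Matrix.map_pow (M : Matrix (Fin n) (Fin n) F₀) F₀.subtype 3
      simp only [a, ← h, Matrix.map_apply]
      exact Subtype.prop _
    have hw3 : (w : F) ^ 3 ∈ F₀ := by rw [eq_inv_of_mul_eq_one_left h30]; exact inv_mem ha
    have : Fact (Nat.Prime 3) := ⟨Nat.prime_three⟩
    obtain ⟨b, hb⟩ := (Finite.injective_iff_surjective.1 (frobenius_inj F₀ 3)) ⟨_, hw3⟩
    have hb' : (b : F) ^ 3 = (w : F) ^ 3 := congrArg Subtype.val hb
    rw [← frobenius_inj F 3 hb']
    exact b.2
  set Y := R ((P⁻¹ * x * P : Matrix.SpecialLinearGroup (Fin n) F) : Matrix (Fin n) (Fin n) F) with hY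
  have hYF : ∀ i j, Y i j ∈ F₀ := fun i j => by
    rw [hY, hM]
    exact mul_mem hwF (Subtype.prop _)
  set C := D * R (P : Matrix (Fin n) (Fin n) F) with hC
  have hCdet : C.det = ν := by
    rw [hC, Matrix.det_mul, hdet, Matrix.det_reindexAlgEquiv, P.det_coe, mul_one]
  have hCu : IsUnit C.det := by rw [hCdet]; exact hν0.isUnit
  have hJC : J * C = C * Y := by
    rw [hC, hY, mul_assoc D, ← map_mul R, ← Matrix.SpecialLinearGroup.coe_mul, show P * (P⁻¹ * x * P) = x * P by group,
      Matrix.SpecialLinearGroup.coe_mul, map_mul, hx, R.apply_symm_apply, hX']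
    simp only [← mul_assoc, Matrix.mul_nonsing_inv _ hDu, one_mul]
  set N' := Y - 1 with hN'
  have hN'F : ∀ i j, N' i j ∈ F₀ := fun i j => by
    rw [hN', Matrix.sub_apply, Matrix.one_apply]
    split_ifs <;> exact sub_mem (hYF i j) (by simp)
  have hCN : C * N' = N * C := by
    rw [hN', mul_sub, ← hJC, mul_one, hJN, add_mul, one_mul, add_sub_cancel_left]
  have hN'N' : N' * N' = 0 := by
    have h : C * (N' * N') = 0 := by
      rw [← mul_assoc, hCN, mul_assoc, hCN, ← mul_assoc, hNN, zero_mul]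
    rw [← Matrix.nonsing_inv_mul_cancel_left C (N' * N') hCu, h, mul_zero]
  have hrow : ∀ a : Fin m, C (Sum.inr a) = C (Sum.inl a) ᵥ* N' := fun a => by
    rw [← Matrix.mul_apply_eq_vecMul, hCN]
    funext j
    simp [N, Matrix.mul_apply, Fintype.sum_sum_type, Matrix.one_apply]
  set S := Submodule.span F (Set.range fun i => N' i)
  have hCS : ∀ a : Fin m, C (Sum.inr a) ∈ S := fun a => by
    rw [hrow, Matrix.vecMul_eq_sum]
    exact Submodule.sum_mem _ fun i _ => Submodule.smul_mem _ _ (Submodule.subset_span ⟨i, rfl⟩)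
  have hmS : m ≤ Module.finrank F S := by
    have hli : LinearIndependent F (fun a : Fin m => (⟨C (Sum.inr a), hCS a⟩ : S)) :=
      LinearIndependent.of_comp S.subtype
        ((Matrix.linearIndependent_rows_of_isUnit ((Matrix.isUnit_iff_isUnit_det C).2 hCu)).comp _ Sum.inr_injective)
    simpa using hli.fintype_card_le_finrank
  obtain ⟨κ, a, hainj, haspan, hali⟩ := exists_linearIndependent' F (fun i => N' i)
  have : Finite κ := Finite.of_injective a hainj
  have : Fintype κ := Fintype.ofFinite κ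
  have hmκ : Fintype.card (Fin m) ≤ Fintype.card κ := by
    rw [Fintype.card_fin, ← finrank_span_eq_card hali, haspan]
    exact hmS
  obtain ⟨emb⟩ := Function.Embedding.nonempty_of_card_le hmκ
  set ι0 : Fin m → Fin m ⊕ Fin m := fun b => a (emb b)
  set X0 : Matrix (Fin m ⊕ Fin m) (Fin m ⊕ Fin m) F :=
    Matrix.of (Sum.elim (fun b => Pi.single (ι0 b) 1) (fun b => N' (ι0 b))) with hX0
  have hli0 : LinearIndependent F (fun b => N' (ι0 b)) := hali.comp emb emb.injective
  have hX0N : X0 * N' = N * X0 := by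
    refine Matrix.ext fun i j => ?_
    rw [Matrix.mul_apply_eq_vecMul]
    rcases i with b | b
    · show (Pi.single (ι0 b) (1 : F) ᵥ* N') j = _
      rw [Matrix.single_one_vecMul]
      simp [hX0, N, Matrix.mul_apply, Fintype.sum_sum_type, Matrix.one_apply]
    · show (N' (ι0 b) ᵥ* N') j = _
      rw [← Matrix.mul_apply_eq_vecMul, hN'N']
      simp [N, Matrix.mul_apply, Fintype.sum_sum_type]
  have hX0u : IsUnit X0.det := by
    rw [← Matrix.isUnit_iff_isUnit_det, ← Matrix.linearIndependent_rows_iff_isUnit, Fintype.linearIndependent_iff]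
    intro c hc
    have hc' : ∑ b, c (Sum.inl b) • (Pi.single (ι0 b) (1 : F) : Fin m ⊕ Fin m → F) + ∑ b, c (Sum.inr b) • N' (ι0 b) = 0 := by
      rw [Fintype.sum_sum_type] at hc
      exact hc
    have hz : ∀ b, N' (ι0 b) ᵥ* N' = 0 := fun b => by rw [← Matrix.mul_apply_eq_vecMul, hN'N']; rfl
    have h1 : ∑ b, c (Sum.inl b) • N' (ι0 b) = 0 := by
      have := congrArg (fun v => v ᵥ* N') hc'
      simpa [Matrix.add_vecMul, Matrix.sum_vecMul, Matrix.smul_vecMul, hz, Matrix.row] using this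
    have hl := Fintype.linearIndependent_iff.1 hli0 _ h1
    rw [Finset.sum_eq_zero (fun b _ => by rw [hl b, zero_smul]), zero_add] at hc'
    have hr := Fintype.linearIndependent_iff.1 hli0 _ hc'
    rintro (b | b)
    exacts [hl b, hr b]
  have hX0F : ∀ i j, X0 i j ∈ F₀ := by
    rintro (b | b) j
    · show (Pi.single (ι0 b) (1 : F) : Fin m ⊕ Fin m → F) j ∈ F₀
      rw [Pi.single_apply]; split_ifs <;> simp
    · exact hN'F _ _
  set M0 : Matrix (Fin m ⊕ Fin m) (Fin m ⊕ Fin m) F₀ := Matrix.of fun i j => ⟨X0 i j, hX0F i j⟩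
  have hdet0 : X0.det = ((M0.det : F₀) : F) := by
    rw [← Subfield.coe_subtype, RingHom.map_det]; rfl
  set Z := C * X0⁻¹ with hZ
  have hZN : Z * N = N * Z := by
    have h : X0⁻¹ * N = N' * X0⁻¹ := by
      rw [← Matrix.mul_nonsing_inv_cancel_right _ (X0⁻¹ * N) hX0u, mul_assoc X0⁻¹, ← hX0N, ← mul_assoc,
        Matrix.nonsing_inv_mul _ hX0u, one_mul]
    rw [hZ, mul_assoc, h, ← mul_assoc, hCN, mul_assoc]
  obtain ⟨A, B, C', D', hZb⟩ : ∃ A B C' D', Z = Matrix.fromBlocks A B C' D' :=
    ⟨_, _, _, _, (Matrix.fromBlocks_toBlocks Z).symm⟩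
  rw [hZb] at hZN
  simp only [N, Matrix.fromBlocks_multiply, mul_zero, zero_mul, mul_one, one_mul, add_zero, zero_add,
    Matrix.fromBlocks_inj] at hZN
  obtain ⟨h1, h2, -, -⟩ := hZN
  apply hν
  obtain ⟨s, hs⟩ := hsq M0.det
  refine ⟨A.det * s, ?_⟩
  rw [← hCdet, show C = Z * X0 by rw [hZ, Matrix.nonsing_inv_mul_cancel_right _ _ hX0u], Matrix.det_mul, hdet0, hs,
    hZb, ← h1, ← h2, Matrix.det_fromBlocks_zero₂₁]
  ring

/-- Elements of order 3 of PSL_n(q) in characteristic 3 and subfield subgroups. Here `T = PSL_n(F)` for a field `F` with `q` elements, `q` a power of 3 (`n ≥ 2`, `(n, q) ≠ (2, 2), (2, 3)`), `F₀` is the subfield with `q₀` elements where `q = q₀^k` for a prime `k`, and `H` is the subgroup of matrices of determinant 1 lying in the subfield group of `F₀` (invertible matrices over `F₀` times scalars) — a maximal subgroup of type GL_n(q₀) (the case `n = 2`, `q₀ = 2` is excluded); Ω is the set of `T`-conjugates of `H` (cosets of `H`), so an element of `T` of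 prime order `r` (a matrix `x` of determinant 1 with `x^r` scalar, `x` not scalar) fixes a point of Ω when some conjugate of `x` by a matrix of determinant 1 lies in `H`. Suppose 3 divides the index of `H`. Then every element of `T` of order 3 is conjugate in `T` into `H` if and only if `n` is odd, or `n` is even and `k > 2`. -/
theorem result {F : Type*} [Field F] [Fintype F] [CharP F 3] {q : ℕ} (hq : Fintype.card F = q)
    (n : ℕ) (hn : 2 ≤ n) (hT : (n, q) ≠ (2, 3))
    (F₀ : Subfield F) (k q₀ : ℕ) (hk : k.Prime) (hF₀ : Nat.card ↥F₀ = q₀) (hqk : q = q₀ ^ k) (hC5 : ¬ (n = 2 ∧ q₀ = 2)) (hΩ : 3 ∣ ((Cfsg.Geo.subfieldSubgroup F₀ 1).comap (Matrix.SpecialLinearGroup.toGL : Matrix.SpecialLinearGroup (Fin n) F →* GL (Fin n) F)).index) :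
    (∀ x : Matrix.SpecialLinearGroup (Fin n) F,
      (∃ z : F, ((x ^ 3 : Matrix.SpecialLinearGroup (Fin n) F) : Matrix (Fin n) (Fin n) F) = z • (1 : Matrix (Fin n) (Fin n) F)) →
      (∀ z : F, (x : Matrix (Fin n) (Fin n) F) ≠ z • (1 : Matrix (Fin n) (Fin n) F)) →
      ∃ P : Matrix.SpecialLinearGroup (Fin n) F, P⁻¹ * x * P ∈ ((Cfsg.Geo.subfieldSubgroup F₀ 1).comap (Matrix.SpecialLinearGroup.toGL : Matrix.SpecialLinearGroup (Fin n) F →* GL (Fin n) F))) ↔
    (Odd n ∨ (Even n ∧ 2 < k)) := by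
  classical
  subst hq
  have : Fact (Nat.Prime 3) := ⟨Nat.prime_three⟩
  have : Fintype F₀ := Fintype.ofFinite _
  have hF2 : ringChar F ≠ 2 := by rw [ringChar.eq F 3]; norm_num
  have hodd := FiniteField.odd_card_of_char_ne_two hF2
  have hq₀ : Odd q₀ := by
    rw [← Nat.odd_iff, hqk] at hodd
    exact (Nat.odd_pow_iff hk.ne_zero).1 hodd
  rw [Nat.card_eq_fintype_card] at hF₀
  constructor
  · intro h
    rcases Nat.even_or_odd n with hn2 | hn2
    swap
    · exact Or.inl hn2
    refine Or.inr ⟨hn2, ?_⟩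
    by_contra hk2
    have hk2' : k = 2 := le_antisymm (by omega) hk.two_le
    obtain ⟨m, hm⟩ := hn2
    have hsq : ∀ c : F₀, IsSquare (c : F) := fun c => by
      rcases eq_or_ne c 0 with rfl | hc
      · exact ⟨0, by simp⟩
      rw [FiniteField.isSquare_iff hF2 (fun h => hc (Subtype.ext h))]
      obtain ⟨j, hj⟩ := hq₀
      rw [show Fintype.card F / 2 = (Fintype.card F₀ - 1) * (j + 1) by
        rw [hqk, hk2', hF₀, hj]
        rw [show (2 * j + 1) ^ 2 = 2 * (2 * j * (j + 1)) + 1 by ring, show 2 * j + 1 - 1 = 2 * j by omega]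
        omega, ← SubmonoidClass.coe_pow, pow_mul, FiniteField.pow_card_sub_one_eq_one c hc, one_pow]
      rfl
    obtain ⟨x, hx, hx', hno⟩ := exists_not_conj F₀ (n := n) ((finCongr hm).trans finSumFinEquiv.symm) (by omega) hsq
    obtain ⟨P, hP⟩ := h x ⟨1, hx⟩ hx'
    exact hno P hP
  · intro hcase x ⟨z, hz⟩ hx'
    have : Nonempty (Fin n) := ⟨⟨0, by omega⟩⟩
    obtain ⟨w, hw⟩ : ∃ w, w ^ 3 = z := by
      obtain ⟨b, hb⟩ := (Finite.injective_iff_surjective.1 (frobenius_inj F 3)) z
      exact ⟨b, hb⟩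
    have hw0 : w ≠ 0 := fun h0 => by
      have h1 := (x ^ 3).det_coe
      rw [hz, ← hw, h0, zero_pow three_ne_zero, zero_smul, Matrix.det_zero] at h1
      exact zero_ne_one h1
    set g : Module.End F (Fin n → F) := w⁻¹ • Matrix.toLin' (x : Matrix (Fin n) (Fin n) F)
    have hxg : Matrix.toLin' (x : Matrix (Fin n) (Fin n) F) = w • g := (smul_inv_smul₀ hw0 _).symm
    have hg : g ^ 3 = 1 := by
      rw [_root_.smul_pow, Elusive.toLin'_pow_eq_smul_one.1 hz, smul_smul, inv_pow, hw,
        inv_mul_cancel₀ (hw ▸ pow_ne_zero 3 hw0), one_smul]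
    set N := g - 1
    have hN : N ^ 3 = 0 := by
      rw [show N ^ 3 = N ^ (3 - 1) * N from pow_succ N 2, Elusive.sub_one_pow_pred 3 g, geom_sum_mul, hg, sub_self]
    obtain ⟨b, hb⟩ := Elusive.exists_chain_basis (Module.finrank_fin_fun F (n := n)) hN
    -- the matrix in this basis lies over the prime field
    have hAF : ∀ i j, LinearMap.toMatrix b b g i j ∈ F₀ := fun i j => by
      rw [LinearMap.toMatrix_apply, show g (b j) = b j + N (b j) by simp [N], map_add, Finsupp.add_apply,
        Module.Basis.repr_self]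
      refine add_mem ?_ ?_
      · rw [Finsupp.single_apply]; split_ifs <;> simp
      · rcases hb j with h | ⟨l, h⟩ <;> rw [h]
        · simp
        · rw [Module.Basis.repr_self, Finsupp.single_apply]; split_ifs <;> simp
    set A₀ : Matrix (Fin n) (Fin n) F₀ := Matrix.of fun i j => ⟨_, hAF i j⟩
    have hAmap : A₀.map F₀.subtype = LinearMap.toMatrix b b g := rfl
    have hA3 : A₀ ^ 3 = 1 := by
      refine Matrix.map_injective (f := F₀.subtype) Subtype.val_injective ?_
      simp only [Matrix.map_pow, hAmap, Matrix.map_one _ (map_zero _) (map_one _)]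
      show (LinearMap.toMatrixAlgEquiv b g) ^ 3 = 1
      rw [← map_pow, hg, map_one]
    -- the determinant can be moved into the subfield
    set δ := LinearMap.det b.equivFun.symm.toLinearMap with hδ
    have hδ0 : δ ≠ 0 := (LinearEquiv.isUnit_det' _).ne_zero
    obtain ⟨μ, hμ, hμsum, hμpair⟩ := Elusive.exists_partition_pairs hN ⊤ (fun v _ => trivial)
    rw [finrank_top, Module.finrank_fin_fun] at hμsum
    have hscale : ∀ a ∈ μ, ∀ lam : F, ∃ y : Module.End F (Fin n → F), y * N = N * y ∧ LinearMap.det y = lam ^ a := by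
      intro a ha lam
      obtain ⟨U, R, hU, hR, hsup, hd, hUd⟩ := hμpair {a} (Multiset.singleton_le.2 ha)
      rw [Multiset.sum_singleton] at hUd
      have hc : IsCompl U R := ⟨hd, codisjoint_iff.2 hsup⟩
      set E := Submodule.prodEquivOfIsCompl U R hc
      set y₀ : Module.End F (U × R) := (lam • LinearMap.id).prodMap LinearMap.id
      refine ⟨E.conjAlgEquiv F y₀, ?_, ?_⟩
      · refine LinearMap.ext fun v => ?_
        obtain ⟨⟨u, r⟩, rfl⟩ := E.surjective v
        have hE : ∀ (u : U) (r : R), E (u, r) = (u : Fin n → F) + r := fun u r => rfl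
        have hNE : N (E (u, r)) = E (⟨N u, hU u u.2⟩, ⟨N r, hR r r.2⟩) := by rw [hE, hE, map_add]
        simp only [Module.End.mul_apply, hNE, LinearEquiv.conjAlgEquiv_apply, LinearMap.comp_apply, LinearEquiv.coe_coe,
          E.symm_apply_apply, y₀, LinearMap.prodMap_apply, LinearMap.smul_apply, LinearMap.id_apply]
        simp only [hE, map_add, Submodule.coe_smul, map_smul]
      · rw [show LinearMap.det (E.conjAlgEquiv F y₀) = LinearMap.det y₀ from LinearMap.det_conj y₀ E,
          LinearMap.det_prodMap, LinearMap.det_smul, LinearMap.det_id, LinearMap.det_id, hUd, mul_one, mul_one]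
    obtain ⟨y, hy, a₀, ha₀, hyd⟩ : ∃ y : Module.End F (Fin n → F), y * N = N * y ∧
        ∃ a₀ : F₀, a₀ ≠ 0 ∧ LinearMap.det y * δ = a₀ := by
      have hcube : ∀ c : F, ∃ d, d ^ 3 = c := fun c => by
        obtain ⟨d, hd⟩ := (Finite.injective_iff_surjective.1 (frobenius_inj F 3)) c
        exact ⟨d, hd⟩
      by_cases hall : ∀ a ∈ μ, a = 2
      · have hne : Even n := by
          rw [← hμsum, Multiset.eq_replicate_of_mem hall, Multiset.sum_replicate, smul_eq_mul]
          exact even_two.mul_left _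
        have hk3 : 2 < k := (hcase.resolve_left (Nat.not_odd_iff_even.2 hne)).2
        obtain ⟨a, ha⟩ := Multiset.exists_mem_of_ne_zero (s := μ) (fun h0 => by rw [h0, Multiset.sum_zero] at hμsum; omega)
        obtain rfl := hall a ha
        obtain ⟨ν, hν, hνsq⟩ : ∃ ν : F₀, ν ≠ 0 ∧ IsSquare (δ * ν) := by
          by_cases hδs : IsSquare δ
          · exact ⟨1, one_ne_zero, by simpa using hδs⟩
          obtain ⟨ν, hν⟩ := FiniteField.exists_nonsquare (F := F₀) (fun h2 => by
            have hc := (FiniteField.even_card_iff_char_two (F := F₀)).1 h2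
            rw [hF₀] at hc; rw [Nat.odd_iff] at hq₀; omega)
          have hν0 : ν ≠ 0 := fun h => hν (h ▸ IsSquare.zero)
          refine ⟨ν, hν0, ?_⟩
          have hF02 : ringChar F₀ ≠ 2 := fun h2 => by
            have hc := (FiniteField.even_card_iff_char_two (F := F₀)).1 h2
            rw [hF₀] at hc; rw [Nat.odd_iff] at hq₀; omega
          have hνm : ν ^ (q₀ / 2) = -1 := by
            rcases FiniteField.pow_dichotomy hF02 hν0 with h | h
            · exact absurd ((FiniteField.isSquare_iff hF02 hν0).2 h) hν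
            · rwa [hF₀] at h
          have hδm : δ ^ (Fintype.card F / 2) = -1 := by
            rcases FiniteField.pow_dichotomy hF2 hδ0 with h | h
            · exact absurd ((FiniteField.isSquare_iff hF2 hδ0).2 h) hδs
            · exact h
          rw [FiniteField.isSquare_iff hF2 (mul_ne_zero hδ0 (fun h => hν0 (Subtype.ext h))), mul_pow, hδm,
            ← SubmonoidClass.coe_pow]
          have hsum : Fintype.card F / 2 = q₀ / 2 * ∑ i ∈ Finset.range k, q₀ ^ i := by
            have h := geom_sum_mul_of_one_le (show 1 ≤ q₀ from hq₀.pos) k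
            obtain ⟨j, hj⟩ := hq₀
            obtain ⟨i, hi⟩ : Odd (q₀ ^ k) := Odd.pow (show Odd q₀ from ⟨j, hj⟩) (n := k)
            rw [hqk, hi]
            rw [hi, show q₀ - 1 = 2 * j by omega, mul_left_comm] at h
            rw [show q₀ / 2 = j by omega, mul_comm j]
            omega
          have hsodd : Odd (∑ i ∈ Finset.range k, q₀ ^ i) := by
            rw [Finset.odd_sum_iff_odd_card_odd, Finset.filter_true_of_mem (fun i _ => hq₀.pow), Finset.card_range]
            exact hk.odd_of_ne_two (by omega)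
          rw [hsum, pow_mul, hνm, hsodd.neg_one_pow]
          simp
        obtain ⟨s, hs⟩ := hνsq
        obtain ⟨y, hy, hyd⟩ := hscale 2 ha (s / δ)
        refine ⟨y, hy, ν, hν, ?_⟩
        rw [hyd, div_pow, pow_two s, ← hs]
        field_simp
      · push Not at hall
        obtain ⟨a, ha, ha2⟩ := hall
        obtain ⟨d, hd⟩ : ∃ d, d ^ a = δ⁻¹ := by
          have := hμ a ha
          rcases (show a = 1 ∨ a = 3 by omega) with rfl | rfl
          · exact ⟨δ⁻¹, pow_one _⟩
          · exact hcube _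
        obtain ⟨y, hy, hyd⟩ := hscale a ha d
        exact ⟨y, hy, 1, one_ne_zero, by rw [hyd, hd, inv_mul_cancel₀ hδ0]; rfl⟩
    let d₀ : Fin n → F₀ := fun i => if i = ⟨0, by omega⟩ then a₀⁻¹ else 1
    have hd₀ : (Matrix.diagonal d₀).det = a₀⁻¹ := by
      rw [Matrix.det_diagonal, Finset.prod_eq_single (⟨0, by omega⟩ : Fin n) (fun i _ hi => by simp [d₀, hi])
        (fun h => absurd (Finset.mem_univ _) h)]
      simp [d₀]
    let Dg : GL (Fin n) F₀ := Matrix.GeneralLinearGroup.mkOfDetNeZero _ (by rw [hd₀]; exact inv_ne_zero ha₀)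
    let G₀ : GL (Fin n) F₀ := Units.ofPowEqOne A₀ 3 hA3 three_ne_zero
    set L := y * b.equivFun.symm.toLinearMap * Matrix.toLin' ((Matrix.diagonal d₀).map F₀.subtype) with hL
    have hLdet : (LinearMap.toMatrix' L).det = 1 := by
      rw [LinearMap.det_toMatrix', hL, map_mul, map_mul, LinearMap.det_toLin', ← hδ, hyd,
        show ((Matrix.diagonal d₀).map F₀.subtype).det = F₀.subtype a₀⁻¹ by rw [← hd₀, RingHom.map_det]; rfl,
        ← Subfield.coe_subtype, ← map_mul, mul_inv_cancel₀ ha₀, map_one]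
    obtain ⟨P, hP⟩ : ∃ P : Matrix.SpecialLinearGroup (Fin n) F, (P : Matrix (Fin n) (Fin n) F) = LinearMap.toMatrix' L :=
      ⟨⟨_, hLdet⟩, rfl⟩
    refine ⟨P, Elusive.mem_subfield_of F₀ hw0 (Dg⁻¹ * G₀ * Dg) ?_⟩
    set T := ((Dg⁻¹ * G₀ * Dg : GL (Fin n) F₀) : Matrix (Fin n) (Fin n) F₀).map F₀.subtype
    suffices h : (x : Matrix (Fin n) (Fin n) F) * P = P * (w • T) by
      rw [Matrix.SpecialLinearGroup.coe_mul, Matrix.SpecialLinearGroup.coe_mul, mul_assoc, h, ← mul_assoc,
        ← Matrix.SpecialLinearGroup.coe_mul, inv_mul_cancel, Matrix.SpecialLinearGroup.coe_one, one_mul]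
    have hDT : (Matrix.diagonal d₀).map F₀.subtype * T = LinearMap.toMatrix b b g * (Matrix.diagonal d₀).map F₀.subtype := by
      rw [← hAmap, ← Matrix.map_mul, ← Matrix.map_mul]
      refine congrArg (fun M : Matrix (Fin n) (Fin n) F₀ => M.map F₀.subtype) ?_
      show (Dg : Matrix (Fin n) (Fin n) F₀) * _ = (G₀ : Matrix (Fin n) (Fin n) F₀) * Dg
      rw [← Units.val_mul, ← Units.val_mul, show Dg * (Dg⁻¹ * G₀ * Dg) = G₀ * Dg by group]
    apply Matrix.toLin'.injective
    rw [Matrix.toLin'_mul, Matrix.toLin'_mul, hxg, hP, Matrix.toLin'_toMatrix', map_smul, LinearMap.comp_smul,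
      LinearMap.smul_comp]
    congr 1
    show g * L = L * Matrix.toLin' T
    have hyg : g * y = y * g := by
      rw [show g = N + 1 by simp [N], add_mul, mul_add, hy, one_mul, mul_one]
    have hbg : g * b.equivFun.symm.toLinearMap = b.equivFun.symm.toLinearMap * Matrix.toLin' (LinearMap.toMatrix b b g) := by
      refine LinearMap.ext fun v => ?_
      show g (b.equivFun.symm v) = b.equivFun.symm (LinearMap.toMatrix b b g *ᵥ v)
      rw [LinearEquiv.eq_symm_apply]
      have := LinearMap.toMatrix_mulVec_repr b b g (b.equivFun.symm v)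
      rw [← Module.Basis.equivFun_apply, LinearEquiv.apply_symm_apply] at this
      rw [this]; rfl
    rw [hL, ← mul_assoc, ← mul_assoc, hyg, mul_assoc y g, hbg, mul_assoc _ _ (Matrix.toLin' T), ← mul_assoc y,
      mul_assoc (y * b.equivFun.symm.toLinearMap)]
    congr 1
    show Matrix.toLin' _ ∘ₗ Matrix.toLin' _ = Matrix.toLin' _ ∘ₗ Matrix.toLin' T
    rw [← Matrix.toLin'_mul, ← Matrix.toLin'_mul, hDT]

end Cfsg.Agent.S5966
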