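import Cfsg.Statements.S5967
import Cfsg.Agent.Elusive.InvolutionForms
import Cfsg.Agent.Elusive.AltForm
import Cfsg.Agent.Elusive.SLCriterion

set_option autoImplicit false
open scoped MatrixGroups
open Cfsg

namespace Cfsg.Agent.S5967

open Matrix Finset

theorem exists_pow_eq_neg_one_iff {F : Type*} [Field F] [Fintype F] (h2 : (2 : F) ≠ 0) {n : ℕ} (hn : 0 < n) :
    (∃ w : F, w ^ n = -1) ↔ padicValNat 2 n < padicValNat 2 (Fintype.card F - 1) := by
  classical
  have hq1 : Fintype.card F - 1 ≠ 0 := by have := Fintype.one_lt_card (α := F); omega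
  have hne : (-1 : F) ≠ 1 := fun h => h2 (by linear_combination -h)
  obtain ⟨k, n', hodd, rfl⟩ := Nat.exists_eq_two_pow_mul_odd hn.ne'
  have hk : padicValNat 2 (2 ^ k * n') = k := by
    rw [padicValNat.mul (by positivity) (by rcases hodd with ⟨a, rfl⟩; omega), padicValNat.prime_pow,
      padicValNat.eq_zero_of_not_dvd (by rcases hodd with ⟨a, rfl⟩; omega), add_zero]
  rw [hk]
  constructor
  · rintro ⟨w, hw⟩
    set w' := w ^ n'
    have hw' : w' ^ 2 ^ k = -1 := by rw [← pow_mul, mul_comm, hw]
    have hord : orderOf w' = 2 ^ (k + 1) := orderOf_eq_prime_pow (by rw [hw']; exact hne)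
      (by rw [pow_succ, pow_mul, hw', neg_one_sq])
    have h0 : w' ≠ 0 := fun h => by rw [h, zero_pow (by positivity)] at hw'; simp at hw'
    have := orderOf_dvd_of_pow_eq_one (FiniteField.pow_card_sub_one_eq_one w' h0)
    rw [hord] at this
    exact (padicValNat_dvd_iff_le hq1).1 this
  · intro h
    obtain ⟨u, hu⟩ := IsCyclic.exists_ofOrder_eq_natCard (α := Fˣ)
    rw [Nat.card_units, Nat.card_eq_fintype_card] at hu
    obtain ⟨c, hc⟩ := (padicValNat_dvd_iff_le (p := 2) hq1).2 (Nat.succ_le_of_lt h)
    refine ⟨(u : F) ^ c, ?_⟩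
    have e1 : ((u : F) ^ (c * 2 ^ k)) ^ 2 = 1 := by
      rw [← pow_mul, show c * 2 ^ k * 2 = 2 ^ (k + 1) * c by rw [pow_succ]; ring, ← hc, ← hu,
        ← Units.val_pow_eq_pow_val, pow_orderOf_eq_one, Units.val_one]
    have e2 : (u : F) ^ (c * 2 ^ k) ≠ 1 := by
      rw [← Units.val_pow_eq_pow_val, Ne, Units.val_eq_one, ← orderOf_dvd_iff_pow_eq_one, hu]
      intro hd
      have hc0 : 0 < c := Nat.pos_of_ne_zero fun h => hq1 (by rw [hc, h, mul_zero])
      have := Nat.le_of_dvd (Nat.mul_pos hc0 (by positivity)) hd
      rw [hc, pow_succ] at this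
      have : 2 ^ k * c * 2 = 2 ^ k * 2 * c := by ring
      have : 0 < 2 ^ k * c := by positivity
      nlinarith
    rw [← pow_mul, ← mul_assoc, pow_mul, (sq_eq_one_iff.1 e1).resolve_left e2, hodd.neg_one_pow]

/-- A monomial basis with coefficients. -/
theorem exists_monomial {F V : Type*} [Field F] [AddCommGroup V] [Module F V] [FiniteDimensional F V]
    (f : Module.End F V) {z : F} (hz : z ≠ 0) (hf : ∀ v, f (f v) = z • v) :
    ∃ (ι : Type) (_ : Fintype ι) (b : Module.Basis ι F V) (π : ι → ι) (a : ι → F),
      (∀ i, π (π i) = i) ∧ (∀ i, f (b i) = a i • b (π i)) ∧ ∀ i, a i * a (π i) = z := by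
  obtain ⟨ι, hι, b, π, hli, hsp, hπ, hb⟩ := Elusive.exists_monomial_basis f hz hf
  choose a ha using fun i => Submodule.mem_span_singleton.1 (hb i)
  let B := Module.Basis.mk hli (top_le_iff.2 hsp)
  have hB : ∀ i, B i = b i := fun i => Module.Basis.mk_apply _ _ i
  refine ⟨ι, hι, B, π, a, hπ, fun i => by rw [hB, hB, ha], fun i => ?_⟩
  have h := hf (b i)
  rw [← ha, map_smul, ← ha (π i), hπ, smul_smul] at h
  exact smul_left_injective F (hli.ne_zero i) h

/-- Involutions of PSL_n(q) and the symplectic-type subgroups. Here `T = PSL_n(F)` for a field `F` with `q` elements, `n ≥ 4` even, `f` is a nondegenerate alternating form on `F^n`, and `H` is the subgroup of matrices of determinant 1 preserving `f` up to a scalar — a maximal subgroup of type Sp_n(q); Ω is the set of `T`-conjugates of `H` (cosets of `H`), so an element of `T` of prime order `r` (a matrix `x` of determinant 1 with `x^r` scalar, `x` not scalar) fixes a point of Ω when some conjugate of `x` by a matrix of determinant 1 preserves `f` up to a scalar. Suppose the index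 of `H` is even. Then every involution of `T` is conjugate in `T` into `H` if and only if `(q − 1)_2 ≤ (n)_2`. -/
theorem result {F : Type*} [Field F] [Fintype F] {p : ℕ} [Fact p.Prime] [CharP F p] {q : ℕ} (hq : Fintype.card F = q)
    (n : ℕ) (hn : 4 ≤ n) (he : Even n) (f : (Fin n → F) → (Fin n → F) → F) (hf : Cfsg.Geo.IsSymplecticForm f)
    (hΩ : 2 ∣ ((Cfsg.Geo.similarityGroup f).comap (Matrix.SpecialLinearGroup.toGL : Matrix.SpecialLinearGroup (Fin n) F →* GL (Fin n) F)).index) :
    (∀ x : Matrix.SpecialLinearGroup (Fin n) F,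
      (∃ z : F, ((x ^ 2 : Matrix.SpecialLinearGroup (Fin n) F) : Matrix (Fin n) (Fin n) F) = z • (1 : Matrix (Fin n) (Fin n) F)) →
      (∀ z : F, (x : Matrix (Fin n) (Fin n) F) ≠ z • (1 : Matrix (Fin n) (Fin n) F)) →
      ∃ P : Matrix.SpecialLinearGroup (Fin n) F, P⁻¹ * x * P ∈ ((Cfsg.Geo.similarityGroup f).comap (Matrix.SpecialLinearGroup.toGL : Matrix.SpecialLinearGroup (Fin n) F →* GL (Fin n) F))) ↔
    padicValNat 2 (q - 1) ≤ padicValNat 2 n := by
  classical
  subst hq
  obtain ⟨d, hd⟩ := he
  have hn2 : n = 2 * d := by omega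
  let B : LinearMap.BilinForm F (Fin n → F) := LinearMap.mk₂ F f hf.bilinear.add_left hf.bilinear.smul_left
    hf.bilinear.add_right hf.bilinear.smul_right
  have hA : B.IsAlt := hf.alternating
  have hB : ∀ v, (∀ w, B v w = 0) → v = 0 := fun v h => by
    by_contra hv
    obtain ⟨x, hx⟩ := (hf.nondegenerate v hv).2
    exact hx (h x)
  set H := (Cfsg.Geo.similarityGroup f).comap (Matrix.SpecialLinearGroup.toGL : Matrix.SpecialLinearGroup (Fin n) F →* GL (Fin n) F)
  constructor
  · intro h
    by_contra hc
    rw [not_le] at hc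
    have h2 : (2 : F) ≠ 0 := by
      intro h0
      have := (FiniteField.even_card_iff_char_two (F := F)).1 (CharP.ringChar_of_prime_eq_zero Nat.prime_two (by exact_mod_cast h0))
      rw [padicValNat.eq_zero_of_not_dvd (n := Fintype.card F - 1) (by have := Fintype.one_lt_card (α := F); omega)] at hc
      exact absurd hc (Nat.not_lt_zero _)
    obtain ⟨w, hw⟩ := (exists_pow_eq_neg_one_iff h2 (by omega : 0 < n)).2 hc
    have hw0 : w ≠ 0 := fun h0 => by rw [h0, zero_pow (by omega : n ≠ 0)] at hw; simp at hw
    set i0 : Fin n := ⟨0, by omega⟩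
    set i1 : Fin n := ⟨1, by omega⟩
    set l : Fin n → F := fun i => if i = i0 then -w else w with hl
    have hne : -w ≠ w := fun e => hw0 (by
      have : (2 : F) * w = 0 := by linear_combination -e
      exact (mul_eq_zero.1 this).resolve_left h2)
    have hdet : (Matrix.diagonal l).det = 1 := by
      rw [Matrix.det_diagonal, show (∏ i, l i) = ∏ i, w * (if i = i0 then -1 else 1) from
        prod_congr rfl fun i _ => by simp only [hl]; split_ifs <;> ring, prod_mul_distrib, prod_const, card_univ,
        Fintype.card_fin, hw, prod_ite_eq' univ i0]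
      simp
    let x : Matrix.SpecialLinearGroup (Fin n) F := ⟨Matrix.diagonal l, hdet⟩
    have hx : ∀ z : F, (x : Matrix (Fin n) (Fin n) F) ≠ z • (1 : Matrix (Fin n) (Fin n) F) := by
      intro z hz
      have e0 := congrFun (congrFun hz i0) i0
      have e1 := congrFun (congrFun hz i1) i1
      simp [x, hl, i0, i1] at e0 e1
      exact hne (e0.trans e1.symm)
    obtain ⟨P, hP⟩ := h x ⟨w ^ 2, by
      rw [Matrix.SpecialLinearGroup.coe_pow]
      show Matrix.diagonal l ^ 2 = _
      rw [Matrix.diagonal_pow, Matrix.smul_one_eq_diagonal]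
      congr 1; funext i; simp only [Pi.pow_apply, hl]; split_ifs <;> ring⟩ hx
    obtain ⟨c, hc'⟩ := hP
    set Q := ((P⁻¹ : Matrix.SpecialLinearGroup (Fin n) F) : Matrix (Fin n) (Fin n) F)
    set P' := ((P : Matrix.SpecialLinearGroup (Fin n) F) : Matrix (Fin n) (Fin n) F)
    have hQP : Q * P' = 1 := by
      simp only [Q, P', ← Matrix.SpecialLinearGroup.coe_mul, inv_mul_cancel, Matrix.SpecialLinearGroup.coe_one]
    have hPQ : P' * Q = 1 := by
      simp only [Q, P', ← Matrix.SpecialLinearGroup.coe_mul, mul_inv_cancel, Matrix.SpecialLinearGroup.coe_one]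
    let B' := B.compl₁₂ (Matrix.toLin' Q) (Matrix.toLin' Q)
    have hA' : B'.IsAlt := fun v => hA _
    have hB' : ∀ v, (∀ w, B' v w = 0) → v = 0 := fun v hv => by
      have h0 := hB (Q *ᵥ v) fun w => by
        have := hv (P' *ᵥ w)
        simpa [B', Matrix.mulVec_mulVec, hQP] using this
      have := congrArg (P' *ᵥ ·) h0
      simpa [Matrix.mulVec_mulVec, hPQ] using this
    have hsim : ∀ u v, B' (Matrix.diagonal l *ᵥ u) (Matrix.diagonal l *ᵥ v) = (c : F) * B' u v := fun u v => by
      have := hc' (Q *ᵥ u) (Q *ᵥ v)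
      change f ((Q * Matrix.diagonal l * P') *ᵥ (Q *ᵥ u)) ((Q * Matrix.diagonal l * P') *ᵥ (Q *ᵥ v)) = _ at this
      simp only [Matrix.mulVec_mulVec, Matrix.mul_assoc, hPQ, Matrix.mul_one] at this
      simpa [B', B, Matrix.mulVec_mulVec] using this
    have hl' : ∀ a b, l a * l b * B' (Pi.single a 1) (Pi.single b 1) = (c : F) * B' (Pi.single a 1) (Pi.single b 1) := by
      intro a b
      have hs : ∀ a, Matrix.diagonal l *ᵥ Pi.single a (1 : F) = l a • Pi.single a (1 : F) := fun a => by
        funext k
        rcases eq_or_ne k a with rfl | h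
        · simp [mulVec_diagonal]
        · simp [mulVec_diagonal, h]
      have := hsim (Pi.single a 1) (Pi.single b 1)
      simp only [hs, map_smul, LinearMap.smul_apply, smul_eq_mul] at this
      linear_combination this
    have hfil : ∀ μ, (univ.filter fun a => l a = μ).card =
        (if -w = μ then 1 else 0) + (n - 1) * (if w = μ then 1 else 0) := by
      intro μ
      rw [card_filter, ← add_sum_erase univ _ (mem_univ i0),
        sum_congr rfl (g := fun _ => if w = μ then 1 else 0) fun a ha => by simp only [hl, if_neg (ne_of_mem_erase ha)],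
        sum_const, card_erase_of_mem (mem_univ i0), card_univ, Fintype.card_fin, smul_eq_mul]
      simp only [hl, if_pos]
    have hw' : -w ≠ 0 := neg_ne_zero.2 hw0
    obtain ⟨h1, h1'⟩ := Elusive.card_eigen_pair hA' hB' l hl' (-w) ((c : F) / -w) fun x => by rw [eq_div_iff hw', mul_comm]
    simp only [hfil, if_pos, if_neg hne.symm, mul_zero, add_zero] at h1 h1'
    have hν : (c : F) / -w ≠ -w := fun e => absurd (h1' e.symm) (by decide)
    rw [if_neg hν.symm] at h1
    by_cases hν' : w = (c : F) / -w
    · obtain ⟨h3, -⟩ := Elusive.card_eigen_pair hA' hB' l hl' w (-w) fun x => by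
        rw [show (c : F) = w * -w from ((eq_div_iff hw').1 hν').symm]
        exact ⟨fun e => mul_left_cancel₀ hw0 e, fun e => by rw [e]⟩
      simp only [hfil, if_pos, if_neg hne, if_neg hne.symm, mul_zero, mul_one, zero_add, add_zero] at h3
      omega
    · rw [if_neg hν'] at h1; omega
  · intro h x ⟨z, hz⟩ _
    have hz' := Elusive.toLin'_pow_eq_smul_one.1 hz
    set g : Module.End F (Fin n → F) := Matrix.toLin' (x : Matrix (Fin n) (Fin n) F) with hg
    have hgg : ∀ v, g (g v) = z • v := fun v => by
      have := LinearMap.congr_fun hz' v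
      rwa [pow_two] at this
    have hdetg : LinearMap.det g = 1 := by rw [hg, LinearMap.det_toLin', x.det_coe]
    have : Nonempty (Fin n) := ⟨⟨0, by omega⟩⟩
    have hz0 : z ≠ 0 := by
      intro h0
      have h1 := (x ^ 2).det_coe
      rw [hz, h0, zero_smul, Matrix.det_zero] at h1
      exact zero_ne_one h1
    -- it is enough to find a form with `g` as a similitude
    suffices hform : ∃ (B' : LinearMap.BilinForm F (Fin n → F)) (c : F), c ≠ 0 ∧ B'.IsAlt ∧
        (∀ v, (∀ w, B' v w = 0) → v = 0) ∧ ∀ u v, B' (g u) (g v) = c * B' u v by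
      obtain ⟨ι, _, b, π, a, hπ, hb, ha⟩ := exists_monomial g hz0 hgg
      have : Nonempty ι := b.index_nonempty
      obtain ⟨B', c, hc0, hA', hB', hsim⟩ := hform
      obtain ⟨Q, hQ, hQs⟩ := Elusive.exists_sl_conj hn2 hA hB hA' hB' hsim
        fun t _ => Elusive.exists_commute_det b π hπ a hb (fun i => by rw [ha]; exact hz0) t
      let P : Matrix.SpecialLinearGroup (Fin n) F := ⟨LinearMap.toMatrix' Q, by rw [LinearMap.det_toMatrix', hQ]⟩
      refine ⟨P⁻¹, Units.mk0 c hc0, fun u v => ?_⟩
      rw [inv_inv]
      show f (((P * x * P⁻¹ : Matrix.SpecialLinearGroup (Fin n) F) : Matrix (Fin n) (Fin n) F) *ᵥ u)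
        (((P * x * P⁻¹ : Matrix.SpecialLinearGroup (Fin n) F) : Matrix (Fin n) (Fin n) F) *ᵥ v) = c * f u v
      have hP : ∀ v, Q (((P⁻¹ : Matrix.SpecialLinearGroup (Fin n) F) : Matrix (Fin n) (Fin n) F) *ᵥ v) = v := fun v => by
        rw [← LinearMap.toMatrix'_mulVec]
        show (P : Matrix (Fin n) (Fin n) F) *ᵥ _ = v
        rw [Matrix.mulVec_mulVec, ← Matrix.SpecialLinearGroup.coe_mul, mul_inv_cancel,
          Matrix.SpecialLinearGroup.coe_one, Matrix.one_mulVec]
      have key := hQs (((P⁻¹ : Matrix.SpecialLinearGroup (Fin n) F) : Matrix (Fin n) (Fin n) F) *ᵥ u)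
        (((P⁻¹ : Matrix.SpecialLinearGroup (Fin n) F) : Matrix (Fin n) (Fin n) F) *ᵥ v)
      rw [hP, hP] at key
      simp only [Matrix.SpecialLinearGroup.coe_mul, ← Matrix.mulVec_mulVec]
      show f (LinearMap.toMatrix' Q *ᵥ _) (LinearMap.toMatrix' Q *ᵥ _) = _
      rw [LinearMap.toMatrix'_mulVec, LinearMap.toMatrix'_mulVec]
      exact key
    by_cases h2 : ringChar F = 2
    · -- even characteristic
      have : CharP F 2 := h2 ▸ ringChar.charP F
      obtain ⟨w, hw⟩ := FiniteField.isSquare_of_char_two h2 z
      obtain ⟨ι, _, b, π, a, hπ, hb, ha⟩ := exists_monomial g hz0 hgg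
      have hcard : Fintype.card ι = n := by rw [← Module.finrank_eq_card_basis b, Module.finrank_fin_fun]
      have hev : Even (univ.filter fun i => π i = i).card := by
        let σ : Equiv.Perm ι := ⟨π, π, hπ, hπ⟩
        have hσ : σ ^ 2 ^ 1 = 1 := Equiv.ext fun i => by rw [pow_one, pow_two]; exact hπ i
        have := Equiv.Perm.card_compl_support_modEq hσ
        rw [show σ.supportᶜ = univ.filter fun i => π i = i by ext i; simp [σ], hcard, Nat.ModEq] at this
        rw [Nat.even_iff, this]; omega
      obtain ⟨τ0, hτ0, hτ0', hτcls⟩ := Elusive.exists_pairing (fun i : {i // π i = i} => ())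
        (fun _ => by simpa [Fintype.card_subtype] using hev)
      let τ : ι → ι := fun i => if h : π i = i then (τ0 ⟨i, h⟩).1 else π i
      have hτ : ∀ i, τ (τ i) = i := fun i => by
        by_cases h : π i = i
        · simp only [τ, dif_pos h, dif_pos (τ0 ⟨i, h⟩).2, Subtype.coe_eta, hτ0]
        · simp only [τ, dif_neg h, hπ]
          rw [dif_neg (fun e => h e.symm)]
      have hτ' : ∀ i, τ i ≠ i := fun i => by
        by_cases h : π i = i
        · simp only [τ, dif_pos h]; exact fun e => hτ0' _ (Subtype.ext e)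
        · simp only [τ, dif_neg h]; exact h
      have haw : ∀ i, π i = i → a i = w := fun i h => by
        have := ha i
        rw [h, hw] at this
        rcases mul_self_eq_mul_self_iff.1 this with e | e
        · exact e
        · rwa [CharTwo.neg_eq] at e
      obtain ⟨B', hA', hB', hsim⟩ := Elusive.exists_form_of_pairing b π hπ a hb τ hτ hτ' (c := z) fun i => by
        by_cases h : π i = i
        · refine Or.inl ⟨h, ?_, ?_⟩
          · simp only [τ, dif_pos h]; exact (τ0 ⟨i, h⟩).2
          · simp only [τ, dif_pos h]; rw [haw i h, haw _ (τ0 ⟨i, h⟩).2, hw]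
        · exact Or.inr ⟨by simp only [τ, dif_neg h], by simp only [τ, dif_neg h]; rw [ha, CharTwo.neg_eq]⟩
      exact ⟨B', z, hz0, hA', hB', hsim⟩
    have h2' : (2 : F) ≠ 0 := fun h0 => h2 (CharP.ringChar_of_prime_eq_zero Nat.prime_two (by exact_mod_cast h0))
    by_cases hsq : ∃ w, w * w = z
    · obtain ⟨w, hw⟩ := hsq
      have hw0 : w ≠ 0 := fun h0 => hz0 (by rw [← hw, h0, mul_zero])
      have hcompl : IsCompl (LinearMap.ker (g - w • 1)) (LinearMap.ker (g + w • 1)) := by
        constructor
        · refine Submodule.disjoint_def.2 fun v h1 h3 => ?_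
          simp only [LinearMap.mem_ker, LinearMap.sub_apply, LinearMap.add_apply, LinearMap.smul_apply,
            Module.End.one_apply] at h1 h3
          have : ((2 : F) * w) • v = 0 := by
            rw [two_mul, add_smul, ← sub_eq_zero.1 h1]
            rw [← sub_eq_zero.1 h1] at h3
            exact h3
          exact (smul_eq_zero.1 this).resolve_left (mul_ne_zero h2' hw0)
        · rw [codisjoint_iff, eq_top_iff]
          intro v _
          have hv : v = ((2 : F) * w)⁻¹ • (g v + w • v) + (-((2 : F) * w)⁻¹) • (g v - w • v) := by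
            rw [neg_smul, ← sub_eq_add_neg, ← smul_sub, add_sub_sub_cancel, ← add_smul, ← two_mul, smul_smul,
              inv_mul_cancel₀ (mul_ne_zero h2' hw0), one_smul]
          rw [hv]
          refine Submodule.add_mem_sup (Submodule.smul_mem _ _ ?_) (Submodule.smul_mem _ _ ?_)
          · simp only [LinearMap.mem_ker, LinearMap.sub_apply, LinearMap.smul_apply, Module.End.one_apply, map_add,
              map_smul, hgg, ← hw, smul_add, smul_smul]
            module
          · simp only [LinearMap.mem_ker, LinearMap.add_apply, LinearMap.smul_apply, Module.End.one_apply, map_sub,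
              map_smul, hgg, ← hw, smul_sub, smul_smul]
            module
      set U := LinearMap.ker (g - w • 1)
      set W := LinearMap.ker (g + w • 1)
      let b : Module.Basis (Fin (Module.finrank F U) ⊕ Fin (Module.finrank F W)) F (Fin n → F) :=
        ((Module.finBasis F U).prod (Module.finBasis F W)).map (Submodule.prodEquivOfIsCompl U W hcompl)
      let a : Fin (Module.finrank F U) ⊕ Fin (Module.finrank F W) → F := Sum.elim (fun _ => w) (fun _ => -w)
      have hb : ∀ i, g (b i) = a i • b (id i) := by
        rintro (i | i)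
        · have h1 := ((Module.finBasis F U) i).2
          simp only [U, LinearMap.mem_ker, LinearMap.sub_apply, LinearMap.smul_apply, Module.End.one_apply,
            sub_eq_zero] at h1
          simpa [b, a] using h1
        · have h1 := ((Module.finBasis F W) i).2
          simp only [W, LinearMap.mem_ker, LinearMap.add_apply, LinearMap.smul_apply, Module.End.one_apply,
            add_eq_zero_iff_eq_neg] at h1
          simpa [b, a] using h1
      have hsum : Module.finrank F U + Module.finrank F W = n := by
        rw [Submodule.finrank_add_eq_of_isCompl hcompl, Module.finrank_fin_fun]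
      have hWev : Even (Module.finrank F W) := by
        rw [← LinearMap.det_toMatrix b, show LinearMap.toMatrix b b g = Matrix.diagonal a from ?_, Matrix.det_diagonal,
          Fintype.prod_sum_type] at hdetg
        · by_contra hodd
          simp only [a, Sum.elim_inl, Sum.elim_inr, prod_const, card_univ, Fintype.card_fin] at hdetg
          rw [neg_pow, (Nat.not_even_iff_odd.1 hodd).neg_one_pow, ← mul_assoc, mul_comm (w ^ _) (-1 : F), mul_assoc,
            ← pow_add, hsum] at hdetg
          have := (exists_pow_eq_neg_one_iff h2' (by omega : 0 < n)).1 ⟨w, by linear_combination -hdetg⟩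
          omega
        · ext i j
          rw [LinearMap.toMatrix_apply, hb, map_smul, Finsupp.smul_apply, id, Module.Basis.repr_self,
            Finsupp.single_apply, Matrix.diagonal_apply]
          rcases eq_or_ne i j with rfl | h
          · simp
          · simp [h, h.symm]
      have hUev : Even (Module.finrank F U) := by rw [Nat.even_iff] at hWev ⊢; omega
      obtain ⟨τ, hτ, hτ', hτc⟩ := Elusive.exists_pairing
        (fun i : Fin (Module.finrank F U) ⊕ Fin (Module.finrank F W) => i.isLeft) (fun k => by
          rw [card_filter, Fintype.sum_sum_type]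
          cases k
          · simpa using hWev
          · simpa using hUev)
      obtain ⟨B', hA', hB', hsim⟩ := Elusive.exists_form_of_pairing b id (fun _ => rfl) a hb τ hτ hτ' (c := z)
        fun i => Or.inl ⟨rfl, rfl, by
          have := hτc i
          rcases i with i | i <;> generalize τ _ = j at this ⊢ <;> rcases j with j | j <;> simp at this <;>
            simp [a, hw]⟩
      exact ⟨B', z, hz0, hA', hB', hsim⟩
    · obtain ⟨ι, _, b, π, a, hπ, hb, ha⟩ := exists_monomial g hz0 hgg
      have hπ' : ∀ i, π i ≠ i := fun i e => hsq ⟨a i, by have := ha i; rwa [e] at this⟩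
      obtain ⟨B', hA', hB', hsim⟩ := Elusive.exists_form_of_pairing b π hπ a hb π hπ hπ' (c := -z)
        fun i => Or.inr ⟨rfl, by rw [ha, neg_neg]⟩
      exact ⟨B', -z, neg_ne_zero.2 hz0, hA', hB', hsim⟩

end Cfsg.Agent.S5967
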