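import Cfsg.Statements.S5968
import Cfsg.Agent.Elusive.AltForm
import Cfsg.Agent.Elusive.Primitive

set_option autoImplicit false
open scoped MatrixGroups
open Cfsg

namespace Cfsg.Agent.S5968

open Matrix Finset

theorem false_of_unipotent {F : Type*} [Field F] (h2 : (2 : F) ≠ 0) {n : ℕ} (hn : 3 ≤ n)
    (B : LinearMap.BilinForm F (Fin n → F)) (hA : B.IsAlt) (hB : ∀ v, (∀ w, B v w = 0) → v = 0)
    (N : Module.End F (Fin n → F)) (h3 : ∀ v, N (N (N v)) = 0)
    (hNN : ∀ v, N (N v) = v ⟨0, by omega⟩ • Pi.single (⟨2, by omega⟩ : Fin n) (1 : F))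
    (hiso : ∀ u v, B (u + N u) (v + N v) = B u v) : False := by
  have star : ∀ u v, B (N u) v + B u (N v) + B (N u) (N v) = 0 := fun u v => by
    have := hiso u v
    simp only [map_add, LinearMap.add_apply] at this
    linear_combination this
  have a : ∀ u v, B (N u) (N (N v)) = 0 := fun u v => by
    have := star u (N (N v))
    simp only [h3, map_zero, add_zero] at this
    exact this
  have b : ∀ u v, B (N (N u)) v = B u (N (N v)) := fun u v => by
    have e1 := star u (N v)
    have e2 := star (N u) v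
    have e3 : B (N (N u)) (N v) = 0 := by rw [← LinearMap.IsAlt.neg hA, a, neg_zero]
    linear_combination e2 - e1 - e3 + a u v
  set i0 : Fin n := ⟨0, by omega⟩
  set i2 : Fin n := ⟨2, by omega⟩
  set e0 : Fin n → F := Pi.single i0 1
  set e2 : Fin n → F := Pi.single i2 1
  have he : N (N e0) = e2 := by rw [hNN]; simp [e0, e2, i0, i2]
  have h02 : B e0 e2 = 0 := by
    have h := b e0 e0
    rw [he, ← LinearMap.IsAlt.neg hA e0 e2] at h
    have : (2 : F) * B e0 e2 = 0 := by linear_combination -h
    simpa [h2] using this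
  have := hB e2 fun w => by
    rw [← he, b, hNN, map_smul, smul_eq_mul, h02, mul_zero]
  have := congrFun this i2
  simp [e2] at this

theorem false_of_block {F : Type*} [Field F] {i n : ℕ} (hi : Odd i) (e : Fin i ⊕ Fin (n - i) ≃ Fin n)
    (B : LinearMap.BilinForm F (Fin n → F)) (hA : B.IsAlt) (hB : ∀ v, (∀ w, B v w = 0) → v = 0)
    (y : Matrix (Fin i) (Fin i) F) (hy : ∀ a, y *ᵥ a = a → a = 0)
    (hiso : ∀ u v, B ((Matrix.reindex e e (fromBlocks y 0 0 1)) *ᵥ u)
      ((Matrix.reindex e e (fromBlocks y 0 0 1)) *ᵥ v) = B u v) : False := by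
  let L : (Fin i → F) →ₗ[F] (Fin n → F) :=
    { toFun := fun a => Sum.elim a 0 ∘ e.symm
      map_add' := fun a b => funext fun k => by cases h : e.symm k <;> simp [h]
      map_smul' := fun c a => funext fun k => by cases h : e.symm k <;> simp [h] }
  let R : (Fin (n - i) → F) →ₗ[F] (Fin n → F) :=
    { toFun := fun a => Sum.elim 0 a ∘ e.symm
      map_add' := fun a b => funext fun k => by cases h : e.symm k <;> simp [h]
      map_smul' := fun c a => funext fun k => by cases h : e.symm k <;> simp [h] }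
  have hv : ∀ v, v = L (v ∘ e ∘ Sum.inl) + R (v ∘ e ∘ Sum.inr) := fun v => funext fun k => by
    obtain ⟨k, rfl⟩ := e.surjective k
    cases k <;> simp [L, R]
  have hxL : ∀ a, (Matrix.reindex e e (fromBlocks y 0 0 1)) *ᵥ L a = L (y *ᵥ a) := fun a => by
    show (fromBlocks y 0 0 1).submatrix e.symm e.symm *ᵥ _ = _
    rw [submatrix_mulVec_equiv]
    simp [L, fromBlocks_mulVec, Function.comp_def]
    rfl
  have hxR : ∀ a, (Matrix.reindex e e (fromBlocks y 0 0 1)) *ᵥ R a = R a := fun a => by
    show (fromBlocks y 0 0 1).submatrix e.symm e.symm *ᵥ _ = _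
    rw [submatrix_mulVec_equiv]
    simp [R, fromBlocks_mulVec, Function.comp_def]
    funext k
    cases e.symm k <;> simp [Matrix.mulVec, dotProduct]
  have hsurj : Function.Surjective (Matrix.toLin' y - 1 : Module.End F (Fin i → F)) := by
    refine LinearMap.surjective_of_injective ((injective_iff_map_eq_zero _).2 fun a ha => hy a ?_)
    rwa [LinearMap.sub_apply, sub_eq_zero, Matrix.toLin'_apply] at ha
  have horth : ∀ a b, B (L a) (R b) = 0 := by
    intro a b
    obtain ⟨a', rfl⟩ := hsurj a
    have := hiso (L a') (R b)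
    rw [hxL, hxR] at this
    rw [LinearMap.sub_apply, map_sub, map_sub, LinearMap.sub_apply, Matrix.toLin'_apply, this,
      Module.End.one_apply, sub_self]
  have h := Elusive.even_finrank_of_alt (B := B.compl₁₂ L L) (fun a => hA (L a)) fun a ha => by
    have h0 := hB (L a) fun w => by
      rw [hv w, map_add, horth, add_zero]
      exact ha _
    funext k
    simpa [L] using congrFun h0 (e (Sum.inl k))
  rw [Module.finrank_fin_fun] at h
  exact Nat.not_even_iff_odd.2 hi h

theorem false_of_diagonal {F : Type*} [Field F] {m r : ℕ} (hm : Odd m) (hr : r.Prime) (hr2 : r ≠ 2)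
    (hgap : ¬ (m + 3 = 6 ∧ r = 3)) {ζ : F} (hz : ∀ k, ζ ^ k = 1 ↔ r ∣ k)
    (B : LinearMap.BilinForm F (Fin (m + 3) → F)) (hA : B.IsAlt) (hB : ∀ v, (∀ w, B v w = 0) → v = 0)
    (l : Fin (m + 3) → F) (hl : l = Fin.cons ζ (Fin.cons ζ (Fin.cons (ζ ^ 2)⁻¹ fun _ => 1)))
    {c : F} (hc : ∀ u v, B (Matrix.diagonal l *ᵥ u) (Matrix.diagonal l *ᵥ v) = c * B u v) : False := by
  classical
  have hz0 : ζ ≠ 0 := fun h => by
    have := (hz r).2 dvd_rfl
    rw [h, zero_pow hr.ne_zero] at this
    exact zero_ne_one this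
  have hl' : ∀ a b, l a * l b * B (Pi.single a 1) (Pi.single b 1) = c * B (Pi.single a 1) (Pi.single b 1) := by
    intro a b
    have hs : ∀ a, Matrix.diagonal l *ᵥ Pi.single a (1 : F) = l a • Pi.single a (1 : F) := fun a => by
      funext k
      rcases eq_or_ne k a with rfl | h
      · simp [mulVec_diagonal]
      · simp [mulVec_diagonal, h]
    have := hc (Pi.single a 1) (Pi.single b 1)
    simp only [hs, map_smul, LinearMap.smul_apply, smul_eq_mul] at this
    linear_combination this
  set η := (ζ ^ 2)⁻¹ with hη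
  have hcnt : ∀ μ : F, (univ.filter fun a => l a = μ).card =
      (if ζ = μ then 1 else 0) + ((if ζ = μ then 1 else 0) + ((if η = μ then 1 else 0) + m * (if 1 = μ then 1 else 0))) := by
    intro μ
    rw [card_filter, Fin.sum_univ_succ, Fin.sum_univ_succ, Fin.sum_univ_succ, hl]
    simp only [Fin.cons_succ, Fin.cons_zero]
    simp
  have pair : ∀ μ, μ ≠ 0 → (univ.filter fun a => l a = μ).card ≤ (univ.filter fun a => l a = c / μ).card ∧
      (μ = c / μ → Even (univ.filter fun a => l a = μ).card) := fun μ hμ =>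
    Elusive.card_eigen_pair hA hB l hl' μ (c / μ) fun x => by rw [eq_div_iff hμ, mul_comm]
  have nz : ∀ k, 0 < k → k < r → ζ ^ k ≠ 1 := fun k h0 hk h => by
    have := Nat.le_of_dvd h0 ((hz k).1 h); omega
  have h3r : 3 ≤ r := by have := hr.two_le; omega
  have hζ1 : ζ ≠ 1 := by simpa using nz 1 (by omega) (by omega)
  have hη1 : η ≠ 1 := by simpa [η] using nz 2 (by omega) (by omega)
  have hη0 : η ≠ 0 := inv_ne_zero (pow_ne_zero _ hz0)
  obtain ⟨h1, h1'⟩ := pair η hη0
  have hm0 : 0 < m := hm.pos
  rcases eq_or_ne r 3 with rfl | h3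
  · have hηζ : η = ζ := by
      rw [hη]; exact inv_eq_of_mul_eq_one_left (by rw [← pow_succ']; exact (hz 3).2 dvd_rfl)
    rw [hηζ] at h1 h1' hη1
    simp only [hcnt, hηζ, if_pos, if_neg hζ1.symm, mul_zero, add_zero] at h1 h1'
    have hne : c / ζ ≠ ζ := fun h => absurd (h1' h.symm) (by decide)
    rw [if_neg hne.symm] at h1
    by_cases h : 1 = c / ζ
    · rw [if_pos h] at h1
      have h2 := (pair 1 one_ne_zero).1
      have hc' : c / 1 = ζ := by
        rw [div_one]; exact eq_of_div_eq_one h.symm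
      simp only [hc', hcnt, hηζ, if_pos, if_neg hζ1, if_neg hζ1.symm] at h2
      exact hgap ⟨by omega, rfl⟩
    · rw [if_neg h] at h1; omega
  · have h5 : 5 ≤ r := by
      rcases Nat.lt_or_ge r 5 with h | h
      · interval_cases r <;> first | omega | exact absurd hr (by decide)
      · exact h
    have hηζ : η ≠ ζ := fun h => nz 3 (by omega) (by omega) (by
      rw [pow_succ]; nth_rewrite 2 [← h]; rw [hη]; exact mul_inv_cancel₀ (pow_ne_zero _ hz0))
    simp only [hcnt, if_neg hηζ.symm, if_pos, if_neg hη1.symm, mul_zero, zero_add, add_zero] at h1 h1'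
    have hne : c / η ≠ η := fun h => absurd (h1' h.symm) (by decide)
    rw [if_neg hne.symm] at h1
    have hc' : c = c / η * η := (div_mul_cancel₀ c hη0).symm
    by_cases hνζ : ζ = c / η
    · have h2 := (pair ζ hz0).1
      rw [show c / ζ = η by rw [hc', ← hνζ, mul_comm, mul_div_cancel_right₀ _ hz0], hcnt, hcnt, if_pos rfl,
        if_neg hηζ, if_neg hζ1.symm, if_neg hηζ.symm, if_pos rfl, if_neg hη1.symm] at h2
      omega
    · rw [if_neg hνζ] at h1
      by_cases hν1 : 1 = c / η
      · rw [← hν1, one_mul] at hc'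
        have h2 := (pair ζ hz0).1
        rw [hcnt, hcnt, if_pos rfl, if_neg hηζ, if_neg hζ1.symm] at h2
        have q1 : ¬ ζ = c / ζ := fun h => nz 4 (by omega) (by omega) (by
          rw [hc', eq_div_iff hz0, hη] at h
          have := (mul_eq_one_iff_eq_inv₀ (pow_ne_zero _ hz0)).2 h
          linear_combination this)
        have q2 : ¬ η = c / ζ := fun h => hζ1 (by
          rw [hc', eq_div_iff hz0] at h
          exact mul_left_cancel₀ hη0 (h.trans (mul_one η).symm))
        have q3 : ¬ 1 = c / ζ := fun h => hηζ (by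
          rw [hc', eq_div_iff hz0, one_mul] at h
          exact h.symm)
        rw [if_neg q1, if_neg q2, if_neg q3] at h2
        omega
      · rw [if_neg hν1] at h1; omega

/-- Derangements of odd prime order of PSL_n(q) on the cosets of a symplectic-type subgroup. Here `T = PSL_n(F)` for a field `F` with `q` elements, `n ≥ 4` even, `f` is a nondegenerate alternating form on `F^n`, and `H` is the subgroup of matrices of determinant 1 preserving `f` up to a scalar — a maximal subgroup of type Sp_n(q); Ω is the set of `T`-conjugates of `H` (cosets of `H`), so an element of `T` of prime order `r` (a matrix `x` of determinant 1 with `x^r` scalar, `x` not scalar) fixes a point of Ω when some conjugate of `x` by a matrix of determinant 1 preserves `f` up to a scalar. For every odd prime `r` dividing the index of `H`, with `(n, r) ≠ (6, 3)`, there is an element of `T` of order `r` with no conjugate in `H`. (For `n = 6`, `r = 3` this can fail: when `(q − 1)_3 = 3` every element of order 3 is conjugate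 into `H`.) -/
theorem result {F : Type*} [Field F] [Fintype F] {p : ℕ} [Fact p.Prime] [CharP F p] {q : ℕ} (hq : Fintype.card F = q)
    (n : ℕ) (hn : 4 ≤ n) (he : Even n) (f : (Fin n → F) → (Fin n → F) → F) (hf : Cfsg.Geo.IsSymplecticForm f)
    (r : ℕ) [Fact r.Prime] (hr2 : r ≠ 2) (hgap : ¬ (n = 6 ∧ r = 3)) (hΩ : r ∣ ((Cfsg.Geo.similarityGroup f).comap (Matrix.SpecialLinearGroup.toGL : Matrix.SpecialLinearGroup (Fin n) F →* GL (Fin n) F)).index) :
    ∃ x : Matrix.SpecialLinearGroup (Fin n) F,
      (∃ z : F, ((x ^ r : Matrix.SpecialLinearGroup (Fin n) F) : Matrix (Fin n) (Fin n) F) = z • (1 : Matrix (Fin n) (Fin n) F)) ∧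
      (∀ z : F, (x : Matrix (Fin n) (Fin n) F) ≠ z • (1 : Matrix (Fin n) (Fin n) F)) ∧
      ∀ P : Matrix.SpecialLinearGroup (Fin n) F, P⁻¹ * x * P ∉ ((Cfsg.Geo.similarityGroup f).comap (Matrix.SpecialLinearGroup.toGL : Matrix.SpecialLinearGroup (Fin n) F →* GL (Fin n) F)) := by
  classical
  have hrpr : r.Prime := Fact.out
  obtain ⟨d, hd⟩ := he
  obtain rfl : n = 2 * d := by omega
  let B : LinearMap.BilinForm F (Fin (2 * d) → F) := LinearMap.mk₂ F f hf.bilinear.add_left hf.bilinear.smul_left
    hf.bilinear.add_right hf.bilinear.smul_right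
  have hA : B.IsAlt := hf.alternating
  have hB1 : ∀ v, (∀ w, B v w = 0) → v = 0 := fun v h => by
    by_contra hv
    obtain ⟨x, hx⟩ := (hf.nondegenerate v hv).2
    exact hx (h x)
  have hB : B.Nondegenerate := ⟨hB1, fun w hw => hB1 w fun v => by
    rw [← LinearMap.IsAlt.neg hA v w, hw v, neg_zero]⟩
  set H := (Cfsg.Geo.similarityGroup f).comap (Matrix.SpecialLinearGroup.toGL : Matrix.SpecialLinearGroup (Fin (2 * d)) F →* GL (Fin (2 * d)) F)
  -- reduction to forms for which `x` is a similitude
  have reduce : ∀ M : Matrix (Fin (2 * d)) (Fin (2 * d)) F, ∀ hM : M.det = 1, M ^ r = 1 → M ≠ 1 →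
      (∀ (B' : LinearMap.BilinForm F (Fin (2 * d) → F)) (c : F), B'.IsAlt → (∀ v, (∀ w, B' v w = 0) → v = 0) →
        (∀ u v, B' (M *ᵥ u) (M *ᵥ v) = c * B' u v) → c ^ r = 1 → False) →
      (∀ z : F, M ≠ z • (1 : Matrix (Fin (2 * d)) (Fin (2 * d)) F)) →
      ∃ x : Matrix.SpecialLinearGroup (Fin (2 * d)) F,
      (∃ z : F, ((x ^ r : Matrix.SpecialLinearGroup (Fin (2 * d)) F) : Matrix (Fin (2 * d)) (Fin (2 * d)) F) = z • (1 : Matrix (Fin (2 * d)) (Fin (2 * d)) F)) ∧
      (∀ z : F, (x : Matrix (Fin (2 * d)) (Fin (2 * d)) F) ≠ z • (1 : Matrix (Fin (2 * d)) (Fin (2 * d)) F)) ∧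
      ∀ P : Matrix.SpecialLinearGroup (Fin (2 * d)) F, P⁻¹ * x * P ∉ H := by
    intro M hM hMr _ hno hns
    refine ⟨⟨M, hM⟩, ⟨1, by rw [one_smul]; exact hMr⟩, hns, fun P hP => ?_⟩
    obtain ⟨c, hc⟩ := hP
    set Q := ((P⁻¹ : Matrix.SpecialLinearGroup (Fin (2 * d)) F) : Matrix (Fin (2 * d)) (Fin (2 * d)) F)
    set P' := ((P : Matrix.SpecialLinearGroup (Fin (2 * d)) F) : Matrix (Fin (2 * d)) (Fin (2 * d)) F)
    have hQP : Q * P' = 1 := by
      simp only [Q, P', ← Matrix.SpecialLinearGroup.coe_mul, inv_mul_cancel, Matrix.SpecialLinearGroup.coe_one]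
    have hPQ : P' * Q = 1 := by
      simp only [Q, P', ← Matrix.SpecialLinearGroup.coe_mul, mul_inv_cancel, Matrix.SpecialLinearGroup.coe_one]
    let B' := B.compl₁₂ (Matrix.toLin' Q) (Matrix.toLin' Q)
    have hA' : B'.IsAlt := fun v => hA _
    have hB' : ∀ v, (∀ w, B' v w = 0) → v = 0 := fun v h => by
      have h0 := hB1 (Q *ᵥ v) fun w => by
        have := h (P' *ᵥ w)
        simpa [B', Matrix.mulVec_mulVec, hQP] using this
      have := congrArg (P' *ᵥ ·) h0
      simpa [Matrix.mulVec_mulVec, hPQ] using this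
    have hsim : ∀ u v, B' (M *ᵥ u) (M *ᵥ v) = (c : F) * B' u v := fun u v => by
      have := hc (Q *ᵥ u) (Q *ᵥ v)
      change f ((Q * M * P') *ᵥ (Q *ᵥ u)) ((Q * M * P') *ᵥ (Q *ᵥ v)) = _ at this
      simp only [Matrix.mulVec_mulVec, Matrix.mul_assoc, hPQ, Matrix.mul_one] at this
      simpa [B', B, Matrix.mulVec_mulVec] using this
    have hit : ∀ k u v, B' ((M ^ k) *ᵥ u) ((M ^ k) *ᵥ v) = (c : F) ^ k * B' u v := by
      intro k
      induction k with
      | zero => intro u v; simp
      | succ k ih =>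
        intro u v
        rw [pow_succ', ← Matrix.mulVec_mulVec, ← Matrix.mulVec_mulVec, hsim, ih]
        ring
    refine hno B' c hA' hB' hsim ?_
    obtain ⟨u, hu⟩ : ∃ u : Fin (2 * d) → F, u ≠ 0 := ⟨Pi.single ⟨0, by omega⟩ 1, by simp⟩
    obtain ⟨v, hv⟩ : ∃ v, B' u v ≠ 0 := by
      by_contra h; push Not at h; exact hu (hB' u h)
    have := hit r u v
    rw [hMr, Matrix.one_mulVec, Matrix.one_mulVec] at this
    exact (mul_eq_right₀ hv).1 this.symm
  rcases Elusive.dvd_index_similitude (by omega : 0 < d) B hA hB H (fun x hx => ⟨1, fun u v => by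
      rw [Units.val_one, one_mul]; exact hx u v⟩) hrpr hr2 hΩ with hrq | ⟨k, hkd, hk0, hk⟩
  · -- `r = p`
    obtain ⟨e, hp', he⟩ := FiniteField.card F p
    rw [he] at hrq
    obtain rfl : r = p := (Nat.prime_dvd_prime_iff_eq hrpr hp').1 (hrpr.dvd_of_dvd_pow hrq)
    have h3r : 3 ≤ r := by have := hrpr.two_le; omega
    set i0 : Fin (2 * d) := ⟨0, by omega⟩
    set i1 : Fin (2 * d) := ⟨1, by omega⟩
    set i2 : Fin (2 * d) := ⟨2, by omega⟩
    let N : Matrix (Fin (2 * d)) (Fin (2 * d)) F := Matrix.single i1 i0 1 + Matrix.single i2 i1 1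
    have h01 : i0 ≠ i1 := by simp [i0, i1]
    have h02 : i0 ≠ i2 := by simp [i0, i2]
    have h12 : i1 ≠ i2 := by simp [i1, i2]
    have hN2 : N * N = Matrix.single i2 i0 1 := by
      simp [N, Matrix.add_mul, Matrix.mul_add, h01, h02, h12.symm, h12, h01.symm]
    have hN3 : N ^ 3 = 0 := by
      rw [pow_succ', pow_two, hN2]
      simp [N, Matrix.add_mul, h01, h02, h02.symm, h12.symm, h12]
    have : Nonempty (Fin (2 * d)) := ⟨i0⟩
    have hMr : (1 + N) ^ r = 1 := by
      rw [add_pow_char_of_commute (p := r) (Commute.one_left N), one_pow,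
        show r = 3 + (r - 3) by omega, pow_add, hN3, zero_mul, add_zero]
    have hdet : (1 + N).det = 1 := by
      rw [Matrix.det_of_isLowerTriangular]
      · refine prod_eq_one fun a _ => ?_
        have : ¬ (i1 = a ∧ i0 = a) := fun h => h01 (h.2.trans h.1.symm)
        have : ¬ (i2 = a ∧ i1 = a) := fun h => h12 (h.2.trans h.1.symm)
        simp [N, Matrix.single_apply, *]
      · intro a b hab
        have hab : a < b := hab
        have ne : a ≠ b := hab.ne
        have : ¬ (i1 = a ∧ i0 = b) := by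
          rintro ⟨rfl, rfl⟩; simp [i0, i1] at hab
        have : ¬ (i2 = a ∧ i1 = b) := by
          rintro ⟨rfl, rfl⟩; simp [i1, i2] at hab
        simp [N, Matrix.single_apply, Matrix.one_apply, *]
    have h10 : (1 + N) i1 i0 = 1 := by
      have : ¬ (i2 = i1 ∧ i1 = i0) := fun h => h01 h.2.symm
      simp [N, Matrix.single_apply, h01.symm, this]
    have hns : ∀ z : F, 1 + N ≠ z • (1 : Matrix (Fin (2 * d)) (Fin (2 * d)) F) := fun z h => by
      have := congrFun (congrFun h i1) i0
      rw [h10, Matrix.smul_apply, Matrix.one_apply_ne h01.symm, smul_zero] at this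
      exact one_ne_zero this
    refine reduce (1 + N) hdet hMr (fun h => hns 1 (by rw [one_smul]; exact h)) ?_ hns
    intro B' c hA' hB' hsim hcr
    have hc1 : c = 1 := by
      have h : (c - 1) ^ r = 0 := by rw [sub_pow_char, hcr, one_pow, sub_self]
      exact sub_eq_zero.1 (pow_eq_zero_iff hrpr.ne_zero |>.1 h)
    subst hc1
    have h2 : (2 : F) ≠ 0 := by
      intro h
      have h' : ((2 : ℕ) : F) = 0 := by exact_mod_cast h
      rw [CharP.cast_eq_zero_iff F r] at h'
      exact hr2 ((Nat.prime_dvd_prime_iff_eq hrpr Nat.prime_two).1 h')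
    refine false_of_unipotent h2 (by omega) B' hA' hB' (Matrix.toLin' N) (fun v => ?_) (fun v => ?_) fun u v => ?_
    · simp only [Matrix.toLin'_apply, Matrix.mulVec_mulVec, ← Matrix.mul_assoc]
      rw [← pow_two, ← pow_succ, hN3, Matrix.zero_mulVec]
    · simp only [Matrix.toLin'_apply, Matrix.mulVec_mulVec, hN2]
      rw [Matrix.single_mulVec]
      funext a
      rcases eq_or_ne a i2 with rfl | ha <;> simp [i0, i2, *]
    · have := hsim u v
      simpa [Matrix.add_mulVec] using this
  · rcases em (r ∣ q - 1) with h1 | h1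
    · -- a diagonal element
      obtain ⟨u, hu⟩ := exists_prime_orderOf_dvd_card' (G := Fˣ) r (by rwa [Nat.card_units, Nat.card_eq_fintype_card, hq])
      set ζ : F := (u : F)
      have hz : ∀ k, ζ ^ k = 1 ↔ r ∣ k := fun k => by
        rw [← hu, orderOf_dvd_iff_pow_eq_one, ← Units.val_inj, Units.val_pow_eq_pow_val, Units.val_one]
      have hz0 : ζ ≠ 0 := u.ne_zero
      obtain ⟨m, hm⟩ : ∃ m, 2 * d = m + 3 := ⟨2 * d - 3, by omega⟩
      have hmo : Odd m := by rw [Nat.odd_iff]; omega
      generalize 2 * d = n at *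
      subst hm
      set l : Fin (m + 3) → F := Fin.cons ζ (Fin.cons ζ (Fin.cons (ζ ^ 2)⁻¹ fun _ => 1)) with hl
      have hζ1 : ζ ≠ 1 := fun h => hrpr.ne_one (Nat.dvd_one.1 ((hz 1).1 (by rw [h, one_pow])))
      have hns : ∀ z : F, Matrix.diagonal l ≠ z • (1 : Matrix (Fin (m + 3)) (Fin (m + 3)) F) := fun z h => by
        have e0 := congrFun (congrFun h 0) 0
        have e1 := congrFun (congrFun h (Fin.succ (Fin.succ (Fin.succ ⟨0, hmo.pos⟩)))) (Fin.succ (Fin.succ (Fin.succ ⟨0, hmo.pos⟩)))
        simp [hl] at e0 e1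
        exact hζ1 (e0.trans e1.symm)
      refine reduce (Matrix.diagonal l) ?_ ?_ (fun h => hns 1 (by rw [one_smul]; exact h)) ?_ hns
      · rw [Matrix.det_diagonal, Fin.prod_univ_succ, Fin.prod_univ_succ, Fin.prod_univ_succ, hl]
        simp only [Fin.cons_zero, Fin.cons_succ, prod_const_one, mul_one]
        field_simp
      · rw [Matrix.diagonal_pow, ← Matrix.diagonal_one]
        congr 1
        funext a
        rw [Pi.pow_apply, hl]
        have hr1 := (hz r).2 dvd_rfl
        refine Fin.cases ?_ (fun a => Fin.cases ?_ (fun a => Fin.cases ?_ (fun a => ?_) a) a) a <;>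
          simp only [Fin.cons_zero, Fin.cons_succ] <;> simp [hr1, ← pow_mul, mul_comm 2 r] <;> simp [pow_mul, hr1]
      · intro B' c hA' hB' hsim _
        exact false_of_diagonal hmo hrpr hr2 hgap hz B' hA' hB' l hl hsim
    · -- an irreducible block of odd dimension
      set a : ZMod r := ((Fintype.card F : ℕ) : ZMod r)
      set i := orderOf a
      have hak : a ^ (2 * k + 1) = 1 := by
        have h0 := (CharP.cast_eq_zero_iff (ZMod r) r _).2 hk
        rw [Nat.cast_sub (Nat.one_le_pow _ _ Fintype.card_pos), Nat.cast_pow, Nat.cast_one, sub_eq_zero] at h0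
        exact h0
      have hik : i ∣ 2 * k + 1 := orderOf_dvd_of_pow_eq_one hak
      have hio : Odd i := Odd.of_dvd_nat (odd_two_mul_add_one k) hik
      have hile : i ≤ 2 * k + 1 := Nat.le_of_dvd (by omega) hik
      have ha1 : a ≠ 1 := fun h => h1 (by
        rw [← CharP.cast_eq_zero_iff (ZMod r) r, Nat.cast_sub (by rw [← hq]; exact Fintype.card_pos), Nat.cast_one, ← hq,
          sub_eq_zero]
        exact h)
      obtain ⟨g, hg⟩ := exists_prime_orderOf_dvd_card' (G := GL (Fin i) F) r (by
        rw [Linear.card_GL_factor]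
        refine Dvd.dvd.mul_left ?_ _
        refine Dvd.dvd.trans ?_ (dvd_prod_of_mem _ (mem_univ (⟨0, hio.pos⟩ : Fin i)))
        rw [← CharP.cast_eq_zero_iff (ZMod r) r,
          Nat.cast_sub (Nat.one_le_pow _ _ Fintype.card_pos), Nat.cast_pow, Nat.cast_one, Nat.sub_zero,
          pow_orderOf_eq_one, sub_self])
      set y : Matrix (Fin i) (Fin i) F := (g : Matrix (Fin i) (Fin i) F)
      have hyr : y ^ r = 1 := by
        simp only [y, ← Units.val_pow_eq_pow_val, ← hg, pow_orderOf_eq_one, Units.val_one]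
      have hy1 : y ≠ 1 := fun h => hrpr.ne_one (by rw [← hg, Units.ext (show (g : Matrix (Fin i) (Fin i) F) = ((1 : GL (Fin i) F) : Matrix (Fin i) (Fin i) F) from h), orderOf_one])
      have hydet : y.det = 1 := by
        have hyr' : y.det ^ r = 1 := by rw [← Matrix.det_pow, hyr, Matrix.det_one]
        have hne : y.det ≠ 0 := fun h => by rw [h, zero_pow hrpr.ne_zero] at hyr'; exact zero_ne_one hyr'
        have hF := FiniteField.pow_card_sub_one_eq_one y.det hne
        rw [hq] at hF
        have := pow_gcd_eq_one.2 ⟨hyr', hF⟩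
        rwa [((hrpr.coprime_iff_not_dvd).2 h1).gcd_eq_one, pow_one] at this
      have hyfix : ∀ v, y *ᵥ v = v → v = 0 := by
        intro v hv
        let φ := Matrix.toLinAlgEquiv' (R := F) y
        have hφ1 : φ ≠ 1 := fun h => hy1 (Matrix.toLinAlgEquiv'.injective (h.trans (map_one _).symm))
        have hφr : φ ^ r = 1 := by simp only [φ, ← map_pow, hyr, map_one]
        have hdeg : (minpoly F φ).natDegree ≤ i := by
          refine (Polynomial.natDegree_le_of_dvd (LinearMap.minpoly_dvd_charpoly _) (LinearMap.charpoly_monic _).ne_zero).trans ?_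
          rw [LinearMap.charpoly_natDegree, Module.finrank_fin_fun]
        obtain ⟨hirr, hdi⟩ := Arith.irreducible_minpoly_of_primitive (n := i) hio.pos rfl hφ1 hφr hdeg
        rcases Elusive.invariant_of_irreducible_minpoly hirr (by rw [hdi, Module.finrank_fin_fun])
          (LinearMap.ker (φ - 1)) (fun w hw => by
            rw [LinearMap.mem_ker, LinearMap.sub_apply, Module.End.one_apply, sub_eq_zero] at hw ⊢
            rw [hw, hw]) with hk | hk
        · have : v ∈ LinearMap.ker (φ - 1) := by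
            rw [LinearMap.mem_ker, LinearMap.sub_apply, Module.End.one_apply, sub_eq_zero]
            exact hv
          rw [hk] at this
          exact (Submodule.mem_bot F).1 this
        · exact absurd (sub_eq_zero.1 (LinearMap.ker_eq_top.1 hk)) hφ1
      let e : Fin i ⊕ Fin (2 * d - i) ≃ Fin (2 * d) := finSumFinEquiv.trans (finCongr (by omega))
      set M := Matrix.reindex e e (fromBlocks y 0 0 1) with hMdef
      have hdet : M.det = 1 := by
        rw [hMdef, Matrix.det_reindex_self, Matrix.det_fromBlocks_zero₁₂, hydet, Matrix.det_one, one_mul]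
      have hMr : M ^ r = 1 := by
        have hb : ∀ k, (fromBlocks y 0 0 (1 : Matrix (Fin (2 * d - i)) (Fin (2 * d - i)) F)) ^ k = fromBlocks (y ^ k) 0 0 1 := by
          intro k
          induction k with
          | zero => simp
          | succ k ih => rw [pow_succ, ih, fromBlocks_multiply]; simp [pow_succ]
        rw [hMdef, ← Matrix.reindexAlgEquiv_apply F F, ← map_pow, hb, hyr, fromBlocks_one, map_one]
      have hns : ∀ z : F, M ≠ z • (1 : Matrix (Fin (2 * d)) (Fin (2 * d)) F) := fun z h => by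
        have e2 := congrFun (congrFun h (e (Sum.inr ⟨0, by omega⟩))) (e (Sum.inr ⟨0, by omega⟩))
        simp [hMdef] at e2
        subst e2
        refine hy1 (Matrix.ext fun a b => ?_)
        have e1 := congrFun (congrFun h (e (Sum.inl a))) (e (Sum.inl b))
        simpa [hMdef, Matrix.one_apply] using e1
      refine reduce M hdet hMr (fun h => hns 1 (by rw [one_smul]; exact h)) ?_ hns
      intro B' c hA' hB' hsim hcr
      have hc0 : c ≠ 0 := fun h => by rw [h, zero_pow hrpr.ne_zero] at hcr; exact zero_ne_one hcr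
      have hF := FiniteField.pow_card_sub_one_eq_one c hc0
      rw [hq] at hF
      obtain rfl : c = 1 := by
        have := pow_gcd_eq_one.2 ⟨hcr, hF⟩
        rwa [((hrpr.coprime_iff_not_dvd).2 h1).gcd_eq_one, pow_one] at this
      exact false_of_block hio e B' hA' hB' y hyfix fun u v => (hsim u v).trans (one_mul _)

end Cfsg.Agent.S5968
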