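import Cfsg.Statements.S5969
import Cfsg.Agent.Elusive.QuadStructure
import Cfsg.Agent.Elusive.SLCriterion

set_option autoImplicit false
open scoped MatrixGroups
open Cfsg

namespace Cfsg.Agent.S5969

open Matrix Finset

/-- An element of the subalgebra with its quadratic equation. -/
theorem exists_generator {F : Type*} [Field F] [Fintype F] {n : ℕ} [NeZero n] {K : Subalgebra F (Matrix (Fin n) (Fin n) F)}
    (hK : Cfsg.Geo.IsFieldSubalgebra 2 K) :
    ∃ (J : Matrix (Fin n) (Fin n) F) (t u : F), J ∈ K ∧ J * J = t • J + u • 1 ∧ (∀ l : F, l * l ≠ t * l + u) ∧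
      (∀ k ∈ K, ∃ a b : F, k = a • 1 + b • J) ∧ ((2 : F) ≠ 0 → t = 0) ∧ ((2 : F) = 0 → t = 1) := by
  classical
  obtain ⟨J, hJK, hJs⟩ : ∃ J ∈ K, ∀ c : F, J ≠ c • 1 := by
    by_contra! h
    have hle : Subalgebra.toSubmodule K ≤ Submodule.span F {(1 : Matrix (Fin n) (Fin n) F)} := fun k hk => by
      obtain ⟨c, rfl⟩ := h k hk
      exact Submodule.smul_mem _ _ (Submodule.mem_span_singleton_self _)
    have h1 := Submodule.finrank_mono hle
    have h2 : Module.finrank F ↥(Subalgebra.toSubmodule K) = 2 := hK.finrank_eq
    have h3 := finrank_span_singleton (K := F) (one_ne_zero : (1 : Matrix (Fin n) (Fin n) F) ≠ 0)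
    omega
  have hli : LinearIndependent F ![(1 : Matrix (Fin n) (Fin n) F), J] :=
    LinearIndependent.pair_iff.2 fun s t' h => by
      by_cases ht : t' = 0
      · subst ht
        rw [zero_smul, add_zero] at h
        exact ⟨(smul_eq_zero.1 h).resolve_right one_ne_zero, rfl⟩
      · exfalso
        refine hJs (-(s / t')) ?_
        have := congrArg (t'⁻¹ • ·) h
        simp only [smul_add, smul_smul, smul_zero, inv_mul_cancel₀ ht, one_smul] at this
        rw [eq_neg_of_add_eq_zero_right this, ← neg_smul, div_eq_inv_mul]
  have hspan : ∀ k ∈ K, ∃ a b : F, k = a • 1 + b • J := by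
    intro k hk
    have hle : Submodule.span F (Set.range ![(1 : Matrix (Fin n) (Fin n) F), J]) ≤ Subalgebra.toSubmodule K := by
      rw [Submodule.span_le]; rintro _ ⟨i, rfl⟩; fin_cases i
      · exact K.one_mem
      · exact hJK
    have he := Submodule.eq_of_le_of_finrank_eq hle (by
      rw [finrank_span_eq_card hli, Fintype.card_fin]; exact hK.finrank_eq.symm)
    have hk' : k ∈ Submodule.span F (Set.range ![(1 : Matrix (Fin n) (Fin n) F), J]) := he ▸ hk
    obtain ⟨a, b, h⟩ := Submodule.mem_span_pair.1 (by simpa [Matrix.range_cons_cons_empty] using hk')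
    exact ⟨b, a, by rw [← h]; abel⟩
  have hroot : ∀ (J : Matrix (Fin n) (Fin n) F) (t u : F), J ∈ K → (∀ c : F, J ≠ c • 1) →
      J * J = t • J + u • 1 → ∀ l : F, l * l ≠ t * l + u := by
    intro J t u hJK hJs hJ l hl
    have h0 : (J - l • 1) * (J - (t - l) • 1) = 0 := by
      simp only [sub_mul, mul_sub, Matrix.smul_mul, Matrix.mul_smul, Matrix.one_mul, Matrix.mul_one, hJ, smul_smul]
      rw [show u = (l * l - t * l) by linear_combination -hl]
      module
    have hmem : ∀ c : F, J - c • 1 ∈ K := fun c => K.sub_mem hJK (K.smul_mem K.one_mem c)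
    obtain ⟨y, -, hy⟩ := hK.inv _ (hmem (t - l)) (sub_ne_zero.2 (hJs _))
    have := congrArg (· * y) h0
    simp only [mul_assoc, hy, mul_one, zero_mul] at this
    exact hJs l (sub_eq_zero.1 this)
  obtain ⟨u, t, htu⟩ := hspan (J * J) (K.mul_mem hJK hJK)
  have hJJ : J * J = t • J + u • 1 := by rw [htu]; abel
  have hr := hroot J t u hJK hJs hJJ
  have shift : ∀ (s c t' u' : F), s ≠ 0 → (s • J + c • 1) * (s • J + c • 1) = t' • (s • J + c • 1) + u' • 1 →
      ∃ (J : Matrix (Fin n) (Fin n) F), J ∈ K ∧ J * J = t' • J + u' • 1 ∧ (∀ l : F, l * l ≠ t' * l + u') ∧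
        ∀ k ∈ K, ∃ a b : F, k = a • 1 + b • J := by
    intro s c t' u' hs h
    have hm : s • J + c • 1 ∈ K := K.add_mem (K.smul_mem hJK s) (K.smul_mem K.one_mem c)
    refine ⟨_, hm, h, hroot _ t' u' hm (fun e he => hJs (s⁻¹ * (e - c)) ?_) h, fun k hk => ?_⟩
    · have : s • J = (e - c) • (1 : Matrix (Fin n) (Fin n) F) := by rw [sub_smul, ← he, add_sub_cancel_right]
      rw [← smul_smul, ← this, smul_smul, inv_mul_cancel₀ hs, one_smul]
    · obtain ⟨a, b, rfl⟩ := hspan k hk
      refine ⟨a - b * s⁻¹ * c, b * s⁻¹, ?_⟩
      match_scalars <;> field_simp <;> ring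
  by_cases h2 : (2 : F) = 0
  · have ht : t ≠ 0 := by
      intro h0
      obtain ⟨w, hw⟩ := FiniteField.isSquare_of_char_two (CharP.ringChar_of_prime_eq_zero Nat.prime_two (by exact_mod_cast h2)) u
      exact hr w (by rw [h0, hw]; ring)
    obtain ⟨J', h1, h3, h4, h5⟩ := shift t⁻¹ 0 1 (u / (t * t)) (inv_ne_zero ht) (by
      simp only [zero_smul, add_zero, one_smul, Matrix.smul_mul, Matrix.mul_smul, smul_smul, hJJ, smul_add]
      match_scalars <;> field_simp)
    exact ⟨J', 1, _, h1, h3, h4, h5, fun h => absurd h2 h, fun _ => rfl⟩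
  · obtain ⟨J', h1, h3, h4, h5⟩ := shift 1 (-(t / 2)) 0 (u + t * t / 4) one_ne_zero (by
      have h4 : (4 : F) ≠ 0 := by
        intro h; exact h2 (by have : (2 : F) * 2 = 0 := by linear_combination h
                              simpa using this)
      simp only [one_smul, add_mul, mul_add, Matrix.smul_mul, Matrix.mul_smul, Matrix.one_mul, Matrix.mul_one, hJJ,
        smul_smul, zero_smul, zero_add]
      match_scalars <;> field_simp <;> ring)
    exact ⟨J', 0, _, h1, h3, h4, h5, fun _ => rfl, fun h => absurd h h2⟩

/-- A monomial structure `J` on pairs. -/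
theorem exists_pairing_quad {F V : Type*} [Field F] [AddCommGroup V] [Module F V] {ι : Type} [Fintype ι]
    [DecidableEq ι] (b : Module.Basis ι F V) {g : Module.End F V} (a : ι → F) (hg : ∀ i, g (b i) = a i • b i)
    (τ : ι → ι) (hτ : ∀ i, τ (τ i) = i) (hτ' : ∀ i, τ i ≠ i) (ν ε : F) (hε : ∀ i, a (τ i) = ε * a i) :
    ∃ J : Module.End F V, J * J = ν • 1 ∧ g * J = ε • (J * g) := by
  classical
  let e := Fintype.equivFin ι
  let c : ι → F := fun i => if e i < e (τ i) then 1 else ν
  have hc : ∀ i, c i * c (τ i) = ν := fun i => by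
    simp only [c, hτ]
    have hne : e i ≠ e (τ i) := fun h => hτ' i (e.injective h).symm
    rcases lt_or_gt_of_ne hne with h | h
    · rw [if_pos h, if_neg h.not_gt, one_mul]
    · rw [if_pos h, if_neg h.not_gt, mul_one]
  refine ⟨b.constr F fun i => c i • b (τ i), b.ext fun i => ?_, b.ext fun i => ?_⟩
  · simp [hτ, smul_smul, hc]
  · simp only [Module.End.mul_apply, LinearMap.smul_apply, hg, map_smul, Module.Basis.constr_basis, smul_smul, hε]
    ring_nf

/-- Involutions of PSL_n(q) and extension-field subgroups of degree 2. Here `T = PSL_n(F)` for a field `F` with `q = p^f` elements (`n ≥ 2`, `(n, q) ≠ (2, 2), (2, 3)`), `k` is a prime dividing `n`, `K` is a subalgebra of the `n × n` matrices that is a field of degree `k` over `F` (an extension-field structure F_{q^k} on `F^n`), and `H` is the subgroup of matrices of determinant 1 normalizing `K` — a subgroup of type GL_{n/k}(q^k) (maximal except in some small cases; maximality is not assumed); Ω is the set of cosets of `H` in `T`, so an element of `T` of prime order `r` (a matrix `x` of determinant 1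 with `x^r` scalar, `x` not scalar) fixes a point of Ω when some conjugate of `x` by a matrix of determinant 1 normalizes `K`. Take `k = 2` and suppose the index of `H` is even. Then every involution of `T` is conjugate in `T` into `H` if and only if `n = 2`, or `q` is odd and `(q − 1)_2 ≤ (n)_2`. -/
theorem result {F : Type*} [Field F] [Fintype F] {p : ℕ} [Fact p.Prime] [CharP F p] {q : ℕ} (hq : Fintype.card F = q)
    (n : ℕ) (hn : 2 ≤ n) (hT : (n, q) ≠ (2, 2) ∧ (n, q) ≠ (2, 3))
    (k : ℕ) (hk : k.Prime) (hkn : k ∣ n) (K : Subalgebra F (Matrix (Fin n) (Fin n) F)) (hK : Cfsg.Geo.IsFieldSubalgebra k K) (hk2 : k = 2) (hΩ : 2 ∣ ((Cfsg.Geo.subalgebraNormalizer K).comap (Matrix.SpecialLinearGroup.toGL : Matrix.SpecialLinearGroup (Fin n) F →* GL (Fin n) F)).index) :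
    (∀ x : Matrix.SpecialLinearGroup (Fin n) F,
      (∃ z : F, ((x ^ 2 : Matrix.SpecialLinearGroup (Fin n) F) : Matrix (Fin n) (Fin n) F) = z • (1 : Matrix (Fin n) (Fin n) F)) →
      (∀ z : F, (x : Matrix (Fin n) (Fin n) F) ≠ z • (1 : Matrix (Fin n) (Fin n) F)) →
      ∃ P : Matrix.SpecialLinearGroup (Fin n) F, P⁻¹ * x * P ∈ ((Cfsg.Geo.subalgebraNormalizer K).comap (Matrix.SpecialLinearGroup.toGL : Matrix.SpecialLinearGroup (Fin n) F →* GL (Fin n) F))) ↔
    (n = 2 ∨ (Odd q ∧ padicValNat 2 (q - 1) ≤ padicValNat 2 n)) := by
  classical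
  subst hq hk2
  have : NeZero n := ⟨by omega⟩
  obtain ⟨J, t, u, hJK, hJJ, hno, hspan, ht0, ht1⟩ := exists_generator hK
  obtain ⟨d, hd⟩ := hkn
  have hKtwo : ∀ k ∈ K, k * k = t • k + u • (1 : Matrix (Fin n) (Fin n) F) → k = J ∨ k = t • 1 - J := by
    intro k hk hkk
    have h0 : (k - J) * (k - (t • 1 - J)) = 0 := by
      simp only [sub_mul, mul_sub, Matrix.mul_smul, Matrix.mul_one, hK.comm J hJK k hk, hJJ, hkk]
      module
    by_cases h : k = J
    · exact Or.inl h
    · obtain ⟨y, hy, hy'⟩ := hK.inv _ (K.sub_mem hk hJK) (sub_ne_zero.2 h)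
      have := congrArg (y * ·) h0
      simp only [← mul_assoc, mul_zero, hK.comm y hy _ (K.sub_mem hk hJK), hy', one_mul] at this
      exact Or.inr (sub_eq_zero.1 this)
  constructor
  · intro h
    by_contra hc
    push Not at hc
    obtain ⟨hn2, hodd⟩ := hc
    have hn4 : 4 ≤ n := by omega
    -- the counterexamples
    have bad : ∀ x : Matrix.SpecialLinearGroup (Fin n) F,
        (∃ z : F, ((x ^ 2 : Matrix.SpecialLinearGroup (Fin n) F) : Matrix (Fin n) (Fin n) F) = z • (1 : Matrix (Fin n) (Fin n) F)) →
        (∀ z : F, (x : Matrix (Fin n) (Fin n) F) ≠ z • (1 : Matrix (Fin n) (Fin n) F)) →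
        (∀ J' : Matrix (Fin n) (Fin n) F, J' * J' = t • J' + u • 1 →
          ((x : Matrix (Fin n) (Fin n) F) * J' = J' * x ∨ (x : Matrix (Fin n) (Fin n) F) * J' = (t • 1 - J') * x) → False) → False := by
      intro x hx hx' hno'
      obtain ⟨P, hP⟩ := h x hx hx'
      have hmem := (hP J).1 hJK
      set X : Matrix (Fin n) (Fin n) F := (x : Matrix (Fin n) (Fin n) F)
      set P' := ((P : Matrix.SpecialLinearGroup (Fin n) F) : Matrix (Fin n) (Fin n) F)
      set Q := ((P⁻¹ : Matrix.SpecialLinearGroup (Fin n) F) : Matrix (Fin n) (Fin n) F)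
      have hQP : Q * P' = 1 := by
        simp only [Q, P', ← Matrix.SpecialLinearGroup.coe_mul, inv_mul_cancel, Matrix.SpecialLinearGroup.coe_one]
      have hPQ : P' * Q = 1 := by
        simp only [Q, P', ← Matrix.SpecialLinearGroup.coe_mul, mul_inv_cancel, Matrix.SpecialLinearGroup.coe_one]
      set Xi := ((x⁻¹ : Matrix.SpecialLinearGroup (Fin n) F) : Matrix (Fin n) (Fin n) F)
      have hXX : Xi * X = 1 := by
        simp only [X, Xi, ← Matrix.SpecialLinearGroup.coe_mul, inv_mul_cancel, Matrix.SpecialLinearGroup.coe_one]
      have hY : ((Matrix.SpecialLinearGroup.toGL (P⁻¹ * x * P) : GL (Fin n) F) : Matrix (Fin n) (Fin n) F) * J *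
          (((Matrix.SpecialLinearGroup.toGL (P⁻¹ * x * P))⁻¹ : GL (Fin n) F) : Matrix (Fin n) (Fin n) F) =
          Q * X * P' * J * (Q * Xi * P') := by
        rw [← map_inv, _root_.mul_inv_rev, _root_.mul_inv_rev, inv_inv, ← mul_assoc]
        rfl
      rw [hY] at hmem
      have hcase := hKtwo _ hmem (by
        calc Q * X * P' * J * (Q * Xi * P') * (Q * X * P' * J * (Q * Xi * P'))
            = Q * X * P' * J * (Q * (Xi * ((P' * Q) * X)) * P') * (J * (Q * Xi * P')) := by simp only [mul_assoc]
          _ = Q * X * P' * (J * J) * (Q * Xi * P') := by rw [hPQ, one_mul, hXX, mul_one, hQP]; simp only [mul_assoc, one_mul]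
          _ = _ := by
            rw [hJJ]
            simp only [mul_add, add_mul, Matrix.mul_smul, Matrix.smul_mul, mul_one, mul_assoc]
            congr 2
            rw [← mul_assoc P', hPQ, one_mul, ← mul_assoc X, show X * Xi = 1 from mul_eq_one_comm.1 hXX, one_mul, hQP])
      refine hno' (P' * J * Q) ?_ ?_
      · calc P' * J * Q * (P' * J * Q) = P' * J * (Q * P') * J * Q := by simp only [mul_assoc]
          _ = P' * (J * J) * Q := by rw [hQP, mul_one, mul_assoc P' J J]
          _ = _ := by
            rw [hJJ]
            simp only [mul_add, add_mul, Matrix.mul_smul, Matrix.smul_mul, mul_one, hPQ]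
      · rcases hcase with he | he <;> [left; right] <;>
          · have := congrArg (fun M => P' * M * Q * X) he
            simp only [mul_assoc] at this
            rw [← mul_assoc P' Q, hPQ, one_mul, ← mul_assoc P' Q, hPQ, one_mul, hXX, mul_one] at this
            simp only [sub_mul, mul_sub, mul_assoc, Matrix.mul_smul, Matrix.smul_mul, mul_one, one_mul] at this ⊢
            first
            | exact this
            | rw [← mul_assoc P' Q, hPQ, one_mul] at this; exact this
    set i0 : Fin n := ⟨0, by omega⟩
    set i1 : Fin n := ⟨1, by omega⟩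
    set i2 : Fin n := ⟨2, by omega⟩
    have h01 : i0 ≠ i1 := by simp [i0, i1]
    have h02 : i0 ≠ i2 := by simp [i0, i2]
    have h12 : i1 ≠ i2 := by simp [i1, i2]
    by_cases h2 : (2 : F) = 0
    · -- a transvection
      let N : Matrix (Fin n) (Fin n) F := Matrix.single i1 i0 1
      have hNN : N * N = 0 := by simp [N, h01]
      let x : Matrix.SpecialLinearGroup (Fin n) F := ⟨Matrix.transvection i1 i0 1, Matrix.det_transvection_of_ne i1 i0 h01.symm 1⟩
      have hx : (x : Matrix (Fin n) (Fin n) F) = 1 + N := rfl
      refine bad x ⟨1, ?_⟩ (fun z hz => ?_) fun J' hJ' hrel => ?_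
      · rw [Matrix.SpecialLinearGroup.coe_pow, hx, pow_two]
        simp only [add_mul, mul_add, one_mul, mul_one, hNN, add_zero, one_smul]
        rw [add_assoc, ← two_smul F N, h2, zero_smul, add_zero]
      · have := congrFun (congrFun (hx.symm.trans hz) i1) i0
        simp [N, h01.symm] at this
      rw [hx] at hrel
      rcases hrel with hrel | hrel
      · have hcm : N * J' = J' * N := by rw [add_mul, mul_add, one_mul, mul_one] at hrel; exact add_left_cancel hrel
        have h0 : ∀ b, b ≠ i0 → J' i0 b = 0 := fun b hb => by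
          have := congrFun (congrFun hcm i1) b
          simp [N, hb, hb.symm] at this
          exact this
        have := congrFun (congrFun hJ' i0) i0
        rw [Matrix.mul_apply, Finset.sum_eq_single i0 (fun b _ hb => by rw [h0 b hb, zero_mul])
          (fun h => absurd (Finset.mem_univ _) h)] at this
        simp at this
        exact hno _ this
      · rw [ht1 h2, one_smul, add_mul, one_mul, mul_add, mul_one, sub_mul, one_mul] at hrel
        have := congrFun (congrFun hrel i2) i2
        simp [N, h12, h02, h12.symm, h02.symm] at this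
        have h10 : (1 : F) = 0 := by linear_combination -this + (J' i2 i2) * h2
        exact one_ne_zero h10
    · have hqodd : Odd (Fintype.card F) := by
        rw [Nat.odd_iff, ← FiniteField.odd_card_of_char_ne_two (F := F) fun hc => h2 (by
          have : CharP F 2 := hc ▸ ringChar.charP F
          exact CharTwo.two_eq_zero)]
      obtain ⟨w, hw⟩ := (Elusive.exists_pow_eq_neg_one_iff h2 (by omega : 0 < n)).2 (hodd hqodd)
      have hw0 : w ≠ 0 := fun h0 => by rw [h0, zero_pow (by omega : n ≠ 0)] at hw; simp at hw
      set l : Fin n → F := fun i => if i = i0 then -w else w with hl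
      have hne : -w ≠ w := fun e => hw0 ((mul_eq_zero.1 (show (2 : F) * w = 0 by linear_combination -e)).resolve_left h2)
      have hdet : (Matrix.diagonal l).det = 1 := by
        rw [Matrix.det_diagonal, show (∏ i, l i) = ∏ i, w * (if i = i0 then -1 else 1) from
          prod_congr rfl fun i _ => by simp only [hl]; split_ifs <;> ring, prod_mul_distrib, prod_const, card_univ,
          Fintype.card_fin, hw, prod_ite_eq' univ i0]
        simp
      let x : Matrix.SpecialLinearGroup (Fin n) F := ⟨Matrix.diagonal l, hdet⟩
      refine bad x ⟨w ^ 2, ?_⟩ (fun z hz => ?_) fun J' hJ' hrel => ?_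
      · rw [Matrix.SpecialLinearGroup.coe_pow]
        show Matrix.diagonal l ^ 2 = _
        rw [Matrix.diagonal_pow, Matrix.smul_one_eq_diagonal]
        congr 1; funext i; simp only [Pi.pow_apply, hl]; split_ifs <;> ring
      · have e0 := congrFun (congrFun hz i0) i0
        have e1 := congrFun (congrFun hz i1) i1
        simp [x, hl, i0, i1] at e0 e1
        exact hne (e0.trans e1.symm)
      rw [ht0 h2] at hJ' hrel
      simp only [zero_smul, zero_add, zero_sub, neg_mul] at hJ' hrel
      change Matrix.diagonal l * J' = J' * Matrix.diagonal l ∨ Matrix.diagonal l * J' = -(J' * Matrix.diagonal l) at hrel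
      have hu : ∀ s : F, s * s ≠ u := fun s hs => hno s (by rw [ht0 h2, zero_mul, zero_add, hs])
      rcases hrel with hrel | hrel
      · have h0 : ∀ b, b ≠ i0 → J' i0 b = 0 := fun b hb => by
          have := congrFun (congrFun hrel i0) b
          rw [Matrix.diagonal_mul, Matrix.mul_diagonal] at this
          simp only [hl, if_pos, if_neg hb] at this
          have : (-w - w) * J' i0 b = 0 := by linear_combination this
          exact (mul_eq_zero.1 this).resolve_left (sub_ne_zero.2 hne)
        have := congrFun (congrFun hJ' i0) i0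
        rw [Matrix.mul_apply, Finset.sum_eq_single i0 (fun b _ hb => by rw [h0 b hb, zero_mul])
          (fun h => absurd (Finset.mem_univ _) h)] at this
        simp at this
        exact hu _ this
      · have h0 : ∀ a b, a ≠ i0 → b ≠ i0 → J' a b = 0 := fun a b ha hb => by
          have := congrFun (congrFun hrel a) b
          rw [Matrix.neg_apply, Matrix.diagonal_mul, Matrix.mul_diagonal] at this
          simp only [hl, if_neg ha, if_neg hb] at this
          have : (2 * w) * J' a b = 0 := by linear_combination this
          exact (mul_eq_zero.1 this).resolve_left (mul_ne_zero h2 hw0)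
        have e : ∀ a b, a ≠ i0 → b ≠ i0 → J' a i0 * J' i0 b = (u • (1 : Matrix (Fin n) (Fin n) F)) a b := fun a b ha hb => by
          rw [← hJ', Matrix.mul_apply, Finset.sum_eq_single i0 (fun c _ hc => by rw [h0 a c ha hc, zero_mul])
            (fun h => absurd (Finset.mem_univ _) h)]
        have e11 := e i1 i1 h01.symm h01.symm
        have e22 := e i2 i2 h02.symm h02.symm
        have e12 := e i1 i2 h01.symm h02.symm
        simp [h12] at e11 e22 e12
        have hu0 : u ≠ 0 := fun h => hu 0 (by rw [h, zero_mul])
        rcases e12 with e12 | e12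
        · rw [e12, zero_mul] at e11; exact hu0 e11.symm
        · rw [e12, mul_zero] at e22; exact hu0 e22.symm
  · intro hcond x ⟨z, hz⟩ hxs
    have hz' := Elusive.toLin'_pow_eq_smul_one.1 hz
    set g : Module.End F (Fin n → F) := Matrix.toLin' (x : Matrix (Fin n) (Fin n) F) with hg
    have hgg : ∀ v, g (g v) = z • v := fun v => by
      have := LinearMap.congr_fun hz' v
      rwa [pow_two] at this
    have hgs : ∀ c : F, g ≠ c • 1 := fun c h => hxs c (Elusive.toLin'_eq_smul_one.2 h)
    have hdetg : LinearMap.det g = 1 := by rw [hg, LinearMap.det_toLin', x.det_coe]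
    have hz0 : z ≠ 0 := by
      intro h0
      have : Nonempty (Fin n) := ⟨⟨0, by omega⟩⟩
      have h1 := (x ^ 2).det_coe
      rw [hz, h0, zero_smul, Matrix.det_zero] at h1
      exact zero_ne_one h1
    set JK : Module.End F (Fin n → F) := Matrix.toLinAlgEquiv' J with hJKdef
    have hJK2 : JK * JK = t • JK + u • 1 := by rw [hJKdef, ← map_mul, hJJ, map_add, map_smul, map_smul, map_one]
    suffices hJ : ∃ J' : Module.End F (Fin n → F), J' * J' = t • J' + u • 1 ∧
        (g * J' = J' * g ∨ g * J' = (t • 1 - J') * g) by
      obtain ⟨J', hJ'2, hrel⟩ := hJ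
      obtain ⟨c, hc⟩ := Elusive.exists_conj_quad hJK2 hJ'2 hno (d := d) (by rw [Module.finrank_fin_fun, hd])
      obtain ⟨ι, _, b, π, a, hπ, hb, ha⟩ := Elusive.exists_monomial g hz0 hgg
      have : Nonempty ι := b.index_nonempty
      obtain ⟨y, hy, hyd⟩ := Elusive.exists_commute_det b π hπ a hb (fun i => by rw [ha]; exact hz0)
        (LinearMap.det c.toLinearMap)⁻¹
      let Qm : Matrix.SpecialLinearGroup (Fin n) F := ⟨LinearMap.toMatrix' (c.toLinearMap * y), by
        rw [LinearMap.det_toMatrix', map_mul, hyd, mul_inv_cancel₀ c.isUnit_det'.ne_zero]⟩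
      refine ⟨Qm⁻¹, ?_⟩
      rw [inv_inv]
      refine MaxSub.mem_normalizer_iff_map_le.2 fun k hk => ?_
      set Y := Matrix.SpecialLinearGroup.toGL (Qm * x * Qm⁻¹)
      set G := Matrix.toLinAlgEquiv' (Y : Matrix (Fin n) (Fin n) F)
      set Qe : Module.End F (Fin n → F) := c.toLinearMap * y
      have hGQ : G * Qe = Qe * g := by
        have : Matrix.toLinAlgEquiv' ((Qm : Matrix (Fin n) (Fin n) F)) = Qe := Matrix.toLinAlgEquiv'_toMatrixAlgEquiv' Qe
        rw [← this, show g = Matrix.toLinAlgEquiv' (x : Matrix (Fin n) (Fin n) F) from rfl]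
        simp only [G, ← map_mul]
        congr 1
        show ((Qm * x * Qm⁻¹ : Matrix.SpecialLinearGroup (Fin n) F) : Matrix (Fin n) (Fin n) F) * _ = _
        rw [← Matrix.SpecialLinearGroup.coe_mul, ← Matrix.SpecialLinearGroup.coe_mul, inv_mul_cancel_right]
      have hGc : ∀ v, G (c v) = c (g v) := fun v => by
        obtain ⟨v, rfl⟩ : ∃ v', y v' = v := by
          have hu' : IsUnit (LinearMap.det y) := by rw [hyd]; exact (inv_ne_zero c.isUnit_det'.ne_zero).isUnit
          exact (LinearMap.isUnit_iff_range_eq_top y).1 ((LinearMap.isUnit_iff_isUnit_det y).2 hu') |> fun h => LinearMap.range_eq_top.1 h v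
        have h1 := LinearMap.congr_fun hGQ v
        have h2 := LinearMap.congr_fun hy v
        simp only [Module.End.mul_apply, Qe, LinearEquiv.coe_coe] at h1 h2
        rw [h1, h2]
      have hGJ : G * JK = JK * G ∨ G * JK = (t • 1 - JK) * G := by
        rcases hrel with h | h <;> [left; right] <;> refine LinearMap.ext fun v => ?_ <;>
          obtain ⟨v, rfl⟩ := c.surjective v <;>
          simp only [Module.End.mul_apply, LinearMap.sub_apply, LinearMap.smul_apply, Module.End.one_apply, hGc, ← hc,
            ← map_smul, ← map_sub] <;> congr 1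
        · exact LinearMap.congr_fun h v
        · rw [map_smul]; exact LinearMap.congr_fun h v
      have hrelM : (Y : Matrix (Fin n) (Fin n) F) * J = J * Y ∨ (Y : Matrix (Fin n) (Fin n) F) * J = (t • 1 - J) * Y := by
        rcases hGJ with h | h
        · exact Or.inl (Matrix.toLinAlgEquiv'.injective (by rw [map_mul, map_mul]; exact h))
        · exact Or.inr (Matrix.toLinAlgEquiv'.injective (by rw [map_mul, map_mul, map_sub, map_smul, map_one]; exact h))
      obtain ⟨a', b', rfl⟩ := hspan k hk
      rw [mul_add, add_mul, Matrix.mul_smul, Matrix.mul_smul, Matrix.smul_mul, Matrix.smul_mul, mul_one, Units.mul_inv]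
      refine K.add_mem (K.smul_mem K.one_mem a') (K.smul_mem ?_ b')
      rcases hrelM with h | h <;> rw [h, mul_assoc, Units.mul_inv, mul_one]
      · exact hJK
      · exact K.sub_mem (K.smul_mem K.one_mem t) hJK
    by_cases h2 : (2 : F) = 0
    · -- even characteristic: `n = 2`
      have hn2 : n = 2 := hcond.resolve_right fun h => by
        have := (FiniteField.even_card_iff_char_two (F := F)).1 (CharP.ringChar_of_prime_eq_zero Nat.prime_two (by exact_mod_cast h2))
        rcases h.1 with ⟨a, ha⟩; omega
      obtain ⟨w, hw⟩ := FiniteField.isSquare_of_char_two (CharP.ringChar_of_prime_eq_zero Nat.prime_two (by exact_mod_cast h2)) z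
      have hw0 : w ≠ 0 := fun h0 => hz0 (by rw [hw, h0, mul_zero])
      set N : Module.End F (Fin n → F) := w⁻¹ • g - 1 with hN
      have hNN : ∀ v, N (N v) = 0 := fun v => by
        simp only [hN, LinearMap.sub_apply, LinearMap.smul_apply, Module.End.one_apply, map_sub, map_smul, hgg, hw,
          smul_sub, smul_smul]
        rw [show w⁻¹ * (w⁻¹ * (w * w)) = 1 by field_simp, one_smul,
          show v - w⁻¹ • g v - (w⁻¹ • g v - v) = (2 : F) • (v - w⁻¹ • g v) by module, h2, zero_smul]
      obtain ⟨v, hv⟩ : ∃ v, N v ≠ 0 := by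
        by_contra! h
        refine hgs w (LinearMap.ext fun v => ?_)
        have := h v
        rw [hN, LinearMap.sub_apply, LinearMap.smul_apply, Module.End.one_apply, sub_eq_zero] at this
        rw [LinearMap.smul_apply, Module.End.one_apply]
        nth_rewrite 2 [← this]
        rw [smul_smul, mul_inv_cancel₀ hw0, one_smul]
      have hli : LinearIndependent F ![v, N v] := LinearIndependent.pair_iff.2 fun s s' h => by
        have h' := congrArg N h
        rw [map_add, map_smul, map_smul, hNN, smul_zero, add_zero, map_zero] at h'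
        have hs := (smul_eq_zero.1 h').resolve_right hv
        rw [hs, zero_smul, zero_add] at h
        exact ⟨hs, (smul_eq_zero.1 h).resolve_right hv⟩
      have : Nonempty (Fin 2) := ⟨0⟩
      let b : Module.Basis (Fin 2) F (Fin n → F) := basisOfLinearIndependentOfCardEqFinrank hli
        (by rw [Fintype.card_fin, Module.finrank_fin_fun, hn2])
      have hb : ∀ i, b i = ![v, N v] i := fun i => by simp [b]
      refine ⟨b.constr F ![u • N v, v + N v], b.ext fun i => ?_, Or.inr (b.ext fun i => ?_)⟩
      · have e1 : (b.constr F ![u • N v, v + N v]) v = u • N v := by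
          have := b.constr_basis F ![u • N v, v + N v] 0; rwa [hb] at this
        have e2 : (b.constr F ![u • N v, v + N v]) (N v) = v + N v := by
          have := b.constr_basis F ![u • N v, v + N v] 1; rwa [hb] at this
        rw [ht1 h2, one_smul]
        fin_cases i <;>
          simp only [Fin.zero_eta, Fin.mk_one, hb, Matrix.cons_val_zero, Matrix.cons_val_one, Matrix.cons_val_fin_one,
            Module.End.mul_apply, LinearMap.add_apply, LinearMap.smul_apply, Module.End.one_apply, map_add, map_smul,
            e1, e2, smul_add] <;> abel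
      · have e1 : (b.constr F ![u • N v, v + N v]) v = u • N v := by
          have := b.constr_basis F ![u • N v, v + N v] 0; rwa [hb] at this
        have e2 : (b.constr F ![u • N v, v + N v]) (N v) = v + N v := by
          have := b.constr_basis F ![u • N v, v + N v] 1; rwa [hb] at this
        have gv : ∀ y, g y = w • (y + N y) := fun y => by
          simp only [hN, LinearMap.sub_apply, LinearMap.smul_apply, Module.End.one_apply, add_sub_cancel]
          rw [smul_smul, mul_inv_cancel₀ hw0, one_smul]
        have g1 : g v = w • v + w • N v := by rw [gv, smul_add]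
        have g2 : g (N v) = w • N v := by rw [gv, hNN, add_zero]
        rw [ht1 h2, one_smul]
        fin_cases i
        · simp only [Fin.zero_eta, hb, Matrix.cons_val_zero, Module.End.mul_apply, LinearMap.sub_apply,
            Module.End.one_apply, e1, e2, g1, g2, map_add, map_smul]
          match_scalars <;> ring_nf <;> linear_combination (u * w) * h2
        · simp only [Fin.mk_one, hb, Matrix.cons_val_one, Matrix.cons_val_fin_one, Module.End.mul_apply,
            LinearMap.sub_apply, Module.End.one_apply, e1, e2, g1, g2, map_add, map_smul]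
          match_scalars <;> linear_combination w * h2
    rw [ht0 h2] at hno ⊢
    simp only [zero_smul, zero_add, zero_sub, neg_mul, zero_mul] at hno ⊢
    by_cases hsq : ∃ w, w * w = z
    · obtain ⟨w, hw⟩ := hsq
      have hw0 : w ≠ 0 := fun h0 => hz0 (by rw [← hw, h0, mul_zero])
      have hcompl : IsCompl (LinearMap.ker (g - w • 1)) (LinearMap.ker (g + w • 1)) := by
        constructor
        · refine Submodule.disjoint_def.2 fun v h1 h3 => ?_
          simp only [LinearMap.mem_ker, LinearMap.sub_apply, LinearMap.add_apply, LinearMap.smul_apply,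
            Module.End.one_apply] at h1 h3
          have : ((2 : F) * w) • v = 0 := by
            rw [two_mul, add_smul, ← sub_eq_zero.1 h1]
            rw [← sub_eq_zero.1 h1] at h3
            exact h3
          exact (smul_eq_zero.1 this).resolve_left (mul_ne_zero h2 hw0)
        · rw [codisjoint_iff, eq_top_iff]
          intro v _
          have hv : v = ((2 : F) * w)⁻¹ • (g v + w • v) + (-((2 : F) * w)⁻¹) • (g v - w • v) := by
            rw [neg_smul, ← sub_eq_add_neg, ← smul_sub, add_sub_sub_cancel, ← add_smul, ← two_mul, smul_smul,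
              inv_mul_cancel₀ (mul_ne_zero h2 hw0), one_smul]
          rw [hv]
          refine Submodule.add_mem_sup (Submodule.smul_mem _ _ ?_) (Submodule.smul_mem _ _ ?_)
          · simp only [LinearMap.mem_ker, LinearMap.sub_apply, LinearMap.smul_apply, Module.End.one_apply, map_add,
              map_smul, hgg, ← hw, smul_add, smul_smul]
            module
          · simp only [LinearMap.mem_ker, LinearMap.add_apply, LinearMap.smul_apply, Module.End.one_apply, map_sub,
              map_smul, hgg, ← hw, smul_sub, smul_smul]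
            module
      set U := LinearMap.ker (g - w • 1) with hUdef
      set W := LinearMap.ker (g + w • 1) with hWdef
      have hsum : Module.finrank F U + Module.finrank F W = n := by
        rw [Submodule.finrank_add_eq_of_isCompl hcompl, Module.finrank_fin_fun]
      let b : Module.Basis (Fin (Module.finrank F U) ⊕ Fin (Module.finrank F W)) F (Fin n → F) :=
        ((Module.finBasis F U).prod (Module.finBasis F W)).map (Submodule.prodEquivOfIsCompl U W hcompl)
      let a : Fin (Module.finrank F U) ⊕ Fin (Module.finrank F W) → F := Sum.elim (fun _ => w) (fun _ => -w)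
      have hb : ∀ i, g (b i) = a i • b i := by
        rintro (i | i)
        · have h1 := ((Module.finBasis F U) i).2
          simp only [U, LinearMap.mem_ker, LinearMap.sub_apply, LinearMap.smul_apply, Module.End.one_apply,
            sub_eq_zero] at h1
          simpa [b, a] using h1
        · have h1 := ((Module.finBasis F W) i).2
          simp only [W, LinearMap.mem_ker, LinearMap.add_apply, LinearMap.smul_apply, Module.End.one_apply,
            add_eq_zero_iff_eq_neg] at h1
          simpa [b, a] using h1
      by_cases hn2 : n = 2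
      · -- the two eigenlines are exchanged
        have hU : Module.finrank F U ≠ 0 := fun h0 => hgs (-w) (by
          have ht : W = ⊤ := Submodule.eq_top_of_finrank_eq (by rw [Module.finrank_fin_fun]; omega)
          rw [hWdef, LinearMap.ker_eq_top] at ht
          refine LinearMap.ext fun v => ?_
          have := LinearMap.congr_fun ht v
          simp only [LinearMap.add_apply, LinearMap.smul_apply, Module.End.one_apply, LinearMap.zero_apply] at this
          simp only [LinearMap.smul_apply, Module.End.one_apply, neg_smul]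
          exact eq_neg_of_add_eq_zero_left this)
        have hW : Module.finrank F W ≠ 0 := fun h0 => hgs w (by
          have ht : U = ⊤ := Submodule.eq_top_of_finrank_eq (by rw [Module.finrank_fin_fun]; omega)
          rw [hUdef, LinearMap.ker_eq_top] at ht
          exact sub_eq_zero.1 ht)
        let e : Fin (Module.finrank F U) ≃ Fin (Module.finrank F W) := finCongr (by omega)
        obtain ⟨J', hJ1, hJ2⟩ := exists_pairing_quad b a hb (Sum.elim (fun i => Sum.inr (e i)) (fun i => Sum.inl (e.symm i)))
          (by rintro (i | i) <;> simp) (by rintro (i | i) <;> simp) u (-1) (by rintro (i | i) <;> simp [a])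
        exact ⟨J', hJ1, Or.inr (LinearMap.ext fun v => by rw [hJ2]; simp)⟩
      obtain ⟨-, hcond⟩ := hcond.resolve_left hn2
      have hWev : Even (Module.finrank F W) := by
        rw [← LinearMap.det_toMatrix b, show LinearMap.toMatrix b b g = Matrix.diagonal a from ?_, Matrix.det_diagonal,
          Fintype.prod_sum_type] at hdetg
        · by_contra hodd
          simp only [a, Sum.elim_inl, Sum.elim_inr, prod_const, card_univ, Fintype.card_fin] at hdetg
          rw [neg_pow, (Nat.not_even_iff_odd.1 hodd).neg_one_pow, ← mul_assoc, mul_comm (w ^ _) (-1 : F), mul_assoc,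
            ← pow_add, hsum] at hdetg
          have := (Elusive.exists_pow_eq_neg_one_iff h2 (by omega : 0 < n)).1 ⟨w, by linear_combination -hdetg⟩
          omega
        · ext i j
          rw [LinearMap.toMatrix_apply, hb, map_smul, Finsupp.smul_apply, Module.Basis.repr_self,
            Finsupp.single_apply, Matrix.diagonal_apply]
          rcases eq_or_ne i j with rfl | h
          · simp
          · simp [h, h.symm]
      have hUev : Even (Module.finrank F U) := by rw [Nat.even_iff] at hWev ⊢; omega
      obtain ⟨τ, hτ, hτ', hτc⟩ := Elusive.exists_pairing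
        (fun i : Fin (Module.finrank F U) ⊕ Fin (Module.finrank F W) => i.isLeft) (fun k => by
          rw [card_filter, Fintype.sum_sum_type]
          cases k
          · simpa using hWev
          · simpa using hUev)
      obtain ⟨J', hJ1, hJ2⟩ := exists_pairing_quad b a hb τ hτ hτ' u 1 fun i => by
        have := hτc i
        rcases i with i | i <;> generalize τ _ = j at this ⊢ <;> rcases j with j | j <;> simp at this <;> simp [a]
      exact ⟨J', hJ1, Or.inl (by rw [hJ2, one_smul])⟩
    · -- `g` itself gives the structure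
      have hu : ¬ IsSquare u := fun ⟨s, hs⟩ => hno s hs.symm
      have hzns : ¬ IsSquare z := fun ⟨s, hs⟩ => hsq ⟨s, hs.symm⟩
      obtain ⟨s, hs⟩ : IsSquare (u * z) := by
        have hF : ringChar F ≠ 2 := fun hc => h2 (by
          have : CharP F 2 := hc ▸ ringChar.charP F
          exact CharTwo.two_eq_zero)
        have hu0 : u ≠ 0 := fun h => hu ⟨0, by rw [h, mul_zero]⟩
        rw [← quadraticChar_one_iff_isSquare (mul_ne_zero hu0 hz0), map_mul,
          quadraticChar_neg_one_iff_not_isSquare.2 hu, quadraticChar_neg_one_iff_not_isSquare.2 hzns]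
        rfl
      refine ⟨(s / z) • g, LinearMap.ext fun v => ?_, Or.inl (by rw [mul_smul_comm, smul_mul_assoc])⟩
      simp only [Module.End.mul_apply, LinearMap.smul_apply, Module.End.one_apply, map_smul, hgg, smul_smul]
      congr 1
      field_simp
      linear_combination -hs

end Cfsg.Agent.S5969
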