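import Cfsg.Statements.S5970
import Cfsg.Agent.Elusive.SingerPrime
import Cfsg.Agent.Elusive.SLElements

set_option autoImplicit false
open scoped MatrixGroups
open Cfsg

namespace Cfsg.Agent.S5970

open Matrix

/-- Elements of order `n` of PSL_n(q), `n` prime, and the normalizer of a Singer cycle. Here `T = PSL_n(F)` for a field `F` with `q = p^f` elements (`n ≥ 2`, `(n, q) ≠ (2, 2), (2, 3)`), `k` is a prime dividing `n`, `K` is a subalgebra of the `n × n` matrices that is a field of degree `k` over `F` (an extension-field structure F_{q^k} on `F^n`), and `H` is the subgroup of matrices of determinant 1 normalizing `K` — a subgroup of type GL_{n/k}(q^k) (maximal except in some small cases; maximality is not assumed); Ω is the set of cosets of `H` in `T`, so an element of `T` of prime order `r` (a matrix `x` of determinant 1 with `x^r` scalar, `x` not scalar) fixes a point of Ω when some conjugate of `x` by a matrix of determinant 1 normalizes `K`. Take `k = n > 3` prime with `n ≠ p` (so `H` is the normalizer of a Singer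 cycle), and suppose `n` divides the index of `H`. Then every element of `T` of order `n` is conjugate in `T` into `H` if and only if the multiplicative order of `q` modulo `n` is `n − 1`. -/
theorem result {F : Type*} [Field F] [Fintype F] {p : ℕ} [Fact p.Prime] [CharP F p] {q : ℕ} (hq : Fintype.card F = q)
    (n : ℕ) (hn : 2 ≤ n) (hT : (n, q) ≠ (2, 2) ∧ (n, q) ≠ (2, 3))
    (k : ℕ) (hk : k.Prime) (hkn : k ∣ n) (K : Subalgebra F (Matrix (Fin n) (Fin n) F)) (hK : Cfsg.Geo.IsFieldSubalgebra k K) (hkn' : k = n) (hn3 : 3 < n) (hnp : n ≠ p) (hΩ : n ∣ ((Cfsg.Geo.subalgebraNormalizer K).comap (Matrix.SpecialLinearGroup.toGL : Matrix.SpecialLinearGroup (Fin n) F →* GL (Fin n) F)).index) :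
    (∀ x : Matrix.SpecialLinearGroup (Fin n) F,
      (∃ z : F, ((x ^ n : Matrix.SpecialLinearGroup (Fin n) F) : Matrix (Fin n) (Fin n) F) = z • (1 : Matrix (Fin n) (Fin n) F)) →
      (∀ z : F, (x : Matrix (Fin n) (Fin n) F) ≠ z • (1 : Matrix (Fin n) (Fin n) F)) →
      ∃ P : Matrix.SpecialLinearGroup (Fin n) F, P⁻¹ * x * P ∈ ((Cfsg.Geo.subalgebraNormalizer K).comap (Matrix.SpecialLinearGroup.toGL : Matrix.SpecialLinearGroup (Fin n) F →* GL (Fin n) F))) ↔
    orderOf (q : ZMod n) = n - 1 := by
  classical
  subst hkn'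
  subst hq
  have : Fact k.Prime := ⟨hk⟩
  have : NeZero k := ⟨hk.ne_zero⟩
  have hkF : ¬ k ∣ Fintype.card F := fun h => by
    obtain ⟨e, hp, he⟩ := FiniteField.card F p
    rw [he] at h
    exact hnp ((Nat.prime_dvd_prime_iff_eq hk hp).1 (hk.dvd_of_dvd_pow h))
  have hq0 : ((Fintype.card F : ℕ) : ZMod k) ≠ 0 := fun h => hkF ((ZMod.natCast_eq_zero_iff _ _).1 h)
  constructor
  · intro h
    by_contra hne
    set e := orderOf ((Fintype.card F : ℕ) : ZMod k) with hedef
    have hed : e ∣ k - 1 := ZMod.orderOf_dvd_card_sub_one hq0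
    have he1 : 1 ≤ e := Nat.pos_of_ne_zero fun h0 => by rw [h0, zero_dvd_iff] at hed; omega
    have he2 : 2 * e ≤ k - 1 := by
      obtain ⟨c, hc⟩ := hed
      rcases c with _ | _ | c
      · omega
      · rw [Nat.zero_add, mul_one] at hc; omega
      · rw [hc, mul_comm 2 e]
        exact Nat.mul_le_mul_left e (by omega)
    -- an element with a two-dimensional fixed space
    obtain ⟨x, hx, hx', u, v, hu0, hu, hv, huv⟩ : ∃ x : Matrix.SpecialLinearGroup (Fin k) F,
        (x : Matrix (Fin k) (Fin k) F) ^ k = 1 ∧ (∀ z : F, (x : Matrix (Fin k) (Fin k) F) ≠ z • 1) ∧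
        ∃ u v, u ≠ 0 ∧ (x : Matrix (Fin k) (Fin k) F) *ᵥ u = u ∧ (x : Matrix (Fin k) (Fin k) F) *ᵥ v = v ∧
          ∀ c : F, v ≠ c • u := by
      rcases Nat.lt_or_ge e 2 with he | he
      · have hd : k ∣ Fintype.card F - 1 := (Elusive.orderOf_eq_one_iff_dvd (F := F)).1 (by omega)
        obtain ⟨ζ, hζ⟩ := exists_prime_orderOf_dvd_card' (G := Fˣ) k (by
          rwa [Nat.card_units, Nat.card_eq_fintype_card])
        let i0 : Fin k := ⟨0, by omega⟩
        let i1 : Fin k := ⟨1, by omega⟩
        let i2 : Fin k := ⟨2, by omega⟩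
        let i3 : Fin k := ⟨3, by omega⟩
        have h10 : i1 ≠ i0 := by simp [i0, i1, Fin.ext_iff]
        have h20 : i2 ≠ i0 := by simp [i0, i2, Fin.ext_iff]
        have h21 : i2 ≠ i1 := by simp [i1, i2, Fin.ext_iff]
        have h30 : i3 ≠ i0 := by simp [i0, i3, Fin.ext_iff]
        have h31 : i3 ≠ i1 := by simp [i1, i3, Fin.ext_iff]
        have h32 : i3 ≠ i2 := by simp [i2, i3, Fin.ext_iff]
        let d : Fin k → F := fun i => if i = i0 then (ζ : F) else if i = i1 then ((ζ⁻¹ : Fˣ) : F) else 1
        have hdet : (Matrix.diagonal d).det = 1 := by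
          rw [Matrix.det_diagonal, Fintype.prod_eq_mul i0 i1 h10.symm
            (fun i hi => by simp [d, hi.1, hi.2])]
          simp [d, h10]
        refine ⟨⟨Matrix.diagonal d, hdet⟩, ?_, ?_, Pi.single i2 1, Pi.single i3 1, ?_, ?_, ?_, ?_⟩
        · show Matrix.diagonal d ^ k = 1
          rw [Matrix.diagonal_pow, ← Matrix.diagonal_one]
          refine congrArg Matrix.diagonal (funext fun i => ?_)
          have hz : ((ζ : F)) ^ k = 1 := by rw [← Units.val_pow_eq_pow_val, ← hζ, pow_orderOf_eq_one, Units.val_one]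
          simp only [Pi.pow_apply, d]
          split_ifs
          · exact hz
          · rw [Units.val_inv_eq_inv_val, inv_pow, hz, inv_one]
          · exact one_pow k
        · intro z hz
          change Matrix.diagonal d = _ at hz
          have h0 := congrFun (congrFun hz i0) i0
          have h2 := congrFun (congrFun hz i2) i2
          simp [d, h20, h21] at h0 h2
          rw [← h2] at h0
          have hζ1 : ζ = 1 := Units.ext h0
          rw [hζ1, orderOf_one] at hζ
          omega
        · exact fun h0 => by simpa using congrFun h0 i2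
        · show Matrix.diagonal d *ᵥ _ = _
          rw [Matrix.diagonal_mulVec_single]; simp [d, h20, h21]
        · show Matrix.diagonal d *ᵥ _ = _
          rw [Matrix.diagonal_mulVec_single]; simp [d, h30, h31]
        · exact fun c hc => by simpa [h32] using congrFun hc i3
      · obtain ⟨x, hx, hx', hker⟩ := Elusive.exists_element_fixed (F := F) (n := k) p (r := k) he (c := k - e) (t := 1)
          one_pos (by omega)
        set C := LinearMap.ker ((Matrix.toLin' (x : Matrix (Fin k) (Fin k) F) : Module.End F (Fin k → F)) - 1)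
        have hC : ∀ u ∈ C, (x : Matrix (Fin k) (Fin k) F) *ᵥ u = u := fun u hu =>
          sub_eq_zero.1 (LinearMap.mem_ker.1 hu)
        obtain ⟨u, huC, hu0⟩ := Submodule.exists_mem_ne_zero_of_ne_bot (p := C) (fun hb => by
          rw [hb, finrank_bot] at hker; omega)
        obtain ⟨v, hvC, hv⟩ := SetLike.not_le_iff_exists.1 (fun hle : C ≤ Submodule.span F {u} => by
          have := Submodule.finrank_mono hle
          rw [finrank_span_singleton hu0] at this
          omega)
        refine ⟨x, ?_, hx', u, v, hu0, hC u huC, hC v hvC, fun c hc => hv ?_⟩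
        · rw [← Matrix.SpecialLinearGroup.coe_pow, hx, one_smul]
        · rw [hc]; exact Submodule.smul_mem _ c (Submodule.mem_span_singleton_self u)
    obtain ⟨P, hP⟩ := h x ⟨1, by rw [one_smul, Matrix.SpecialLinearGroup.coe_pow, hx]⟩ hx'
    rw [Subgroup.mem_comap, map_mul, map_mul, map_inv] at hP
    exact Elusive.SingerPrime.not_conj_mem hK (x := Matrix.SpecialLinearGroup.toGL x) hx hx' hu0 hu hv huv _ hP
  · intro ho x ⟨z, hz⟩ hx'
    rcases Elusive.order_reduction hk (by omega) hz hx' with ⟨w, g, hw, hxg, hg, hg1⟩ | hbad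
    swap
    · obtain ⟨b, hb⟩ := Elusive.exists_pow_eq_of_not_dvd hk (fun hd => by
        rw [(Elusive.orderOf_eq_one_iff_dvd (F := F)).2 hd] at ho; omega) z
      exact absurd hb (hbad b)
    have hG : (LinearMap.toMatrix' g) ^ k = 1 := by
      show (LinearMap.toMatrixAlgEquiv' g) ^ k = 1
      rw [← map_pow, hg, map_one]
    have hG1 : LinearMap.toMatrix' g ≠ 1 := fun h1 => hg1 (LinearMap.toMatrix'.injective (by
      rw [h1, LinearMap.toMatrix'_one]))
    refine Elusive.SingerPrime.conj_mem_of_cyclic hK hw (g := Units.ofPowEqOne _ k hG hk.ne_zero) ?_ hG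
      (Elusive.SingerPrime.cyclic_of_order (by omega) ho hG hG1)
    apply Matrix.toLin'.injective
    show _ = Matrix.toLin' (w • LinearMap.toMatrix' g)
    rw [map_smul, Matrix.toLin'_toMatrix', hxg]

end Cfsg.Agent.S5970
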