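import Cfsg.Statements.S5971
import Cfsg.Agent.Elusive.SingerPrime
import Cfsg.Agent.Elusive.SLElements
import Cfsg.Agent.Linear.Orders

set_option autoImplicit false
open scoped MatrixGroups
open Cfsg

namespace Cfsg.Agent.S5971

open Matrix

/-- An element of order three of `SL_3` with a plane of fixed vectors is trivial. -/
theorem eq_one_of_plane {F : Type*} [Field F] {g : Module.End F (Fin 3 → F)} (h3 : (3 : F) ≠ 0) (hg : g ^ 3 = 1)
    (hdet : LinearMap.det g = 1) (hC : 2 ≤ Module.finrank F (LinearMap.ker (g - 1))) : g = 1 := by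
  classical
  set C := LinearMap.ker (g - 1)
  rcases eq_or_ne C ⊤ with h | hCt
  · exact sub_eq_zero.1 (LinearMap.ker_eq_top.1 h)
  obtain ⟨f, hf0, hf⟩ := Submodule.exists_le_ker_of_lt_top C (lt_top_iff_ne_top.2 hCt)
  have hker : LinearMap.ker f = C := by
    refine (Submodule.eq_of_le_of_finrank_le hf ?_).symm
    have hlt : Module.finrank F (LinearMap.ker f) < Module.finrank F (Fin 3 → F) :=
      Submodule.finrank_lt (fun h => hf0 (LinearMap.ker_eq_top.1 h))
    rw [Module.finrank_fin_fun] at hlt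
    omega
  obtain ⟨v, hv⟩ : ∃ v, f v ≠ 0 := by
    by_contra h
    push Not at h
    exact hf0 (LinearMap.ext h)
  set u := (f v)⁻¹ • (g - 1) v
  have hfix : ∀ x ∈ C, g x = x := fun x hx => sub_eq_zero.1 (LinearMap.mem_ker.1 hx)
  have hgt : ∀ x, g x = x + f x • u := fun x => by
    have h0 : x - (f x * (f v)⁻¹) • v ∈ C := by
      rw [← hker, LinearMap.mem_ker, map_sub, map_smul, smul_eq_mul, inv_mul_cancel_right₀ hv, sub_self]
    have h1 := hfix _ h0
    rw [map_sub, map_smul, sub_eq_iff_eq_add] at h1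
    rw [h1]
    simp only [u, LinearMap.sub_apply, Module.End.one_apply, smul_smul, smul_sub]
    abel
  have hgT : g = LinearMap.transvection f u := LinearMap.ext fun x => by rw [hgt, LinearMap.transvection.apply]
  rw [hgT, LinearMap.transvection.det, add_eq_left] at hdet
  have h3x : ∀ x, (g ^ 3) x = x + (3 * f x) • u := fun x => by
    simp only [pow_succ, pow_zero, one_mul, Module.End.mul_apply]
    simp only [hgt, map_add, map_smul, smul_eq_mul, hdet, mul_zero, add_zero]
    module
  have := h3x v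
  rw [hg, Module.End.one_apply, left_eq_add, smul_eq_zero] at this
  have hu : u = 0 := this.resolve_left (mul_ne_zero h3 hv)
  exact LinearMap.ext fun x => by rw [hgt, hu, smul_zero, add_zero]; rfl

/-- An element of order three of `SL_3` has a cyclic vector, if all cube roots of one are scalars. -/
theorem cyclic_three {F : Type*} [Field F] [Fintype F] {G : Matrix (Fin 3) (Fin 3) F} {ω : F}
    (hω : IsPrimitiveRoot ω 3) (h3 : (3 : F) ≠ 0) (hG : G ^ 3 = 1) (hdet : G.det = 1) (hG1 : ∀ c : F, G ≠ c • 1) :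
    Elusive.SingerPrime.HasCyclicVector G := by
  classical
  have hω3 : ω ^ 3 = 1 := hω.pow_eq_one
  have hω1 : ω ≠ 1 := hω.ne_one (by norm_num)
  have hsum : 1 + ω + ω ^ 2 = 0 :=
    (mul_eq_zero.1 (show (ω - 1) * (1 + ω + ω ^ 2) = 0 by linear_combination hω3)).resolve_left (sub_ne_zero.2 hω1)
  set f : Module.End F (Fin 3 → F) := Matrix.toLinAlgEquiv' G with hfdef
  have hf : f ^ 3 = 1 := by rw [← map_pow, hG, map_one]
  have hfdet : LinearMap.det f = 1 := (LinearMap.det_toLin' G).trans hdet
  have hplane : ∀ a : F, a ^ 3 = 1 → Module.finrank F (LinearMap.ker (f - a • 1)) < 2 := by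
    intro a ha
    by_contra hlt
    have ha0 : a ≠ 0 := fun h => by rw [h] at ha; norm_num at ha
    have hker : LinearMap.ker (a⁻¹ • f - 1) = LinearMap.ker (f - a • 1) := by
      rw [← LinearMap.ker_smul (f - a • 1) a⁻¹ (inv_ne_zero ha0), smul_sub, inv_smul_smul₀ ha0]
    have h1 := eq_one_of_plane h3 (g := a⁻¹ • f) (by rw [_root_.smul_pow, inv_pow, ha, inv_one, one_smul, hf])
      (by rw [LinearMap.det_smul, Module.finrank_fin_fun, inv_pow, ha, inv_one, one_mul, hfdet]) (by rw [hker]; omega)
    refine hG1 a (Matrix.toLinAlgEquiv'.injective ?_)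
    rw [map_smul, map_one, ← hfdef, ← h1, smul_inv_smul₀ ha0]
  have heig : ∀ a : F, a ^ 3 = 1 → ∃ v, f.HasEigenvector a v := by
    intro a ha
    by_contra hno
    push Not at hno
    have hkera : LinearMap.ker (f - a • 1) = ⊥ := eq_bot_iff.2 fun v hv => by
      by_contra hv0
      refine hno v ⟨Module.End.mem_eigenspace_iff.2 (sub_eq_zero.1 ?_), hv0⟩
      simpa using hv
    have hprod : (f - a • 1) * ((f - (a * ω) • 1) * (f - (a * ω ^ 2) • 1)) = 0 := by
      have h : (f - a • 1) * ((f - (a * ω) • 1) * (f - (a * ω ^ 2) • 1)) =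
          f ^ 3 - (a * (1 + ω + ω ^ 2)) • f ^ 2 + (a ^ 2 * (ω * (1 + ω + ω ^ 2))) • f - (a ^ 3 * ω ^ 3) • 1 := by
        simp only [sub_mul, mul_sub, smul_mul_assoc, mul_smul_comm, one_mul, mul_one, smul_smul, pow_succ, pow_zero]
        module
      rw [h, hsum, hf, ha, hω3]; simp
    have h2 : (f - (a * ω) • 1) * (f - (a * ω ^ 2) • 1) = 0 := LinearMap.ext fun v => by
      have : (f - a • 1) (((f - (a * ω) • 1) * (f - (a * ω ^ 2) • 1)) v) = 0 := LinearMap.congr_fun hprod v
      exact (LinearMap.ker_eq_bot'.1 hkera) _ this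
    have hrange : LinearMap.range (f - (a * ω ^ 2) • 1) ≤ LinearMap.ker (f - (a * ω) • 1) := by
      rintro _ ⟨v, rfl⟩; exact LinearMap.congr_fun h2 v
    have h4 := Submodule.finrank_mono hrange
    have h5 := LinearMap.finrank_range_add_finrank_ker (f - (a * ω ^ 2) • 1)
    have h6 := hplane (a * ω) (by rw [mul_pow, ha, hω3, one_mul])
    have h7 := hplane (a * ω ^ 2) (by rw [mul_pow, ha, ← pow_mul, show 2 * 3 = 3 * 2 from rfl, pow_mul, hω3]; simp)
    rw [Module.finrank_fin_fun] at h5
    omega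
  have hμ : Function.Injective (fun i : Fin 3 => ω ^ (i : ℕ)) := fun i j h => Fin.ext (hω.pow_inj i.2 j.2 h)
  choose v hv using fun i : Fin 3 => heig (ω ^ (i : ℕ)) (by rw [← pow_mul, mul_comm, pow_mul, hω3, one_pow])
  have hli : LinearIndependent F v := Module.End.eigenvectors_linearIndependent' f _ hμ v hv
  refine ⟨∑ i, v i, LinearMap.injective_iff_surjective.1 ((injective_iff_map_eq_zero _).2 fun c hc => ?_)⟩
  have hpow : ∀ (j : ℕ) (i : Fin 3), (G ^ j) *ᵥ v i = (ω ^ (i : ℕ)) ^ j • v i := by
    intro j i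
    induction j with
    | zero => simp
    | succ j ih =>
      rw [pow_succ, ← Matrix.mulVec_mulVec, show G *ᵥ v i = ω ^ (i : ℕ) • v i from (hv i).apply_eq_smul,
        Matrix.mulVec_smul, ih, smul_smul, ← pow_succ']
  rw [Fintype.linearCombination_apply] at hc
  simp only [Matrix.mulVec_sum, hpow, Finset.smul_sum, smul_smul] at hc
  rw [Finset.sum_comm] at hc
  simp only [← Finset.sum_smul] at hc
  exact Matrix.eq_zero_of_forall_index_sum_mul_pow_eq_zero hμ (Fintype.linearIndependent_iff.1 hli _ hc)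

/-- Elements of order 3 of PSL_3(q) and the normalizer of a Singer cycle. Here `T = PSL_n(F)` for a field `F` with `q = p^f` elements (`n ≥ 2`, `(n, q) ≠ (2, 2), (2, 3)`), `k` is a prime dividing `n`, `K` is a subalgebra of the `n × n` matrices that is a field of degree `k` over `F` (an extension-field structure F_{q^k} on `F^n`), and `H` is the subgroup of matrices of determinant 1 normalizing `K` — a subgroup of type GL_{n/k}(q^k) (maximal except in some small cases; maximality is not assumed); Ω is the set of cosets of `H` in `T`, so an element of `T` of prime order `r` (a matrix `x` of determinant 1 with `x^r` scalar, `x` not scalar) fixes a point of Ω when some conjugate of `x` by a matrix of determinant 1 normalizes `K`. Take `n = k = 3` and suppose 3 divides the index of `H`. Then every element of `T` of order 3 is conjugate in `T` into `H` if and only if `q ≡ 4, 7` or `8 (mod 9)`. -/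
theorem result {F : Type*} [Field F] [Fintype F] {p : ℕ} [Fact p.Prime] [CharP F p] {q : ℕ} (hq : Fintype.card F = q)
    (n : ℕ) (hn : n = 3) (k : ℕ) (hk : k.Prime) (hkn : k ∣ n) (K : Subalgebra F (Matrix (Fin n) (Fin n) F)) (hK : Cfsg.Geo.IsFieldSubalgebra k K) (hk3 : k = 3) (hΩ : 3 ∣ ((Cfsg.Geo.subalgebraNormalizer K).comap (Matrix.SpecialLinearGroup.toGL : Matrix.SpecialLinearGroup (Fin n) F →* GL (Fin n) F)).index) :
    (∀ x : Matrix.SpecialLinearGroup (Fin n) F,
      (∃ z : F, ((x ^ 3 : Matrix.SpecialLinearGroup (Fin n) F) : Matrix (Fin n) (Fin n) F) = z • (1 : Matrix (Fin n) (Fin n) F)) →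
      (∀ z : F, (x : Matrix (Fin n) (Fin n) F) ≠ z • (1 : Matrix (Fin n) (Fin n) F)) →
      ∃ P : Matrix.SpecialLinearGroup (Fin n) F, P⁻¹ * x * P ∈ ((Cfsg.Geo.subalgebraNormalizer K).comap (Matrix.SpecialLinearGroup.toGL : Matrix.SpecialLinearGroup (Fin n) F →* GL (Fin n) F))) ↔
    (q % 9 = 4 ∨ q % 9 = 7 ∨ q % 9 = 8) := by
  classical
  subst hn
  subst hk3
  subst hq
  have : Fact (Nat.Prime 3) := ⟨hk⟩
  have hq1 := Fintype.one_lt_card (α := F)
  set H := (Cfsg.Geo.subalgebraNormalizer K).comap (Matrix.SpecialLinearGroup.toGL : Matrix.SpecialLinearGroup (Fin 3) F →* GL (Fin 3) F)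
  have hmap : ∀ x P : Matrix.SpecialLinearGroup (Fin 3) F, P⁻¹ * x * P ∈ H ↔
      (Matrix.SpecialLinearGroup.toGL P)⁻¹ * Matrix.SpecialLinearGroup.toGL x * Matrix.SpecialLinearGroup.toGL P ∈
        Cfsg.Geo.subalgebraNormalizer K := fun x P => by rw [Subgroup.mem_comap, map_mul, map_mul, map_inv]
  rcases (show Fintype.card F % 3 = 0 ∨ Fintype.card F % 3 = 1 ∨ Fintype.card F % 3 = 2 by omega) with h0 | h1 | h2
  · -- characteristic three: a transvection is not conjugate into `H`
    refine iff_of_false (fun h => ?_) (by omega)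
    have hp3 : (3 : F) = 0 := by
      obtain ⟨e, hp, he⟩ := FiniteField.card F p
      have := (Nat.prime_dvd_prime_iff_eq hk hp).1 (hk.dvd_of_dvd_pow (he ▸ Nat.dvd_of_mod_eq_zero h0))
      have h3 : ((3 : ℕ) : F) = 0 := this ▸ CharP.cast_eq_zero F p
      exact_mod_cast h3
    set M : Matrix (Fin 3) (Fin 3) F := Matrix.transvection 0 1 1
    have hM3 : M ^ 3 = 1 := by
      simp only [pow_succ, pow_zero, one_mul, M, Matrix.transvection_mul_transvection_same _ _ (show (0 : Fin 3) ≠ 1 by decide)]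
      rw [show (1 : F) + 1 + 1 = 3 by norm_num, hp3, Matrix.transvection_zero]
    have hns : ∀ z : F, M ≠ z • 1 := fun z hz => by
      have := congrFun (congrFun hz 0) 1
      simp [M, Matrix.transvection] at this
    obtain ⟨X, hX⟩ : ∃ X : Matrix.SpecialLinearGroup (Fin 3) F, (X : Matrix (Fin 3) (Fin 3) F) = M :=
      ⟨⟨M, Matrix.det_transvection_of_ne 0 1 (by decide) 1⟩, rfl⟩
    obtain ⟨P, hP⟩ := h X ⟨1, by rw [Matrix.SpecialLinearGroup.coe_pow, hX, hM3, one_smul]⟩ (hX ▸ hns)
    rw [hmap] at hP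
    rw [← hX] at hM3 hns
    refine Elusive.SingerPrime.not_conj_mem hK (x := Matrix.SpecialLinearGroup.toGL X) hM3 hns (u := Pi.single 0 1) (v := Pi.single 2 1) ?_ ?_ ?_ ?_ _ hP
    · exact fun h0 => by simpa using congrFun h0 0
    · show (X : Matrix (Fin 3) (Fin 3) F) *ᵥ _ = _
      rw [hX]
      funext i; fin_cases i <;> simp [M, Matrix.transvection, Matrix.one_apply]
    · show (X : Matrix (Fin 3) (Fin 3) F) *ᵥ _ = _
      rw [hX]
      funext i; fin_cases i <;> simp [M, Matrix.transvection, Matrix.one_apply]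
    · exact fun c hc => by simpa using congrFun hc 2
  · have h3F : (3 : F) ≠ 0 := fun h3 => by
      obtain ⟨e, hp, he⟩ := FiniteField.card F p
      have h3' : ((3 : ℕ) : F) = 0 := by exact_mod_cast h3
      rw [CharP.cast_eq_zero_iff F p, Nat.prime_dvd_prime_iff_eq hp hk] at h3'
      have : 3 ∣ Fintype.card F := by rw [he, h3']; exact dvd_pow_self 3 e.pos.ne'
      omega
    have hd : 3 ∣ Nat.card Fˣ := by rw [Nat.card_units, Nat.card_eq_fintype_card]; omega
    by_cases h9 : Fintype.card F % 9 = 1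
    · refine iff_of_false (fun h => ?_) (by omega)
      obtain ⟨γ, hγ⟩ := IsCyclic.exists_generator (α := Fˣ)
      have hoγ := orderOf_eq_card_of_forall_mem_zpowers hγ
      set a : Fˣ := γ ^ (Nat.card Fˣ / 9)
      have ha : orderOf a = 9 := by
        have h9d : 9 ∣ Nat.card Fˣ := by rw [Nat.card_units, Nat.card_eq_fintype_card]; omega
        rw [orderOf_pow_of_dvd (Nat.div_pos (Nat.le_of_dvd Nat.card_pos h9d) (by norm_num)).ne'
          (hoγ.symm ▸ Nat.div_dvd_of_dvd h9d), hoγ, Nat.div_div_self h9d Nat.card_pos.ne']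
      set ζ : Fˣ := a ^ 6
      have hζ : orderOf ζ = 3 := by
        rw [orderOf_pow, ha]; norm_num
      have ha9 : (a : F) ^ 9 = 1 := by rw [← Units.val_pow_eq_pow_val, ← ha, pow_orderOf_eq_one, Units.val_one]
      let d : Fin 3 → F := ![1, 1, (ζ : F)]
      have hd3 : Matrix.diagonal d ^ 3 = 1 := by
        rw [Matrix.diagonal_pow, ← Matrix.diagonal_one]
        refine congrArg Matrix.diagonal (funext fun i => ?_)
        fin_cases i <;> simp [d, ← Units.val_pow_eq_pow_val, ← hζ, pow_orderOf_eq_one]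
      have hζ1 : (ζ : F) ≠ 1 := fun h => by
        rw [Units.val_eq_one] at h; rw [h, orderOf_one] at hζ; norm_num at hζ
      have hdns : ∀ z : F, Matrix.diagonal d ≠ z • 1 := fun z hz => by
        have e0 := congrFun (congrFun hz 0) 0
        have e2 := congrFun (congrFun hz 2) 2
        simp [d] at e0 e2
        exact hζ1 (e2.trans e0.symm)
      have hxdet : ((a : F) • Matrix.diagonal d).det = 1 := by
        rw [Matrix.det_smul, Matrix.det_diagonal, Fin.prod_univ_three]
        simp [d, ζ, ← pow_add, ha9]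
      obtain ⟨X, hX⟩ : ∃ X : Matrix.SpecialLinearGroup (Fin 3) F,
          (X : Matrix (Fin 3) (Fin 3) F) = (a : F) • Matrix.diagonal d := ⟨⟨_, hxdet⟩, rfl⟩
      obtain ⟨P, hP⟩ := h X
        ⟨(a : F) ^ 3, by rw [Matrix.SpecialLinearGroup.coe_pow, hX, _root_.smul_pow, hd3]⟩
        (fun z hz => hdns ((a : F)⁻¹ * z) (by rw [← smul_smul, ← hz, hX, inv_smul_smul₀ a.ne_zero]))
      rw [hmap] at hP
      let y : GL (Fin 3) F := Units.ofPowEqOne (Matrix.diagonal d) 3 hd3 (by norm_num)
      let S : GL (Fin 3) F := Units.map (Matrix.scalar (Fin 3) : F →+* Matrix (Fin 3) (Fin 3) F).toMonoidHom a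
      have hS : S ∈ Cfsg.Geo.subalgebraNormalizer K := MaxSub.mem_normalizer_iff_map_le.2 fun k hk => by
        rw [show (S : Matrix (Fin 3) (Fin 3) F) * k = k * S from (Matrix.scalar_commute (a : F) (fun r => Commute.all _ r) k).eq,
          mul_assoc, Units.mul_inv, mul_one]
        exact hk
      refine Elusive.SingerPrime.not_conj_mem hK (x := y) hd3 hdns (u := Pi.single 0 1) (v := Pi.single 1 1) ?_ ?_ ?_ ?_ _ (?_ :
        (Matrix.SpecialLinearGroup.toGL P)⁻¹ * y * Matrix.SpecialLinearGroup.toGL P ∈ Cfsg.Geo.subalgebraNormalizer K)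
      · exact fun h0 => by simpa using congrFun h0 0
      · show Matrix.diagonal d *ᵥ _ = _
        rw [Matrix.diagonal_mulVec_single]; simp [d]
      · show Matrix.diagonal d *ᵥ _ = _
        rw [Matrix.diagonal_mulVec_single]; simp [d]
      · exact fun c hc => by simpa using congrFun hc 1
      · have hSy : Matrix.SpecialLinearGroup.toGL X = S * y := by
          apply Units.ext
          show (X : Matrix (Fin 3) (Fin 3) F) = Matrix.scalar (Fin 3) (a : F) * Matrix.diagonal d
          rw [hX]
          rw [Matrix.scalar_apply, ← Matrix.smul_one_eq_diagonal, Matrix.smul_mul, one_mul]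
        have hSc : ∀ g : GL (Fin 3) F, g * S = S * g := fun g =>
          Units.ext (Matrix.scalar_commute (a : F) (fun r => Commute.all _ r) _).eq.symm
        rw [hSy, ← mul_assoc, hSc, mul_assoc S, mul_assoc S] at hP
        have := mul_mem (inv_mem hS) hP
        rwa [inv_mul_cancel_left] at this
    · refine iff_of_true (fun x ⟨z, hz⟩ hx' => ?_) (by omega)
      have hno9 : ∀ b : F, b ^ 9 = 1 → b ^ 3 = 1 := fun b hb => by
        have hb0 : b ≠ 0 := fun h => by rw [h] at hb; norm_num at hb
        have := pow_gcd_eq_one.2 ⟨hb, FiniteField.pow_card_sub_one_eq_one b hb0⟩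
        have hg : Nat.gcd 9 (Fintype.card F - 1) = 3 := by
          have h1' : Nat.gcd 9 (Fintype.card F - 1) ∣ 3 ^ 2 := Nat.gcd_dvd_left _ _
          obtain ⟨i, hi, he⟩ := (Nat.dvd_prime_pow hk).1 h1'
          have h3' : 3 ∣ Nat.gcd 9 (Fintype.card F - 1) := Nat.dvd_gcd (by norm_num) (by omega)
          have hr : Nat.gcd 9 (Fintype.card F - 1) ∣ Fintype.card F - 1 := Nat.gcd_dvd_right _ _
          rw [he] at h3' hr ⊢
          interval_cases i
          · norm_num at h3'
          · norm_num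
          · norm_num at hr
            omega
        rwa [hg] at this
      have hz3 : z ^ 3 = 1 := by
        have := (x ^ 3).det_coe
        rwa [hz, Matrix.det_smul, Matrix.det_one, mul_one, Fintype.card_fin] at this
      obtain ⟨b, hb⟩ : ∃ b, b ^ 3 = z := by
        by_contra hno
        push Not at hno
        obtain ⟨t, ht, hdet⟩ := Elusive.det_of_pow_eq_scalar hk hno
          ((Matrix.SpecialLinearGroup.coe_pow x 3).symm.trans hz)
        obtain rfl : t = 1 := by omega
        rw [x.det_coe] at hdet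
        norm_num at hdet
        exact hno 1 (by rw [one_pow, hdet])
      have hz1 : z = 1 := by rw [← hb]; exact hno9 b (by rw [show (9 : ℕ) = 3 * 3 from rfl, pow_mul, hb, hz3])
      subst hz1
      have hG : (x : Matrix (Fin 3) (Fin 3) F) ^ 3 = 1 := by rw [← Matrix.SpecialLinearGroup.coe_pow, hz, one_smul]
      obtain ⟨ω, hω⟩ := exists_prime_orderOf_dvd_card' (G := Fˣ) 3 hd
      refine Elusive.SingerPrime.conj_mem_of_cyclic hK one_ne_zero (g := Matrix.SpecialLinearGroup.toGL x)
        (one_smul F _).symm hG ?_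
      exact cyclic_three (IsPrimitiveRoot.coe_units_iff.2 (hω ▸ IsPrimitiveRoot.orderOf ω)) h3F hG x.det_coe hx'
  · -- `q ≡ 2 (mod 3)`
    have ho : orderOf ((Fintype.card F : ℕ) : ZMod 3) = 3 - 1 := by
      have : ((Fintype.card F : ℕ) : ZMod 3) = 2 := by rw [← ZMod.natCast_mod, h2]; rfl
      rw [this, orderOf_eq_prime (p := 2) (show (2 : ZMod 3) ^ 2 = 1 from rfl) (fun h => absurd (congrArg ZMod.val h) (by norm_num [ZMod.val_ofNat, ZMod.val_one]))]
    have h89 : Fintype.card F % 9 = 8 := by
      by_contra h8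
      obtain ⟨y, hy, hy3, hyc⟩ := Elusive.SingerPrime.exists_cyclic_mem hK
      have hy1 : y ≠ 1 := by
        rintro rfl
        obtain ⟨v, hv⟩ := hyc
        simp only [Units.val_one, one_pow, Matrix.one_mulVec] at hv
        obtain ⟨c, hc⟩ := hv (Pi.single 0 1)
        obtain ⟨c', hc'⟩ := hv (Pi.single 1 1)
        rw [Fintype.linearCombination_apply, ← Finset.sum_smul] at hc hc'
        have e0 := congrFun hc 0
        have e1 := congrFun hc 1
        have e2 := congrFun hc' 1
        simp only [Pi.smul_apply, smul_eq_mul, Pi.single_eq_same, ne_eq, one_ne_zero, not_false_eq_true, Pi.single_eq_of_ne] at e0 e1 e2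
        rcases mul_eq_zero.1 e1 with e | e
        · rw [e, zero_mul] at e0; exact zero_ne_one e0
        · rw [e, mul_zero] at e2; exact zero_ne_one e2
      have hdet : (y : Matrix (Fin 3) (Fin 3) F).det = 1 := by
        set u := (y : Matrix (Fin 3) (Fin 3) F).det
        have hu : u ^ 3 = 1 := by rw [← Matrix.det_pow, hy3, Matrix.det_one]
        have hu0 : u ≠ 0 := fun h => by rw [h] at hu; norm_num at hu
        have := pow_gcd_eq_one.2 ⟨hu, FiniteField.pow_card_sub_one_eq_one u hu0⟩
        rwa [(hk.coprime_iff_not_dvd.2 (show ¬ 3 ∣ Fintype.card F - 1 by omega)).gcd_eq_one, pow_one] at this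
      set Y : H := ⟨⟨(y : Matrix (Fin 3) (Fin 3) F), hdet⟩, Subgroup.mem_comap.2 (by
        rwa [show Matrix.SpecialLinearGroup.toGL (⟨(y : Matrix (Fin 3) (Fin 3) F), hdet⟩ : Matrix.SpecialLinearGroup (Fin 3) F) = y from Units.ext rfl])⟩
      have hY : orderOf Y = 3 := orderOf_eq_prime (Subtype.ext (Subtype.ext (by simpa using hy3)))
        (fun h => hy1 (Units.ext (congrArg (fun w : H => ((w.1 : Matrix.SpecialLinearGroup (Fin 3) F) : Matrix (Fin 3) (Fin 3) F)) h)))
      have h3H : 3 ∣ Nat.card H := by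
        have := orderOf_dvd_natCard Y
        rwa [hY] at this
      have h9 : 3 * 3 ∣ Nat.card (Matrix.SpecialLinearGroup (Fin 3) F) := H.card_mul_index ▸ Nat.mul_dvd_mul h3H hΩ
      have hSL := Linear.card_GL_eq_mul_card_SL (F := F) (ι := Fin 3)
      rw [Linear.card_GL_factor, Nat.card_units, Nat.card_eq_fintype_card (α := F)] at hSL
      have h9' : 9 ∣ Fintype.card F ^ (3 * (3 - 1) / 2) * ∏ i : Fin 3, (Fintype.card F ^ (3 - (i : ℕ)) - 1) := by
        rw [hSL]; exact dvd_mul_of_dvd_right h9 _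
      rw [← ZMod.natCast_eq_zero_iff, Nat.cast_mul, Nat.cast_pow, Nat.cast_prod, Fin.prod_univ_three] at h9'
      simp only [Fin.val_zero, Fin.val_one, Fin.val_two, Nat.cast_sub (Nat.one_le_pow _ _ (show 0 < Fintype.card F by omega)),
        Nat.cast_pow, Nat.cast_one] at h9'
      rw [← ZMod.natCast_mod (Fintype.card F) 9] at h9'
      rcases (show Fintype.card F % 9 = 2 ∨ Fintype.card F % 9 = 5 by omega) with e | e <;> rw [e] at h9' <;> revert h9' <;> decide
    refine iff_of_true (fun x ⟨z, hz⟩ hx' => ?_) (Or.inr (Or.inr h89))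
    rcases Elusive.order_reduction hk (by norm_num) hz hx' with ⟨w, g, hw, hxg, hg, hg1⟩ | hbad
    swap
    · obtain ⟨b, hb⟩ := Elusive.exists_pow_eq_of_not_dvd hk (show ¬ 3 ∣ Fintype.card F - 1 by omega) z
      exact absurd hb (hbad b)
    have hG : (LinearMap.toMatrix' g) ^ 3 = 1 := by
      show (LinearMap.toMatrixAlgEquiv' g) ^ 3 = 1
      rw [← map_pow, hg, map_one]
    have hG1 : LinearMap.toMatrix' g ≠ 1 := fun h1 => hg1 (LinearMap.toMatrix'.injective (by
      rw [h1, LinearMap.toMatrix'_one]))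
    refine Elusive.SingerPrime.conj_mem_of_cyclic hK hw (g := Units.ofPowEqOne _ 3 hG (by norm_num)) ?_ hG
      (Elusive.SingerPrime.cyclic_of_order (by norm_num) ho hG hG1)
    apply Matrix.toLin'.injective
    show _ = Matrix.toLin' (w • LinearMap.toMatrix' g)
    rw [map_smul, Matrix.toLin'_toMatrix', hxg]

end Cfsg.Agent.S5971
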