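import Cfsg.Statements.S5972
import Cfsg.Agent.Elusive.OrthOdd
import Cfsg.Agent.Elusive.OrthInvol

set_option autoImplicit false
open scoped MatrixGroups
open Cfsg

namespace Cfsg.Agent.S5972

open QuadraticMap Submodule Module Cfsg.Agent.Classical Cfsg.Agent.Elusive Cfsg.Agent.Elusive.OrthTS

/-- The criterion for `r = 2`. -/
theorem two_iff {F : Type*} [Field F] [Fintype F] (hodd : Odd (Fintype.card F)) {d m : ℕ} (hd : 3 ≤ d) (hmd : m ≤ d) :
    (∀ x : GL (Unit ⊕ (Fin d ⊕ Fin d)) F, x ∈ Cfsg.Geo.omegaGL (Cfsg.quadFormOdd d F) → orderOf x = 2 →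
      ∃ W : Submodule F (Unit ⊕ (Fin d ⊕ Fin d) → F), finrank F ↥W = m ∧ (∀ w ∈ W, Cfsg.quadFormOdd d F w = 0) ∧
        W.map (Matrix.toLin' (x : Matrix (Unit ⊕ (Fin d ⊕ Fin d)) (Unit ⊕ (Fin d ⊕ Fin d)) F)) ≤ W) ↔
    (m < d ∨ Fintype.card F % 4 = 1) := by
  classical
  have h2 : (2 : F) ≠ 0 := two_ne_zero_of_odd (by rw [Nat.card_eq_fintype_card]; exact hodd)
  have hQf : ⇑(oddQF d F) = Cfsg.quadFormOdd d F := funext (oddQF_apply d)
  have hQ := PrimeSO.oddQF_polar_nondegenerate h2 d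
  have hV : finrank F (Unit ⊕ (Fin d ⊕ Fin d) → F) = 2 * d + 1 := by
    rw [Module.finrank_pi, Fintype.card_sum, Fintype.card_unit, Fintype.card_sum, Fintype.card_fin]; omega
  have hne : OrthGen.NotExceptional (oddQF d F) := Forms.notExceptional_of (Or.inr (by omega))
  constructor
  · intro h
    refine or_iff_not_imp_left.2 fun hlt => ?_
    obtain rfl : m = d := by omega
    by_contra hq
    have hsq : ¬ IsSquare (-1 : F) := by
      rw [FiniteField.isSquare_neg_one_iff]
      obtain ⟨w, hw⟩ := hodd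
      omega
    let c : Fin 2 → (Unit ⊕ (Fin m ⊕ Fin m) → F) := fun k =>
      Sum.elim (fun _ => (0 : F)) (Sum.elim (Pi.single (Fin.castLE (by omega) k) 1) (Pi.single (Fin.castLE (by omega) k) 1))
    have hQc : ∀ k, oddQF m F (c k) = 1 := fun k => by
      rw [oddQF_apply]; simp [c, Cfsg.quadFormOdd, Pi.single_apply]
    have hco : ∀ k l, k ≠ l → polar (oddQF m F) (c k) (c l) = 0 := fun k l hkl => by
      have hne' : Fin.castLE (show 2 ≤ m by omega) k ≠ Fin.castLE (by omega) l := fun h => hkl (Fin.castLE_injective _ h)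
      simp [polar, oddQF_apply, c, Cfsg.quadFormOdd, mul_add, Finset.sum_add_distrib, Pi.single_apply, hne', Ne.symm hne']
    obtain ⟨g, hg, hiff⟩ := Forms.exists_orthProd hQ.1 hne c (fun k => by rw [hQc]; exact one_ne_zero) hco
    have hgc : ∀ k, g.1 (c k) = - c k := fun k => by
      rw [hg, Finset.sum_eq_single k (fun l _ hl => by rw [hco l k hl, mul_zero, zero_smul])
        (fun h' => absurd (Finset.mem_univ _) h'), polar_self, hQc, inv_one, one_mul, two_nsmul, one_add_one_eq_two,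
        two_smul]
      abel
    have hgg : ∀ v, g.1 (g.1 v) = v := fun v => by
      conv_lhs => arg 2; rw [hg v]
      rw [map_sub, map_sum, hg v]
      simp only [map_smul, hgc, smul_neg, Finset.sum_neg_distrib]
      abel
    let x := Elusive25.glOf (oddQF m F) g
    have hxv : ∀ v, Matrix.toLin' (x : Matrix (Unit ⊕ (Fin m ⊕ Fin m)) (Unit ⊕ (Fin m ⊕ Fin m)) F) v = g.1 v :=
      fun v => by rw [Matrix.toLin'_apply]; exact Elusive25.glOf_mulVec _ g v
    have hc0 : ∀ k, c k ≠ 0 := fun k h' => one_ne_zero ((hQc k).symm.trans (by rw [h', QuadraticMap.map_zero]))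
    obtain ⟨W, hWd, hWQ, hW⟩ := h x (hQf ▸ Elusive25.glOf_mem_omegaGL _ (hiff.2 ⟨by simp, by simp [hQc]⟩)) (by
      refine orderOf_eq_prime ?_ fun h1 => hc0 0 ?_
      · rw [← map_pow, show g ^ 2 = 1 from Subtype.ext (LinearEquiv.ext fun v => by rw [pow_two]; exact hgg v), map_one]
      · have h1' := hxv (c 0)
        rw [h1, Units.val_one, Matrix.toLin'_one, LinearMap.id_apply, hgc, eq_neg_iff_add_eq_zero, ← two_smul F] at h1'
        exact (smul_eq_zero.1 h1').resolve_left h2)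
    set f : Module.End F (Unit ⊕ (Fin m ⊕ Fin m) → F) :=
      Matrix.toLin' (x : Matrix (Unit ⊕ (Fin m ⊕ Fin m)) (Unit ⊕ (Fin m ⊕ Fin m)) F)
    obtain ⟨ho, hN, -, -, -, hsum⟩ := invol_split (f := f) h2 hQ (fun v => by rw [hxv]; exact g.2 v)
      (fun v => by rw [hxv, hxv, hgg])
    have hfix : W ≤ LinearMap.ker (f - 1) := fun w hw => by
      have hw' : w - g.1 w ∈ W := sub_mem hw (hxv w ▸ hW ⟨w, hw, rfl⟩)
      have h0 := hWQ _ hw'
      set a := polar (oddQF m F) (c 0) w
      set b := polar (oddQF m F) (c 1) w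
      have hd' : w - g.1 w = a • c 0 + b • c 1 := by
        rw [hg, sub_sub_cancel, Fin.sum_univ_two, hQc, hQc, inv_one, one_mul, one_mul]
      have hp : polar (oddQF m F) (a • c 0) (b • c 1) = 0 := by
        rw [polar_smul_left, polar_smul_right, hco 0 1 (by decide), smul_zero, smul_zero]
      rw [← oddQF_apply, hd', QuadraticMap.map_add (oddQF m F), QuadraticMap.map_smul, QuadraticMap.map_smul,
        hQc, hQc, hp, add_zero, smul_eq_mul, smul_eq_mul, mul_one, mul_one] at h0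
      rw [mem_ker_sub_one, hxv]
      refine (sub_eq_zero.1 ?_).symm
      rw [hd']
      by_cases hb : b = 0
      · rw [hb, mul_zero, add_zero] at h0
        rw [hb, mul_self_eq_zero.1 h0, zero_smul, zero_smul, add_zero]
      · exact absurd ⟨a / b, by field_simp; linear_combination -h0⟩ hsq
    have hle := two_mul_finrank_le hfix hN (isoOn_of_singular fun w hw => (oddQF_apply m w).trans (hWQ w hw))
    have h2le : 2 ≤ finrank F (LinearMap.ker (f + 1)) := by
      have hli : LinearIndependent F c := Forms.linearIndependent_of_orthogonal (polarBilin (oddQF m F)) hco fun k => by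
        rw [polarBilin_apply_apply, polar_self, hQc, two_nsmul, one_add_one_eq_two]; exact h2
      have := Submodule.finrank_mono (span_le.2 (Set.range_subset_iff.2 fun k => mem_ker_add_one.2 (by
        rw [hxv, hgc])) : span F (Set.range c) ≤ LinearMap.ker (f + 1))
      rwa [finrank_span_eq_card hli, Fintype.card_fin] at this
    omega
  · intro hcond x hx hxo
    set f : Module.End F (Unit ⊕ (Fin d ⊕ Fin d) → F) :=
      Matrix.toLin' (x : Matrix (Unit ⊕ (Fin d ⊕ Fin d)) (Unit ⊕ (Fin d ⊕ Fin d)) F)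
    have hf2 : f ^ 2 = 1 := OrthTS.end_pow_of_pow (hxo ▸ pow_orderOf_eq_one x)
    have hff : ∀ v, f (f v) = v := fun v => by rw [← Module.End.mul_apply, ← pow_two, hf2, Module.End.one_apply]
    have hfQ : ∀ v, oddQF d F (f v) = oddQF d F v := fun v => by
      rw [oddQF_apply, oddQF_apply, Matrix.toLin'_apply]; exact Elusive25.apply_of_mem_omegaGL hx v
    obtain ⟨ho, hN, hN', -, hdis, hsum⟩ := invol_split h2 hQ hfQ hff
    let g : OQ (oddQF d F) := ⟨LinearEquiv.ofLinearMap f f (LinearMap.ext hff) (LinearMap.ext hff), hfQ⟩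
    have hgc : g ∈ commutator (OQ (oddQF d F)) := by
      rw [← hQf] at hx
      obtain ⟨y, hy, rfl⟩ := hx
      exact (Forms.exists_mem_Omega_iff (oddQF d F) fun v => Matrix.toLin'_apply _ v).1 ⟨y, hy, rfl⟩
    obtain ⟨n, hn', c, hcm, hco, hc1⟩ := exists_neg_family h2 hQ hne g hgc hff
    have hn : finrank F (LinearMap.ker (f + 1)) = 2 * n := hn'
    rw [hV, hn] at hsum
    obtain ⟨e₁, e₂, X, hX, hXQ, hXd, hem, he1⟩ : ∃ e₁ e₂, ∃ X ≤ LinearMap.ker (f + 1),
        (∀ v ∈ X, oddQF d F v = 0) ∧ finrank F X = e₂ ∧ e₁ + e₂ = m ∧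
        (e₁ = 0 ∨ 2 * e₁ + 1 ≤ finrank F (LinearMap.ker (f - 1))) := by
      rcases hcond with hlt | hq
      · obtain ⟨X, hX, hXQ, hXd⟩ := exists_singular hN' (e := min m (n - 1)) (by rw [hn]; omega)
        exact ⟨m - min m (n - 1), min m (n - 1), X, hX, hXQ, hXd, by omega, Or.inr (by omega)⟩
      · obtain ⟨ω, hω⟩ := FiniteField.isSquare_neg_one_iff.2 (show Fintype.card F % 4 ≠ 3 by omega)
        obtain ⟨X, hXc, hXQ, hXd⟩ := exists_half h2 hω.symm c hco hc1
        let b := Module.finBasis F X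
        have hk : min m n ≤ finrank F X := by omega
        refine ⟨m - min m n, min m n, span F (Set.range fun l : Fin (min m n) => (b (Fin.castLE hk l) : Unit ⊕ (Fin d ⊕ Fin d) → F)),
          span_le.2 ?_, fun v hv => hXQ v ?_, ?_, by omega, Or.inr (by omega)⟩
        · rintro _ ⟨l, rfl⟩; exact (hXc.trans (span_le.2 (Set.range_subset_iff.2 hcm))) (b _).2
        · exact (span_le (p := X)).2 (Set.range_subset_iff.2 fun l => (b (Fin.castLE hk l)).2) hv
        · exact (finrank_span_eq_card ((b.linearIndependent.map' X.subtype X.ker_subtype).comp _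
            (Fin.castLE_injective hk))).trans (Fintype.card_fin _)
    obtain ⟨E, hE, hEQ, hEd⟩ := exists_singular hN he1
    refine ⟨E ⊔ X, by rw [finrank_eq_add_of_disjoint rfl (hdis.mono hE hX), hEd, hXd, hem],
      fun w hw => (oddQF_apply d w).symm.trans
        (singular_sup hEQ hXQ (fun u hu v hv => ho u (hE hu) v (hX hv)) w hw),
      OrthTS.map_le_self fun v hv => ?_⟩
    obtain ⟨a, ha, b, hb, rfl⟩ := mem_sup.1 hv
    rw [map_add, mem_ker_sub_one.1 (hE ha), mem_ker_add_one.1 (hX hb)]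
    exact add_mem (mem_sup_left ha) (mem_sup_right (X.neg_mem hb))

/-- Elements of prime order of Ω_n(q), n = 2d+1 ≥ 7, q odd, with no fixed totally singular `m`-space. Here `T = Ω_n(q)` is realised as the commutator subgroup of the isometry group of the quadratic form `x₀² + Σ xᵢyᵢ` over the field `F` with `q` elements (it has trivial centre, so its elements of prime order `r` are used directly); let `1 ≤ m ≤ d` and let `r` be a prime dividing the number of totally singular `m`-spaces. For `r ≠ p` let `i` be the multiplicative order of `q` modulo `r`, `c = i` for `i` even and `c = 2i` for `i` odd, and write `k = n mod c`, `ℓ = m mod i`, `n' = ⌊n/i⌋`, `m' = ⌊m/i⌋`, `t = (r−1)/i`. Then every element of `T` of order `r` fixes some totally singular `m`-space if and only if either (i) `r = 2` and (`m < (n−1)/2` or `q ≡ 1 (mod 4)`); or (ii) `r ≠ p` is odd, `i ≤ m`, `k > 2ℓ`, and (`i` is odd or `n' − 2m' ≥ t`). -/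
theorem result {F : Type*} [Field F] [Fintype F] {p : ℕ} [Fact p.Prime] [CharP F p] {q : ℕ} (hq : Fintype.card F = q) (hqodd : Odd q)
    (d m : ℕ) (hd : 3 ≤ d) (hm : 1 ≤ m) (hmd : m ≤ d)
    (r : ℕ) [Fact r.Prime]
    (hrΩ : r ∣ Nat.card {W : Submodule F (Unit ⊕ (Fin d ⊕ Fin d) → F) // Module.finrank F ↥W = m ∧ (∀ w ∈ W, Cfsg.quadFormOdd d F w = 0)})
    (i c : ℕ) (hi : i = orderOf (q : ZMod r)) (hc : c = if Even i then i else 2 * i) :
    (∀ x : GL (Unit ⊕ (Fin d ⊕ Fin d)) F, x ∈ Cfsg.Geo.omegaGL (Cfsg.quadFormOdd d F) → orderOf x = r →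
      ∃ W : Submodule F (Unit ⊕ (Fin d ⊕ Fin d) → F), Module.finrank F ↥W = m ∧ (∀ w ∈ W, Cfsg.quadFormOdd d F w = 0) ∧
        W.map (Matrix.toLin' (x : Matrix (Unit ⊕ (Fin d ⊕ Fin d)) (Unit ⊕ (Fin d ⊕ Fin d)) F)) ≤ W) ↔
    ((r = 2 ∧ (m < d ∨ q % 4 = 1)) ∨
     (r ≠ p ∧ 2 < r ∧ i ≤ m ∧ 2 * (m % i) < (2 * d + 1) % c ∧ (Odd i ∨ (r - 1) / i + 2 * (m / i) ≤ (2 * d + 1) / i))) := by
  subst hq
  classical
  obtain ⟨hrq, j₀, hj₁, hj₂, hj₃⟩ := OrthTS.dvd_card_odd hmd hrΩ
  have hrp : r ≠ p := by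
    rintro rfl
    obtain ⟨e, -, he⟩ := FiniteField.card F r
    exact hrq (by rw [he]; exact dvd_pow_self r e.pos.ne')
  have h2 : (2 : F) ≠ 0 := two_ne_zero_of_odd (by rw [Nat.card_eq_fintype_card]; exact hqodd)
  by_cases hr2 : r = 2
  · subst hr2
    rw [two_iff hqodd hd hmd]
    exact ⟨fun h => Or.inl ⟨rfl, h⟩, fun h => h.elim And.right fun h' => absurd h'.2.1 (lt_irrefl _)⟩
  · rw [OrthTS.odd_prime_iff h2 hmd hr2 hrp hrq hi hc hj₁ hj₂ hj₃]
    have h3 : 2 < r := lt_of_le_of_ne (Fact.out : r.Prime).two_le (Ne.symm hr2)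
    exact ⟨fun h => Or.inr ⟨hrp, h3, h⟩, fun h => (h.resolve_left fun h' => hr2 h'.1).2.2⟩

end Cfsg.Agent.S5972
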