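import Cfsg.Statements.S5973
import Cfsg.Agent.Elusive.OrthPlusTwo

set_option autoImplicit false
open scoped MatrixGroups
open Cfsg

namespace Cfsg.Agent.S5973

open QuadraticMap Submodule Module Cfsg.Agent.Classical Cfsg.Agent.Elusive

/-- Elements of prime order of PΩ⁺_n(q), n = 2d ≥ 8, with no fixed totally singular `m`-space, `m < n/2`. Here `T = PΩ⁺_n(q)` is realised through `Ω⁺_n(q)`, the commutator subgroup of the isometry group of the quadratic form `Σ xᵢyᵢ` over the field `F` with `q` elements; an element of `T` of prime order `r` is an element `x` of `Ω⁺_n(q)` with `x^r` scalar and `x` not scalar. Let `1 ≤ m < d` and let `r` be a prime dividing the number of totally singular `m`-spaces. For `r ≠ p` let `i` be the multiplicative order of `q` modulo `r`, `c = i` for `i` even and `c = 2i` for `i` odd, and write `k = n mod c`, `ℓ = m mod i`, `n' = ⌊n/i⌋`, `m' = ⌊m/i⌋`, `t = (r−1)/i`. Then every element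 of `T` of order `r` fixes some totally singular `m`-space if and only if one of: (i) `r = 2 ≠ p` and either `q ≡ 1 (mod 4)`, or `q ≡ 3 (mod 4)`, `m ≤ n/2 − 2` and (`m` even or `n ≡ 2 (mod 4)`); (ii) `r ≠ p` odd, `i` odd, `i ≤ m` and `k ≥ 2ℓ`; (iii) `r ≠ p` odd, `i` even, `i ≤ m`, `n' − 2m' ≥ t`, and one of: `i ≥ 2ℓ`, `k = 0`, `n/i` odd and `n' − 2m' > t`; or `k ≥ 2ℓ` and `n'` even; or `k > 2ℓ` and `n'` odd. -/
theorem result {F : Type*} [Field F] [Fintype F] {p : ℕ} [Fact p.Prime] [CharP F p] {q : ℕ} (hq : Fintype.card F = q)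
    (d m : ℕ) (hd : 4 ≤ d) (hm : 1 ≤ m) (hmd : m < d)
    (r : ℕ) [Fact r.Prime]
    (hrΩ : r ∣ Nat.card {W : Submodule F (Fin d ⊕ Fin d → F) // Module.finrank F ↥W = m ∧ (∀ w ∈ W, Cfsg.quadFormPlus d F w = 0)})
    (i c : ℕ) (hi : i = orderOf (q : ZMod r)) (hc : c = if Even i then i else 2 * i) :
    (∀ x : GL (Fin d ⊕ Fin d) F, x ∈ Cfsg.Geo.omegaGL (Cfsg.quadFormPlus d F) →
      (∃ z : F, ((x ^ r : GL (Fin d ⊕ Fin d) F) : Matrix (Fin d ⊕ Fin d) (Fin d ⊕ Fin d) F) = z • (1 : Matrix (Fin d ⊕ Fin d) (Fin d ⊕ Fin d) F)) →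
      (∀ z : F, (x : Matrix (Fin d ⊕ Fin d) (Fin d ⊕ Fin d) F) ≠ z • (1 : Matrix (Fin d ⊕ Fin d) (Fin d ⊕ Fin d) F)) →
      ∃ W : Submodule F (Fin d ⊕ Fin d → F), Module.finrank F ↥W = m ∧ (∀ w ∈ W, Cfsg.quadFormPlus d F w = 0) ∧
        W.map (Matrix.toLin' (x : Matrix (Fin d ⊕ Fin d) (Fin d ⊕ Fin d) F)) ≤ W) ↔
    ((r = 2 ∧ p ≠ 2 ∧ (q % 4 = 1 ∨ (q % 4 = 3 ∧ m + 2 ≤ d ∧ (Even m ∨ (2 * d) % 4 = 2)))) ∨
     (r ≠ p ∧ 2 < r ∧ Odd i ∧ i ≤ m ∧ 2 * (m % i) ≤ (2 * d) % c) ∨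
     (r ≠ p ∧ 2 < r ∧ Even i ∧ i ≤ m ∧ (r - 1) / i + 2 * (m / i) ≤ (2 * d) / i ∧
       ((2 * (m % i) ≤ i ∧ (2 * d) % c = 0 ∧ Odd ((2 * d) / i) ∧ (r - 1) / i + 2 * (m / i) < (2 * d) / i) ∨
        (2 * (m % i) ≤ (2 * d) % c ∧ Even ((2 * d) / i)) ∨
        (2 * (m % i) < (2 * d) % c ∧ Odd ((2 * d) / i))))) := by
  subst hq
  classical
  obtain ⟨hrq, j₀, hj₁, hj₂, hj₃⟩ := OrthTS.dvd_card_plus hmd hrΩ
  obtain ⟨e, hp, he⟩ := FiniteField.card F p
  have hrp : r ≠ p := by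
    rintro rfl
    exact hrq (by rw [he]; exact dvd_pow_self r e.pos.ne')
  have hr := (Fact.out : r.Prime)
  have hQf : ⇑(plusQF d F) = Cfsg.quadFormPlus d F := funext (plusQF_apply d)
  by_cases hr2 : r = 2
  · subst hr2
    have hp2 : p ≠ 2 := fun h => hrp h.symm
    have hodd : Odd (Fintype.card F) := by rw [he]; exact (hp.odd_of_ne_two hp2).pow
    have hd2 : (2 * d) % 4 = 2 ↔ Odd d := by rw [Nat.odd_iff]; omega
    rw [OrthTS.two_iff_plus hodd hd hmd]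
    refine ⟨fun h => Or.inl ⟨rfl, hp2, by rw [hd2]; exact h⟩, ?_⟩
    rintro (⟨-, -, h⟩ | ⟨-, h, -⟩ | ⟨-, h, -⟩)
    · rwa [hd2] at h
    · omega
    · omega
  have h3 : 2 < r := lt_of_le_of_ne hr.two_le (Ne.symm hr2)
  have hrodd := hr.odd_of_ne_two hr2
  have key := OrthTS.odd_prime_iff_plus (p := p) (r := r) (i := i) hmd hr2 hrp hrq hi hc hj₁ hj₂ hj₃
  let v₀ : Fin d ⊕ Fin d → F := Sum.elim (Pi.single ⟨0, by omega⟩ 1) (Pi.single ⟨0, by omega⟩ 1)
  have hv₀ : plusQF d F v₀ = 1 := by rw [plusQF_apply]; simp [v₀, Cfsg.quadFormPlus, Pi.single_apply]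
  -- a scalar isometry has square one
  have hsc : ∀ (g : Module.End F (Fin d ⊕ Fin d → F)) (z : F), (∀ v, plusQF d F (g v) = plusQF d F v) →
      g = z • 1 → z * z = 1 := fun g z hg hgz => by
    have h := hg v₀
    rw [hgz, LinearMap.smul_apply, Module.End.one_apply, QuadraticMap.map_smul, hv₀, smul_eq_mul, mul_one] at h
    exact h
  have hiff : (∀ x : GL (Fin d ⊕ Fin d) F, x ∈ Cfsg.Geo.omegaGL (Cfsg.quadFormPlus d F) →
      (∃ z : F, ((x ^ r : GL (Fin d ⊕ Fin d) F) : Matrix (Fin d ⊕ Fin d) (Fin d ⊕ Fin d) F) = z • (1 : Matrix (Fin d ⊕ Fin d) (Fin d ⊕ Fin d) F)) →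
      (∀ z : F, (x : Matrix (Fin d ⊕ Fin d) (Fin d ⊕ Fin d) F) ≠ z • (1 : Matrix (Fin d ⊕ Fin d) (Fin d ⊕ Fin d) F)) →
      ∃ W : Submodule F (Fin d ⊕ Fin d → F), Module.finrank F ↥W = m ∧ (∀ w ∈ W, Cfsg.quadFormPlus d F w = 0) ∧
        W.map (Matrix.toLin' (x : Matrix (Fin d ⊕ Fin d) (Fin d ⊕ Fin d) F)) ≤ W) ↔
      (∀ f : Module.End F (Fin d ⊕ Fin d → F), f ^ r = 1 → f ≠ 1 → (∀ v, plusQF d F (f v) = plusQF d F v) →
        ∃ W : Submodule F (Fin d ⊕ Fin d → F), finrank F ↥W = m ∧ (∀ w ∈ W, plusQF d F w = 0) ∧ W.map f ≤ W) := by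
    constructor
    · intro h f hf hf1 hfQ
      obtain ⟨x, hx, hxo, hxf⟩ := OrthTS.exists_omega_of_isometry (PrimeSO.plusQF_polar_nondegenerate (F := F) d).1
        (Forms.notExceptional_plusQF (Or.inr (by omega))) hr2 hf hf1 hfQ
      rw [hQf] at hx
      have hxr : x ^ r = 1 := hxo ▸ pow_orderOf_eq_one x
      obtain ⟨W, h1, h2, h3'⟩ := h x hx ⟨1, by rw [hxr, Units.val_one, one_smul]⟩ fun z hz => by
        have hfz : f = z • 1 := by
          rw [← hxf, hz, map_smul, Matrix.toLin'_one]; rfl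
        have hzz := hsc f z hfQ hfz
        obtain ⟨w, hw⟩ := hrodd
        rw [hfz, smul_pow, one_pow, hw, pow_succ, pow_mul, _root_.sq, hzz, one_pow, one_mul, ← hfz] at hf
        exact hf1 hf
      rw [hxf] at h3'
      exact ⟨W, h1, fun w hw => (plusQF_apply d w).trans (h2 w hw), h3'⟩
    · intro h x hx ⟨z, hz⟩ hns
      set g : Module.End F (Fin d ⊕ Fin d → F) := Matrix.toLin' (x : Matrix (Fin d ⊕ Fin d) (Fin d ⊕ Fin d) F) with hg
      have hgQ : ∀ v, plusQF d F (g v) = plusQF d F v := fun v => by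
        rw [plusQF_apply, plusQF_apply, hg, Matrix.toLin'_apply]; exact Elusive25.apply_of_mem_omegaGL hx v
      have hgk : ∀ k v, plusQF d F ((g ^ k) v) = plusQF d F v := fun k => by
        induction k with
        | zero => simp
        | succ k ih => intro v; rw [pow_succ', Module.End.mul_apply, hgQ, ih]
      have hgr : g ^ r = z • 1 := by
        rw [hg, ← Matrix.toLin'_pow, ← Units.val_pow_eq_pow_val, hz, map_smul, Matrix.toLin'_one]; rfl
      have hzz := hsc _ z (hgk r) hgr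
      obtain ⟨W, h1, h2, h3'⟩ := h (z • g) (by
          obtain ⟨w, hw⟩ := hrodd
          rw [smul_pow, hgr, smul_smul, ← pow_succ, hw, show 2 * w + 1 + 1 = 2 * (w + 1) by ring, pow_mul, _root_.sq, hzz,
            one_pow, one_smul])
        (fun h1 => hns z (Matrix.toLin'.injective (by
          rw [map_smul, Matrix.toLin'_one, ← hg]
          conv_lhs => rw [← one_smul F g, ← hzz, mul_smul, h1]
          rfl)))
        (fun v => by rw [LinearMap.smul_apply, QuadraticMap.map_smul, hgQ, hzz, one_smul])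
      refine ⟨W, h1, fun w hw => (plusQF_apply d w).symm.trans (h2 w hw), OrthTS.map_le_self fun v hv => ?_⟩
      have hv' := W.smul_mem z (h3' ⟨v, hv, rfl⟩)
      rwa [LinearMap.smul_apply, smul_smul, hzz, one_smul] at hv'
  rw [hiff, key]
  constructor
  · rintro (h | h)
    · exact Or.inr (Or.inl ⟨hrp, h3, h⟩)
    · exact Or.inr (Or.inr ⟨hrp, h3, h⟩)
  · rintro (⟨h, -⟩ | ⟨-, -, h⟩ | ⟨-, -, h⟩)
    · exact absurd h hr2
    · exact Or.inl h
    · exact Or.inr h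

end Cfsg.Agent.S5973
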