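import Cfsg.Statements.S5974
import Cfsg.Agent.Elusive.OrthHypTwo

set_option autoImplicit false
open scoped MatrixGroups
open Cfsg

namespace Cfsg.Agent.S5974

open QuadraticMap Submodule Module Cfsg.Agent.Classical Cfsg.Agent.Elusive

/-- Elements of prime order of PΩ⁺_n(q), n = 2d ≥ 8, with no fixed nondegenerate hyperbolic `m`-space. Here `T = PΩ⁺_n(q)` is realised through `Ω⁺_n(q)`, the commutator subgroup of the isometry group of `Q = Σ xᵢyᵢ` over the field `F` with `q` elements; an element of `T` of prime order `r` is an element `x` of `Ω⁺_n(q)` with `x^r` scalar and `x` not scalar. A hyperbolic `m`-space is a subspace `W` of even dimension `m` on which the polar form of `Q` is nondegenerate and which contains a totally singular subspace of dimension `m/2`. Let `m` be even with `2 ≤ m < n/2`, and let `r` be a prime dividing the number of hyperbolic `m`-spaces, with `r = 2` or `r ≠ p`. For `r ≠ p` let `i` be the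 multiplicative order of `q` modulo `r`, `c = i` for `i` even and `c = 2i` for `i` odd, and write `k = n mod c`, `ℓ' = m mod c`. Then every element of `T` of order `r` fixes some hyperbolic `m`-space if and only if one of: (i) `r = 2` and (`n ≡ 2 (mod 4)`, or `m ≡ 0 (mod 4)`, or `q ≡ 1 (mod 4)`); (ii) `r ≠ p` odd, `i` odd, `c ≤ m` and `k ≥ ℓ'`; (iii) `r ≠ p` odd, `i` even, and either `k = 0` and (`n/i` odd, or `ℓ' = 0` and `m/i` even), or `i ≤ m` and (`k > ℓ' > 0`, or `k = ℓ' > 0` and `(n + m − 2k)/i` even, or `k > ℓ' = 0` and `m/i` even). -/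
theorem result {F : Type*} [Field F] [Fintype F] {p : ℕ} [Fact p.Prime] [CharP F p] {q : ℕ} (hq : Fintype.card F = q)
    (d m : ℕ) (hd : 4 ≤ d) (hm : 2 ≤ m) (hme : Even m) (hmd : m < d)
    (r : ℕ) [Fact r.Prime] (hr : r = 2 ∨ r ≠ p)
    (hrΩ : r ∣ Nat.card {W : Submodule F (Fin d ⊕ Fin d → F) // (Module.finrank F ↥W = m ∧ (∀ u ∈ W, u ≠ 0 → ∃ v ∈ W, QuadraticMap.polar (Cfsg.quadFormPlus d F) u v ≠ 0) ∧
          ∃ U : Submodule F (Fin d ⊕ Fin d → F), U ≤ W ∧ 2 * Module.finrank F ↥U = m ∧ ∀ u ∈ U, Cfsg.quadFormPlus d F u = 0)})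
    (i c : ℕ) (hi : i = orderOf (q : ZMod r)) (hc : c = if Even i then i else 2 * i) :
    (∀ x : GL (Fin d ⊕ Fin d) F, x ∈ Cfsg.Geo.omegaGL (Cfsg.quadFormPlus d F) →
      (∃ z : F, ((x ^ r : GL (Fin d ⊕ Fin d) F) : Matrix (Fin d ⊕ Fin d) (Fin d ⊕ Fin d) F) = z • (1 : Matrix (Fin d ⊕ Fin d) (Fin d ⊕ Fin d) F)) →
      (∀ z : F, (x : Matrix (Fin d ⊕ Fin d) (Fin d ⊕ Fin d) F) ≠ z • (1 : Matrix (Fin d ⊕ Fin d) (Fin d ⊕ Fin d) F)) →
      ∃ W : Submodule F (Fin d ⊕ Fin d → F), (Module.finrank F ↥W = m ∧ (∀ u ∈ W, u ≠ 0 → ∃ v ∈ W, QuadraticMap.polar (Cfsg.quadFormPlus d F) u v ≠ 0) ∧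
          ∃ U : Submodule F (Fin d ⊕ Fin d → F), U ≤ W ∧ 2 * Module.finrank F ↥U = m ∧ ∀ u ∈ U, Cfsg.quadFormPlus d F u = 0) ∧
        W.map (Matrix.toLin' (x : Matrix (Fin d ⊕ Fin d) (Fin d ⊕ Fin d) F)) ≤ W) ↔
    ((r = 2 ∧ ((2 * d) % 4 = 2 ∨ m % 4 = 0 ∨ q % 4 = 1)) ∨
     (r ≠ p ∧ 2 < r ∧ Odd i ∧ c ≤ m ∧ m % c ≤ (2 * d) % c) ∨
     (r ≠ p ∧ 2 < r ∧ Even i ∧
       (((2 * d) % c = 0 ∧ (Odd ((2 * d) / i) ∨ (m % c = 0 ∧ Even (m / i)))) ∨
        (i ≤ m ∧ ((m % c < (2 * d) % c ∧ 0 < m % c) ∨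
                  ((2 * d) % c = m % c ∧ 0 < m % c ∧ Even ((2 * d + m - 2 * ((2 * d) % c)) / i)) ∨
                  (0 < (2 * d) % c ∧ m % c = 0 ∧ Even (m / i))))))) := by
  subst hq
  classical
  obtain ⟨e, hp, he⟩ := FiniteField.card F p
  have hr' := (Fact.out : r.Prime)
  have hQf : ⇑(plusQF d F) = Cfsg.quadFormPlus d F := funext (plusQF_apply d)
  have hH : ∀ W : Submodule F (Fin d ⊕ Fin d → F),
      (Module.finrank F ↥W = m ∧ (∀ u ∈ W, u ≠ 0 → ∃ v ∈ W, QuadraticMap.polar (Cfsg.quadFormPlus d F) u v ≠ 0) ∧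
          ∃ U : Submodule F (Fin d ⊕ Fin d → F), U ≤ W ∧ 2 * Module.finrank F ↥U = m ∧ ∀ u ∈ U, Cfsg.quadFormPlus d F u = 0) ↔
      OrthTS.Hyp (plusQF d F) m W := fun W => by
    rw [OrthTS.hyp_iff, ← hQf]
  simp only [hH] at hrΩ ⊢
  by_cases hr2 : r = 2
  · subst hr2
    obtain ⟨s, rfl⟩ := even_iff_exists_two_mul.1 hme
    have hd2 : (2 * d) % 4 = 2 ↔ Odd d := by rw [Nat.odd_iff]; omega
    have hs2 : (2 * s) % 4 = 0 ↔ Even s := by rw [Nat.even_iff]; omega
    by_cases hp2 : p = 2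
    · subst hp2
      have hq4 : Fintype.card F % 4 ≠ 1 := fun h => by
        have : 2 ∣ Fintype.card F := he ▸ dvd_pow_self 2 e.pos.ne'
        omega
      rw [OrthTS.two_iff_hyp_even hd (by omega) hmd, hd2, hs2]
      refine ⟨fun h => Or.inl ⟨rfl, h.symm.imp id Or.inl⟩, ?_⟩
      rintro (⟨-, h | h | h⟩ | ⟨-, h, -⟩ | ⟨-, h, -⟩)
      · exact Or.inr h
      · exact Or.inl h
      · exact absurd h hq4
      · omega
      · omega
    · have hodd : Odd (Fintype.card F) := by rw [he]; exact (hp.odd_of_ne_two hp2).pow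
      rw [OrthTS.two_iff_hyp_odd hodd hd (by omega) hmd, hd2, hs2]
      refine ⟨fun h => Or.inl ⟨rfl, ?_⟩, ?_⟩
      · rcases h with h | h | h
        · exact Or.inr (Or.inr h)
        · exact Or.inr (Or.inl h)
        · exact Or.inl h
      · rintro (⟨-, h | h | h⟩ | ⟨-, h, -⟩ | ⟨-, h, -⟩)
        · exact Or.inr (Or.inr h)
        · exact Or.inr (Or.inl h)
        · exact Or.inl h
        · omega
        · omega
  have hrp : r ≠ p := hr.resolve_left hr2
  have h3 : 2 < r := lt_of_le_of_ne hr'.two_le (Ne.symm hr2)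
  have hrq : ¬ r ∣ Fintype.card F := fun h => hrp ((Nat.prime_dvd_prime_iff_eq hr' hp).1 (hr'.dvd_of_dvd_pow (he ▸ h)))
  have hrodd := hr'.odd_of_ne_two hr2
  have key := OrthTS.odd_prime_iff_hyp (p := p) (r := r) (i := i) hm hme hmd hr2 hrp hrq hi hc hrΩ
  let v₀ : Fin d ⊕ Fin d → F := Sum.elim (Pi.single ⟨0, by omega⟩ 1) (Pi.single ⟨0, by omega⟩ 1)
  have hv₀ : plusQF d F v₀ = 1 := by rw [plusQF_apply]; simp [v₀, Cfsg.quadFormPlus, Pi.single_apply]
  -- a scalar isometry has square one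
  have hsc : ∀ (g : Module.End F (Fin d ⊕ Fin d → F)) (z : F), (∀ v, plusQF d F (g v) = plusQF d F v) →
      g = z • 1 → z * z = 1 := fun g z hg hgz => by
    have h := hg v₀
    rw [hgz, LinearMap.smul_apply, Module.End.one_apply, QuadraticMap.map_smul, hv₀, smul_eq_mul, mul_one] at h
    exact h
  have hiff : (∀ x : GL (Fin d ⊕ Fin d) F, x ∈ Cfsg.Geo.omegaGL (Cfsg.quadFormPlus d F) →
      (∃ z : F, ((x ^ r : GL (Fin d ⊕ Fin d) F) : Matrix (Fin d ⊕ Fin d) (Fin d ⊕ Fin d) F) = z • (1 : Matrix (Fin d ⊕ Fin d) (Fin d ⊕ Fin d) F)) →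
      (∀ z : F, (x : Matrix (Fin d ⊕ Fin d) (Fin d ⊕ Fin d) F) ≠ z • (1 : Matrix (Fin d ⊕ Fin d) (Fin d ⊕ Fin d) F)) →
      ∃ W : Submodule F (Fin d ⊕ Fin d → F), OrthTS.Hyp (plusQF d F) m W ∧
        W.map (Matrix.toLin' (x : Matrix (Fin d ⊕ Fin d) (Fin d ⊕ Fin d) F)) ≤ W) ↔
      (∀ f : Module.End F (Fin d ⊕ Fin d → F), f ^ r = 1 → f ≠ 1 → (∀ v, plusQF d F (f v) = plusQF d F v) →
        ∃ W : Submodule F (Fin d ⊕ Fin d → F), OrthTS.Hyp (plusQF d F) m W ∧ W.map f ≤ W) := by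
    constructor
    · intro h f hf hf1 hfQ
      obtain ⟨x, hx, hxo, hxf⟩ := OrthTS.exists_omega_of_isometry (PrimeSO.plusQF_polar_nondegenerate (F := F) d).1
        (Forms.notExceptional_plusQF (Or.inr (by omega))) hr2 hf hf1 hfQ
      rw [hQf] at hx
      have hxr : x ^ r = 1 := hxo ▸ pow_orderOf_eq_one x
      obtain ⟨W, h1, h3'⟩ := h x hx ⟨1, by rw [hxr, Units.val_one, one_smul]⟩ fun z hz => by
        have hfz : f = z • 1 := by
          rw [← hxf, hz, map_smul, Matrix.toLin'_one]; rfl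
        have hzz := hsc f z hfQ hfz
        obtain ⟨w, hw⟩ := hrodd
        rw [hfz, smul_pow, one_pow, hw, pow_succ, pow_mul, _root_.sq, hzz, one_pow, one_mul, ← hfz] at hf
        exact hf1 hf
      rw [hxf] at h3'
      exact ⟨W, h1, h3'⟩
    · intro h x hx ⟨z, hz⟩ hns
      set g : Module.End F (Fin d ⊕ Fin d → F) := Matrix.toLin' (x : Matrix (Fin d ⊕ Fin d) (Fin d ⊕ Fin d) F) with hg
      have hgQ : ∀ v, plusQF d F (g v) = plusQF d F v := fun v => by
        rw [plusQF_apply, plusQF_apply, hg, Matrix.toLin'_apply]; exact Elusive25.apply_of_mem_omegaGL hx v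
      have hgk : ∀ k v, plusQF d F ((g ^ k) v) = plusQF d F v := fun k => by
        induction k with
        | zero => simp
        | succ k ih => intro v; rw [pow_succ', Module.End.mul_apply, hgQ, ih]
      have hgr : g ^ r = z • 1 := by
        rw [hg, ← Matrix.toLin'_pow, ← Units.val_pow_eq_pow_val, hz, map_smul, Matrix.toLin'_one]; rfl
      have hzz := hsc _ z (hgk r) hgr
      obtain ⟨W, h1, h3'⟩ := h (z • g) (by
          obtain ⟨w, hw⟩ := hrodd
          rw [smul_pow, hgr, smul_smul, ← pow_succ, hw, show 2 * w + 1 + 1 = 2 * (w + 1) by ring, pow_mul, _root_.sq, hzz,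
            one_pow, one_smul])
        (fun h1 => hns z (Matrix.toLin'.injective (by
          rw [map_smul, Matrix.toLin'_one, ← hg]
          conv_lhs => rw [← one_smul F g, ← hzz, mul_smul, h1]
          rfl)))
        (fun v => by rw [LinearMap.smul_apply, QuadraticMap.map_smul, hgQ, hzz, one_smul])
      refine ⟨W, h1, OrthTS.map_le_self fun v hv => ?_⟩
      have hv' := W.smul_mem z (h3' ⟨v, hv, rfl⟩)
      rwa [LinearMap.smul_apply, smul_smul, hzz, one_smul] at hv'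
  rw [hiff, key]
  constructor
  · rintro (h | h)
    · exact Or.inr (Or.inl ⟨hrp, h3, h⟩)
    · exact Or.inr (Or.inr ⟨hrp, h3, h⟩)
  · rintro (⟨h, -⟩ | ⟨-, -, h⟩ | ⟨-, -, h⟩)
    · exact absurd h hr2
    · exact Or.inl h
    · exact Or.inr h

end Cfsg.Agent.S5974
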