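import Cfsg.Statements.S5975
import Cfsg.Agent.Elusive.FieldExtSymp
import Cfsg.Agent.Elusive.SkewPlanes
import Cfsg.Agent.Elusive.SympDecomp
-- import your own Cfsg.Agent.* helpers here

set_option autoImplicit false
open scoped MatrixGroups
open scoped Matrix
open Cfsg

namespace Cfsg.Agent.S5975

open Cfsg.Agent.Forms

variable {F : Type*} [Field F] {d : ℕ}

/-- Scalar matrices move nothing or everything. -/
theorem not_scalar_of_moved {x : GL (Fin d ⊕ Fin d) F} (h0 : Module.finrank F (Elusive.movedSpace x) ≠ 0)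
    (hlt : Module.finrank F (Elusive.movedSpace x) < 2 * d) :
    ∀ z : F, (x : Matrix (Fin d ⊕ Fin d) (Fin d ⊕ Fin d) F) ≠ z • (1 : Matrix (Fin d ⊕ Fin d) (Fin d ⊕ Fin d) F) := by
  intro z hz
  have h1 : Elusive.movedSpace x = LinearMap.range ((z - 1) • (1 : Module.End F (Fin d ⊕ Fin d → F))) := by
    rw [Elusive.movedSpace, hz, map_smul, Matrix.toLin'_one, ← Module.End.one_eq_id]
    congr 1
    exact LinearMap.ext fun v => by simp [sub_smul]
  rcases eq_or_ne z 1 with rfl | hz1
  · rw [h1, sub_self, zero_smul, LinearMap.range_zero, finrank_bot] at h0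
    exact h0 rfl
  · have : LinearMap.range ((z - 1) • (1 : Module.End F (Fin d ⊕ Fin d → F))) = ⊤ := LinearMap.range_eq_top.2 fun v =>
      ⟨(z - 1)⁻¹ • v, by simp [smul_smul, inv_mul_cancel₀ (sub_ne_zero.2 hz1)]⟩
    rw [h1, this, finrank_top, Module.finrank_fintype_fun_eq_card, Fintype.card_sum, Fintype.card_fin] at hlt
    omega

theorem movedSpace_sympToGL (s : Matrix.symplecticGroup (Fin d) F) :
    Elusive.movedSpace (Elusive.sympToGL d F s) =
      LinearMap.range (Matrix.toLin' (s : Matrix (Fin d ⊕ Fin d) (Fin d ⊕ Fin d) F) - 1) := rfl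

theorem toLin'_pow_GL {x : GL (Fin d ⊕ Fin d) F} {n : ℕ} (h : x ^ n = 1) :
    (Matrix.toLin' (x : Matrix (Fin d ⊕ Fin d) (Fin d ⊕ Fin d) F) : Module.End F _) ^ n = 1 := by
  show (Matrix.toLinAlgEquiv' (x : Matrix (Fin d ⊕ Fin d) (Fin d ⊕ Fin d) F) : Module.End F _) ^ n = 1
  rw [← map_pow, ← Units.val_pow_eq_pow_val, h, Units.val_one, map_one]

theorem sympBil_mulVec {x : GL (Fin d ⊕ Fin d) F} (hx : x ∈ Cfsg.spGL d F) (u v : Fin d ⊕ Fin d → F) :
    sympBil d F ((x : Matrix (Fin d ⊕ Fin d) (Fin d ⊕ Fin d) F) *ᵥ u) ((x : Matrix (Fin d ⊕ Fin d) (Fin d ⊕ Fin d) F) *ᵥ v) =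
      sympBil d F u v := by
  rw [sympBil_apply, sympBil_apply]
  exact mem_symplecticGroup_iff_sympForm.1 (mem_spGL_iff.1 hx) u v

/-- Elements of prime order of PSp_n(q) and the field-extension subgroups of type Sp_{n/k}(q^k). Here `T = PSp_{2d}(F)` for a field `F` with `q` elements (`d ≥ 2`, `(d, q) ≠ (2, 2)`), realised through the matrices preserving the standard alternating form `f`; `k` is a prime and `K` is a subalgebra of the `2d × 2d` matrices that is a field of degree `k` over `F` whose elements are self-adjoint for `f` and satisfy `f(a v, v) = 0` (so `F^{2d}` becomes a vector space over `K ≅ F_{q^k}` on which `f` is the trace of a `K`-bilinear alternating form); `H` is the subgroup of `T` normalizing `K` — the symplectic maps that are `K`-linear or `K`-semilinear, a subgroup of type Sp_{2d/k}(q^k) (maximality is not assumed). Ω is the set of cosets of `H` in `T`, so an element of `T` of prime order `r` (`x ∈ T` with `x^r` scalar, `x` not scalar) fixes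 a point of Ω exactly when some `T`-conjugate of `x` normalizes `K`. Let `r` be a prime dividing the index of `H`. Then every element of `T` of order `r` fixes a point of Ω if and only if `r = 2`, `d = 2`, `k = 2` and `q` is odd. -/
theorem result {F : Type*} [Field F] [Fintype F] {p : ℕ} [Fact p.Prime] [CharP F p] {q : ℕ} (hq : Fintype.card F = q)
    (d : ℕ) (hd : 2 ≤ d) (hT : (d, q) ≠ (2, 2)) (k : ℕ) (hk : k.Prime)
    (K : Subalgebra F (Matrix (Fin d ⊕ Fin d) (Fin d ⊕ Fin d) F)) (hK : Cfsg.Geo.IsFieldSubalgebra k K)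
    (hKf : Cfsg.Geo.IsSelfAdjointFor (Cfsg.sympForm d F) K) (hKalt : ∀ a ∈ K, ∀ v : Fin d ⊕ Fin d → F, Cfsg.sympForm d F (a *ᵥ v) v = 0)
    (r : ℕ) [Fact r.Prime]
    (hΩ : r ∣ (Cfsg.Geo.subalgebraNormalizer K).relIndex (Cfsg.spGL d F)) :
    (∀ x ∈ Cfsg.spGL d F, (∃ z : F, ((x ^ r : GL (Fin d ⊕ Fin d) F) : Matrix (Fin d ⊕ Fin d) (Fin d ⊕ Fin d) F) = z • (1 : Matrix (Fin d ⊕ Fin d) (Fin d ⊕ Fin d) F)) →
      (∀ z : F, (x : Matrix (Fin d ⊕ Fin d) (Fin d ⊕ Fin d) F) ≠ z • (1 : Matrix (Fin d ⊕ Fin d) (Fin d ⊕ Fin d) F)) →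
      ∃ g ∈ Cfsg.spGL d F, g⁻¹ * x * g ∈ Cfsg.Geo.subalgebraNormalizer K) ↔
    (r = 2 ∧ d = 2 ∧ k = 2 ∧ Odd q) := by
  classical
  subst hq
  have hr := (Fact.out : r.Prime)
  have : Nonempty (Fin d ⊕ Fin d) := ⟨Sum.inl ⟨0, by omega⟩⟩
  set B := sympBil d F with hBdef
  have hBA : B.IsAlt := sympBil_isAlt
  obtain ⟨hdim, e, hde, -⟩ := Elusive.selfAdjoint_structure hk.pos hK hKf hKalt
  have hkd : k ≤ d := by
    rcases Nat.eq_zero_or_pos e with rfl | he
    · omega
    · rw [hde]; exact Nat.le_mul_of_pos_right k he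
  constructor
  · intro h
    by_contra hR
    -- an element of order `r` moving little cannot normalise the field
    suffices ∃ x ∈ Cfsg.spGL d F, x ^ r = 1 ∧
        (∀ z : F, (x : Matrix (Fin d ⊕ Fin d) (Fin d ⊕ Fin d) F) ≠ z • (1 : Matrix (Fin d ⊕ Fin d) (Fin d ⊕ Fin d) F)) ∧
        ∀ y ∈ Cfsg.spGL d F, y ^ r = 1 → y ∈ Cfsg.Geo.subalgebraNormalizer K →
          Module.finrank F (Elusive.movedSpace y) ≠ Module.finrank F (Elusive.movedSpace x) by
      obtain ⟨x, hx, hxr, hxs, hbad⟩ := this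
      obtain ⟨g, hg, hgx⟩ := h x hx ⟨1, by rw [hxr, Units.val_one, one_smul]⟩ hxs
      refine hbad _ (mul_mem (mul_mem (inv_mem hg) hx) hg) ?_ hgx (Elusive.finrank_movedSpace_conj g x)
      rw [show g⁻¹ * x * g = g⁻¹ * x * g⁻¹⁻¹ by rw [inv_inv], conj_pow, hxr]; simp
    rcases eq_or_ne r p with hrp | hrp
    · subst hrp
      -- a transvection
      let v : Fin d ⊕ Fin d → F := Pi.single (Sum.inl ⟨0, by omega⟩) 1
      have hv : v ≠ 0 := fun h => by simpa [v] using congrFun h (Sum.inl ⟨0, by omega⟩)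
      let s : Matrix.symplecticGroup (Fin d) F := ⟨Cfsg.sympTransvection d v 1, sympTransvection_mem v 1⟩
      have hs : ∀ n : ℕ, ((s ^ n : Matrix.symplecticGroup (Fin d) F) : Matrix (Fin d ⊕ Fin d) (Fin d ⊕ Fin d) F) =
          Cfsg.sympTransvection d v (n : F) := fun n => by
        induction n with
        | zero => simp [Cfsg.sympTransvection]
        | succ n ih => rw [pow_succ, Submonoid.coe_mul, ih, Nat.cast_succ]; exact sympTransvection_mul v _ _
      have hsr : s ^ r = 1 := Subtype.ext (by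
        rw [hs, CharP.cast_eq_zero]; simp [Cfsg.sympTransvection])
      have hmv : ∀ u, (Matrix.toLin' (s : Matrix (Fin d ⊕ Fin d) (Fin d ⊕ Fin d) F) - 1) u = Cfsg.sympForm d F u v • v := by
        intro u
        rw [LinearMap.sub_apply, Module.End.one_apply, Matrix.toLin'_apply]
        show Cfsg.sympTransvection d v 1 *ᵥ u - u = _
        rw [sympTransvection_mulVec, one_mul, add_sub_cancel_left]
      have hrk : Module.finrank F (Elusive.movedSpace (Elusive.sympToGL d F s)) = 1 := by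
        obtain ⟨u, hu⟩ : ∃ u, Cfsg.sympForm d F u v ≠ 0 := by
          by_contra hc
          push Not at hc
          exact hv (sympBil_nondegenerate.2 v fun x => by rw [sympBil_apply]; exact hc x)
        have : Elusive.movedSpace (Elusive.sympToGL d F s) = Submodule.span F {v} := by
          rw [movedSpace_sympToGL]
          refine le_antisymm ?_ ((Submodule.span_singleton_le_iff_mem _ _).2
            ⟨(Cfsg.sympForm d F u v)⁻¹ • u, by rw [map_smul, hmv, smul_smul, inv_mul_cancel₀ hu, one_smul]⟩)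
          rintro _ ⟨w, rfl⟩
          rw [hmv]
          exact Submodule.smul_mem _ _ (Submodule.mem_span_singleton_self v)
        rw [this, finrank_span_singleton hv]
      refine ⟨Elusive.sympToGL d F s, Elusive.sympToGL_mem s, by rw [← map_pow, hsr, map_one],
        not_scalar_of_moved (by omega) (by omega), fun y _ _ hyK hy => ?_⟩
      rw [hrk] at hy
      rcases Elusive.commute_or_moves hK hyK with hc | hc
      · obtain ⟨w, hw, hw0⟩ := Submodule.exists_mem_ne_zero_of_ne_bot (p := Elusive.movedSpace y)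
          (fun hb => by rw [hb, finrank_bot] at hy; omega)
        let ev : K →ₗ[F] Elusive.movedSpace y :=
          { toFun := fun a => ⟨(a : Matrix (Fin d ⊕ Fin d) (Fin d ⊕ Fin d) F) *ᵥ w, Elusive.movedSpace_invariant (hc a a.2) w hw⟩
            map_add' := fun a b => Subtype.ext (Matrix.add_mulVec (a : Matrix (Fin d ⊕ Fin d) (Fin d ⊕ Fin d) F) b w)
            map_smul' := fun c a => Subtype.ext (Matrix.smul_mulVec c (a : Matrix (Fin d ⊕ Fin d) (Fin d ⊕ Fin d) F) w) }
        have hev : Function.Injective ev := (injective_iff_map_eq_zero _).2 fun a ha => by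
          by_contra ha0
          obtain ⟨b, hb, hab⟩ := hK.inv a a.2 fun h0 => ha0 (Subtype.ext h0)
          have h0 : (a : Matrix (Fin d ⊕ Fin d) (Fin d ⊕ Fin d) F) *ᵥ w = 0 := congrArg Subtype.val ha
          apply hw0
          rw [← Matrix.one_mulVec w, ← hab, hK.comm a a.2 b hb, ← Matrix.mulVec_mulVec, h0, Matrix.mulVec_zero]
        have := LinearMap.finrank_le_finrank_of_injective hev
        rw [hK.finrank_eq, hy] at this
        have := hk.two_le
        omega
      · omega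
    have hp2 : ∀ {n : ℕ}, n.Prime → n ≠ p → (n : F) ≠ 0 := fun hn hne h0 =>
      hne ((Nat.prime_dvd_prime_iff_eq (Fact.out : p.Prime) hn).1 ((CharP.cast_eq_zero_iff F p _).1 h0)).symm
    have hrF' : (r : F) ≠ 0 := hp2 hr hrp
    have hmvND : ∀ {y : GL (Fin d ⊕ Fin d) F}, y ∈ Cfsg.spGL d F → y ^ r = 1 →
        Elusive.NonDegOn B (Elusive.movedSpace y) := fun {y} hy hyr =>
      Elusive.nonDegOn_range_sub_one sympBil_nondegenerate
        (fun u v => by rw [Matrix.toLin'_apply, Matrix.toLin'_apply]; exact sympBil_mulVec hy u v) hrF' (toLin'_pow_GL hyr)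
    have hcent : ∀ {y : GL (Fin d ⊕ Fin d) F}, y ∈ Cfsg.spGL d F → y ^ r = 1 →
        (∀ a ∈ K, (y : Matrix (Fin d ⊕ Fin d) (Fin d ⊕ Fin d) F) * a = a * y) →
        2 * k ∣ Module.finrank F (Elusive.movedSpace y) := fun hy hyr hc =>
      hdim _ (fun a ha => Elusive.movedSpace_invariant (hc a ha)) (hmvND hy hyr)
    rcases eq_or_ne r 2 with rfl | hr2
    · -- an involution moving a plane
      have hp : p ≠ 2 := fun h => hrp h.symm
      have h2 : (2 : F) ≠ 0 := by simpa using hrF'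
      let m1 : Matrix.symplecticGroup (Fin 1) F := ⟨-1, SymplecticGroup.neg_mem (one_mem _)⟩
      have hm1 : m1 ^ 2 = 1 := Subtype.ext (by simp [m1, sq])
      let s := Elusive.sympEmbed (F := F) (show 1 ≤ d by omega) m1
      have hrk : Module.finrank F (Elusive.movedSpace (Elusive.sympToGL d F s)) = 2 := by
        have hker : LinearMap.ker (Matrix.toLin' (s : Matrix (Fin d ⊕ Fin d) (Fin d ⊕ Fin d) F) - 1) =
            LinearMap.ker (Elusive.sympProj F (show 1 ≤ d by omega)) := by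
          rw [Elusive.toLin'_sympEmbed]
          ext u
          rw [LinearMap.mem_ker, LinearMap.mem_ker, LinearMap.sub_apply, Module.End.one_apply, sub_eq_zero]
          constructor
          · intro hu
            have := congrArg (Elusive.sympProj F (show 1 ≤ d by omega)) hu
            rw [Elusive.sympProj_blockEnd] at this
            simp only [m1, map_neg, Matrix.toLin'_one, LinearMap.neg_apply, LinearMap.id_coe, id_eq] at this
            have h' : (2 : F) • Elusive.sympProj F (show 1 ≤ d by omega) u = 0 := by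
              rw [two_smul]; nth_rewrite 1 [← this]; rw [neg_add_cancel]
            exact (smul_eq_zero.1 h').resolve_left h2
          · intro hu
            simp [Elusive.blockEnd, hu]
        have h1 := LinearMap.finrank_range_add_finrank_ker (Matrix.toLin' (s : Matrix (Fin d ⊕ Fin d) (Fin d ⊕ Fin d) F) - 1)
        have h3 := LinearMap.finrank_range_add_finrank_ker (Elusive.sympProj F (show 1 ≤ d by omega))
        rw [hker] at h1
        rw [LinearMap.range_eq_top.2 fun u => ⟨_, Elusive.sympProj_sympExt (show 1 ≤ d by omega) u⟩, finrank_top,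
          Module.finrank_fintype_fun_eq_card] at h3
        simp only [Fintype.card_sum, Fintype.card_fin] at h3
        rw [movedSpace_sympToGL]
        omega
      refine ⟨Elusive.sympToGL d F s, Elusive.sympToGL_mem s, by rw [← map_pow, ← map_pow, hm1, map_one, map_one],
        not_scalar_of_moved (by omega) (by omega), fun y hy hyr hyK hy' => ?_⟩
      rw [hrk] at hy'
      rcases Elusive.commute_or_moves hK hyK with hc | hc
      · have := Nat.le_of_dvd (by omega) (hy' ▸ hcent hy hyr hc)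
        have := hk.two_le
        omega
      · rw [hy'] at hc
        obtain rfl : d = 2 := by omega
        refine hR ⟨rfl, rfl, le_antisymm hkd hk.two_le, Nat.not_even_iff_odd.1 fun hev => hp ?_⟩
        obtain ⟨n, hp', hn⟩ := FiniteField.card F p
        rw [hn] at hev
        exact (Nat.prime_dvd_prime_iff_eq Nat.prime_two hp').1 (Nat.prime_two.dvd_of_dvd_pow (even_iff_two_dvd.1 hev)) |>.symm
    · -- odd `r`: one block
      have hrF : ¬ r ∣ Fintype.card F := fun h => by
        obtain ⟨e, hp, he⟩ := FiniteField.card F p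
        rw [he] at h
        exact hrp ((Nat.prime_dvd_prime_iff_eq hr hp).1 (hr.dvd_of_dvd_pow h))
      set i := orderOf ((Fintype.card F : ℕ) : ZMod r) with hi
      obtain ⟨c, hc⟩ : ∃ c, c = if Even i then i else 2 * i := ⟨_, rfl⟩
      have hi0 : 0 < i := Elusive.orderOf_pos_of_not_dvd hrF
      have hc0 : 0 < c := by rw [hc]; split_ifs <;> omega
      have hcr : c ≤ r - 1 := by
        have hir : i ∣ r - 1 := ZMod.orderOf_dvd_card_sub_one fun h => hrF ((ZMod.natCast_eq_zero_iff _ _).1 h)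
        refine Nat.le_of_dvd (by have := hr.two_le; omega) ?_
        rw [hc]
        split_ifs with he
        · exact hir
        · exact (Nat.coprime_two_left.2 (Nat.not_even_iff_odd.1 he)).mul_dvd_of_dvd_of_dvd
            (even_iff_two_dvd.1 (Nat.Odd.sub_odd (hr.odd_of_ne_two hr2) odd_one)) hir
      have hcd : c ≤ 2 * d := by
        refine Elusive.le_of_dvd_card_symplecticGroup hrF hi hc (hΩ.trans ?_)
        rw [← Elusive.card_spGL_eq]
        exact Subgroup.index_dvd_card _
      obtain ⟨s, hs, hker⟩ := Elusive.exists_moving_element (F := F) (d := d) hrF hr2 hi hc (j := 1) (by omega)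
      have hrk : Module.finrank F (Elusive.movedSpace (Elusive.sympToGL d F s)) = c := by
        have := LinearMap.finrank_range_add_finrank_ker (Matrix.toLin' (s : Matrix (Fin d ⊕ Fin d) (Fin d ⊕ Fin d) F) - 1)
        rw [hker, Module.finrank_fintype_fun_eq_card, Fintype.card_sum, Fintype.card_fin] at this
        rw [movedSpace_sympToGL]
        omega
      have hxs : ∀ z : F, ((Elusive.sympToGL d F s : GL (Fin d ⊕ Fin d) F) : Matrix (Fin d ⊕ Fin d) (Fin d ⊕ Fin d) F) ≠
          z • (1 : Matrix (Fin d ⊕ Fin d) (Fin d ⊕ Fin d) F) := by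
        intro z hz
        let i₀ : Fin d := ⟨0, by omega⟩
        have hz' : (s : Matrix (Fin d ⊕ Fin d) (Fin d ⊕ Fin d) F) = z • 1 := hz
        have hz2 : z * z = 1 := by
          have := Elusive.sympBil_toLin' s (Pi.single (Sum.inl i₀) 1) (Pi.single (Sum.inr i₀) 1)
          rw [hz', map_smul, Matrix.toLin'_one] at this
          simpa [sympBil_apply, sympForm_apply, Pi.single_apply, mul_assoc] using this
        have hzr : z ^ r = 1 := by
          have := congrArg (fun M : Matrix.symplecticGroup (Fin d) F => (M : Matrix (Fin d ⊕ Fin d) (Fin d ⊕ Fin d) F) (Sum.inl i₀) (Sum.inl i₀)) hs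
          simpa [hz', smul_pow] using this
        obtain ⟨l, hl⟩ := hr.odd_of_ne_two hr2
        rw [hl, pow_succ, pow_mul, pow_two, hz2, one_pow, one_mul] at hzr
        rw [movedSpace_sympToGL, hz', hzr, one_smul, Matrix.toLin'_one, ← Module.End.one_eq_id, sub_self,
          LinearMap.range_zero, finrank_bot] at hrk
        omega
      refine ⟨Elusive.sympToGL d F s, Elusive.sympToGL_mem s, by rw [← map_pow, hs, map_one], hxs,
        fun y hy hyr hyK hy' => ?_⟩
      rw [hrk] at hy'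
      rcases Elusive.commute_or_moves hK hyK with hcm | hcm
      · exact Elusive.not_dvd_index hk.pos hK hKf hKalt hrF hi hc (hy' ▸ hcent hy hyr hcm) hΩ
      · by_cases hcom : ∀ a ∈ K, (y : Matrix (Fin d ⊕ Fin d) (Fin d ⊕ Fin d) F) * a = a * y
        · exact Elusive.not_dvd_index hk.pos hK hKf hKalt hrF hi hc (hy' ▸ hcent hy hyr hcom) hΩ
        · have := Elusive.eq_degree_of_not_commute hk hr hK hyK hyr hcom
          omega
  · rintro ⟨rfl, rfl, rfl, hqo⟩ x hx ⟨z, hz⟩ hxs
    set x' := (x : Matrix (Fin 2 ⊕ Fin 2) (Fin 2 ⊕ Fin 2) F) with hx'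
    have hq1 : Fintype.card F % 2 = 1 := Nat.odd_iff.1 hqo
    have h2 : (2 : F) ≠ 0 := Ring.two_ne_zero fun h => by
      rw [FiniteField.even_card_iff_char_two] at h; omega
    have hsqz : ∀ u, x' *ᵥ (x' *ᵥ u) = z • u := fun u => by
      rw [Matrix.mulVec_mulVec, hx', ← Units.val_mul, ← pow_two, hz, Matrix.smul_mulVec, Matrix.one_mulVec]
    have hBx : ∀ u v, B (x' *ᵥ u) (x' *ᵥ v) = B u v := sympBil_mulVec hx
    -- `z = ±1`
    obtain ⟨u₀, hu₀⟩ : ∃ u₀ : Fin 2 ⊕ Fin 2 → F, u₀ ≠ 0 := ⟨Pi.single (Sum.inl 0) 1, by simp⟩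
    obtain ⟨v₀, hv₀⟩ : ∃ v₀, B u₀ v₀ ≠ 0 := by
      by_contra hc
      push Not at hc
      exact hu₀ (sympBil_nondegenerate.1 u₀ hc)
    have hz2 : z * z = 1 := by
      have := hBx (x' *ᵥ u₀) (x' *ᵥ v₀)
      rw [hsqz, hsqz, hBx, map_smul, map_smul, LinearMap.smul_apply, smul_eq_mul, smul_eq_mul, ← mul_assoc] at this
      exact mul_right_cancel₀ hv₀ (this.trans (one_mul _).symm)
    -- a basis of `K`
    letI : Field K := (MaxSub.isField_of_isFieldSubalgebra hK).toField
    obtain ⟨θ, hθK, hθ⟩ : ∃ θ ∈ K, ∀ s : F, θ ≠ s • (1 : Matrix (Fin 2 ⊕ Fin 2) (Fin 2 ⊕ Fin 2) F) := by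
      by_contra hc
      push Not at hc
      let sc : F →ₗ[F] K := LinearMap.toSpanSingleton F K ⟨1, K.one_mem⟩
      have hsurj : Function.Surjective sc := fun a => by
        obtain ⟨s, hs⟩ := hc a a.2
        exact ⟨s, Subtype.ext hs.symm⟩
      have h1 := LinearMap.finrank_range_le sc
      rw [LinearMap.range_eq_top.2 hsurj, finrank_top, hK.finrank_eq, Module.finrank_self] at h1
      omega
    have hspanK : ∀ w ∈ K, ∃ s t : F, w = s • (1 : Matrix (Fin 2 ⊕ Fin 2) (Fin 2 ⊕ Fin 2) F) + t • θ := by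
      intro w hw
      let m : F × F →ₗ[F] K :=
        { toFun := fun p => ⟨p.1 • 1 + p.2 • θ, K.add_mem (K.smul_mem K.one_mem _) (K.smul_mem hθK _)⟩
          map_add' := fun p p' => Subtype.ext (by simp [add_smul]; abel)
          map_smul' := fun c p => Subtype.ext (by simp [smul_smul, smul_add]) }
      have hm : Function.Injective m := (injective_iff_map_eq_zero _).2 fun p hp => by
        have hp' : p.1 • (1 : Matrix (Fin 2 ⊕ Fin 2) (Fin 2 ⊕ Fin 2) F) + p.2 • θ = 0 := congrArg Subtype.val hp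
        by_cases hp2 : p.2 = 0
        · rw [hp2, zero_smul, add_zero] at hp'
          exact Prod.ext ((smul_eq_zero.1 hp').resolve_right one_ne_zero) hp2
        · refine absurd ?_ (hθ (-(p.2⁻¹ * p.1)))
          rw [neg_smul, mul_smul, eq_neg_iff_add_eq_zero]
          calc θ + p.2⁻¹ • p.1 • (1 : Matrix (Fin 2 ⊕ Fin 2) (Fin 2 ⊕ Fin 2) F) = p.2⁻¹ • (p.1 • 1 + p.2 • θ) := by
                rw [smul_add, inv_smul_smul₀ hp2, add_comm]
            _ = 0 := by rw [hp', smul_zero]
      obtain ⟨p, hp⟩ := (LinearMap.injective_iff_surjective_of_finrank_eq_finrank (by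
        rw [Module.finrank_prod, Module.finrank_self, hK.finrank_eq])).1 hm ⟨w, hw⟩
      exact ⟨p.1, p.2, (congrArg Subtype.val hp).symm⟩
    obtain ⟨β₀, α₀, hθ2⟩ := hspanK _ (K.mul_mem hθK hθK)
    set a := θ - (α₀ / 2) • (1 : Matrix (Fin 2 ⊕ Fin 2) (Fin 2 ⊕ Fin 2) F) with hadef
    have haK : a ∈ K := K.sub_mem hθK (K.smul_mem K.one_mem _)
    have hans : ∀ s : F, a ≠ s • (1 : Matrix (Fin 2 ⊕ Fin 2) (Fin 2 ⊕ Fin 2) F) := fun s hs =>
      hθ (s + α₀ / 2) (by rw [add_smul, ← hs, hadef, sub_add_cancel])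
    set δ := β₀ + α₀ * α₀ / 4 with hδdef
    have ha2 : a * a = δ • (1 : Matrix (Fin 2 ⊕ Fin 2) (Fin 2 ⊕ Fin 2) F) := by
      have h4 : (4 : F) ≠ 0 := by rw [show (4 : F) = 2 * 2 by norm_num]; exact mul_ne_zero h2 h2
      show _ = (β₀ + α₀ * α₀ / 4) • (1 : Matrix (Fin 2 ⊕ Fin 2) (Fin 2 ⊕ Fin 2) F)
      simp only [hadef, sub_mul, mul_sub, smul_mul_assoc, mul_smul_comm, one_mul, mul_one, hθ2]
      match_scalars <;> field_simp <;> ring
    have haz : a ≠ 0 := fun h => hans 0 (by rw [h, zero_smul])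
    have hδ : δ ≠ 0 := fun h0 => by
      obtain ⟨b, -, hb⟩ := hK.inv a haK haz
      have := congrArg (fun M => M * b) ha2
      simp only [h0, zero_smul, zero_mul, mul_assoc, hb, mul_one] at this
      exact haz this
    have hspanA : ∀ w ∈ K, ∃ s t : F, w = s • (1 : Matrix (Fin 2 ⊕ Fin 2) (Fin 2 ⊕ Fin 2) F) + t • a := by
      intro w hw
      obtain ⟨s, t, rfl⟩ := hspanK w hw
      exact ⟨s + t * (α₀ / 2), t, by rw [hadef, smul_sub, add_smul, mul_smul]; abel⟩
    have hsa : ∀ u v, B (a *ᵥ u) v = B u (a *ᵥ v) := fun u v => by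
      rw [hBdef, sympBil_apply, sympBil_apply]; exact hKf a haK u v
    have haa : ∀ u, a *ᵥ (a *ᵥ u) = δ • u := fun u => by
      rw [Matrix.mulVec_mulVec, ha2, Matrix.smul_mulVec, Matrix.one_mulVec]
    have hKalt' : ∀ u, B (a *ᵥ u) u = 0 := fun u => by rw [hBdef, sympBil_apply]; exact hKalt a haK u
    -- model planes
    obtain ⟨u, hu⟩ : ∃ u : Fin 2 ⊕ Fin 2 → F, ∀ s : F, a *ᵥ u ≠ s • u := by
      by_contra hc
      push Not at hc
      obtain ⟨s, hs⟩ := hc u₀
      have hi : (a - s • (1 : Matrix (Fin 2 ⊕ Fin 2) (Fin 2 ⊕ Fin 2) F)) *ᵥ u₀ = 0 := by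
        rw [Matrix.sub_mulVec, Matrix.smul_mulVec, Matrix.one_mulVec, hs, sub_self]
      obtain ⟨b, hb, hab⟩ := hK.inv _ (K.sub_mem haK (K.smul_mem K.one_mem s)) (sub_ne_zero.2 (hans s))
      apply hu₀
      rw [← Matrix.one_mulVec u₀, ← hab, hK.comm _ (K.sub_mem haK (K.smul_mem K.one_mem s)) b hb,
        ← Matrix.mulVec_mulVec, hi, Matrix.mulVec_zero]
    obtain ⟨v, hv1, hv2⟩ : ∃ v, B u v = 1 ∧ B (a *ᵥ u) v = 0 := by
      let L : (Fin 2 ⊕ Fin 2 → F) →ₗ[F] F × F := (B u).prod (B (a *ᵥ u))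
      suffices Function.Surjective L by
        obtain ⟨v, hv⟩ := this (1, 0)
        exact ⟨v, congrArg Prod.fst hv, congrArg Prod.snd hv⟩
      rw [← LinearMap.range_eq_top]
      by_contra hne
      obtain ⟨f, hf0, hf⟩ := Submodule.exists_le_ker_of_lt_top _ (lt_top_iff_ne_top.2 hne)
      have hfe : ∀ p : F × F, f p = p.1 * f (1, 0) + p.2 * f (0, 1) := fun p => by
        conv_lhs => rw [show p = p.1 • ((1 : F), (0 : F)) + p.2 • ((0 : F), (1 : F)) by simp]
        rw [map_add, map_smul, map_smul, smul_eq_mul, smul_eq_mul]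
      have hz' : f (1, 0) • u + f (0, 1) • (a *ᵥ u) = 0 := sympBil_nondegenerate.1 _ fun w => by
        show B _ w = 0
        rw [map_add, map_smul, map_smul, LinearMap.add_apply, LinearMap.smul_apply, LinearMap.smul_apply]
        have := hf ⟨w, rfl⟩
        rw [LinearMap.mem_ker, hfe] at this
        simp only [L, LinearMap.prod_apply, Function.prod_apply, smul_eq_mul] at this ⊢
        linear_combination this
      by_cases h01 : f (0, 1) = 0
      · rw [h01, zero_smul, add_zero, smul_eq_zero] at hz'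
        rcases hz' with h10 | h10
        · exact hf0 (LinearMap.ext fun p => by rw [hfe, h01, h10, mul_zero, mul_zero, add_zero, LinearMap.zero_apply])
        · exact hu 0 (by simp [h10])
      · refine hu (-(f (0, 1))⁻¹ * f (1, 0)) ?_
        rw [mul_smul, neg_smul, ← smul_neg]
        rw [eq_inv_smul_iff₀ h01, eq_neg_iff_add_eq_zero, add_comm]
        exact hz'
    let lam : Fin 2 → F := ![1, δ]
    have hlam : ∀ j, lam j ≠ 0 := fun j => by fin_cases j <;> simp [lam, hδ]
    let e₁ : Fin 2 → (Fin 2 ⊕ Fin 2 → F) := ![u, a *ᵥ u]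
    let f₁ : Fin 2 → (Fin 2 ⊕ Fin 2 → F) := ![v, a *ᵥ v]
    have hmodel : ∀ j l, sympBil 2 F (e₁ j) (f₁ l) = (if j = l then lam j else 0) ∧ sympBil 2 F (e₁ j) (e₁ l) = 0 ∧
        sympBil 2 F (f₁ j) (f₁ l) = 0 := by
      have k1 : B u (a *ᵥ v) = 0 := by rw [← hsa]; exact hv2
      have k2 : B (a *ᵥ u) (a *ᵥ v) = δ := by rw [hsa, haa, map_smul, hv1, smul_eq_mul, mul_one]
      have k3 : B u (a *ᵥ u) = 0 := by rw [← hsa]; exact hKalt' u
      have k4 : B v (a *ᵥ v) = 0 := by rw [← hsa]; exact hKalt' v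
      intro j l
      rw [← hBdef]
      have c1 : B (a *ᵥ u) u = 0 := hKalt' u
      have c2 : B (a *ᵥ v) v = 0 := hKalt' v
      fin_cases j <;> fin_cases l <;>
        simp only [e₁, f₁, lam, Fin.zero_eta, Fin.mk_one, Fin.isValue, Matrix.cons_val_zero, Matrix.cons_val_one,
          Matrix.head_cons, hv1, hv2, k1, k2, k3, k4, c1, c2, hBA u, hBA v, hBA (a *ᵥ u), hBA (a *ᵥ v), if_true,
          zero_ne_one, one_ne_zero, if_false, and_self]
    -- planes for `x`
    obtain ⟨g, hg, ε, e₂, f₂, hge, hgf, hxe, hxf⟩ : ∃ g ∈ Cfsg.spGL 2 F, ∃ ε : F, ∃ e₂ f₂ : Fin 2 → (Fin 2 ⊕ Fin 2 → F),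
        (∀ j, (g : Matrix (Fin 2 ⊕ Fin 2) (Fin 2 ⊕ Fin 2) F) *ᵥ e₁ j = e₂ j) ∧
        (∀ j, (g : Matrix (Fin 2 ⊕ Fin 2) (Fin 2 ⊕ Fin 2) F) *ᵥ f₁ j = f₂ j) ∧
        (∀ j, x' *ᵥ e₂ j = (if ε = 0 then f₂ j else (![ε, -ε] : Fin 2 → F) j • e₂ j)) ∧
        ∀ j, x' *ᵥ f₂ j = (if ε = 0 then - e₂ j else (![ε, -ε] : Fin 2 → F) j • f₂ j) := by
      rcases mul_self_eq_one_iff.1 hz2 with hz1 | hz1
      · -- eigenspaces
        have hpm : ∀ s : F, s * s = 1 → ∀ w, x' *ᵥ (w + s • (x' *ᵥ w)) = s • (w + s • (x' *ᵥ w)) := fun s hs w => by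
          rw [Matrix.mulVec_add, Matrix.mulVec_smul, hsqz, hz1, one_smul, smul_add, smul_smul, hs, one_smul, add_comm]
        have hex : ∀ s : F, s * s = 1 → ∀ μ : F, ∃ e f, x' *ᵥ e = s • e ∧ x' *ᵥ f = s • f ∧ B e f = μ := by
          intro s hs μ
          obtain ⟨e, he, he0⟩ : ∃ e, x' *ᵥ e = s • e ∧ e ≠ 0 := by
            by_contra hc
            push Not at hc
            refine hxs (-s) (Matrix.ext_iff_mulVec.2 fun w => ?_)
            have h0 := hc _ (hpm s hs w)
            rw [Matrix.smul_mulVec, Matrix.one_mulVec]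
            have h' := congrArg (fun t => s • t) h0
            simp only [smul_add, smul_smul, hs, one_smul, smul_zero] at h'
            rw [neg_smul, eq_neg_iff_add_eq_zero, add_comm]
            exact h'
          obtain ⟨w, hw⟩ : ∃ w, B e w ≠ 0 := by
            by_contra hc
            push Not at hc
            exact he0 (sympBil_nondegenerate.1 e hc)
          set f := w + s • (x' *ᵥ w)
          have hef : B e f = 2 * B e w := by
            have hxw : B e (x' *ᵥ w) = s * B e w := by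
              have h1 := hBx e w
              rw [he, map_smul, LinearMap.smul_apply, smul_eq_mul] at h1
              rw [← h1, ← mul_assoc, hs, one_mul]
            rw [map_add, map_smul, hxw, smul_eq_mul, ← mul_assoc, hs, one_mul, two_mul]
          refine ⟨(μ / (2 * B e w)) • e, f, by rw [Matrix.mulVec_smul, he, smul_comm], hpm s hs w, ?_⟩
          rw [map_smul, LinearMap.smul_apply, hef, smul_eq_mul, div_mul_cancel₀ _ (mul_ne_zero h2 hw)]
        obtain ⟨ep, fp, hep, hfp, hp⟩ := hex 1 (one_mul 1) 1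
        obtain ⟨em, fm, hem, hfm, hm⟩ := hex (-1) (by ring) δ
        have horth : ∀ w w' : Fin 2 ⊕ Fin 2 → F, x' *ᵥ w = (1 : F) • w → x' *ᵥ w' = (-1 : F) • w' →
            B w w' = 0 ∧ B w' w = 0 := by
          intro w w' hw hw'
          have h1 := hBx w w'
          rw [hw, hw', one_smul, map_smul, smul_eq_mul] at h1
          have h0 : B w w' = 0 := (mul_eq_zero.1 (show (2 : F) * B w w' = 0 by linear_combination -h1)).resolve_left h2
          exact ⟨h0, Elusive.alt_symm_zero hBA h0⟩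
        obtain ⟨g, hg, hge, hgf⟩ := Elusive.exists_spGL_of_pairs hlam hmodel (e' := ![ep, em]) (f' := ![fp, fm]) (by
          intro j l
          rw [← hBdef]
          fin_cases j <;> fin_cases l <;>
            simp [lam, hp, hm, hBA ep, hBA fp, hBA em, hBA fm, (horth _ _ hep hem).1, (horth _ _ hep hem).2, (horth _ _ hep hfm).1,
              (horth _ _ hfp hem).2, (horth _ _ hfp hfm).1, (horth _ _ hfp hfm).2])
        refine ⟨g, hg, 1, _, _, hge, hgf, fun j => ?_, fun j => ?_⟩
        · rw [if_neg one_ne_zero]; fin_cases j <;> simp [hep, hem]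
        · rw [if_neg one_ne_zero]; fin_cases j <;> simp [hfp, hfm]
      · obtain ⟨w, -, hw⟩ := Elusive.exists_skew_planes hq1 hBA (S := Matrix.toLin' x')
          (fun u v => by
            rw [Matrix.toLin'_apply, Matrix.toLin'_apply, ← hBx (x' *ᵥ u) v, hsqz, hz1, neg_one_smul, map_neg,
              LinearMap.neg_apply])
          (neg_ne_zero.2 one_ne_zero) (fun u => by rw [Matrix.toLin'_apply, Matrix.toLin'_apply, hsqz, hz1])
          2 lam hlam ⊤ (fun _ _ => trivial) (Elusive.nonDegOn_top sympBil_nondegenerate)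
          (by rw [finrank_top, Module.finrank_fintype_fun_eq_card, Fintype.card_sum, Fintype.card_fin])
        simp only [Matrix.toLin'_apply] at hw
        obtain ⟨g, hg, hge, hgf⟩ := Elusive.exists_spGL_of_pairs hlam hmodel (e' := w) (f' := fun j => x' *ᵥ w j)
          (fun j l => ⟨(hw j l).1, (hw j l).2, by rw [← hBdef, hBx]; exact (hw j l).2⟩)
        refine ⟨g, hg, 0, w, fun j => x' *ᵥ w j, hge, hgf, fun j => by rw [if_pos rfl], fun j => ?_⟩
        rw [if_pos rfl, hsqz, hz1, neg_one_smul]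
    refine ⟨g, hg, (MaxSub.mem_normalizer_iff_map_le).2 fun w hw => ?_⟩
    set y := g⁻¹ * x * g with hy
    have hgi : ∀ w, ((g⁻¹ : GL (Fin 2 ⊕ Fin 2) F) : Matrix (Fin 2 ⊕ Fin 2) (Fin 2 ⊕ Fin 2) F) *ᵥ
        ((g : Matrix (Fin 2 ⊕ Fin 2) (Fin 2 ⊕ Fin 2) F) *ᵥ w) = w := fun w => by
      rw [Matrix.mulVec_mulVec, ← Units.val_mul, inv_mul_cancel, Units.val_one, Matrix.one_mulVec]
    have hyv : ∀ w, (y : Matrix (Fin 2 ⊕ Fin 2) (Fin 2 ⊕ Fin 2) F) *ᵥ w =
        ((g⁻¹ : GL (Fin 2 ⊕ Fin 2) F) : Matrix (Fin 2 ⊕ Fin 2) (Fin 2 ⊕ Fin 2) F) *ᵥ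
          (x' *ᵥ ((g : Matrix (Fin 2 ⊕ Fin 2) (Fin 2 ⊕ Fin 2) F) *ᵥ w)) := fun w => by
      rw [hy, Units.val_mul, Units.val_mul, ← Matrix.mulVec_mulVec, ← Matrix.mulVec_mulVec, ← hx']
    have hye : ∀ j, (y : Matrix (Fin 2 ⊕ Fin 2) (Fin 2 ⊕ Fin 2) F) *ᵥ e₁ j =
        (if ε = 0 then f₁ j else (![ε, -ε] : Fin 2 → F) j • e₁ j) := fun j => by
      rw [hyv, hge, hxe]
      split_ifs
      · rw [← hgf, hgi]
      · rw [Matrix.mulVec_smul, ← hge, hgi]
    have hyf : ∀ j, (y : Matrix (Fin 2 ⊕ Fin 2) (Fin 2 ⊕ Fin 2) F) *ᵥ f₁ j =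
        (if ε = 0 then - e₁ j else (![ε, -ε] : Fin 2 → F) j • f₁ j) := fun j => by
      rw [hyv, hgf, hxf]
      split_ifs
      · rw [Matrix.mulVec_neg, ← hge, hgi]
      · rw [Matrix.mulVec_smul, ← hgf, hgi]
    set ym := (y : Matrix (Fin 2 ⊕ Fin 2) (Fin 2 ⊕ Fin 2) F) with hym
    have hli : ⊤ ≤ Submodule.span F (Set.range (Sum.elim e₁ f₁)) := by
      have hbi : LinearIndependent F (Sum.elim e₁ f₁) := by
        rw [Fintype.linearIndependent_iff]
        intro c hc
        rw [Fintype.sum_sum_type] at hc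
        simp only [Sum.elim_inl, Sum.elim_inr] at hc
        have hfe : ∀ j l, B (f₁ j) (e₁ l) = -(if l = j then lam l else 0) := fun j l => by
          rw [← LinearMap.IsAlt.neg hBA, hBdef, (hmodel l j).1]
        rintro (j | j)
        · have := congrArg (fun w => B w (f₁ j)) hc
          fin_cases j <;> simpa [map_sum, hBdef, (hmodel _ _).1, (hmodel _ _).2.2, hlam 0, hlam 1] using this
        · have := congrArg (fun w => B w (e₁ j)) hc
          have hee : ∀ l l', B (e₁ l) (e₁ l') = 0 := fun l l' => (hmodel l l').2.1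
          fin_cases j <;> simpa [map_sum, hee, hfe, hlam 0, hlam 1] using this
      exact (hbi.span_eq_top_of_card_eq_finrank (Module.finrank_fintype_fun_eq_card F).symm).ge
    have hext : ∀ M N : Matrix (Fin 2 ⊕ Fin 2) (Fin 2 ⊕ Fin 2) F, (∀ j, M *ᵥ e₁ j = N *ᵥ e₁ j) →
        (∀ j, M *ᵥ f₁ j = N *ᵥ f₁ j) → M = N := fun M N h1 h2 =>
      Matrix.toLin'.injective (LinearMap.ext_on (Submodule.eq_top_iff'.2 fun w => hli trivial) (by
        rintro _ ⟨j | j, rfl⟩
        · simpa using h1 j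
        · simpa using h2 j))
    obtain ⟨s, hys⟩ : ∃ s : F, ym * a = s • (a * ym) := by
      by_cases hε : ε = 0
      · refine ⟨1, hext _ _ (fun j => ?_) (fun j => ?_)⟩
        all_goals
          simp only [if_pos hε] at hye hyf
          have he0 : ym *ᵥ u = v := hye 0
          have he1 : ym *ᵥ (a *ᵥ u) = a *ᵥ v := hye 1
          have hf0 : ym *ᵥ v = -u := hyf 0
          have hf1 : ym *ᵥ (a *ᵥ v) = -(a *ᵥ u) := hyf 1
          rw [one_smul, ← Matrix.mulVec_mulVec, ← Matrix.mulVec_mulVec]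
          fin_cases j <;>
            simp [e₁, f₁, haa, he0, he1, hf0, hf1, Matrix.mulVec_neg, Matrix.mulVec_smul]
      · refine ⟨-1, hext _ _ (fun j => ?_) (fun j => ?_)⟩
        all_goals
          simp only [if_neg hε] at hye hyf
          have he0 : ym *ᵥ u = ε • u := hye 0
          have he1 : ym *ᵥ (a *ᵥ u) = -ε • (a *ᵥ u) := hye 1
          have hf0 : ym *ᵥ v = ε • v := hyf 0
          have hf1 : ym *ᵥ (a *ᵥ v) = -ε • (a *ᵥ v) := hyf 1
          rw [Matrix.smul_mulVec, ← Matrix.mulVec_mulVec, ← Matrix.mulVec_mulVec]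
          fin_cases j <;>
            simp [e₁, f₁, haa, he0, he1, hf0, hf1, Matrix.mulVec_neg, Matrix.mulVec_smul, neg_smul, smul_comm δ ε]
    have hyi : ym * ((y⁻¹ : GL (Fin 2 ⊕ Fin 2) F) : Matrix (Fin 2 ⊕ Fin 2) (Fin 2 ⊕ Fin 2) F) = 1 := by
      rw [hym, ← Units.val_mul, mul_inv_cancel, Units.val_one]
    obtain ⟨c₀, c₁, rfl⟩ := hspanA w hw
    rw [mul_add, add_mul, mul_smul_comm, mul_smul_comm, mul_one, hys, smul_mul_assoc, hyi, smul_mul_assoc,
      smul_mul_assoc, mul_assoc, hyi, mul_one]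
    exact K.add_mem (K.smul_mem K.one_mem _) (K.smul_mem (K.smul_mem haK _) _)

end Cfsg.Agent.S5975
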