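import Cfsg.Statements.S5976
import Cfsg.Agent.S5975
import Cfsg.Agent.Elusive.FieldExtUnit
import Cfsg.Agent.Elusive.FieldExtBlock
-- import your own Cfsg.Agent.* helpers here

set_option autoImplicit false
open scoped MatrixGroups
open Cfsg

namespace Cfsg.Agent.S5976

open Cfsg.Agent.Forms
open scoped Matrix

/-- An involution is conjugate to an element normalising the field. -/
theorem exists_conj_mem {F : Type*} [Field F] [Fintype F] {d : ℕ} (hq1 : Fintype.card F % 2 = 1)
    {K : Subalgebra F (Matrix (Fin d ⊕ Fin d) (Fin d ⊕ Fin d) F)} {a : Matrix (Fin d ⊕ Fin d) (Fin d ⊕ Fin d) F} {δ : F}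
    (haK : a ∈ K) (ha2 : a * a = δ • (1 : Matrix (Fin d ⊕ Fin d) (Fin d ⊕ Fin d) F)) (hns : ∀ s : F, s * s ≠ δ)
    (hskew : ∀ u v, sympBil d F (a *ᵥ u) v = -sympBil d F u (a *ᵥ v))
    (hspan : ∀ w ∈ K, ∃ s t : F, w = s • (1 : Matrix (Fin d ⊕ Fin d) (Fin d ⊕ Fin d) F) + t • a)
    {x : GL (Fin d ⊕ Fin d) F} (hx : x ∈ Cfsg.spGL d F) {z : F} (hz2 : z * z = 1)
    (hz : ((x ^ 2 : GL (Fin d ⊕ Fin d) F) : Matrix (Fin d ⊕ Fin d) (Fin d ⊕ Fin d) F) = z • (1 : Matrix (Fin d ⊕ Fin d) (Fin d ⊕ Fin d) F)) :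
    ∃ g ∈ Cfsg.spGL d F, g⁻¹ * x * g ∈ Cfsg.Geo.subalgebraNormalizer K := by
  classical
  have hδ : δ ≠ 0 := fun h => hns 0 (by rw [h, mul_zero])
  have h2 : (2 : F) ≠ 0 := Ring.two_ne_zero fun h => by
    rw [FiniteField.even_card_iff_char_two] at h; omega
  set x' := (x : Matrix (Fin d ⊕ Fin d) (Fin d ⊕ Fin d) F) with hx'
  set B := sympBil d F with hBdef
  have hA : B.IsAlt := sympBil_isAlt
  obtain ⟨u, hu₀⟩ := Elusive.exists_unitary_basis hq1 hδ ha2 hskew
  have hu : ∀ j k, B (u j) (a *ᵥ u k) = (if j = k then 1 else 0) ∧ B (u j) (u k) = 0 ∧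
      B (a *ᵥ u j) (a *ᵥ u k) = 0 := hu₀
  have hua : ∀ j k, B (a *ᵥ u j) (u k) = -(if j = k then (1 : F) else 0) := fun j k => by rw [hskew, (hu j k).1]
  have hBx : ∀ v w, B (x' *ᵥ v) (x' *ᵥ w) = B v w := S5975.sympBil_mulVec hx
  have hsqz : ∀ v, x' *ᵥ (x' *ᵥ v) = z • v := fun v => by
    rw [Matrix.mulVec_mulVec, hx', ← Units.val_mul, ← pow_two, hz, Matrix.smul_mulVec, Matrix.one_mulVec]
  have haa : ∀ v, a *ᵥ (a *ᵥ v) = δ • v := fun v => by
    rw [Matrix.mulVec_mulVec, ha2, Matrix.smul_mulVec, Matrix.one_mulVec]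
  have key : ∀ g ∈ Cfsg.spGL d F, ∀ s : F, s * s = 1 →
      (∀ j, ((g⁻¹ * x * g : GL (Fin d ⊕ Fin d) F) : Matrix (Fin d ⊕ Fin d) (Fin d ⊕ Fin d) F) *ᵥ (a *ᵥ u j) =
        s • (a *ᵥ (((g⁻¹ * x * g : GL (Fin d ⊕ Fin d) F) : Matrix (Fin d ⊕ Fin d) (Fin d ⊕ Fin d) F) *ᵥ u j))) →
      g⁻¹ * x * g ∈ Cfsg.Geo.subalgebraNormalizer K := by
    intro g _ s hs hcomm
    set y := g⁻¹ * x * g
    set ym := (y : Matrix (Fin d ⊕ Fin d) (Fin d ⊕ Fin d) F) with hym
    have hli : ⊤ ≤ Submodule.span F (Set.range (Sum.elim u fun j => a *ᵥ u j)) := by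
      have hbi : LinearIndependent F (Sum.elim u fun j => a *ᵥ u j) := by
        rw [Fintype.linearIndependent_iff]
        intro c hc
        rw [Fintype.sum_sum_type] at hc
        simp only [Sum.elim_inl, Sum.elim_inr] at hc
        rintro (j | j)
        · have := congrArg (fun w => B w (a *ᵥ u j)) hc
          simpa [map_sum, (hu _ _).1, (hu _ _).2.2] using this
        · have := congrArg (fun w => B w (u j)) hc
          simpa [map_sum, (hu _ _).2.1, hua] using this
      rw [hbi.span_eq_top_of_card_eq_finrank' (Module.finrank_fintype_fun_eq_card F).symm]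
    have hext : ∀ M N : Matrix (Fin d ⊕ Fin d) (Fin d ⊕ Fin d) F, (∀ j, M *ᵥ u j = N *ᵥ u j) →
        (∀ j, M *ᵥ (a *ᵥ u j) = N *ᵥ (a *ᵥ u j)) → M = N := fun M N h1 h2 =>
      Matrix.toLin'.injective (LinearMap.ext_on (Submodule.eq_top_iff'.2 fun w => hli trivial) (by
        rintro _ ⟨j | j, rfl⟩
        · simpa using h1 j
        · simpa using h2 j))
    have hys : ym * a = s • (a * ym) := hext _ _
      (fun j => by rw [← Matrix.mulVec_mulVec, Matrix.smul_mulVec, ← Matrix.mulVec_mulVec]; exact hcomm j)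
      (fun j => by
        rw [← Matrix.mulVec_mulVec, haa, Matrix.mulVec_smul, Matrix.smul_mulVec, ← Matrix.mulVec_mulVec, hcomm,
          Matrix.mulVec_smul, haa, smul_smul, hs, one_smul])
    have hyi : ym * ((y⁻¹ : GL (Fin d ⊕ Fin d) F) : Matrix (Fin d ⊕ Fin d) (Fin d ⊕ Fin d) F) = 1 := by
      rw [hym, ← Units.val_mul, mul_inv_cancel, Units.val_one]
    refine (MaxSub.mem_normalizer_iff_map_le).2 fun w hw => ?_
    obtain ⟨c₀, c₁, rfl⟩ := hspan w hw
    rw [mul_add, add_mul, mul_smul_comm, mul_smul_comm, mul_one, hys, smul_mul_assoc, hyi, smul_mul_assoc,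
      smul_mul_assoc, mul_assoc, hyi, mul_one]
    exact K.add_mem (K.smul_mem K.one_mem _) (K.smul_mem (K.smul_mem haK _) _)
  have hgi : ∀ (g : GL (Fin d ⊕ Fin d) F) v, ((g⁻¹ : GL (Fin d ⊕ Fin d) F) : Matrix (Fin d ⊕ Fin d) (Fin d ⊕ Fin d) F) *ᵥ
      ((g : Matrix (Fin d ⊕ Fin d) (Fin d ⊕ Fin d) F) *ᵥ v) = v := fun g v => by
    rw [Matrix.mulVec_mulVec, ← Units.val_mul, inv_mul_cancel, Units.val_one, Matrix.one_mulVec]
  have hyv : ∀ (g : GL (Fin d ⊕ Fin d) F) v,
      ((g⁻¹ * x * g : GL (Fin d ⊕ Fin d) F) : Matrix (Fin d ⊕ Fin d) (Fin d ⊕ Fin d) F) *ᵥ v =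
      ((g⁻¹ : GL (Fin d ⊕ Fin d) F) : Matrix (Fin d ⊕ Fin d) (Fin d ⊕ Fin d) F) *ᵥ
        (x' *ᵥ ((g : Matrix (Fin d ⊕ Fin d) (Fin d ⊕ Fin d) F) *ᵥ v)) := fun g v => by
    rw [Units.val_mul, Units.val_mul, ← Matrix.mulVec_mulVec, ← Matrix.mulVec_mulVec, ← hx']
  rcases mul_self_eq_one_iff.1 hz2 with hz1 | hz1
  · -- eigenspaces
    let E : F → Submodule F (Fin d ⊕ Fin d → F) := fun s => LinearMap.ker (Matrix.toLin' x' - s • 1)
    have hmemE : ∀ {s v}, v ∈ E s ↔ x' *ᵥ v = s • v := fun {s v} => by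
      simp only [E, LinearMap.mem_ker, LinearMap.sub_apply, LinearMap.smul_apply, Module.End.one_apply,
        Matrix.toLin'_apply, sub_eq_zero]
    have horth : ∀ v ∈ E 1, ∀ w ∈ E (-1), B v w = 0 := fun v hv w hw => by
      have h1 := hBx v w
      rw [hmemE.1 hv, hmemE.1 hw, one_smul, map_smul, smul_eq_mul] at h1
      exact (mul_eq_zero.1 (show (2 : F) * B v w = 0 by linear_combination -h1)).resolve_left h2
    have hsup : E 1 ⊔ E (-1) = ⊤ := by
      refine eq_top_iff.2 fun v _ => ?_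
      rw [show v = (2 : F)⁻¹ • (v + x' *ᵥ v) + (2 : F)⁻¹ • (v - x' *ᵥ v) by
        match_scalars <;> field_simp <;> ring]
      refine Submodule.add_mem_sup (Submodule.smul_mem _ _ (hmemE.2 ?_)) (Submodule.smul_mem _ _ (hmemE.2 ?_))
      · rw [Matrix.mulVec_add, hsqz, hz1, one_smul, one_smul, add_comm]
      · rw [Matrix.mulVec_sub, hsqz, hz1, one_smul, neg_one_smul, neg_sub]
    have hN1 : Elusive.NonDegOn B (E 1) := fun v hv h => sympBil_nondegenerate.1 v fun w => by
      obtain ⟨w₁, hw₁, w₂, hw₂, rfl⟩ := Submodule.mem_sup.1 (hsup ▸ Submodule.mem_top (x := w))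
      show B v _ = 0
      rw [map_add, h w₁ hw₁, horth v hv w₂ hw₂, add_zero]
    have hN2 : Elusive.NonDegOn B (E (-1)) := fun v hv h => sympBil_nondegenerate.1 v fun w => by
      obtain ⟨w₁, hw₁, w₂, hw₂, rfl⟩ := Submodule.mem_sup.1 (hsup ▸ Submodule.mem_top (x := w))
      show B v _ = 0
      rw [map_add, h w₂ hw₂, Elusive.alt_symm_zero hA (horth w₁ hw₁ v hv), add_zero]
    have hdis : Disjoint (E 1) (E (-1)) := Submodule.disjoint_def.2 fun v hv hw => by
      have h := (hmemE.1 hv).symm.trans (hmemE.1 hw)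
      rw [one_smul, neg_one_smul, eq_neg_iff_add_eq_zero, ← two_smul F, smul_eq_zero] at h
      exact h.resolve_left h2
    obtain ⟨hA1, hB1⟩ := Elusive.nonDegOn_restrict hA hN1
    obtain ⟨hA2, hB2⟩ := Elusive.nonDegOn_restrict hA hN2
    obtain ⟨m₁, b₁, h1ef, h1ee, h1ff⟩ := exists_symplectic_basis hA1 hB1
    obtain ⟨m₂, b₂, h2ef, h2ee, h2ff⟩ := exists_symplectic_basis hA2 hB2
    have hcard : Fintype.card (Fin m₁ ⊕ Fin m₂) = Fintype.card (Fin d) := by
      have h := Elusive.finrank_eq_add_of_disjoint hsup hdis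
      rw [finrank_top, Module.finrank_fintype_fun_eq_card, Module.finrank_eq_card_basis b₁,
        Module.finrank_eq_card_basis b₂] at h
      simp only [Fintype.card_sum, Fintype.card_fin] at h ⊢
      omega
    let ψ := Fintype.equivOfCardEq hcard
    let ee : Fin d → (Fin d ⊕ Fin d → F) := fun j =>
      Sum.elim (fun l => (b₁ (.inl l) : Fin d ⊕ Fin d → F)) (fun l => (b₂ (.inl l) : Fin d ⊕ Fin d → F)) (ψ.symm j)
    let ff : Fin d → (Fin d ⊕ Fin d → F) := fun j =>
      Sum.elim (fun l => (b₁ (.inr l) : Fin d ⊕ Fin d → F)) (fun l => (b₂ (.inr l) : Fin d ⊕ Fin d → F)) (ψ.symm j)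
    let ε : Fin d → F := fun j => Sum.elim (fun _ => 1) (fun _ => -1) (ψ.symm j)
    have hgram : ∀ j k, B (ee j) (ff k) = (if j = k then 1 else 0) ∧ B (ee j) (ee k) = 0 ∧ B (ff j) (ff k) = 0 := by
      intro j k
      obtain ⟨j, rfl⟩ := ψ.surjective j
      obtain ⟨k, rfl⟩ := ψ.surjective k
      simp only [ee, ff, Equiv.symm_apply_apply, ψ.injective.eq_iff]
      rcases j with j | j <;> rcases k with k | k <;> simp only [Sum.elim_inl, Sum.elim_inr, Sum.inl.injEq, Sum.inr.injEq,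
        reduceCtorEq, if_false]
      · exact ⟨h1ef j k, h1ee j k, h1ff j k⟩
      · exact ⟨horth _ (b₁ _).2 _ (b₂ _).2, horth _ (b₁ _).2 _ (b₂ _).2, horth _ (b₁ _).2 _ (b₂ _).2⟩
      · exact ⟨Elusive.alt_symm_zero hA (horth _ (b₁ _).2 _ (b₂ _).2), Elusive.alt_symm_zero hA (horth _ (b₁ _).2 _ (b₂ _).2),
          Elusive.alt_symm_zero hA (horth _ (b₁ _).2 _ (b₂ _).2)⟩
      · exact ⟨h2ef j k, h2ee j k, h2ff j k⟩
    have hxe : ∀ j, x' *ᵥ ee j = ε j • ee j ∧ x' *ᵥ ff j = ε j • ff j := by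
      intro j
      obtain ⟨j, rfl⟩ := ψ.surjective j
      simp only [ee, ff, ε, Equiv.symm_apply_apply]
      rcases j with j | j <;> exact ⟨hmemE.1 (Subtype.prop _), hmemE.1 (Subtype.prop _)⟩
    obtain ⟨g, hg, hge, hgf⟩ := Elusive.exists_spGL_of_pairs (lam := fun _ => (1 : F)) (fun _ => one_ne_zero)
      (e := u) (f := fun j => a *ᵥ u j) hu hgram
    refine ⟨g, hg, key g hg 1 (one_mul 1) fun j => ?_⟩
    rw [one_smul, hyv, hyv, hgf, hge, (hxe j).1, (hxe j).2, Matrix.mulVec_smul, Matrix.mulVec_smul, ← hgf, ← hge, hgi, hgi,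
      Matrix.mulVec_smul]
  · -- square `-1`
    obtain ⟨α, β, hαβ, hβ⟩ : ∃ α β : F, α ^ 2 - δ * β ^ 2 = -1 ∧ β ≠ 0 := by
      obtain ⟨α, β, h⟩ := Elusive.exists_sq_sub_mul_sq hq1 hδ (-1)
      rcases eq_or_ne β 0 with rfl | hβ
      · have hα : α ^ 2 = -1 := by linear_combination h
        have hδ1 : (1 : F) - δ ≠ 0 := fun h => hns 1 (by rw [one_mul]; exact sub_eq_zero.1 h)
        have hα0 : α ≠ 0 := fun h0 => by simp [h0] at hα
        refine ⟨α * (1 + δ) / (1 - δ), 2 * α / (1 - δ), ?_, div_ne_zero (mul_ne_zero h2 hα0) hδ1⟩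
        field_simp
        linear_combination (1 - δ) ^ 2 * hα
      · exact ⟨α, β, h, hβ⟩
    obtain ⟨w, -, hw⟩ := Elusive.exists_skew_planes hq1 hA (S := Matrix.toLin' x')
      (fun v v' => by
        rw [Matrix.toLin'_apply, Matrix.toLin'_apply, ← hBx (x' *ᵥ v) v', hsqz, hz1, neg_one_smul, map_neg,
          LinearMap.neg_apply])
      (neg_ne_zero.2 one_ne_zero) (fun v => by rw [Matrix.toLin'_apply, Matrix.toLin'_apply, hsqz, hz1])
      d (fun _ => β) (fun _ => hβ) ⊤ (fun _ _ => trivial) (Elusive.nonDegOn_top sympBil_nondegenerate)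
      (by rw [finrank_top, Module.finrank_fintype_fun_eq_card, Fintype.card_sum, Fintype.card_fin]; omega)
    simp only [Matrix.toLin'_apply] at hw
    let f₁ : Fin d → (Fin d ⊕ Fin d → F) := fun j => α • u j + β • (a *ᵥ u j)
    have hmodel : ∀ j k, B (u j) (f₁ k) = (if j = k then β else 0) ∧ B (u j) (u k) = 0 ∧ B (f₁ j) (f₁ k) = 0 := by
      intro j k
      refine ⟨?_, (hu j k).2.1, ?_⟩
      · simp only [f₁, map_add, map_smul, smul_eq_mul, (hu j k).1, (hu j k).2.1, mul_ite, mul_one, mul_zero, zero_add]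
      · simp only [f₁, map_add, map_smul, LinearMap.add_apply, LinearMap.smul_apply, smul_eq_mul, (hu j k).1,
          (hu j k).2.1, (hu j k).2.2, hua]
        ring
    obtain ⟨g, hg, hge, hgf⟩ := Elusive.exists_spGL_of_pairs (lam := fun _ => β) (fun _ => hβ)
      (e := u) (f := f₁) hmodel (e' := w) (f' := fun j => x' *ᵥ w j)
      (fun j k => ⟨(hw j k).1, (hw j k).2, by rw [← hBdef, hBx]; exact (hw j k).2⟩)
    refine ⟨g, hg, key g hg (-1) (by ring) fun j => ?_⟩
    set y := ((g⁻¹ * x * g : GL (Fin d ⊕ Fin d) F) : Matrix (Fin d ⊕ Fin d) (Fin d ⊕ Fin d) F)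
    have hyu : y *ᵥ u j = f₁ j := by rw [hyv, hge, ← hgf, hgi]
    have hyf : y *ᵥ f₁ j = -u j := by rw [hyv, hgf, hsqz, hz1, neg_one_smul, Matrix.mulVec_neg, ← hge, hgi]
    have hdec : a *ᵥ u j = β⁻¹ • (f₁ j - α • u j) := by
      rw [show f₁ j - α • u j = β • (a *ᵥ u j) by simp [f₁], inv_smul_smul₀ hβ]
    have hlhs : y *ᵥ (a *ᵥ u j) = β⁻¹ • (-u j - α • f₁ j) := by
      conv_lhs => rw [hdec]
      rw [Matrix.mulVec_smul, Matrix.mulVec_sub, Matrix.mulVec_smul, hyf, hyu]
    rw [hlhs, hyu]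
    simp only [f₁, Matrix.mulVec_add, Matrix.mulVec_smul, haa]
    match_scalars
    · field_simp; linear_combination -hαβ
    · field_simp

/-- Elements of prime order of PSp_n(q), q odd, and the subgroups of type GU_{n/2}(q). Here `T = PSp_{2d}(F)` for a field `F` with `q` elements, `q` odd, `d ≥ 2`, realised through the matrices preserving the standard alternating form `f`; `K` is a subalgebra of the `2d × 2d` matrices that is a field of degree 2 over `F`, closed under taking adjoints for `f` but not consisting of self-adjoint elements (so `F^{2d}` becomes a `d`-dimensional space over `K ≅ F_{q²}` on which `f` is the trace of a multiple of a non-degenerate hermitian form); `H` is the subgroup of `T` normalizing `K` — the symplectic maps that are `K`-linear or `K`-semilinear, a subgroup of type GU_d(q) (maximality is not assumed). Ω is the set of cosets of `H` in `T`, so an element of `T` of prime order `r` (`x ∈ T` with `x^r` scalar, `x` not scalar)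 fixes a point of Ω exactly when some `T`-conjugate of `x` normalizes `K`. Let `r` be a prime dividing the index of `H`. Then every element of `T` of order `r` fixes a point of Ω if and only if `r = 2`. -/
theorem result {F : Type*} [Field F] [Fintype F] {p : ℕ} [Fact p.Prime] [CharP F p] {q : ℕ} (hq : Fintype.card F = q)
    (hodd : Odd q) (d : ℕ) (hd : 2 ≤ d)
    (K : Subalgebra F (Matrix (Fin d ⊕ Fin d) (Fin d ⊕ Fin d) F)) (hK : Cfsg.Geo.IsFieldSubalgebra 2 K)
    (hKf : Cfsg.Geo.IsAdjointClosedFor (Cfsg.sympForm d F) K) (hKns : ¬ Cfsg.Geo.IsSelfAdjointFor (Cfsg.sympForm d F) K)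
    (r : ℕ) [Fact r.Prime]
    (hΩ : r ∣ (Cfsg.Geo.subalgebraNormalizer K).relIndex (Cfsg.spGL d F)) :
    (∀ x ∈ Cfsg.spGL d F, (∃ z : F, ((x ^ r : GL (Fin d ⊕ Fin d) F) : Matrix (Fin d ⊕ Fin d) (Fin d ⊕ Fin d) F) = z • (1 : Matrix (Fin d ⊕ Fin d) (Fin d ⊕ Fin d) F)) →
      (∀ z : F, (x : Matrix (Fin d ⊕ Fin d) (Fin d ⊕ Fin d) F) ≠ z • (1 : Matrix (Fin d ⊕ Fin d) (Fin d ⊕ Fin d) F)) →
      ∃ g ∈ Cfsg.spGL d F, g⁻¹ * x * g ∈ Cfsg.Geo.subalgebraNormalizer K) ↔ r = 2 := by
  classical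
  subst hq
  have hr := (Fact.out : r.Prime)
  have hq1 : Fintype.card F % 2 = 1 := Nat.odd_iff.1 hodd
  have h2 : (2 : F) ≠ 0 := Ring.two_ne_zero fun h => by
    rw [FiniteField.even_card_iff_char_two] at h; omega
  have : Nonempty (Fin d ⊕ Fin d) := ⟨Sum.inl ⟨0, by omega⟩⟩
  have hp2 : p ≠ 2 := fun h => h2 (by
    have := CharP.cast_eq_zero F p
    rw [h] at this
    simpa using this)
  obtain ⟨a, δ, haK, ha2, hns, hskew, hspan⟩ := Elusive.exists_skew_element h2 hK hKf hKns
  set B := sympBil d F with hBdef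
  constructor
  · intro h
    by_contra hr2
    suffices ∃ x ∈ Cfsg.spGL d F, x ^ r = 1 ∧
        (∀ z : F, (x : Matrix (Fin d ⊕ Fin d) (Fin d ⊕ Fin d) F) ≠ z • (1 : Matrix (Fin d ⊕ Fin d) (Fin d ⊕ Fin d) F)) ∧
        ∀ y ∈ Cfsg.spGL d F, y ^ r = 1 → y ∈ Cfsg.Geo.subalgebraNormalizer K →
          Module.finrank F (Elusive.movedSpace y) ≠ Module.finrank F (Elusive.movedSpace x) by
      obtain ⟨x, hx, hxr, hxs, hbad⟩ := this
      obtain ⟨g, hg, hgx⟩ := h x hx ⟨1, by rw [hxr, Units.val_one, one_smul]⟩ hxs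
      refine hbad _ (mul_mem (mul_mem (inv_mem hg) hx) hg) ?_ hgx (Elusive.finrank_movedSpace_conj g x)
      rw [show g⁻¹ * x * g = g⁻¹ * x * g⁻¹⁻¹ by rw [inv_inv], conj_pow, hxr]; simp
    have hcomm_of : ∀ {y : GL (Fin d ⊕ Fin d) F}, y ∈ Cfsg.Geo.subalgebraNormalizer K → y ^ r = 1 →
        ∀ w ∈ K, (y : Matrix (Fin d ⊕ Fin d) (Fin d ⊕ Fin d) F) * w = w * y := by
      intro y hy hyr
      by_contra hne
      exact hr2 (Elusive.eq_degree_of_not_commute Nat.prime_two hr hK hy hyr hne)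
    rcases eq_or_ne r p with hrp | hrp
    · subst hrp
      let v : Fin d ⊕ Fin d → F := Pi.single (Sum.inl ⟨0, by omega⟩) 1
      have hv : v ≠ 0 := fun h => by simpa [v] using congrFun h (Sum.inl ⟨0, by omega⟩)
      let s : Matrix.symplecticGroup (Fin d) F := ⟨Cfsg.sympTransvection d v 1, sympTransvection_mem v 1⟩
      have hs : ∀ n : ℕ, ((s ^ n : Matrix.symplecticGroup (Fin d) F) : Matrix (Fin d ⊕ Fin d) (Fin d ⊕ Fin d) F) =
          Cfsg.sympTransvection d v (n : F) := fun n => by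
        induction n with
        | zero => simp [Cfsg.sympTransvection]
        | succ n ih => rw [pow_succ, Submonoid.coe_mul, ih, Nat.cast_succ]; exact sympTransvection_mul v _ _
      have hsr : s ^ r = 1 := Subtype.ext (by
        rw [hs, CharP.cast_eq_zero]; simp [Cfsg.sympTransvection])
      have hmv : ∀ u, (Matrix.toLin' (s : Matrix (Fin d ⊕ Fin d) (Fin d ⊕ Fin d) F) - 1) u = Cfsg.sympForm d F u v • v := by
        intro u
        rw [LinearMap.sub_apply, Module.End.one_apply, Matrix.toLin'_apply]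
        show Cfsg.sympTransvection d v 1 *ᵥ u - u = _
        rw [sympTransvection_mulVec, one_mul, add_sub_cancel_left]
      have hrk : Module.finrank F (Elusive.movedSpace (Elusive.sympToGL d F s)) = 1 := by
        obtain ⟨u, hu⟩ : ∃ u, Cfsg.sympForm d F u v ≠ 0 := by
          by_contra hc
          push Not at hc
          exact hv (sympBil_nondegenerate.2 v fun x => by rw [sympBil_apply]; exact hc x)
        have : Elusive.movedSpace (Elusive.sympToGL d F s) = Submodule.span F {v} := by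
          rw [S5975.movedSpace_sympToGL]
          refine le_antisymm ?_ ((Submodule.span_singleton_le_iff_mem _ _).2
            ⟨(Cfsg.sympForm d F u v)⁻¹ • u, by rw [map_smul, hmv, smul_smul, inv_mul_cancel₀ hu, one_smul]⟩)
          rintro _ ⟨w, rfl⟩
          rw [hmv]
          exact Submodule.smul_mem _ _ (Submodule.mem_span_singleton_self v)
        rw [this, finrank_span_singleton hv]
      refine ⟨Elusive.sympToGL d F s, Elusive.sympToGL_mem s, by rw [← map_pow, hsr, map_one],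
        S5975.not_scalar_of_moved (by omega) (by omega), fun y _ hyr hyK hy => ?_⟩
      rw [hrk, finrank_eq_one_iff'] at hy
      obtain ⟨⟨w, hw⟩, hw0, hw1⟩ := hy
      obtain ⟨c, hc⟩ := hw1 ⟨a *ᵥ w, Elusive.movedSpace_invariant (hcomm_of hyK hyr a haK) w hw⟩
      have hc' : c • w = a *ᵥ w := congrArg Subtype.val hc
      have hw' : w ≠ 0 := fun h => hw0 (Subtype.ext h)
      have h1 : (δ - c * c) • w = 0 := by
        have h2' : a *ᵥ (a *ᵥ w) = δ • w := by rw [Matrix.mulVec_mulVec, ha2, Matrix.smul_mulVec, Matrix.one_mulVec]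
        rw [← hc', Matrix.mulVec_smul, ← hc', smul_smul] at h2'
        rw [sub_smul, h2', sub_self]
      exact hns c (sub_eq_zero.1 ((smul_eq_zero.1 h1).resolve_right hw')).symm
    · have hrF : ¬ r ∣ Fintype.card F := fun h => by
        obtain ⟨e, hp, he⟩ := FiniteField.card F p
        rw [he] at h
        exact hrp ((Nat.prime_dvd_prime_iff_eq hr hp).1 (hr.dvd_of_dvd_pow h))
      have hrF' : (r : F) ≠ 0 := fun h0 =>
        hrp ((Nat.prime_dvd_prime_iff_eq (Fact.out : p.Prime) hr).1 ((CharP.cast_eq_zero_iff F p _).1 h0)).symm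
      set i := orderOf ((Fintype.card F : ℕ) : ZMod r) with hi
      obtain ⟨c, hc⟩ : ∃ c, c = if Even i then i else 2 * i := ⟨_, rfl⟩
      have hi0 : 0 < i := Elusive.orderOf_pos_of_not_dvd hrF
      have hc0 : 0 < c := by rw [hc]; split_ifs <;> omega
      have hcd : c ≤ 2 * d := by
        refine Elusive.le_of_dvd_card_symplecticGroup hrF hi hc (hΩ.trans ?_)
        rw [← Elusive.card_spGL_eq]
        exact Subgroup.index_dvd_card _
      obtain ⟨s, hs, hker⟩ := Elusive.exists_moving_element (F := F) (d := d) hrF hr2 hi hc (j := 1) (by omega)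
      have hrk : Module.finrank F (Elusive.movedSpace (Elusive.sympToGL d F s)) = c := by
        have := LinearMap.finrank_range_add_finrank_ker (Matrix.toLin' (s : Matrix (Fin d ⊕ Fin d) (Fin d ⊕ Fin d) F) - 1)
        rw [hker, Module.finrank_fintype_fun_eq_card, Fintype.card_sum, Fintype.card_fin] at this
        rw [S5975.movedSpace_sympToGL]
        omega
      have hxs : ∀ z : F, ((Elusive.sympToGL d F s : GL (Fin d ⊕ Fin d) F) : Matrix (Fin d ⊕ Fin d) (Fin d ⊕ Fin d) F) ≠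
          z • (1 : Matrix (Fin d ⊕ Fin d) (Fin d ⊕ Fin d) F) := by
        intro z hz
        let i₀ : Fin d := ⟨0, by omega⟩
        have hz' : (s : Matrix (Fin d ⊕ Fin d) (Fin d ⊕ Fin d) F) = z • 1 := hz
        have hz2 : z * z = 1 := by
          have := Elusive.sympBil_toLin' s (Pi.single (Sum.inl i₀) 1) (Pi.single (Sum.inr i₀) 1)
          rw [hz', map_smul, Matrix.toLin'_one] at this
          simpa [sympBil_apply, sympForm_apply, Pi.single_apply, mul_assoc] using this
        have hzr : z ^ r = 1 := by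
          have := congrArg (fun M : Matrix.symplecticGroup (Fin d) F => (M : Matrix (Fin d ⊕ Fin d) (Fin d ⊕ Fin d) F) (Sum.inl i₀) (Sum.inl i₀)) hs
          simpa [hz', smul_pow] using this
        obtain ⟨l, hl⟩ := hr.odd_of_ne_two hr2
        rw [hl, pow_succ, pow_mul, pow_two, hz2, one_pow, one_mul] at hzr
        rw [S5975.movedSpace_sympToGL, hz', hzr, one_smul, Matrix.toLin'_one, ← Module.End.one_eq_id, sub_self,
          LinearMap.range_zero, finrank_bot] at hrk
        omega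
      refine ⟨Elusive.sympToGL d F s, Elusive.sympToGL_mem s, by rw [← map_pow, hs, map_one], hxs,
        fun y hy hyr hyK hy' => ?_⟩
      rw [hrk] at hy'
      by_cases hi4 : i % 4 = 2
      · exact Elusive.not_dvd_index_unitary hq1 hK hKf hKns hr2 hrF hi hi4 hΩ
      set f : Module.End F (Fin d ⊕ Fin d → F) := Matrix.toLin' (y : Matrix (Fin d ⊕ Fin d) (Fin d ⊕ Fin d) F) with hf
      have hfB : ∀ u v, B (f u) (f v) = B u v := fun u v => by
        rw [hf, Matrix.toLin'_apply, Matrix.toLin'_apply]; exact S5975.sympBil_mulVec hy u v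
      have hfr : f ^ r = 1 := S5975.toLin'_pow_GL hyr
      have hN : Elusive.NonDegOn B (LinearMap.range (f - 1)) :=
        Elusive.nonDegOn_range_sub_one sympBil_nondegenerate hfB hrF' hfr
      have hcm := hcomm_of hyK hyr a haK
      have hC : Disjoint (LinearMap.ker (f - 1)) (LinearMap.range (f - 1)) := by
        refine Submodule.disjoint_def.2 fun v hv hv' => hN v hv' ?_
        rintro _ ⟨w, rfl⟩
        have hfv : f v = v := sub_eq_zero.1 (LinearMap.mem_ker.1 hv)
        rw [LinearMap.sub_apply, Module.End.one_apply, map_sub]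
        conv_lhs => arg 1; rw [← hfv]
        rw [hfB, sub_self]
      refine Elusive.no_commuting_skew (B := B) (f := f) (S := Matrix.toLin' a) hfB hfr hrF hr2 hq1
        (M := LinearMap.range (f - 1)) ?_ hN hC hi hc hy' hi4 hns
        (fun v => by rw [Matrix.toLin'_apply, Matrix.toLin'_apply, Matrix.mulVec_mulVec, ha2, Matrix.smul_mulVec, Matrix.one_mulVec])
        (fun v hv => by rw [Matrix.toLin'_apply]; exact Elusive.movedSpace_invariant hcm v hv)
        (by rw [hf, Module.End.mul_eq_comp, Module.End.mul_eq_comp, ← Matrix.toLin'_mul, ← Matrix.toLin'_mul, hcm])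
        (fun u v => by rw [Matrix.toLin'_apply, Matrix.toLin'_apply]; exact hskew u v)
      rintro _ ⟨w, rfl⟩
      exact ⟨f w, by simp⟩
  · rintro rfl x hx ⟨z, hz⟩ -
    have hz2 : z * z = 1 := by
      let i₀ : Fin d := ⟨0, by omega⟩
      have := S5975.sympBil_mulVec (pow_mem hx 2) (Pi.single (Sum.inl i₀) 1) (Pi.single (Sum.inr i₀) 1)
      rw [hz] at this
      simpa [sympBil_apply, sympForm_apply, Pi.single_apply, Matrix.smul_mulVec, Matrix.one_apply, mul_assoc] using this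
    exact exists_conj_mem hq1 haK ha2 hns hskew hspan hx hz2 hz

end Cfsg.Agent.S5976
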