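import Cfsg.Statements.S5978
import Cfsg.Agent.Elusive.FieldExtOrthMinus
import Cfsg.Agent.Elusive.OrthInvolField
import Cfsg.Agent.Forms.FiniteQuadratic

set_option autoImplicit false
open scoped MatrixGroups
open Cfsg

namespace Cfsg.Agent.S5978

open Module QuadraticMap Matrix Cfsg.Agent.Classical Cfsg.Agent.Forms Cfsg.Agent.Elusive

variable {F : Type*} [Field F] [Fintype F] {m : ℕ}

local notation "Idx" => (Fin m ⊕ Fin m) ⊕ Fin 2

/-- Scalars in the isometry group. -/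
theorem scalar_sq {a b : F} {x : GL Idx F} (hx : x ∈ Cfsg.Geo.omegaGL (Cfsg.quadFormMinus m F a b)) {z : F}
    (h : (x : Matrix Idx Idx F) = z • 1) : z ^ 2 = 1 := by
  have h1 := Elusive25.apply_of_mem_omegaGL hx (Pi.single (Sum.inr 0) 1)
  rw [h, smul_mulVec, one_mulVec] at h1
  simpa [Cfsg.quadFormMinus, pow_two] using h1

/-- An element of odd prime order without conjugates in the stabiliser of the field. -/
theorem exists_bad {p : ℕ} [CharP F p] [Fact p.Prime] (h2 : (2 : F) ≠ 0) (hm : 3 ≤ m) {a b : F}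
    (hab : BinaryAniso a b) {K : Subalgebra F (Matrix Idx Idx F)} (hK : Cfsg.Geo.IsFieldSubalgebra 2 K)
    (hKf : Cfsg.Geo.IsSelfAdjointFor (QuadraticMap.polar (Cfsg.quadFormMinus m F a b)) K)
    {r : ℕ} [Fact r.Prime] (hr2 : r ≠ 2)
    (hΩ : r ∣ (Cfsg.Geo.subalgebraNormalizer K).relIndex (Cfsg.Geo.omegaGL (Cfsg.quadFormMinus m F a b))) :
    ∃ x ∈ Cfsg.Geo.omegaGL (Cfsg.quadFormMinus m F a b), (x : Matrix Idx Idx F) ^ r = 1 ∧
      (∀ z : F, (x : Matrix Idx Idx F) ≠ z • 1) ∧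
      ∀ g ∈ Cfsg.Geo.omegaGL (Cfsg.quadFormMinus m F a b), g⁻¹ * x * g ∉ Cfsg.Geo.subalgebraNormalizer K := by
  have hrp : r.Prime := Fact.out
  have hodd : Odd r := hrp.odd_of_ne_two hr2
  have hscalar : ∀ {x : GL Idx F}, x ∈ Cfsg.Geo.omegaGL (Cfsg.quadFormMinus m F a b) →
      (x : Matrix Idx Idx F) ^ r = 1 → (x : Matrix Idx Idx F) ≠ 1 → ∀ z : F, (x : Matrix Idx Idx F) ≠ z • 1 := by
    intro x hx hxr hx1 z hz
    have hz2 := scalar_sq hx hz
    obtain ⟨k, hk⟩ := hodd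
    rw [hz, smul_pow, one_pow, hk, pow_succ, pow_mul, hz2, one_pow, one_mul] at hxr
    exact hx1 (hz.trans hxr)
  obtain ⟨n, hn, hcard⟩ := FiniteField.card F p
  by_cases hrq : r ∣ Fintype.card F
  · obtain rfl : r = p := (Nat.prime_dvd_prime_iff_eq hrp Fact.out).1 (hrp.dvd_of_dvd_pow (hcard ▸ hrq))
    obtain ⟨x, hx, hxr, hx1, hrk⟩ := FieldExtOrth.exists_short_unipotent (m := m) h2 (by omega) hab (p := r) hr2
    refine ⟨x, hx, hxr, hscalar hx hxr hx1, fun g hg h => ?_⟩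
    have := (FieldExtOrth.moved_of_conj h2 hab hK hKf (p := r) hodd hx hg h hxr hx1).2 rfl
    omega
  · have hrF : (r : F) ≠ 0 := fun h => hrq (by
      rw [CharP.cast_eq_zero_iff F p] at h
      obtain rfl : p = r := (Nat.prime_dvd_prime_iff_eq Fact.out hrp).1 h
      rw [hcard]
      exact dvd_pow_self _ n.ne_zero)
    have hi4 := FieldExtOrth.mod_four_ne_zero h2 hab hK hKf hrq hr2 hΩ
    obtain ⟨x, hx, hxr, hrk⟩ := FieldExtOrth.exists_minimal_element h2 hab hrq hr2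
      ((hΩ.trans (Subgroup.relIndex_dvd_card _ _)).trans (FieldExtOrth.card_omegaGL_dvd a b)) rfl rfl
    set i := orderOf ((Fintype.card F : ℕ) : ZMod r)
    have hc4 : (if Even i then i else 2 * i) % 4 = 2 := by
      split_ifs with h
      · rw [Nat.even_iff] at h; omega
      · rw [Nat.even_iff] at h; omega
    have hx1 : (x : Matrix Idx Idx F) ≠ 1 := fun h => by
      rw [h, sub_self, Matrix.rank_zero] at hrk; omega
    refine ⟨x, hx, hxr, hscalar hx hxr hx1, fun g hg h => ?_⟩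
    have := (FieldExtOrth.moved_of_conj h2 hab hK hKf (p := p) hodd hx hg h hxr hx1).1 hrF
    omega

/-- Involutions have conjugates in the stabiliser of the field. -/
theorem exists_conj (h2 : (2 : F) ≠ 0) {a b : F} (hab : BinaryAniso a b)
    {K : Subalgebra F (Matrix Idx Idx F)} (hK : Cfsg.Geo.IsFieldSubalgebra 2 K)
    (hKf : Cfsg.Geo.IsSelfAdjointFor (QuadraticMap.polar (Cfsg.quadFormMinus m F a b)) K)
    {x : GL Idx F} (hx : x ∈ Cfsg.Geo.omegaGL (Cfsg.quadFormMinus m F a b)) {z : F}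
    (hxx : (x : Matrix Idx Idx F) * x = z • 1) (hns : ∀ z : F, (x : Matrix Idx Idx F) ≠ z • 1) :
    ∃ g ∈ Cfsg.Geo.omegaGL (Cfsg.quadFormMinus m F a b), g⁻¹ * x * g ∈ Cfsg.Geo.subalgebraNormalizer K := by
  classical
  letI := FieldExtOrth.fieldOf hK
  obtain ⟨E, -, -, hgen⟩ := FieldExtOrth.exists_ext h2 hK hKf
  have : Finite K := Finite.of_injective (fun k : K => (k : Matrix Idx Idx F)) Subtype.val_injective
  have hB : BNondeg (minusQF m a b) := FieldExtOrth.minus_nondeg h2 hab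
  have hz2 : z ^ 2 = 1 := scalar_sq (mul_mem hx hx) (by rw [Units.val_mul, hxx])
  have hd : finrank F (Idx → F) = 2 * (m + 1) := by
    rw [finrank_fintype_fun_eq_card, Fintype.card_sum, Fintype.card_sum, Fintype.card_fin, Fintype.card_fin]; omega
  rw [FieldExtOrth.minus_coe] at hx ⊢
  obtain ⟨y, hy, rfl⟩ := hx
  set f : OQ (minusQF m a b) := OrthGen.matEquiv (minusQF m a b) y
  have hfc : f ∈ commutator (OQ (minusQF m a b)) := (mem_Omega_iff_matEquiv (minusQF m a b) y).1 hy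
  have hfg : Elusive25.glOf (minusQF m a b) f = (Cfsg.isometryGroup F ⇑(minusQF m a b)).subtype y := by
    simp [Elusive25.glOf, f]
  rw [← hfg] at hxx hns ⊢
  have hmul := Elusive25.glOf_mulVec (minusQF m a b) f
  have hff : ∀ v, f.1 (f.1 v) = z • v := fun v => by
    rw [← hmul, ← hmul, mulVec_mulVec, hxx, smul_mulVec, one_mulVec]
  have key : ∃ g ∈ commutator (OQ (minusQF m a b)), ∃ ε : F, (ε = 1 ∨ ε = -1) ∧
      ∀ v, g.1.symm (f.1 (g.1 (E.s • v))) = ε • (E.s • g.1.symm (f.1 (g.1 v))) := by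
    rcases sq_eq_one_iff.1 hz2 with rfl | rfl
    · refine OrthInvolField.sq_one E hB hd hfc (fun v => by rw [hff, one_smul]) ?_ ?_
      · by_contra h
        push Not at h
        exact hns 1 (Matrix.ext_iff_mulVec.2 fun v => by rw [hmul, h, one_smul, one_mulVec])
      · by_contra h
        push Not at h
        exact hns (-1) (Matrix.ext_iff_mulVec.2 fun v => by rw [hmul, h, neg_one_smul, neg_mulVec, one_mulVec])
    · exact OrthInvolField.sq_neg_one E hB (by omega) hd (fun W hW => Nat.lt_succ_of_le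
        (finrank_le_of_vanishes_quadFormMinus hab W fun w hw => by rw [FieldExtOrth.minus_coe]; exact hW w hw))
        (fun v => by rw [hff, neg_one_smul])
  obtain ⟨g, hg, ε, -, hgs⟩ := key
  refine ⟨Elusive25.glOf (minusQF m a b) g, Elusive25.glOf_mem_omegaGL (minusQF m a b) hg, ?_⟩
  set Y : GL Idx F := (Elusive25.glOf (minusQF m a b) g)⁻¹ * Elusive25.glOf (minusQF m a b) f * Elusive25.glOf (minusQF m a b) g with hY
  have hYv : ∀ v, (Y : Matrix Idx Idx F) *ᵥ v = g.1.symm (f.1 (g.1 v)) := fun v => by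
    rw [hY, ← map_inv, Units.val_mul, Units.val_mul, ← mulVec_mulVec, ← mulVec_mulVec, Elusive25.glOf_mulVec,
      hmul, Elusive25.glOf_mulVec]
    rfl
  have hYs : (Y : Matrix Idx Idx F) * (E.s : Matrix Idx Idx F) = ε • ((E.s : Matrix Idx Idx F) * Y) :=
    Matrix.ext_iff_mulVec.2 fun v => by
      rw [← mulVec_mulVec, smul_mulVec, ← mulVec_mulVec, hYv, hYv]
      exact hgs v
  refine MaxSub.mem_normalizer_iff_map_le.2 fun k hk => ?_
  obtain ⟨c, d, rfl⟩ := hgen k hk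
  rw [mul_add, mul_smul_comm, mul_smul_comm, mul_one, hYs, add_mul, smul_mul_assoc, smul_mul_assoc, smul_mul_assoc,
    mul_assoc, ← Units.val_mul, mul_inv_cancel, Units.val_one, mul_one]
  exact add_mem (K.smul_mem (one_mem K) c) (K.smul_mem (K.smul_mem E.s.2 ε) d)

/-- The criterion. -/
theorem iff_two {p : ℕ} [CharP F p] [Fact p.Prime] (h2 : (2 : F) ≠ 0) (hm : 3 ≤ m) {a b : F}
    (hab : BinaryAniso a b) {K : Subalgebra F (Matrix Idx Idx F)} (hK : Cfsg.Geo.IsFieldSubalgebra 2 K)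
    (hKf : Cfsg.Geo.IsSelfAdjointFor (QuadraticMap.polar (Cfsg.quadFormMinus m F a b)) K)
    {r : ℕ} [Fact r.Prime]
    (hΩ : r ∣ (Cfsg.Geo.subalgebraNormalizer K).relIndex (Cfsg.Geo.omegaGL (Cfsg.quadFormMinus m F a b))) :
    (∀ x ∈ Cfsg.Geo.omegaGL (Cfsg.quadFormMinus m F a b),
      (∃ z : F, ((x ^ r : GL Idx F) : Matrix Idx Idx F) = z • (1 : Matrix Idx Idx F)) →
      (∀ z : F, (x : Matrix Idx Idx F) ≠ z • (1 : Matrix Idx Idx F)) →
      ∃ g ∈ Cfsg.Geo.omegaGL (Cfsg.quadFormMinus m F a b), g⁻¹ * x * g ∈ Cfsg.Geo.subalgebraNormalizer K) ↔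
      r = 2 := by
  constructor
  · intro h
    by_contra hr2
    obtain ⟨x, hx, hxr, hns, hbad⟩ := exists_bad (p := p) h2 hm hab hK hKf hr2 hΩ
    obtain ⟨g, hg, hgm⟩ := h x hx ⟨1, by rw [Units.val_pow_eq_pow_val, hxr, one_smul]⟩ hns
    exact hbad g hg hgm
  · rintro rfl x hx ⟨z, hz⟩ hns
    exact exists_conj h2 hab hK hKf hx (by rw [← hz, pow_two, Units.val_mul]) hns

/-- Elements of prime order of PΩ⁻_n(q), q odd, and the field-extension subgroups of degree 2 (orthogonal type over F_{q²}). Here `T = PΩ⁻_{2d}(F)` for a field `F` with `q` elements, `q` odd, `d ≥ 4`, realised through `Ω⁻_{2d}(q)`, the commutator subgroup of the isometry group of `Q = Σ_{i<d−1} xᵢyᵢ + z₁² + a z₁z₂ + b z₂²` with `z₁² + a z₁z₂ + b z₂²` anisotropic, with polar form `B`; `K` is a subalgebra of the `2d × 2d` matrices that is a field of degree 2 over `F` whose elements are self-adjoint for `B` (so `F^{2d}` becomes a `d`-dimensional space over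 `K ≅ F_{q²}` on which `B` is the trace of a `K`-bilinear symmetric form); `H` is the subgroup of `Ω⁻_{2d}(q)` normalizing `K` — the elements of `Ω⁻_{2d}(q)` that are `K`-linear or `K`-semilinear, a subgroup of orthogonal type over the quadratic extension (maximality is not assumed). Ω is the set of cosets of `H`, so an element of `T` of prime order `r` (`x ∈ Ω⁻_{2d}(q)` with `x^r` scalar, `x` not scalar) fixes a point of Ω exactly when some `Ω⁻_{2d}(q)`-conjugate of `x` normalizes `K`. Let `r` be a prime dividing the index of `H`. Then every element of `T` of order `r` fixes a point of Ω if and only if `r = 2`. -/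
theorem result {F : Type*} [Field F] [Fintype F] {p : ℕ} [Fact p.Prime] [CharP F p] {q : ℕ} (hq : Fintype.card F = q)
    (hodd : Odd q) (d : ℕ) (hd : 4 ≤ d) (a b : F) (hab : ∀ x y : F, x ^ 2 + a * x * y + b * y ^ 2 = 0 → x = 0 ∧ y = 0)
    (K : Subalgebra F (Matrix ((Fin (d - 1) ⊕ Fin (d - 1)) ⊕ Fin 2) ((Fin (d - 1) ⊕ Fin (d - 1)) ⊕ Fin 2) F)) (hK : Cfsg.Geo.IsFieldSubalgebra 2 K)
    (hKf : Cfsg.Geo.IsSelfAdjointFor (QuadraticMap.polar (Cfsg.quadFormMinus (d - 1) F a b)) K)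
    (r : ℕ) [Fact r.Prime]
    (hΩ : r ∣ (Cfsg.Geo.subalgebraNormalizer K).relIndex (Cfsg.Geo.omegaGL (Cfsg.quadFormMinus (d - 1) F a b))) :
    (∀ x ∈ Cfsg.Geo.omegaGL (Cfsg.quadFormMinus (d - 1) F a b), (∃ z : F, ((x ^ r : GL ((Fin (d - 1) ⊕ Fin (d - 1)) ⊕ Fin 2) F) : Matrix ((Fin (d - 1) ⊕ Fin (d - 1)) ⊕ Fin 2) ((Fin (d - 1) ⊕ Fin (d - 1)) ⊕ Fin 2) F) = z • (1 : Matrix ((Fin (d - 1) ⊕ Fin (d - 1)) ⊕ Fin 2) ((Fin (d - 1) ⊕ Fin (d - 1)) ⊕ Fin 2) F)) →
      (∀ z : F, (x : Matrix ((Fin (d - 1) ⊕ Fin (d - 1)) ⊕ Fin 2) ((Fin (d - 1) ⊕ Fin (d - 1)) ⊕ Fin 2) F) ≠ z • (1 : Matrix ((Fin (d - 1) ⊕ Fin (d - 1)) ⊕ Fin 2) ((Fin (d - 1) ⊕ Fin (d - 1)) ⊕ Fin 2) F)) →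
      ∃ g ∈ Cfsg.Geo.omegaGL (Cfsg.quadFormMinus (d - 1) F a b), g⁻¹ * x * g ∈ Cfsg.Geo.subalgebraNormalizer K) ↔ r = 2 := by
  have h2 : (2 : F) ≠ 0 := Ring.two_ne_zero fun h => by
    have := FiniteField.even_card_of_char_two h
    rw [hq] at this
    exact Nat.not_even_iff_odd.2 hodd (Nat.even_iff.2 this)
  exact iff_two (p := p) h2 (by omega) hab hK hKf hΩ

end Cfsg.Agent.S5978
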