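import Cfsg.Statements.S5979
import Cfsg.Agent.Elusive.TensorRank
import Cfsg.Agent.Elusive.SLCriterion
import Cfsg.Agent.Elusive.QuadStructure
import Cfsg.Agent.Elusive25.Eigen
import Cfsg.Agent.GeoClasses.Basic
import Cfsg.Agent.GeoClasses.Tensor

set_option autoImplicit false
set_option linter.unusedSectionVars false
set_option linter.style.haveILetI false
open Cfsg

namespace Cfsg.Agent.S5979

open Matrix Cfsg.Agent.Elusive Cfsg.Agent.GeoClasses
open scoped Kronecker

variable {F : Type*} [Field F] [Fintype F] {a b : ℕ}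

local notation "I2" => Fin a × Fin b
local notation "Mat2" => Matrix (Fin a × Fin b) (Fin a × Fin b) F

/-- Conjugate to a Kronecker product. -/
def IsKron (y : Matrix (Fin a × Fin b) (Fin a × Fin b) F) : Prop :=
  ∃ (G : Matrix (Fin a × Fin b) (Fin a × Fin b) F) (A : Matrix (Fin a) (Fin a) F) (B : Matrix (Fin b) (Fin b) F),
    IsUnit G.det ∧ IsUnit B ∧ y * G = G * (A ⊗ₖ B)

theorem IsKron.rank_eq {y G K : Mat2} (hG : IsUnit G.det) (h : y * G = G * K) (c : F) :
    (y - c • 1).rank = (K - c • 1).rank := by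
  rw [← rank_mul_eq_left_of_isUnit_det G (y - c • 1) hG, ← rank_mul_eq_right_of_isUnit_det G (K - c • 1) hG]
  rw [sub_mul, mul_sub, h, smul_mul_assoc, one_mul, mul_smul_comm, mul_one]

theorem not_isKron_of_rank {y : Mat2} {c₁ c₂ : F}
    (h1 : (y - c₁ • 1).rank < b) (h2 : ¬ a ∣ (y - c₂ • 1).rank) : ¬ IsKron y := by
  rintro ⟨G, A, B, hG, hB, h⟩
  by_cases hA : ∃ α : F, A = α • 1
  · obtain ⟨α, rfl⟩ := hA
    rw [IsKron.rank_eq hG h, Tensor.rank_scalar_kronecker] at h2
    exact h2 (dvd_mul_right _ _)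
  · push Not at hA
    rw [IsKron.rank_eq hG h] at h1
    have := Tensor.le_rank_of_not_scalar hA hB c₁
    omega

theorem not_isKron_of_order {r : ℕ} [Fact r.Prime] (ha : 2 ≤ a) (hlt : a < b) (hr : ¬ r ∣ Fintype.card F)
    (hi : 2 ≤ orderOf ((Fintype.card F : ℕ) : ZMod r)) {y : Mat2} (hy : y ^ r = 1)
    (hrk : (y - 1).rank = orderOf ((Fintype.card F : ℕ) : ZMod r)) : ¬ IsKron y := by
  rintro ⟨G, A, B, hG, hB, h⟩
  have hp : Fact r.Prime := inferInstance
  have : NeZero b := ⟨by omega⟩
  set i := orderOf ((Fintype.card F : ℕ) : ZMod r)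
  have hK : (A ⊗ₖ B) ^ r = 1 := by
    have hpow : ∀ k, y ^ k * G = G * (A ⊗ₖ B) ^ k := by
      intro k
      induction k with
      | zero => simp
      | succ k ih => rw [pow_succ, pow_succ, mul_assoc, h, ← mul_assoc, ih, mul_assoc]
    have h2 := hpow r
    rw [hy, one_mul] at h2
    exact ((Matrix.isUnit_iff_isUnit_det G).2 hG).mul_left_cancel (h2.symm.trans (mul_one G).symm)
  rw [Tensor.kronecker_pow] at hK
  have hrk1 : (A ⊗ₖ B - (1 : F) • 1).rank = i := by
    rw [← IsKron.rank_eq hG h, one_smul]; exact hrk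
  by_cases hA : ∃ α : F, A = α • 1
  · obtain ⟨α, rfl⟩ := hA
    rw [Tensor.rank_scalar_kronecker, one_smul] at hrk1
    have hB' : (α • B) ^ r = 1 := by
      rw [_root_.smul_pow, one_pow] at hK
      ext j k
      have := congrFun (congrFun hK (⟨0, by omega⟩, j)) (⟨0, by omega⟩, k)
      simpa [_root_.smul_pow, Matrix.one_apply, smul_eq_mul] using this
    have hne : α • B ≠ 1 := by
      intro h1
      rw [h1, sub_self, rank_zero, mul_zero] at hrk1
      omega
    have h2 := Tensor.le_rank_of_pow_eq_one hr hB' hne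
    have : 2 * (α • B - 1).rank ≤ a * (α • B - 1).rank := Nat.mul_le_mul_right _ ha
    omega
  · push Not at hA
    have hb := Tensor.le_rank_of_not_scalar hA hB 1
    obtain ⟨α, hα⟩ := Tensor.scalar_of_kronecker_eq (γ := 1) (hB.pow r) (by rw [hK, one_smul])
    obtain ⟨β, hβ⟩ := exists_pow_eq_of_not_dvd hp.out (not_dvd_sub_one hi) α
    have hβ0 : β ≠ 0 := by
      rintro rfl
      rw [zero_pow hp.out.ne_zero] at hβ
      rw [hα, ← hβ, zero_smul, zero_kronecker] at hK
      have := congrFun (congrFun hK (⟨0, by omega⟩, ⟨0, by omega⟩)) (⟨0, by omega⟩, ⟨0, by omega⟩)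
      simp at this
    have hA' : (β⁻¹ • A) ^ r = 1 := by
      rw [_root_.smul_pow, hα, smul_smul, ← hβ, inv_pow, inv_mul_cancel₀ (pow_ne_zero _ hβ0), one_smul]
    have hne : β⁻¹ • A ≠ 1 := fun h1 => hA β (by rw [← h1, smul_smul, mul_inv_cancel₀ hβ0, one_smul])
    have h2 := Tensor.le_rank_of_pow_eq_one hr hA' hne
    have h3 := rank_le_card_width (β⁻¹ • A - 1)
    rw [Fintype.card_fin] at h3
    omega

/-- A derangement. -/
def IsBad (r : ℕ) (y : Matrix (Fin a × Fin b) (Fin a × Fin b) F) : Prop :=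
  y.det = 1 ∧ (∃ z : F, y ^ r = z • 1) ∧ (∀ z : F, y ≠ z • 1) ∧ ¬ IsKron y

theorem exists_bad_transvection (p : ℕ) [Fact p.Prime] [CharP F p] (ha : 2 ≤ a) (hlt : a < b) :
    ∃ y : Mat2, IsBad p y := by
  set P0 : I2 := (⟨0, by omega⟩, ⟨0, by omega⟩)
  set P1 : I2 := (⟨1, by omega⟩, ⟨0, by omega⟩)
  have hne : P0 ≠ P1 := by simp [P0, P1, Fin.ext_iff]
  set N : Mat2 := Matrix.single P0 P1 1
  have hN0 : N ≠ 0 := fun h => one_ne_zero (α := F) (by simpa [N] using congrFun (congrFun h P0) P1)
  have hy : transvection P0 P1 (1 : F) = 1 + N := rfl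
  have hrank : ((1 + N) - (1 : F) • 1).rank = 1 := by
    rw [one_smul, add_sub_cancel_left]
    refine le_antisymm ?_ (Nat.one_le_iff_ne_zero.2 fun h => hN0 ?_)
    · rw [show N = vecMulVec (Pi.single P0 1) (Pi.single P1 1) from by
        simp [N, Matrix.single_eq_single_vecMulVec_single]]
      exact rank_vecMulVec_le _ _
    · rw [Matrix.rank, Submodule.finrank_eq_zero, LinearMap.range_eq_bot] at h
      exact Matrix.ext_of_mulVec_single fun i => (LinearMap.congr_fun h (Pi.single i 1)).trans (zero_mulVec _).symm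
  refine ⟨1 + N, ?_, ⟨1, ?_⟩, fun z hz => ?_, not_isKron_of_rank (c₁ := 1) (c₂ := 1) (by omega) ?_⟩
  · rw [← hy, det_transvection_of_ne _ _ hne]
  · haveI : Nonempty I2 := ⟨P0⟩
    haveI : CharP Mat2 p := Matrix.charP ..
    have hNN : N ^ 2 = 0 := by simp [N, pow_two, single_mul_single_of_ne, hne.symm]
    rw [one_smul, add_pow_char_of_commute p (Commute.one_left N), one_pow,
      pow_eq_zero_of_le (Fact.out : p.Prime).two_le hNN, add_zero]
  · have := congrFun (congrFun hz P0) P1
    simp [N, hne] at this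
  · rw [hrank]
    exact fun h => by have := Nat.le_of_dvd one_pos h; omega

theorem isBad_diagonal {r : ℕ} (d : I2 → F) (hd : ∏ p, d p = 1) (z : F) (hz : ∀ p, d p ^ r = z)
    {p q : I2} (hpq : d p ≠ d q) {c₁ c₂ : F} (h1 : ∀ s : Finset I2, (∀ x, x ∈ s ↔ d x ≠ c₁) → s.card < b)
    (h2 : ∀ s : Finset I2, (∀ x, x ∈ s ↔ d x ≠ c₂) → ¬ a ∣ s.card) : ∃ y : Mat2, IsBad r y := by
  classical
  have hrk : ∀ c : F, (diagonal d - c • (1 : Mat2)).rank = (Finset.univ.filter fun x => d x ≠ c).card := by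
    intro c
    rw [smul_one_eq_diagonal, diagonal_sub, rank_diagonal, Fintype.card_subtype]
    exact congrArg Finset.card (Finset.filter_congr fun x _ => sub_ne_zero)
  refine ⟨diagonal d, by rw [det_diagonal, hd], ⟨z, ?_⟩, fun w hw => hpq ?_, not_isKron_of_rank (c₁ := c₁) (c₂ := c₂) ?_ ?_⟩
  · rw [diagonal_pow, smul_one_eq_diagonal]; exact congrArg diagonal (funext hz)
  · rw [smul_one_eq_diagonal] at hw
    have h := diagonal_injective hw
    rw [congrFun h p, congrFun h q]
  · rw [hrk]; exact h1 _ fun x => by simp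
  · rw [hrk]; exact h2 _ fun x => by simp

theorem exists_bad_order {r p : ℕ} [Fact r.Prime] [Fact p.Prime] [CharP F p] (ha : 2 ≤ a) (hlt : a < b)
    (hr : ¬ r ∣ Fintype.card F) (hi : 2 ≤ orderOf ((Fintype.card F : ℕ) : ZMod r))
    (hin : orderOf ((Fintype.card F : ℕ) : ZMod r) ≤ a * b) : ∃ y : Mat2, IsBad r y := by
  set i := orderOf ((Fintype.card F : ℕ) : ZMod r)
  obtain ⟨x, hx, hxs, hxk⟩ := exists_element_fixed (F := F) (n := a * b) p hi (c := a * b - i) (t := 1)
    one_pos (by omega)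
  rw [one_smul] at hx
  replace hx : (x : Matrix (Fin (a * b)) (Fin (a * b)) F) ^ r = 1 := (Matrix.SpecialLinearGroup.coe_pow x r).symm.trans hx
  let e0 : Fin (a * b) ≃ I2 := finProdFinEquiv.symm
  let φ := reindexAlgEquiv F F e0
  set M := (x : Matrix (Fin (a * b)) (Fin (a * b)) F)
  have hy : (φ M) ^ r = 1 := by rw [← map_pow, hx, map_one]
  refine ⟨φ M, ?_, ⟨1, by rw [hy, one_smul]⟩, fun z hz => hxs z ?_, not_isKron_of_order ha hlt hr hi hy ?_⟩
  · show (Matrix.reindex e0 e0 M).det = 1
    rw [det_reindex_self]; exact x.det_coe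
  · exact φ.injective (by rw [hz, map_smul, map_one])
  · rw [← map_one φ, ← map_sub]
    show (Matrix.reindex e0 e0 (M - 1)).rank = i
    rw [rank_reindex]
    have h2 := LinearMap.finrank_range_add_finrank_ker ((toLin' M : Module.End F (Fin (a * b) → F)) - 1)
    rw [hxk, Module.finrank_fin_fun] at h2
    have h3 : (M - 1).rank = Module.finrank F (LinearMap.range ((toLin' M : Module.End F (Fin (a * b) → F)) - 1)) := by
      rw [Matrix.rank, ← toLin'_apply', map_sub, toLin'_one]
      rfl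
    omega

theorem exists_bad {r p : ℕ} [Fact r.Prime] [Fact p.Prime] [CharP F p] (ha : 2 ≤ a) (hlt : a < b)
    (hin : r ≠ p → orderOf ((Fintype.card F : ℕ) : ZMod r) ≤ a * b)
    (hnot : ¬ (r = 2 ∧ a = 2 ∧ Odd (Fintype.card F) ∧ padicValNat 2 (Fintype.card F - 1) ≤ padicValNat 2 (a * b))) :
    ∃ y : Mat2, IsBad r y := by
  classical
  have hr0 : r.Prime := Fact.out
  by_cases hrp : r = p
  · subst hrp; exact exists_bad_transvection r ha hlt
  have hr : ¬ r ∣ Fintype.card F := by
    obtain ⟨e, -, he⟩ := FiniteField.card F p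
    rw [he]
    exact fun h => hrp ((Nat.prime_dvd_prime_iff_eq hr0 Fact.out).1 (hr0.dvd_of_dvd_pow h))
  have hi0 := Elusive.orderOf_pos_of_not_dvd hr
  by_cases hi : 2 ≤ orderOf ((Fintype.card F : ℕ) : ZMod r)
  · exact exists_bad_order (p := p) ha hlt hr hi (hin hrp)
  have hd : r ∣ Fintype.card F - 1 := orderOf_eq_one_iff_dvd.1 (by omega)
  obtain ⟨u, hu⟩ := exists_prime_orderOf_dvd_card' (G := Fˣ) r (by
    rw [Nat.card_units, Nat.card_eq_fintype_card]; exact hd)
  set l : F := (u : F)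
  have hl : l ^ r = 1 := by rw [← Units.val_pow_eq_pow_val, ← hu, pow_orderOf_eq_one, Units.val_one]
  have hl1 : l ≠ 1 := fun h => hr0.ne_one (by rw [← hu, Units.val_eq_one.1 h, orderOf_one])
  have hl0 : l ≠ 0 := u.ne_zero
  set P0 : I2 := (⟨0, by omega⟩, ⟨0, by omega⟩)
  set P1 : I2 := (⟨1, by omega⟩, ⟨0, by omega⟩)
  set P2 : I2 := (⟨0, by omega⟩, ⟨1, by omega⟩)
  have h01 : P0 ≠ P1 := by simp [P0, P1, Fin.ext_iff]
  have h20 : P2 ≠ P0 := by simp [P0, P2, Fin.ext_iff]
  have h21 : P2 ≠ P1 := by simp [P1, P2, Fin.ext_iff]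
  let d : I2 → F := Function.update (Function.update 1 P0 l) P1 l⁻¹
  have d0 : d P0 = l := by simp [d, h01]
  have d1 : d P1 = l⁻¹ := by simp [d]
  have dx : ∀ x, x ≠ P0 → x ≠ P1 → d x = 1 := fun x hx hx' => by simp [d, hx, hx']
  have hsupp : ∀ x, d x ≠ 1 → x ∈ ({P0, P1} : Finset I2) := fun x hx => by
    by_contra h
    rw [Finset.mem_insert, Finset.mem_singleton] at h
    push Not at h
    exact hx (dx x h.1 h.2)
  have hprod : ∏ x, d x = 1 := by
    rw [← Finset.prod_subset (Finset.subset_univ {P0, P1}) fun x _ hx => by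
      by_contra h; exact hx (hsupp x h), Finset.prod_pair h01, d0, d1, mul_inv_cancel₀ hl0]
  have hpow : ∀ x, d x ^ r = 1 := fun x => by
    rcases eq_or_ne x P0 with rfl | hx
    · rw [d0, hl]
    rcases eq_or_ne x P1 with rfl | hx'
    · rw [d1, inv_pow, hl, inv_one]
    · rw [dx x hx hx', one_pow]
  have hb : (2 : ℕ) < b := by omega
  have hcard1 : ∀ s : Finset I2, (∀ x, x ∈ s ↔ d x ≠ 1) → s = {P0, P1} := fun s hs => by
    refine Finset.ext fun x => (hs x).trans ⟨hsupp x, fun hx => ?_⟩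
    rw [Finset.mem_insert, Finset.mem_singleton] at hx
    rcases hx with rfl | rfl
    · rwa [d0]
    · rw [d1]; exact fun h => hl1 (inv_eq_one.1 h)
  rcases hr0.eq_two_or_odd' with h2 | hodd
  · have hl2 : l = -1 := by
      rw [h2] at hl
      exact (sq_eq_one_iff.1 hl).resolve_left hl1
    rcases (show a = 2 ∨ 3 ≤ a by omega) with ha2 | ha3
    · have hqodd : Odd (Fintype.card F) := by
        rw [Nat.odd_iff]; rw [h2] at hr; omega
      have hv : padicValNat 2 (a * b) < padicValNat 2 (Fintype.card F - 1) := by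
        by_contra h
        exact hnot ⟨h2, ha2, hqodd, not_lt.1 h⟩
      have h2F : (2 : F) ≠ 0 := fun h => hl1 (by rw [hl2]; linear_combination -h)
      obtain ⟨w, hw⟩ := (exists_pow_eq_neg_one_iff h2F (Nat.mul_pos (by omega) (by omega))).2 hv
      have hw0 : w ≠ 0 := fun h => by
        rw [h, zero_pow (Nat.mul_ne_zero (by omega) (by omega))] at hw
        exact one_ne_zero (neg_eq_zero.1 hw.symm)
      let d' : I2 → F := Function.update (fun _ => w) P0 (-w)
      refine isBad_diagonal d' ?_ (w ^ 2) (fun x => ?_) (p := P0) (q := P1) ?_ (c₁ := w) (c₂ := w) ?_ ?_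
      · rw [Finset.prod_update_of_mem (Finset.mem_univ _), Finset.prod_const, Finset.card_sdiff,
          Finset.inter_univ, Finset.card_singleton, Finset.card_univ, Fintype.card_prod, Fintype.card_fin,
          Fintype.card_fin, neg_mul, ← pow_succ',
          Nat.sub_add_cancel (Nat.mul_pos (by omega : 0 < a) (by omega : 0 < b)), hw, neg_neg]
      · rw [h2]; rcases eq_or_ne x P0 with rfl | hx <;> simp [d', *]
      · simp only [d', Function.update_self, Function.update_of_ne h01.symm]
        exact fun h => hw0 ((mul_eq_zero.1 (show (2 : F) * w = 0 by linear_combination -h)).resolve_left h2F)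
      · intro s hs
        have : s ⊆ {P0} := fun x hx => by
          rw [Finset.mem_singleton]; by_contra h
          exact (hs x).1 hx (by simp [d', h])
        have := Finset.card_le_card this
        rw [Finset.card_singleton] at this
        omega
      · intro s hs hdvd
        have : s = {P0} := Finset.ext fun x => by
          rw [hs, Finset.mem_singleton]
          rcases eq_or_ne x P0 with rfl | hx
          · simp only [d', Function.update_self, iff_true]
            exact fun h => hw0 ((mul_eq_zero.1 (show (2 : F) * w = 0 by linear_combination -h)).resolve_left h2F)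
          · simp [d', hx]
        rw [this, Finset.card_singleton] at hdvd
        have := Nat.le_of_dvd one_pos hdvd
        omega
    · refine isBad_diagonal d hprod 1 hpow (p := P0) (q := P2) ?_ (c₁ := 1) (c₂ := 1) ?_ ?_
      · rw [d0, dx P2 h20 h21]; exact hl1
      · intro s hs; rw [hcard1 s hs, Finset.card_pair h01]; omega
      · intro s hs hdvd
        rw [hcard1 s hs, Finset.card_pair h01] at hdvd
        have := Nat.le_of_dvd two_pos hdvd
        omega
  · have hll : l⁻¹ ≠ l := by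
      intro h
      refine hl1 ?_
      obtain ⟨k, hk⟩ := hodd
      have h2 : l ^ 2 = 1 := by rw [pow_two]; nth_rw 1 [← h]; exact inv_mul_cancel₀ hl0
      rw [hk, pow_succ, pow_mul, h2, one_pow, one_mul] at hl
      exact hl
    refine isBad_diagonal d hprod 1 hpow (p := P0) (q := P1) ?_ (c₁ := 1) (c₂ := l) ?_ ?_
    · rw [d0, d1]; exact hll.symm
    · intro s hs; rw [hcard1 s hs, Finset.card_pair h01]; omega
    · intro s hs hdvd
      have hsc : s = Finset.univ.erase P0 := Finset.ext fun x => by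
        rw [hs, Finset.mem_erase]
        rcases eq_or_ne x P0 with rfl | hx
        · simp [d0]
        simp only [ne_eq, hx, not_false_iff, Finset.mem_univ, and_self, iff_true]
        rcases eq_or_ne x P1 with rfl | hx'
        · rw [d1]; exact hll
        · rw [dx x hx hx']; exact hl1.symm
      rw [hsc, Finset.card_erase_of_mem (Finset.mem_univ _), Finset.card_univ, Fintype.card_prod,
        Fintype.card_fin, Fintype.card_fin] at hdvd
      obtain ⟨c, hc⟩ := hdvd
      have h1 : a ∣ a * b - (a * b - 1) := Nat.dvd_sub (dvd_mul_right a b) ⟨c, hc⟩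
      rw [Nat.sub_sub_self (Nat.mul_pos (by omega : 0 < a) (by omega : 0 < b))] at h1
      have := Nat.le_of_dvd one_pos h1
      omega

theorem exists_conj_kron (hqodd : Odd (Fintype.card F))
    (hv : padicValNat 2 (Fintype.card F - 1) ≤ padicValNat 2 (2 * b)) (hb : 0 < b)
    {Y : Matrix (Fin 2 × Fin b) (Fin 2 × Fin b) F} (hdet : Y.det = 1) {z : F} (hY : Y ^ 2 = z • 1) :
    ∃ (G : Matrix (Fin 2 × Fin b) (Fin 2 × Fin b) F) (A : Matrix (Fin 2) (Fin 2) F) (B : Matrix (Fin b) (Fin b) F),
      G.det = 1 ∧ Y * G = G * (A ⊗ₖ B) := by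
  classical
  have hchar : ringChar F ≠ 2 := fun hc => by
    have := FiniteField.even_card_of_char_two hc
    rw [Nat.odd_iff] at hqodd; omega
  have h2F : (2 : F) ≠ 0 := Ring.two_ne_zero hchar
  suffices h : ∃ (G : Matrix (Fin 2 × Fin b) (Fin 2 × Fin b) F) (A : Matrix (Fin 2) (Fin 2) F)
      (B : Matrix (Fin b) (Fin b) F), IsUnit G.det ∧ Y * G = G * (A ⊗ₖ B) ∧
      ∀ δ : F, δ ≠ 0 → ∃ u, u.det = δ ∧ u * (A ⊗ₖ B) = (A ⊗ₖ B) * u by
    obtain ⟨G, A, B, hG, hYG, hu⟩ := h
    obtain ⟨u, hu1, hu2⟩ := hu (G.det)⁻¹ (inv_ne_zero hG.ne_zero)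
    refine ⟨G * u, A, B, by rw [det_mul, hu1, mul_inv_cancel₀ hG.ne_zero], ?_⟩
    rw [← mul_assoc, hYG, mul_assoc, ← hu2, mul_assoc]
  set z₀ : Fin 2 × Fin b := (0, ⟨0, hb⟩)
  have hz0 : z ≠ 0 := by
    rintro rfl
    have h := congrArg Matrix.det hY
    haveI : Nonempty (Fin 2 × Fin b) := ⟨z₀⟩
    rw [det_pow, hdet, one_pow, zero_smul, det_zero] at h
    exact one_ne_zero h
  by_cases hsq : ∃ w, w * w = z
  · obtain ⟨w, rfl⟩ := hsq
    have hw : w ≠ 0 := left_ne_zero_of_mul hz0
    let e0 : Fin (2 * b) ≃ Fin 2 × Fin b := finProdFinEquiv.symm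
    let φ := reindexAlgEquiv F F e0.symm
    set M : Matrix (Fin (2 * b)) (Fin (2 * b)) F := w⁻¹ • φ Y
    have hM2 : M * M = 1 := by
      rw [show M * M = (w⁻¹ * w⁻¹) • φ (Y ^ 2) by rw [map_pow, pow_two, smul_mul_smul_comm], hY, map_smul, map_one,
        smul_smul]
      field_simp
      exact one_smul _ _
    obtain ⟨Q, l, hl, hQ⟩ := Elusive25.exists_eigenbasis M (fun μ => μ = 1 ∨ μ = -1)
      (fun v => Elusive25.span_eigen_sq h2F M (fun v => by rw [mulVec_mulVec, hM2, one_mulVec]) v)
    have hM : φ Y = w • M := by rw [smul_smul, mul_inv_cancel₀ hw, one_smul]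
    let ψ := reindexAlgEquiv F F e0
    set Q' : Matrix (Fin 2 × Fin b) (Fin 2 × Fin b) F := ψ (Q : Matrix (Fin (2 * b)) (Fin (2 * b)) F)
    set l' : Fin 2 × Fin b → F := fun x => l (e0.symm x)
    have hψφ : ψ (φ Y) = Y := by
      ext x y; simp [ψ, φ]
    have hQ' : IsUnit Q'.det := by
      show IsUnit (Matrix.reindex e0 e0 (Q : Matrix (Fin (2 * b)) (Fin (2 * b)) F)).det
      rw [det_reindex_self]
      exact (Matrix.isUnit_iff_isUnit_det _).1 Q.isUnit
    have hYQ : Y * Q' = Q' * diagonal (fun x => w * l' x) := by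
      have h1 : φ Y * (Q : Matrix (Fin (2 * b)) (Fin (2 * b)) F) =
          (Q : Matrix (Fin (2 * b)) (Fin (2 * b)) F) * diagonal (fun i => w * l i) := by
        rw [hM, smul_mul_assoc, hQ, ← mul_smul_comm, ← diagonal_smul]; rfl
      have h2 := congrArg ψ h1
      rw [map_mul, map_mul, hψφ] at h2
      rw [h2]
      congr 1
      ext x y
      by_cases hxy : x = y
      · subst hxy; simp [ψ, l']
      · simp [ψ, hxy]
    set T : Finset (Fin 2 × Fin b) := Finset.univ.filter fun x => l' x = -1 with hT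
    have hne : (1 : F) ≠ -1 := fun h => h2F (by linear_combination h)
    have hl' : ∀ x, x ∉ T → l' x = 1 := fun x hx =>
      (hl (e0.symm x)).resolve_right fun h => hx (by simp [T, l', h])
    have hdetY : w ^ (2 * b) * (-1) ^ T.card = 1 := by
      have h2 := congrArg Matrix.det hYQ
      rw [det_mul, det_mul, hdet, one_mul, det_diagonal, Finset.prod_mul_distrib, Finset.prod_const, Finset.card_univ,
        Fintype.card_prod, Fintype.card_fin, Fintype.card_fin] at h2
      have h3 : ∏ x, l' x = (-1) ^ T.card := by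
        rw [← Finset.prod_subset (Finset.subset_univ T) fun x _ hx => hl' x hx,
          Finset.prod_congr rfl fun x hx => (Finset.mem_filter.1 hx).2, Finset.prod_const]
      rw [← h3]
      exact (mul_right_eq_self₀.1 h2.symm).resolve_right hQ'.ne_zero
    have hTe : Even T.card := by
      rcases Nat.even_or_odd T.card with h | h
      · exact h
      exfalso
      rw [h.neg_one_pow, mul_neg_one, neg_eq_iff_eq_neg] at hdetY
      have := (exists_pow_eq_neg_one_iff h2F (Nat.mul_pos two_pos hb)).1 ⟨w, hdetY⟩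
      omega
    obtain ⟨t, ht⟩ := hTe
    have htb : t ≤ b := by
      have := Finset.card_le_univ T
      rw [Fintype.card_prod, Fintype.card_fin, Fintype.card_fin] at this
      omega
    have hcard : Fintype.card {x : Fin 2 × Fin b // (x.2 : ℕ) < t} = Fintype.card {x // x ∈ T} := by
      rw [Fintype.card_coe, ht]
      rw [Fintype.card_congr (show {x : Fin 2 × Fin b // (x.2 : ℕ) < t} ≃ Fin 2 × Fin t from
        { toFun := fun x => (x.1.1, ⟨x.1.2, x.2⟩)
          invFun := fun x => ⟨(x.1, ⟨x.2, lt_of_lt_of_le x.2.2 htb⟩), x.2.2⟩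
          left_inv := fun x => rfl
          right_inv := fun x => rfl }), Fintype.card_prod, Fintype.card_fin, Fintype.card_fin, two_mul]
    let e := Fintype.equivOfCardEq hcard
    let σ : Equiv.Perm (Fin 2 × Fin b) := e.extendSubtype
    set B : Matrix (Fin b) (Fin b) F := diagonal fun j => if (j : ℕ) < t then -w else w
    refine ⟨Q'.submatrix id σ, 1, B, ?_, ?_, ?_⟩
    · rw [det_permute']
      exact (IsUnit.map (Int.castRingHom F) (Equiv.Perm.sign σ).isUnit).mul hQ'
    · rw [← diagonal_one, diagonal_kronecker_diagonal]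
      ext x y
      have h1 := congrFun (congrFun hYQ x) (σ y)
      rw [mul_diagonal] at h1 ⊢
      rw [submatrix_apply, id_eq]
      refine Eq.trans ?_ (h1.trans ?_)
      · rfl
      congr 1
      rw [one_mul]
      by_cases hy : (y.2 : ℕ) < t
      · rw [if_pos hy, (Finset.mem_filter.1 (e.extendSubtype_mem y hy)).2, mul_neg_one]
      · rw [if_neg hy, hl' _ (e.extendSubtype_not_mem y hy), mul_one]
    · intro δ hδ
      refine ⟨diagonal (Function.update 1 z₀ δ), ?_, ?_⟩
      · rw [det_diagonal, Finset.prod_update_of_mem (Finset.mem_univ _)]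
        simp
      · rw [← diagonal_one, diagonal_kronecker_diagonal, diagonal_mul_diagonal, diagonal_mul_diagonal]
        exact congrArg diagonal (funext fun x => mul_comm _ _)
  · set A : Matrix (Fin 2) (Fin 2) F := !![0, z; 1, 0]
    have hA2 : A * A = z • 1 := by
      ext i j; fin_cases i <;> fin_cases j <;> simp [A, Matrix.mul_apply, Fin.sum_univ_two]
    set K : Matrix (Fin 2 × Fin b) (Fin 2 × Fin b) F := A ⊗ₖ (1 : Matrix (Fin b) (Fin b) F)
    have hK2 : K * K = z • 1 := by
      rw [← mul_kronecker_mul, hA2, one_mul, smul_kronecker, one_kronecker_one]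
    obtain ⟨g, hg⟩ := Elusive.exists_conj_quad (J := toLinAlgEquiv' Y) (J' := toLinAlgEquiv' K) (t := 0) (u := z)
      (by rw [← map_mul, ← pow_two, hY, map_smul, map_one, zero_smul, zero_add])
      (by rw [← map_mul, hK2, map_smul, map_one, zero_smul, zero_add])
      (fun l hl => hsq ⟨l, by rw [hl, zero_mul, zero_add]⟩) (d := b)
      (by rw [Module.finrank_fintype_fun_eq_card, Fintype.card_prod, Fintype.card_fin, Fintype.card_fin])
    refine ⟨LinearMap.toMatrix' g.toLinearMap, A, 1, ?_, ?_, ?_⟩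
    · rw [LinearMap.det_toMatrix']
      exact g.isUnit_det'
    · apply toLin'.injective
      rw [toLin'_mul, toLin'_mul, toLin'_toMatrix']
      exact LinearMap.ext fun v => (hg v).symm
    · intro δ hδ
      obtain ⟨c, e, hce⟩ := FiniteField.exists_root_sum_quadratic (R := F)
        (f := Polynomial.X ^ 2 - Polynomial.C δ) (g := Polynomial.C (-z) * Polynomial.X ^ 2)
        (Polynomial.degree_X_pow_sub_C two_pos δ) (Polynomial.degree_C_mul_X_pow 2 (neg_ne_zero.2 hz0))
        (Nat.odd_iff.1 hqodd)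
      simp at hce
      set M : Matrix (Fin 2) (Fin 2) F := c • 1 + e • A
      refine ⟨blockDiagonal (Function.update (1 : Fin b → Matrix (Fin 2) (Fin 2) F) ⟨0, hb⟩ M), ?_, ?_⟩
      · rw [det_blockDiagonal, Fintype.prod_eq_single (⟨0, hb⟩ : Fin b) fun j hj => by
          rw [Function.update_of_ne hj, Pi.one_apply, det_one], Function.update_self, det_fin_two]
        simp [M, A]
        linear_combination hce
      · rw [kronecker_one, ← blockDiagonal_mul, ← blockDiagonal_mul]
        congr 1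
        funext j
        rcases eq_or_ne j (⟨0, hb⟩ : Fin b) with rfl | hj
        · rw [Function.update_self]; simp [M, add_mul, mul_add]
        · rw [Function.update_of_ne hj, Pi.one_apply, one_mul, mul_one]

/-- The ambient transport. -/
def Φ {n : ℕ} (e : Fin n ≃ Fin a × Fin b) (P : GL (Fin n) F) : GL (Fin n) F ≃* GL (Fin a × Fin b) F :=
  (MulAut.conj P⁻¹).trans (Cfsg.Geo.glReindex e)

theorem mem_tensor_iff {n : ℕ} {e : Fin n ≃ Fin a × Fin b} {P x : GL (Fin n) F} :
    x ∈ Cfsg.Geo.tensorProductSubgroup a b e P ↔ Φ e P x ∈ Cfsg.Geo.kroneckerSubgroup a b F := by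
  have hinv : ∀ k, Φ e P ((MulAut.conj P).toMonoidHom (Cfsg.Geo.glReindex e.symm k)) = k := fun k => by
    apply Units.ext
    simp [Φ, Cfsg.Geo.glReindex, mul_assoc]
  constructor
  · rintro ⟨_, ⟨k, hk, rfl⟩, rfl⟩
    show Φ e P ((MulAut.conj P).toMonoidHom (Cfsg.Geo.glReindex e.symm k)) ∈ _
    rw [hinv]; exact hk
  · intro h
    exact ⟨_, ⟨_, h, rfl⟩, (Φ e P).injective (hinv _)⟩

theorem Φ_val {n : ℕ} (e : Fin n ≃ Fin a × Fin b) (P x : GL (Fin n) F) :
    ((Φ e P x : GL (Fin a × Fin b) F) : Mat2) = Matrix.reindexAlgEquiv F F e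
      (((P⁻¹ : GL (Fin n) F) : Matrix (Fin n) (Fin n) F) * x * P) := by
  simp [Φ, Cfsg.Geo.glReindex]

theorem Φ_scalar_iff {n : ℕ} (e : Fin n ≃ Fin a × Fin b) (P x : GL (Fin n) F) (z : F) :
    ((Φ e P x : GL (Fin a × Fin b) F) : Mat2) = z • 1 ↔ (x : Matrix (Fin n) (Fin n) F) = z • 1 := by
  rw [Φ_val]
  constructor
  · intro h
    have h1 : ((P⁻¹ : GL (Fin n) F) : Matrix (Fin n) (Fin n) F) * x * P = z • 1 :=
      (Matrix.reindexAlgEquiv F F e).injective (by rw [h, map_smul, map_one])
    have h2 := congrArg (fun X => (P : Matrix (Fin n) (Fin n) F) * X * ((P⁻¹ : GL (Fin n) F) : Matrix (Fin n) (Fin n) F)) h1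
    simpa [← mul_assoc] using h2
  · intro h
    rw [h, mul_smul_comm, mul_one, smul_mul_assoc, Units.inv_mul, map_smul, map_one]

theorem Φ_det {n : ℕ} (e : Fin n ≃ Fin a × Fin b) (P x : GL (Fin n) F) :
    ((Φ e P x : GL (Fin a × Fin b) F) : Mat2).det = (x : Matrix (Fin n) (Fin n) F).det := by
  rw [Φ_val, coe_reindexAlgEquiv, det_reindex_self, det_units_conj']

/-- Elements of prime order of PSL_n(q) and the stabilizers of tensor decompositions with factors of different dimensions. Here `T = PSL_n(F)` for a field `F` with `q` elements and `n = a·b` with `2 ≤ a < b`; a tensor decomposition `F^n ≅ F^a ⊗ F^b` is given by a bijection `e` of index sets and a change of basis `P`, and `H` is the subgroup of matrices of determinant 1 in its stabilizer (the conjugate by `P` of the group of Kronecker products `g₁ ⊗ g₂`) — a subgroup of type GL_a(q) ⊗ GL_b(q) (maximality is not assumed); Ω is the set of cosets of `H` in `T`, so an element of `T` of prime order `r` (a matrix `x` of determinant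 1 with `x^r` scalar, `x` not scalar) fixes a point of Ω exactly when some conjugate of `x` by a matrix of determinant 1 lies in `H`. Let `r` be a prime dividing the index of `H`. Then every element of `T` of order `r` fixes a point of Ω if and only if `r = 2`, `a = 2`, `q` is odd and `(q − 1)_2 ≤ (n)_2` (2-parts). -/
theorem result {F : Type*} [Field F] [Fintype F] {p : ℕ} [Fact p.Prime] [CharP F p] {q : ℕ} (hq : Fintype.card F = q)
    (n a b : ℕ) (hab : n = a * b) (ha : 2 ≤ a) (hlt : a < b) (e : Fin n ≃ Fin a × Fin b) (P : GL (Fin n) F)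
    (r : ℕ) [Fact r.Prime]
    (hΩ : r ∣ (Cfsg.Geo.tensorProductSubgroup a b e P).relIndex (Cfsg.Geo.specialLinear (Fin n) F)) :
    (∀ x ∈ Cfsg.Geo.specialLinear (Fin n) F, (∃ z : F, ((x ^ r : GL (Fin n) F) : Matrix (Fin n) (Fin n) F) = z • (1 : Matrix (Fin n) (Fin n) F)) →
      (∀ z : F, (x : Matrix (Fin n) (Fin n) F) ≠ z • (1 : Matrix (Fin n) (Fin n) F)) →
      ∃ g ∈ Cfsg.Geo.specialLinear (Fin n) F, g⁻¹ * x * g ∈ Cfsg.Geo.tensorProductSubgroup a b e P) ↔
    (r = 2 ∧ a = 2 ∧ Odd q ∧ padicValNat 2 (q - 1) ≤ padicValNat 2 n) := by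
  classical
  subst hq
  have hn : 0 < n := by rw [hab]; exact Nat.mul_pos (by omega) (by omega)
  constructor
  · intro h
    by_contra hnot
    rw [hab] at hnot
    have hin : r ≠ p → orderOf ((Fintype.card F : ℕ) : ZMod r) ≤ a * b := by
      intro hrp
      have hdvd : r ∣ Nat.card ↥(Cfsg.Geo.specialLinear (Fin n) F) := hΩ.trans (Subgroup.relIndex_dvd_card _ _)
      obtain ⟨g, hg⟩ := exists_prime_orderOf_dvd_card' r hdvd
      set M := ((g : GL (Fin n) F) : Matrix (Fin n) (Fin n) F)
      have hr : ¬ r ∣ Fintype.card F := by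
        obtain ⟨e', -, he⟩ := FiniteField.card F p
        rw [he]
        exact fun h => hrp ((Nat.prime_dvd_prime_iff_eq Fact.out Fact.out).1 ((Fact.out : r.Prime).dvd_of_dvd_pow h))
      have hg1 : g ^ r = 1 := by rw [← hg, pow_orderOf_eq_one]
      have hM : M ^ r = 1 := by
        rw [← Units.val_pow_eq_pow_val, ← Subgroup.coe_pow, hg1]; rfl
      have hne : M ≠ 1 := fun h1 => by
        have : g = 1 := Subtype.ext (Units.ext h1)
        rw [this, orderOf_one] at hg
        exact (Fact.out : r.Prime).ne_one hg.symm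
      have h1 := Elusive.Tensor.le_rank_of_pow_eq_one hr hM hne
      have h2 := rank_le_card_width (M - 1)
      rw [Fintype.card_fin] at h2
      rw [← hab]; omega
    obtain ⟨y, hy1, ⟨z, hz⟩, hy3, hy4⟩ := exists_bad (r := r) (p := p) (a := a) (b := b) ha hlt hin hnot
    let Y : GL (Fin a × Fin b) F := GeneralLinearGroup.mkOfDetNeZero y (by rw [hy1]; exact one_ne_zero)
    set x := (Φ e P).symm Y
    have hx : (Φ e P x : GL (Fin a × Fin b) F) = Y := (Φ e P).apply_symm_apply Y
    obtain ⟨g, -, hg⟩ := h x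
      (mem_specialLinear_iff.2 (by rw [← Φ_det e P, hx]; exact hy1))
      ⟨z, by rw [← Φ_scalar_iff e P, map_pow, hx, Units.val_pow_eq_pow_val]; exact hz⟩
      (fun w hw => hy3 w (by rw [← Φ_scalar_iff e P, hx] at hw; exact hw))
    rw [mem_tensor_iff, map_mul, map_mul, map_inv, hx] at hg
    obtain ⟨A, B, hAB⟩ := hg
    refine hy4 ⟨((Φ e P g : GL (Fin a × Fin b) F) : Matrix (Fin a × Fin b) (Fin a × Fin b) F), A, B,
      (Matrix.isUnit_iff_isUnit_det _).1 (Units.isUnit _), Units.isUnit _, ?_⟩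
    have := congrArg (((Φ e P g : GL (Fin a × Fin b) F) : Matrix (Fin a × Fin b) (Fin a × Fin b) F) * ·) hAB
    simp only [Units.val_mul, ← mul_assoc, Units.mul_inv, one_mul] at this
    exact this
  · rintro ⟨rfl, rfl, hodd, hv⟩ x hx ⟨z, hz⟩ -
    rw [hab] at hv
    obtain ⟨G, A, B, hG, hYG⟩ := exists_conj_kron hodd hv (b := b) (by omega)
      (Y := ((Φ e P x : GL (Fin 2 × Fin b) F) : Matrix (Fin 2 × Fin b) (Fin 2 × Fin b) F))
      (by rw [Φ_det]; exact mem_specialLinear_iff.1 hx)
      (z := z) (by rw [← Units.val_pow_eq_pow_val, ← map_pow, Φ_scalar_iff]; exact hz)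
    let G' : GL (Fin 2 × Fin b) F := GeneralLinearGroup.mkOfDetNeZero G (by rw [hG]; exact one_ne_zero)
    have hABu : IsUnit (A ⊗ₖ B) := by
      rw [Matrix.isUnit_iff_isUnit_det]
      have h1 := congrArg Matrix.det hYG
      rw [det_mul, det_mul, hG, Φ_det, mem_specialLinear_iff.1 hx, one_mul, one_mul] at h1
      rw [← h1]; exact isUnit_one
    rw [Matrix.isUnit_iff_isUnit_det, det_kronecker, Fintype.card_fin, Fintype.card_fin, isUnit_iff_ne_zero,
      mul_ne_zero_iff, pow_ne_zero_iff (by omega), pow_ne_zero_iff (by omega)] at hABu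
    refine ⟨(Φ e P).symm G', mem_specialLinear_iff.2 ?_, ?_⟩
    · rw [← Φ_det e P, MulEquiv.apply_symm_apply]; exact hG
    rw [mem_tensor_iff, map_mul, map_mul, map_inv, MulEquiv.apply_symm_apply]
    refine ⟨GeneralLinearGroup.mkOfDetNeZero A hABu.1, GeneralLinearGroup.mkOfDetNeZero B hABu.2, ?_⟩
    rw [Units.val_mul, Units.val_mul, mul_assoc, show ((G' : GL (Fin 2 × Fin b) F) : Matrix (Fin 2 × Fin b) (Fin 2 × Fin b) F) = G from rfl, hYG,
      ← mul_assoc]
    show ((G'⁻¹ : GL (Fin 2 × Fin b) F) : Matrix (Fin 2 × Fin b) (Fin 2 × Fin b) F) * (G' : Matrix (Fin 2 × Fin b) (Fin 2 × Fin b) F) * _ = _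
    rw [Units.inv_mul, one_mul]
    rfl

end Cfsg.Agent.S5979
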