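import Cfsg.Statements.S5980
import Cfsg.Agent.Elusive.TensorForms
import Cfsg.Agent.Elusive.SLElements
import Cfsg.Agent.Elusive.SympDecomp
import Cfsg.Agent.Elusive.SympInvolution
import Cfsg.Agent.Elusive.SkewPlanes
import Cfsg.Agent.SympSub.Count
import Cfsg.Agent.GeoClasses.Forms
import Cfsg.Agent.GeoClasses.Tensor
import Mathlib.LinearAlgebra.QuadraticForm.Basic

set_option autoImplicit false
set_option linter.unusedSectionVars false
set_option linter.style.haveILetI false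
open scoped MatrixGroups
open Cfsg

namespace Cfsg.Agent.S5980

open Matrix Cfsg.Agent.Forms Cfsg.Agent.Elusive Module
open scoped Kronecker

variable {F : Type*} [Field F] {d a b : ℕ}

local notation "Idx" => Fin d ⊕ Fin d

/-- The bilinear form of a form given as a function. -/
def toBil {n : ℕ} (f : (Fin n → F) → (Fin n → F) → F) (hf : Cfsg.Geo.IsBilinearForm f) :
    LinearMap.BilinForm F (Fin n → F) :=
  LinearMap.mk₂ F f hf.add_left hf.smul_left hf.add_right hf.smul_right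

theorem form_eq_gram {n : ℕ} {f : (Fin n → F) → (Fin n → F) → F} (hf : Cfsg.Geo.IsBilinearForm f)
    (u v : Fin n → F) : f u v = u ⬝ᵥ (Cfsg.Geo.gramMatrix f *ᵥ v) := by
  conv_lhs => rw [GeoClasses.bilinearForm_eq_formOf hf]
  rfl

theorem gram_isUnit {n : ℕ} {f : (Fin n → F) → (Fin n → F) → F} (hf : Cfsg.Geo.IsBilinearForm f)
    (hn : Cfsg.Geo.IsNondegenerateForm f) : IsUnit (Cfsg.Geo.gramMatrix f) :=
  GeoClasses.isUnit_of_isNondegenerateForm (σ := RingEquiv.refl F) (by rwa [← GeoClasses.bilinearForm_eq_formOf hf])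

theorem formOfGram_id {κ : Type} [Fintype κ] (M : Matrix κ κ F) (X Y : κ → F) :
    Cfsg.Geo.formOfGram id M X Y = X ⬝ᵥ (M *ᵥ Y) := by
  simp [Cfsg.Geo.formOfGram, Matrix.mulVec, dotProduct, Finset.mul_sum, mul_assoc]

/-- The value of a tensor product form on pure tensors. -/
theorem kronecker_pure (G₁ : Matrix (Fin a) (Fin a) F) (G₂ : Matrix (Fin b) (Fin b) F) (u u' : Fin a → F)
    (w w' : Fin b → F) :
    (fun p : Fin a × Fin b => u p.1 * w p.2) ⬝ᵥ ((G₁ ⊗ₖ G₂) *ᵥ fun p => u' p.1 * w' p.2) =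
      (u ⬝ᵥ (G₁ *ᵥ u')) * (w ⬝ᵥ (G₂ *ᵥ w')) := by
  rw [dotProduct, dotProduct, dotProduct, Finset.sum_mul_sum, Fintype.sum_prod_type]
  simp only [Tensor.kronecker_mulVec_pure]
  exact Finset.sum_congr rfl fun i _ => Finset.sum_congr rfl fun j _ => by ring

theorem submatrix_pow (e : Idx ≃ Fin a × Fin b) (K : Matrix (Fin a × Fin b) (Fin a × Fin b) F) (k : ℕ) :
    (K.submatrix e e) ^ k = (K ^ k).submatrix e e := by
  induction k with
  | zero => simp
  | succ k ih => rw [pow_succ, pow_succ, ih, Matrix.submatrix_mul_equiv]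

theorem reindex_mulVec (e : Idx ≃ Fin a × Fin b) (K : Matrix (Fin a × Fin b) (Fin a × Fin b) F)
    (X : Fin a × Fin b → F) : (K.submatrix e e) *ᵥ (X ∘ e) = (K *ᵥ X) ∘ e := by
  rw [Matrix.submatrix_mulVec_equiv]
  simp [Function.comp_def]

/-- Membership in the tensor stabiliser, as a Kronecker product. -/
theorem exists_kron {e : Idx ≃ Fin a × Fin b} {P x g : GL Idx F}
    (h : g⁻¹ * x * g ∈ Cfsg.Geo.tensorProductSubgroup a b e P) :
    ∃ (A : GL (Fin a) F) (B : GL (Fin b) F), (x : Matrix Idx Idx F) * ((g * P : GL Idx F) : Matrix Idx Idx F) =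
      ((g * P : GL Idx F) : Matrix Idx Idx F) *
        ((A : Matrix (Fin a) (Fin a) F) ⊗ₖ (B : Matrix (Fin b) (Fin b) F)).submatrix e e := by
  obtain ⟨_, ⟨K, ⟨A, B, hK⟩, rfl⟩, hy⟩ := h
  refine ⟨A, B, ?_⟩
  have h1 : x * (g * P) = g * P * Cfsg.Geo.glReindex e.symm K := by
    have h2 : P * Cfsg.Geo.glReindex e.symm K * P⁻¹ = g⁻¹ * x * g := hy
    calc x * (g * P) = g * (g⁻¹ * x * g) * P := by group
      _ = g * P * Cfsg.Geo.glReindex e.symm K := by rw [← h2]; group
  have h3 := congrArg (fun u : GL Idx F => (u : Matrix Idx Idx F)) h1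
  simp only [Units.val_mul] at h3 ⊢
  rw [h3, ← hK]
  rfl

/-- A conjugate in the tensor stabiliser gives a Kronecker product with the same rank and order which preserves
the product form. -/
theorem transfer {e : Idx ≃ Fin a × Fin b} {P x g : GL Idx F}
    {f₁ : (Fin a → F) → (Fin a → F) → F} {f₂ : (Fin b → F) → (Fin b → F) → F}
    (hS : Cfsg.Geo.IsTensorFormStructure id (Cfsg.sympForm d F) f₁ f₂ e P)
    (hx : x ∈ Cfsg.spGL d F) (hg : g ∈ Cfsg.spGL d F) (h : g⁻¹ * x * g ∈ Cfsg.Geo.tensorProductSubgroup a b e P)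
    {r : ℕ} (hr : (x : Matrix Idx Idx F) ^ r = 1) :
    ∃ (A : GL (Fin a) F) (B : GL (Fin b) F),
      let K := (A : Matrix (Fin a) (Fin a) F) ⊗ₖ (B : Matrix (Fin b) (Fin b) F)
      (K - 1).rank = ((x : Matrix Idx Idx F) - 1).rank ∧ K ^ r = 1 ∧
        Kᵀ * (Cfsg.Geo.gramMatrix f₁ ⊗ₖ Cfsg.Geo.gramMatrix f₂) * K =
          Cfsg.Geo.gramMatrix f₁ ⊗ₖ Cfsg.Geo.gramMatrix f₂ := by
  obtain ⟨A, B, hAB⟩ := exists_kron h
  set Km := (A : Matrix (Fin a) (Fin a) F) ⊗ₖ (B : Matrix (Fin b) (Fin b) F) with hKm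
  set G : GL Idx F := g * P with hG
  have hGd : IsUnit (G : Matrix Idx Idx F).det := (Matrix.isUnit_iff_isUnit_det _).1 G.isUnit
  refine ⟨A, B, ?_, ?_, ?_⟩
  · rw [← rank_mul_eq_left_of_isUnit_det (G : Matrix Idx Idx F) ((x : Matrix Idx Idx F) - 1) hGd, sub_mul, hAB,
      one_mul, show (G : Matrix Idx Idx F) * Km.submatrix e e - G = G * (Km.submatrix e e - 1) by rw [mul_sub, mul_one], rank_mul_eq_right_of_isUnit_det _ _ hGd,
      show (1 : Matrix Idx Idx F) = (1 : Matrix (Fin a × Fin b) (Fin a × Fin b) F).submatrix e e by simp]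
    exact (Matrix.rank_submatrix (Km - 1) e e).symm
  · have hpow : ∀ k, (x : Matrix Idx Idx F) ^ k * G = G * (Km.submatrix e e) ^ k := by
      intro k
      induction k with
      | zero => simp
      | succ k ih => rw [pow_succ, pow_succ, mul_assoc, hAB, ← mul_assoc, ih, mul_assoc]
    have h2 := hpow r
    rw [hr, one_mul, submatrix_pow] at h2
    have h3 : (Km ^ r).submatrix e e = 1 := G.isUnit.mul_left_cancel (h2.symm.trans (mul_one _).symm)
    ext p p'
    have := congrFun (congrFun h3 (e.symm p)) (e.symm p')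
    simpa [Matrix.one_apply, e.symm.injective.eq_iff] using this
  · obtain ⟨c, hc, hcf⟩ := hS
    have hform : ∀ X Y : Fin a × Fin b → F,
        (Km *ᵥ X) ⬝ᵥ ((Cfsg.Geo.gramMatrix f₁ ⊗ₖ Cfsg.Geo.gramMatrix f₂) *ᵥ (Km *ᵥ Y)) =
          X ⬝ᵥ ((Cfsg.Geo.gramMatrix f₁ ⊗ₖ Cfsg.Geo.gramMatrix f₂) *ᵥ Y) := by
      intro X Y
      have key : ∀ u v : Idx → F, Cfsg.sympForm d F ((g : Matrix Idx Idx F) *ᵥ u) ((g : Matrix Idx Idx F) *ᵥ v) =
          Cfsg.sympForm d F u v := mem_symplecticGroup_iff_sympForm.1 (mem_spGL_iff.1 hg)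
      have hxG : ∀ Z : Fin a × Fin b → F, (x : Matrix Idx Idx F) *ᵥ ((g : Matrix Idx Idx F) *ᵥ ((P : Matrix Idx Idx F) *ᵥ (Z ∘ e))) =
          (g : Matrix Idx Idx F) *ᵥ ((P : Matrix Idx Idx F) *ᵥ ((Km *ᵥ Z) ∘ e)) := by
        intro Z
        rw [hG, Units.val_mul] at hAB
        rw [← reindex_mulVec, mulVec_mulVec (Z ∘ e) _ (P : Matrix Idx Idx F), mulVec_mulVec, hAB, ← mulVec_mulVec,
          ← mulVec_mulVec]
      have h1 := (mem_symplecticGroup_iff_sympForm.1 (mem_spGL_iff.1 hx))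
        ((g : Matrix Idx Idx F) *ᵥ ((P : Matrix Idx Idx F) *ᵥ (X ∘ e))) ((g : Matrix Idx Idx F) *ᵥ ((P : Matrix Idx Idx F) *ᵥ (Y ∘ e)))
      rw [hxG, hxG, key, key, hcf, hcf, formOfGram_id, formOfGram_id] at h1
      exact mul_left_cancel₀ hc h1
    refine Matrix.toBilin'.injective (LinearMap.BilinForm.ext fun X Y => ?_)
    rw [Matrix.toBilin'_apply', Matrix.toBilin'_apply', ← hKm, ← Matrix.mulVec_mulVec, ← Matrix.mulVec_mulVec,
      Matrix.dotProduct_mulVec X Kmᵀ, Matrix.vecMul_transpose]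
    exact hform X Y

theorem exists_entry_ne {f : (Fin a → F) → (Fin a → F) → F} (hf : Cfsg.Geo.IsSymplecticForm f) (ha : 0 < a) :
    ∃ i j, Cfsg.Geo.gramMatrix f i j ≠ 0 := by
  by_contra! h
  have : Nonempty (Fin a) := ⟨⟨0, ha⟩⟩
  exact (gram_isUnit hf.bilinear hf.nondegenerate).ne_zero (Matrix.ext h)

theorem rank_kronecker_scalar (A : Matrix (Fin a) (Fin a) F) (β : F) :
    (A ⊗ₖ (β • (1 : Matrix (Fin b) (Fin b) F)) - 1).rank = b * (β • A - 1).rank := by
  have h : (A ⊗ₖ (β • (1 : Matrix (Fin b) (Fin b) F)) - 1) =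
      ((β • (1 : Matrix (Fin b) (Fin b) F)) ⊗ₖ A - (1 : F) • 1).submatrix (Equiv.prodComm (Fin a) (Fin b))
        (Equiv.prodComm (Fin a) (Fin b)) := by
    rw [one_smul]
    ext ⟨i, j⟩ ⟨i', j'⟩
    simp [Matrix.one_apply, and_comm, mul_comm]
  rw [h, Matrix.rank_submatrix, Tensor.rank_scalar_kronecker, one_smul]

/-- A Kronecker product moving few dimensions has no small moving part. -/
theorem not_kron_small {A : Matrix (Fin a) (Fin a) F} {B : Matrix (Fin b) (Fin b) F} (hB : IsUnit B)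
    (h1 : A ⊗ₖ B ≠ 1) (ha : (A ⊗ₖ B - 1).rank < a) (hb : (A ⊗ₖ B - 1).rank < b) : False := by
  by_cases hA : ∃ α : F, A = α • 1
  · obtain ⟨α, rfl⟩ := hA
    have h := Tensor.rank_scalar_kronecker (a := a) α B 1
    rw [one_smul, one_smul] at h
    rcases Nat.eq_zero_or_pos (α • B - 1).rank with h0 | h0
    · refine h1 (sub_eq_zero.1 ?_)
      have h2 : α • B - 1 = 0 := by
        rw [Matrix.rank, Submodule.finrank_eq_zero, LinearMap.range_eq_bot] at h0
        exact Matrix.ext_of_mulVec_single fun i => (LinearMap.congr_fun h0 _).trans (zero_mulVec _).symm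
      have h3 := Tensor.scalar_kronecker_sub (a := a) α B 1
      rw [one_smul, one_smul, h2, kronecker_zero] at h3
      exact h3
    · have := Nat.le_mul_of_pos_right a h0
      omega
  · push Not at hA
    have := Tensor.le_rank_of_not_scalar hA hB 1
    rw [one_smul] at this
    omega

/-- The Kronecker products are no match for an element moving as little as possible. -/
theorem not_kron_order [Fintype F] {r : ℕ} [Fact r.Prime] (hr : ¬ r ∣ Fintype.card F) (hr2 : r ≠ 2) (h2 : (2 : F) ≠ 0)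
    (ha : Even a) (ha2 : 2 ≤ a) (hb : 3 ≤ b)
    {A : Matrix (Fin a) (Fin a) F} {B : Matrix (Fin b) (Fin b) F} (hAu : IsUnit A) (hB : IsUnit B)
    (hK : (A ⊗ₖ B) ^ r = 1) (h1 : A ⊗ₖ B ≠ 1)
    {G₁ : Matrix (Fin a) (Fin a) F} {G₂ : Matrix (Fin b) (Fin b) F} (hG₁ : ∃ i j, G₁ i j ≠ 0) (hG₂ : G₂.det ≠ 0)
    (hiso : (A ⊗ₖ B)ᵀ * (G₁ ⊗ₖ G₂) * (A ⊗ₖ B) = G₁ ⊗ₖ G₂)
    {c : ℕ} (hc : c = if Even (orderOf ((Fintype.card F : ℕ) : ZMod r)) then orderOf ((Fintype.card F : ℕ) : ZMod r)
      else 2 * orderOf ((Fintype.card F : ℕ) : ZMod r))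
    (hrk : (A ⊗ₖ B - 1).rank ≤ c) : False := by
  have hrp : r.Prime := Fact.out
  have : NeZero a := ⟨by omega⟩
  have : NeZero b := ⟨by omega⟩
  set i := orderOf ((Fintype.card F : ℕ) : ZMod r) with hi
  have hi0 : 0 < i := orderOf_pos_of_not_dvd hr
  have hc2 : c ≤ 2 * i := by rw [hc]; split_ifs <;> omega
  rw [Tensor.kronecker_pow] at hK
  by_cases hA : ∃ α : F, A = α • 1
  · obtain ⟨α, rfl⟩ := hA
    have h := Tensor.rank_scalar_kronecker (a := a) α B 1
    rw [one_smul, one_smul] at h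
    set B' := α • B with hB'
    have hKB : (α • (1 : Matrix (Fin a) (Fin a) F)) ⊗ₖ B = (1 : Matrix (Fin a) (Fin a) F) ⊗ₖ B' := by
      rw [hB', smul_kronecker, kronecker_smul]
    have hB'r : B' ^ r = 1 := by
      rw [← Tensor.kronecker_pow, hKB, Tensor.kronecker_pow, one_pow] at hK
      ext j k
      have := congrFun (congrFun hK (⟨0, by omega⟩, j)) (⟨0, by omega⟩, k)
      simpa [Matrix.one_apply] using this
    have hB'1 : B' ≠ 1 := fun h' => h1 (by rw [hKB, h', one_kronecker_one])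
    have hge : i ≤ (B' - 1).rank := Tensor.le_rank_of_pow_eq_one hr hB'r hB'1
    have hB'iso : B'ᵀ * G₂ * B' = G₂ := by
      obtain ⟨i₀, j₀, hne⟩ := hG₁
      rw [hKB, ← kroneckerMap_transpose, transpose_one, ← mul_kronecker_mul, ← mul_kronecker_mul, one_mul,
        mul_one] at hiso
      ext j k
      have := congrFun (congrFun hiso (i₀, j)) (j₀, k)
      simpa [hne] using this
    have hrF : (r : F) ≠ 0 := fun h' => by
      obtain ⟨p, hp⟩ := CharP.exists F
      have : Fact p.Prime := ⟨(CharP.char_is_prime_or_zero F p).resolve_right (CharP.char_ne_zero_of_finite F p)⟩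
      obtain ⟨e, -, he⟩ := FiniteField.card F p
      rw [CharP.cast_eq_zero_iff F p, Nat.prime_dvd_prime_iff_eq this.out hrp] at h'
      exact hr (he ▸ h' ▸ dvd_pow_self p e.pos.ne')
    have hev := Tensor.even_rank_of_isometry h2 (hrp.odd_of_ne_two hr2) hrF hG₂ hB'iso hB'r
    rw [h] at hrk
    have hak : 2 * (B' - 1).rank ≤ a * (B' - 1).rank := Nat.mul_le_mul_right _ ha2
    have hk : (B' - 1).rank = i := by omega
    rw [hk] at hev
    rw [if_pos hev] at hc
    omega
  push Not at hA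
  have hb' := Tensor.le_rank_of_not_scalar hA hB 1
  rw [one_smul] at hb'
  -- hence the order of `q` modulo `r` is at least 2
  have hi2 : 2 ≤ i := by omega
  have hnd : ¬ r ∣ Fintype.card F - 1 := not_dvd_sub_one hi2
  obtain ⟨α, hα⟩ := Tensor.scalar_of_kronecker_eq (γ := 1) (hB.pow r) (by rw [hK, one_smul])
  obtain ⟨β, hβ⟩ := exists_pow_eq_of_not_dvd hrp hnd α
  have hβ0 : β ≠ 0 := by
    rintro rfl
    rw [zero_pow hrp.ne_zero] at hβ
    rw [hα, ← hβ, zero_smul, zero_kronecker] at hK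
    have := congrFun (congrFun hK (⟨0, by omega⟩, ⟨0, by omega⟩)) (⟨0, by omega⟩, ⟨0, by omega⟩)
    simp at this
  set A' := β⁻¹ • A with hA'd
  set B' := β • B with hB'
  have hA' : A' ^ r = 1 := by
    rw [hA'd, _root_.smul_pow, hα, smul_smul, ← hβ, inv_pow, inv_mul_cancel₀ (pow_ne_zero _ hβ0), one_smul]
  have hKAB : A ⊗ₖ B = A' ⊗ₖ B' := by
    rw [hA'd, hB', smul_kronecker, kronecker_smul, smul_smul, inv_mul_cancel₀ hβ0, one_smul]
  have hB'r : B' ^ r = 1 := by
    rw [← Tensor.kronecker_pow, hKAB, Tensor.kronecker_pow, hA'] at hK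
    ext j k
    have := congrFun (congrFun hK (⟨0, by omega⟩, j)) (⟨0, by omega⟩, k)
    simpa [Matrix.one_apply] using this
  have hA'1 : A' ≠ 1 := fun h' => hA β (by rw [← h', hA'd, smul_smul, mul_inv_cancel₀ hβ0, one_smul])
  have hAi : i ≤ a := (Tensor.le_rank_of_pow_eq_one hr hA' hA'1).trans ((rank_le_card_width _).trans_eq (Fintype.card_fin a))
  rw [hKAB] at hrk hb'
  by_cases hB'1 : B' = 1
  · have h := rank_kronecker_scalar (b := b) A' 1
    rw [one_smul, one_smul] at h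
    rw [hB'1, h] at hrk
    have hge := Tensor.le_rank_of_pow_eq_one hr hA' hA'1
    have := Nat.mul_le_mul hb hge
    omega
  · have h := Tensor.le_rank_of_pow_eq_one_both (A := A') hr
      (IsUnit.of_pow_eq_one hA' hrp.ne_zero) hB'r hB'1
    rw [← hi] at h
    have ha' : a * i ≤ c + a := h.trans (by omega)
    -- `a (i - 1) ≤ c ≤ 2 i` while `i ≤ a`
    rcases Nat.lt_or_ge i 4 with hlt | hge
    · interval_cases i
      · rw [if_pos ⟨1, rfl⟩] at hc
        omega
      · obtain ⟨m, rfl⟩ := ha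
        omega
    · have := Nat.mul_le_mul_left a hge
      have : (A' ⊗ₖ B' - 1).rank ≤ 2 * a := by omega
      omega

/-- The index divides the order of the symplectic group. -/
theorem exists_dvd [Fintype F] {r : ℕ} [Fact r.Prime] (hr : ¬ r ∣ Fintype.card F) {H : Subgroup (GL Idx F)}
    (hΩ : r ∣ H.relIndex (Cfsg.spGL d F)) :
    ∃ k, 0 < k ∧ k ≤ d ∧ orderOf ((Fintype.card F : ℕ) : ZMod r) ∣ 2 * k := by
  have hrp : r.Prime := Fact.out
  have h1 : r ∣ Nat.card (Cfsg.spGL d F) := hΩ.trans (Subgroup.index_dvd_card _)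
  rw [card_spGL_eq, SympSub.card_symplecticGroup, SympSub.spOrder] at h1
  rcases hrp.dvd_mul.1 h1 with h | h
  · exact absurd (hrp.dvd_of_dvd_pow h) hr
  obtain ⟨k, hk, hk'⟩ := (Prime.dvd_finsetProd_iff hrp.prime _).1 h
  rw [Finset.mem_range] at hk
  refine ⟨k + 1, by omega, by omega, orderOf_dvd_of_pow_eq_one ?_⟩
  rw [← ZMod.natCast_eq_zero_iff, Nat.cast_sub (Nat.one_le_pow _ _ Fintype.card_pos), Nat.cast_pow, Nat.cast_one,
    sub_eq_zero] at hk'
  exact hk'

/-- The vector of a pure tensor. -/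
def pureVec (e : Idx ≃ Fin a × Fin b) (P : GL Idx F) (u : Fin a → F) (w : Fin b → F) : Idx → F :=
  (P : Matrix Idx Idx F) *ᵥ ((fun p : Fin a × Fin b => u p.1 * w p.2) ∘ e)

theorem pureVec_form {e : Idx ≃ Fin a × Fin b} {P : GL Idx F} {f₁ : (Fin a → F) → (Fin a → F) → F}
    {f₂ : (Fin b → F) → (Fin b → F) → F} (h₁ : Cfsg.Geo.IsBilinearForm f₁) (h₂ : Cfsg.Geo.IsBilinearForm f₂) {c : F}
    (hS : ∀ x y : Fin a × Fin b → F, Cfsg.sympForm d F ((P : Matrix Idx Idx F) *ᵥ (x ∘ e)) ((P : Matrix Idx Idx F) *ᵥ (y ∘ e)) =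
      c * Cfsg.Geo.formOfGram id (Cfsg.Geo.gramMatrix f₁ ⊗ₖ Cfsg.Geo.gramMatrix f₂) x y)
    (u u' : Fin a → F) (w w' : Fin b → F) :
    sympBil d F (pureVec e P u w) (pureVec e P u' w') = c * (f₁ u u' * f₂ w w') := by
  rw [sympBil_apply, pureVec, pureVec, hS, formOfGram_id, kronecker_pure, form_eq_gram h₁, form_eq_gram h₂]

/-- An element which acts on adapted planes as a Kronecker product is conjugate into the stabiliser. -/
theorem exists_conj_of_model {e : Idx ≃ Fin 2 × Fin d} {P : GL Idx F} {f₁ : (Fin 2 → F) → (Fin 2 → F) → F}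
    {f₂ : (Fin d → F) → (Fin d → F) → F} (h₁ : Cfsg.Geo.IsSymplecticForm f₁) (h₂ : Cfsg.Geo.IsBilinearForm f₂)
    {c : F} (hc : c ≠ 0)
    (hS : ∀ x y : Fin 2 × Fin d → F, Cfsg.sympForm d F ((P : Matrix Idx Idx F) *ᵥ (x ∘ e)) ((P : Matrix Idx Idx F) *ᵥ (y ∘ e)) =
      c * Cfsg.Geo.formOfGram id (Cfsg.Geo.gramMatrix f₁ ⊗ₖ Cfsg.Geo.gramMatrix f₂) x y)
    (w : Basis (Fin d) F (Fin d → F)) (hw : ∀ j k, j ≠ k → f₂ (w j) (w k) = 0) (hw0 : ∀ j, f₂ (w j) (w j) ≠ 0)
    (A : GL (Fin 2) F) (B : GL (Fin d) F) (ε : Fin d → F)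
    (hBw : ∀ j, (B : Matrix (Fin d) (Fin d) F) *ᵥ w j = ε j • w j)
    (x : GL Idx F) (v v' : Fin d → (Idx → F))
    (hv : ∀ j k, sympBil d F (v j) (v' k) =
        (if j = k then c * f₁ (Pi.single 0 1) (Pi.single 1 1) * f₂ (w j) (w j) else 0) ∧
      sympBil d F (v j) (v k) = 0 ∧ sympBil d F (v' j) (v' k) = 0)
    (hxv : ∀ j, (x : Matrix Idx Idx F) *ᵥ v j =
      ε j • ((A : Matrix (Fin 2) (Fin 2) F) 0 0 • v j + (A : Matrix (Fin 2) (Fin 2) F) 1 0 • v' j))
    (hxv' : ∀ j, (x : Matrix Idx Idx F) *ᵥ v' j =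
      ε j • ((A : Matrix (Fin 2) (Fin 2) F) 0 1 • v j + (A : Matrix (Fin 2) (Fin 2) F) 1 1 • v' j)) :
    ∃ g ∈ Cfsg.spGL d F, g⁻¹ * x * g ∈ Cfsg.Geo.tensorProductSubgroup 2 d e P := by
  classical
  set e₀ : Fin 2 → F := Pi.single 0 1 with he₀
  set e₁ : Fin 2 → F := Pi.single 1 1 with he₁
  have hμ : f₁ e₀ e₁ ≠ 0 := by
    intro h
    obtain ⟨i, j, hij⟩ := exists_entry_ne h₁ (by norm_num)
    refine hij ?_
    fin_cases i <;> fin_cases j
    · exact h₁.alternating _
    · exact h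
    · show f₁ e₁ e₀ = 0
      rw [h₁.skew, h, neg_zero]
    · exact h₁.alternating _
  have hfam : ∀ j k, sympBil d F (pureVec e P e₀ (w j)) (pureVec e P e₁ (w k)) =
        (if j = k then c * f₁ e₀ e₁ * f₂ (w j) (w j) else 0) ∧
      sympBil d F (pureVec e P e₀ (w j)) (pureVec e P e₀ (w k)) = 0 ∧
      sympBil d F (pureVec e P e₁ (w j)) (pureVec e P e₁ (w k)) = 0 := by
    intro j k
    simp only [pureVec_form h₁.bilinear h₂ hS, h₁.alternating, zero_mul, mul_zero, and_true]
    split_ifs with hjk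
    · subst hjk; ring
    · rw [hw j k hjk, mul_zero, mul_zero]
  obtain ⟨g, hg, hg0, hg1⟩ := Elusive.exists_spGL_of_pairs (lam := fun j => c * f₁ e₀ e₁ * f₂ (w j) (w j))
    (fun j => mul_ne_zero (mul_ne_zero hc hμ) (hw0 j)) hfam hv
  refine ⟨g, hg, ?_⟩
  let K : GL (Fin 2 × Fin d) F := GeoClasses.glKron A B
  refine ⟨Cfsg.Geo.glReindex e.symm K, ⟨K, ⟨A, B, rfl⟩, rfl⟩, ?_⟩
  show P * Cfsg.Geo.glReindex e.symm K * P⁻¹ = g⁻¹ * x * g
  have hkey : g * (P * Cfsg.Geo.glReindex e.symm K) = x * (g * P) := by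
    apply Units.ext
    have hK : ∀ u z, ((P * Cfsg.Geo.glReindex e.symm K : GL Idx F) : Matrix Idx Idx F) *ᵥ
        ((fun p : Fin 2 × Fin d => u p.1 * z p.2) ∘ e) =
        pureVec e P ((A : Matrix (Fin 2) (Fin 2) F) *ᵥ u) ((B : Matrix (Fin d) (Fin d) F) *ᵥ z) := by
      intro u z
      rw [Units.val_mul, ← mulVec_mulVec]
      refine congrArg _ ?_
      show ((K : Matrix (Fin 2 × Fin d) (Fin 2 × Fin d) F).submatrix e e) *ᵥ _ = _
      rw [reindex_mulVec]
      exact congrArg (fun f => f ∘ ⇑e) (funext fun p => Tensor.kronecker_mulVec_pure _ _ _ _ _)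
    let φ : (Fin 2 → F) → ((Fin d → F) →ₗ[F] (Idx → F)) := fun u =>
      { toFun := fun z => (fun p : Fin 2 × Fin d => u p.1 * z p.2) ∘ e
        map_add' := fun z z' => funext fun p => mul_add _ _ _
        map_smul' := fun s z => funext fun p => mul_left_comm _ _ _ }
    have hbase : ∀ i j, ((g * (P * Cfsg.Geo.glReindex e.symm K) : GL Idx F) : Matrix Idx Idx F) *ᵥ φ (Pi.single i 1) (w j) =
        ((x * (g * P) : GL Idx F) : Matrix Idx Idx F) *ᵥ φ (Pi.single i 1) (w j) := by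
      intro i j
      have hlin : ∀ (u : Fin 2 → F), pureVec e P u (ε j • w j) =
          ε j • (u 0 • pureVec e P e₀ (w j) + u 1 • pureVec e P e₁ (w j)) := by
        intro u
        simp only [pureVec, ← mulVec_smul, ← mulVec_add]
        refine congrArg _ (funext fun s => ?_)
        obtain ⟨q, hq⟩ : ∃ q, q = (e s).1 := ⟨_, rfl⟩
        simp only [Function.comp_apply, Pi.smul_apply, Pi.add_apply, smul_eq_mul, ← hq, he₀, he₁]
        fin_cases q <;> simp <;> ring
      rw [Units.val_mul g, ← mulVec_mulVec, show φ (Pi.single i 1) (w j) =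
        (fun p : Fin 2 × Fin d => (Pi.single i 1 : Fin 2 → F) p.1 * w j p.2) ∘ e from rfl, hK, hBw, hlin,
        mulVec_smul, mulVec_add, mulVec_smul, mulVec_smul, hg0, hg1, mulVec_single_one,
        Units.val_mul x, Units.val_mul g, ← mulVec_mulVec, ← mulVec_mulVec]
      change _ = (x : Matrix Idx Idx F) *ᵥ ((g : Matrix Idx Idx F) *ᵥ pureVec e P (Pi.single i 1) (w j))
      fin_cases i
      · show _ = (x : Matrix Idx Idx F) *ᵥ ((g : Matrix Idx Idx F) *ᵥ pureVec e P e₀ (w j))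
        rw [hg0, hxv]; rfl
      · show _ = (x : Matrix Idx Idx F) *ᵥ ((g : Matrix Idx Idx F) *ᵥ pureVec e P e₁ (w j))
        rw [hg1, hxv']; rfl
    refine Matrix.toLin'.injective (LinearMap.pi_ext' fun s => LinearMap.ext_ring ?_)
    have hs : (Pi.single s 1 : Idx → F) = φ (Pi.single (e s).1 1) (Pi.single (e s).2 1) := by
      funext s'
      show _ = (Pi.single (e s).1 1 : Fin 2 → F) (e s').1 * (Pi.single (e s).2 1 : Fin d → F) (e s').2
      rcases eq_or_ne s' s with rfl | hne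
      · simp
      · rw [Pi.single_eq_of_ne hne]
        by_cases h0 : (e s').1 = (e s).1
        · rw [Pi.single_eq_of_ne (fun h' => hne (e.injective (Prod.ext h0 h'))), mul_zero]
        · rw [Pi.single_eq_of_ne h0, zero_mul]
    simp only [LinearMap.comp_apply, LinearMap.coe_single, Matrix.toLin'_apply]
    rw [hs]
    have := w.ext (f₁ := (Matrix.toLin' ((g * (P * Cfsg.Geo.glReindex e.symm K) : GL Idx F) : Matrix Idx Idx F)) ∘ₗ φ (Pi.single (e s).1 1))
      (f₂ := (Matrix.toLin' ((x * (g * P) : GL Idx F) : Matrix Idx Idx F)) ∘ₗ φ (Pi.single (e s).1 1)) fun j => by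
        simp only [LinearMap.comp_apply, Matrix.toLin'_apply]
        exact hbase _ j
    simpa only [LinearMap.comp_apply, Matrix.toLin'_apply] using LinearMap.congr_fun this (Pi.single (e s).2 1)
  calc P * Cfsg.Geo.glReindex e.symm K * P⁻¹ = g⁻¹ * (g * (P * Cfsg.Geo.glReindex e.symm K)) * P⁻¹ := by group
    _ = g⁻¹ * x * g := by rw [hkey]; group

/-- The linear map with the given eigenvalues on a basis, as an invertible matrix. -/
theorem exists_diag (w : Basis (Fin d) F (Fin d → F)) (ε : Fin d → F) (hε : ∀ j, ε j * ε j = 1) :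
    ∃ B : GL (Fin d) F, ∀ j, (B : Matrix (Fin d) (Fin d) F) *ᵥ w j = ε j • w j := by
  set D := LinearMap.toMatrix' (w.constr F fun j => ε j • w j) with hD
  have hw' : ∀ j, D *ᵥ w j = ε j • w j := fun j => by
    rw [hD, LinearMap.toMatrix'_mulVec, Basis.constr_basis]
  have hsq : D * D = 1 := by
    refine Matrix.toLin'.injective (w.ext fun j => ?_)
    rw [Matrix.toLin'_apply, ← mulVec_mulVec, hw', mulVec_smul, hw', smul_smul, hε, one_smul, Matrix.toLin'_one]
    rfl
  exact ⟨⟨D, D, hsq, hsq⟩, hw'⟩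

/-- Elements of prime order of PSp_n(q), q odd, and the stabilizers of tensor decompositions Sp_a(q) ⊗ O_b(q). Here `T = PSp_{2d}(F)` for a field `F` with `q` elements, `q` odd, `d ≥ 2`, realised through the matrices preserving the standard alternating form `f`; `2d = a·b` with `a` even, `b ≥ 3`, and the bijection `e` and change of basis `P` exhibit `f` as a non-zero scalar multiple of the tensor product of a non-degenerate alternating form `f₁` on `F^a` and a non-degenerate symmetric bilinear form `f₂` on `F^b`; `H` is the subgroup of `T` stabilizing this tensor decomposition (the elements of `T` in the conjugate by `P` of the group of Kronecker products) — a subgroup of type Sp_a(q) ⊗ O^ε_b(q) (maximality is not assumed). Ω is the set of cosets of `H` in `T`, so an element of `T` of prime order `r` (`x ∈ T` with `x^r` scalar, `x` not scalar) fixes a point of Ω exactly when some `T`-conjugate of `x` lies in `H`. Let `r` be a prime dividing the index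 of `H`. Then every element of `T` of order `r` fixes a point of Ω if and only if `r = 2` and `a = 2`. -/
theorem result {F : Type*} [Field F] [Fintype F] {p : ℕ} [Fact p.Prime] [CharP F p] {q : ℕ} (hq : Fintype.card F = q)
    (hodd : Odd q) (d : ℕ) (hd : 2 ≤ d) (a b : ℕ) (hab : 2 * d = a * b) (ha : Even a) (ha2 : 2 ≤ a) (hb : 3 ≤ b)
    (e : (Fin d ⊕ Fin d) ≃ Fin a × Fin b) (P : GL (Fin d ⊕ Fin d) F)
    (f₁ : (Fin a → F) → (Fin a → F) → F) (f₂ : (Fin b → F) → (Fin b → F) → F)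
    (hf₁ : Cfsg.Geo.IsSymplecticForm f₁) (hf₂ : Cfsg.Geo.IsSymmetricForm f₂)
    (hS : Cfsg.Geo.IsTensorFormStructure id (Cfsg.sympForm d F) f₁ f₂ e P)
    (r : ℕ) [Fact r.Prime]
    (hΩ : r ∣ (Cfsg.Geo.tensorProductSubgroup a b e P).relIndex (Cfsg.spGL d F)) :
    (∀ x ∈ Cfsg.spGL d F, (∃ z : F, ((x ^ r : GL (Fin d ⊕ Fin d) F) : Matrix (Fin d ⊕ Fin d) (Fin d ⊕ Fin d) F) = z • (1 : Matrix (Fin d ⊕ Fin d) (Fin d ⊕ Fin d) F)) →
      (∀ z : F, (x : Matrix (Fin d ⊕ Fin d) (Fin d ⊕ Fin d) F) ≠ z • (1 : Matrix (Fin d ⊕ Fin d) (Fin d ⊕ Fin d) F)) →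
      ∃ g ∈ Cfsg.spGL d F, g⁻¹ * x * g ∈ Cfsg.Geo.tensorProductSubgroup a b e P) ↔ (r = 2 ∧ a = 2) := by
  classical
  subst hq
  have hrp : r.Prime := Fact.out
  have h2 : (2 : F) ≠ 0 := Ring.two_ne_zero fun h => by
    rw [FiniteField.even_card_iff_char_two] at h
    obtain ⟨k, hk⟩ := hodd
    omega
  have : Nonempty (Fin d ⊕ Fin d) := ⟨Sum.inl ⟨0, by omega⟩⟩
  obtain ⟨hb₁, hn₁⟩ := hf₁.bilinear, hf₁.nondegenerate
  constructor
  · intro h
    by_contra hcon
    have hG₁ := exists_entry_ne hf₁ (by omega)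
    have hG₂ : (Cfsg.Geo.gramMatrix f₂).det ≠ 0 :=
      ((Matrix.isUnit_iff_isUnit_det _).1 (gram_isUnit hf₂.bilinear hf₂.nondegenerate)).ne_zero
    -- the Kronecker product forced by a fixed point
    have get : ∀ x : GL (Fin d ⊕ Fin d) F, x ∈ Cfsg.spGL d F →
        (x : Matrix (Fin d ⊕ Fin d) (Fin d ⊕ Fin d) F) ^ r = 1 →
        (∀ z : F, (x : Matrix (Fin d ⊕ Fin d) (Fin d ⊕ Fin d) F) ≠ z • (1 : Matrix (Fin d ⊕ Fin d) (Fin d ⊕ Fin d) F)) →
        ∃ (A : GL (Fin a) F) (B : GL (Fin b) F),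
          let K := Matrix.kroneckerMap (· * ·) (A : Matrix (Fin a) (Fin a) F) (B : Matrix (Fin b) (Fin b) F)
          (K - 1).rank = ((x : Matrix (Fin d ⊕ Fin d) (Fin d ⊕ Fin d) F) - 1).rank ∧ K ^ r = 1 ∧
          K.transpose * Matrix.kroneckerMap (· * ·) (Cfsg.Geo.gramMatrix f₁) (Cfsg.Geo.gramMatrix f₂) * K =
            Matrix.kroneckerMap (· * ·) (Cfsg.Geo.gramMatrix f₁) (Cfsg.Geo.gramMatrix f₂) ∧ K ≠ 1 := by
      intro x hx hxr hns
      obtain ⟨g, hg, hmem⟩ := h x hx ⟨1, by rw [Units.val_pow_eq_pow_val, hxr, one_smul]⟩ hns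
      obtain ⟨A, B, hK1, hK2, hK3⟩ := transfer hS hx hg hmem hxr
      refine ⟨A, B, hK1, hK2, hK3, fun h1 => hns 1 ?_⟩
      rw [h1, sub_self, Matrix.rank_zero] at hK1
      have h0 := hK1.symm
      rw [Matrix.rank, Submodule.finrank_eq_zero, LinearMap.range_eq_bot] at h0
      rw [one_smul]
      exact sub_eq_zero.1 (Matrix.ext_of_mulVec_single fun i => (LinearMap.congr_fun h0 _).trans (Matrix.zero_mulVec _).symm)
    by_cases hrq : r ∣ Fintype.card F
    · -- a transvection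
      obtain ⟨k, hp, hk⟩ := FiniteField.card F p
      obtain rfl : r = p := (Nat.prime_dvd_prime_iff_eq hrp hp).1 (hrp.dvd_of_dvd_pow (hk ▸ hrq))
      set v : Fin d ⊕ Fin d → F := Pi.single (Sum.inl ⟨0, by omega⟩) 1 with hv
      set N : Matrix (Fin d ⊕ Fin d) (Fin d ⊕ Fin d) F := Cfsg.sympTransvection d v 1
      have hNm := Forms.sympTransvection_mem v (1 : F)
      let x : GL (Fin d ⊕ Fin d) F :=
        Matrix.GeneralLinearGroup.mkOfDetNeZero N (SymplecticGroup.symplectic_det hNm).ne_zero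
      have hpow : ∀ m : ℕ, N ^ (m + 1) = Cfsg.sympTransvection d v ((m : F) + 1) := by
        intro m
        induction m with
        | zero => simp [N]
        | succ m ih => rw [pow_succ, ih, Forms.sympTransvection_mul]; push_cast; rfl
      have hNr : N ^ r = 1 := by
        rw [show r = (r - 1) + 1 from (Nat.sub_add_cancel hrp.one_le).symm, hpow,
          show (((r - 1 : ℕ) : F) + 1) = ((r - 1 + 1 : ℕ) : F) by push_cast; rfl,
          Nat.sub_add_cancel hrp.one_le, CharP.cast_eq_zero F r, Cfsg.sympTransvection, zero_smul, add_zero]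
      have hrk : ((x : Matrix (Fin d ⊕ Fin d) (Fin d ⊕ Fin d) F) - 1).rank ≤ 1 := by
        show (N - 1).rank ≤ 1
        rw [show N - 1 = Matrix.vecMulVec v (Matrix.J (Fin d) F *ᵥ v) by simp [N, Cfsg.sympTransvection]]
        exact Matrix.rank_vecMulVec_le _ _
      have hns : ∀ z : F, N ≠ z • (1 : Matrix (Fin d ⊕ Fin d) (Fin d ⊕ Fin d) F) := by
        intro z hz
        have := congrFun (congrFun hz (Sum.inl ⟨0, by omega⟩)) (Sum.inr ⟨0, by omega⟩)
        simp [N, Cfsg.sympTransvection, hv, Matrix.vecMulVec, Matrix.mulVec_single, Matrix.J] at this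
      obtain ⟨A, B, hK1, -, -, hK4⟩ := get x (mem_spGL_iff.2 hNm) hNr hns
      exact not_kron_small B.isUnit hK4 (by omega) (by omega)
    by_cases hr2 : r = 2
    · -- an involution of small support
      subst hr2
      have ha4 : 4 ≤ a := by
        obtain ⟨m, rfl⟩ := ha
        have : m + m ≠ 2 := fun hm => hcon ⟨rfl, hm⟩
        omega
      have h1d : 1 ≤ d := by omega
      let y : Matrix.symplecticGroup (Fin 1) F := ⟨-1, SymplecticGroup.neg_mem (one_mem _)⟩
      let x : GL (Fin d ⊕ Fin d) F := sympToGL d F (sympEmbed h1d y)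
      have hy : y ^ 2 = 1 := Subtype.ext (by rw [SubmonoidClass.coe_pow]; simp [y])
      have hx2 : (x : Matrix (Fin d ⊕ Fin d) (Fin d ⊕ Fin d) F) ^ 2 = 1 := by
        show ((sympEmbed h1d y : Matrix.symplecticGroup (Fin d) F) : Matrix (Fin d ⊕ Fin d) (Fin d ⊕ Fin d) F) ^ 2 = 1
        rw [← SubmonoidClass.coe_pow, ← map_pow, hy, map_one, OneMemClass.coe_one]
      have hlin : Matrix.toLin' (x : Matrix (Fin d ⊕ Fin d) (Fin d ⊕ Fin d) F) = blockEnd h1d
          (Matrix.toLin' (-1 : Matrix (Fin 1 ⊕ Fin 1) (Fin 1 ⊕ Fin 1) F)) := toLin'_sympEmbed h1d y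
      have hrk : ((x : Matrix (Fin d ⊕ Fin d) (Fin d ⊕ Fin d) F) - 1).rank ≤ 2 := by
        rw [Matrix.rank, ← Matrix.toLin'_apply', map_sub, hlin, Matrix.toLin'_one, blockEnd, add_sub_cancel_left]
        refine (Submodule.finrank_mono (LinearMap.range_comp_le_range _ _)).trans ((LinearMap.finrank_range_le _).trans ?_)
        simp
      have hns : ∀ z : F, (x : Matrix (Fin d ⊕ Fin d) (Fin d ⊕ Fin d) F) ≠ z • (1 : Matrix (Fin d ⊕ Fin d) (Fin d ⊕ Fin d) F) := by
        intro z hz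
        have h0 : Matrix.toLin' (x : Matrix (Fin d ⊕ Fin d) (Fin d ⊕ Fin d) F) = z • LinearMap.id := by
          rw [hz, map_smul, Matrix.toLin'_one]
        rw [hlin] at h0
        have hout : sympProj F h1d (Pi.single (Sum.inl (⟨1, by omega⟩ : Fin d)) 1) = 0 := by
          funext s
          rcases s with s | s <;> simp [sympProj, Fin.ext_iff] <;> omega
        have h1 := congrFun (LinearMap.congr_fun h0 (Pi.single (Sum.inl (⟨1, by omega⟩ : Fin d)) 1)) (Sum.inl ⟨1, by omega⟩)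
        simp [blockEnd, hout] at h1
        have h3 := congrArg (sympProj F h1d) (LinearMap.congr_fun h0 (sympExt F h1d (Pi.single (Sum.inl 0) 1)))
        rw [sympProj_blockEnd, LinearMap.smul_apply, LinearMap.id_apply, map_smul, sympProj_sympExt, ← h1, one_smul,
          map_neg, Matrix.toLin'_one, LinearMap.neg_apply, LinearMap.id_apply] at h3
        have h4 := congrFun h3 (Sum.inl 0)
        simp at h4
        exact h2 (by linear_combination -h4)
      obtain ⟨A, B, hK1, -, -, hK4⟩ := get x (sympToGL_mem _) hx2 hns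
      exact not_kron_small B.isUnit hK4 (by omega) (by omega)
    -- odd primes different from the characteristic
    obtain ⟨k, hk0, hkd, hik⟩ := exists_dvd hrq hΩ
    set i := orderOf ((Fintype.card F : ℕ) : ZMod r) with hi
    obtain ⟨c, hc⟩ : ∃ c, c = if Even i then i else 2 * i := ⟨_, rfl⟩
    have hcd : 1 * c ≤ 2 * d := by
      have : c ∣ 2 * k := by
        rw [hc]
        split_ifs with he
        · exact hik
        · exact mul_dvd_mul_left 2 ((Nat.coprime_two_right.2 (Nat.not_even_iff_odd.1 he)).dvd_of_dvd_mul_left hik)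
      have := Nat.le_of_dvd (by omega) this
      omega
    obtain ⟨x, hx, hxC⟩ := exists_moving_element hrq hr2 hi hc hcd
    have hi0 : 0 < i := orderOf_pos_of_not_dvd hrq
    have hc0 : 0 < c := by rw [hc]; split_ifs <;> omega
    let X : GL (Fin d ⊕ Fin d) F := sympToGL d F x
    have hXr : (X : Matrix (Fin d ⊕ Fin d) (Fin d ⊕ Fin d) F) ^ r = 1 := by
      show (x : Matrix (Fin d ⊕ Fin d) (Fin d ⊕ Fin d) F) ^ r = 1
      rw [← SubmonoidClass.coe_pow, hx, OneMemClass.coe_one]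
    have hrk : ((X : Matrix (Fin d ⊕ Fin d) (Fin d ⊕ Fin d) F) - 1).rank = c := by
      have h1 : ((X : Matrix (Fin d ⊕ Fin d) (Fin d ⊕ Fin d) F) - 1).mulVecLin =
          Matrix.toLin' (x : Matrix (Fin d ⊕ Fin d) (Fin d ⊕ Fin d) F) - 1 := by
        rw [← Matrix.toLin'_apply', map_sub, Matrix.toLin'_one, ← Module.End.one_eq_id]
        rfl
      rw [Matrix.rank, h1]
      have := LinearMap.finrank_range_add_finrank_ker (Matrix.toLin' (x : Matrix (Fin d ⊕ Fin d) (Fin d ⊕ Fin d) F) - 1)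
      rw [hxC, Module.finrank_fintype_fun_eq_card, Fintype.card_sum, Fintype.card_fin] at this
      omega
    have hns : ∀ z : F, (X : Matrix (Fin d ⊕ Fin d) (Fin d ⊕ Fin d) F) ≠ z • (1 : Matrix (Fin d ⊕ Fin d) (Fin d ⊕ Fin d) F) := by
      intro z hz
      have hzz : z * z = 1 := by
        have h1 : sympBil d F (Pi.single (Sum.inr ⟨0, by omega⟩) 1) (Pi.single (Sum.inl ⟨0, by omega⟩) 1) = 1 := by
          simp [sympBil_apply, sympForm_apply, Pi.single_apply]
        have h' := mem_symplecticGroup_iff_sympForm.1 (mem_spGL_iff.1 (sympToGL_mem x))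
          (Pi.single (Sum.inr ⟨0, by omega⟩) 1) (Pi.single (Sum.inl ⟨0, by omega⟩) 1)
        rw [hz, Matrix.smul_mulVec, Matrix.one_mulVec, Matrix.smul_mulVec, Matrix.one_mulVec, ← sympBil_apply,
          ← sympBil_apply, map_smul, map_smul, LinearMap.smul_apply, h1] at h'
        simpa using h'
      have hzr : z ^ r = 1 := by
        have h' := hXr
        rw [hz, _root_.smul_pow, one_pow] at h'
        simpa using congrFun (congrFun h' (Sum.inl ⟨0, by omega⟩)) (Sum.inl ⟨0, by omega⟩)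
      obtain ⟨m, hm⟩ := hrp.odd_of_ne_two hr2
      have hz1 : z = 1 := by rw [hm, pow_succ, pow_mul, pow_two, hzz, one_pow, one_mul] at hzr; exact hzr
      rw [hz1, one_smul] at hz
      rw [hz, sub_self, Matrix.rank_zero] at hrk
      omega
    obtain ⟨A, B, hK1, hK2, hK3, hK4⟩ := get X (sympToGL_mem x) hXr hns
    exact not_kron_order hrq hr2 h2 ha ha2 hb A.isUnit B.isUnit hK2 hK4 hG₁ hG₂ hK3 hc (by omega)
  · rintro ⟨rfl, rfl⟩ x hx ⟨z, hz⟩ -
    obtain rfl : b = d := by omega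
    obtain ⟨c, hc, hcf⟩ := hS
    let B₂ : LinearMap.BilinForm F (Fin b → F) := toBil f₂ hf₂.bilinear
    have : Invertible (2 : F) := invertibleOfNonzero h2
    obtain ⟨w₀, hw₀⟩ := LinearMap.BilinForm.exists_orthogonal_basis (B := B₂) ⟨fun u v => hf₂.symm u v⟩
    let w := w₀.reindex (finCongr (Module.finrank_fin_fun F))
    have hw : ∀ j k, j ≠ k → f₂ (w j) (w k) = 0 := fun j k hjk => by
      simp only [w, Basis.reindex_apply]
      exact hw₀ fun h' => hjk ((finCongr (Module.finrank_fin_fun F)).symm.injective h')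
    have hw0 : ∀ j, f₂ (w j) (w j) ≠ 0 := by
      intro j hj
      obtain ⟨-, u, hu⟩ := hf₂.nondegenerate (w j) (w.ne_zero j)
      refine hu ?_
      have : B₂ (w j) = 0 := w.ext fun k => by
        rcases eq_or_ne j k with rfl | hjk
        · exact hj
        · exact hw j k hjk
      exact LinearMap.congr_fun this u
    have hμ : f₁ (Pi.single 0 1) (Pi.single 1 1) ≠ 0 := by
      intro h'
      obtain ⟨i, j, hij⟩ := exists_entry_ne hf₁ (by norm_num)
      refine hij ?_
      fin_cases i <;> fin_cases j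
      · exact hf₁.alternating _
      · exact h'
      · show f₁ (Pi.single 1 1) (Pi.single 0 1) = 0
        rw [hf₁.skew, h', neg_zero]
      · exact hf₁.alternating _
    set lam : Fin b → F := fun j => c * f₁ (Pi.single 0 1) (Pi.single 1 1) * f₂ (w j) (w j) with hlam
    have hlam0 : ∀ j, lam j ≠ 0 := fun j => mul_ne_zero (mul_ne_zero hc hμ) (hw0 j)
    let xs : Matrix.symplecticGroup (Fin b) F := ⟨x, mem_spGL_iff.1 hx⟩
    obtain ⟨hiso, hff, hzz⟩ := Elusive.symp_sq_scalar (by omega) xs (z := z) (by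
      rw [SubmonoidClass.coe_pow]; rw [Units.val_pow_eq_pow_val] at hz; exact hz)
    set f := Matrix.toLin' (xs : Matrix (Fin b ⊕ Fin b) (Fin b ⊕ Fin b) F) with hf
    have hxf : ∀ v, (x : Matrix (Fin b ⊕ Fin b) (Fin b ⊕ Fin b) F) *ᵥ v = f v := fun v => rfl
    have hA : (sympBil b F).IsAlt := sympBil_isAlt
    have hz' : z = 1 ∨ z = -1 := mul_self_eq_one_iff.1 hzz
    rcases hz' with rfl | rfl
    · -- involutions
      simp only [one_smul] at hff
      obtain ⟨ι, _, _, v, v', -, hfam, hspan, -, -, hQ⟩ := Elusive.exists_planes (sympBil b F) f hA one_ne_zero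
        (fun v => by rw [one_smul]; exact hff v) hiso (fun v v' => f v ∈ Submodule.span F {v} ∧ f v' ∈ Submodule.span F {v'})
        (fun S hS hne => Elusive.hasBlock_eigen (sympBil b F) f S hA h2 hff hiso hS hne _ fun _ _ h' h'' => ⟨h', h''⟩)
        ⊤ (Elusive.nondegInv_top f)
      have σ : Fin b ≃ ι := (Fintype.equivFinOfCardEq (Elusive.card_planes hfam hspan)).symm
      have hev : ∀ j, ∃ ε : F, ε * ε = 1 ∧ f (v (σ j)) = ε • v (σ j) ∧ f (v' (σ j)) = ε • v' (σ j) := by
        intro j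
        obtain ⟨h', h''⟩ := hQ (σ j)
        obtain ⟨ε, hε⟩ := Submodule.mem_span_singleton.1 h'
        obtain ⟨ε', hε'⟩ := Submodule.mem_span_singleton.1 h''
        have h1 := hiso (v (σ j)) (v' (σ j))
        rw [← hε, ← hε', map_smul, map_smul, LinearMap.smul_apply, hfam.vw, if_pos rfl] at h1
        simp only [smul_eq_mul, mul_one] at h1
        have h3 := hff (v (σ j))
        rw [← hε, map_smul, ← hε, smul_smul] at h3
        have hne : v (σ j) ≠ 0 := fun h0 => by
          have := hfam.vw (σ j) (σ j)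
          rw [h0, if_pos rfl, map_zero, LinearMap.zero_apply] at this
          exact zero_ne_one this
        have hee : ε * ε = 1 := by
          have : (ε * ε - 1) • v (σ j) = 0 := by rw [sub_smul, h3, one_smul, sub_self]
          exact sub_eq_zero.1 ((smul_eq_zero.1 this).resolve_right hne)
        refine ⟨ε, hee, hε.symm, ?_⟩
        rw [← hε', show ε' = ε by linear_combination ε * h1 - ε' * hee]
      choose ε hε hεv hεv' using hev
      obtain ⟨B, hB⟩ := exists_diag w ε hε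
      refine exists_conj_of_model hf₁ hf₂.bilinear hc hcf w hw hw0 1 B ε hB x (fun j => v (σ j))
        (fun j => lam j • v' (σ j)) (fun j k => ⟨?_, hfam.vv _ _, ?_⟩) (fun j => ?_) (fun j => ?_)
      · rw [map_smul, hfam.vw, smul_eq_mul]
        simp only [σ.injective.eq_iff]
        split_ifs with h'
        · subst h'; rw [mul_one]
        · rw [mul_zero]
      · rw [map_smul, map_smul, LinearMap.smul_apply, hfam.ww, smul_zero, smul_zero]
      · simp [hxf, hεv]
      · simp [hxf, hεv', map_smul, smul_smul, mul_comm]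
    · -- elements with square minus one
      have hS' : ∀ u v, sympBil b F (f u) v = -sympBil b F u (f v) := fun u v => by
        have := hiso (f u) v
        rw [hff, map_smul, LinearMap.smul_apply] at this
        simp only [smul_eq_mul, neg_mul, one_mul] at this
        exact this.symm
      have hodd' : Fintype.card F % 2 = 1 := Nat.odd_iff.1 hodd
      obtain ⟨u, -, hu⟩ := Elusive.exists_skew_planes hodd' hA hS' (neg_ne_zero.2 one_ne_zero) hff b lam hlam0 ⊤
        (fun _ _ => trivial) (Elusive.nonDegOn_top sympBil_nondegenerate) (by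
          rw [finrank_top, Module.finrank_fintype_fun_eq_card, Fintype.card_sum, Fintype.card_fin, two_mul])
      let A : GL (Fin 2) F := Matrix.GeneralLinearGroup.mkOfDetNeZero !![0, -1; 1, 0] (by
        simp [Matrix.det_fin_two_of])
      refine exists_conj_of_model hf₁ hf₂.bilinear hc hcf w hw hw0 A 1 1 (fun j => by simp) x u (fun j => f (u j))
        (fun j k => ⟨(hu j k).1, (hu j k).2, by rw [hiso]; exact (hu j k).2⟩) (fun j => ?_) (fun j => ?_)
      · simp [A, hxf]
      · simp [A, hxf, hff]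


end Cfsg.Agent.S5980
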