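import Cfsg.Statements.S5981
import Cfsg.Agent.Elusive25.SelfDual
import Cfsg.Agent.Elusive25.UnipOrth
import Cfsg.Agent.S5965

set_option autoImplicit false
open scoped MatrixGroups
open Cfsg

namespace Cfsg.Agent.S5981

open Matrix Finset QuadraticMap Module Agent.Classical

/-- An element conjugate into the similitudes is a similitude of some equivalent form. -/
theorem exists_pullback {F : Type*} [Field F] {n : ℕ} {R : QuadraticForm F (Fin n → F)} (hR : BNondeg R)
    {x g : GL (Fin n) F} (h : g⁻¹ * x * g ∈ Cfsg.Geo.quadSimilarityGroup ⇑R) :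
    ∃ (R' : QuadraticForm F (Fin n → F)) (c : F) (e : (Fin n → F) ≃ₗ[F] (Fin n → F)), c ≠ 0 ∧ BNondeg R' ∧
      (∀ v, R (e v) = R' v) ∧ ∀ v, R' ((x : Matrix (Fin n) (Fin n) F) *ᵥ v) = c * R' v := by
  obtain ⟨c, hc⟩ := h
  let A : Matrix (Fin n) (Fin n) F := ((g⁻¹ : GL (Fin n) F) : Matrix (Fin n) (Fin n) F)
  let e : (Fin n → F) ≃ₗ[F] (Fin n → F) := LinearEquiv.ofLinearMap (Matrix.toLin' A)
    (Matrix.toLin' (g : Matrix (Fin n) (Fin n) F))
    (by rw [← Matrix.toLin'_mul, ← Units.val_mul, inv_mul_cancel, Units.val_one, Matrix.toLin'_one])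
    (by rw [← Matrix.toLin'_mul, ← Units.val_mul, mul_inv_cancel, Units.val_one, Matrix.toLin'_one])
  refine ⟨R.comp (Matrix.toLin' A), c, e, c.ne_zero, bNondeg_congr e (fun v => rfl) hR, fun v => rfl, fun v => ?_⟩
  have h1 := hc (A *ᵥ v)
  simp only [A, Units.val_mul, Matrix.mulVec_mulVec, Matrix.mul_assoc] at h1
  rw [← Units.val_mul g, mul_inv_cancel, Units.val_one, Matrix.mul_one] at h1
  simpa [A, Matrix.toLin'_apply, Matrix.mulVec_mulVec] using h1

theorem pow_similitude {F : Type*} [Field F] {n : ℕ} {R : QuadraticForm F (Fin n → F)} {M : Matrix (Fin n) (Fin n) F}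
    {c : F} (h : ∀ v, R (M *ᵥ v) = c * R v) : ∀ (k : ℕ) v, R ((M ^ k) *ᵥ v) = c ^ k * R v := by
  intro k
  induction k with
  | zero => intro v; simp
  | succ k ih => intro v; rw [pow_succ', ← Matrix.mulVec_mulVec, h, ih, pow_succ']; ring

theorem multiplier_pow {F : Type*} [Field F] {n : ℕ} (hn : 0 < n) (h2 : (2 : F) ≠ 0)
    {R : QuadraticForm F (Fin n → F)} (hR : BNondeg R)
    {M : Matrix (Fin n) (Fin n) F} {c : F} (h : ∀ v, R (M *ᵥ v) = c * R v) {r : ℕ} (hM : M ^ r = 1) :
    c ^ r = 1 := by
  obtain ⟨v, hv⟩ : ∃ v, R v ≠ 0 := by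
    by_contra hall
    push Not at hall
    have h0 := hR (Pi.single ⟨0, hn⟩ 1) fun y => by simp [polar, hall]
    simpa using congrFun h0 ⟨0, hn⟩
  have := pow_similitude h r v
  rw [hM, Matrix.one_mulVec] at this
  exact (mul_eq_right₀ hv).1 this.symm

/-- A transvection is no similitude of a non-degenerate form in odd characteristic. -/
theorem false_of_transvection {F : Type*} [Field F] (h2 : (2 : F) ≠ 0) {n : ℕ} (hn : 2 ≤ n)
    {R : QuadraticForm F (Fin n → F)} (hR : BNondeg R)
    (h : ∀ v, R (v + v ⟨0, by omega⟩ • Pi.single (⟨1, by omega⟩ : Fin n) (1 : F)) = R v) : False := by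
  set i0 : Fin n := ⟨0, by omega⟩
  set i1 : Fin n := ⟨1, by omega⟩
  set e0 : Fin n → F := Pi.single i0 1
  set e1 : Fin n → F := Pi.single i1 1
  have h01 : i1 ≠ i0 := by simp [i0, i1]
  have key : ∀ v, v i0 * (v i0 * R e1 + polar R v e1) = 0 := fun v => by
    have := h v
    rw [qf_add, QuadraticMap.map_smul, polar_smul_right] at this
    simp only [smul_eq_mul] at this
    linear_combination this
  have hne : ∀ v, v i0 ≠ 0 → v i0 * R e1 + polar R v e1 = 0 := fun v hv =>
    (mul_eq_zero.1 (key v)).resolve_left hv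
  have hall : ∀ v, v i0 * R e1 + polar R v e1 = 0 := fun v => by
    by_cases hv : v i0 = 0
    · have e' := hne (v + e0) (by simp [e0, hv])
      have e'' := hne e0 (by simp [e0])
      rw [polar_add_left] at e'
      simp only [e0, Pi.add_apply, Pi.single_eq_same] at e' e''
      linear_combination e' - e''
    · exact hne v hv
  have h11 : R e1 = 0 := by
    have := hall e1
    simp only [e1, Pi.single_eq_of_ne h01.symm, zero_mul, zero_add, polar_self, nsmul_eq_mul, Nat.cast_ofNat] at this
    exact (mul_eq_zero.1 this).resolve_left h2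
  have := hR e1 fun v => by
    rw [polar_comm]
    simpa [h11] using hall v
  simpa [e1] using congrFun this i1

/-- No element of order `r` without fixed vectors of an odd-dimensional block preserves a form when the order of
`q` modulo `r` is the block size. -/
theorem false_of_block {F : Type*} [Field F] [Fintype F] (h2 : (2 : F) ≠ 0) {i n r : ℕ} [Fact r.Prime] (hr2 : r ≠ 2)
    (hrq : ¬ r ∣ Fintype.card F) (hi : Odd i) (hord : orderOf ((Fintype.card F : ℕ) : ZMod r) = i)
    (e : Fin i ⊕ Fin (n - i) ≃ Fin n) {R : QuadraticForm F (Fin n → F)} (hR : BNondeg R)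
    (y : Matrix (Fin i) (Fin i) F) (hy : ∀ a, y *ᵥ a = a → a = 0) (hyr : y ^ r = 1)
    (hiso : ∀ v, R ((Matrix.reindex e e (fromBlocks y 0 0 1)) *ᵥ v) = R v) : False := by
  classical
  have hr : r.Prime := Fact.out
  let L : (Fin i → F) →ₗ[F] (Fin n → F) :=
    { toFun := fun a => Sum.elim a 0 ∘ e.symm
      map_add' := fun a b => funext fun k => by cases h : e.symm k <;> simp [h]
      map_smul' := fun c a => funext fun k => by cases h : e.symm k <;> simp [h] }
  let S : (Fin (n - i) → F) →ₗ[F] (Fin n → F) :=
    { toFun := fun a => Sum.elim 0 a ∘ e.symm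
      map_add' := fun a b => funext fun k => by cases h : e.symm k <;> simp [h]
      map_smul' := fun c a => funext fun k => by cases h : e.symm k <;> simp [h] }
  have hv : ∀ v, v = L (v ∘ e ∘ Sum.inl) + S (v ∘ e ∘ Sum.inr) := fun v => funext fun k => by
    obtain ⟨k, rfl⟩ := e.surjective k
    cases k <;> simp [L, S]
  have hxL : ∀ a, (Matrix.reindex e e (fromBlocks y 0 0 1)) *ᵥ L a = L (y *ᵥ a) := fun a => by
    show (fromBlocks y 0 0 1).submatrix e.symm e.symm *ᵥ _ = _
    rw [submatrix_mulVec_equiv]
    simp [L, fromBlocks_mulVec, Function.comp_def]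
    rfl
  have hxS : ∀ a, (Matrix.reindex e e (fromBlocks y 0 0 1)) *ᵥ S a = S a := fun a => by
    show (fromBlocks y 0 0 1).submatrix e.symm e.symm *ᵥ _ = _
    rw [submatrix_mulVec_equiv]
    simp [S, fromBlocks_mulVec, Function.comp_def]
    funext k
    cases e.symm k <;> simp [Matrix.mulVec, dotProduct]
  have hsurj : Function.Surjective (Matrix.toLin' y - 1 : Module.End F (Fin i → F)) := by
    refine LinearMap.surjective_of_injective ((injective_iff_map_eq_zero _).2 fun a ha => hy a ?_)
    rwa [LinearMap.sub_apply, sub_eq_zero, Matrix.toLin'_apply] at ha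
  have horth : ∀ a b, polar R (L a) (S b) = 0 := by
    intro a b
    obtain ⟨a', rfl⟩ := hsurj a
    have h1 : polar R (L (y *ᵥ a')) (S b) = polar R (L a') (S b) := by
      rw [← hxL, ← hxS b, hxS b]
      conv_lhs => rw [← hxS b]
      simp only [polar, ← Matrix.mulVec_add, hiso]
    rw [LinearMap.sub_apply, map_sub, polar_sub_left, Matrix.toLin'_apply, h1, Module.End.one_apply, sub_self]
  have hR' : BNondeg (R.comp L) := fun a ha => by
    have h0 := hR (L a) fun w => by
      rw [hv w, polar_add_right, horth, add_zero]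
      simpa [polar] using ha (w ∘ e ∘ Sum.inl)
    funext k
    simpa [L] using congrFun h0 (e (Sum.inl k))
  obtain ⟨j, hj⟩ := hi
  have hinv : ∀ k, y ^ k * y = y * y ^ k := fun k => (Commute.pow_self y k).eq
  let T : (Fin i → F) ≃ₗ[F] (Fin i → F) := LinearEquiv.ofLinearMap (Matrix.toLin' y) (Matrix.toLin' (y ^ (r - 1)))
    (by rw [← Matrix.toLin'_mul, ← pow_succ', Nat.sub_add_cancel hr.one_le, hyr, Matrix.toLin'_one])
    (by rw [← Matrix.toLin'_mul, ← pow_succ, Nat.sub_add_cancel hr.one_le, hyr, Matrix.toLin'_one])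
  have hT : T ∈ OQ (R.comp L) := fun a => by
    show R (L (Matrix.toLin' y a)) = R (L a)
    rw [Matrix.toLin'_apply, ← hxL, hiso]
  have hT' : orderOf (⟨T, hT⟩ : OQ (R.comp L)) = r := by
    refine orderOf_eq_prime (Subtype.ext (LinearEquiv.ext fun a => ?_)) fun h => ?_
    · have hp : ∀ k : ℕ, ∀ a, (T ^ k) a = (y ^ k) *ᵥ a := by
        intro k
        induction k with
        | zero => intro a; simp
        | succ k ih => intro a; rw [pow_succ, LinearEquiv.mul_apply, ih, pow_succ, ← Matrix.mulVec_mulVec]; rfl
      rw [SubgroupClass.coe_pow, hp, hyr, Matrix.one_mulVec]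
      rfl
    · have := congrArg (fun k : OQ (R.comp L) => k.1 (Pi.single ⟨0, by omega⟩ 1)) h
      have h0 := hy _ (show y *ᵥ Pi.single ⟨0, by omega⟩ 1 = Pi.single ⟨0, by omega⟩ 1 by simpa [T] using this)
      simpa using congrFun h0 ⟨0, by omega⟩
  have hdvd : r ∣ Nat.card (OQ (R.comp L)) := hT' ▸ orderOf_dvd_natCard _
  have hns : Agent.Forms.NonsingOn (R.comp L) ⊤ := fun u _ hu _ => hR' u fun v => hu v trivial
  obtain ⟨m, h⟩ := Agent.Forms.exists_finite_witt_decomposition (R.comp L) hns
  rw [Module.finrank_fin_fun] at h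
  rcases h with ⟨hnm, -⟩ | ⟨hnm, c, hc, e', he'⟩ | ⟨hnm, -⟩
  · omega
  · have hsub : OQ (c⁻¹ • R.comp L) = OQ (R.comp L) := by
      ext g
      simp [mem_OQ, hc]
    rw [← hsub, Nat.card_congr (OQCongr (e'.trans (oddEquiv m)) (fun v => by
        rw [LinearEquiv.trans_apply, oddEquiv_spec, oddQF_apply]
        have := he' v
        simp only [QuadraticMap.smul_apply, smul_eq_mul, this, ← mul_assoc, inv_mul_cancel₀ hc, one_mul])).toEquiv,
      card_OQ_odd (by
        rw [Nat.card_eq_fintype_card, Nat.odd_iff]
        exact FiniteField.odd_card_of_char_ne_two fun h => h2 (by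
          have := ringChar.charP F; rw [h] at this; exact CharTwo.two_eq_zero)),
      Nat.card_eq_fintype_card] at hdvd
    rcases hr.dvd_mul.1 hdvd with h' | h'
    · rcases hr.dvd_mul.1 h' with h' | h'
      · exact hr2 ((Nat.prime_dvd_prime_iff_eq hr Nat.prime_two).1 h')
      · exact hrq (hr.dvd_of_dvd_pow h')
    · obtain ⟨k, hk, hk'⟩ := (Prime.dvd_finsetProd_iff hr.prime _).1 h'
      rw [← CharP.cast_eq_zero_iff (ZMod r) r, Nat.cast_sub (Nat.one_le_pow _ _ Fintype.card_pos), Nat.cast_pow,
        Nat.cast_one, sub_eq_zero] at hk'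
      have h3 : i ∣ 2 * (k + 1) := hord ▸ orderOf_dvd_of_pow_eq_one hk'
      have h4 : i ∣ k + 1 := (Nat.Coprime.dvd_of_dvd_mul_left (by
        rw [hj, Nat.coprime_two_right]; exact odd_two_mul_add_one j) h3)
      have := Nat.le_of_dvd (by omega) h4
      have := Finset.mem_range.1 hk
      omega
  · omega

/-- An element of order `r` without non-zero fixed vectors permutes the singular vectors in cycles of length `r`. -/
theorem card_zeros_mod {F V : Type*} [Field F] [Finite F] [AddCommGroup V] [Module F V] [Finite V] {r : ℕ}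
    [Fact r.Prime] {R : QuadraticForm F V} (g : OQ R) (hg : g ^ r = 1) (hfix : ∀ v, g.1 v = v → v = 0) :
    (Nat.card {v // R v = 0} : ZMod r) = 1 := by
  classical
  have : Fintype {v // R v = 0} := Fintype.ofFinite _
  let σ : Equiv.Perm {v // R v = 0} := g.1.toEquiv.subtypeEquiv fun v => by
    show R v = 0 ↔ R (g.1 v) = 0
    rw [g.2 v]
  have hσ : σ ^ r ^ 1 = 1 := Equiv.ext fun v => Subtype.ext (by
    have hp : ∀ k : ℕ, ∀ w : {v // R v = 0}, ((σ ^ k) w).1 = (g.1 ^ k) w.1 := by
      intro k
      induction k with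
      | zero => intro w; simp
      | succ k ih => intro w; rw [pow_succ, Equiv.Perm.mul_apply, ih, pow_succ, LinearEquiv.mul_apply]; rfl
    rw [pow_one, hp, ← SubgroupClass.coe_pow, hg]
    rfl)
  have h := Equiv.Perm.card_compl_support_modEq hσ
  have hone : σ.supportᶜ = {⟨0, map_zero R⟩} := by
    ext v
    simp only [Finset.mem_compl, Equiv.Perm.notMem_support, Finset.mem_singleton]
    refine ⟨fun hv => Subtype.ext (hfix _ (congrArg Subtype.val hv)), fun hv => ?_⟩
    subst hv
    exact Subtype.ext (map_zero g.1)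
  rw [hone, Finset.card_singleton, ← ZMod.natCast_eq_natCast_iff, Nat.cast_one] at h
  rw [Nat.card_eq_fintype_card]
  exact h.symm

/-- Elements of prime order of PSL_n(q), q odd, and the subgroups of orthogonal type. Here `T = PSL_n(F)` for a field `F` with `q` elements, `q` odd, `n ≥ 3`; `Q` is a non-degenerate quadratic form on `F^n` (of either type when `n` is even) and `H` is the subgroup of matrices of determinant 1 that preserve `Q` up to a scalar — a subgroup of type O^ε_n(q) (maximality is not assumed); Ω is the set of cosets of `H` in `T`, so an element of `T` of prime order `r` (a matrix `x` of determinant 1 with `x^r` scalar, `x` not scalar) fixes a point of Ω exactly when some conjugate of `x` by a matrix of determinant 1 preserves `Q` up to a scalar. Let `r` be a prime dividing the index of `H`, with `(n, r) ≠ (6, 3)`. Then every element of `T` of order `r` fixes a point of Ω if and only if `r = 2`, or `r ∈ {3, 5}`, `n = r` and `(q − 1)_r = r` (the `r`-part of `q − 1` is exactly `r`). The case `(n, r) = (6, 3)` is not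 covered by this statement. -/
theorem result {F : Type*} [Field F] [Fintype F] {p : ℕ} [Fact p.Prime] [CharP F p] {q : ℕ} (hq : Fintype.card F = q)
    (hodd : Odd q) (n : ℕ) (hn : 3 ≤ n) (Q : (Fin n → F) → F) (hQ : Cfsg.Geo.IsNondegenerateQuadraticForm Q)
    (r : ℕ) [Fact r.Prime] (hgap : ¬ (n = 6 ∧ r = 3))
    (hΩ : r ∣ (Cfsg.Geo.quadSimilarityGroup Q).relIndex (Cfsg.Geo.specialLinear (Fin n) F)) :
    (∀ x ∈ Cfsg.Geo.specialLinear (Fin n) F, (∃ z : F, ((x ^ r : GL (Fin n) F) : Matrix (Fin n) (Fin n) F) = z • (1 : Matrix (Fin n) (Fin n) F)) →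
      (∀ z : F, (x : Matrix (Fin n) (Fin n) F) ≠ z • (1 : Matrix (Fin n) (Fin n) F)) →
      ∃ g ∈ Cfsg.Geo.specialLinear (Fin n) F, g⁻¹ * x * g ∈ Cfsg.Geo.quadSimilarityGroup Q) ↔
    (r = 2 ∨ ((r = 3 ∨ r = 5) ∧ n = r ∧ padicValNat r (q - 1) = 1)) := by
  classical
  subst hq
  have hr : r.Prime := Fact.out
  set q := Fintype.card F with hq
  have h2 : (2 : F) ≠ 0 := two_ne_zero_of_odd (by rwa [Nat.card_eq_fintype_card])
  obtain ⟨R, hRQ, hR⟩ := Elusive25.exists_qf h2 hQ
  obtain rfl : Q = ⇑R := (funext hRQ).symm
  set S := Cfsg.Geo.specialLinear (Fin n) F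
  have hmemS : ∀ M : GL (Fin n) F, (M : Matrix (Fin n) (Fin n) F).det = 1 → M ∈ S := fun M hM => Units.ext hM
  have hScoe : ∀ M ∈ S, ((M : GL (Fin n) F) : Matrix (Fin n) (Fin n) F).det = 1 := fun M hM => congrArg Units.val hM
  have hq1 : 1 < q := Fintype.one_lt_card
  constructor
  · -- the elements outside
    intro h
    by_contra hcon
    rw [not_or] at hcon
    obtain ⟨hr2, hexc⟩ := hcon
    have hr3 : 3 ≤ r := by have := hr.two_le; omega
    have get : ∀ M : Matrix (Fin n) (Fin n) F, M.det = 1 → (∃ z : F, M ^ r = z • 1) → (∀ z : F, M ≠ z • 1) →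
        ∃ (R' : QuadraticForm F (Fin n → F)) (c : F) (e : (Fin n → F) ≃ₗ[F] (Fin n → F)), c ≠ 0 ∧ BNondeg R' ∧
          (∀ v, R (e v) = R' v) ∧ ∀ v, R' (M *ᵥ v) = c * R' v := by
      intro M hM hMr hns
      let X : GL (Fin n) F := Matrix.GeneralLinearGroup.mkOfDetNeZero M (hM ▸ one_ne_zero)
      obtain ⟨z, hz⟩ := hMr
      obtain ⟨g, -, hg⟩ := h X (hmemS X hM) ⟨z, by rw [Units.val_pow_eq_pow_val]; exact hz⟩ hns
      exact exists_pullback hR hg
    by_cases hrp : r ∣ q
    · -- `r = p`: a transvection
      obtain ⟨e, hp', he⟩ := FiniteField.card F p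
      rw [hq, he] at hrp
      obtain rfl : r = p := (Nat.prime_dvd_prime_iff_eq hr hp').1 (hr.dvd_of_dvd_pow hrp)
      set i0 : Fin n := ⟨0, by omega⟩
      set i1 : Fin n := ⟨1, by omega⟩
      have h10 : i1 ≠ i0 := by simp [i0, i1]
      let N : Matrix (Fin n) (Fin n) F := Matrix.single i1 i0 1
      have hN2 : N * N = 0 := by simp [N, h10.symm]
      have : Nonempty (Fin n) := ⟨i0⟩
      have hMr : (1 + N) ^ r = 1 := by
        rw [add_pow_char_of_commute (p := r) (Commute.one_left N), one_pow,
          show r = 2 + (r - 2) by omega, pow_add, pow_two, hN2, zero_mul, add_zero]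
      have hns : ∀ z : F, 1 + N ≠ z • (1 : Matrix (Fin n) (Fin n) F) := fun z hz => by
        have := congrFun (congrFun hz i1) i0
        simp [N, h10] at this
      obtain ⟨R', c, e', -, hR', -, hsim⟩ := get (1 + N) (Matrix.det_transvection_of_ne i1 i0 h10 1)
        ⟨1, by rw [one_smul]; exact hMr⟩ hns
      obtain rfl : c = 1 := by
        have h' : (c - 1) ^ r = 0 := by
          rw [sub_pow_char, multiplier_pow (by omega) h2 hR' hsim hMr, one_pow, sub_self]
        exact sub_eq_zero.1 (eq_zero_of_pow_eq_zero h')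
      refine false_of_transvection h2 (by omega) hR' fun v => ?_
      have := hsim v
      rw [one_mul, Matrix.add_mulVec, Matrix.one_mulVec, Matrix.single_mulVec, one_mul] at this
      convert this using 3
      funext k
      rcases eq_or_ne k i1 with rfl | hk <;> simp [i0, i1, *]
    by_cases hr1 : r ∣ q - 1
    · -- diagonal elements
      obtain ⟨u, hu⟩ := exists_prime_orderOf_dvd_card' (G := Fˣ) r (by rwa [Nat.card_units, Nat.card_eq_fintype_card])
      set ζ : F := (u : F)
      have hζ : ∀ k, ζ ^ k = 1 ↔ r ∣ k := fun k => by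
        rw [← hu, orderOf_dvd_iff_pow_eq_one, ← Units.val_inj, Units.val_pow_eq_pow_val, Units.val_one]
      have hζ0 : ζ ≠ 0 := u.ne_zero
      have nz : ∀ k, 0 < k → k < r → ζ ^ k ≠ 1 := fun k h0 hk h => by
        have := Nat.le_of_dvd h0 ((hζ k).1 h); omega
      have use' : ∀ (l : Fin n → F), (∏ a, l a) = 1 → (∃ z, ∀ a, l a ^ r = z) → (∃ a b, l a ≠ l b) →
          ∃ c : F, c ≠ 0 ∧ ∀ μ ν : F, (∀ x, μ * x = c → x = ν) →
            (univ.filter fun a => l a = μ).card ≤ (univ.filter fun a => l a = ν).card := by
        intro l hdet ⟨z, hz⟩ ⟨a, b, hab⟩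
        obtain ⟨R', c, e', hc, hR', -, hsim⟩ := get (Matrix.diagonal l) (by rw [Matrix.det_diagonal, hdet])
          ⟨z, by rw [Matrix.diagonal_pow, Matrix.smul_one_eq_diagonal]; congr 1; funext k; exact hz k⟩ fun z' hz' => by
            have ea := congrFun (congrFun hz' a) a
            have eb := congrFun (congrFun hz' b) b
            simp at ea eb
            exact hab (ea.trans eb.symm)
        refine ⟨c, hc, fun μ ν => Elusive25.eigen_card_le (polarBilin R')
          ⟨fun x hx => hR' x fun y => hx y, fun x hx => hR' x fun y => by rw [polar_comm]; exact hx y⟩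
          (Pi.basisFun F (Fin n)) l (c := c) fun a b => ?_⟩
        have hs : ∀ a, Matrix.diagonal l *ᵥ Pi.single a (1 : F) = l a • Pi.single a (1 : F) := fun a => by
          funext k
          rcases eq_or_ne k a with rfl | h'
          · simp [mulVec_diagonal]
          · simp [mulVec_diagonal, h']
        simp only [Pi.basisFun_apply, polarBilin_apply_apply]
        have h' : polar R' (Matrix.diagonal l *ᵥ Pi.single a 1) (Matrix.diagonal l *ᵥ Pi.single b 1) =
            c * polar R' (Pi.single a 1) (Pi.single b 1) := by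
          simp only [polar, ← Matrix.mulVec_add, hsim]; ring
        rw [hs, hs, polar_smul_left, polar_smul_right, smul_eq_mul, smul_eq_mul] at h'
        linear_combination h'
      have cnt2 : ∀ (m : ℕ) (hm : m < n) (α β μ : F), (univ.filter fun a : Fin n => (if (a : ℕ) < m then α else β) = μ).card =
          (if α = μ then m else 0) + if β = μ then n - m else 0 := by
        intro m hm α β μ
        rw [card_filter, Fin.sum_univ_eq_sum_range (fun a => if (if a < m then α else β) = μ then 1 else 0),
          Finset.range_eq_Ico, ← Finset.sum_Ico_consecutive _ (Nat.zero_le m) hm.le,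
          Finset.sum_congr rfl (s₂ := Ico 0 m) (g := fun _ => if α = μ then 1 else 0) fun a ha => by
            rw [if_pos (Finset.mem_Ico.1 ha).2],
          Finset.sum_congr rfl (s₂ := Ico m n) (g := fun _ => if β = μ then 1 else 0) fun a ha => by
            rw [if_neg (Nat.not_lt.2 (Finset.mem_Ico.1 ha).1)]]
        simp
      -- two distinct eigenvalues of unequal multiplicity
      have two : ∀ (m : ℕ) (α β : F), 0 < m → m < n → 2 * m ≠ n → α ≠ 0 → β ≠ 0 → α ^ 2 ≠ β ^ 2 →
          α ^ m * β ^ (n - m) = 1 → α ^ r = β ^ r → False := by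
        intro m α β hm0 hmn hne hα hβ hab hdet hr'
        have hαβ : α ≠ β := fun e => hab (by rw [e])
        obtain ⟨c, hc, hle⟩ := use' (fun a => if (a : ℕ) < m then α else β) (by
            rw [Fin.prod_univ_eq_prod_range (fun a => if a < m then α else β), Finset.range_eq_Ico,
              ← Finset.prod_Ico_consecutive _ (Nat.zero_le m) hmn.le,
              Finset.prod_congr rfl (s₂ := Ico 0 m) (g := fun _ => α) fun a ha => if_pos (Finset.mem_Ico.1 ha).2,
              Finset.prod_congr rfl (s₂ := Ico m n) (g := fun _ => β) fun a ha => if_neg (Nat.not_lt.2 (Finset.mem_Ico.1 ha).1)]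
            simpa using hdet)
          ⟨α ^ r, fun a => by split_ifs <;> [rfl; exact hr'.symm]⟩
          ⟨⟨0, by omega⟩, ⟨n - 1, by omega⟩, by
            rw [if_pos hm0, if_neg (show ¬ n - 1 < m by omega)]; exact hαβ⟩
        have fix : ∀ μ, μ ≠ 0 → ∀ K, (univ.filter fun a : Fin n => (if (a : ℕ) < m then α else β) = μ).card = K →
            K ≤ (univ.filter fun a : Fin n => (if (a : ℕ) < m then α else β) = c / μ).card := fun μ hμ K hK =>
          hK ▸ hle μ (c / μ) fun x hx => by rw [eq_div_iff hμ, mul_comm, hx]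
        have ha := fix α hα m (by rw [cnt2 m hmn, if_pos rfl, if_neg hαβ.symm]; rfl)
        have hb := fix β hβ (n - m) (by rw [cnt2 m hmn, if_pos rfl, if_neg hαβ]; omega)
        rw [cnt2 m hmn] at ha hb
        have div_iff : ∀ μ ν, μ ≠ 0 → (ν = c / μ ↔ ν * μ = c) := fun μ ν hμ => eq_div_iff hμ
        by_cases h1 : α = c / α
        · have h1' : β ≠ c / β := fun h' => hab (by
            rw [pow_two, pow_two, (div_iff α α hα).1 h1, (div_iff β β hβ).1 h'])
          rw [if_neg h1'] at hb
          by_cases h3 : α = c / β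
          · exact hαβ (mul_left_cancel₀ hα (((div_iff α α hα).1 h1).trans ((div_iff β α hβ).1 h3).symm))
          · rw [if_neg h3] at hb; omega
        · rw [if_neg h1] at ha
          by_cases h3 : β = c / α
          · by_cases h4 : β = c / β
            · exact hαβ (mul_left_cancel₀ hβ (((div_iff α β hα).1 h3).trans ((div_iff β β hβ).1 h4).symm))
            · have h5 : α = c / β := by rw [div_iff β α hβ, mul_comm]; exact (div_iff α β hα).1 h3
              rw [if_pos h5, if_neg h4] at hb
              rw [if_pos h3] at ha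
              omega
          · rw [if_neg h3] at ha; omega
      by_cases hcase : n = r ∧ (r = 3 ∨ r = 5)
      · -- a scalar of order `r²` absorbs the determinant
        obtain ⟨rfl, hn35⟩ := hcase
        have hv : n ^ 2 ∣ q - 1 := by
          refine (padicValNat_dvd_iff_le (by omega)).2 ?_
          have h1 : 1 ≤ padicValNat n (q - 1) := one_le_padicValNat_of_dvd (by omega) hr1
          have h2' : padicValNat n (q - 1) ≠ 1 := fun h' => hexc ⟨hn35, rfl, h'⟩
          omega
        obtain ⟨γ, hγ⟩ := IsCyclic.exists_ofOrder_eq_natCard (α := Fˣ)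
        rw [Nat.card_units, Nat.card_eq_fintype_card, ← hq] at hγ
        obtain ⟨k, hk⟩ := hv
        set w : F := ((γ ^ k : Fˣ) : F)
        have hw0 : w ≠ 0 := Units.ne_zero _
        have hwr : w ^ n ≠ 1 := by
          rw [← Units.val_pow_eq_pow_val, Ne, Units.val_eq_one, ← pow_mul, ← orderOf_dvd_iff_pow_eq_one, hγ]
          intro hd
          have hk0 : 0 < k := Nat.pos_of_ne_zero fun h' => by rw [h', mul_zero] at hk; omega
          have := Nat.le_of_dvd (Nat.mul_pos hk0 (by omega)) hd
          rw [hk, pow_two] at this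
          nlinarith
        have hwrr : (w ^ n) ^ n = 1 := by
          rw [← pow_mul, ← Units.val_pow_eq_pow_val, Units.val_eq_one, ← pow_mul, ← orderOf_dvd_iff_pow_eq_one, hγ, hk,
            pow_two, mul_comm k]
        refine two (n - 1) w (w * (w ^ n)⁻¹) (by omega) (by omega) (by omega) hw0
          (mul_ne_zero hw0 (inv_ne_zero (pow_ne_zero _ hw0))) (fun h' => hwr ?_) ?_ ?_
        · rw [mul_pow, inv_pow, eq_comm, mul_eq_left₀ (pow_ne_zero _ hw0), inv_eq_one] at h'
          have := pow_gcd_eq_one.2 ⟨h', hwrr⟩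
          rwa [((Nat.coprime_primes Nat.prime_two hr).2 (by omega)).gcd_eq_one, pow_one] at this
        · rw [show n - (n - 1) = 1 by omega, pow_one, ← mul_assoc, ← pow_succ, show n - 1 + 1 = n by omega,
            mul_inv_cancel₀ (pow_ne_zero _ hw0)]
        · rw [mul_pow, inv_pow, hwrr, inv_one, mul_one]
      · rcases eq_or_ne r 3 with rfl | h3
        · have hn3 : n ≠ 3 := fun h' => hcase ⟨h', Or.inl rfl⟩
          refine two 3 ζ 1 (by omega) (by omega) (fun h' => hgap ⟨by omega, rfl⟩) hζ0 one_ne_zero
            (by rw [one_pow]; exact nz 2 (by omega) (by omega)) ?_ ?_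
          · rw [(hζ 3).2 dvd_rfl, one_pow, mul_one]
          · rw [(hζ 3).2 dvd_rfl, one_pow]
        · have h5 : 5 ≤ r := by
            rcases Nat.lt_or_ge r 5 with h' | h'
            · interval_cases r <;> first | omega | exact absurd hr (by decide)
            · exact h'
          set η := (ζ ^ 2)⁻¹ with hη
          have hη0 : η ≠ 0 := inv_ne_zero (pow_ne_zero _ hζ0)
          have hζη : ζ ≠ η := fun h' => nz 3 (by omega) (by omega) (by
            rw [pow_succ]; nth_rewrite 2 [h']; rw [hη]; exact mul_inv_cancel₀ (pow_ne_zero _ hζ0))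
          have hζ1 : ζ ≠ 1 := by simpa using nz 1 one_pos (by omega)
          have hη1 : η ≠ 1 := by simpa [η] using nz 2 (by omega) (by omega)
          set l : Fin n → F := fun a => if (a : ℕ) < 2 then ζ else if (a : ℕ) = 2 then η else 1 with hl
          have hsplit : ∀ a, a < n → (a = 0 ∨ a = 1 ∨ a = 2 ∨ 3 ≤ a) := fun a _ => by omega
          have cnt : ∀ μ, (univ.filter fun a => l a = μ).card =
              (if ζ = μ then 2 else 0) + (if η = μ then 1 else 0) + (if 1 = μ then n - 3 else 0) := by
            intro μ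
            rw [card_filter, Fin.sum_univ_eq_sum_range (fun a => if (if a < 2 then ζ else if a = 2 then η else 1) = μ then 1 else 0),
              Finset.range_eq_Ico, ← Finset.sum_Ico_consecutive _ (Nat.zero_le 3) hn,
              ← Finset.range_eq_Ico, Finset.sum_congr rfl (s₂ := Ico 3 n) (g := fun _ => if 1 = μ then 1 else 0) fun a ha => by
                have := (Finset.mem_Ico.1 ha).1
                rw [if_neg (show ¬ a < 2 by omega), if_neg (show ¬ a = 2 by omega)]]
            simp only [Finset.sum_range_succ, Finset.sum_range_zero, Finset.sum_const, Nat.card_Ico, smul_eq_mul]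
            norm_num
            split_ifs <;> omega
          obtain ⟨c, hc, hle⟩ := use' l (by
              rw [hl, Fin.prod_univ_eq_prod_range (fun a => if a < 2 then ζ else if a = 2 then η else 1),
                Finset.range_eq_Ico, ← Finset.prod_Ico_consecutive _ (Nat.zero_le 3) hn,
                ← Finset.range_eq_Ico, Finset.prod_congr rfl (s₂ := Ico 3 n) (g := fun _ => (1 : F)) fun a ha => by
                  have := (Finset.mem_Ico.1 ha).1
                  rw [if_neg (show ¬ a < 2 by omega), if_neg (show ¬ a = 2 by omega)]]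
              simp [Finset.prod_range_succ, hη]
              field_simp)
            ⟨1, fun a => by
              simp only [hl]
              split_ifs
              · exact (hζ r).2 dvd_rfl
              · rw [inv_pow, ← pow_mul, mul_comm, pow_mul, (hζ r).2 dvd_rfl, one_pow, inv_one]
              · exact one_pow r⟩
            ⟨⟨0, by omega⟩, ⟨2, by omega⟩, by simpa [hl] using hζη⟩
          have le' : ∀ μ, μ ≠ 0 → (univ.filter fun a => l a = μ).card ≤ (univ.filter fun a => l a = c / μ).card :=
            fun μ hμ => hle μ (c / μ) fun x hx => by rw [eq_div_iff hμ, mul_comm, hx]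
          have inv : ∀ μ, μ ≠ 0 → c / (c / μ) = μ := fun μ hμ => by rw [div_div_eq_mul_div, mul_div_cancel_left₀ _ hc]
          have eqc : ∀ μ, μ ≠ 0 → (univ.filter fun a => l a = c / μ).card = (univ.filter fun a => l a = μ).card :=
            fun μ hμ => le_antisymm (by
              have := le' (c / μ) (div_ne_zero hc hμ)
              rwa [inv μ hμ] at this) (le' μ hμ)
          have hcη := eqc η hη0
          have hcζ := eqc ζ hζ0
          simp only [cnt, hζη, hζη.symm, hζ1, hζ1.symm, hη1, hη1.symm, if_true, if_false] at hcη hcζ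
          by_cases e1 : ζ = c / η
          · have u1 : ¬ η = c / η := fun e2 => hζη (e1.trans e2.symm)
            have u2 : ¬ (1 : F) = c / η := fun e2 => hζ1 (e1.trans e2.symm)
            rw [if_pos e1] at hcη
            omega
          by_cases e2 : η = c / η
          · -- the centre is `η`
            have hc' : c = η * η := ((eq_div_iff hη0).1 e2).symm
            have q1 : ¬ ζ = c / ζ := fun e3 => by
              rw [eq_div_iff hζ0, hc', hη] at e3
              field_simp at e3
              have h6 : ζ ^ 6 = 1 := by linear_combination e3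
              have h6d := (hζ 6).1 h6
              have := Nat.le_of_dvd (by norm_num) h6d
              interval_cases r <;> first | omega | exact absurd hr (by decide)
            have q2 : ¬ η = c / ζ := fun e3 => e1 (by
              rw [eq_div_iff hη0]; rw [eq_div_iff hζ0] at e3; linear_combination e3)
            rw [if_neg q1, if_neg q2] at hcζ
            by_cases q3 : (1 : F) = c / ζ
            · rw [if_pos q3] at hcζ
              rw [eq_div_iff hζ0, one_mul, hc', hη] at q3
              have h5' : ζ ^ 5 = 1 := by field_simp at q3; linear_combination q3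
              have : r = 5 := (Nat.prime_dvd_prime_iff_eq hr (by norm_num)).1 ((hζ 5).1 h5')
              exact hcase ⟨by omega, Or.inr this⟩
            · rw [if_neg q3] at hcζ; omega
          rw [if_neg e1, if_neg e2] at hcη
          by_cases e3 : (1 : F) = c / η
          · rw [if_pos e3] at hcη
            rw [eq_div_iff hη0, one_mul] at e3
            have q1 : ¬ ζ = c / ζ := fun e4 => nz 4 (by omega) (by omega) (by
              rw [eq_div_iff hζ0, ← e3, hη] at e4
              field_simp at e4
              linear_combination e4)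
            have q2 : ¬ η = c / ζ := fun e4 => hζ1 (by
              rw [eq_div_iff hζ0, ← e3] at e4
              exact mul_left_cancel₀ hη0 (e4.trans (mul_one η).symm))
            rw [if_neg q1, if_neg q2] at hcζ
            split_ifs at hcζ <;> omega
          · rw [if_neg e3] at hcη; omega
    · -- no scalars of order `r`
      have hord1 : orderOf ((q : ℕ) : ZMod r) ≠ 1 := fun h' => hr1 (Elusive.orderOf_eq_one_iff_dvd.1 h')
      have hqne : ((q : ℕ) : ZMod r) ≠ 1 := fun h' => hord1 (by rw [h', orderOf_one])
      have mult : ∀ {R' : QuadraticForm F (Fin n → F)} {c : F} {M : Matrix (Fin n) (Fin n) F}, c ≠ 0 → BNondeg R' →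
          M ^ r = 1 → (∀ v, R' (M *ᵥ v) = c * R' v) → ∀ v, R' (M *ᵥ v) = R' v := by
        intro R' c M hc hR' hM hsim v
        have := pow_gcd_eq_one.2 ⟨multiplier_pow (by omega) h2 hR' hsim hM, FiniteField.pow_card_sub_one_eq_one c hc⟩
        rw [((hr.coprime_iff_not_dvd).2 hr1).gcd_eq_one, pow_one] at this
        rw [hsim, this, one_mul]
      have detone : ∀ {m : Type} [Fintype m] [DecidableEq m] {M : Matrix m m F}, M ^ r = 1 → M.det = 1 := by
        intro m _ _ M hM
        have h1 : M.det ^ r = 1 := by rw [← Matrix.det_pow, hM, Matrix.det_one]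
        have hne : M.det ≠ 0 := fun h' => by rw [h', zero_pow hr.ne_zero] at h1; exact zero_ne_one h1
        have := pow_gcd_eq_one.2 ⟨h1, FiniteField.pow_card_sub_one_eq_one _ hne⟩
        rwa [((hr.coprime_iff_not_dvd).2 hr1).gcd_eq_one, pow_one] at this
      have fpf : ∀ {κ : Type} [Fintype κ] [DecidableEq κ] (R₀ : QuadraticForm F (κ → F)),
          Fintype.card κ = n → (∃ g : OQ R₀, g ^ r = 1 ∧ ∀ v, g.1 v = v → v = 0) →
          (Nat.card {v // R v = 0} : ZMod r) = 1 := by
        intro κ _ _ R₀ hcard ⟨g, hg, hfix⟩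
        let E : (Fin n → F) ≃ₗ[F] (κ → F) := LinearEquiv.funCongrLeft F F ((Fintype.equivFin κ).trans (finCongr hcard))
        let M : Matrix (Fin n) (Fin n) F := LinearMap.toMatrix' (E.trans ((g.1 : (κ → F) ≃ₗ[F] κ → F).trans E.symm)).toLinearMap
        have hM : ∀ v, M *ᵥ v = E.symm (g.1 (E v)) := fun v => by
          rw [LinearMap.toMatrix'_mulVec]; rfl
        have hMr : M ^ r = 1 := by
          refine Matrix.toLin'.injective (LinearMap.ext fun v => ?_)
          have hp : ∀ k : ℕ, ∀ v, (M ^ k) *ᵥ v = E.symm ((g ^ k : OQ R₀).1 (E v)) := by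
            intro k
            induction k with
            | zero => intro v; simp
            | succ k ih =>
              intro v
              rw [pow_succ', ← Matrix.mulVec_mulVec, ih, hM, LinearEquiv.apply_symm_apply, pow_succ']
              rfl
          rw [Matrix.toLin'_apply, hp, hg, Matrix.toLin'_one]
          simp
        have hMfix : ∀ v, M *ᵥ v = v → v = 0 := fun v hv => by
          rw [hM, LinearEquiv.symm_apply_eq] at hv
          simpa using hfix _ hv
        have hns : ∀ z : F, M ≠ z • 1 := fun z hz => by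
          have : Nonempty (Fin n) := ⟨⟨0, by omega⟩⟩
          have h1 : z ^ r = 1 := by
            have h' := hMr
            rw [hz, smul_pow, one_pow] at h'
            simpa using congrFun (congrFun h' ⟨0, by omega⟩) ⟨0, by omega⟩
          have hne : z ≠ 0 := fun h' => by rw [h', zero_pow hr.ne_zero] at h1; exact zero_ne_one h1
          have h3 := pow_gcd_eq_one.2 ⟨h1, FiniteField.pow_card_sub_one_eq_one _ hne⟩
          rw [((hr.coprime_iff_not_dvd).2 hr1).gcd_eq_one, pow_one] at h3
          have := hMfix (Pi.single ⟨0, by omega⟩ 1) (by rw [hz, h3, one_smul, Matrix.one_mulVec])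
          simpa using congrFun this ⟨0, by omega⟩
        obtain ⟨R', c, e', hc, hR', he', hsim⟩ := get M (detone hMr) ⟨1, by rw [one_smul]; exact hMr⟩ hns
        have hiso := mult hc hR' hMr hsim
        let T : (Fin n → F) ≃ₗ[F] (Fin n → F) := E.trans ((g.1 : (κ → F) ≃ₗ[F] κ → F).trans E.symm)
        let T' : OQ R' := ⟨T, fun v => by show R' (E.symm (g.1 (E v))) = R' v; rw [← hM, hiso]⟩
        have h1 := card_zeros_mod T' (Subtype.ext (LinearEquiv.ext fun v => by
          have hp : ∀ k : ℕ, ∀ v, (T ^ k) v = (M ^ k) *ᵥ v := by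
            intro k
            induction k with
            | zero => intro v; simp
            | succ k ih => intro v; rw [pow_succ, LinearEquiv.mul_apply, ih, pow_succ, ← Matrix.mulVec_mulVec, hM]; rfl
          rw [SubgroupClass.coe_pow]
          show (T ^ r) v = v
          rw [hp, hMr, Matrix.one_mulVec])) fun v hv => hMfix v (by rw [hM]; exact hv)
        rwa [card_zeros_congr e' he'] at h1
      rcases Elusive25.dvd_index_cases h2 (by omega) hr hr2 hrp hR hΩ with
        ⟨k, hkn, hk⟩ | ⟨m, hnm, ⟨e, he⟩, hm⟩ | ⟨m, a, b, hnm, hab, ⟨e, he⟩, hm⟩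
      · -- a block of odd dimension
        set i := orderOf ((q : ℕ) : ZMod r) with hi
        have hak : ((q : ℕ) : ZMod r) ^ (2 * k + 1) = 1 := by
          have h0 := (CharP.cast_eq_zero_iff (ZMod r) r _).2 hk
          rw [Nat.cast_sub (Nat.one_le_pow _ _ Fintype.card_pos), Nat.cast_pow, Nat.cast_one, sub_eq_zero] at h0
          exact h0
        have hio : Odd i := Odd.of_dvd_nat (odd_two_mul_add_one k) (orderOf_dvd_of_pow_eq_one hak)
        have hin : i ≤ n := (Nat.le_of_dvd (by omega) (orderOf_dvd_of_pow_eq_one hak)).trans hkn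
        obtain ⟨g, hg⟩ := exists_prime_orderOf_dvd_card' (G := GL (Fin i) F) r (by
          rw [Linear.card_GL_factor]
          refine Dvd.dvd.mul_left ?_ _
          refine Dvd.dvd.trans ?_ (dvd_prod_of_mem _ (mem_univ (⟨0, hio.pos⟩ : Fin i)))
          rw [← CharP.cast_eq_zero_iff (ZMod r) r,
            Nat.cast_sub (Nat.one_le_pow _ _ Fintype.card_pos), Nat.cast_pow, Nat.cast_one, Nat.sub_zero,
            pow_orderOf_eq_one, sub_self])
        set y : Matrix (Fin i) (Fin i) F := (g : Matrix (Fin i) (Fin i) F)
        have hyr : y ^ r = 1 := by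
          simp only [y, ← Units.val_pow_eq_pow_val, ← hg, pow_orderOf_eq_one, Units.val_one]
        have hy1 : y ≠ 1 := fun h' => hr.ne_one (by rw [← hg, Units.val_eq_one.1 h', orderOf_one])
        have hyfix : ∀ v, y *ᵥ v = v → v = 0 := by
          have hf : (Matrix.toLin' y : Module.End F (Fin i → F)) ^ r = 1 := by
            show (Matrix.toLinAlgEquiv' y) ^ r = 1
            rw [← map_pow, hyr, map_one]
          have hmod := Elusive.finrank_fixed_mod hf hrp
          rw [Module.finrank_fin_fun, ← hi, Nat.mod_self] at hmod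
          have hle := Submodule.finrank_le (LinearMap.ker ((Matrix.toLin' y : Module.End F (Fin i → F)) - 1))
          rw [Module.finrank_fin_fun] at hle
          intro v hv
          by_cases h0 : finrank F (LinearMap.ker ((Matrix.toLin' y : Module.End F (Fin i → F)) - 1)) = 0
          · have : v ∈ LinearMap.ker ((Matrix.toLin' y : Module.End F (Fin i → F)) - 1) := by
              rw [LinearMap.mem_ker, LinearMap.sub_apply, Module.End.one_apply, Matrix.toLin'_apply, hv, sub_self]
            rw [Submodule.finrank_eq_zero.1 h0] at this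
            exact (Submodule.mem_bot F).1 this
          · exfalso
            have htop : LinearMap.ker ((Matrix.toLin' y : Module.End F (Fin i → F)) - 1) = ⊤ := by
              refine Submodule.eq_top_of_finrank_eq ?_
              rw [Module.finrank_fin_fun]
              have := Nat.le_of_dvd (Nat.pos_of_ne_zero h0) (Nat.dvd_of_mod_eq_zero hmod)
              omega
            refine hy1 (Matrix.toLin'.injective ?_)
            rw [Matrix.toLin'_one]
            exact sub_eq_zero.1 (LinearMap.ker_eq_top.1 htop)
        let e : Fin i ⊕ Fin (n - i) ≃ Fin n := finSumFinEquiv.trans (finCongr (by omega))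
        set M := Matrix.reindex e e (fromBlocks y 0 0 1) with hMdef
        have hMr : M ^ r = 1 := by
          have hb : ∀ k, (fromBlocks y 0 0 (1 : Matrix (Fin (n - i)) (Fin (n - i)) F)) ^ k = fromBlocks (y ^ k) 0 0 1 := by
            intro k
            induction k with
            | zero => simp
            | succ k ih => rw [pow_succ, ih, fromBlocks_multiply]; simp [pow_succ]
          rw [hMdef, ← Matrix.reindexAlgEquiv_apply F F, ← map_pow, hb, hyr, fromBlocks_one, map_one]
        have hns : ∀ z : F, M ≠ z • (1 : Matrix (Fin n) (Fin n) F) := fun z hz => by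
          have : Nonempty (Fin n) := ⟨⟨0, by omega⟩⟩
          have h1 : z ^ r = 1 := by
            have h' := hMr
            rw [hz, smul_pow, one_pow] at h'
            simpa using congrFun (congrFun h' ⟨0, by omega⟩) ⟨0, by omega⟩
          have hne : z ≠ 0 := fun h' => by rw [h', zero_pow hr.ne_zero] at h1; exact zero_ne_one h1
          have h3 := pow_gcd_eq_one.2 ⟨h1, FiniteField.pow_card_sub_one_eq_one _ hne⟩
          rw [((hr.coprime_iff_not_dvd).2 hr1).gcd_eq_one, pow_one] at h3
          refine hy1 (Matrix.ext fun a b => ?_)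
          have e1 := congrFun (congrFun hz (e (Sum.inl a))) (e (Sum.inl b))
          simpa [hMdef, h3, Matrix.one_apply] using e1
        obtain ⟨R', c, e', hc, hR', -, hsim⟩ := get M (detone hMr) ⟨1, by rw [one_smul]; exact hMr⟩ hns
        exact false_of_block h2 hr2 hrp hio rfl e hR' y hyfix hyr (mult hc hR' hMr hsim)
      · -- plus type
        obtain ⟨a, b, hab⟩ := Forms.exists_binaryAniso (F := F)
        have hz := fpf (minusQF m a b) (by simp; omega) (Elusive25.exists_fpf_minus hab hm)
        rw [card_zeros_congr (e.trans (plusEquiv (m + 1))) (R := hypExt (m + 1) (0 : QuadraticForm F (Fin 0 → F)))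
          (fun v => by rw [LinearEquiv.trans_apply, plusEquiv_spec, he])] at hz
        have hZ := congrArg (Nat.cast : ℕ → ZMod r) (card_zeros_hypExt_plus (F := F) m)
        push_cast at hZ
        rw [hz, Nat.card_eq_fintype_card, ← hq] at hZ
        set a' : ZMod r := ((q : ℕ) : ZMod r)
        have ha : a' ^ (m + 1) = -1 := by
          have h0 := (CharP.cast_eq_zero_iff (ZMod r) r _).2 hm
          push_cast at h0
          linear_combination h0
        rw [show 2 * m + 1 = m + (m + 1) by ring, pow_add _ m (m + 1), ha] at hZ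
        have h2r : (2 : ZMod r) ≠ 0 := fun h' => hr2 ((Nat.prime_dvd_prime_iff_eq hr Nat.prime_two).1
          ((ZMod.natCast_eq_zero_iff 2 r).1 (by exact_mod_cast h')))
        have hm' : a' ^ m = -1 := by
          refine mul_left_cancel₀ h2r ?_
          linear_combination hZ
        rw [pow_succ, hm'] at ha
        exact hqne (neg_inj.1 (by linear_combination ha))
      · -- minus type
        have hz := fpf (plusQF (m + 1) F) (by simp; omega) (Elusive25.exists_fpf_plus (by omega) hm)
        rw [card_zeros_congr (e.trans (minusEquiv m)) (R := hypExt m (binQF a b))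
          (fun v => by rw [LinearEquiv.trans_apply, minusEquiv_spec, he])] at hz
        have hZ := congrArg (Nat.cast : ℕ → ZMod r) (card_zeros_hypExt_minus m (anisotropic_binQF hab))
        push_cast at hZ
        rw [hz, Nat.card_eq_fintype_card, ← hq] at hZ
        set a' : ZMod r := ((q : ℕ) : ZMod r)
        have ha : a' ^ (m + 1) = 1 := by
          have h0 := (CharP.cast_eq_zero_iff (ZMod r) r _).2 hm
          rw [Nat.cast_sub (Nat.one_le_pow _ _ Fintype.card_pos), Nat.cast_pow, Nat.cast_one, sub_eq_zero] at h0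
          exact h0
        rw [show 2 * m + 1 = m + (m + 1) by ring, pow_add _ m (m + 1), ha] at hZ
        have h2r : (2 : ZMod r) ≠ 0 := fun h' => hr2 ((Nat.prime_dvd_prime_iff_eq hr Nat.prime_two).1
          ((ZMod.natCast_eq_zero_iff 2 r).1 (by exact_mod_cast h')))
        have hm' : a' ^ m = 1 := by
          refine mul_left_cancel₀ h2r ?_
          linear_combination -hZ
        rw [pow_succ, hm', one_mul] at ha
        exact hqne ha
  · rintro (rfl | ⟨hr35, rfl, hv⟩) x hx ⟨z, hz⟩ hns
    · exact Elusive25.exists_conj_of_sq h2 (by omega) hR x hz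
    -- `n = r ∈ {3, 5}`
    have hd : n ∣ q - 1 := dvd_of_one_le_padicValNat (by omega)
    have hrF' : (n : F) ≠ 0 := fun h0 => by
      obtain ⟨e, hp', he⟩ := FiniteField.card F p
      have hp : n = p := ((Nat.prime_dvd_prime_iff_eq (Fact.out : p.Prime) hr).1 ((CharP.cast_eq_zero_iff F p n).1 h0)).symm
      subst hp
      rw [hq, he] at hd
      have h3 : n ∣ n ^ (e : ℕ) - (n ^ (e : ℕ) - 1) := Nat.dvd_sub (dvd_pow_self n e.ne_zero) hd
      rw [Nat.sub_sub_self (Nat.one_le_pow _ _ hr.pos)] at h3
      exact hr.ne_one (Nat.dvd_one.1 h3)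
    have hzM : (x : Matrix (Fin n) (Fin n) F) ^ n = z • 1 := by rw [← Units.val_pow_eq_pow_val, hz]
    have hzr : z ^ n = 1 := by
      have := congrArg Matrix.det hzM
      rwa [Matrix.det_pow, hScoe x hx, one_pow, Matrix.det_smul, Matrix.det_one, mul_one, Fintype.card_fin,
        eq_comm] at this
    have hroot : ∀ c : F, c ^ (n * n) = 1 → c ^ n = 1 := fun c hc => by
      have hc0 : c ≠ 0 := fun h0 => by rw [h0, zero_pow (by positivity)] at hc; exact zero_ne_one hc
      have := pow_gcd_eq_one.2 ⟨hc, FiniteField.pow_card_sub_one_eq_one c hc0⟩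
      have hg : Nat.gcd (n * n) (q - 1) = n := by
        rw [← pow_two]
        obtain ⟨j, hj, hje⟩ := (Nat.dvd_prime_pow hr).1 (Nat.gcd_dvd_left (n ^ 2) (q - 1))
        have h1 : n ∣ n ^ j := hje ▸ Nat.dvd_gcd (dvd_pow_self n two_ne_zero) hd
        rw [hje]
        interval_cases j
        · rw [pow_zero, Nat.dvd_one] at h1; exact absurd h1 hr.ne_one
        · exact pow_one n
        · exfalso
          have h3 : n ^ 2 ∣ q - 1 := hje ▸ Nat.gcd_dvd_right _ _
          have := (padicValNat_dvd_iff_le (by omega)).1 h3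
          omega
      rwa [← hq, hg] at this
    obtain ⟨c, hc⟩ : ∃ c, c ^ n = z := by
      by_contra hno
      push Not at hno
      obtain ⟨t, ht, hdet⟩ := Elusive.det_of_pow_eq_scalar hr hno hzM
      obtain rfl : t = 1 := Nat.eq_of_mul_eq_mul_right hr.pos (by rw [one_mul]; exact ht.symm)
      rw [hScoe x hx, pow_one, Even.neg_one_pow ((hr.odd_of_ne_two (by omega)).add_one), one_mul] at hdet
      exact hno 1 (by rw [one_pow, hdet])
    obtain rfl : z = 1 := by rw [← hc]; exact hroot c (by rw [pow_mul, hc, hzr])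
    set g : Module.End F (Fin n → F) := Matrix.toLin' (x : Matrix (Fin n) (Fin n) F) with hgdef
    have hgr : g ^ n = 1 := by
      show (Matrix.toLinAlgEquiv' (x : Matrix (Fin n) (Fin n) F)) ^ n = 1
      rw [← map_pow, hzM, one_smul, map_one]
    obtain ⟨ζu, hζu⟩ := exists_prime_orderOf_dvd_card' (G := Fˣ) n (by rwa [Nat.card_units, Nat.card_eq_fintype_card])
    set ζ : F := (ζu : F)
    have hζ : IsPrimitiveRoot ζ n :=
      IsPrimitiveRoot.coe_units_iff.2 (by have := IsPrimitiveRoot.orderOf ζu; rwa [hζu] at this)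
    have : NeZero n := ⟨by omega⟩
    set ev : Set (Fin n → F) := {v | ∃ j : ZMod n, g v = ζ ^ j.val • v} with hev
    have hspanev : Submodule.span F ev = ⊤ := by
      rw [eq_top_iff]
      intro v _
      have hsum : (n : F) • v = ∑ j : ZMod n, ∑ l ∈ Finset.range n, ((ζ ^ j.val) ^ l) • (g ^ l) v := by
        rw [Finset.sum_comm]
        have h1 : ∀ l ∈ Finset.range n, ∑ j : ZMod n, ((ζ ^ j.val) ^ l) • (g ^ l) v = if l = 0 then (n : F) • v else 0 := by
          intro l hl
          rw [← Finset.sum_smul]
          have : ∑ j : ZMod n, (ζ ^ j.val) ^ l = ∑ i ∈ Finset.range n, (ζ ^ l) ^ i := by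
            refine Finset.sum_nbij' (fun j => j.val) (fun i => (i : ZMod n)) ?_ ?_ ?_ ?_ ?_
            · intro j _; exact Finset.mem_range.2 (ZMod.val_lt j)
            · intro i _; exact Finset.mem_univ _
            · intro j _; exact ZMod.natCast_zmod_val j
            · intro i hi; exact ZMod.val_natCast_of_lt (Finset.mem_range.1 hi)
            · intro j _; rw [← pow_mul, ← pow_mul, mul_comm]
          rw [this]
          split_ifs with h0
          · subst h0; simp
          · have hne : ζ ^ l ≠ 1 := hζ.pow_ne_one_of_pos_of_lt h0 (Finset.mem_range.1 hl)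
            have := geom_sum_mul (ζ ^ l) n
            rw [← pow_mul, mul_comm l, pow_mul, hζ.pow_eq_one, one_pow, sub_self] at this
            rw [(mul_eq_zero.1 this).resolve_right (sub_ne_zero.2 hne), zero_smul]
        rw [Finset.sum_congr rfl h1, Finset.sum_ite_eq' (Finset.range n) 0, if_pos (Finset.mem_range.2 hr.pos)]
      rw [← inv_smul_smul₀ hrF' v, hsum]
      refine Submodule.smul_mem _ _ (Submodule.sum_mem _ fun j _ => Submodule.subset_span ⟨-j, ?_⟩)
      set c := ζ ^ j.val
      have hcr : c ^ n = 1 := by rw [← pow_mul, mul_comm, pow_mul, hζ.pow_eq_one, one_pow]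
      have hcinv : ζ ^ (-j).val * c = 1 := by
        rw [← pow_add, pow_eq_pow_mod _ hζ.pow_eq_one, ← ZMod.val_add, neg_add_cancel, ZMod.val_zero, pow_zero]
      rw [map_sum, Finset.smul_sum]
      calc ∑ l ∈ Finset.range n, g ((c ^ l) • (g ^ l) v)
          = ∑ l ∈ Finset.range n, (ζ ^ (-j).val) • ((c ^ (l + 1)) • (g ^ (l + 1)) v) := by
            refine Finset.sum_congr rfl fun l _ => ?_
            rw [map_smul, ← Module.End.mul_apply, ← pow_succ', smul_smul,
              show ζ ^ (-j).val * c ^ (l + 1) = c ^ l by rw [pow_succ', ← mul_assoc, hcinv, one_mul]]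
        _ = ∑ l ∈ Finset.range n, (ζ ^ (-j).val) • ((c ^ l) • (g ^ l) v) := by
            set f := fun l => (ζ ^ (-j).val) • ((c ^ l) • (g ^ l) v)
            show ∑ l ∈ Finset.range n, f (l + 1) = ∑ l ∈ Finset.range n, f l
            have h1 := Finset.sum_range_succ' f n
            have h2 := Finset.sum_range_succ f n
            have h3 : f n = f 0 := by simp [f, hcr, hgr]
            rw [h2, h3] at h1
            exact add_right_cancel h1.symm
    let b₀ := Module.Basis.ofSpan hspanev.ge
    have := Module.Basis.finite_index_of_rank_lt_aleph0 b₀ (Module.rank_lt_aleph0 F (Fin n → F))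
    have : Fintype _ := Fintype.ofFinite (↥((linearIndepOn_empty F (id : (Fin n → F) → _)).extend (Set.empty_subset ev)))
    let b : Module.Basis (Fin n) F (Fin n → F) :=
      b₀.reindex (Fintype.equivFinOfCardEq ((Module.finrank_eq_card_basis b₀).symm.trans (Module.finrank_fin_fun F)))
    have hbev : ∀ i, b i ∈ ev := fun i => Module.Basis.ofSpan_subset hspanev.ge ⟨_, (Module.Basis.reindex_apply b₀ _ i).symm⟩
    choose d hd' using hbev
    set D : Multiset (ZMod n) := (Finset.univ : Finset (Fin n)).val.map d
    have hsumD : D.sum = 0 := by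
      have h1 : LinearMap.det g = 1 := by rw [hgdef, LinearMap.det_toLin']; exact hScoe x hx
      rw [← LinearMap.det_toMatrix b, show LinearMap.toMatrix b b g = Matrix.diagonal (fun i => ζ ^ (d i).val) from
        Matrix.ext fun i j => by
          rw [LinearMap.toMatrix_apply, hd', map_smul, Module.Basis.repr_self, Finsupp.smul_apply, Finsupp.single_apply,
            Matrix.diagonal_apply]
          by_cases h' : i = j
          · subst h'; simp
          · simp [h', Ne.symm h'], Matrix.det_diagonal, Finset.prod_eq_multiset_prod] at h1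
      have h2 : (D.map fun j : ZMod n => ζ ^ j.val).prod = 1 := by rw [Multiset.map_map]; exact h1
      rw [S5965.prod_pow_val hζ.pow_eq_one] at h2
      by_contra hne
      exact hne ((ZMod.val_eq_zero _).1 (Nat.eq_zero_of_dvd_of_lt ((hζ.pow_eq_one_iff_dvd _).1 h2) (ZMod.val_lt _)))
    obtain ⟨s, hs⟩ := S5965.exists_symm hr35 D (by rw [Multiset.card_map]; simp) hsumD
    have hcount : ∀ j : ZMod n, D.count (s - j) = D.count j := fun j => by
      conv_lhs => rw [← hs]
      exact Multiset.count_map_eq_count' _ D (fun u v e => sub_right_injective e) j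
    have hfib : ∀ j : ZMod n, Fintype.card {i // d i = j} = D.count j := fun j => by
      rw [Fintype.card_subtype, Multiset.count_map, ← Finset.filter_val]
      exact congrArg Finset.card (Finset.filter_congr fun i _ => eq_comm)
    let σ : (Σ j : ZMod n, Fin (D.count j)) ≃ Fin n :=
      (Equiv.sigmaCongrRight fun j => (Fintype.equivFinOfCardEq (hfib j)).symm).trans (Equiv.sigmaFiberEquiv d)
    have hσ : ∀ y, d (σ y) = y.1 := fun y => ((Fintype.equivFinOfCardEq (hfib y.1)).symm y.2).2
    let τ : (Σ j : ZMod n, Fin (D.count j)) → (Σ j : ZMod n, Fin (D.count j)) :=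
      fun y => ⟨s - y.1, Fin.cast (hcount y.1).symm y.2⟩
    refine Elusive25.exists_conj_of_pairing h2 (hr.odd_of_ne_two (by omega)) hR x (b.reindex σ.symm)
      (fun y => ζ ^ y.1.val) (fun y => ?_) τ
      (fun y => Elusive25.blockExt (fun j => D.count j) (sub_sub_cancel s y.1) rfl)
      (pow_ne_zero s.val (hζ.ne_zero (by omega))) fun y => ?_
    · rw [Module.Basis.reindex_apply, Equiv.symm_symm, ← hgdef, hd', hσ]
    · show ζ ^ y.1.val * ζ ^ (s - y.1).val = ζ ^ s.val
      rw [← pow_add, pow_eq_pow_mod _ hζ.pow_eq_one, ← ZMod.val_add, add_sub_cancel]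

end Cfsg.Agent.S5981
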