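import Cfsg.Statements.S5982
import Cfsg.Agent.Elusive25.UnitarySim
import Cfsg.Agent.Elusive25.NotPaired
import Cfsg.Agent.Elusive25.UnipOrth
import Cfsg.Agent.Elusive.SubfieldOdd
import Cfsg.Agent.S5965

set_option autoImplicit false
open scoped MatrixGroups
open Cfsg

namespace Cfsg.Agent.S5982

open Matrix Finset Module

/-- An eigenbasis for a map of order `n` when `ζ` is a primitive `n`th root of unity. -/
theorem exists_root_eigenbasis {F : Type*} [Field F] {n : ℕ} [NeZero n] (hr : n.Prime) (hrF' : (n : F) ≠ 0)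
    {g : Module.End F (Fin n → F)} (hgr : g ^ n = 1) {ζ : F} (hζ : IsPrimitiveRoot ζ n) :
    ∃ (b : Basis (Fin n) F (Fin n → F)) (d : Fin n → ZMod n), ∀ i, g (b i) = ζ ^ (d i).val • b i := by
  classical
  set ev : Set (Fin n → F) := {v | ∃ j : ZMod n, g v = ζ ^ j.val • v} with hev
  have hspanev : Submodule.span F ev = ⊤ := by
    rw [eq_top_iff]
    intro v _
    have hsum : (n : F) • v = ∑ j : ZMod n, ∑ l ∈ Finset.range n, ((ζ ^ j.val) ^ l) • (g ^ l) v := by
      rw [Finset.sum_comm]
      have h1 : ∀ l ∈ Finset.range n, ∑ j : ZMod n, ((ζ ^ j.val) ^ l) • (g ^ l) v = if l = 0 then (n : F) • v else 0 := by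
        intro l hl
        rw [← Finset.sum_smul]
        have : ∑ j : ZMod n, (ζ ^ j.val) ^ l = ∑ i ∈ Finset.range n, (ζ ^ l) ^ i := by
          refine Finset.sum_nbij' (fun j => j.val) (fun i => (i : ZMod n)) ?_ ?_ ?_ ?_ ?_
          · intro j _; exact Finset.mem_range.2 (ZMod.val_lt j)
          · intro i _; exact Finset.mem_univ _
          · intro j _; exact ZMod.natCast_zmod_val j
          · intro i hi; exact ZMod.val_natCast_of_lt (Finset.mem_range.1 hi)
          · intro j _; rw [← pow_mul, ← pow_mul, mul_comm]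
        rw [this]
        split_ifs with h0
        · subst h0; simp
        · have hne : ζ ^ l ≠ 1 := hζ.pow_ne_one_of_pos_of_lt h0 (Finset.mem_range.1 hl)
          have := geom_sum_mul (ζ ^ l) n
          rw [← pow_mul, mul_comm l, pow_mul, hζ.pow_eq_one, one_pow, sub_self] at this
          rw [(mul_eq_zero.1 this).resolve_right (sub_ne_zero.2 hne), zero_smul]
      rw [Finset.sum_congr rfl h1, Finset.sum_ite_eq' (Finset.range n) 0, if_pos (Finset.mem_range.2 hr.pos)]
    rw [← inv_smul_smul₀ hrF' v, hsum]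
    refine Submodule.smul_mem _ _ (Submodule.sum_mem _ fun j _ => Submodule.subset_span ⟨-j, ?_⟩)
    set c := ζ ^ j.val
    have hcr : c ^ n = 1 := by rw [← pow_mul, mul_comm, pow_mul, hζ.pow_eq_one, one_pow]
    have hcinv : ζ ^ (-j).val * c = 1 := by
      rw [← pow_add, pow_eq_pow_mod _ hζ.pow_eq_one, ← ZMod.val_add, neg_add_cancel, ZMod.val_zero, pow_zero]
    rw [map_sum, Finset.smul_sum]
    calc ∑ l ∈ Finset.range n, g ((c ^ l) • (g ^ l) v)
        = ∑ l ∈ Finset.range n, (ζ ^ (-j).val) • ((c ^ (l + 1)) • (g ^ (l + 1)) v) := by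
          refine Finset.sum_congr rfl fun l _ => ?_
          rw [map_smul, ← Module.End.mul_apply, ← pow_succ', smul_smul,
            show ζ ^ (-j).val * c ^ (l + 1) = c ^ l by rw [pow_succ', ← mul_assoc, hcinv, one_mul]]
      _ = ∑ l ∈ Finset.range n, (ζ ^ (-j).val) • ((c ^ l) • (g ^ l) v) := by
          set f := fun l => (ζ ^ (-j).val) • ((c ^ l) • (g ^ l) v)
          show ∑ l ∈ Finset.range n, f (l + 1) = ∑ l ∈ Finset.range n, f l
          have h1 := Finset.sum_range_succ' f n
          have h2 := Finset.sum_range_succ f n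
          have h3 : f n = f 0 := by simp [f, hcr, hgr]
          rw [h2, h3] at h1
          exact add_right_cancel h1.symm
  let b₀ := Module.Basis.ofSpan hspanev.ge
  have := Module.Basis.finite_index_of_rank_lt_aleph0 b₀ (Module.rank_lt_aleph0 F (Fin n → F))
  have : Fintype _ := Fintype.ofFinite (↥((linearIndepOn_empty F (id : (Fin n → F) → _)).extend (Set.empty_subset ev)))
  let b : Module.Basis (Fin n) F (Fin n → F) :=
    b₀.reindex (Fintype.equivFinOfCardEq ((Module.finrank_eq_card_basis b₀).symm.trans (Module.finrank_fin_fun F)))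
  have hbev : ∀ i, b i ∈ ev := fun i => Module.Basis.ofSpan_subset hspanev.ge ⟨_, (Module.Basis.reindex_apply b₀ _ i).symm⟩
  choose d hd' using hbev
  exact ⟨b, d, hd'⟩

/-- Elements of prime order of PSL_n(q), q = q₀², and the subgroups of unitary type. Here `T = PSL_n(F)` for a field `F` with `q = q₀²` elements (`n ≥ 3`), `f` is a non-degenerate unitary form on `F^n` for the involutory automorphism `x ↦ x^{q₀}`, and `H` is the subgroup of matrices of determinant 1 that preserve `f` up to a scalar — a subgroup of type GU_n(q₀) (maximality is not assumed); Ω is the set of cosets of `H` in `T`, so an element of `T` of prime order `r` (a matrix `x` of determinant 1 with `x^r` scalar, `x` not scalar) fixes a point of Ω exactly when some conjugate of `x` by a matrix of determinant 1 preserves `f` up to a scalar. Let `r` be a prime dividing the index of `H`, with `r = 2` or `r` different from the characteristic `p`, and with `(n, r) ≠ (6, 3)`. Then every element of `T` of order `r` fixes a point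 of Ω if and only if either `r = 2` and (`p = 2` or `(n)_2 ≤ (q − 1)_2`), or `r ∈ {3, 5}`, `n = r` and `(q₀ − 1)_r = r`. (Odd `r = p` and the case `(n, r) = (6, 3)` are not covered by this statement.) -/
theorem result {F : Type*} [Field F] [Fintype F] {p : ℕ} [Fact p.Prime] [CharP F p] {q : ℕ} (hq : Fintype.card F = q)
    (q₀ : ℕ) (hq₀ : q = q₀ ^ 2) (n : ℕ) (hn : 3 ≤ n) (f : (Fin n → F) → (Fin n → F) → F) (hf : Cfsg.Geo.IsUnitaryFormPow q₀ f)
    (r : ℕ) [Fact r.Prime] (hr : r = 2 ∨ r ≠ p) (hgap : ¬ (n = 6 ∧ r = 3))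
    (hΩ : r ∣ (Cfsg.Geo.similarityGroup f).relIndex (Cfsg.Geo.specialLinear (Fin n) F)) :
    (∀ x ∈ Cfsg.Geo.specialLinear (Fin n) F, (∃ z : F, ((x ^ r : GL (Fin n) F) : Matrix (Fin n) (Fin n) F) = z • (1 : Matrix (Fin n) (Fin n) F)) →
      (∀ z : F, (x : Matrix (Fin n) (Fin n) F) ≠ z • (1 : Matrix (Fin n) (Fin n) F)) →
      ∃ g ∈ Cfsg.Geo.specialLinear (Fin n) F, g⁻¹ * x * g ∈ Cfsg.Geo.similarityGroup f) ↔
    ((r = 2 ∧ (p = 2 ∨ padicValNat 2 n ≤ padicValNat 2 (q - 1))) ∨ ((r = 3 ∨ r = 5) ∧ n = r ∧ padicValNat r (q₀ - 1) = 1)) := by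
  classical
  subst hq
  have hr' : r.Prime := Fact.out
  have hp : p.Prime := Fact.out
  have hF : Agent.Classical.U.SqField F q₀ := Agent.Classical.U.sqField_of_fintype hq₀
  set q := Fintype.card F with hqdef
  obtain ⟨D, hD⟩ := Elusive25.exists_hermBasis hF hf
  set S := Cfsg.Geo.specialLinear (Fin n) F
  have hmemS : ∀ M : GL (Fin n) F, (M : Matrix (Fin n) (Fin n) F).det = 1 → M ∈ S := fun M hM => Units.ext hM
  have hScoe : ∀ M ∈ S, ((M : GL (Fin n) F) : Matrix (Fin n) (Fin n) F).det = 1 := fun M hM => congrArg Units.val hM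
  have hq1 : 1 < q := Fintype.one_lt_card
  have hq₀1 : 1 < q₀ := hF.one_lt
  have hfac : q - 1 = (q₀ + 1) * (q₀ - 1) := by rw [hq₀, ← Nat.sq_sub_sq, one_pow]
  have hpq : ∀ {s : ℕ}, s.Prime → s ∣ q → s = p := fun {s} hs h => by
    obtain ⟨e, hp', he⟩ := FiniteField.card F p
    rw [hqdef, he] at h
    exact (Nat.prime_dvd_prime_iff_eq hs hp').1 (hs.dvd_of_dvd_pow h)
  have hodd2 : p ≠ 2 → 2 ∣ q - 1 ∧ q % 4 = 1 := fun h => by
    have h' : ¬ 2 ∣ q₀ := fun h' => h (hpq Nat.prime_two (hq₀ ▸ dvd_pow h' two_ne_zero)).symm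
    have h4 : q₀ % 4 = 1 ∨ q₀ % 4 = 3 := by omega
    have h5 : q % 4 = 1 := by rcases h4 with h4 | h4 <;> simp [hq₀, Nat.pow_mod, h4]
    exact ⟨by omega, h5⟩
  constructor
  · intro h
    by_contra hcon
    rw [not_or] at hcon
    obtain ⟨hsq, hexc⟩ := hcon
    have get : ∀ (X : GL (Fin n) F), X ∈ S →
        (∃ z : F, ((X ^ r : GL (Fin n) F) : Matrix (Fin n) (Fin n) F) = z • (1 : Matrix (Fin n) (Fin n) F)) →
        (∀ z : F, (X : Matrix (Fin n) (Fin n) F) ≠ z • (1 : Matrix (Fin n) (Fin n) F)) →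
        ∃ (P : GL (Fin n) F) (c : F), c ≠ 0 ∧ Elusive25.IsHermSim q₀ (P * X * P⁻¹) c := by
      intro X hX hz hns
      obtain ⟨g, -, hg⟩ := h X hX hz hns
      exact Elusive25.exists_hermSim_of_conj hD hg
    rcases eq_or_ne r 2 with rfl | hr2
    · -- `r = 2`: an element whose square is a non-square
      have hp2 : p ≠ 2 := fun h' => hsq ⟨rfl, Or.inl h'⟩
      have hv : ¬ padicValNat 2 n ≤ padicValNat 2 (q - 1) := fun h' => hsq ⟨rfl, Or.inr h'⟩
      obtain ⟨z, hz, t, ht, het⟩ := (Elusive.exists_bad_scalar_iff (F := F) (hodd2 hp2).1 (by omega : 0 < n)).2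
        fun h' => hv h'.1
      obtain ⟨x, hx, hx'⟩ := Elusive.exists_element_bad Nat.prime_two ht (by omega) hz het
      let X : GL (Fin n) F := Matrix.SpecialLinearGroup.toGL x
      have hX2 : ((X ^ 2 : GL (Fin n) F) : Matrix (Fin n) (Fin n) F) = z • 1 := by
        rw [Units.val_pow_eq_pow_val]
        exact hx
      obtain ⟨P, c, hc, hsim⟩ := get X (hmemS X x.det_coe) ⟨z, hX2⟩ hx'
      obtain ⟨hcq, hck⟩ := Elusive25.hermSim_pow hF (by omega) hsim
      have hc2 : c ^ 2 = z ^ (q₀ + 1) := hck 2 z (by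
        rw [conj_pow, Units.val_mul, Units.val_mul, hX2]
        simp)
      have hz0 : z ≠ 0 := fun h0 => hz 0 (by rw [h0, zero_pow two_ne_zero])
      have hchar : ringChar F ≠ 2 := fun h0 => hp2 ((ringChar.eq F p).symm.trans h0)
      have hsqz : IsSquare z := by
        rw [FiniteField.isSquare_iff hchar hz0]
        obtain ⟨k, hk⟩ : 2 ∣ q₀ - 1 := by
          have := hF.one_lt
          have h' : ¬ 2 ∣ q₀ := fun h' => hp2 (hpq Nat.prime_two (hq₀ ▸ dvd_pow h' two_ne_zero)).symm
          omega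
        have : Fintype.card F / 2 = (q₀ + 1) * k := by
          rw [← hqdef]
          have e1 : q - 1 = 2 * ((q₀ + 1) * k) := by rw [hfac, hk]; ring
          omega
        rw [this, pow_mul, ← hc2, ← pow_mul, ← hk]
        exact (hF.fixed_iff hc).1 hcq
      obtain ⟨b, hb⟩ := hsqz
      exact hz b (by rw [hb, pow_two])
    have hrp : r ≠ p := hr.resolve_left hr2
    have hr3 : 3 ≤ r := by have := hr'.two_le; omega
    have hrq : ¬ r ∣ q := fun h' => hrp (hpq hr' h')
    have hrq₀ : ¬ r ∣ q₀ := fun h' => hrq (hq₀ ▸ dvd_pow h' two_ne_zero)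
    obtain ⟨k, hk1, hkn, hk⟩ := Elusive25.dvd_index_unitary hF (by omega) hD hr' hrq₀ hΩ
    set a : ZMod r := ((q₀ : ℕ) : ZMod r) with hadef
    have hak : (-a) ^ (k + 1) = -1 := by
      have h0 := (CharP.cast_eq_zero_iff (ZMod r) r _).2 hk
      rcases Nat.even_or_odd k with he | ho
      · rw [if_pos he, Nat.cast_sub (Nat.one_le_pow _ _ (by omega)), Nat.cast_pow, Nat.cast_one, sub_eq_zero] at h0
        rw [he.add_one.neg_pow, h0]
      · rw [if_neg (Nat.not_even_iff_odd.2 ho), Nat.cast_add, Nat.cast_pow, Nat.cast_one] at h0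
        rw [ho.add_one.neg_pow]
        linear_combination h0
    have h2r : (2 : ZMod r) ≠ 0 := fun h' => hr2 ((Nat.prime_dvd_prime_iff_eq hr' Nat.prime_two).1
      ((ZMod.natCast_eq_zero_iff 2 r).1 (by exact_mod_cast h')))
    have hne1 : (-1 : ZMod r) ≠ 1 := fun h' => h2r (by linear_combination -h')
    by_cases hr1 : r ∣ q - 1
    · -- diagonal elements
      have hr0 : r ∣ q₀ - 1 := by
        rw [hfac] at hr1
        refine (hr'.dvd_mul.1 hr1).resolve_left fun h' => hne1 ?_
        have h0 := (CharP.cast_eq_zero_iff (ZMod r) r _).2 h'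
        rw [Nat.cast_add, Nat.cast_one, ← hadef] at h0
        rw [show a = -1 by linear_combination h0, neg_neg, one_pow] at hak
        exact hak.symm
      obtain ⟨u, hu⟩ := exists_prime_orderOf_dvd_card' (G := Fˣ) r (by rwa [Nat.card_units, Nat.card_eq_fintype_card])
      set ζ : F := (u : F)
      have hζ : ∀ k, ζ ^ k = 1 ↔ r ∣ k := fun k => by
        rw [← hu, orderOf_dvd_iff_pow_eq_one, ← Units.val_inj, Units.val_pow_eq_pow_val, Units.val_one]
      have fix : ∀ s : F, s ≠ 0 → s ^ (q₀ - 1) = 1 → s ^ q₀ = s := fun s hs h' => (hF.fixed_iff hs).2 h'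
      obtain ⟨l, hlQ, hdet, ⟨z, hz⟩, ⟨i₁, i₂, hne⟩, hno⟩ := Elusive25.exists_unpaired (n := n) (Q := q₀) hr' hr3 hn hgap hζ
        (fix ζ u.ne_zero ((hζ _).2 hr0)) fun ⟨hnr, h35⟩ => by
          have hv : r ^ 2 ∣ q₀ - 1 := by
            refine (padicValNat_dvd_iff_le (by omega)).2 ?_
            have h1 : 1 ≤ padicValNat r (q₀ - 1) := one_le_padicValNat_of_dvd (by omega) hr0
            have h2 : padicValNat r (q₀ - 1) ≠ 1 := fun h' => hexc ⟨h35, hnr, h'⟩
            omega
          obtain ⟨γ, hγ⟩ := IsCyclic.exists_ofOrder_eq_natCard (α := Fˣ)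
          rw [Nat.card_units, Nat.card_eq_fintype_card, ← hqdef] at hγ
          obtain ⟨k', hk'⟩ := hv
          have hk2 : q - 1 = r ^ 2 * ((q₀ + 1) * k') := by rw [hfac, hk']; ring
          set k₂ := (q₀ + 1) * k'
          refine ⟨((γ ^ k₂ : Fˣ) : F), ?_, ?_, fix _ (Units.ne_zero _) ?_⟩
          · rw [← Units.val_pow_eq_pow_val, Ne, Units.val_eq_one, ← pow_mul, ← orderOf_dvd_iff_pow_eq_one, hγ]
            intro hd
            have hk0 : 0 < k₂ := Nat.pos_of_ne_zero fun h' => by rw [h', mul_zero] at hk2; omega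
            have := Nat.le_of_dvd (Nat.mul_pos hk0 hr'.pos) hd
            rw [hk2, pow_two] at this
            nlinarith
          · rw [← pow_mul, ← Units.val_pow_eq_pow_val, Units.val_eq_one, ← pow_mul, ← orderOf_dvd_iff_pow_eq_one, hγ,
              hk2, pow_two, mul_comm k₂]
          · rw [← Units.val_pow_eq_pow_val, Units.val_eq_one, ← pow_mul, ← orderOf_dvd_iff_pow_eq_one, hγ, hk', hk2]
            exact ⟨k', by ring⟩
      let X : GL (Fin n) F := Matrix.GeneralLinearGroup.mkOfDetNeZero (Matrix.diagonal l)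
        (by rw [Matrix.det_diagonal, hdet]; exact one_ne_zero)
      obtain ⟨P, c, hc, hsim⟩ := get X (hmemS X (by show (Matrix.diagonal l).det = 1; rw [Matrix.det_diagonal, hdet]))
        ⟨z, by
          rw [Units.val_pow_eq_pow_val]
          show Matrix.diagonal l ^ r = _
          rw [Matrix.diagonal_pow, Matrix.smul_one_eq_diagonal]
          congr 1; funext i; exact hz i⟩ fun z' hz' => by
          have e1 := congrFun (congrFun hz' i₁) i₁
          have e2 := congrFun (congrFun hz' i₂) i₂
          simp [X] at e1 e2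
          exact hne (e1.trans e2.symm)
      let σ := GeoClasses.qConj hF
      let G : Matrix (Fin n) (Fin n) F := GeoClasses.adjForm σ 1 (P : Matrix (Fin n) (Fin n) F)
      have hG : ∀ i j, G i j = Cfsg.hermForm n F q₀ ((P : Matrix (Fin n) (Fin n) F) *ᵥ Pi.single i 1)
          ((P : Matrix (Fin n) (Fin n) F) *ᵥ Pi.single j 1) := fun i j => by
        rw [GeoClasses.hermForm_eq_formOf hF, GeoClasses.formOf_mulVec, GeoClasses.formOf_single]
      refine hno c hc fun μ ν hμν => Elusive25.eigen_card_le (Matrix.toBilin' G) ?_ (Pi.basisFun F (Fin n)) l ?_ hμν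
      · refine Matrix.nondegenerate_toBilin'_iff.2 (Matrix.nondegenerate_iff_det_ne_zero.2 ?_)
        have hP := (Matrix.GeneralLinearGroup.det P).ne_zero
        simp only [G, GeoClasses.adjForm, Matrix.mul_one, Matrix.det_mul, Matrix.det_transpose]
        refine mul_ne_zero hP ?_
        rw [show (P : Matrix (Fin n) (Fin n) F).map σ = σ.toRingHom.mapMatrix (P : Matrix (Fin n) (Fin n) F) from rfl,
          ← RingHom.map_det]
        exact (map_ne_zero σ).2 hP
      · intro i j
        have hcol : ∀ i, ((P * X * P⁻¹ : GL (Fin n) F) : Matrix (Fin n) (Fin n) F) *ᵥ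
            ((P : Matrix (Fin n) (Fin n) F) *ᵥ Pi.single i 1) = l i • ((P : Matrix (Fin n) (Fin n) F) *ᵥ Pi.single i 1) := by
          intro i
          rw [Matrix.mulVec_mulVec, ← Units.val_mul, inv_mul_cancel_right, Units.val_mul, ← Matrix.mulVec_mulVec,
            ← Matrix.mulVec_smul]
          congr 1
          show Matrix.diagonal l *ᵥ _ = _
          funext k
          rcases eq_or_ne k i with rfl | hki
          · simp [Matrix.mulVec_diagonal]
          · simp [Matrix.mulVec_diagonal, hki]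
        have h1 := hsim ((P : Matrix (Fin n) (Fin n) F) *ᵥ Pi.single i 1) ((P : Matrix (Fin n) (Fin n) F) *ᵥ Pi.single j 1)
        rw [hcol, hcol, GeoClasses.hermForm_eq_formOf hF, GeoClasses.formOf_smul_left, GeoClasses.formOf_smul_right,
          GeoClasses.qConj_apply, hlQ, ← GeoClasses.hermForm_eq_formOf hF, ← hG] at h1
        simp only [Pi.basisFun_apply, Matrix.toBilin'_single]
        linear_combination h1
    · -- a fixed space of small codimension
      set e := orderOf ((q : ℕ) : ZMod r) with he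
      have hqa : ((q : ℕ) : ZMod r) = a ^ 2 := by rw [hq₀, Nat.cast_pow]
      have he1 : e ≠ 1 := fun h' => hr1 (Elusive.orderOf_eq_one_iff_dvd.1 h')
      have hek : e ∣ k + 1 := orderOf_dvd_of_pow_eq_one (by
        rw [hqa, show (a ^ 2) ^ (k + 1) = ((-a) ^ (k + 1)) ^ 2 by
          rw [← pow_mul (-a), mul_comm (k + 1), pow_mul (-a), neg_sq], hak, neg_one_sq])
      have he0 : 0 < e := Nat.pos_of_ne_zero fun h' => by rw [h', zero_dvd_iff] at hek; omega
      have hen : e ≤ n := (Nat.le_of_dvd (by omega) hek).trans (by omega)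
      obtain ⟨x, hx, hx', hker⟩ := Elusive.exists_element_fixed (F := F) (n := n) p (r := r) (by rw [← hqdef, ← he]; omega)
        (c := n - e) (t := 1) one_pos (by rw [← hqdef, ← he]; omega)
      let X : GL (Fin n) F := Matrix.SpecialLinearGroup.toGL x
      have hXr : X ^ r = 1 := Units.ext (by
        rw [Units.val_pow_eq_pow_val, Units.val_one]
        rw [Matrix.SpecialLinearGroup.coe_pow, one_smul] at hx
        exact hx)
      obtain ⟨P, c, hc, hsim⟩ := get X (hmemS X x.det_coe) ⟨1, by rw [hXr, one_smul, Units.val_one]⟩ hx'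
      have hPr : (P * X * P⁻¹) ^ r = 1 := by rw [conj_pow, hXr, mul_one, mul_inv_cancel]
      obtain rfl : c = 1 := by
        have hcr : c ^ r = 1 := by
          rw [(Elusive25.hermSim_pow hF (by omega) hsim).2 r 1 (by rw [hPr, one_smul, Units.val_one]), one_pow]
        have := pow_gcd_eq_one.2 ⟨hcr, FiniteField.pow_card_sub_one_eq_one c hc⟩
        rwa [((hr'.coprime_iff_not_dvd).2 (by rwa [← hqdef])).gcd_eq_one, pow_one] at this
      have hrF : (r : F) ≠ 0 := fun h' =>
        hrp ((Nat.prime_dvd_prime_iff_eq hp hr').1 ((CharP.cast_eq_zero_iff F p r).1 h')).symm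
      have hdvd := Elusive25.dvd_card_UG_of_fixed hF hr' hrF he0 hsim hPr (by
        let E : (Fin n → F) ≃ₗ[F] (Fin n → F) := LinearEquiv.ofLinearMap (Matrix.toLin' (P : Matrix (Fin n) (Fin n) F))
          (Matrix.toLin' ((P⁻¹ : GL (Fin n) F) : Matrix (Fin n) (Fin n) F))
          (by rw [← Matrix.toLin'_mul, ← Units.val_mul, mul_inv_cancel, Units.val_one, Matrix.toLin'_one])
          (by rw [← Matrix.toLin'_mul, ← Units.val_mul, inv_mul_cancel, Units.val_one, Matrix.toLin'_one])
        rw [show (LinearMap.ker (Matrix.toLin' ((P * X * P⁻¹ : GL (Fin n) F) : Matrix (Fin n) (Fin n) F) - 1)) =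
            (LinearMap.ker (Matrix.toLin' (x : Matrix (Fin n) (Fin n) F) - 1)).map E.toLinearMap from ?_,
          LinearEquiv.finrank_map_eq, hker]
        · omega
        · ext v
          obtain ⟨w, rfl⟩ := E.surjective v
          rw [Submodule.mem_map_equiv, LinearEquiv.symm_apply_apply, LinearMap.mem_ker, LinearMap.mem_ker,
            LinearMap.sub_apply, LinearMap.sub_apply, Module.End.one_apply, Module.End.one_apply, sub_eq_zero,
            sub_eq_zero, Matrix.toLin'_apply, Matrix.toLin'_apply]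
          show _ *ᵥ ((P : Matrix (Fin n) (Fin n) F) *ᵥ w) = (P : Matrix (Fin n) (Fin n) F) *ᵥ w ↔ _
          rw [Matrix.mulVec_mulVec, ← Units.val_mul, inv_mul_cancel_right, Units.val_mul, ← Matrix.mulVec_mulVec]
          constructor
          · intro h'
            have := congrArg (((P⁻¹ : GL (Fin n) F) : Matrix (Fin n) (Fin n) F) *ᵥ ·) h'
            simpa [Matrix.mulVec_mulVec, ← Units.val_mul, X] using this
          · intro h'
            show (P : Matrix (Fin n) (Fin n) F) *ᵥ ((x : Matrix (Fin n) (Fin n) F) *ᵥ w) = _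
            rw [h'])
      rw [Agent.Classical.U.card_UG hF] at hdvd
      rcases hr'.dvd_mul.1 hdvd with h' | h'
      · exact hrq₀ (hr'.dvd_of_dvd_pow h')
      · obtain ⟨j, hj, hj'⟩ := (Prime.dvd_finsetProd_iff hr'.prime _).1 h'
        have h0 := (CharP.cast_eq_zero_iff (ZMod r) r _).2 hj'
        have haj : (-a) ^ (j + 1) = 1 := by
          rcases Nat.even_or_odd j with he' | ho
          · rw [if_pos he', Nat.cast_add, Nat.cast_pow, Nat.cast_one] at h0
            rw [he'.add_one.neg_pow]
            linear_combination -h0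
          · rw [if_neg (Nat.not_even_iff_odd.2 ho), Nat.cast_sub (Nat.one_le_pow _ _ (by omega)), Nat.cast_pow,
              Nat.cast_one, sub_eq_zero] at h0
            rw [ho.add_one.neg_pow, h0]
        have hej : e ∣ j + 1 := orderOf_dvd_of_pow_eq_one (by
          rw [hqa, show (a ^ 2) ^ (j + 1) = ((-a) ^ (j + 1)) ^ 2 by
            rw [← pow_mul (-a), mul_comm (j + 1), pow_mul (-a), neg_sq], haj, one_pow])
        have hje : j + 1 = e := le_antisymm (Finset.mem_range.1 hj) (Nat.le_of_dvd (by omega) hej)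
        obtain ⟨t, ht⟩ := hje ▸ hek
        rw [ht, pow_mul, haj, one_pow] at hak
        exact hne1 hak.symm
  · rintro (⟨rfl, hsq⟩ | ⟨hr35, rfl, hv⟩) x hx ⟨z, hz⟩ hns
    · -- squares of scalars
      have hzM : (x : Matrix (Fin n) (Fin n) F) ^ 2 = z • 1 := by rw [← Units.val_pow_eq_pow_val, hz]
      have : Nonempty (Fin n) := ⟨⟨0, by omega⟩⟩
      have hz0 : z ≠ 0 := fun h => by
        rw [h, zero_smul] at hz
        exact Units.ne_zero _ hz
      obtain ⟨w, hw⟩ : ∃ w, w ^ 2 = z := by
        by_cases hp2 : p = 2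
        · subst hp2
          obtain ⟨w, hw⟩ := FiniteField.isSquare_of_char_two (ringChar.eq F 2) z
          exact ⟨w, by rw [hw, pow_two]⟩
        · by_contra hno
          push Not at hno
          obtain ⟨t, ht, hdet⟩ := Elusive.det_of_pow_eq_scalar Nat.prime_two hno hzM
          refine (Elusive.exists_bad_scalar_iff (hodd2 hp2).1 (by omega : 0 < n)).1
            ⟨z, hno, t, ht, hdet.symm.trans (hScoe x hx)⟩ ⟨hsq.resolve_left hp2, fun _ _ => (hodd2 hp2).2⟩
      rw [← hw] at hzM hz0
      rw [pow_two] at hz0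
      obtain ⟨P, c, hc, hsim, hdet⟩ := Elusive25.exists_hermSim_of_sq hF (by omega) (x := x) (w := w)
        (left_ne_zero_of_mul hz0) fun v => by
          rw [Matrix.mulVec_mulVec, ← pow_two, hzM, Matrix.smul_mulVec, Matrix.one_mulVec, pow_two]
      exact Elusive25.exists_conj_of_hermSim hD P hc hsim hdet
    -- `n = r ∈ {3, 5}`
    have hd0 : n ∣ q₀ - 1 := dvd_of_one_le_padicValNat (by omega)
    have hd : n ∣ q - 1 := hfac ▸ dvd_mul_of_dvd_right hd0 _
    have hn2 : n ≠ 2 := by omega
    have hrF' : (n : F) ≠ 0 := fun h0 =>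
      (hr.resolve_left hn2) ((Nat.prime_dvd_prime_iff_eq hp hr').1 ((CharP.cast_eq_zero_iff F p n).1 h0)).symm
    have hzM : (x : Matrix (Fin n) (Fin n) F) ^ n = z • 1 := by rw [← Units.val_pow_eq_pow_val, hz]
    have hzr : z ^ n = 1 := by
      have := congrArg Matrix.det hzM
      rwa [Matrix.det_pow, hScoe x hx, one_pow, Matrix.det_smul, Matrix.det_one, mul_one, Fintype.card_fin,
        eq_comm] at this
    have hnd : ¬ n ∣ q₀ + 1 := fun h' => by
      have h2 : n ∣ (q₀ + 1) - (q₀ - 1) := Nat.dvd_sub h' hd0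
      rw [show q₀ + 1 - (q₀ - 1) = 2 by omega] at h2
      have := Nat.le_of_dvd two_pos h2; omega
    have hroot : ∀ c : F, c ^ (n * n) = 1 → c ^ n = 1 := fun c hc => by
      have hc0 : c ≠ 0 := fun h0 => by rw [h0, zero_pow (by positivity)] at hc; exact zero_ne_one hc
      have := pow_gcd_eq_one.2 ⟨hc, FiniteField.pow_card_sub_one_eq_one c hc0⟩
      have hg : Nat.gcd (n * n) (q - 1) = n := by
        rw [← pow_two]
        obtain ⟨j, hj, hje⟩ := (Nat.dvd_prime_pow hr').1 (Nat.gcd_dvd_left (n ^ 2) (q - 1))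
        have h1 : n ∣ n ^ j := hje ▸ Nat.dvd_gcd (dvd_pow_self n two_ne_zero) hd
        rw [hje]
        interval_cases j
        · rw [pow_zero, Nat.dvd_one] at h1; exact absurd h1 hr'.ne_one
        · exact pow_one n
        · exfalso
          have h3 : n ^ 2 ∣ q - 1 := hje ▸ Nat.gcd_dvd_right _ _
          rw [hfac] at h3
          have h4 := (((hr'.coprime_iff_not_dvd).2 hnd).pow_left 2).dvd_of_dvd_mul_left h3
          have := (padicValNat_dvd_iff_le (by omega)).1 h4
          omega
      rwa [← hqdef, hg] at this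
    obtain ⟨c, hc⟩ : ∃ c, c ^ n = z := by
      by_contra hno
      push Not at hno
      obtain ⟨t, ht, hdet⟩ := Elusive.det_of_pow_eq_scalar hr' hno hzM
      obtain rfl : t = 1 := Nat.eq_of_mul_eq_mul_right hr'.pos (by rw [one_mul]; exact ht.symm)
      rw [hScoe x hx, pow_one, Even.neg_one_pow ((hr'.odd_of_ne_two hn2).add_one), one_mul] at hdet
      exact hno 1 (by rw [one_pow, hdet])
    obtain rfl : z = 1 := by rw [← hc]; exact hroot c (by rw [pow_mul, hc, hzr])
    set g : Module.End F (Fin n → F) := Matrix.toLin' (x : Matrix (Fin n) (Fin n) F) with hgdef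
    have hgr : g ^ n = 1 := by
      show (Matrix.toLinAlgEquiv' (x : Matrix (Fin n) (Fin n) F)) ^ n = 1
      rw [← map_pow, hzM, one_smul, map_one]
    obtain ⟨ζu, hζu⟩ := exists_prime_orderOf_dvd_card' (G := Fˣ) n (by rwa [Nat.card_units, Nat.card_eq_fintype_card])
    set ζ : F := (ζu : F)
    have hζ : IsPrimitiveRoot ζ n :=
      IsPrimitiveRoot.coe_units_iff.2 (by have := IsPrimitiveRoot.orderOf ζu; rwa [hζu] at this)
    have : NeZero n := ⟨by omega⟩
    obtain ⟨b, d, hd'⟩ := exists_root_eigenbasis hr' hrF' hgr hζ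
    set Ds : Multiset (ZMod n) := (Finset.univ : Finset (Fin n)).val.map d
    have hsumD : Ds.sum = 0 := by
      have h1 : LinearMap.det g = 1 := by rw [hgdef, LinearMap.det_toLin']; exact hScoe x hx
      rw [← LinearMap.det_toMatrix b, show LinearMap.toMatrix b b g = Matrix.diagonal (fun i => ζ ^ (d i).val) from
        Matrix.ext fun i j => by
          rw [LinearMap.toMatrix_apply, hd', map_smul, Module.Basis.repr_self, Finsupp.smul_apply, Finsupp.single_apply,
            Matrix.diagonal_apply]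
          by_cases h' : i = j
          · subst h'; simp
          · simp [h', Ne.symm h'], Matrix.det_diagonal, Finset.prod_eq_multiset_prod] at h1
      have h2 : (Ds.map fun j : ZMod n => ζ ^ j.val).prod = 1 := by rw [Multiset.map_map]; exact h1
      rw [S5965.prod_pow_val hζ.pow_eq_one] at h2
      by_contra hne
      exact hne ((ZMod.val_eq_zero _).1 (Nat.eq_zero_of_dvd_of_lt ((hζ.pow_eq_one_iff_dvd _).1 h2) (ZMod.val_lt _)))
    obtain ⟨s, hs⟩ := S5965.exists_symm hr35 Ds (by rw [Multiset.card_map]; simp) hsumD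
    have hcount : ∀ j : ZMod n, Ds.count (s - j) = Ds.count j := fun j => by
      conv_lhs => rw [← hs]
      exact Multiset.count_map_eq_count' _ Ds (fun u v e => sub_right_injective e) j
    have hfib : ∀ j : ZMod n, Fintype.card {i // d i = j} = Ds.count j := fun j => by
      rw [Fintype.card_subtype, Multiset.count_map, ← Finset.filter_val]
      exact congrArg Finset.card (Finset.filter_congr fun i _ => eq_comm)
    let σ : (Σ j : ZMod n, Fin (Ds.count j)) ≃ Fin n :=
      (Equiv.sigmaCongrRight fun j => (Fintype.equivFinOfCardEq (hfib j)).symm).trans (Equiv.sigmaFiberEquiv d)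
    have hσ : ∀ y, d (σ y) = y.1 := fun y => ((Fintype.equivFinOfCardEq (hfib y.1)).symm y.2).2
    let τ₀ : (Σ j : ZMod n, Fin (Ds.count j)) → (Σ j : ZMod n, Fin (Ds.count j)) :=
      fun y => ⟨s - y.1, Fin.cast (hcount y.1).symm y.2⟩
    let τ : Fin n → Fin n := fun i => σ (τ₀ (σ.symm i))
    have hτ : ∀ i, τ (τ i) = i := fun i => by
      simp only [τ, Equiv.symm_apply_apply]
      rw [show τ₀ (τ₀ (σ.symm i)) = σ.symm i from
        Elusive25.blockExt (fun j => Ds.count j) (sub_sub_cancel s _) rfl, Equiv.apply_symm_apply]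
    have hdτ : ∀ i, d (τ i) = s - d i := fun i => by
      conv_rhs => rw [← Equiv.apply_symm_apply σ i, hσ]
      exact hσ _
    have hζQ : ζ ^ q₀ = ζ := (hF.fixed_iff ζu.ne_zero).2 ((hζ.pow_eq_one_iff_dvd _).2 hd0)
    let J : Matrix (Fin n) (Fin n) F := Matrix.of fun i j => if j = τ i then 1 else 0
    have hJJ : J * J = 1 := by
      ext i j
      rw [Matrix.mul_apply, Finset.sum_eq_single (τ i)]
      · simp [J, hτ, Matrix.one_apply, eq_comm]
      · intro k _ hk; simp [J, hk]
      · exact fun h => absurd (Finset.mem_univ _) h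
    obtain ⟨P, hP⟩ := Elusive25.exists_hermSim_of_gram hF (x := x) b (Matrix.diagonal fun i => ζ ^ (d i).val)
      (fun i => by
        rw [← Matrix.toLin'_apply, ← hgdef, hd', Finset.sum_eq_single i]
        · simp
        · intro j _ hj; simp [hj]
        · exact fun h => absurd (Finset.mem_univ _) h)
      J (IsUnit.of_mul_eq_one J hJJ) (by
        ext i j
        simp only [GeoClasses.starMat, J, Matrix.transpose_apply, Matrix.map_apply, Matrix.of_apply]
        have : i = τ j ↔ j = τ i := ⟨fun h => by rw [h, hτ], fun h => by rw [h, hτ]⟩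
        simp only [this, apply_ite (GeoClasses.qConj hF), map_one, map_zero])
      (c := ζ ^ s.val) (by
        ext i j
        rw [GeoClasses.adjForm, Matrix.diagonal_transpose, Matrix.diagonal_map (map_zero _), Matrix.mul_diagonal,
          Matrix.diagonal_mul, Matrix.smul_apply, smul_eq_mul]
        show _ * J i j * (ζ ^ (d j).val) ^ q₀ = _
        rw [← pow_mul, mul_comm (d j).val, pow_mul, hζQ]
        by_cases hij : j = τ i
        · subst hij
          rw [hdτ, mul_right_comm, ← pow_add, pow_eq_pow_mod _ hζ.pow_eq_one, ← ZMod.val_add, add_sub_cancel]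
        · simp [J, hij])
    refine Elusive25.exists_conj_of_hermSim hD P (pow_ne_zero _ ζu.ne_zero) hP fun t _ => ?_
    have : Nonempty (Fin n) := ⟨⟨0, by omega⟩⟩
    exact Elusive.exists_commute_det b id (fun _ => rfl) (fun i => ζ ^ (d i).val) hd'
      (fun i => mul_ne_zero (pow_ne_zero _ ζu.ne_zero) (pow_ne_zero _ ζu.ne_zero)) t

end Cfsg.Agent.S5982
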