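import Cfsg.Statements.S5983
import Cfsg.Agent.Elusive25.SympForms
-- import your own Cfsg.Agent.* helpers here

set_option autoImplicit false
open scoped MatrixGroups
open Cfsg

namespace Cfsg.Agent.S5983

open Agent.Classical Agent.Forms Agent.Elusive25 Module in
/-- Twice the index of the orthogonal group in the symplectic group. -/
theorem index_eq {F : Type*} [Field F] [Fintype F] [CharP F 2] {m : ℕ} (Q : QuadraticForm F (Fin (m + 1) ⊕ Fin (m + 1) → F))
    (hQ : PolarSymp Q) :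
    ((∃ U : Submodule F (Fin (m + 1) ⊕ Fin (m + 1) → F), (∀ u ∈ U, Q u = 0) ∧ finrank F U = m + 1) →
      (Cfsg.Geo.quadSimilarityGroup ⇑Q).relIndex (Cfsg.spGL (m + 1) F) * 2 =
        Fintype.card F ^ (m + 1) * (Fintype.card F ^ (m + 1) + 1)) ∧
    ((¬ ∃ U : Submodule F (Fin (m + 1) ⊕ Fin (m + 1) → F), (∀ u ∈ U, Q u = 0) ∧ finrank F U = m + 1) →
      (Cfsg.Geo.quadSimilarityGroup ⇑Q).relIndex (Cfsg.spGL (m + 1) F) * 2 =
        Fintype.card F ^ (m + 1) * (Fintype.card F ^ (m + 1) - 1)) := by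
  classical
  set q := Fintype.card F with hq
  have hq1 : 1 ≤ q ^ (m + 1) := Nat.one_le_pow _ _ Fintype.card_pos
  have hH : Cfsg.Geo.quadSimilarityGroup ⇑Q ⊓ Cfsg.spGL (m + 1) F = Cfsg.isometryGroup F ⇑Q := by
    ext g
    constructor
    · rintro ⟨⟨c, hc⟩, hg⟩ v -
      show Q _ = Q v
      obtain ⟨u, w, huw⟩ : ∃ u w, Cfsg.sympForm (m + 1) F u w ≠ 0 := by
        by_contra h
        push Not at h
        have := Agent.Forms.sympBil_nondegenerate.1 (Pi.single (Sum.inl 0) 1 : Fin (m + 1) ⊕ Fin (m + 1) → F) fun w => by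
          rw [sympBil_apply]; exact h _ w
        simpa using congrFun this (Sum.inl 0)
      have h1 := hg u w
      change Cfsg.sympForm (m + 1) F (Matrix.mulVec (g : Matrix (Fin (m + 1) ⊕ Fin (m + 1)) (Fin (m + 1) ⊕ Fin (m + 1)) F) u)
        (Matrix.mulVec (g : Matrix (Fin (m + 1) ⊕ Fin (m + 1)) (Fin (m + 1) ⊕ Fin (m + 1)) F) w) = Cfsg.sympForm (m + 1) F u w at h1
      rw [← hQ, ← hQ] at h1
      simp only [QuadraticMap.polar, ← Matrix.mulVec_add, hc] at h1
      rw [← mul_sub, ← mul_sub] at h1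
      have hne : Q (u + w) - Q u - Q w ≠ 0 := fun h => huw ((hQ u w).symm.trans h)
      have := hc v
      rwa [(mul_eq_right₀ hne).1 h1, one_mul] at this
    · intro hg
      have hg' : ∀ v, Q (Matrix.mulVec (g : Matrix (Fin (m + 1) ⊕ Fin (m + 1)) (Fin (m + 1) ⊕ Fin (m + 1)) F) v) = Q v :=
        fun v => hg v v
      exact ⟨⟨1, fun v => by rw [hg', Units.val_one, one_mul]⟩, mem_spGL_of_isometry hQ hg'⟩
  have hmul : Nat.card (Cfsg.isometryGroup F ⇑Q) *
      (Cfsg.Geo.quadSimilarityGroup ⇑Q).relIndex (Cfsg.spGL (m + 1) F) = Agent.SympSub.spOrder q (m + 1) := by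
    have hle : Cfsg.isometryGroup F ⇑Q ≤ Cfsg.spGL (m + 1) F := hH ▸ inf_le_right
    have hcard : Nat.card (Cfsg.spGL (m + 1) F) = Agent.SympSub.spOrder q (m + 1) := by
      rw [hq, ← Agent.SympSub.card_symplecticGroup]
      refine Nat.card_congr (Equiv.ofBijective (fun g : Cfsg.spGL (m + 1) F =>
        (⟨(g.1 : Matrix (Fin (m + 1) ⊕ Fin (m + 1)) (Fin (m + 1) ⊕ Fin (m + 1)) F), Agent.Forms.mem_spGL_iff.1 g.2⟩ :
          Matrix.symplecticGroup (Fin (m + 1)) F)) ⟨?_, ?_⟩)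
      · intro g h e
        exact Subtype.ext (Units.ext (congrArg Subtype.val e))
      · intro A
        exact ⟨⟨⟨A.1, (A⁻¹ : Matrix.symplecticGroup (Fin (m + 1)) F).1,
          congrArg Subtype.val (mul_inv_cancel A), congrArg Subtype.val (inv_mul_cancel A)⟩,
          Agent.Forms.mem_spGL_iff.2 A.2⟩, rfl⟩
    rw [← Subgroup.inf_relIndex_right, hH]
    have h1 := Subgroup.card_mul_index ((Cfsg.isometryGroup F ⇑Q).subgroupOf (Cfsg.spGL (m + 1) F))
    rw [Nat.card_congr (Subgroup.subgroupOfEquivOfLe hle).toEquiv, hcard] at h1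
    exact h1
  have hlast : ∏ i ∈ Finset.range (m + 1), (q ^ (2 * (i + 1)) - 1) =
      (∏ i ∈ Finset.range m, (q ^ (2 * (i + 1)) - 1)) * ((q ^ (m + 1) + 1) * (q ^ (m + 1) - 1)) := by
    rw [Finset.prod_range_succ, ← Nat.sq_sub_sq, one_pow, ← pow_mul, mul_comm (m + 1) 2]
  have hpos : 0 < ∏ i ∈ Finset.range m, (q ^ (2 * (i + 1)) - 1) :=
    Finset.prod_pos fun i _ => Nat.sub_pos_of_lt (Nat.one_lt_pow (by omega) Fintype.one_lt_card)
  have hsp : Agent.SympSub.spOrder q (m + 1) = q ^ ((m + 1) * m) * q ^ (m + 1) *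
      ((∏ i ∈ Finset.range m, (q ^ (2 * (i + 1)) - 1)) * ((q ^ (m + 1) + 1) * (q ^ (m + 1) - 1))) := by
    rw [Agent.SympSub.spOrder, hlast, ← pow_add, show (m + 1) ^ 2 = (m + 1) * m + (m + 1) by ring]
  rw [hsp] at hmul
  constructor
  · rintro ⟨U, hU, hUd⟩
    obtain ⟨e, he⟩ := exists_equiv_plus hQ hU hUd
    rw [card_isometryGroup_congr ⇑Q Q (fun _ => rfl) (e.trans (plusEquiv (m + 1)))
      (fun v => by rw [LinearEquiv.trans_apply, plusEquiv_spec, he]), card_OQ_plus, Nat.card_eq_fintype_card,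
      ← hq] at hmul
    have h1 : 0 < q ^ (m + 1) - 1 := Nat.sub_pos_of_lt (Nat.one_lt_pow (by omega) Fintype.one_lt_card)
    have h2 : 0 < q ^ ((m + 1) * m) := Nat.pos_of_ne_zero (pow_ne_zero _ Fintype.card_ne_zero)
    refine Nat.eq_of_mul_eq_mul_left (Nat.mul_pos (Nat.mul_pos h2 h1) hpos) ?_
    linarith
  · intro hU
    obtain ⟨a, b, hab⟩ := exists_binaryAniso (F := F)
    obtain ⟨e, he⟩ := exists_equiv_minus rfl hab hQ hU
    rw [card_isometryGroup_congr ⇑Q Q (fun _ => rfl) (e.trans (minusEquiv m))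
      (fun v => by rw [LinearEquiv.trans_apply, minusEquiv_spec, he]), card_OQ_minus (anisotropic_binQF hab),
      Nat.card_eq_fintype_card, ← hq] at hmul
    have h2 : 0 < q ^ ((m + 1) * m) := Nat.pos_of_ne_zero (pow_ne_zero _ Fintype.card_ne_zero)
    refine Nat.eq_of_mul_eq_mul_left (Nat.mul_pos (Nat.mul_pos h2 (Nat.succ_pos (q ^ (m + 1)))) hpos) ?_
    rw [Nat.succ_eq_add_one]
    linarith

/-- Elements of prime order of PSp_n(q), q even, and the subgroups of orthogonal type. Here `T = Sp_{2d}(F)` for a field `F` of characteristic 2 with `q` elements (`d ≥ 2`, `(d, q) ≠ (2, 2)`), realised as the invertible matrices preserving the standard alternating form; `Q` is a non-degenerate quadratic form on `F^{2d}` whose polar form is that alternating form, and `H` is the subgroup of `T` preserving `Q` up to a scalar (equivalently preserving `Q`) — a subgroup of type O^±_{2d}(q) (maximality is not assumed); `Q` is of plus type when `F^{2d}`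 contains a `d`-dimensional subspace on which `Q` vanishes, of minus type otherwise. Ω is the set of cosets of `H` in `T`, so an element of `T` of prime order `r` (`x ∈ T` with `x^r` scalar, `x` not scalar) fixes a point of Ω exactly when some `T`-conjugate of `x` preserves `Q`. Let `r` be a prime dividing the index of `H`. Then every element of `T` of order `r` fixes a point of Ω if and only if `r = 2` and either `Q` is of plus type or `d` is odd. -/
theorem result {F : Type*} [Field F] [Fintype F] {p : ℕ} [Fact p.Prime] [CharP F p] {q : ℕ} (hq : Fintype.card F = q)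
    (hp : p = 2) (d : ℕ) (hd : 2 ≤ d) (hT : (d, q) ≠ (2, 2)) (Q : (Fin d ⊕ Fin d → F) → F) (hQ : Cfsg.Geo.IsNondegenerateQuadraticForm Q)
    (hQf : ∀ u v, QuadraticMap.polar Q u v = Cfsg.sympForm d F u v)
    (r : ℕ) [Fact r.Prime]
    (hΩ : r ∣ (Cfsg.Geo.quadSimilarityGroup Q).relIndex (Cfsg.spGL d F)) :
    (∀ x ∈ Cfsg.spGL d F, (∃ z : F, ((x ^ r : GL (Fin d ⊕ Fin d) F) : Matrix (Fin d ⊕ Fin d) (Fin d ⊕ Fin d) F) = z • (1 : Matrix (Fin d ⊕ Fin d) (Fin d ⊕ Fin d) F)) →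
      (∀ z : F, (x : Matrix (Fin d ⊕ Fin d) (Fin d ⊕ Fin d) F) ≠ z • (1 : Matrix (Fin d ⊕ Fin d) (Fin d ⊕ Fin d) F)) →
      ∃ g ∈ Cfsg.spGL d F, g⁻¹ * x * g ∈ Cfsg.Geo.quadSimilarityGroup Q) ↔
    (r = 2 ∧ (Cfsg.Geo.IsPlusTypeOn Q ⊤ ∨ Odd d)) := by
  classical
  subst hp hq
  obtain ⟨m, rfl⟩ : ∃ m, d = m + 1 := ⟨d - 1, by omega⟩
  have hr : r.Prime := Fact.out
  let Qf : QuadraticForm F (Fin (m + 1) ⊕ Fin (m + 1) → F) := QuadraticMap.ofPolar Q
    (fun c v => by rw [hQ.smul, pow_two]; rfl) hQ.polar_bilinear.add_left hQ.polar_bilinear.smul_left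
  have hQs : Agent.Elusive25.PolarSymp Qf := fun u v => hQf u v
  have hS : ∀ U : Submodule F (Fin (m + 1) ⊕ Fin (m + 1) → F), (∀ u ∈ U, Qf u = 0) →
      Module.finrank F U = m + 1 → Cfsg.Geo.IsPlusTypeOn Q ⊤ := fun U hU hUd =>
    ⟨U, le_top, hU, by rw [hUd, finrank_top, Agent.Elusive25.finrank_space]⟩
  have hplus : Cfsg.Geo.IsPlusTypeOn Q ⊤ →
      ∃ U : Submodule F (Fin (m + 1) ⊕ Fin (m + 1) → F), (∀ u ∈ U, Qf u = 0) ∧ Module.finrank F U = m + 1 := by
    rintro ⟨U, -, hU, hUd⟩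
    rw [finrank_top, Agent.Elusive25.finrank_space] at hUd
    exact ⟨U, hU, by omega⟩
  -- an invariant form has the type of `Q` when an element with a conjugate in `H` fixes no non-singular vector
  have key : ∀ (P : QuadraticForm F (Fin (m + 1) ⊕ Fin (m + 1) → F)), Agent.Elusive25.PolarSymp P →
      ∀ g : Agent.Classical.OQ P, (∀ v, g.1 v = v → P v = 0) →
      (∃ h ∈ Cfsg.spGL (m + 1) F, h⁻¹ * Agent.Elusive25.glOf P g * h ∈ Cfsg.Geo.quadSimilarityGroup Q) →
      ∃ φ : (Fin (m + 1) ⊕ Fin (m + 1) → F) ≃ₗ[F] (Fin (m + 1) ⊕ Fin (m + 1) → F), ∀ v, P (φ v) = Qf v := by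
    rintro P hP g hfix ⟨h, hh, c, hc⟩
    have hmul := Agent.Elusive25.glOf_mulVec P g
    have hx : Agent.Elusive25.glOf P g ∈ Cfsg.spGL (m + 1) F :=
      Agent.Elusive25.mem_spGL_of_isometry hP fun v => by rw [hmul]; exact g.2 v
    set y := h⁻¹ * Agent.Elusive25.glOf P g * h with hy
    have hyS : y ∈ Cfsg.spGL (m + 1) F := mul_mem (mul_mem (inv_mem hh) hx) hh
    have hc1 : ∀ v, Qf ((y : Matrix (Fin (m + 1) ⊕ Fin (m + 1)) (Fin (m + 1) ⊕ Fin (m + 1)) F).mulVec v) = Qf v := by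
      obtain ⟨u, w, huw⟩ : ∃ u w, Cfsg.sympForm (m + 1) F u w ≠ 0 := by
        by_contra hno
        push Not at hno
        have := Agent.Forms.sympBil_nondegenerate.1 (Pi.single (Sum.inl 0) 1 : Fin (m + 1) ⊕ Fin (m + 1) → F) fun w => by
          rw [Agent.Forms.sympBil_apply]; exact hno _ w
        simpa using congrFun this (Sum.inl 0)
      have h1 : Cfsg.sympForm (m + 1) F ((y : Matrix (Fin (m + 1) ⊕ Fin (m + 1)) (Fin (m + 1) ⊕ Fin (m + 1)) F).mulVec u)
          ((y : Matrix (Fin (m + 1) ⊕ Fin (m + 1)) (Fin (m + 1) ⊕ Fin (m + 1)) F).mulVec w) = Cfsg.sympForm (m + 1) F u w := hyS u w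
      rw [← hQf, ← hQf] at h1
      simp only [QuadraticMap.polar, ← Matrix.mulVec_add, hc] at h1
      rw [← mul_sub, ← mul_sub] at h1
      have hne : Q (u + w) - Q u - Q w ≠ 0 := fun h => huw ((hQf u w).symm.trans h)
      intro v
      show Q _ = Q v
      rw [hc, (mul_eq_right₀ hne).1 h1, one_mul]
    let Q' := Qf.comp (Matrix.toLin' ((h⁻¹ : GL (Fin (m + 1) ⊕ Fin (m + 1)) F) : Matrix (Fin (m + 1) ⊕ Fin (m + 1)) (Fin (m + 1) ⊕ Fin (m + 1)) F))
    have hQ' : Agent.Elusive25.PolarSymp Q' := fun u w => by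
      simp only [QuadraticMap.polar, Q', QuadraticMap.comp_apply, Matrix.toLin'_apply, Matrix.mulVec_add]
      exact (hQs _ _).trans ((inv_mem hh : h⁻¹ ∈ Cfsg.spGL (m + 1) F) u w)
    obtain ⟨φ, hφ⟩ := Agent.Elusive25.exists_equiv_of_invariant hP hQ'
      (M := (Agent.Elusive25.glOf P g : Matrix (Fin (m + 1) ⊕ Fin (m + 1)) (Fin (m + 1) ⊕ Fin (m + 1)) F))
      (fun v => by rw [hmul]; exact g.2 v)
      (fun v => by
        simp only [Q', QuadraticMap.comp_apply, Matrix.toLin'_apply, Matrix.mulVec_mulVec, ← Units.val_mul]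
        have := hc1 (Matrix.mulVec ((h⁻¹ : GL (Fin (m + 1) ⊕ Fin (m + 1)) F) : Matrix (Fin (m + 1) ⊕ Fin (m + 1)) (Fin (m + 1) ⊕ Fin (m + 1)) F) v)
        rw [Matrix.mulVec_mulVec, ← Units.val_mul, hy,
          show h⁻¹ * Agent.Elusive25.glOf P g * h * h⁻¹ = h⁻¹ * Agent.Elusive25.glOf P g by group] at this
        exact this)
      (fun w => ⟨g.1.symm w, by rw [hmul]; exact g.1.apply_symm_apply w⟩)
      (fun v hv => hfix v (by rwa [hmul] at hv))
    let ψ : (Fin (m + 1) ⊕ Fin (m + 1) → F) ≃ₗ[F] (Fin (m + 1) ⊕ Fin (m + 1) → F) :=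
      LinearMap.GeneralLinearGroup.generalLinearEquiv F _ (Matrix.GeneralLinearGroup.toLin h)
    have hψ : ∀ v, ψ v = (h : Matrix (Fin (m + 1) ⊕ Fin (m + 1)) (Fin (m + 1) ⊕ Fin (m + 1)) F).mulVec v := fun v => rfl
    refine ⟨ψ.trans φ, fun v => ?_⟩
    rw [LinearEquiv.trans_apply, hφ, hψ]
    simp only [Q', QuadraticMap.comp_apply, Matrix.toLin'_apply]
    rw [Matrix.mulVec_mulVec, ← Units.val_mul, inv_mul_cancel, Units.val_one, Matrix.one_mulVec]
  have hns : ∀ z : F, ∀ P : QuadraticForm F (Fin (m + 1) ⊕ Fin (m + 1) → F), ∀ g : Agent.Classical.OQ P,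
      (∃ v, P v ≠ 0) → (∀ v, g.1 v = v → P v = 0) →
      (Agent.Elusive25.glOf P g : Matrix (Fin (m + 1) ⊕ Fin (m + 1)) (Fin (m + 1) ⊕ Fin (m + 1)) F) ≠ z • 1 := by
    rintro z P g ⟨v, hv⟩ hfix hz
    have hg1 : ∀ u, g.1 u = z • u := fun u => by
      rw [← Agent.Elusive25.glOf_mulVec, hz, Matrix.smul_mulVec, Matrix.one_mulVec]
    have h2 := g.2 v
    rw [hg1, QuadraticMap.map_smul, smul_eq_mul, mul_eq_right₀ hv] at h2
    refine hv (hfix v ?_)
    rw [hg1]
    rcases mul_self_eq_one_iff.1 h2 with h' | h'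
    · rw [h', one_smul]
    · rw [h', CharTwo.neg_eq, one_smul]
  have hne : ∀ P : QuadraticForm F (Fin (m + 1) ⊕ Fin (m + 1) → F), Agent.Elusive25.PolarSymp P → ∃ v, P v ≠ 0 := by
    intro P hP
    by_contra h
    push Not at h
    have := Agent.OrthGen.two_mul_finrank_le (Agent.Elusive25.bNondeg_of_polarSymp hP) ⊤ fun v _ => h v
    rw [finrank_top, Agent.Elusive25.finrank_space] at this
    omega
  constructor
  · intro hall
    have hr2 : r = 2 := by
      by_contra hr2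
      have hodd := hr.odd_of_ne_two hr2
      obtain ⟨hidx₁, hidx₂⟩ := index_eq Qf hQs
      have hrq := Agent.Elusive25.not_dvd_card (F := F) hr hr2
      have hdvd : ∀ n : ℕ, (Cfsg.Geo.quadSimilarityGroup Q).relIndex (Cfsg.spGL (m + 1) F) * 2 =
          Fintype.card F ^ (m + 1) * n → r ∣ n := fun n hn =>
        (hr.dvd_mul.1 (hn ▸ hΩ.mul_right 2)).resolve_left fun h => hrq (hr.dvd_of_dvd_pow h)
      obtain ⟨a, b, hab⟩ := Agent.Forms.exists_binaryAniso (F := F)
      obtain ⟨P₁, e, hP₁, he, hW⟩ := Agent.Elusive25.exists_polarSymp_minus rfl hab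
      by_cases hp : Cfsg.Geo.IsPlusTypeOn Q ⊤
      · obtain ⟨U, hU, hUd⟩ := hplus hp
        obtain ⟨g₀, hg₀, hfix₀⟩ := Agent.Elusive25.exists_fpf_minus hab (hdvd _ (hidx₁ ⟨U, hU, hUd⟩))
        let g := Agent.Classical.OQCongr (R := P₁) e he g₀
        have hfix : ∀ v, g.1 v = v → P₁ v = 0 := fun v hv => by
          have h0 : e.symm v = 0 := hfix₀ _ (e.injective (by
            rw [e.apply_symm_apply]; exact hv))
          rw [← e.apply_symm_apply v, h0, map_zero, map_zero]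
        obtain ⟨φ, hφ⟩ := key P₁ hP₁ g hfix (hall _
          (Agent.Elusive25.mem_spGL_of_isometry hP₁ fun v => by rw [Agent.Elusive25.glOf_mulVec]; exact g.2 v)
          ⟨1, by rw [← map_pow, ← map_pow, hg₀, map_one, map_one, Units.val_one, one_smul]⟩
          (fun z => hns z P₁ g (hne P₁ hP₁) hfix))
        have := hW (U.map φ.toLinearMap) (by
          rintro _ ⟨u, hu, rfl⟩
          exact (hφ u).trans (hU u hu))
        rw [LinearEquiv.finrank_map_eq, hUd] at this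
        omega
      · obtain ⟨g, hg, hfix₀⟩ := Agent.Elusive25.exists_fpf_plus (F := F) (show 1 ≤ m + 1 by omega)
          (hdvd _ (hidx₂ fun ⟨U, hU, hUd⟩ => hp (hS U hU hUd)))
        have hfix : ∀ v, g.1 v = v → Agent.Classical.plusQF (m + 1) F v = 0 := fun v hv => by
          rw [hfix₀ v hv, map_zero]
        obtain ⟨φ, hφ⟩ := key _ Agent.Elusive25.polarSymp_plusQF g hfix (hall _
          (Agent.Elusive25.mem_spGL_of_isometry Agent.Elusive25.polarSymp_plusQF fun v => by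
            rw [Agent.Elusive25.glOf_mulVec]; exact g.2 v)
          ⟨1, by rw [← map_pow, hg, map_one, Units.val_one, one_smul]⟩
          (fun z => hns z _ g (hne _ Agent.Elusive25.polarSymp_plusQF) hfix))
        obtain ⟨hT, hTd, -⟩ := Agent.Forms.totallySingular_ker_inr (F := F) (m := m + 1)
        refine hp (hS ((LinearMap.ker (LinearMap.funLeft F F (Sum.inr : Fin (m + 1) → Fin (m + 1) ⊕ Fin (m + 1)))).map φ.symm.toLinearMap) ?_
          (by rw [LinearEquiv.finrank_map_eq, hTd]))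
        rintro _ ⟨u, hu, rfl⟩
        rw [← hφ]
        simpa using hT u hu
    refine ⟨hr2, ?_⟩
    subst hr2
    by_contra hno
    rw [not_or, Nat.not_odd_iff_even] at hno
    obtain ⟨hp, he⟩ := hno
    have hT' : Fintype.card F ≠ 2 ∨ m + 1 ≠ 2 := by
      by_contra h
      push Not at h
      exact hT (Prod.ext h.2 h.1)
    obtain ⟨g, -, hgg, -, hfix⟩ := Agent.Elusive25.exists_involution_singular_fix (F := F) hd he hT'
    obtain ⟨φ, hφ⟩ := key _ Agent.Elusive25.polarSymp_plusQF g hfix (hall _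
      (Agent.Elusive25.mem_spGL_of_isometry Agent.Elusive25.polarSymp_plusQF fun v => by
        rw [Agent.Elusive25.glOf_mulVec]; exact g.2 v)
      ⟨1, by rw [← map_pow, pow_two g, hgg, map_one, Units.val_one, one_smul]⟩
      (fun z => hns z _ g (hne _ Agent.Elusive25.polarSymp_plusQF) hfix))
    obtain ⟨hT₀, hTd, -⟩ := Agent.Forms.totallySingular_ker_inr (F := F) (m := m + 1)
    refine hp (hS ((LinearMap.ker (LinearMap.funLeft F F (Sum.inr : Fin (m + 1) → Fin (m + 1) ⊕ Fin (m + 1)))).map φ.symm.toLinearMap) ?_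
      (by rw [LinearEquiv.finrank_map_eq, hTd]))
    rintro _ ⟨u, hu, rfl⟩
    rw [← hφ]
    simpa using hT₀ u hu
  · rintro ⟨rfl, hor⟩ x hx ⟨z, hz⟩ -
    rw [Units.val_pow_eq_pow_val] at hz
    have hinv : ∀ v, (x : Matrix (Fin (m + 1) ⊕ Fin (m + 1)) (Fin (m + 1) ⊕ Fin (m + 1)) F).mulVec
        ((x : Matrix (Fin (m + 1) ⊕ Fin (m + 1)) (Fin (m + 1) ⊕ Fin (m + 1)) F).mulVec v) = v := by
      have hx2 : ∀ v, (x : Matrix (Fin (m + 1) ⊕ Fin (m + 1)) (Fin (m + 1) ⊕ Fin (m + 1)) F).mulVec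
          ((x : Matrix (Fin (m + 1) ⊕ Fin (m + 1)) (Fin (m + 1) ⊕ Fin (m + 1)) F).mulVec v) = z • v := fun v => by
        rw [Matrix.mulVec_mulVec, ← pow_two, hz, Matrix.smul_mulVec, Matrix.one_mulVec]
      obtain ⟨u, hu⟩ := hne Qf hQs
      obtain ⟨w, huw⟩ : ∃ w, Cfsg.sympForm (m + 1) F u w ≠ 0 := by
        by_contra hno
        push Not at hno
        exact hu (by rw [Agent.Forms.sympBil_nondegenerate.1 u fun w => by
          rw [Agent.Forms.sympBil_apply]; exact hno w, map_zero])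
      have h1 : Cfsg.sympForm (m + 1) F (z • u) (z • w) = Cfsg.sympForm (m + 1) F u w := by
        rw [← hx2, ← hx2]
        exact (hx _ _).trans (hx u w)
      rw [← Agent.Forms.sympBil_apply, ← Agent.Forms.sympBil_apply] at h1
      simp only [map_smul, LinearMap.smul_apply, smul_eq_mul] at h1
      rw [← mul_assoc, mul_eq_right₀ (by rwa [Agent.Forms.sympBil_apply])] at h1
      intro v
      rw [hx2]
      rcases mul_self_eq_one_iff.1 h1 with h' | h'
      · rw [h', one_smul]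
      · rw [h', CharTwo.neg_eq, one_smul]
    suffices h : ∃ g ∈ Cfsg.spGL (m + 1) F, ∀ v, Qf (((g⁻¹ * x * g : GL (Fin (m + 1) ⊕ Fin (m + 1)) F) :
        Matrix (Fin (m + 1) ⊕ Fin (m + 1)) (Fin (m + 1) ⊕ Fin (m + 1)) F).mulVec v) = Qf v by
      obtain ⟨g, hg, hgv⟩ := h
      exact ⟨g, hg, 1, fun v => by rw [Units.val_one, one_mul]; exact hgv v⟩
    obtain ⟨P, hP, hPx⟩ := Agent.Elusive25.exists_invariant_form hQs hx hinv
    by_cases hns' : ∃ w, (x : Matrix (Fin (m + 1) ⊕ Fin (m + 1)) (Fin (m + 1) ⊕ Fin (m + 1)) F).mulVec w = w ∧ P w ≠ 0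
    · obtain ⟨w, hw, hw0⟩ := hns'
      exact Agent.Elusive25.exists_conj_of_fixed_nonsingular hP hQs hPx hw hw0
    · push Not at hns'
      obtain ⟨hk, he⟩ := Agent.Elusive25.even_of_fix_singular (Agent.Elusive25.bNondeg_of_polarSymp hP)
        (Matrix.toLin' (x : Matrix (Fin (m + 1) ⊕ Fin (m + 1)) (Fin (m + 1) ⊕ Fin (m + 1)) F)) hPx hinv
        Agent.Elusive25.finrank_space hns'
      obtain ⟨U, hU, hUd⟩ := hplus (hor.resolve_right (Nat.not_odd_iff_even.2 he))
      obtain ⟨e₁, he₁⟩ := Agent.Elusive25.exists_equiv_plus hQs hU hUd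
      obtain ⟨e₂, he₂⟩ := Agent.Elusive25.exists_equiv_plus hP (fun u hu => hns' u (by
        rw [LinearMap.mem_ker, LinearMap.sub_apply, Module.End.one_apply, sub_eq_zero] at hu
        exact hu)) hk
      exact Agent.Elusive25.exists_conj_of_equiv hP hQs (e₁.trans e₂.symm)
        (fun v => by rw [he₂, LinearEquiv.trans_apply, LinearEquiv.apply_symm_apply, he₁]) hPx

end Cfsg.Agent.S5983
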