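import Cfsg.Statements.S5984
import Cfsg.Agent.Elusive25.PolarPair
import Cfsg.Agent.Elusive25.UnitarySim

set_option autoImplicit false
open scoped MatrixGroups
open Cfsg

namespace Cfsg.Agent.S5984

open Module Matrix Finset
open Cfsg.Agent.Classical.U (SqField UG SUG herm)

variable {F : Type*} [Field F] [Fintype F] {n q : ℕ}

/-- Primes in the index of the stabiliser of a pair of halves. -/
theorem dvd_index (hF : SqField F q) {m : ℕ} (hm : 0 < m) (hn : n = m + m) {D : Fin 2 → Submodule F (Fin n → F)}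
    (hD : Cfsg.Geo.IsMDecomposition m D) (hP : Elusive25.PolarPair q m (D 0) (D 1)) {r : ℕ} (hr : r.Prime)
    (hrq : ¬ r ∣ q)
    (hdvd : r ∣ (Cfsg.Geo.decompositionStabilizer D).relIndex (Cfsg.GU n F q ⊓ Cfsg.Geo.specialLinear (Fin n) F)) :
    ∃ i, i < m ∧ r ∣ q ^ (2 * i + 1) + 1 := by
  classical
  set H := Cfsg.Geo.decompositionStabilizer D
  set U := Cfsg.GU n F q
  set SL := Cfsg.Geo.specialLinear (Fin n) F
  have hdvdU : r ∣ H.relIndex U := by
    have h1 : H.relIndex (SL ⊓ U) * SL.relIndex U = (H ⊓ SL).relIndex U := Subgroup.relIndex_inf_mul_relIndex H SL U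
    have h2 : SL.relIndex (H ⊓ U) * H.relIndex U = (SL ⊓ H).relIndex U := Subgroup.relIndex_inf_mul_relIndex SL H U
    rw [inf_comm SL H, ← h1] at h2
    have hdiv : SL.relIndex (H ⊓ U) ∣ SL.relIndex U := by
      show (Matrix.GeneralLinearGroup.det : GL (Fin n) F →* Fˣ).ker.relIndex _ ∣
        (Matrix.GeneralLinearGroup.det : GL (Fin n) F →* Fˣ).ker.relIndex _
      rw [Subgroup.relIndex_ker, Subgroup.relIndex_ker]
      exact Subgroup.card_dvd_of_le (Subgroup.map_mono inf_le_right)
    obtain ⟨c, hc⟩ := hdiv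
    have hpos : 0 < SL.relIndex (H ⊓ U) := Nat.pos_of_ne_zero (Subgroup.index_ne_zero_of_finite)
    rw [hc, ← mul_assoc, mul_comm (H.relIndex _) (SL.relIndex (H ⊓ U)), mul_assoc] at h2
    rw [Nat.eq_of_mul_eq_mul_left hpos h2]
    rw [inf_comm] at hdvd
    exact hdvd.mul_right c
  obtain ⟨b, hbA, hbB, hb⟩ := hP.exists_basis hF
  let σ : F →+* F := Forms.sqConj hF
  let Φ : Matrix (Fin m ⊕ Fin m) (Fin m ⊕ Fin m) F ≃ₐ[F] Matrix (Fin n) (Fin n) F :=
    (Matrix.toLinAlgEquiv b).trans LinearMap.toMatrixAlgEquiv'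
  have hΦ : ∀ M s, Φ M *ᵥ b s = ∑ t, M t s • b t := fun M s => by
    have h1 : Matrix.toLin' (LinearMap.toMatrix' (Matrix.toLinAlgEquiv b M)) (b s) = ∑ t, M t s • b t := by
      rw [Matrix.toLin'_toMatrix', Matrix.toLinAlgEquiv_self]
    exact h1
  let lev : GL (Fin m) F →* Matrix (Fin m ⊕ Fin m) (Fin m ⊕ Fin m) F :=
    { toFun := fun A => Matrix.fromBlocks (A : Matrix (Fin m) (Fin m) F) 0 0
        (((A⁻¹ : GL (Fin m) F) : Matrix (Fin m) (Fin m) F)ᵀ.map σ)
      map_one' := by simp [Matrix.map_one σ (map_zero σ) (map_one σ), Matrix.fromBlocks_one]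
      map_mul' := fun A B => by
        simp [Matrix.fromBlocks_multiply, Matrix.transpose_mul, Matrix.map_mul] }
  let φ : GL (Fin m) F →* GL (Fin n) F := ((Φ : _ →* Matrix (Fin n) (Fin n) F).comp lev).toHomUnits
  have hφv : ∀ A s, ((φ A : GL (Fin n) F) : Matrix (Fin n) (Fin n) F) *ᵥ b s = ∑ t, lev A t s • b t :=
    fun A s => hΦ _ s
  have hinv : ∀ A : GL (Fin m) F, ∀ i j, ∑ k, (A : Matrix (Fin m) (Fin m) F) k i *
      (σ (((A⁻¹ : GL (Fin m) F) : Matrix (Fin m) (Fin m) F) j k)) ^ q = if i = j then 1 else 0 := fun A i j => by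
    have h := congrFun (congrFun (Units.inv_mul A) j) i
    rw [Matrix.mul_apply, Matrix.one_apply] at h
    simp only [σ, Forms.sqConj_apply, hF.pow_pow]
    rw [show (if i = j then (1 : F) else 0) = if j = i then 1 else 0 by simp [eq_comm], ← h]
    exact Finset.sum_congr rfl fun k _ => mul_comm _ _
  have hvv : ∀ (A : GL (Fin m) F) i, ((φ A : GL (Fin n) F) : Matrix (Fin n) (Fin n) F) *ᵥ b (Sum.inl i) =
      ∑ k, (A : Matrix (Fin m) (Fin m) F) k i • b (Sum.inl k) := fun A i => by
    rw [hφv, Fintype.sum_sum_type]; simp [lev]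
  have hww : ∀ (A : GL (Fin m) F) i, ((φ A : GL (Fin n) F) : Matrix (Fin n) (Fin n) F) *ᵥ b (Sum.inr i) =
      ∑ k, σ (((A⁻¹ : GL (Fin m) F) : Matrix (Fin m) (Fin m) F) i k) • b (Sum.inr k) := fun A i => by
    rw [hφv, Fintype.sum_sum_type]; simp [lev]
  have hmem : ∀ A, φ A ∈ H ⊓ U := fun A => by
    refine ⟨GeoClasses.mem_decompositionStabilizer_two hD 1 ?_, fun u v => ?_⟩
    · rw [Fin.forall_fin_two]
      refine ⟨fun x hx => ?_, fun x hx => ?_⟩
      · exact Elusive25.map_mem_of_basis b _ Sum.inl_injective hbA hP.dimA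
          (Matrix.toLin' ((φ A : GL (Fin n) F) : Matrix (Fin n) (Fin n) F)) (fun i => by
            rw [Matrix.toLin'_apply, hvv]; exact Submodule.sum_mem _ fun k _ => (D 0).smul_mem _ (hbA k)) hx
      · exact Elusive25.map_mem_of_basis b _ Sum.inr_injective hbB hP.dimB
          (Matrix.toLin' ((φ A : GL (Fin n) F) : Matrix (Fin n) (Fin n) F)) (fun i => by
            rw [Matrix.toLin'_apply, hww]; exact Submodule.sum_mem _ fun k _ => (D 1).smul_mem _ (hbB k)) hx
    · refine Elusive25.isometry_of_basis hF b (Matrix.toLin' ((φ A : GL (Fin n) F) : Matrix (Fin n) (Fin n) F))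
        (fun s t => ?_) u v
      rw [Matrix.toLin'_apply, Matrix.toLin'_apply]
      rcases s with i | i <;> rcases t with j | j <;> simp only [hvv, hww, ← Forms.hermB_apply hF] <;>
        simp only [map_sum, LinearMap.sum_apply, map_smul, LinearMap.map_smulₛₗ, LinearMap.smul_apply,
          Forms.hermB_apply, Forms.sqConj_apply, hb, Elusive25.pairVal, smul_eq_mul, mul_ite, mul_one, mul_zero,
          Finset.sum_const_zero, Finset.sum_ite_eq, Finset.mem_univ, if_true]
      · simpa [mul_comm] using hinv A i j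
      · have h' := congrArg (· ^ q) (hinv A j i)
        simpa [hF.sum_pow, mul_pow, hF.pow_pow, mul_comm, eq_comm (a := i), hF.q_ne_zero, σ, Forms.sqConj_apply,
          apply_ite (· ^ q)] using h'
  let ψ : GL (Fin m) F →* ↥(H ⊓ U) := φ.codRestrict _ hmem
  have hψ : Function.Injective ψ := fun A B h => by
    have h1 : Φ (lev A) = Φ (lev B) := congrArg (fun z : ↥(H ⊓ U) => ((z : GL (Fin n) F) : Matrix (Fin n) (Fin n) F)) h
    exact Units.ext (Matrix.fromBlocks_inj.1 (Φ.injective h1)).1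
  have hcard : Nat.card ↥(H ⊓ U) * H.relIndex U = Nat.card U := by
    rw [← Subgroup.inf_relIndex_right]
    have h1 := Subgroup.card_mul_index ((H ⊓ U).subgroupOf U)
    rwa [Nat.card_congr (Subgroup.subgroupOfEquivOfLe (inf_le_right : H ⊓ U ≤ U)).toEquiv] at h1
  have hdiv : Nat.card (GL (Fin m) F) * r ∣ Nat.card U :=
    hcard ▸ mul_dvd_mul (Subgroup.card_dvd_of_injective ψ hψ) hdvdU
  obtain ⟨s, hs⟩ := Elusive25.card_GL_prod (F := F) m
  have hq2 : Fintype.card F = q ^ 2 := by rw [← Nat.card_eq_fintype_card]; exact hF.2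
  set A : ℕ → ℕ := fun i => if Even i then q ^ (i + 1) + 1 else q ^ (i + 1) - 1 with hA
  have hsplit : ∀ k, ∏ i ∈ range (2 * k), A i =
      (∏ i ∈ range k, (q ^ (2 * i + 1) + 1)) * ∏ i ∈ range k, ((q ^ 2) ^ (i + 1) - 1) := by
    intro k
    induction k with
    | zero => simp
    | succ k ih =>
      rw [show 2 * (k + 1) = 2 * k + 1 + 1 by ring, Finset.prod_range_succ, Finset.prod_range_succ, ih,
        Finset.prod_range_succ (fun i => q ^ (2 * i + 1) + 1), Finset.prod_range_succ (fun i => (q ^ 2) ^ (i + 1) - 1)]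
      simp only [hA, if_pos (even_two_mul k), if_neg (Nat.not_even_iff_odd.2 (odd_two_mul_add_one k)), ← pow_mul]
      rw [show 2 * (k + 1) = 2 * k + 1 + 1 by ring]
      ring
  rw [hs, hq2, Nat.card_congr (Classical.U.guEquiv n F q).toEquiv, Classical.U.card_UG hF, hn, ← two_mul, ← hA,
    hsplit, ← mul_assoc] at hdiv
  have hq1 := hF.one_lt
  have hpos : 0 < ∏ i ∈ range m, ((q ^ 2) ^ (i + 1) - 1) := Finset.prod_pos fun i _ =>
    Nat.sub_pos_of_lt (Nat.one_lt_pow (by omega) (Nat.one_lt_pow two_ne_zero hq1))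
  rw [mul_right_comm ((q ^ 2) ^ s)] at hdiv
  rcases hr.dvd_mul.1 ((dvd_mul_left r _).trans (Nat.dvd_of_mul_dvd_mul_right hpos hdiv)) with h | h
  · exact absurd (hr.dvd_of_dvd_pow h) hrq
  · obtain ⟨i, hi, hi'⟩ := (Prime.dvd_finsetProd_iff hr.prime _).1 h
    exact ⟨i, Finset.mem_range.1 hi, hi'⟩

omit [Fintype F] in
/-- Eigenspaces of conjugates. -/
theorem finrank_eigen_conj (g x : GL (Fin n) F) (μ : F) :
    finrank F (LinearMap.ker (Matrix.toLin' ((g⁻¹ * x * g : GL (Fin n) F) : Matrix (Fin n) (Fin n) F) -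
      μ • (LinearMap.id : (Fin n → F) →ₗ[F] (Fin n → F)))) =
    finrank F (LinearMap.ker (Matrix.toLin' (x : Matrix (Fin n) (Fin n) F) -
      μ • (LinearMap.id : (Fin n → F) →ₗ[F] (Fin n → F)))) := by
  let E := Classical.U.glEquiv n F g
  suffices h : (LinearMap.ker (Matrix.toLin' ((g⁻¹ * x * g : GL (Fin n) F) : Matrix (Fin n) (Fin n) F) -
      μ • (LinearMap.id : (Fin n → F) →ₗ[F] (Fin n → F)))).map E.toLinearMap =
    LinearMap.ker (Matrix.toLin' (x : Matrix (Fin n) (Fin n) F) - μ • (LinearMap.id : (Fin n → F) →ₗ[F] (Fin n → F))) by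
    rw [← h, LinearEquiv.finrank_map_eq]
  ext v
  obtain ⟨w, rfl⟩ := E.surjective v
  rw [Submodule.mem_map_equiv, LinearEquiv.symm_apply_apply]
  simp only [LinearMap.mem_ker, LinearMap.sub_apply, LinearMap.smul_apply, LinearMap.id_apply, sub_eq_zero,
    Matrix.toLin'_apply]
  show _ ↔ (x : Matrix (Fin n) (Fin n) F) *ᵥ ((g : Matrix (Fin n) (Fin n) F) *ᵥ w) =
    μ • ((g : Matrix (Fin n) (Fin n) F) *ᵥ w)
  rw [Units.val_mul, Units.val_mul, ← Matrix.mulVec_mulVec, ← Matrix.mulVec_mulVec]
  constructor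
  · intro h
    rw [← Matrix.mulVec_smul, ← h, Matrix.mulVec_mulVec _ (g : Matrix (Fin n) (Fin n) F), ← Units.val_mul,
      mul_inv_cancel, Units.val_one, Matrix.one_mulVec]
  · intro h
    rw [h, Matrix.mulVec_smul, Matrix.mulVec_mulVec, ← Units.val_mul, inv_mul_cancel, Units.val_one, Matrix.one_mulVec]

/-- Elements with an odd dimensional eigenspace for an eigenvalue of norm one are derangements. -/
theorem not_fixes (hF : SqField F q) {m : ℕ} {D : Fin 2 → Submodule F (Fin n → F)}
    (hP : Elusive25.PolarPair q m (D 0) (D 1)) (hm : 0 < m) {r : ℕ} {x : GL (Fin n) F}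
    (hxr : ∃ z : F, ((x ^ r : GL (Fin n) F) : Matrix (Fin n) (Fin n) F) = z • 1) {μ : F} (hμ : μ ^ (q + 1) = 1)
    (hodd : Odd (finrank F (LinearMap.ker (Matrix.toLin' (x : Matrix (Fin n) (Fin n) F) -
      μ • (LinearMap.id : (Fin n → F) →ₗ[F] (Fin n → F))))))
    (hbig : Odd r ∨ m < finrank F (LinearMap.ker (Matrix.toLin' (x : Matrix (Fin n) (Fin n) F) -
      μ • (LinearMap.id : (Fin n → F) →ₗ[F] (Fin n → F)))))
    {g : GL (Fin n) F} (hg : g ∈ Cfsg.GU n F q) (hx : x ∈ Cfsg.GU n F q) :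
    g⁻¹ * x * g ∉ Cfsg.Geo.decompositionStabilizer D := by
  rintro ⟨π, hπ⟩
  set h : GL (Fin n) F := g⁻¹ * x * g with hh
  have hhU : h ∈ Cfsg.GU n F q := mul_mem (mul_mem (inv_mem hg) hx) hg
  rw [← finrank_eigen_conj g x μ, ← hh] at hodd hbig
  set f := Matrix.toLin' (h : Matrix (Fin n) (Fin n) F) with hf
  have hne : D 0 ≠ D 1 := fun e => by
    have h1 := hP.compl.inf_eq_bot
    rw [← e, inf_idem] at h1
    have h2 := hP.dimA
    rw [h1, finrank_bot] at h2
    omega
  have hinjD : Function.Injective D := fun i j e => by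
    fin_cases i <;> fin_cases j <;> first | rfl | exact (hne e).elim | exact (hne e.symm).elim
  by_cases hπ1 : π = 1
  · subst hπ1
    refine Nat.not_even_iff_odd.2 hodd (hP.even_finrank_eigen hF f (fun u v => hhU u v) ?_ ?_ hμ)
    · exact fun x hx => (hπ 0).le ⟨x, hx, rfl⟩
    · exact fun x hx => (hπ 1).le ⟨x, hx, rfl⟩
  have hsw : π 0 = 1 := by
    by_contra h0
    refine hπ1 (Equiv.ext fun i => ?_)
    have e0 : π 0 = 0 := by revert h0; generalize π 0 = a; fin_cases a <;> simp
    have e1 : π 1 ≠ 0 := fun e => absurd (π.injective (e.trans e0.symm)) (by simp)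
    fin_cases i
    · exact e0
    · show π 1 = 1
      revert e1; generalize π 1 = a; fin_cases a <;> simp
  rcases hbig with hr | hbig
  · -- an odd power of `h` would still interchange the halves
    obtain ⟨z, hz⟩ := hxr
    have hpow : ∀ k : ℕ, ((D 0).map (Matrix.toLin' ((h ^ k : GL (Fin n) F) : Matrix (Fin n) (Fin n) F))) =
        D ((π ^ k) 0) := by
      intro k
      induction k with
      | zero => simp
      | succ k ih => rw [pow_succ' h, Units.val_mul, Matrix.toLin'_mul, Submodule.map_comp, ih, hπ, pow_succ' π,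
          Equiv.Perm.mul_apply]
    have hz0 : z ≠ 0 := fun e => by
      rw [e, zero_smul] at hz
      have : Nonempty (Fin n) := ⟨⟨0, by have := hP.dim; omega⟩⟩
      exact Units.ne_zero _ hz
    have hhr : ((h ^ r : GL (Fin n) F) : Matrix (Fin n) (Fin n) F) = z • 1 := by
      rw [hh, show g⁻¹ * x * g = g⁻¹ * x * g⁻¹⁻¹ by rw [inv_inv], conj_pow, inv_inv, Units.val_mul, Units.val_mul, hz]
      simp
    have h1 := hpow r
    rw [hhr, map_smul, Matrix.toLin'_one, Submodule.map_smul _ _ _ hz0, Submodule.map_id] at h1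
    obtain ⟨k, rfl⟩ := hr
    have hπ2 : π ^ 2 = 1 := by
      have h3 : π ^ Fintype.card (Equiv.Perm (Fin 2)) = 1 := pow_card_eq_one
      rwa [show Fintype.card (Equiv.Perm (Fin 2)) = 2 from rfl] at h3
    have h2 := hinjD h1
    rw [pow_succ, pow_mul, hπ2, one_pow, one_mul, hsw] at h2
    simp at h2
  · set K := LinearMap.ker (f - μ • (LinearMap.id : (Fin n → F) →ₗ[F] (Fin n → F)))
    have hKA : K ⊓ D 0 = ⊥ := (Submodule.eq_bot_iff _).2 fun v ⟨hv, hv0⟩ => by
      have hfv : f v = μ • v := by simpa [K, sub_eq_zero] using hv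
      have h1 : f v ∈ D 1 := hsw ▸ (hπ 0).le ⟨v, hv0, rfl⟩
      have h2 : μ • v ∈ D 0 ⊓ D 1 := ⟨(D 0).smul_mem _ hv0, hfv ▸ h1⟩
      rw [hP.compl.inf_eq_bot, Submodule.mem_bot] at h2
      refine (smul_eq_zero.1 h2).resolve_left fun e => ?_
      rw [e, zero_pow (Nat.succ_ne_zero q)] at hμ
      exact zero_ne_one hμ
    have h1 := Submodule.finrank_sup_add_finrank_inf_eq K (D 0)
    have h2 := Submodule.finrank_le (K ⊔ D 0)
    rw [hKA, finrank_bot, hP.dimA] at h1
    rw [Module.finrank_fin_fun] at h2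
    have := hP.dim
    omega

/-- Diagonal elements of the special unitary group. -/
theorem exists_diag (l : Fin n → F) (hl : ∀ i, l i ^ (q + 1) = 1) (hdet : ∏ i, l i = 1) :
    ∃ x ∈ Cfsg.GU n F q ⊓ Cfsg.Geo.specialLinear (Fin n) F,
      (x : Matrix (Fin n) (Fin n) F) = Matrix.diagonal l ∧ ∀ μ : F,
      finrank F (LinearMap.ker (Matrix.toLin' (x : Matrix (Fin n) (Fin n) F) -
        μ • (LinearMap.id : (Fin n → F) →ₗ[F] (Fin n → F)))) = Nat.card {i // l i = μ} := by
  classical
  refine ⟨Matrix.GeneralLinearGroup.mkOfDetNeZero (Matrix.diagonal l)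
    (by rw [Matrix.det_diagonal, hdet]; exact one_ne_zero), ⟨fun u v => ?_, Units.ext ?_⟩, rfl, fun μ => ?_⟩
  · show Cfsg.hermForm n F q (Matrix.diagonal l *ᵥ u) (Matrix.diagonal l *ᵥ v) = _
    simp only [Cfsg.hermForm, Matrix.mulVec_diagonal]
    refine Finset.sum_congr rfl fun i _ => ?_
    linear_combination (u i * v i ^ q) * hl i
  · show (Matrix.diagonal l).det = 1
    rw [Matrix.det_diagonal, hdet]
  · have e : Matrix.toLin' (Matrix.diagonal l) - μ • (LinearMap.id : (Fin n → F) →ₗ[F] (Fin n → F)) =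
        Matrix.toLin' (Matrix.diagonal fun i => l i - μ) := by
      refine LinearMap.ext fun v => funext fun i => ?_
      simp [Matrix.mulVec_diagonal, sub_mul]
    suffices h0 : finrank F (LinearMap.ker (Matrix.toLin' (Matrix.diagonal fun i => l i - μ))) =
        Nat.card {i // l i = μ} from Eq.trans (congrArg (fun L => finrank F ↥(LinearMap.ker L)) e) h0
    have h1 := LinearMap.finrank_range_add_finrank_ker (Matrix.toLin' (Matrix.diagonal fun i => l i - μ))
    have h2 : finrank F (LinearMap.range (Matrix.toLin' (Matrix.diagonal fun i => l i - μ))) =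
        Fintype.card {i // l i - μ ≠ 0} := Matrix.rank_diagonal _
    have h3 := Fintype.card_subtype_compl (fun i => l i = μ)
    have h4 := Fintype.card_subtype_le (fun i => l i = μ)
    rw [h2, Module.finrank_fin_fun, Fintype.card_congr (Equiv.subtypeEquivRight fun i => sub_ne_zero), h3] at h1
    rw [Fintype.card_fin] at h1 h4
    rw [Nat.card_eq_fintype_card]
    omega

/-- An element of order `r` with fixed space of codimension `d`. -/
theorem exists_fixed_codim (hF : SqField F q) {r d : ℕ} (hr : r.Prime) (hrF : (r : F) ≠ 0) (hrq : ¬ r ∣ q)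
    (hr1 : ¬ r ∣ q + 1) (hd : Odd d) (hdr : r ∣ q ^ d + 1) (hmin : ∀ i, i + 1 < d → ¬ r ∣
      (if Even i then q ^ (i + 1) + 1 else q ^ (i + 1) - 1)) (hdn : d ≤ n) :
    ∃ x ∈ Cfsg.GU n F q ⊓ Cfsg.Geo.specialLinear (Fin n) F, x ^ r = 1 ∧
      finrank F (LinearMap.ker (Matrix.toLin' (x : Matrix (Fin n) (Fin n) F) -
        (1 : F) • (LinearMap.id : (Fin n → F) →ₗ[F] (Fin n → F)))) = n - d := by
  classical
  have : Finite F := hF.1
  obtain ⟨c, rfl⟩ : ∃ c, n = d + c := ⟨n - d, by omega⟩
  have hd0 : 0 < d := hd.pos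
  have hcard : r ∣ Nat.card (UG d F q) := by
    rw [Classical.U.card_UG hF]
    refine dvd_mul_of_dvd_right ((?_ : r ∣ _).trans (Finset.dvd_prod_of_mem _ (Finset.mem_range.2 (by omega : d - 1 < d)))) _
    rw [if_pos (by obtain ⟨k, rfl⟩ := hd; simp), Nat.sub_add_cancel hd0]
    exact hdr
  have := Fact.mk hr
  have : Finite (UG d F q) := Finite.of_injective (fun g : UG d F q => ((g.1 : (Fin d → F) → (Fin d → F))))
    fun a b h => Subtype.ext (DFunLike.ext' h)
  obtain ⟨g, hg⟩ := exists_prime_orderOf_dvd_card' r hcard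
  set G : GL (Fin d) F := GeoClasses.ugToGL d F q g with hG
  have hGv : ∀ v, (G : Matrix (Fin d) (Fin d) F) *ᵥ v = g.1 v := GeoClasses.ugToGL_mulVec g
  have hGr : G ^ r = 1 := by rw [hG, ← map_pow, ← hg, pow_orderOf_eq_one, map_one]
  have hfix : finrank F (LinearMap.ker (Matrix.toLin' (G : Matrix (Fin d) (Fin d) F) - 1)) = 0 := by
    set k := finrank F (LinearMap.ker (Matrix.toLin' (G : Matrix (Fin d) (Fin d) F) - 1)) with hk
    have hle : k ≤ d := (Submodule.finrank_le _).trans_eq (Module.finrank_fin_fun F)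
    rcases hle.eq_or_lt with hkd | hkd
    · exfalso
      have htop := Submodule.eq_top_of_finrank_eq (hkd.trans (Module.finrank_fin_fun F).symm)
      refine hr.ne_one (hg.symm.trans (orderOf_eq_one_iff.2 (Subtype.ext (LinearEquiv.ext fun v => ?_))))
      have hv : v ∈ LinearMap.ker (Matrix.toLin' (G : Matrix (Fin d) (Fin d) F) - 1) := htop ▸ trivial
      rw [LinearMap.mem_ker, LinearMap.sub_apply, Module.End.one_apply, sub_eq_zero, Matrix.toLin'_apply, hGv] at hv
      exact hv
    have h := Elusive25.dvd_card_UG_of_fixed hF hr hrF (e := d - k) (by omega) (X := G)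
      (fun u v => by rw [one_mul, hGv, hGv]; exact g.2 u v) hGr (by omega)
    rw [Classical.U.card_UG hF] at h
    rcases hr.dvd_mul.1 h with h' | h'
    · exact absurd (hr.dvd_of_dvd_pow h') hrq
    · obtain ⟨j, hj, hj'⟩ := (Prime.dvd_finsetProd_iff hr.prime _).1 h'
      rw [Finset.mem_range] at hj
      by_contra hk0
      exact hmin j (by omega) hj'
  have hdet : (G : Matrix (Fin d) (Fin d) F).det = 1 := by
    set δ := (G : Matrix (Fin d) (Fin d) F).det
    have h1 : δ ^ r = 1 := by rw [← Matrix.det_pow, ← Units.val_pow_eq_pow_val, hGr, Units.val_one, Matrix.det_one]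
    have h2 : δ ^ (q + 1) = 1 := by
      have h2 := Classical.U.det_norm_one hF g
      have hg' : g.1 = Classical.U.glEquiv d F G := LinearEquiv.ext fun v => (hGv v).symm
      rw [hg', Classical.U.det_glEquiv] at h2
      exact h2
    have := pow_gcd_eq_one.2 ⟨h1, h2⟩
    rwa [((hr.coprime_iff_not_dvd).2 hr1).gcd_eq_one, pow_one] at this
  let R := Matrix.reindexAlgEquiv F F (finSumFinEquiv : Fin d ⊕ Fin c ≃ Fin (d + c))
  let M : Matrix (Fin (d + c)) (Fin (d + c)) F :=
    R (Matrix.fromBlocks (G : Matrix (Fin d) (Fin d) F) 0 0 1)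
  have hMdet : M.det = 1 := by
    rw [Matrix.det_reindexAlgEquiv, Matrix.det_fromBlocks_zero₂₁, hdet, Matrix.det_one, one_mul]
  have hMv : ∀ (v : Fin (d + c) → F) (i : Fin d ⊕ Fin c), (M *ᵥ v) (finSumFinEquiv i) =
      Sum.elim ((G : Matrix (Fin d) (Fin d) F) *ᵥ fun k => v (finSumFinEquiv (Sum.inl k)))
        (fun k => v (finSumFinEquiv (Sum.inr k))) i := fun v i => by
    simp only [M, R, Matrix.coe_reindexAlgEquiv, Matrix.reindex_apply, Matrix.submatrix_mulVec_equiv,
      Function.comp_apply, Equiv.symm_apply_apply, Matrix.fromBlocks_mulVec, Equiv.symm_symm]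
    rcases i with k | k <;> simp [Function.comp_def]
  refine ⟨Matrix.GeneralLinearGroup.mkOfDetNeZero M (by rw [hMdet]; exact one_ne_zero),
    ⟨fun u v => ?_, Units.ext hMdet⟩, Units.ext ?_, ?_⟩
  · show Cfsg.hermForm (d + c) F q (M *ᵥ u) (M *ᵥ v) = _
    simp only [Cfsg.hermForm]
    rw [← finSumFinEquiv.sum_comp, ← finSumFinEquiv.sum_comp (fun i => u i * v i ^ q)]
    simp only [hMv, Fintype.sum_sum_type, Sum.elim_inl, Sum.elim_inr]
    congr 1
    have := g.2 (fun k => u (finSumFinEquiv (Sum.inl k))) (fun k => v (finSumFinEquiv (Sum.inl k)))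
    rw [← hGv, ← hGv] at this
    exact this
  · rw [Units.val_pow_eq_pow_val, Units.val_one]
    show M ^ r = 1
    rw [← map_pow, show (Matrix.fromBlocks (G : Matrix (Fin d) (Fin d) F) 0 0 (1 : Matrix (Fin c) (Fin c) F)) ^ r = 1
      from ?_, map_one]
    have hp : ∀ k : ℕ, (Matrix.fromBlocks (G : Matrix (Fin d) (Fin d) F) 0 0 (1 : Matrix (Fin c) (Fin c) F)) ^ k =
        Matrix.fromBlocks ((G : Matrix (Fin d) (Fin d) F) ^ k) 0 0 1 := by
      intro k
      induction k with
      | zero => simp [Matrix.fromBlocks_one]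
      | succ k ih => simp [pow_succ, ih, Matrix.fromBlocks_multiply]
    rw [hp, ← Units.val_pow_eq_pow_val, hGr, Units.val_one, Matrix.fromBlocks_one]
  · let P : (Fin (d + c) → F) →ₗ[F] (Fin d → F) :=
      LinearMap.funLeft F F (fun k => finSumFinEquiv (Sum.inl k))
    have hker : LinearMap.ker (Matrix.toLin' M - (1 : F) • (LinearMap.id : (Fin (d + c) → F) →ₗ[F] _)) =
        LinearMap.ker P := by
      ext v
      simp only [LinearMap.mem_ker, one_smul, LinearMap.sub_apply, LinearMap.id_apply, sub_eq_zero, Matrix.toLin'_apply]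
      constructor
      · intro h
        have hker0 := Submodule.finrank_eq_zero.1 hfix
        rw [← Submodule.mem_bot F, ← hker0, LinearMap.mem_ker, LinearMap.sub_apply, Module.End.one_apply, sub_eq_zero,
          Matrix.toLin'_apply]
        funext k
        exact ((hMv v (Sum.inl k)).symm.trans (congrFun h _))
      · intro h
        funext i
        obtain ⟨i, rfl⟩ := finSumFinEquiv.surjective i
        rw [hMv]
        rcases i with k | k
        · rw [Sum.elim_inl, show (fun k => v (finSumFinEquiv (Sum.inl k))) = 0 from h, Matrix.mulVec_zero]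
          exact (congrFun h k).symm
        · rfl
    suffices h0 : finrank F (LinearMap.ker P) = d + c - d from
      Eq.trans (congrArg (fun K : Submodule F (Fin (d + c) → F) => finrank F K) hker) h0
    have h1 := LinearMap.finrank_range_add_finrank_ker P
    have hsurj : Function.Surjective P := LinearMap.funLeft_surjective_of_injective F F _
      (finSumFinEquiv.injective.comp Sum.inl_injective)
    rw [LinearMap.range_eq_top.2 hsurj, finrank_top, Module.finrank_fin_fun,
      Module.finrank_fin_fun] at h1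
    omega

/-- Elements of prime order of PSU_n(q) and the stabilizers of pairs of complementary totally singular subspaces. Here `T = PSU_n(q)` is realised through `SU_n(q)`, the matrices of determinant 1 over the field `F` with `q²` elements preserving the hermitian form `Σ uᵢ vᵢ^q`, with `n ≥ 4` even; `D` is a pair of complementary subspaces of dimension `n/2` on each of which the form vanishes identically, and `H` is the subgroup of `SU_n(q)` fixing or interchanging the two members — a subgroup of type GL_{n/2}(q²).2 (maximality is not assumed). Ω is the set of cosets of `H`, so an element of `T` of prime order `r` (`x ∈ SU_n(q)` with `x^r` scalar, `x` not scalar) fixes a point of Ω exactly when some `SU_n(q)`-conjugate of `x` lies in `H`. Let `r` be a prime dividing the index of `H`. Then every element of `T` of order `r` fixes a point of Ω if and only if `r = 2`, `q` is odd and `(q + 1)_2 ≤ (n)_2` (2-parts). -/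
theorem result {F : Type*} [Field F] [Fintype F] {p : ℕ} [Fact p.Prime] [CharP F p] {q : ℕ} (hq : Fintype.card F = q ^ 2)
    (n : ℕ) (hn : 4 ≤ n) (he : Even n) (D : Fin 2 → Submodule F (Fin n → F)) (hD : Cfsg.Geo.IsMDecomposition (n / 2) D)
    (hDs : ∀ i, Cfsg.Geo.IsTotallySingularFor (Cfsg.hermForm n F q) (D i))
    (r : ℕ) [Fact r.Prime]
    (hΩ : r ∣ (Cfsg.Geo.decompositionStabilizer D).relIndex (Cfsg.GU n F q ⊓ Cfsg.Geo.specialLinear (Fin n) F)) :
    (∀ x ∈ Cfsg.GU n F q ⊓ Cfsg.Geo.specialLinear (Fin n) F, (∃ z : F, ((x ^ r : GL (Fin n) F) : Matrix (Fin n) (Fin n) F) = z • (1 : Matrix (Fin n) (Fin n) F)) →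
      (∀ z : F, (x : Matrix (Fin n) (Fin n) F) ≠ z • (1 : Matrix (Fin n) (Fin n) F)) →
      ∃ g ∈ Cfsg.GU n F q ⊓ Cfsg.Geo.specialLinear (Fin n) F, g⁻¹ * x * g ∈ Cfsg.Geo.decompositionStabilizer D) ↔
    (r = 2 ∧ Odd q ∧ padicValNat 2 (q + 1) ≤ padicValNat 2 n) := by
  classical
  have hF : SqField F q := Classical.U.sqField_of_fintype hq
  have hr' : r.Prime := Fact.out
  have hp : p.Prime := Fact.out
  obtain ⟨m, hnm⟩ := he
  have hm2 : n / 2 = m := by omega
  rw [hm2] at hD
  have hm : 0 < m := by omega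
  have hP : Elusive25.PolarPair q m (D 0) (D 1) :=
    ⟨GeoClasses.mdecomp_isCompl hD, hDs 0, hDs 1, hD.finrank_eq 0, hD.finrank_eq 1⟩
  have hpq : ∀ {s : ℕ}, s.Prime → s ∣ q → s = p := fun {s} hs h => by
    obtain ⟨e, hp', he⟩ := FiniteField.card F p
    have h2 : s ∣ p ^ (e : ℕ) := he ▸ hq ▸ dvd_pow h two_ne_zero
    exact (Nat.prime_dvd_prime_iff_eq hs hp').1 (hs.dvd_of_dvd_pow h2)
  have hpdvd : p ∣ q := by
    obtain ⟨e, hp', he⟩ := FiniteField.card F p
    rw [hq] at he
    exact hp'.dvd_of_dvd_pow (he ▸ dvd_pow_self p e.pos.ne' : p ∣ q ^ 2)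
  have hq1 := hF.one_lt
  have hodd_q : Odd q ↔ p ≠ 2 := by
    rw [← Nat.not_even_iff_odd, even_iff_two_dvd]
    exact ⟨fun h e => h (e ▸ hpdvd), fun h e => h (hpq Nat.prime_two e).symm⟩
  have : Nonempty (Fin n) := ⟨⟨0, by omega⟩⟩
  constructor
  · intro h
    by_contra hcon
    have get : ∀ x : GL (Fin n) F, x ∈ Cfsg.GU n F q ⊓ Cfsg.Geo.specialLinear (Fin n) F →
        (∃ z : F, ((x ^ r : GL (Fin n) F) : Matrix (Fin n) (Fin n) F) = z • 1) → ∀ μ : F, μ ^ (q + 1) = 1 →
        Odd (finrank F (LinearMap.ker (Matrix.toLin' (x : Matrix (Fin n) (Fin n) F) -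
          μ • (LinearMap.id : (Fin n → F) →ₗ[F] (Fin n → F))))) →
        (Odd r ∨ m < finrank F (LinearMap.ker (Matrix.toLin' (x : Matrix (Fin n) (Fin n) F) -
          μ • (LinearMap.id : (Fin n → F) →ₗ[F] (Fin n → F))))) → False := by
      intro x hx hz μ hμ hodd hbig
      have hns : ∀ z : F, (x : Matrix (Fin n) (Fin n) F) ≠ z • 1 := by
        intro z hz'
        rw [show Matrix.toLin' (x : Matrix (Fin n) (Fin n) F) - μ • (LinearMap.id : (Fin n → F) →ₗ[F] (Fin n → F)) =
          (z - μ) • (LinearMap.id : (Fin n → F) →ₗ[F] (Fin n → F)) from LinearMap.ext fun v => by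
            simp [hz', sub_smul]] at hodd
        rcases eq_or_ne (z - μ) 0 with e | e
        · rw [e, zero_smul, LinearMap.ker_zero, finrank_top, Module.finrank_fin_fun, hnm] at hodd
          exact Nat.not_even_iff_odd.2 hodd ⟨m, rfl⟩
        · rw [LinearMap.ker_smul _ _ e, LinearMap.ker_id, finrank_bot] at hodd
          exact Nat.not_odd_zero hodd
      obtain ⟨g, hg, hgx⟩ := h x hx hz hns
      exact not_fixes hF hP hm hz hμ hodd hbig hg.1 hx.1 hgx
    rcases eq_or_ne r p with rfl | hrp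
    · -- transvections
      obtain ⟨δ, hδ0, hδ⟩ := hF.exists_skew
      have hm1 : (-1 : F) ^ q = -1 := by rw [hF.neg_pow, one_pow]
      obtain ⟨t, ht⟩ := hF.exists_norm hm1
      let i₀ : Fin n := ⟨0, by omega⟩
      let i₁ : Fin n := ⟨1, by omega⟩
      have h01 : i₀ ≠ i₁ := by simp [i₀, i₁, Fin.ext_iff]
      set v : Fin n → F := Pi.single i₀ 1 + Pi.single i₁ t with hv
      have hvv : herm q v v = 0 := by
        have hh : ∀ (i j : Fin n) (a b : F), herm q (Pi.single i a) (Pi.single j b) = if i = j then a * b ^ q else 0 := by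
          intro i j a b
          rw [Classical.U.herm_def, Finset.sum_eq_single i]
          · rcases eq_or_ne i j with rfl | hij
            · simp
            · simp [hij, hF.q_ne_zero]
          · intro k _ hk; simp [hk]
          · simp
        rw [hv, Classical.U.herm_add_left, hF.herm_add_right, hF.herm_add_right, hh, hh, hh, hh]
        simp only [if_neg h01, if_neg h01.symm, ↓reduceIte, one_pow, mul_one, add_zero, zero_add]
        linear_combination ht
      have hv0 : v ≠ 0 := fun e => by simpa [hv, h01] using congrFun e i₀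
      let τ := Classical.U.trv hF (show Classical.U.TrvCond q v δ from ⟨hvv, hδ⟩)
      set x := GeoClasses.ugToGL n F q τ with hx
      have hpow : ∀ k : ℕ, ∀ w, (τ.1 ^ k) w = w + ((k : F) * (δ * herm q w v)) • v := by
        intro k
        induction k with
        | zero => intro w; simp
        | succ k ih =>
          intro w
          rw [pow_succ, LinearEquiv.mul_apply, ih, Classical.U.trv_apply, Classical.U.herm_add_left,
            Classical.U.herm_smul_left, hvv, mul_zero, add_zero, Nat.cast_succ]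
          module
      have hxr : x ^ r = 1 := by
        rw [hx, ← map_pow, show τ ^ r = 1 from Subtype.ext (LinearEquiv.ext fun w => by
          rw [SubgroupClass.coe_pow, hpow, CharP.cast_eq_zero, zero_mul, zero_smul, add_zero]; rfl), map_one]
      have hker : LinearMap.ker (Matrix.toLin' (x : Matrix (Fin n) (Fin n) F) -
          (1 : F) • (LinearMap.id : (Fin n → F) →ₗ[F] (Fin n → F))) = Forms.hperp q (Submodule.span F {v}) := by
        ext w
        simp only [LinearMap.mem_ker, one_smul, LinearMap.sub_apply, LinearMap.id_apply, sub_eq_zero,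
          Matrix.toLin'_apply, Forms.mem_hperp, hx]
        rw [GeoClasses.ugToGL_mulVec, Classical.U.trv_apply, add_eq_left, smul_eq_zero, or_iff_left hv0,
          mul_eq_zero, or_iff_right hδ0]
        constructor
        · intro h0 y hy
          obtain ⟨a, rfl⟩ := Submodule.mem_span_singleton.1 hy
          rw [Classical.U.herm_smul_right, h0, mul_zero]
        · exact fun h0 => h0 v (Submodule.mem_span_singleton_self v)
      have hfr : finrank F (LinearMap.ker (Matrix.toLin' (x : Matrix (Fin n) (Fin n) F) -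
          (1 : F) • (LinearMap.id : (Fin n → F) →ₗ[F] (Fin n → F)))) = n - 1 := by
        rw [hker, Forms.finrank_hperp hF, finrank_span_singleton hv0]
      refine get x (GeoClasses.ugToGL_mem_suGL (Classical.U.det_uni hF _)) ⟨1, by rw [hxr, one_smul, Units.val_one]⟩ 1
        (one_pow _) (hfr ▸ ⟨m - 1, by omega⟩) (Or.inr (hfr ▸ by omega))
    rcases eq_or_ne r 2 with rfl | hr2
    · -- an involution with a hyperplane eigenspace
      have hqo : Odd q := hodd_q.2 fun e => hrp e.symm
      have hv : ¬ padicValNat 2 (q + 1) ≤ padicValNat 2 n := fun h' => hcon ⟨rfl, hqo, h'⟩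
      obtain ⟨γ, hγ⟩ := IsCyclic.exists_ofOrder_eq_natCard (α := Fˣ)
      rw [hF.card_units] at hγ
      set b := padicValNat 2 n with hb
      have hne0 : n ≠ 0 := by omega
      have hcodd : ¬ 2 ∣ n / 2 ^ b := by
        intro h'
        have : 2 ^ (b + 1) ∣ n := by
          rw [pow_succ]
          exact Nat.mul_dvd_of_dvd_div pow_padicValNat_dvd h'
        exact pow_succ_padicValNat_not_dvd hne0 this
      obtain ⟨e, he⟩ : 2 ^ (b + 1) ∣ q + 1 := (padicValNat_dvd_iff_le (by omega)).2 (by omega)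
      set η : Fˣ := γ ^ ((q - 1) * e)
      have hη : orderOf η = 2 ^ (b + 1) := by
        rw [orderOf_pow' _ (by simp; constructor <;> [omega; exact fun h0 => by simp [h0] at he]), hγ, he,
          Nat.gcd_eq_right ⟨2 ^ (b + 1), by ring⟩]
        have h0 : 0 < (q - 1) * e := Nat.mul_pos (by omega) (Nat.pos_of_ne_zero fun h0 => by simp [h0] at he)
        rw [show (q - 1) * (2 ^ (b + 1) * e) = 2 ^ (b + 1) * ((q - 1) * e) by ring, Nat.mul_div_cancel _ h0]
      set w : F := (η : F)
      have hw : ∀ k, w ^ k = 1 ↔ 2 ^ (b + 1) ∣ k := fun k => by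
        rw [← hη, orderOf_dvd_iff_pow_eq_one, ← Units.val_pow_eq_pow_val, Units.val_eq_one]
      have hwq : w ^ (q + 1) = 1 := (hw _).2 ⟨e, he⟩
      have hwb : w ^ (2 ^ b) = -1 := by
        refine (mul_self_eq_one_iff.1 ?_).resolve_left fun h1 => ?_
        · rw [← pow_add, hw, pow_succ, mul_two]
        · exact absurd (Nat.le_of_dvd (by positivity) ((hw _).1 h1)) (by rw [pow_succ]; have := Nat.two_pow_pos b; omega)
      have hwn : w ^ n = -1 := by
        conv_lhs => rw [← Nat.mul_div_cancel' (pow_padicValNat_dvd (p := 2) (n := n))]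
        rw [pow_mul, ← hb, hwb, Odd.neg_one_pow (Nat.not_even_iff_odd.1 fun h' => hcodd h'.two_dvd)]
      let i₀ : Fin n := ⟨0, by omega⟩
      let l : Fin n → F := fun i => if i = i₀ then w else -w
      have hl : ∀ i, l i ^ (q + 1) = 1 := fun i => by
        simp only [l]
        split_ifs
        · exact hwq
        · rw [(hqo.add_one).neg_pow, hwq]
      have hprod : ∏ i, l i = 1 := by
        rw [← Finset.mul_prod_erase _ _ (Finset.mem_univ i₀)]
        simp only [l, if_pos]
        rw [Finset.prod_congr rfl (g := fun _ => -w) fun i hi => if_neg (Finset.ne_of_mem_erase hi), Finset.prod_const,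
          Finset.card_erase_of_mem (Finset.mem_univ _), Finset.card_univ, Fintype.card_fin,
          (Nat.Even.sub_odd (by omega) ⟨m, hnm⟩ odd_one).neg_pow, mul_neg, ← pow_succ',
          Nat.sub_add_cancel (by omega), hwn, neg_neg]
      obtain ⟨x, hx, hxM, hk⟩ := exists_diag l hl hprod
      have hw0 : w ≠ 0 := η.ne_zero
      have hww : w ≠ -w := fun e => by
        have h2 : (2 : F) ≠ 0 := Ring.two_ne_zero fun h0 => (hodd_q.1 hqo) ((ringChar.eq F p).symm.trans h0)
        exact h2 ((mul_eq_zero.1 (by linear_combination e : (2 : F) * w = 0)).resolve_right hw0)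
      have hcard : Nat.card {i // l i = -w} = n - 1 := by
        rw [Nat.card_eq_fintype_card, Fintype.card_congr (Equiv.subtypeEquivRight (q := fun i => i ≠ i₀) fun i => by
          simp only [l]; split_ifs with h' <;> simp [h', hww]), Fintype.card_subtype_compl, Fintype.card_fin,
          Fintype.card_subtype_eq]
      refine get x hx ⟨w ^ 2, ?_⟩ (-w) (by rw [(hqo.add_one).neg_pow, hwq]) ((hk _).trans hcard ▸ ⟨m - 1, by omega⟩)
        (Or.inr (by rw [hk, hcard]; omega))
      rw [Units.val_pow_eq_pow_val, hxM, Matrix.diagonal_pow, Matrix.smul_one_eq_diagonal]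
      congr 1; funext i; simp only [Pi.pow_apply, l]; split_ifs <;> ring
    -- odd primes other than the characteristic
    have hro : Odd r := hr'.odd_of_ne_two hr2
    have hrq : ¬ r ∣ q := fun h' => hrp (hpq hr' h')
    obtain ⟨i, hi, hir⟩ := dvd_index hF hm hnm hD hP hr' hrq hΩ
    by_cases hr1 : r ∣ q + 1
    · obtain ⟨u, hu⟩ := exists_prime_orderOf_dvd_card' (G := Fˣ) r (by rw [hF.card_units]; exact hr1.mul_left _)
      set ζ : F := (u : F)
      have hζ : ∀ k, ζ ^ k = 1 ↔ r ∣ k := fun k => by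
        rw [← hu, orderOf_dvd_iff_pow_eq_one, ← Units.val_pow_eq_pow_val, Units.val_eq_one]
      let i₀ : Fin n := ⟨0, by omega⟩
      let i₁ : Fin n := ⟨1, by omega⟩
      have h01 : i₀ ≠ i₁ := by simp [i₀, i₁, Fin.ext_iff]
      let l : Fin n → F := fun j => if j = i₀ then ζ else if j = i₁ then ζ⁻¹ else 1
      have hl : ∀ j, l j ^ (q + 1) = 1 ∧ l j ^ r = 1 := fun j => by
        simp only [l]
        split_ifs <;> simp [(hζ _).2 hr1, (hζ r).2 dvd_rfl]
      have hζ0 : ζ ≠ 0 := u.ne_zero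
      have hprod : ∏ j, l j = 1 := by
        rw [← Finset.mul_prod_erase _ _ (Finset.mem_univ i₀),
          ← Finset.mul_prod_erase _ _ (Finset.mem_erase.2 ⟨h01.symm, Finset.mem_univ i₁⟩)]
        rw [Finset.prod_eq_one fun j hj => by
          simp only [Finset.mem_erase] at hj
          simp [l, hj.1, hj.2.1]]
        simp [l, h01.symm, hζ0]
      obtain ⟨x, hx, hxM, hk⟩ := exists_diag l (fun j => (hl j).1) hprod
      have hne1 : ζ ≠ 1 := fun e => hr'.not_dvd_one ((hζ 1).1 (by rw [pow_one, e]))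
      have hne2 : ζ⁻¹ ≠ ζ := fun e => hr2 ((Nat.prime_dvd_prime_iff_eq hr' Nat.prime_two).1
        ((hζ 2).1 (by rw [pow_two]; conv_lhs => arg 1; rw [← e]
                      exact inv_mul_cancel₀ hζ0)))
      have hcard : Nat.card {j // l j = ζ} = 1 := by
        rw [Nat.card_eq_fintype_card, Fintype.card_congr (Equiv.subtypeEquivRight (q := fun j => j = i₀) fun j => by
          simp only [l]; split_ifs with h1 h2 <;> simp [h1, hne2, Ne.symm hne1]), Fintype.card_subtype_eq]
      refine get x hx ⟨1, ?_⟩ ζ ((hζ _).2 hr1) (by rw [hk, hcard]; exact odd_one) (Or.inl hro)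
      rw [Units.val_pow_eq_pow_val, hxM, Matrix.diagonal_pow, one_smul, ← Matrix.diagonal_one]
      congr 1; funext j; exact (hl j).2
    · obtain ⟨hd1, hdr⟩ := Nat.find_spec (⟨2 * i + 1, odd_two_mul_add_one i, hir⟩ : ∃ d, Odd d ∧ r ∣ q ^ d + 1)
      set d := Nat.find (⟨2 * i + 1, odd_two_mul_add_one i, hir⟩ : ∃ d, Odd d ∧ r ∣ q ^ d + 1) with hd
      have hdle : d ≤ 2 * i + 1 := Nat.find_le ⟨odd_two_mul_add_one i, hir⟩
      set a : ZMod r := ((q : ℕ) : ZMod r)
      have hz : ∀ k, r ∣ (if Even k then q ^ (k + 1) + 1 else q ^ (k + 1) - 1) ↔ (-a) ^ (k + 1) = 1 := fun k => by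
        rw [← CharP.cast_eq_zero_iff (ZMod r) r]
        rcases Nat.even_or_odd k with hk | hk
        · rw [if_pos hk, hk.add_one.neg_pow, Nat.cast_add, Nat.cast_pow, Nat.cast_one]
          exact ⟨fun h0 => by linear_combination -h0, fun h0 => by linear_combination -h0⟩
        · rw [if_neg (Nat.not_even_iff_odd.2 hk), hk.add_one.neg_pow, Nat.cast_sub (Nat.one_le_pow _ _ (by omega)),
            Nat.cast_pow, Nat.cast_one, sub_eq_zero]
      have had : (-a) ^ d = 1 := by
        have h0 := (hz (d - 1)).1 (by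
          rw [if_pos (by obtain ⟨k, hk⟩ := hd1; exact ⟨k, by omega⟩), Nat.sub_add_cancel hd1.pos]; exact hdr)
        rwa [Nat.sub_add_cancel hd1.pos] at h0
      have hmin : ∀ k, k + 1 < d → ¬ r ∣ (if Even k then q ^ (k + 1) + 1 else q ^ (k + 1) - 1) := fun k hk hk' => by
        have h1 := (hz k).1 hk'
        have h2 : orderOf (-a) ∣ d := orderOf_dvd_of_pow_eq_one had
        have h3 : orderOf (-a) ∣ k + 1 := orderOf_dvd_of_pow_eq_one h1
        have ho : Odd (orderOf (-a)) := Odd.of_dvd_nat hd1 h2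
        have hlt : orderOf (-a) < d := lt_of_le_of_lt (Nat.le_of_dvd (by omega) h3) hk
        refine Nat.find_min (⟨2 * i + 1, odd_two_mul_add_one i, hir⟩ : ∃ d, Odd d ∧ r ∣ q ^ d + 1) (hd ▸ hlt) ⟨ho, ?_⟩
        rw [← CharP.cast_eq_zero_iff (ZMod r) r, Nat.cast_add, Nat.cast_pow, Nat.cast_one]
        have := pow_orderOf_eq_one (-a)
        rw [ho.neg_pow] at this
        linear_combination -this
      have hrF : (r : F) ≠ 0 := fun h' =>
        hrp ((Nat.prime_dvd_prime_iff_eq hp hr').1 ((CharP.cast_eq_zero_iff F p r).1 h')).symm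
      obtain ⟨x, hx, hxr, hfr⟩ := exists_fixed_codim hF hr' hrF hrq hr1 hd1 hdr hmin (by omega : d ≤ n)
      refine get x hx ⟨1, by rw [hxr, one_smul, Units.val_one]⟩ 1 (one_pow _) ?_ (Or.inl hro)
      rw [hfr]
      exact Nat.Even.sub_odd (by omega) ⟨m, hnm⟩ hd1
  · rintro ⟨rfl, hqo, hv⟩ x hx ⟨z, hz⟩ -
    have hp2 : p ≠ 2 := hodd_q.1 hqo
    have hchar : ringChar F ≠ 2 := fun h0 => hp2 ((ringChar.eq F p).symm.trans h0)
    have h2 : (2 : F) ≠ 0 := Ring.two_ne_zero hchar
    set f := Matrix.toLin' (x : Matrix (Fin n) (Fin n) F) with hf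
    have hiso : ∀ u v, herm q (f u) (f v) = herm q u v := fun u v => hx.1 u v
    have hff : ∀ v, f (f v) = z • v := fun v => by
      show (x : Matrix (Fin n) (Fin n) F) *ᵥ ((x : Matrix (Fin n) (Fin n) F) *ᵥ v) = _
      rw [Matrix.mulVec_mulVec, ← pow_two, ← Units.val_pow_eq_pow_val, hz, Matrix.smul_mulVec, Matrix.one_mulVec]
    have hzq : z ^ (q + 1) = 1 := by
      let i₀ : Fin n := ⟨0, by omega⟩
      have h1 : herm q (Pi.single i₀ (1 : F) : Fin n → F) (Pi.single i₀ 1) = 1 := by
        simp [Classical.U.herm_def, Pi.single_apply, hF.q_ne_zero]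
      have h3 := (hiso (f (Pi.single i₀ 1)) (f (Pi.single i₀ 1))).trans (hiso _ _)
      rw [hff, Classical.U.herm_smul_left, Classical.U.herm_smul_right, h1, mul_one, ← pow_succ'] at h3
      exact h3
    have hz0 : z ≠ 0 := fun e => by rw [e, zero_pow (Nat.succ_ne_zero q)] at hzq; exact zero_ne_one hzq
    obtain ⟨w, hw⟩ : IsSquare z := by
      rw [FiniteField.isSquare_iff hchar hz0]
      obtain ⟨k, hk⟩ := hqo
      rw [show Fintype.card F / 2 = (q + 1) * k by
        rw [hq]
        have : q ^ 2 = 2 * ((q + 1) * k) + 1 := by rw [hk]; ring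
        omega, pow_mul, hzq, one_pow]
    have hw0 : w ≠ 0 := left_ne_zero_of_mul (hw ▸ hz0)
    -- the two eigenspaces
    let Ep := LinearMap.ker (f - w • (LinearMap.id : (Fin n → F) →ₗ[F] (Fin n → F)))
    let Em := LinearMap.ker (f - (-w) • (LinearMap.id : (Fin n → F) →ₗ[F] (Fin n → F)))
    have hEp : ∀ v ∈ Ep, f v = w • v := fun v hv => by simpa [Ep, sub_eq_zero] using hv
    have hEm : ∀ v ∈ Em, f v = (-w) • v := fun v hv => by simpa [Em, add_eq_zero_iff_eq_neg] using hv
    have hsum : Ep ⊔ Em = ⊤ := eq_top_iff.2 fun v _ => by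
      refine Submodule.mem_sup.2 ⟨(2 : F)⁻¹ • (v + w⁻¹ • f v), ?_, (2 : F)⁻¹ • (v - w⁻¹ • f v), ?_, ?_⟩
      · show f _ - w • _ = 0
        rw [map_smul, map_add, map_smul, hff, smul_smul w⁻¹, show w⁻¹ * z = w by rw [hw, inv_mul_cancel_left₀ hw0]]
        simp only [LinearMap.id_apply, smul_add, smul_sub, smul_smul]
        match_scalars <;> field_simp <;> ring
      · show f _ - (-w) • _ = 0
        rw [map_smul, map_sub, map_smul, hff, smul_smul w⁻¹, show w⁻¹ * z = w by rw [hw, inv_mul_cancel_left₀ hw0]]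
        simp only [LinearMap.id_apply, smul_add, smul_sub, smul_smul]
        match_scalars <;> field_simp <;> ring
      · rw [← smul_add, show v + w⁻¹ • f v + (v - w⁻¹ • f v) = (2 : F) • v by module, smul_smul,
          inv_mul_cancel₀ h2, one_smul]
    have hdisj : Ep ⊓ Em = ⊥ := (Submodule.eq_bot_iff _).2 fun v ⟨ha, hb⟩ => by
      have h1 : w • v = (-w) • v := (hEp v ha).symm.trans (hEm v hb)
      have h3 : (2 * w) • v = 0 := by linear_combination (norm := module) h1
      exact (smul_eq_zero.1 h3).resolve_left (mul_ne_zero h2 hw0)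
    have hcompl : IsCompl Ep Em := ⟨disjoint_iff.2 hdisj, codisjoint_iff.2 hsum⟩
    have hval : ∀ a c : F, ∀ u v, f u = a • u → f v = c • v → herm q u v = a * c ^ q * herm q u v :=
      fun a c u v hu hv => by
        conv_lhs => rw [← hiso, hu, hv, Classical.U.herm_smul_left, Classical.U.herm_smul_right]
        ring
    suffices ∃ A B : Submodule F (Fin n → F), Elusive25.PolarPair q m A B ∧ (∀ v ∈ A, f v ∈ A) ∧ ∀ v ∈ B, f v ∈ B by
      obtain ⟨A, B, hAB, hfA, hfB⟩ := this
      obtain ⟨g, hg, hgA, hgB⟩ := hP.exists_move hF hm hAB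
      refine ⟨g, hg, GeoClasses.mem_decompositionStabilizer_two hD 1 ?_⟩
      have back : ∀ (S : Submodule F (Fin n → F)) (T : Submodule F (Fin n → F)), finrank F S = finrank F T →
          (∀ v ∈ S, (g : Matrix (Fin n) (Fin n) F) *ᵥ v ∈ T) → ∀ v ∈ T,
          ((g⁻¹ : GL (Fin n) F) : Matrix (Fin n) (Fin n) F) *ᵥ v ∈ S := by
        intro S T hST hgS v hv
        have hmap : S.map (Classical.U.glEquiv n F g).toLinearMap = T :=
          Submodule.eq_of_le_of_finrank_eq (by rintro _ ⟨u, hu, rfl⟩; exact hgS u hu)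
            (by rw [LinearEquiv.finrank_map_eq, hST])
        obtain ⟨u, hu, rfl⟩ := hmap.ge hv
        show ((g⁻¹ : GL (Fin n) F) : Matrix (Fin n) (Fin n) F) *ᵥ ((g : Matrix (Fin n) (Fin n) F) *ᵥ u) ∈ S
        rwa [Matrix.mulVec_mulVec, ← Units.val_mul, inv_mul_cancel, Units.val_one, Matrix.one_mulVec]
      rw [Fin.forall_fin_two]
      refine ⟨fun v hv => ?_, fun v hv => ?_⟩ <;>
        rw [Units.val_mul, Units.val_mul, ← Matrix.mulVec_mulVec, ← Matrix.mulVec_mulVec]
      · exact back _ _ (hP.dimA.trans hAB.dimA.symm) hgA _ (hfA _ (hgA v hv))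
      · exact back _ _ (hP.dimB.trans hAB.dimB.symm) hgB _ (hfB _ (hgB v hv))
    have hdim : finrank F Ep + finrank F Em = n := by
      rw [Submodule.finrank_add_eq_of_isCompl hcompl, Module.finrank_fin_fun]
    have hwq2 : w ^ (q + 1) = 1 ∨ w ^ (q + 1) = -1 := mul_self_eq_one_iff.1 (by rw [← mul_pow, ← hw, hzq])
    rcases hwq2 with hwq | hwq
    · -- orthogonal eigenspaces
      have hwq' : w * w ^ q = 1 := by rw [← pow_succ', hwq]
      have horth : ∀ u ∈ Ep, ∀ v ∈ Em, herm q u v = 0 := fun u hu v hv => by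
        have h1 := hval _ _ u v (hEp u hu) (hEm v hv)
        rw [hF.neg_pow] at h1
        exact (mul_eq_zero.1 (show (2 : F) * herm q u v = 0 by linear_combination h1 - (herm q u v) * hwq')).resolve_left h2
      have hnd : ∀ v ∈ Ep, (∀ u ∈ Ep, herm q v u = 0) → v = 0 := fun v hv h0 => hF.eq_zero_of_herm _ fun y => by
        obtain ⟨a, ha, b, hb, rfl⟩ := Submodule.mem_sup.1 (show y ∈ Ep ⊔ Em by rw [hsum]; trivial)
        rw [hF.herm_add_right, h0 a ha, horth v hv b hb, add_zero]
      have hnd' : ∀ v ∈ Em, (∀ u ∈ Em, herm q v u = 0) → v = 0 := fun v hv h0 => hF.eq_zero_of_herm _ fun y => by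
        obtain ⟨a, ha, b, hb, rfl⟩ := Submodule.mem_sup.1 (show y ∈ Ep ⊔ Em by rw [hsum]; trivial)
        rw [hF.herm_add_right, Forms.herm_comm_zero hF (horth a ha v hv), h0 b hb, add_zero]
      have heven : Even (finrank F Em) := by
        by_contra hodd
        rw [Nat.not_even_iff_odd] at hodd
        -- the determinant
        have hdet : w ^ finrank F Ep * (-w) ^ finrank F Em = 1 := by
          have h1 : LinearMap.det f = 1 := by
            rw [hf, LinearMap.det_toLin']; exact congrArg Units.val hx.2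
          let bb := ((Module.finBasis F Ep).prod (Module.finBasis F Em)).map (Submodule.prodEquivOfIsCompl Ep Em hcompl)
          rw [← LinearMap.det_toMatrix bb, show LinearMap.toMatrix bb bb f =
              Matrix.diagonal (Sum.elim (fun _ => w) (fun _ => -w)) from Matrix.ext fun s t => by
            have hb : f (bb t) = (Sum.elim (fun _ => w) (fun _ => -w) t : F) • bb t := by
              rcases t with j | j
              · simpa [bb] using hEp _ (Module.finBasis F Ep j).2
              · simpa [bb] using hEm _ (Module.finBasis F Em j).2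
            rw [LinearMap.toMatrix_apply, hb, map_smul, Basis.repr_self, Finsupp.smul_apply, Finsupp.single_apply,
              Matrix.diagonal_apply]
            by_cases h' : s = t
            · subst h'; simp
            · simp [h', Ne.symm h'], Matrix.det_diagonal, Fintype.prod_sum_type] at h1
          simpa using h1
        rw [hodd.neg_pow, mul_neg, ← pow_add, hdim] at hdet
        have hwn : w ^ n = -1 := by linear_combination -hdet
        have hne0 : n ≠ 0 := by omega
        have h1 : orderOf w ∣ q + 1 := orderOf_dvd_of_pow_eq_one hwq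
        have h3 : orderOf w ∣ 2 * n := orderOf_dvd_of_pow_eq_one (by rw [mul_comm, pow_mul, hwn, neg_one_sq])
        have h4 : orderOf w ∣ n := by
          have h5 : orderOf w ∣ Nat.gcd (q + 1) (2 * n) := Nat.dvd_gcd h1 h3
          refine h5.trans ?_
          set g := Nat.gcd (q + 1) (2 * n) with hg
          set b := padicValNat 2 g
          have hg0 : g ≠ 0 := Nat.gcd_ne_zero_left (by omega)
          have hb : 2 ^ b ∣ n := (padicValNat_dvd_iff_le hne0).2
            (le_trans ((padicValNat_dvd_iff_le (by omega)).1 (pow_padicValNat_dvd.trans (Nat.gcd_dvd_left _ _))) hv)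
          have hc : ¬ 2 ∣ g / 2 ^ b := fun h' =>
            pow_succ_padicValNat_not_dvd hg0 (by rw [pow_succ]; exact Nat.mul_dvd_of_dvd_div pow_padicValNat_dvd h')
          have hcop : Nat.Coprime (g / 2 ^ b) 2 := ((Nat.prime_two.coprime_iff_not_dvd).2 hc).symm
          have hcn : g / 2 ^ b ∣ n :=
            hcop.dvd_of_dvd_mul_left ((Nat.div_dvd_of_dvd pow_padicValNat_dvd).trans (Nat.gcd_dvd_right _ _))
          have := (Nat.Coprime.pow_left b hcop.symm).mul_dvd_of_dvd_of_dvd hb hcn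
          rwa [Nat.mul_div_cancel' pow_padicValNat_dvd] at this
        rw [orderOf_dvd_iff_pow_eq_one, hwn] at h4
        exact h2 (by linear_combination -h4)
      obtain ⟨b, hb⟩ := heven
      obtain ⟨a, ha⟩ : Even (finrank F Ep) := by
        rw [Nat.even_iff]; omega
      obtain ⟨A₁, B₁, hs₁, hA₁, hB₁, hdA₁, hdB₁⟩ := Elusive25.exists_pair_of_nondeg hF Ep hnd ha
      obtain ⟨A₂, B₂, hs₂, hA₂, hB₂, hdA₂, hdB₂⟩ := Elusive25.exists_pair_of_nondeg hF Em hnd' hb
      have hAe : A₁ ≤ Ep := hs₁ ▸ le_sup_left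
      have hBe : B₁ ≤ Ep := hs₁ ▸ le_sup_right
      have hAm : A₂ ≤ Em := hs₂ ▸ le_sup_left
      have hBm : B₂ ≤ Em := hs₂ ▸ le_sup_right
      have mix : ∀ (X Y : Submodule F (Fin n → F)), X ≤ Ep → Y ≤ Em → (∀ u ∈ X, ∀ v ∈ X, herm q u v = 0) →
          (∀ u ∈ Y, ∀ v ∈ Y, herm q u v = 0) → (∀ u ∈ X ⊔ Y, ∀ v ∈ X ⊔ Y, herm q u v = 0) ∧
          ∀ v ∈ X ⊔ Y, f v ∈ X ⊔ Y := by
        intro X Y hX hY hX0 hY0
        refine ⟨fun u hu v hv => ?_, fun v hv => ?_⟩
        · obtain ⟨u₁, hu₁, u₂, hu₂, rfl⟩ := Submodule.mem_sup.1 hu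
          obtain ⟨v₁, hv₁, v₂, hv₂, rfl⟩ := Submodule.mem_sup.1 hv
          rw [Classical.U.herm_add_left, hF.herm_add_right, hF.herm_add_right, hX0 _ hu₁ _ hv₁, hY0 _ hu₂ _ hv₂,
            horth _ (hX hu₁) _ (hY hv₂), Forms.herm_comm_zero hF (horth _ (hX hv₁) _ (hY hu₂))]
          simp
        · obtain ⟨v₁, hv₁, v₂, hv₂, rfl⟩ := Submodule.mem_sup.1 hv
          rw [map_add, hEp _ (hX hv₁), hEm _ (hY hv₂)]
          exact Submodule.add_mem_sup (X.smul_mem _ hv₁) (Y.smul_mem _ hv₂)
      obtain ⟨hA0, hfA⟩ := mix A₁ A₂ hAe hAm hA₁ hA₂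
      obtain ⟨hB0, hfB⟩ := mix B₁ B₂ hBe hBm hB₁ hB₂
      have dimsum : ∀ (X Y : Submodule F (Fin n → F)), X ≤ Ep → Y ≤ Em → finrank F ↥(X ⊔ Y) = finrank F X + finrank F Y := by
        intro X Y hX hY
        have h1 := Submodule.finrank_sup_add_finrank_inf_eq X Y
        rw [show X ⊓ Y = ⊥ from eq_bot_iff.2 (hdisj ▸ inf_le_inf hX hY), finrank_bot] at h1
        omega
      have hdA : finrank F ↥(A₁ ⊔ A₂) = m := by rw [dimsum _ _ hAe hAm]; omega
      have hdB : finrank F ↥(B₁ ⊔ B₂) = m := by rw [dimsum _ _ hBe hBm]; omega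
      have htop : (A₁ ⊔ A₂) ⊔ (B₁ ⊔ B₂) = ⊤ := by rw [sup_sup_sup_comm, hs₁, hs₂, hsum]
      refine ⟨_, _, ⟨⟨disjoint_iff.2 (Submodule.finrank_eq_zero.1 ?_), codisjoint_iff.2 htop⟩, hA0, hB0, hdA, hdB⟩,
        hfA, hfB⟩
      have h1 := Submodule.finrank_sup_add_finrank_inf_eq (A₁ ⊔ A₂) (B₁ ⊔ B₂)
      rw [htop, finrank_top, Module.finrank_fin_fun, hdA, hdB] at h1
      omega
    · -- totally isotropic eigenspaces
      have hwq' : w * w ^ q = -1 := by rw [← pow_succ', hwq]
      have hts : ∀ a : F, a * a ^ q = -1 → ∀ u v, f u = a • u → f v = a • v → herm q u v = 0 := fun a ha u v hu hv => by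
        have h1 := hval a a u v hu hv
        exact (mul_eq_zero.1 (show (2 : F) * herm q u v = 0 by linear_combination h1 + (herm q u v) * ha)).resolve_left h2
      have hp' : ∀ u ∈ Ep, ∀ v ∈ Ep, herm q u v = 0 := fun u hu v hv => hts w hwq' u v (hEp u hu) (hEp v hv)
      have hm' : ∀ u ∈ Em, ∀ v ∈ Em, herm q u v = 0 := fun u hu v hv =>
        hts (-w) (by rw [hF.neg_pow, neg_mul_neg, hwq']) u v (hEm u hu) (hEm v hv)
      have hle : ∀ E : Submodule F (Fin n → F), (∀ u ∈ E, ∀ v ∈ E, herm q u v = 0) → finrank F E ≤ m := fun E hE => by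
        have h1 := Submodule.finrank_mono (show E ≤ Forms.hperp q E from fun u hu v hv => hE u hu v hv)
        rw [Forms.finrank_hperp hF] at h1
        omega
      have h1 := hle _ hp'
      have h3 := hle _ hm'
      exact ⟨Ep, Em, ⟨hcompl, hp', hm', by omega, by omega⟩,
        fun v hv => by rw [hEp v hv]; exact Ep.smul_mem _ hv, fun v hv => by rw [hEm v hv]; exact Em.smul_mem _ hv⟩

end Cfsg.Agent.S5984
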