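import Cfsg.Statements.S5985
import Cfsg.Agent.Elusive25.Even
-- import your own Cfsg.Agent.* helpers here

set_option autoImplicit false
open scoped MatrixGroups
open Cfsg

namespace Cfsg.Agent.S5985

/-- Elements of prime order of Ω⁺_n(q), q even, with no fixed nonsingular 1-space. Here `T = PΩ⁺_n(F)`, `n = 2d ≥ 8`, realised through `Ω⁺_n(q)`, the commutator subgroup of the isometry group of `Q = Σ xᵢyᵢ` over the field `F` with `q` elements; an element of `T` of prime order `r` is an element `x` of `Ω⁺_n(q)` with `x^r` scalar and `x` not scalar; `q` is even (so the centre is trivial). Let Ω be the set of 1-dimensional subspaces spanned by a vector `v` with `Q(v) ≠ 0`, and let `r` be a prime dividing their number. Then every element of `T` of order `r` fixes some nonsingular 1-space if and only if `r = 2` and `n ≡ 2 (mod 4)` (that is, `d` is odd). -/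
theorem result {F : Type*} [Field F] [Fintype F] {p : ℕ} [Fact p.Prime] [CharP F p] {q : ℕ} (hq : Fintype.card F = q)
    (hp : p = 2) (d : ℕ) (hd : 4 ≤ d) (r : ℕ) [Fact r.Prime]
    (hrΩ : r ∣ Nat.card {W : Submodule F (Fin d ⊕ Fin d → F) // Module.finrank F ↥W = 1 ∧ ∃ v ∈ W, Cfsg.quadFormPlus d F v ≠ 0}) :
    (∀ x : GL (Fin d ⊕ Fin d) F, x ∈ Cfsg.Geo.omegaGL (Cfsg.quadFormPlus d F) →
      (∃ z : F, ((x ^ r : GL (Fin d ⊕ Fin d) F) : Matrix (Fin d ⊕ Fin d) (Fin d ⊕ Fin d) F) = z • (1 : Matrix (Fin d ⊕ Fin d) (Fin d ⊕ Fin d) F)) →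
      (∀ z : F, (x : Matrix (Fin d ⊕ Fin d) (Fin d ⊕ Fin d) F) ≠ z • (1 : Matrix (Fin d ⊕ Fin d) (Fin d ⊕ Fin d) F)) →
      ∃ W : Submodule F (Fin d ⊕ Fin d → F), (Module.finrank F ↥W = 1 ∧ ∃ v ∈ W, Cfsg.quadFormPlus d F v ≠ 0) ∧ W.map (Matrix.toLin' (x : Matrix (Fin d ⊕ Fin d) (Fin d ⊕ Fin d) F)) ≤ W) ↔ (r = 2 ∧ Odd d) := by
  classical
  subst hp hq
  have hr : r.Prime := Fact.out
  let R := Agent.Classical.plusQF d F
  have hR : Cfsg.quadFormPlus d F = ⇑R := funext fun v => (Agent.Classical.plusQF_apply d v).symm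
  have hB : Agent.Classical.BNondeg R := Agent.Forms.bNondeg_plusQF
  have hdim : Module.finrank F (Fin d ⊕ Fin d → F) = 2 * d := by
    simp [Module.finrank_fintype_fun_eq_card]; omega
  have hx : Agent.OrthGen.NotExceptional R := Agent.Forms.notExceptional_plusQF (Or.inr (by omega))
  obtain ⟨v₀, hv₀⟩ : ∃ v₀, R v₀ ≠ 0 :=
    ⟨Pi.single (Sum.inl ⟨0, by omega⟩) 1 + Pi.single (Sum.inr ⟨0, by omega⟩) 1, by
      simp [R, Agent.Classical.plusQF_apply, Cfsg.quadFormPlus, Pi.single_apply]⟩
  simp only [hR] at hrΩ ⊢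
  constructor
  · intro hall
    have hr2 : r = 2 := by
      by_contra hr2
      have hdvd : r ∣ Fintype.card F ^ d - 1 := by
        obtain ⟨m, rfl⟩ : ∃ m, d = m + 1 := ⟨d - 1, by omega⟩
        have h1 := Elusive25.card_nonsingular_points R
        have h2 := Agent.Classical.card_zeros_hypExt_plus (F := F) m
        rw [← Nat.card_congr ((Agent.Classical.plusEquiv (m + 1)).toEquiv.subtypeEquiv
          (p := fun v => R v = 0) fun v => by
            simp only [LinearEquiv.coe_toEquiv, Agent.Classical.plusEquiv_spec, R]),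
          Nat.card_eq_fintype_card (α := F)] at h2
        simp only [Fintype.card_sum, Fintype.card_fin] at h1
        rw [pow_add (Fintype.card F) (m + 1) (m + 1)] at h1
        rw [show 2 * m + 1 = m + (m + 1) by ring, pow_add (Fintype.card F) m (m + 1)] at h2
        have hrq := Elusive25.not_dvd_card (F := F) hr hr2
        rw [pow_succ' (Fintype.card F) m] at h1 h2 ⊢
        obtain ⟨k, hk⟩ : ∃ k, Fintype.card F = k + 2 := Nat.exists_eq_add_of_le' Fintype.one_lt_card
        obtain ⟨Q, hQ⟩ : ∃ Q, Fintype.card F ^ m = Q + 1 := Nat.exists_eq_add_of_le' (Nat.one_le_pow _ _ Fintype.card_pos)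
        generalize Nat.card {W : Submodule F (Fin (m + 1) ⊕ Fin (m + 1) → F) //
          Module.finrank F ↥W = 1 ∧ ∃ v ∈ W, R v ≠ 0} = c at *
        rw [hQ, hk] at h1 h2 ⊢
        rw [show k + 2 - 1 = k + 1 by omega] at h1
        have hc : c = (Q + 1) * ((k + 2) * (Q + 1) - 1) := Nat.eq_of_mul_eq_mul_right (Nat.succ_pos k) (by
          obtain ⟨j, hj⟩ : ∃ j, (k + 2) * (Q + 1) = j + 1 := Nat.exists_eq_add_of_le' (Nat.one_le_iff_ne_zero.2 (by positivity))
          rw [hj] at h1 h2 ⊢
          rw [Nat.add_sub_cancel]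
          nlinarith)
        subst hc
        exact (hr.dvd_mul.1 hrΩ).resolve_left fun h => hrq (hr.dvd_of_dvd_pow (hQ ▸ h))
      obtain ⟨g, hg, hfix⟩ := Elusive25.exists_fpf_plus (F := F) (show 1 ≤ d by omega) hdvd
      have hgc := Elusive25.mem_commutator_of_pow hB hx (hr.odd_of_ne_two hr2) hg
      have hmul := Elusive25.glOf_mulVec R g
      obtain ⟨W, ⟨hW, v, hv, hv0⟩, hmap⟩ := hall (Elusive25.glOf R g) (Elusive25.glOf_mem_omegaGL R hgc)
        ⟨1, by rw [← map_pow, hg, map_one, Units.val_one, one_smul]⟩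
        (Elusive25.not_scalar_of_fpf hv₀ hfix)
      have := Elusive25.fixed_of_line (fun u => by rw [hmul]; exact g.2 u) hW hv hv0 hmap
      rw [hmul] at this
      exact hv0 (by rw [hfix v this, map_zero])
    refine ⟨hr2, ?_⟩
    subst hr2
    by_contra hd2
    rw [Nat.not_odd_iff_even] at hd2
    obtain ⟨g, hgc, hgg, hg1, hfix⟩ := Elusive25.exists_involution_singular_fix (F := F) (show 2 ≤ d by omega) hd2 (Or.inr (by omega))
    have hmul := Elusive25.glOf_mulVec R g
    obtain ⟨W, ⟨hW, v, hv, hv0⟩, hmap⟩ := hall (Elusive25.glOf R g) (Elusive25.glOf_mem_omegaGL R hgc)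
      ⟨1, by rw [← map_pow, pow_two, hgg, map_one, Units.val_one, one_smul]⟩ (fun z hz => by
        refine hg1 (Subtype.ext (LinearEquiv.ext fun w => ?_))
        show g.1 w = w
        have hg' : ∀ u, g.1 u = z • u := fun u => by
          rw [← hmul, hz, Matrix.smul_mulVec, Matrix.one_mulVec]
        have h2 := g.2 v₀
        rw [hg', QuadraticMap.map_smul, smul_eq_mul, mul_eq_right₀ hv₀] at h2
        rw [hg']
        rcases mul_self_eq_one_iff.1 h2 with h' | h'
        · rw [h', one_smul]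
        · rw [h', CharTwo.neg_eq, one_smul])
    have := Elusive25.fixed_of_line (fun u => by rw [hmul]; exact g.2 u) hW hv hv0 hmap
    rw [hmul] at this
    exact hv0 (hfix v this)
  · rintro ⟨rfl, hodd⟩ x hx' ⟨z, hz⟩ -
    have hiso := Elusive25.apply_of_mem_omegaGL hx'
    rw [Units.val_pow_eq_pow_val] at hz
    have hinv := Elusive25.sq_eq_one_of_scalar hv₀ hiso hz
    obtain ⟨v, hv, hv0⟩ : ∃ v, (x : Matrix (Fin d ⊕ Fin d) (Fin d ⊕ Fin d) F).mulVec v = v ∧ R v ≠ 0 := by
      by_contra hno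
      push Not at hno
      obtain ⟨-, he⟩ := Elusive25.even_of_fix_singular hB (Matrix.toLin' (x : Matrix (Fin d ⊕ Fin d) (Fin d ⊕ Fin d) F))
        (fun v => hiso v) (fun v => hinv v) hdim (fun v hv => hno v hv)
      exact Nat.not_even_iff_odd.2 hodd he
    refine ⟨F ∙ v, ⟨finrank_span_singleton fun h => hv0 (by rw [h, map_zero]), v,
      Submodule.mem_span_singleton_self v, hv0⟩, ?_⟩
    rw [Submodule.map_span, Set.image_singleton, Matrix.toLin'_apply, hv]

end Cfsg.Agent.S5985
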