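import Cfsg.Statements.S5986
import Cfsg.Agent.Elusive25.Even
-- import your own Cfsg.Agent.* helpers here

set_option autoImplicit false
open scoped MatrixGroups
open Cfsg

namespace Cfsg.Agent.S5986

theorem aux {F : Type*} [Field F] [Fintype F] 
    [CharP F 2] (m : ℕ) (hd : 3 ≤ m) (a b : F) (hab : ∀ x y : F, x ^ 2 + a * x * y + b * y ^ 2 = 0 → x = 0 ∧ y = 0) (r : ℕ) [Fact r.Prime]
    (hrΩ : r ∣ Nat.card {W : Submodule F ((Fin m ⊕ Fin m) ⊕ Fin 2 → F) // Module.finrank F ↥W = 1 ∧ ∃ v ∈ W, Cfsg.quadFormMinus m F a b v ≠ 0}) :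
    (∀ x : GL ((Fin m ⊕ Fin m) ⊕ Fin 2) F, x ∈ Cfsg.Geo.omegaGL (Cfsg.quadFormMinus m F a b) →
      (∃ z : F, ((x ^ r : GL ((Fin m ⊕ Fin m) ⊕ Fin 2) F) : Matrix ((Fin m ⊕ Fin m) ⊕ Fin 2) ((Fin m ⊕ Fin m) ⊕ Fin 2) F) = z • (1 : Matrix ((Fin m ⊕ Fin m) ⊕ Fin 2) ((Fin m ⊕ Fin m) ⊕ Fin 2) F)) →
      (∀ z : F, (x : Matrix ((Fin m ⊕ Fin m) ⊕ Fin 2) ((Fin m ⊕ Fin m) ⊕ Fin 2) F) ≠ z • (1 : Matrix ((Fin m ⊕ Fin m) ⊕ Fin 2) ((Fin m ⊕ Fin m) ⊕ Fin 2) F)) →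
      ∃ W : Submodule F ((Fin m ⊕ Fin m) ⊕ Fin 2 → F), (Module.finrank F ↥W = 1 ∧ ∃ v ∈ W, Cfsg.quadFormMinus m F a b v ≠ 0) ∧ W.map (Matrix.toLin' (x : Matrix ((Fin m ⊕ Fin m) ⊕ Fin 2) ((Fin m ⊕ Fin m) ⊕ Fin 2) F)) ≤ W) ↔ r = 2 := by
  classical
  have hr : r.Prime := Fact.out
  have hab' : Agent.Forms.BinaryAniso a b := hab
  let R := Agent.Classical.minusQF m a b
  have hR : Cfsg.quadFormMinus m F a b = ⇑R := funext fun v => (Agent.Classical.minusQF_apply m a b v).symm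
  have hB : Agent.Classical.BNondeg R := Elusive25.bNondeg_minusQF hab
  have hdim : Module.finrank F ((Fin m ⊕ Fin m) ⊕ Fin 2 → F) = 2 * (m + 1) := by
    simp [Module.finrank_fintype_fun_eq_card]; omega
  have hx : Agent.OrthGen.NotExceptional R := Agent.Forms.notExceptional_of (Or.inr (by omega))
  obtain ⟨v₀, hv₀⟩ : ∃ v₀, R v₀ ≠ 0 := ⟨Pi.single (Sum.inr 0) 1, by
    simp [R, Agent.Classical.minusQF_apply, Cfsg.quadFormMinus]⟩
  simp only [hR] at hrΩ ⊢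
  constructor
  · intro hall
    by_contra hr2
    have hdvd : r ∣ Fintype.card F ^ (m + 1) + 1 := by
      have h1 := Elusive25.card_nonsingular_points R
      have h2 := Agent.Classical.card_zeros_hypExt_minus m (Agent.Classical.anisotropic_binQF hab)
      rw [← Nat.card_congr ((Agent.Classical.minusEquiv m).toEquiv.subtypeEquiv
        (p := fun v => R v = 0) fun v => by
          simp [Agent.Classical.minusEquiv_spec, R]), Nat.card_eq_fintype_card (α := F)] at h2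
      simp only [Fintype.card_sum, Fintype.card_fin] at h1
      rw [show m + m + 2 = (m + 1) + (m + 1) by ring, pow_add] at h1
      rw [show 2 * m + 1 = m + (m + 1) by ring, pow_add (Fintype.card F) m (m + 1)] at h2
      have hrq := Elusive25.not_dvd_card (F := F) hr hr2
      rw [pow_succ' (Fintype.card F) m] at h1 h2 ⊢
      obtain ⟨k, hk⟩ : ∃ k, Fintype.card F = k + 2 := Nat.exists_eq_add_of_le' Fintype.one_lt_card
      generalize hQ : Fintype.card F ^ m = Q at *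
      generalize Nat.card {W : Submodule F ((Fin m ⊕ Fin m) ⊕ Fin 2 → F) //
        Module.finrank F ↥W = 1 ∧ ∃ v ∈ W, R v ≠ 0} = c at *
      rw [hk] at h1 h2 ⊢
      rw [show k + 2 - 1 = k + 1 by omega] at h1
      have hc : c = Q * ((k + 2) * Q + 1) := Nat.eq_of_mul_eq_mul_right (Nat.succ_pos k) (by nlinarith)
      subst hc
      exact (hr.dvd_mul.1 hrΩ).resolve_left fun h => hrq (hr.dvd_of_dvd_pow (hQ ▸ h))
    obtain ⟨g, hg, hfix⟩ := Elusive25.exists_fpf_minus hab' hdvd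
    have hgc := Elusive25.mem_commutator_of_pow hB hx (hr.odd_of_ne_two hr2) hg
    have hmul := Elusive25.glOf_mulVec R g
    obtain ⟨W, ⟨hW, v, hv, hv0⟩, hmap⟩ := hall (Elusive25.glOf R g) (Elusive25.glOf_mem_omegaGL R hgc)
      ⟨1, by rw [← map_pow, hg, map_one, Units.val_one, one_smul]⟩
      (Elusive25.not_scalar_of_fpf hv₀ hfix)
    have := Elusive25.fixed_of_line (fun u => by rw [hmul]; exact g.2 u) hW hv hv0 hmap
    rw [hmul] at this
    exact hv0 (by rw [hfix v this, map_zero])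
  · rintro rfl x hx' ⟨z, hz⟩ -
    have hiso := Elusive25.apply_of_mem_omegaGL hx'
    rw [Units.val_pow_eq_pow_val] at hz
    have hinv := Elusive25.sq_eq_one_of_scalar hv₀ hiso hz
    obtain ⟨v, hv, hv0⟩ : ∃ v, (x : Matrix ((Fin m ⊕ Fin m) ⊕ Fin 2) ((Fin m ⊕ Fin m) ⊕ Fin 2) F).mulVec v = v ∧ R v ≠ 0 := by
      by_contra hno
      push Not at hno
      obtain ⟨hk, -⟩ := Elusive25.even_of_fix_singular hB (Matrix.toLin' (x : Matrix ((Fin m ⊕ Fin m) ⊕ Fin 2) ((Fin m ⊕ Fin m) ⊕ Fin 2) F))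
        (fun v => hiso v) (fun v => hinv v) hdim (fun v hv => hno v hv)
      have := Agent.Forms.finrank_le_of_vanishes_quadFormMinus hab'
        (LinearMap.ker (Matrix.toLin' (x : Matrix ((Fin m ⊕ Fin m) ⊕ Fin 2) ((Fin m ⊕ Fin m) ⊕ Fin 2) F) - 1)) (fun w hw => by
          rw [← Agent.Classical.minusQF_apply]
          refine hno w ?_
          rw [LinearMap.mem_ker, LinearMap.sub_apply, Module.End.one_apply, sub_eq_zero] at hw
          exact hw)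
      omega
    refine ⟨F ∙ v, ⟨finrank_span_singleton fun h => hv0 (by rw [h, map_zero]), v,
      Submodule.mem_span_singleton_self v, hv0⟩, ?_⟩
    rw [Submodule.map_span, Set.image_singleton, Matrix.toLin'_apply, hv]

/-- Elements of prime order of Ω⁻_n(q), q even, with no fixed nonsingular 1-space. Here `T = PΩ⁻_n(F)`, `n = 2d ≥ 8`, realised through `Ω⁻_n(q)`, the commutator subgroup of the isometry group of `Q = Σ_{i<d−1} xᵢyᵢ + z₁² + a z₁z₂ + b z₂²` with `z₁² + a z₁z₂ + b z₂²` anisotropic, over the field `F` with `q` elements; an element of `T` of prime order `r` is an element `x` of `Ω⁻_n(q)` with `x^r` scalar and `x` not scalar; `q` is even (so the centre is trivial). Let Ω be the set of 1-dimensional subspaces spanned by a vector `v` with `Q(v) ≠ 0`, and let `r` be a prime dividing their number. Then every element of `T` of order `r` fixes some nonsingular 1-space if and only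 if `r = 2`. -/
theorem result {F : Type*} [Field F] [Fintype F] {p : ℕ} [Fact p.Prime] [CharP F p] {q : ℕ} (hq : Fintype.card F = q)
    (hp : p = 2) (d : ℕ) (hd : 4 ≤ d) (a b : F) (hab : ∀ x y : F, x ^ 2 + a * x * y + b * y ^ 2 = 0 → x = 0 ∧ y = 0) (r : ℕ) [Fact r.Prime]
    (hrΩ : r ∣ Nat.card {W : Submodule F ((Fin (d - 1) ⊕ Fin (d - 1)) ⊕ Fin 2 → F) // Module.finrank F ↥W = 1 ∧ ∃ v ∈ W, Cfsg.quadFormMinus (d - 1) F a b v ≠ 0}) :
    (∀ x : GL ((Fin (d - 1) ⊕ Fin (d - 1)) ⊕ Fin 2) F, x ∈ Cfsg.Geo.omegaGL (Cfsg.quadFormMinus (d - 1) F a b) →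
      (∃ z : F, ((x ^ r : GL ((Fin (d - 1) ⊕ Fin (d - 1)) ⊕ Fin 2) F) : Matrix ((Fin (d - 1) ⊕ Fin (d - 1)) ⊕ Fin 2) ((Fin (d - 1) ⊕ Fin (d - 1)) ⊕ Fin 2) F) = z • (1 : Matrix ((Fin (d - 1) ⊕ Fin (d - 1)) ⊕ Fin 2) ((Fin (d - 1) ⊕ Fin (d - 1)) ⊕ Fin 2) F)) →
      (∀ z : F, (x : Matrix ((Fin (d - 1) ⊕ Fin (d - 1)) ⊕ Fin 2) ((Fin (d - 1) ⊕ Fin (d - 1)) ⊕ Fin 2) F) ≠ z • (1 : Matrix ((Fin (d - 1) ⊕ Fin (d - 1)) ⊕ Fin 2) ((Fin (d - 1) ⊕ Fin (d - 1)) ⊕ Fin 2) F)) →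
      ∃ W : Submodule F ((Fin (d - 1) ⊕ Fin (d - 1)) ⊕ Fin 2 → F), (Module.finrank F ↥W = 1 ∧ ∃ v ∈ W, Cfsg.quadFormMinus (d - 1) F a b v ≠ 0) ∧ W.map (Matrix.toLin' (x : Matrix ((Fin (d - 1) ⊕ Fin (d - 1)) ⊕ Fin 2) ((Fin (d - 1) ⊕ Fin (d - 1)) ⊕ Fin 2) F)) ≤ W) ↔ r = 2 := by
  subst hp
  obtain ⟨m, rfl⟩ : ∃ m, d = m + 1 := ⟨d - 1, by omega⟩
  exact aux m (by omega) a b hab r hrΩ

end Cfsg.Agent.S5986
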