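import Cfsg.Statements.S5987
import Cfsg.Agent.Elusive.OrthEllipticTwo
import Cfsg.Agent.Elusive.OrthEllipticNegOne
import Cfsg.Agent.Elusive.OrthPlusTwo

set_option autoImplicit false
open scoped MatrixGroups
open Cfsg

namespace Cfsg.Agent.S5987
open Module QuadraticMap Cfsg.Agent.Classical Cfsg.Agent.Forms Cfsg.Agent.Elusive
open OrthElliptic (PlusBlocks)

section generic

variable {F : Type*} [Field F] [Fintype F] {ι : Type} [Fintype ι] [DecidableEq ι] {R : QuadraticForm F (ι → F)}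

/-- A totally singular subspace of dimension `m`. -/
def IsTS (R : QuadraticForm F (ι → F)) (m : ℕ) (W : Submodule F (ι → F)) : Prop :=
  finrank F W = m ∧ Cfsg.Geo.IsTotallySingularQuad ⇑R W

/-- Every element of order `r` of the projective group fixes a totally singular subspace of dimension `m`. -/
def AllFixTS (R : QuadraticForm F (ι → F)) (m r : ℕ) : Prop :=
  ∀ x : Matrix.GeneralLinearGroup ι F, x ∈ Cfsg.Geo.omegaGL ⇑R →
    (∃ z : F, ((x ^ r : Matrix.GeneralLinearGroup ι F) : Matrix ι ι F) = z • (1 : Matrix ι ι F)) →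
    (∀ z : F, (x : Matrix ι ι F) ≠ z • (1 : Matrix ι ι F)) →
    ∃ W, IsTS R m W ∧ W.map (Matrix.toLin' (x : Matrix ι ι F)) ≤ W

variable (hB : BNondeg R)
include hB

theorem polar_nondegenerate : (polarBilin R).Nondegenerate :=
  have key : ∀ x, (∀ y, polarBilin R x y = 0) → x = 0 := fun x hx => hB x fun y => hx y
  ⟨key, fun y hy => key y fun x => (polar_comm R y x).trans (hy x)⟩

theorem exists_isTS {m : ℕ} (hm : 2 * m + 1 ≤ Fintype.card ι) : ∃ W, IsTS R m W := by
  obtain ⟨X, -, hX, hXd⟩ := OrthTS.exists_singular (OrthElliptic.nonDegOn_top hB) (e := m)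
    (Or.inr (by rwa [finrank_top, finrank_fintype_fun_eq_card]))
  exact ⟨X, hXd, hX⟩

/-- A bad element from an isometry. -/
theorem not_allFixTS {m : ℕ} (hm : 2 * m + 1 ≤ Fintype.card ι) {r : ℕ} {g : OQ R} (hg : g ∈ commutator (OQ R))
    {z : F} (hgr : ∀ v, (g ^ r).1 v = z • v) (hno : ∀ W, IsTS R m W → ¬ ∀ v ∈ W, g.1 v ∈ W) :
    ¬ AllFixTS R m r := by
  intro h
  obtain ⟨W₀, hW₀⟩ := exists_isTS hB hm
  have hmul := Elusive25.glOf_mulVec R g
  have hxr : ((Elusive25.glOf R g ^ r : Matrix.GeneralLinearGroup ι F) : Matrix ι ι F) = z • (1 : Matrix ι ι F) :=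
    Matrix.ext_iff_mulVec.2 fun v => by
      rw [← map_pow, Elusive25.glOf_mulVec, hgr, Matrix.smul_mulVec, Matrix.one_mulVec]
  obtain ⟨W, hW, hWx⟩ := h _ (Elusive25.glOf_mem_omegaGL _ hg) ⟨z, hxr⟩ fun a ha =>
    hno W₀ hW₀ fun v hv => by
      rw [← hmul, ha, Matrix.smul_mulVec, Matrix.one_mulVec]; exact W₀.smul_mem a hv
  exact hno W hW fun v hv => hWx ⟨v, hv, by rw [Matrix.toLin'_apply]; exact hmul v⟩

/-- It is enough to look at isometries. -/
theorem allFixTS_of (hpos : 0 < Fintype.card ι) {m r : ℕ}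
    (h : ∀ g ∈ commutator (OQ R), ∀ z : F, z * z = 1 → (∀ v, (g ^ r).1 v = z • v) →
      (∀ a : F, ∃ v, g.1 v ≠ a • v) → ∃ W, IsTS R m W ∧ ∀ v ∈ W, g.1 v ∈ W) : AllFixTS R m r := by
  intro x hxm ⟨z, hz⟩ hns
  obtain ⟨y, hy, rfl⟩ := hxm
  set g : OQ R := OrthGen.matEquiv R y
  have hgc : g ∈ commutator (OQ R) := (mem_Omega_iff_matEquiv _ y).1 hy
  have hxg : Elusive25.glOf R g = (Cfsg.isometryGroup F ⇑R).subtype y := by simp [Elusive25.glOf, g]
  rw [← hxg] at hz hns ⊢
  have hmul := Elusive25.glOf_mulVec R g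
  have hgz : ∀ v, (g ^ r).1 v = z • v := fun v => by
    rw [← Elusive25.glOf_mulVec, map_pow, hz, Matrix.smul_mulVec, Matrix.one_mulVec]
  obtain ⟨v₀, hv₀⟩ := OrthElliptic.exists_value_ne_zero hB hpos
  have hz2 : z * z = 1 := by
    have h1 := (g ^ r).2 v₀
    rw [hgz, QuadraticMap.map_smul, smul_eq_mul] at h1
    exact (mul_eq_right₀ hv₀).1 h1
  obtain ⟨W, hW, hinv⟩ := h g hgc z hz2 hgz fun a => by
    by_contra hno
    push Not at hno
    exact hns a (Matrix.ext_iff_mulVec.2 fun v => by rw [hmul, hno, Matrix.smul_mulVec, Matrix.one_mulVec])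
  refine ⟨W, hW, ?_⟩
  rintro _ ⟨v, hv, rfl⟩
  rw [Matrix.toLin'_apply, hmul]
  exact hinv v hv

/-- Reduction to isometries of order `r`. -/
theorem allFixTS_iff_odd (hn4 : Fintype.card ι ≠ 4) {m : ℕ} (hm : 2 * m + 1 ≤ Fintype.card ι) {r : ℕ} [Fact r.Prime]
    (hr2 : r ≠ 2) :
    AllFixTS R m r ↔ ∀ g : OQ R, g ^ r = 1 → ∃ W, IsTS R m W ∧ ∀ v ∈ W, g.1 v ∈ W := by
  classical
  have hrp : r.Prime := Fact.out
  constructor
  · intro h g hg
    by_contra hno
    push Not at hno
    exact not_allFixTS hB hm (Elusive25.mem_commutator_of_pow hB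
      (Or.inr (by rwa [finrank_fintype_fun_eq_card])) (hrp.odd_of_ne_two hr2) hg) (r := r) (z := 1)
      (fun v => by rw [hg, one_smul]; rfl) (fun W hW hinv => by
        obtain ⟨v, hv, hv'⟩ := hno W hW
        exact hv' (hinv v hv)) h
  · intro h
    refine allFixTS_of hB (by omega) fun g hgc z hz2 hgz hns => ?_
    -- a sign times the isometry has order dividing `r`
    let g' : OQ R := ⟨g.1.trans (LinearEquiv.smulOfNeZero F (ι → F) z (left_ne_zero_of_mul_eq_one hz2)),
      fun v => by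
        show R (z • g.1 v) = R v
        rw [QuadraticMap.map_smul, hz2, one_smul, OQ_map_app]⟩
    have hg' : ∀ v, g'.1 v = z • g.1 v := fun v => rfl
    have hpow : ∀ k : ℕ, ∀ v, (g' ^ k).1 v = z ^ k • (g ^ k).1 v := by
      intro k
      induction k with
      | zero => intro v; simp
      | succ k ih =>
        intro v
        rw [pow_succ', pow_succ', pow_succ', Subgroup.coe_mul, LinearEquiv.mul_apply, ih, hg', Subgroup.coe_mul,
          LinearEquiv.mul_apply, map_smul, smul_smul]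
    have hg'r : g' ^ r = 1 := Subtype.ext (LinearEquiv.ext fun v => by
      obtain ⟨k, hk⟩ := hrp.odd_of_ne_two hr2
      have hzz : z ^ r = z := by rw [hk, pow_succ, pow_mul, _root_.sq, hz2, one_pow, one_mul]
      rw [hpow, hgz, hzz, smul_smul, hz2, one_smul]
      rfl)
    obtain ⟨W, hW, hinv⟩ := h g' hg'r
    refine ⟨W, hW, fun v hv => ?_⟩
    have := W.smul_mem z (hinv v hv)
    rwa [hg', smul_smul, hz2, one_smul] at this

variable (hV : ¬ Cfsg.Geo.IsPlusTypeOn ⇑R ⊤) {d : ℕ} (hd : Fintype.card ι = 2 * d)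
include hV hd

/-- The type of the fixed space. -/
theorem plus_ker_iff {g : OQ R} {r : ℕ} [Fact r.Prime] (hr : ¬ r ∣ Fintype.card F) (hr2 : r ≠ 2) (hg : g ^ r = 1)
    {i c : ℕ} (hi : i = orderOf ((Fintype.card F : ℕ) : ZMod r)) (hc : c = if Even i then i else 2 * i) {j : ℕ}
    (hj : finrank F (LinearMap.range ((g.1.toLinearMap : Module.End F (ι → F)) - 1)) = j * c) :
    Cfsg.Geo.IsPlusTypeOn ⇑R (LinearMap.ker ((g.1.toLinearMap : Module.End F (ι → F)) - 1)) ↔ ¬ PlusBlocks i j := by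
  set f : Module.End F (ι → F) := g.1.toLinearMap with hf
  have hfr : f ^ r = 1 := by rw [hf, ← OrthPlus.toLinearMap_pow, hg]; rfl
  have hQ := polar_nondegenerate hB
  have hCN := OrthTS.nonDegOn_ker hQ (fun v => g.2 v) hfr hr
  have ho : ∀ x ∈ LinearMap.ker (f - 1), ∀ y ∈ LinearMap.range (f - 1), polar R x y = 0 :=
    OrthTS.ker_orth_range (Q := R) fun v => g.2 v
  have hMN : NonDegOn R.polarBilin (LinearMap.range (f - 1)) := fun x hx h => hB x fun y => by
    obtain ⟨a, ha, b, hb, rfl⟩ := Submodule.mem_sup.1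
      (OrthTS.ker_sup_range hfr hr ▸ Submodule.mem_top : y ∈ LinearMap.ker (f - 1) ⊔ LinearMap.range (f - 1))
    rw [polar_add_right, polar_comm R x a, ho a ha x hx, zero_add]
    exact h b hb
  obtain ⟨-, -, hce, -⟩ := OrthElliptic.index_facts hr hi hc
  have hM := OrthElliptic.plus_iff_of_fixed_free hr hr2 hg hi hc OrthTS.range_invariant hMN
    (fun v hv hgv => Submodule.disjoint_def.1 (OrthTS.disjoint_ker_range hfr hr) v (OrthElliptic.mem_fix.2 hgv) hv) hj
  have hsum := OrthTS.finrank_ker_add_range (f := f)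
  have hje := Nat.even_iff.1 (hce.mul_left j)
  rw [finrank_fintype_fun_eq_card, hd, hj] at hsum
  have hev : Even (finrank F (LinearMap.ker (f - 1))) := Nat.even_iff.2 (by omega)
  have htop := OrthTypes.plus_sup_iff hB hCN hMN ho hev (hj ▸ hce.mul_left j)
  rw [OrthTS.ker_sup_range hfr hr, hM] at htop
  tauto

omit hV hd in
/-- Singular subspaces of the fixed space, by its type. -/
theorem exists_singular_ker {g : OQ R} {r : ℕ} [Fact r.Prime] (hr : ¬ r ∣ Fintype.card F) (hg : g ^ r = 1) {e : ℕ}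
    (he : e = 0 ∨ 2 * e + 1 ≤ finrank F (LinearMap.ker ((g.1.toLinearMap : Module.End F (ι → F)) - 1)) ∨
      (Cfsg.Geo.IsPlusTypeOn ⇑R (LinearMap.ker ((g.1.toLinearMap : Module.End F (ι → F)) - 1)) ∧
        2 * e ≤ finrank F (LinearMap.ker ((g.1.toLinearMap : Module.End F (ι → F)) - 1)))) :
    ∃ E ≤ LinearMap.ker ((g.1.toLinearMap : Module.End F (ι → F)) - 1), (∀ v ∈ E, R v = 0) ∧ finrank F E = e := by
  set f : Module.End F (ι → F) := g.1.toLinearMap with hf
  have hfr : f ^ r = 1 := by rw [hf, ← OrthPlus.toLinearMap_pow, hg]; rfl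
  have hN := OrthTS.nonDegOn_ker (polar_nondegenerate hB) (fun v => g.2 v) hfr hr
  rcases he with h | h | ⟨⟨U, hU, hUS, hUd⟩, h⟩
  · exact OrthTS.exists_singular hN (Or.inl h)
  · exact OrthTS.exists_singular hN (Or.inr h)
  · obtain ⟨E, hE, hEd⟩ := OrthTS.exists_le_finrank U (e := e) (by omega)
    exact ⟨E, hE.trans hU, fun v hv => hUS v (hE hv), hEd⟩

/-- An isometry with prescribed kernel dimensions. -/
theorem exists_element {r : ℕ} [Fact r.Prime] (hr : ¬ r ∣ Fintype.card F) (hr2 : r ≠ 2) {i c : ℕ}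
    (hi : i = orderOf ((Fintype.card F : ℕ) : ZMod r)) (hc : c = if Even i then i else 2 * i)
    (Φ : PrimeSO.Fac F r i) (a : Φ.s → ℕ) (hinv : ∀ j, a (Φ.tau j) = a j) {j : ℕ} (hj : (∑ s, a s) * i = j * c)
    (hj0 : 0 < j * c) (hle : j * c ≤ 2 * d) (htop : j * c = 2 * d → ¬ PlusBlocks i j) :
    ∃ g : OQ R, g ^ r = 1 ∧
      ∀ s : Φ.s, PrimeSO.kd (g.1.toLinearMap : Module.End F (ι → F)) (s : Polynomial F) = a s * i := by
  classical
  have hrp : r.Prime := Fact.out
  obtain ⟨T, R₀, H, hT, hfix, hkd, hRT, hR₀, -⟩ :=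
    PrimeSO.exists_model (F := F) (K := (∑ s, a s) * i) hrp hr2 Φ a hinv rfl
  obtain ⟨hi0, hc0, hce, -⟩ := OrthElliptic.index_facts hr hi hc
  obtain ⟨n, hn⟩ : ∃ n, j * c = 2 * (n + 1) := by
    obtain ⟨c', hc'⟩ := hce
    rw [hc', mul_add] at hj0 ⊢
    exact ⟨j * c' - 1, by omega⟩
  let g₀ : OQ R₀ := ⟨PrimeSO.toEquivOfPow T hrp.pos hT, hRT⟩
  have hg₀ : g₀ ^ r = 1 := Subtype.ext (LinearEquiv.ext fun v => by
    rw [OrthElliptic.apply_pow]
    show (T ^ r) v = v
    rw [hT]; rfl)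
  have hB₀ : BNondeg R₀ := fun x hx => hR₀.1 x hx
  have hd₀ : finrank F (⊤ : Submodule F (Fin ((∑ s, a s) * i) → F)) = j * c := by
    rw [finrank_top, finrank_fintype_fun_eq_card, Fintype.card_fin, hj]
  have ht₀ := OrthElliptic.plus_iff_of_fixed_free (g := g₀) hr hr2 hg₀ hi hc (M := ⊤) (fun _ _ => trivial)
    (OrthElliptic.nonDegOn_top hB₀) (fun v _ hv => hfix v hv) hd₀
  -- a subspace of the same dimension and type
  obtain ⟨U, hU, hUd, hUt⟩ : ∃ U : Submodule F (ι → F), NonDegOn R.polarBilin U ∧ finrank F U = j * c ∧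
      (Cfsg.Geo.IsPlusTypeOn ⇑R U ↔ PlusBlocks i j) := by
    rcases hle.eq_or_lt with h | h
    · exact ⟨⊤, OrthElliptic.nonDegOn_top hB, by rw [finrank_top, finrank_fintype_fun_eq_card, hd, h],
        iff_of_false hV (htop h)⟩
    obtain ⟨U, -, hU, hUd, ht⟩ := OrthTypes.exists_sub (OrthElliptic.nonDegOn_top hB)
      (by rw [finrank_top, finrank_fintype_fun_eq_card, hd]; exact even_two_mul d) (n := n)
      (by rw [finrank_top, finrank_fintype_fun_eq_card, hd, ← hn]; exact h) (PlusBlocks i j)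
    exact ⟨U, hU, by rw [hUd, hn], ht⟩
  obtain ⟨φ, hφ⟩ : ∃ φ : (Fin ((∑ s, a s) * i) → F) ≃ₗ[F] U, ∀ v, R (φ v : ι → F) = R₀ v := by
    rcases OrthTypes.exists_model (OrthElliptic.nonDegOn_top hB₀) (hd₀.trans hn) with
        ⟨hp, e, he⟩ | ⟨hp, a₁, b₁, hab, e, he⟩ <;>
      rcases OrthTypes.exists_model hU (hUd.trans hn) with ⟨hp', e', he'⟩ | ⟨hp', a₂, b₂, hab', e', he'⟩
    · refine ⟨(LinearEquiv.ofTop _ rfl).symm.trans (e.trans e'.symm), fun v => ?_⟩
      rw [LinearEquiv.trans_apply, LinearEquiv.trans_apply, he', LinearEquiv.apply_symm_apply, ← he]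
      rfl
    · exact absurd (hUt.2 (ht₀.1 hp)) hp'
    · exact absurd (ht₀.2 (hUt.1 hp')) hp
    · obtain ⟨L, hL⟩ := exists_quadFormMinus_equiv hab hab' n
      refine ⟨(LinearEquiv.ofTop _ rfl).symm.trans ((e.trans L).trans e'.symm), fun v => ?_⟩
      rw [LinearEquiv.trans_apply, LinearEquiv.trans_apply, he', LinearEquiv.apply_symm_apply, LinearEquiv.trans_apply,
        minusQF_apply, hL, ← minusQF_apply, ← he]
      rfl
  set P := LinearMap.BilinForm.orthogonal R.polarBilin U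
  have hcpl : IsCompl U P := OrthTypes.isCompl_orth hU
  let E := (φ.prodCongr (LinearEquiv.refl F P)).trans (Submodule.prodEquivOfIsCompl U P hcpl)
  have hE : ∀ v w, R (E (v, w)) = R₀ v + R (w : ι → F) := fun v w => by
    show R ((φ v : ι → F) + (w : ι → F)) = _
    rw [QuadraticMap.map_add R, hφ, show polar R (φ v : ι → F) (w : ι → F) = 0 from w.2 _ (φ v).2, add_zero]
  obtain ⟨S, hS, hSE, hSd⟩ := PrimeSO.exists_glue Φ hT E
  have hSR : ∀ v, R (S v) = R v := fun v => by
    obtain ⟨⟨v₁, v₂⟩, rfl⟩ := E.surjective v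
    rw [hSE, hE, hE, hRT]
  refine ⟨⟨PrimeSO.toEquivOfPow S hrp.pos hS, hSR⟩, Subtype.ext (LinearEquiv.ext fun v => ?_), fun s => ?_⟩
  · rw [OrthElliptic.apply_pow]
    show (S ^ r) v = v
    rw [hS]; rfl
  · show PrimeSO.kd S _ = _
    rw [hSd, hkd]

/-- The criterion for odd primes different from the characteristic. -/
theorem odd_prime_iff {p : ℕ} [Fact p.Prime] [CharP F p] {m : ℕ} (hmd : m < d) {r : ℕ} [Fact r.Prime]
    (hr : ¬ r ∣ Fintype.card F) (hr2 : r ≠ 2) (hrp : r ≠ p) {i c : ℕ}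
    (hi : i = orderOf ((Fintype.card F : ℕ) : ZMod r)) (hc : c = if Even i then i else 2 * i)
    (hcd : c ≤ 2 * d) (hkm : 2 * d % c ≤ 2 * m) (hk0 : Odd i → 2 * d % c = 0 → i ≤ m)
    (hkeq : 2 * d % c = 2 * m → Even i → Even (2 * d / c))
    (hexc : Even i → 2 * d % c = 0 → Even (2 * d / c) → i < 2 * m ∧ 2 ≤ 2 * d / c) :
    (∀ g : OQ R, g ^ r = 1 → ∃ W, IsTS R m W ∧ ∀ v ∈ W, g.1 v ∈ W) ↔
    ((Odd i ∧ i ≤ m ∧ (2 * d % c = 0 ∨ 2 * (m % i) < 2 * d % c)) ∨
     (Even i ∧ i ≤ m ∧ (r - 1) / i + 2 * (m / i) ≤ 2 * d / i ∧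
       ((2 * (m % i) ≤ i ∧ 2 * d % c = 0 ∧ Even (2 * d / i) ∧ (r - 1) / i + 2 * (m / i) < 2 * d / i) ∨
        (2 * (m % i) ≤ 2 * d % c ∧ Odd (2 * d / i)) ∨
        (2 * (m % i) < 2 * d % c ∧ Even (2 * d / i))))) := by
  classical
  have hrP : r.Prime := Fact.out
  obtain ⟨hi0, ⟨Φ⟩⟩ := PrimeSO.exists_fac (F := F) hrP hr2 hrp hi
  have hQ := polar_nondegenerate hB
  have hcard : Fintype.card Φ.s = (r - 1) / i := by
    rw [Fintype.card_coe, ← Φ.card_s, Nat.mul_div_cancel _ hi0]
  have ht0 : 0 < (r - 1) / i := by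
    have h3 : 0 < r - 1 := by have := hrP.two_le; omega
    rw [← hcard]
    refine Nat.pos_of_ne_zero fun h0 => ?_
    have := Φ.card_s
    rw [← Fintype.card_coe, h0, Nat.zero_mul] at this
    omega
  obtain ⟨-, hc0, hce, -⟩ := OrthElliptic.index_facts hr hi hc
  have hndiv := Nat.div_add_mod' (2 * d) c
  have hklt := Nat.mod_lt (2 * d) hc0
  have hmm := Nat.div_add_mod' m i
  have hml := Nat.mod_lt m hi0
  have hkev : 2 * d % c % 2 = 0 := by
    rw [Nat.mod_mod_of_dvd _ (even_iff_two_dvd.1 hce)]; omega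
  -- what an element with prescribed kernels shows
  have key : ∀ a : Φ.s → ℕ, (∀ s, a (Φ.tau s) = a s) → ∀ j, (∑ s, a s) * i = j * c → 0 < j * c → j * c ≤ 2 * d →
      (j * c = 2 * d → ¬ PlusBlocks i j) →
      (∀ g : OQ R, g ^ r = 1 → ∃ W, IsTS R m W ∧ ∀ v ∈ W, g.1 v ∈ W) →
      ∃ e y, m = e + y ∧ i ∣ y ∧ 2 * e + j * c ≤ 2 * d ∧ (PlusBlocks i j → 2 * e + 2 + j * c ≤ 2 * d) ∧
        (Even i → (∀ s, a s ≤ 1) → y = 0) := by
    intro a hinv j hj hpos hle htop h
    obtain ⟨g, hg, hgd⟩ := exists_element hB hV hd hr hr2 hi hc Φ a hinv hj hpos hle htop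
    set f : Module.End F (ι → F) := g.1.toLinearMap with hf
    have hfr : f ^ r = 1 := by rw [hf, ← OrthPlus.toLinearMap_pow, hg]; rfl
    have hC : finrank F (LinearMap.ker (f - 1)) + (∑ s, a s) * i = finrank F (ι → F) :=
      OrthTS.finrank_ker_sub_one Φ hfr a hgd
    have hM := OrthTS.finrank_ker_add_range (f := f)
    rw [finrank_fintype_fun_eq_card, hd, hj] at hC
    rw [finrank_fintype_fun_eq_card, hd] at hM
    obtain ⟨W, ⟨hWd, hWS⟩, hW⟩ := h g hg
    obtain ⟨Y, hY, hYS, hYM, hYi, hsum, hle'⟩ := OrthTS.exists_split (f := f) hQ (fun v => g.2 v) hfr hr hi hW hWS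
    refine ⟨_, _, hWd ▸ hsum, hYi, by omega, fun hpb => ?_, fun he h1 => ?_⟩
    · by_contra hcon
      refine (plus_ker_iff hB hV hd hr hr2 hg hi hc (j := j)
        (show finrank F (LinearMap.range (f - 1)) = j * c by omega)).1
        (OrthMax.plus_of_ts (inf_le_right : W ⊓ LinearMap.ker (f - 1) ≤ _) (fun v hv => hWS v hv.1) ?_ ?_) hpb
      · have hje := Nat.even_iff.1 (hce.mul_left j)
        change Even (finrank F (LinearMap.ker (f - 1)))
        exact Nat.even_iff.2 (by omega)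
      · have hje := Nat.even_iff.1 (hce.mul_left j)
        change finrank F (LinearMap.ker (f - 1)) ≤ 2 * finrank F ↥(W ⊓ LinearMap.ker (f - 1))
        omega
    · rw [OrthTS.eq_bot_of_inf_ker Φ hfr hr hY hYM fun s => OrthTS.inf_ker_eq_bot Φ hQ (fun v => g.2 v) hfr s
        (Φ.tau_even he s) (by rw [hgd]; exact (Nat.mul_le_mul_right i (h1 s)).trans (one_mul i).le) hY hYS, finrank_bot]
  obtain ⟨f₀⟩ : Nonempty Φ.s := Fintype.card_pos_iff.1 (hcard ▸ ht0)
  rcases Nat.even_or_odd i with hev | ho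
  · -- blocks of even degree
    have hci : c = i := by rw [hc, if_pos hev]
    subst hci
    simp only [hev, Nat.not_odd_iff_even.2 hev, true_and, false_and, false_or]
    have hσ : ∀ x, PlusBlocks c x ↔ Even x := fun x =>
      ⟨fun h' => h'.resolve_left (Nat.not_odd_iff_even.2 hev), Or.inr⟩
    constructor
    · intro h
      set N := 2 * d / c
      have hN0 : 0 < N := Nat.div_pos hcd hc0
      -- one class
      let single : ℕ → Φ.s → ℕ := fun A s => if s = f₀ then A else 0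
      have hsingle : ∀ A, (∑ s, single A s) = A := fun A => by simp [single]
      have hinv : ∀ (a : Φ.s → ℕ) s, a (Φ.tau s) = a s := fun a s => by rw [Φ.tau_even hev]
      -- several classes
      have hmulti : ∀ s ≤ (r - 1) / c, ∃ a : Φ.s → ℕ, ∑ j, a j = s ∧ ∀ j, a j ≤ 1 := fun s hs => by
        obtain ⟨S₀, -, hS₀⟩ := Finset.exists_subset_card_eq (s := (Finset.univ : Finset Φ.s)) (n := s)
          (by rw [Finset.card_univ, hcard]; exact hs)
        refine ⟨fun j => if j ∈ S₀ then 1 else 0, ?_, fun j => by dsimp only; split_ifs <;> omega⟩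
        rw [Finset.sum_ite_mem, Finset.univ_inter, Finset.sum_const, hS₀, smul_eq_mul, mul_one]
      by_cases hE : 2 * d % c = 0 ∧ Even N
      · obtain ⟨h0, hevN⟩ := hE
        obtain ⟨him2, hN2⟩ := hexc hev h0 hevN
        have hpred : (N - 1) * c + c = N * c := by
          rw [← Nat.succ_mul, Nat.succ_eq_add_one, Nat.sub_add_cancel (by omega)]
        obtain ⟨e, y, hey, ⟨w, hw⟩, hle, -, -⟩ := key (single (N - 1)) (hinv _) (N - 1) (by rw [hsingle])
          (Nat.mul_pos (by omega) hc0) (by omega) (fun h' => absurd h' (by omega)) h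
        have him : c ≤ m := by
          rcases Nat.eq_zero_or_pos w with rfl | hw0
          · rw [Nat.mul_zero] at hw; omega
          · have := Nat.le_mul_of_pos_right c hw0
            omega
        have hl : 2 * (m % c) ≤ c := by
          rw [hey, hw, Nat.add_mul_mod_self_left]
          have := Nat.mod_le e c
          omega
        have ht : (r - 1) / c + 2 * (m / c) < N := by
          by_contra hcon
          set s := min ((r - 1) / c) (N - 1) with hsdef
          obtain ⟨a, hasum, ha1⟩ := hmulti s (min_le_left _ _)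
          have hs0 : 0 < s := lt_min ht0 (by omega)
          have hsN : s * c ≤ (N - 1) * c := Nat.mul_le_mul_right c (min_le_right _ _)
          obtain ⟨e', y', hey', -, hle', hpar, hy'⟩ := key a (hinv _) s (by rw [hasum])
            (Nat.mul_pos hs0 hc0) (by omega) (fun h' => absurd h' (by omega)) h
          rw [hy' hev ha1] at hey'
          rcases le_total ((r - 1) / c) (N - 1) with htN | htN
          · have hst : s = (r - 1) / c := min_eq_left htN
            rw [hst] at hle' hpar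
            have h1 := Nat.mul_le_mul_right c (Nat.not_lt.1 hcon)
            rw [Nat.add_mul, Nat.mul_assoc] at h1
            rcases (Nat.not_lt.1 hcon).eq_or_lt with heq | hlt
            · have : Even ((r - 1) / c) := by
                obtain ⟨u, hu⟩ := hevN
                exact ⟨u - m / c, by omega⟩
              have := hpar ((hσ _).2 this)
              omega
            · have h2 := Nat.mul_le_mul_right c (Nat.succ_le_of_lt hlt)
              rw [Nat.succ_mul, Nat.add_mul, Nat.mul_assoc] at h2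
              omega
          · have hst : s = N - 1 := min_eq_right htN
            rw [hst] at hle'
            omega
        exact ⟨him, ht.le, Or.inl ⟨hl, h0, hevN, ht⟩⟩
      · have htop : N * c = 2 * d → ¬ PlusBlocks c N := fun h' hp => hE ⟨by omega, (hσ N).1 hp⟩
        obtain ⟨e, y, hey, ⟨w, hw⟩, hle, hpar, -⟩ := key (single N) (hinv _) N (by rw [hsingle])
          (Nat.mul_pos hN0 hc0) (by omega) htop h
        have hbound : ∀ e', 2 * e' + N * c ≤ 2 * d → (PlusBlocks c N → 2 * e' + 2 + N * c ≤ 2 * d) → e' = m → False := by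
          intro e' hle' hpar' he'
          rcases hkm.eq_or_lt with h' | h'
          · have := hpar' ((hσ N).2 (hkeq h' hev))
            omega
          · omega
        have him : c ≤ m := by
          rcases Nat.eq_zero_or_pos w with rfl | hw0
          · exfalso
            rw [Nat.mul_zero] at hw
            exact hbound e hle hpar (by omega)
          · have := Nat.le_mul_of_pos_right c hw0
            omega
        have hl : e % c = m % c := by rw [hey, hw, Nat.add_mul_mod_self_left]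
        have hel := Nat.mod_le e c
        have ht : (r - 1) / c + 2 * (m / c) ≤ N := by
          by_contra hcon
          set s := min ((r - 1) / c) N with hsdef
          obtain ⟨a, hasum, ha1⟩ := hmulti s (min_le_left _ _)
          have hs0 : 0 < s := lt_min ht0 hN0
          have hsN : s * c ≤ N * c := Nat.mul_le_mul_right c (min_le_right _ _)
          have hstop : s * c = 2 * d → ¬ PlusBlocks c s := fun h' => by
            obtain hsN' : s = N := Nat.eq_of_mul_eq_mul_right hc0 (by omega)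
            rw [hsN'] at h' ⊢
            exact htop h'
          obtain ⟨e', y', hey', -, hle', hpar', hy'⟩ := key a (hinv _) s (by rw [hasum])
            (Nat.mul_pos hs0 hc0) (by omega) hstop h
          rw [hy' hev ha1] at hey'
          rcases le_total ((r - 1) / c) N with htN | htN
          · have hst : s = (r - 1) / c := min_eq_left htN
            rw [hst] at hle'
            have h1 := Nat.mul_le_mul_right c (Nat.lt_of_not_le hcon)
            rw [Nat.succ_mul, Nat.add_mul, Nat.mul_assoc] at h1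
            omega
          · have hst : s = N := min_eq_right htN
            rw [hst] at hle' hpar'
            exact hbound e' hle' hpar' (by omega)
        refine ⟨him, ht, Or.inr ?_⟩
        rcases Nat.even_or_odd N with h' | h'
        · exact Or.inr ⟨by have := hpar ((hσ N).2 h'); omega, h'⟩
        · exact Or.inl ⟨by omega, h'⟩
    · rintro ⟨him, ht, hcases⟩ g hg
      set f : Module.End F (ι → F) := g.1.toLinearMap with hf
      have hfr : f ^ r = 1 := by rw [hf, ← OrthPlus.toLinearMap_pow, hg]; rfl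
      have hfQ : ∀ v, R (f v) = R v := fun v => g.2 v
      obtain ⟨A, hA⟩ := OrthTS.exists_moving_dim hQ hfQ hfr hr hr2 hi (c := c) (by rw [if_pos hev])
      have hker := plus_ker_iff hB hV hd hr hr2 hg hi (c := c) (by rw [if_pos hev]) hA
      rw [hσ, Nat.not_even_iff_odd] at hker
      have hsum := OrthTS.finrank_ker_add_range (f := f)
      rw [finrank_fintype_fun_eq_card, hd, hA] at hsum
      set e₀ := finrank F (LinearMap.ker (f - 1))
      set N := 2 * d / c
      have hAN : A ≤ N := (Nat.le_div_iff_mul_le hc0).2 (by omega)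
      set b := min (m / c) ((A + 1 - (r - 1) / c) / 2) with hbdef
      have hbm : b * c ≤ m / c * c := Nat.mul_le_mul_right c (min_le_left _ _)
      obtain ⟨X, hXM, hX, hXQ, hXd⟩ := OrthTS.exists_moving_singular hQ hfQ hfr hr hr2 hi (b := b)
        (Or.inr ⟨hev, A, hA, by omega⟩)
      -- the room left for the fixed part
      obtain ⟨D, hD⟩ : ∃ D, N = A + D := ⟨N - A, by omega⟩
      have hslack : 2 * (m - b * c) ≤ e₀ ∧ (Even A → 2 * (m - b * c) + 2 ≤ e₀) := by
        have hk0 : e₀ = 2 * d % c + D * c := by rw [hD, Nat.add_mul] at hndiv; omega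
        have hcev : c % 2 = 0 := Nat.even_iff.1 hev
        rcases le_total (m / c) ((A + 1 - (r - 1) / c) / 2) with hle | hle
        · have hb : b = m / c := min_eq_left hle
          rw [hb]
          rcases hcases with ⟨hl, h0, hevN, -⟩ | ⟨hl, hoddN⟩ | ⟨hl, hevN⟩
          · -- all blocks cannot be used
            have hD0 : 0 < D := by
              rcases Nat.eq_zero_or_pos D with rfl | h' <;> [skip; exact h']
              exfalso
              rw [add_zero] at hD
              refine Nat.not_odd_iff_even.2 hevN (hD ▸ hker.1 ?_)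
              exact OrthTypes.plus_of_finrank_zero (show e₀ = 0 by omega)
            refine ⟨by have := Nat.le_mul_of_pos_left c hD0; omega, fun heA => ?_⟩
            have hD2 : 2 ≤ D := by
              obtain ⟨u, hu⟩ := hevN; obtain ⟨v, hv⟩ := heA; omega
            have := Nat.mul_le_mul_right c hD2
            omega
          · refine ⟨by omega, fun heA => ?_⟩
            have hD1 : 0 < D := by
              obtain ⟨u, hu⟩ := hoddN; obtain ⟨v, hv⟩ := heA; omega
            have := Nat.le_mul_of_pos_left c hD1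
            omega
          · exact ⟨by omega, fun _ => by omega⟩
        · have hb : b = (A + 1 - (r - 1) / c) / 2 := min_eq_right hle
          rw [← hb] at hle
          have hAb : A ≤ 2 * b + (r - 1) / c := by omega
          obtain ⟨z, hz⟩ : ∃ z, m / c = b + z := ⟨m / c - b, by omega⟩
          -- `2 z ≤ D`
          have hzc : m - b * c = m % c + z * c := by rw [hz, Nat.add_mul] at hmm; omega
          rw [hzc]
          have h2z : 2 * z ≤ D := by omega
          have h2zc := Nat.mul_le_mul_right c h2z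
          rw [Nat.mul_assoc] at h2zc
          rcases hcases with ⟨hl, h0, hevN, hlt⟩ | ⟨hl, hoddN⟩ | ⟨hl, hevN⟩
          · have h2z1 := Nat.mul_le_mul_right c (show 2 * z + 1 ≤ D by omega)
            rw [Nat.succ_mul, Nat.mul_assoc] at h2z1
            refine ⟨by omega, fun heA => ?_⟩
            have h2z2 := Nat.mul_le_mul_right c (show 2 * z + 2 ≤ D by
              obtain ⟨u, hu⟩ := hevN; obtain ⟨v, hv⟩ := heA; omega)
            rw [Nat.add_mul, Nat.mul_assoc] at h2z2
            omega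
          · refine ⟨by omega, fun heA => ?_⟩
            have h2z1 := Nat.mul_le_mul_right c (show 2 * z + 1 ≤ D by
              obtain ⟨u, hu⟩ := hoddN; obtain ⟨v, hv⟩ := heA; omega)
            rw [Nat.succ_mul, Nat.mul_assoc] at h2z1
            omega
          · exact ⟨by omega, fun _ => by omega⟩
      obtain ⟨E, hE, hES, hEd⟩ := exists_singular_ker hB hr hg (e := m - b * c) (by
        rcases Nat.even_or_odd A with hAe | hAo
        · exact Or.inr (Or.inl (show 2 * (m - b * c) + 1 ≤ e₀ by have := hslack.2 hAe; omega))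
        · exact Or.inr (Or.inr ⟨hker.2 hAo, hslack.1⟩))
      obtain ⟨W, hWd, hWQ, hW⟩ := OrthTS.exists_glued hfQ hfr hr hE hES hXM hX hXQ
      exact ⟨W, ⟨by omega, hWQ⟩, fun v hv => hW ⟨v, hv, rfl⟩⟩
  · -- blocks of odd degree
    have hci : c = 2 * i := by rw [hc, if_neg (Nat.not_even_iff_odd.2 ho)]
    subst hci
    simp only [ho, Nat.not_even_iff_odd.2 ho, true_and, false_and, or_false]
    have hσ : ∀ x, PlusBlocks i x := fun x => Or.inl ho
    constructor
    · intro h
      rcases Nat.eq_zero_or_pos (2 * d % (2 * i)) with hk | hk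
      · exact ⟨hk0 ho hk, Or.inl hk⟩
      set J := 2 * d / (2 * i)
      let a : Φ.s → ℕ := fun j => (if j = f₀ then J else 0) + (if j = Φ.tau f₀ then J else 0)
      have hinv : ∀ j, a (Φ.tau j) = a j := fun j => by
        simp only [a, show Φ.tau j = f₀ ↔ j = Φ.tau f₀ from
          ⟨fun e => by rw [← e, Φ.tau_tau], fun e => by rw [e, Φ.tau_tau]⟩,
          show Φ.tau j = Φ.tau f₀ ↔ j = f₀ from ⟨fun e => by simpa [Φ.tau_tau] using congrArg Φ.tau e, fun e => by rw [e]⟩]
        exact add_comm _ _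
      have hsum : (∑ j, a j) * i = J * (2 * i) := by
        simp [a, Finset.sum_add_distrib]
        ring
      obtain ⟨e, y, hey, ⟨w, hw⟩, -, hle, -⟩ := key a hinv J hsum (Nat.mul_pos (Nat.div_pos hcd hc0) hc0)
        (by omega) (fun h' => absurd h' (by omega)) h
      have hle := hle (hσ J)
      rcases Nat.eq_zero_or_pos w with rfl | hw0
      · exfalso; rw [Nat.mul_zero] at hw; omega
      · have hl : e % i = m % i := by rw [hey, hw, Nat.add_mul_mod_self_left]
        have := Nat.mod_le e i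
        have := Nat.le_mul_of_pos_right i hw0
        exact ⟨by omega, Or.inr (by omega)⟩
    · rintro ⟨him, hl⟩ g hg
      set f : Module.End F (ι → F) := g.1.toLinearMap with hf
      have hfr : f ^ r = 1 := by rw [hf, ← OrthPlus.toLinearMap_pow, hg]; rfl
      have hfQ : ∀ v, R (f v) = R v := fun v => g.2 v
      obtain ⟨j, hj⟩ := OrthTS.exists_moving_dim hQ hfQ hfr hr hr2 hi hc
      have hker := plus_ker_iff hB hV hd hr hr2 hg hi hc hj
      have hne : finrank F (LinearMap.ker (f - 1)) ≠ 0 := fun h0 =>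
        hker.1 (OrthTypes.plus_of_finrank_zero h0) (hσ j)
      have hsum := OrthTS.finrank_ker_add_range (f := f)
      rw [finrank_fintype_fun_eq_card, hd, hj] at hsum
      set e₀ := finrank F (LinearMap.ker (f - 1))
      have hk : 2 * d % (2 * i) ≤ e₀ := by
        rw [← hsum, Nat.add_mul_mod_self_right]; exact Nat.mod_le _ _
      have hke : 2 * d % (2 * i) = 0 → 2 * i ≤ e₀ := fun h0 =>
        Nat.le_of_dvd (Nat.pos_of_ne_zero hne)
          ((Nat.dvd_add_left (dvd_mul_left (2 * i) j)).1 (hsum ▸ Nat.dvd_of_mod_eq_zero h0))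
      have e2 : j * (2 * i) = 2 * (j * i) := Nat.mul_left_comm _ _ _
      set b := min (m / i) j
      have hbm : b * i ≤ m / i * i := Nat.mul_le_mul_right i (min_le_left _ _)
      have hbj : b * i ≤ j * i := Nat.mul_le_mul_right i (min_le_right _ _)
      obtain ⟨X, hXM, hX, hXQ, hXd⟩ := OrthTS.exists_moving_singular hQ hfQ hfr hr hr2 hi (b := b)
        (Or.inl ⟨ho, by omega⟩)
      obtain ⟨E, hE, hES, hEd⟩ := exists_singular_ker hB hr hg (e := m - b * i) (by
        rcases le_total (m / i) j with hle | hle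
        · rw [show b = m / i from min_eq_left hle]
          refine Or.inr (Or.inl (show _ ≤ e₀ from ?_))
          rcases hl with h0 | h0
          · have := hke h0; omega
          · omega
        · rw [show b = j from min_eq_right hle]
          exact Or.inr (Or.inl (show _ ≤ e₀ by omega)))
      obtain ⟨W, hWd, hWQ, hW⟩ := OrthTS.exists_glued hfQ hfr hr hE hES hXM hX hXQ
      exact ⟨W, ⟨by omega, hWQ⟩, fun v hv => hW ⟨v, hv, rfl⟩⟩

/-- Involutions fix totally singular subspaces. -/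
theorem exists_fixed_involution (h2 : (2 : F) ≠ 0) {m : ℕ} (hmd : m < d) {g : OQ R}
    (hgg : ∀ v, g.1 (g.1 v) = v) : ∃ W, IsTS R m W ∧ ∀ v ∈ W, g.1 v ∈ W := by
  set f : Module.End F (ι → F) := g.1.toLinearMap
  obtain ⟨ho, hN, hN', hsup, hdis, hsum⟩ :=
    OrthTS.invol_split (f := f) h2 (polar_nondegenerate hB) (fun v => g.2 v) hgg
  rw [finrank_fintype_fun_eq_card, hd] at hsum
  set C := LinearMap.ker (f - 1)
  set C' := LinearMap.ker (f + 1)
  obtain ⟨E, hE, hES, X, hX, hXS, hdim⟩ : ∃ E ≤ C, (∀ v ∈ E, R v = 0) ∧ ∃ X ≤ C', (∀ v ∈ X, R v = 0) ∧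
      finrank F E + finrank F X = m := by
    rcases Nat.even_or_odd (finrank F C) with he | ho'
    · have hev := Nat.even_iff.1 he
      have he' : Even (finrank F C') := Nat.even_iff.2 (by omega)
      have ht := OrthTypes.plus_sup_iff hB hN hN' ho he he'
      rw [hsup] at ht
      by_cases hp : Cfsg.Geo.IsPlusTypeOn ⇑R C
      · obtain ⟨U, hU, hUS, hUd⟩ := hp
        obtain ⟨E, hE, hEd⟩ := OrthTS.exists_le_finrank U (e := min m (finrank F C / 2)) (by omega)
        obtain ⟨X, hX, hXS, hXd⟩ := OrthTS.exists_singular hN' (e := m - min m (finrank F C / 2)) (by omega)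
        exact ⟨E, hE.trans hU, fun v hv => hUS v (hE hv), X, hX, hXS, by omega⟩
      · have hp' : Cfsg.Geo.IsPlusTypeOn ⇑R C' := by
          by_contra hh
          exact hV (ht.2 (iff_of_false hp hh))
        obtain ⟨U, hU, hUS, hUd⟩ := hp'
        obtain ⟨X, hX, hXd⟩ := OrthTS.exists_le_finrank U (e := min m (finrank F C' / 2)) (by omega)
        obtain ⟨E, hE, hES, hEd⟩ := OrthTS.exists_singular hN (e := m - min m (finrank F C' / 2)) (by omega)
        exact ⟨E, hE, hES, X, hX.trans hU, fun v hv => hUS v (hX hv), by omega⟩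
    · have hodd := Nat.odd_iff.1 ho'
      obtain ⟨E, hE, hES, hEd⟩ := OrthTS.exists_singular hN (e := min m (finrank F C / 2)) (by omega)
      obtain ⟨X, hX, hXS, hXd⟩ := OrthTS.exists_singular hN' (e := m - min m (finrank F C / 2)) (by omega)
      exact ⟨E, hE, hES, X, hX, hXS, by omega⟩
  refine ⟨E ⊔ X, ⟨by rw [finrank_eq_add_of_disjoint rfl (hdis.mono hE hX), hdim],
    OrthTS.singular_sup hES hXS fun u hu v hv => ho u (hE hu) v (hX hv)⟩, fun v hv => ?_⟩
  obtain ⟨x, hx, y, hy, rfl⟩ := Submodule.mem_sup.1 hv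
  rw [map_add, show g.1 x = x from OrthElliptic.mem_fix.1 (hE hx),
    show g.1 y = -y from OrthTS.mem_ker_add_one.1 (hX hy)]
  exact Submodule.add_mem_sup hx (X.neg_mem hy)

/-- The criterion for involutions modulo scalars. -/
theorem two_iff (h2 : (2 : F) ≠ 0) (hq : Fintype.card F % 2 = 1) (hd2 : 2 ≤ d) {m : ℕ} (hmd : m < d)
    {L₀ : Submodule F (ι → F)} (hL₀ : ∀ v ∈ L₀, R v = 0) (hL₀d : m ≤ finrank F L₀ + 1)
    (hex : ¬ IsSquare (-1 : F) → Odd d → ∃ g : OQ R, ∀ v, g.1 (g.1 v) = -v) :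
    AllFixTS R m 2 ↔ (Even d ∨ Even m ∨ Fintype.card F % 8 ≠ 7) := by
  have hsq : IsSquare (-1 : F) ↔ Fintype.card F % 4 ≠ 3 := FiniteField.isSquare_neg_one_iff
  have hsq2 : IsSquare (2 : F) ↔ Fintype.card F % 8 ≠ 3 ∧ Fintype.card F % 8 ≠ 5 := FiniteField.isSquare_two_iff
  constructor
  · intro h
    by_contra hno
    push Not at hno
    obtain ⟨hde, hme, h8⟩ := hno
    have hns : ¬ IsSquare (-1 : F) := fun hs => hsq.1 hs (by omega)
    obtain ⟨g, hgg⟩ := hex hns (Nat.not_even_iff_odd.1 hde)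
    refine not_allFixTS hB (m := m) (by omega) ((OrthElliptic.mem_commutator_iff_sq_neg_one h2 hq hB hgg hd
      (Nat.not_even_iff_odd.1 hde)).2 (hsq2.2 (by omega))) (r := 2) (z := -1)
      (fun v => by rw [neg_one_smul, pow_two]; exact hgg v) (fun W ⟨hWd, _⟩ hW => hme ?_) h
    rw [← hWd]
    exact OrthTS.even_finrank_of_sq_neg hns (f := (g.1.toLinearMap : Module.End F (ι → F))) hgg hW
  · intro hcond
    refine allFixTS_of hB (by omega) fun g hgc z hz2 hgz _ => ?_
    rcases mul_self_eq_one_iff.1 hz2 with rfl | rfl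
    · exact exists_fixed_involution hB hV hd h2 hmd fun v => by
        have := hgz v; rwa [pow_two, one_smul] at this
    · have hff : ∀ v, g.1 (g.1 v) = -v := fun v => by
        have := hgz v; rwa [pow_two, neg_one_smul] at this
      have htop : finrank F (⊤ : Submodule F (ι → F)) = 2 * d := by
        rw [finrank_top, finrank_fintype_fun_eq_card, hd]
      have hns : ¬ IsSquare (-1 : F) := fun hs => hV (OrthElliptic.plus_of_sq_neg_one h2 hs hff (fun _ _ => trivial)
        (OrthElliptic.nonDegOn_top hB) (htop ▸ even_two_mul _))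
      have hde : ¬ Even d := fun he => hV ((OrthElliptic.plus_iff_of_sq_neg_one h2 hq hns hB hff d ⊤
        (fun _ _ => trivial) (OrthElliptic.nonDegOn_top hB) htop).2 he)
      rcases hcond.resolve_left hde with hme | h8
      · obtain ⟨k, hk⟩ := hme
        obtain ⟨W, hW, hWS, hWd⟩ := OrthTS.exists_complex_singular (f := (g.1.toLinearMap : Module.End F (ι → F))) h2
          hns (polar_nondegenerate hB) (fun v => g.2 v) hff hL₀ k (by omega)
        exact ⟨W, ⟨by omega, hWS⟩, hW⟩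
      · rw [hsq] at hns
        have := hsq2.1 ((OrthElliptic.mem_commutator_iff_sq_neg_one h2 hq hB hff hd
          (Nat.not_even_iff_odd.1 hde)).1 hgc)
        omega

end generic

variable {F : Type*} [Field F] [Fintype F] {n : ℕ} {a b : F}

local notation "Idx" => (Fin n ⊕ Fin n) ⊕ Fin 2

theorem minus_coe : Cfsg.quadFormMinus n F a b = ⇑(minusQF n a b) :=
  funext fun v => (Cfsg.Agent.Classical.minusQF_apply n a b v).symm

theorem card_idx : Fintype.card Idx = 2 * (n + 1) := by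
  rw [Fintype.card_sum, Fintype.card_sum, Fintype.card_fin, Fintype.card_fin]; omega

/-- The standard totally singular subspace of dimension `n`. -/
theorem exists_half_minus : ∃ L : Submodule F (Idx → F), (∀ v ∈ L, minusQF n a b v = 0) ∧ finrank F L = n := by
  let G : (Fin n → F) →ₗ[F] (Idx → F) :=
    Function.ExtendByZero.linearMap F (Sum.inl ∘ Sum.inl)
  have hinj : Function.Injective (Sum.inl ∘ Sum.inl : Fin n → Idx) := Sum.inl_injective.comp Sum.inl_injective
  refine ⟨LinearMap.range G, ?_, ?_⟩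
  · rintro _ ⟨x, rfl⟩
    have h1 : ∀ t, G x (Sum.inr t) = 0 := fun t => Function.extend_apply' _ _ _ (by rintro ⟨s, hs⟩; exact Sum.inl_ne_inr hs)
    have h2 : ∀ t, G x (Sum.inl (Sum.inr t)) = 0 := fun t => Function.extend_apply' _ _ _ (by
      rintro ⟨s, hs⟩; exact Sum.inl_ne_inr (Sum.inl_injective hs))
    rw [minusQF_apply, Cfsg.quadFormMinus]
    simp [h1, h2]
  · rw [LinearMap.finrank_range_of_inj fun x y h => funext fun k => by
      have := congrFun h (Sum.inl (Sum.inl k))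
      exact (hinj.extend_apply x 0 k).symm.trans (this.trans (hinj.extend_apply y 0 k)), Module.finrank_fin_fun]

/-- A prime dividing the number of totally singular subspaces. -/
theorem dvd_card_minus (hab : BinaryAniso a b) {m r : ℕ} [Fact r.Prime] (hmn : m ≤ n)
    (h : r ∣ Nat.card {W : Submodule F (Idx → F) // finrank F W = m ∧ ∀ w ∈ W, minusQF n a b w = 0}) :
    ¬ r ∣ Fintype.card F ∧ ∃ j, n < j + m ∧ j ≤ n ∧ 0 < j ∧
      (r ∣ Fintype.card F ^ j - 1 ∨ r ∣ Fintype.card F ^ (j + 1) + 1) := by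
  have hr := (Fact.out : r.Prime)
  have key := OrthTS.card_spaces_hypExt (minusQF n a b) (qNondeg_of_anisotropic (anisotropic_binQF hab)) hmn
    (minusEquiv n) (minusEquiv_spec n a b)
  have h' := (h.mul_right _).trans (dvd_of_eq key)
  obtain ⟨k, hk, hk'⟩ := (Prime.dvd_finsetProd_iff hr.prime _).1 h'
  rw [Finset.mem_range] at hk
  obtain ⟨j, hj⟩ : ∃ j, n - k = j := ⟨_, rfl⟩
  have hq1 := Fintype.one_lt_card (α := F)
  have hz : Nat.card {x // hypExt (n - k) (binQF a b) x = 0} - 1 =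
      (Fintype.card F ^ j - 1) * (Fintype.card F ^ (j + 1) + 1) := by
    rw [hj]
    have h1 := card_zeros_hypExt_minus j (anisotropic_binQF hab)
    rw [Nat.card_eq_fintype_card (α := F)] at h1
    have h2 : Fintype.card F ^ (2 * j + 1) = Fintype.card F ^ j * Fintype.card F ^ (j + 1) := by
      rw [← pow_add]; ring_nf
    have h3 : (Fintype.card F ^ j - 1) * (Fintype.card F ^ (j + 1) + 1) =
        Fintype.card F ^ j * Fintype.card F ^ (j + 1) + Fintype.card F ^ j - (Fintype.card F ^ (j + 1) + 1) := by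
      rw [Nat.sub_mul, one_mul, mul_add, mul_one]
    omega
  rw [hz] at hk'
  refine ⟨fun hq => ?_, j, by omega, by omega, by omega, hr.dvd_mul.1 hk'⟩
  rcases hr.dvd_mul.1 hk' with h1 | h1
  · have h2 := Nat.dvd_sub (dvd_pow hq (show j ≠ 0 by omega)) h1
    rw [Nat.sub_sub_self (Nat.one_le_pow _ _ Fintype.card_pos)] at h2
    exact hr.ne_one (Nat.dvd_one.1 h2)
  · exact hr.ne_one (Nat.dvd_one.1 ((Nat.dvd_add_right (dvd_pow hq (Nat.succ_ne_zero j))).1 h1))

/-- The consequences of the divisibility for `k = n mod c`. -/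
theorem minus_count_facts {m r : ℕ} [Fact r.Prime] (hr2 : r ≠ 2) {i c : ℕ} (hi0 : 0 < i)
    (hi : i = orderOf ((Fintype.card F : ℕ) : ZMod r)) (hc : c = if Even i then i else 2 * i)
    {j : ℕ} (hj₁ : n < j + m) (hj₂ : j ≤ n) (hj0 : 0 < j)
    (hj₃ : r ∣ Fintype.card F ^ j - 1 ∨ r ∣ Fintype.card F ^ (j + 1) + 1) :
    c ≤ 2 * (n + 1) ∧ 2 * (n + 1) % c ≤ 2 * m ∧ (Odd i → 2 * (n + 1) % c = 0 → i ≤ m) ∧
      (2 * (n + 1) % c = 2 * m → Even i → Even (2 * (n + 1) / c)) ∧
      (Even i → 2 * (n + 1) % c = 0 → Even (2 * (n + 1) / c) → i < 2 * m ∧ 2 ≤ 2 * (n + 1) / c) := by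
  have hc0 : 0 < c := by rw [hc]; split_ifs <;> omega
  -- `2 (n + 1)` splits as a short piece plus a multiple of `c`
  obtain ⟨s, u, hs, hsm, hu0, hpar⟩ : ∃ s u, 2 * (n + 1) = 2 * s + u * c ∧ s ≤ m ∧ 0 < u ∧
      ((Even i ∧ Odd u ∧ s < m) ∨ ((Odd i ∨ Even u) ∧ 0 < s)) := by
    rcases hj₃ with h | h
    · rw [← ZMod.natCast_eq_zero_iff, Nat.cast_sub (Nat.one_le_pow _ _ Fintype.card_pos), Nat.cast_pow,
        Nat.cast_one, sub_eq_zero, ← orderOf_dvd_iff_pow_eq_one, ← hi] at h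
      obtain ⟨v, rfl⟩ := h
      have hv0 : 0 < v := Nat.pos_of_mul_pos_left hj0
      rcases Nat.even_or_odd i with he | ho
      · refine ⟨n + 1 - i * v, 2 * v, ?_, by omega, by omega, Or.inr ⟨Or.inr (even_two_mul v), by omega⟩⟩
        rw [hc, if_pos he, mul_assoc, mul_comm v i]; omega
      · refine ⟨n + 1 - i * v, v, ?_, by omega, hv0, Or.inr ⟨Or.inl ho, by omega⟩⟩
        rw [hc, if_neg (Nat.not_even_iff_odd.2 ho), mul_left_comm, mul_comm v i]; omega
    · rw [← ZMod.natCast_eq_zero_iff, Nat.cast_add, Nat.cast_pow, Nat.cast_one, add_eq_zero_iff_eq_neg] at h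
      have hne : ((Fintype.card F : ZMod r)) ^ (j + 1) ≠ 1 := by
        rw [h]
        intro h1
        have h2 : ((2 : ℕ) : ZMod r) = 0 := by push_cast; linear_combination -h1
        rw [ZMod.natCast_eq_zero_iff] at h2
        exact hr2 ((Nat.prime_dvd_prime_iff_eq Fact.out Nat.prime_two).1 h2)
      have hd2 : i ∣ 2 * (j + 1) := by
        rw [hi, orderOf_dvd_iff_pow_eq_one, mul_comm, pow_mul, h]; simp
      have hnd : ¬ i ∣ j + 1 := fun h1 => hne (by rw [← orderOf_dvd_iff_pow_eq_one, ← hi]; exact h1)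
      have he : Even i := Nat.not_odd_iff_even.1 fun ho =>
        hnd ((Nat.coprime_two_right.2 ho).dvd_of_dvd_mul_left hd2)
      obtain ⟨u, hu⟩ := hd2
      have huo : Odd u := Nat.not_even_iff_odd.1 fun ⟨v, hv⟩ => hnd ⟨v, by rw [hv, Nat.mul_add i] at hu; omega⟩
      refine ⟨n - j, u, ?_, by omega, huo.pos, Or.inl ⟨he, huo, by omega⟩⟩
      rw [hc, if_pos he, mul_comm u i, ← hu]; omega
  have hk : 2 * (n + 1) % c = 2 * s % c := by rw [hs, Nat.add_mul_mod_self_right]
  have hdiv : 2 * (n + 1) / c = 2 * s / c + u := by rw [hs, Nat.add_mul_div_right _ _ hc0]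
  have hle := Nat.mod_le (2 * s) c
  have hlt := Nat.mod_lt (2 * s) hc0
  have huc := Nat.le_mul_of_pos_left c hu0
  have hdm := Nat.div_add_mod' (2 * s) c
  refine ⟨by omega, by omega, fun ho h0 => ?_, fun h he => ?_, fun he h0 hN => ?_⟩
  · obtain ⟨-, hs0⟩ := hpar.resolve_left fun h => Nat.not_even_iff_odd.2 ho h.1
    have hq0 : 1 ≤ 2 * s / c := Nat.pos_of_ne_zero fun h' => by rw [h'] at hdm; omega
    have := Nat.mul_le_mul_right c hq0
    rw [if_neg (Nat.not_even_iff_odd.2 ho)] at hc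
    omega
  · obtain ⟨heu, -⟩ := hpar.resolve_left (by rintro ⟨-, -, h'⟩; omega)
    rw [hdiv, Nat.div_eq_of_lt (by omega), zero_add]
    exact heu.resolve_left (Nat.not_odd_iff_even.2 he)
  · rw [if_pos he] at hc
    subst hc
    rw [hk] at h0
    rw [hdiv] at hN ⊢
    rw [h0, add_zero] at hdm
    rcases hpar with ⟨-, huo, hsm'⟩ | ⟨heu, hs0⟩
    · have hodd : Odd (2 * s / c) := (Nat.even_add'.1 hN).2 huo
      have := Nat.mul_le_mul_right c (show 1 ≤ 2 * s / c from hodd.pos)
      exact ⟨by omega, by have := hodd.pos; omega⟩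
    · have heu := heu.resolve_left (Nat.not_odd_iff_even.2 he)
      have heq : Even (2 * s / c) := (Nat.even_add.1 hN).2 heu
      have hq0 : 2 ≤ 2 * s / c := by
        obtain ⟨w, hw⟩ := heq
        rcases Nat.eq_zero_or_pos w with rfl | hw0
        · rw [hw] at hdm; omega
        · omega
      have := Nat.mul_le_mul_right c hq0
      exact ⟨by omega, by omega⟩

/-- The criterion. -/
theorem main {p : ℕ} [Fact p.Prime] [CharP F p] (hab : BinaryAniso a b) {m : ℕ} (hn : 3 ≤ n)
    (hmn : m + 1 ≤ n + 1) {r : ℕ} [Fact r.Prime]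
    (hrΩ : r ∣ Nat.card {W : Submodule F (Idx → F) // finrank F ↥W = m ∧
      Cfsg.Geo.IsTotallySingularQuad (Cfsg.quadFormMinus n F a b) W}) {i c : ℕ}
    (hi : i = orderOf ((Fintype.card F : ℕ) : ZMod r)) (hc : c = if Even i then i else 2 * i) :
    (∀ x : GL Idx F, x ∈ Cfsg.Geo.omegaGL (Cfsg.quadFormMinus n F a b) →
      (∃ z : F, ((x ^ r : GL Idx F) : Matrix Idx Idx F) = z • (1 : Matrix Idx Idx F)) →
      (∀ z : F, (x : Matrix Idx Idx F) ≠ z • (1 : Matrix Idx Idx F)) →
      ∃ W : Submodule F (Idx → F), (finrank F ↥W = m ∧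
        Cfsg.Geo.IsTotallySingularQuad (Cfsg.quadFormMinus n F a b) W) ∧
        W.map (Matrix.toLin' (x : Matrix Idx Idx F)) ≤ W) ↔
    ((r = 2 ∧ p ≠ 2 ∧ (Even (n + 1) ∨ Even m ∨ Fintype.card F % 8 ≠ 7)) ∨
     (r ≠ p ∧ 2 < r ∧ Odd i ∧ i ≤ m ∧ ((2 * (n + 1)) % c = 0 ∨ 2 * (m % i) < (2 * (n + 1)) % c)) ∨
     (r ≠ p ∧ 2 < r ∧ Even i ∧ i ≤ m ∧ (r - 1) / i + 2 * (m / i) ≤ (2 * (n + 1)) / i ∧
       ((2 * (m % i) ≤ i ∧ (2 * (n + 1)) % c = 0 ∧ Even ((2 * (n + 1)) / i) ∧
          (r - 1) / i + 2 * (m / i) < (2 * (n + 1)) / i) ∨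
        (2 * (m % i) ≤ (2 * (n + 1)) % c ∧ Odd ((2 * (n + 1)) / i)) ∨
        (2 * (m % i) < (2 * (n + 1)) % c ∧ Even ((2 * (n + 1)) / i))))) := by
  classical
  rw [minus_coe] at hrΩ ⊢
  show AllFixTS (minusQF n a b) m r ↔ _
  have hrP : r.Prime := Fact.out
  obtain ⟨hr, j, hj₁, hj₂, hj0, hj₃⟩ := dvd_card_minus hab (show m ≤ n by omega) hrΩ
  obtain ⟨e, he0, he⟩ := FiniteField.card F p
  have hrp : r ≠ p := by
    rintro rfl
    exact hr (by rw [he]; exact dvd_pow_self r e.pos.ne')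
  have hB : BNondeg (minusQF n a b) := OrthTypes.bNondeg_minus n hab
  have hV : ¬ Cfsg.Geo.IsPlusTypeOn ⇑(minusQF n a b) (⊤ : Submodule F (Idx → F)) := by
    have h := (OrthTypes.range_minus (R := minusQF n a b) hab LinearMap.id fun _ => rfl).2.2
    rwa [LinearMap.range_id] at h
  rcases eq_or_ne r 2 with rfl | hr2
  · have hp2 : p ≠ 2 := fun h => hrp h.symm
    have hq : Fintype.card F % 2 = 1 := by
      rw [Nat.dvd_iff_mod_eq_zero] at hr; omega
    have h2 : (2 : F) ≠ 0 := Agent.Classical.two_ne_zero_of_odd (by rw [Nat.card_eq_fintype_card]; exact Nat.odd_iff.2 hq)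
    obtain ⟨L₀, hL₀, hL₀d⟩ := exists_half_minus (F := F) (n := n) (a := a) (b := b)
    rw [two_iff hB hV card_idx h2 hq (by omega) (m := m) (by omega) hL₀ (by omega) fun hns hodd =>
      OrthElliptic.exists_sq_neg_one_minus h2 hq hns
        (by rw [Nat.odd_add_one, Nat.not_odd_iff_even] at hodd; exact hodd) hab]
    refine ⟨fun h => Or.inl ⟨rfl, hp2, h⟩, ?_⟩
    rintro (⟨-, -, h⟩ | ⟨-, h, -⟩ | ⟨-, h, -⟩)
    · exact h
    · omega
    · omega
  have h2r : 2 < r := lt_of_le_of_ne hrP.two_le (Ne.symm hr2)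
  have hi0 : 0 < i := hi ▸ orderOf_pos_of_not_dvd hr
  obtain ⟨hcd, hkm, hk0, hkeq, hexc⟩ := minus_count_facts (n := n) (m := m) hr2 hi0 hi hc hj₁ hj₂ hj0 hj₃
  rw [allFixTS_iff_odd hB (by rw [card_idx]; omega) (m := m) (by rw [card_idx]; omega) hr2,
    odd_prime_iff (p := p) hB hV card_idx (by omega) hr hr2 hrp hi hc hcd hkm hk0 hkeq hexc]
  constructor
  · rintro (h | h)
    · exact Or.inr (Or.inl ⟨hrp, h2r, h⟩)
    · exact Or.inr (Or.inr ⟨hrp, h2r, h⟩)
  · rintro (⟨h, -⟩ | ⟨-, -, h⟩ | ⟨-, -, h⟩)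
    · exact absurd h hr2
    · exact Or.inl h
    · exact Or.inr h

/-- Elements of prime order of PΩ⁻_n(q) with no fixed totally singular `m`-space. Here `T = PΩ⁻_n(F)`, `n = 2d ≥ 8`, realised through `Ω⁻_n(q)`, the commutator subgroup of the isometry group of `Q = Σ_{i<d−1} xᵢyᵢ + z₁² + a z₁z₂ + b z₂²` with `z₁² + a z₁z₂ + b z₂²` anisotropic, over the field `F` with `q` elements; an element of `T` of prime order `r` is an element `x` of `Ω⁻_n(q)` with `x^r` scalar and `x` not scalar. Let `1 ≤ m ≤ d − 1` and let `r` be a prime dividing the number of totally singular `m`-spaces (subspaces of dimension `m` on which `Q` vanishes); for `r ≠ p` let `i` be the multiplicative order of `q` modulo `r`, `c = i` for `i` even and `c = 2i` for `i` odd, and write `k = n mod c`, `ℓ = m mod i`, `n' = ⌊n/i⌋`, `m' = ⌊m/i⌋`, `t = (r−1)/i`. Then every element of `T` of order `r` fixes some totally singular `m`-space if and only if one of: (i) `r = 2 ≠ p` and (`n ≡ 0 (mod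 4)`, or `m` is even, or `q ≢ 7 (mod 8)`); (ii) `r ≠ p` odd, `i` odd, `i ≤ m` and (`k = 0` or `k > 2ℓ`); (iii) `r ≠ p` odd, `i` even, `i ≤ m`, `n' − 2m' ≥ t`, and one of: (a) `i ≥ 2ℓ`, `k = 0`, `n/i` even and `n' − 2m' > t` (all four); (b) `k ≥ 2ℓ` and `n'` odd; (c) `k > 2ℓ` and `n'` even. -/
theorem result {F : Type*} [Field F] [Fintype F] {p : ℕ} [Fact p.Prime] [CharP F p] {q : ℕ} (hq : Fintype.card F = q)
    (d m : ℕ) (hd : 4 ≤ d) (hm : 1 ≤ m) (hmd : m + 1 ≤ d) (a b : F) (hab : ∀ x y : F, x ^ 2 + a * x * y + b * y ^ 2 = 0 → x = 0 ∧ y = 0)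
    (r : ℕ) [Fact r.Prime]
    (hrΩ : r ∣ Nat.card {W : Submodule F ((Fin (d - 1) ⊕ Fin (d - 1)) ⊕ Fin 2 → F) // Module.finrank F ↥W = m ∧ Cfsg.Geo.IsTotallySingularQuad (Cfsg.quadFormMinus (d - 1) F a b) W})
    (i c : ℕ) (hi : i = orderOf (q : ZMod r)) (hc : c = if Even i then i else 2 * i) :
    (∀ x : GL ((Fin (d - 1) ⊕ Fin (d - 1)) ⊕ Fin 2) F, x ∈ Cfsg.Geo.omegaGL (Cfsg.quadFormMinus (d - 1) F a b) →
      (∃ z : F, ((x ^ r : GL ((Fin (d - 1) ⊕ Fin (d - 1)) ⊕ Fin 2) F) : Matrix ((Fin (d - 1) ⊕ Fin (d - 1)) ⊕ Fin 2) ((Fin (d - 1) ⊕ Fin (d - 1)) ⊕ Fin 2) F) = z • (1 : Matrix ((Fin (d - 1) ⊕ Fin (d - 1)) ⊕ Fin 2) ((Fin (d - 1) ⊕ Fin (d - 1)) ⊕ Fin 2) F)) →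
      (∀ z : F, (x : Matrix ((Fin (d - 1) ⊕ Fin (d - 1)) ⊕ Fin 2) ((Fin (d - 1) ⊕ Fin (d - 1)) ⊕ Fin 2) F) ≠ z • (1 : Matrix ((Fin (d - 1) ⊕ Fin (d - 1)) ⊕ Fin 2) ((Fin (d - 1) ⊕ Fin (d - 1)) ⊕ Fin 2) F)) →
      ∃ W : Submodule F ((Fin (d - 1) ⊕ Fin (d - 1)) ⊕ Fin 2 → F), (Module.finrank F ↥W = m ∧ Cfsg.Geo.IsTotallySingularQuad (Cfsg.quadFormMinus (d - 1) F a b) W) ∧ W.map (Matrix.toLin' (x : Matrix ((Fin (d - 1) ⊕ Fin (d - 1)) ⊕ Fin 2) ((Fin (d - 1) ⊕ Fin (d - 1)) ⊕ Fin 2) F)) ≤ W) ↔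
    ((r = 2 ∧ p ≠ 2 ∧ (Even d ∨ Even m ∨ q % 8 ≠ 7)) ∨
     (r ≠ p ∧ 2 < r ∧ Odd i ∧ i ≤ m ∧ ((2 * d) % c = 0 ∨ 2 * (m % i) < (2 * d) % c)) ∨
     (r ≠ p ∧ 2 < r ∧ Even i ∧ i ≤ m ∧ (r - 1) / i + 2 * (m / i) ≤ (2 * d) / i ∧
       ((2 * (m % i) ≤ i ∧ (2 * d) % c = 0 ∧ Even ((2 * d) / i) ∧ (r - 1) / i + 2 * (m / i) < (2 * d) / i) ∨
        (2 * (m % i) ≤ (2 * d) % c ∧ Odd ((2 * d) / i)) ∨
        (2 * (m % i) < (2 * d) % c ∧ Even ((2 * d) / i))))) := by
  subst hq
  obtain ⟨n, rfl⟩ : ∃ n, d = n + 1 := ⟨d - 1, by omega⟩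
  exact main (p := p) (n := n) hab (by omega) hmd hrΩ hi hc

end Cfsg.Agent.S5987
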