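import Cfsg.Statements.S5988
import Cfsg.Agent.Elusive.OrthEllipticTwo

set_option autoImplicit false
open scoped MatrixGroups
open Cfsg

namespace Cfsg.Agent.S5988
open Module QuadraticMap Matrix Cfsg.Agent.Classical Cfsg.Agent.Forms Cfsg.Agent.Elusive Cfsg.Agent.Elusive.OrthElliptic

variable {F : Type*} [Field F] [Fintype F] {d : ℕ}

local notation "Idx" => Fin d ⊕ Fin d

theorem plus_coe : Cfsg.quadFormPlus d F = ⇑(plusQF d F) :=
  funext fun v => (Cfsg.Agent.Classical.plusQF_apply d v).symm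

theorem card_idx : Fintype.card Idx = 2 * d := by rw [Fintype.card_sum, Fintype.card_fin]; omega

theorem plus_top : Cfsg.Geo.IsPlusTypeOn ⇑(plusQF d F) (⊤ : Submodule F (Idx → F)) :=
  OrthMax.plus_of_ts le_top totallySingular_ker_inr.1
    (by rw [finrank_top, finrank_fintype_fun_eq_card, card_idx]; exact even_two_mul d)
    (by rw [finrank_top, finrank_fintype_fun_eq_card, card_idx, totallySingular_ker_inr.2.1])

/-- A unipotent element fixing no elliptic subspace. -/
theorem not_allFix_unipotent {p : ℕ} [Fact p.Prime] [CharP F p] (hd : 4 ≤ d) {m : ℕ} (hm : 2 ≤ m) (hme : Even m)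
    (hmd : m < d) : ¬ AllFix (plusQF d F) m p := by
  classical
  set t := d / 2
  let N₀ : Matrix (Fin d) (Fin d) F := Matrix.of fun a b => if (a : ℕ) < t ∧ (b : ℕ) = (a : ℕ) + t then 1 else 0
  have hNN : N₀ * N₀ = 0 := by
    ext a b
    rw [Matrix.mul_apply, Matrix.zero_apply]
    refine Finset.sum_eq_zero fun j _ => ?_
    simp only [N₀, Matrix.of_apply]
    split_ifs with h1 h2 <;> first | omega | simp
  let A : GL (Fin d) F := ⟨1 + N₀, 1 - N₀, by noncomm_ring [hNN], by noncomm_ring [hNN]⟩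
  have hA : (A : Matrix (Fin d) (Fin d) F) = 1 + N₀ := rfl
  have hAi : ((A⁻¹ : GL (Fin d) F) : Matrix (Fin d) (Fin d) F) = 1 - N₀ := rfl
  have hdet : (A : Matrix (Fin d) (Fin d) F).det = 1 := by
    rw [hA, Matrix.det_of_isUpperTriangular (fun a b (hab : b < a) => ?_)]
    · refine Finset.prod_eq_one fun a _ => ?_
      simp only [N₀, Matrix.add_apply, Matrix.one_apply_eq, Matrix.of_apply]
      rw [if_neg (by omega), add_zero]
    · simp only [N₀, Matrix.add_apply, Matrix.one_apply_ne (ne_of_gt hab), Matrix.of_apply]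
      rw [if_neg (by rw [Fin.lt_def] at hab; omega), add_zero]
  have hAp : A ^ p = 1 := by
    have h : ∀ k : ℕ, (1 + N₀) ^ k = 1 + (k : F) • N₀ := by
      intro k
      induction k with
      | zero => simp
      | succ k ih =>
        rw [pow_succ, ih, add_mul, one_mul, mul_add, mul_one, smul_mul_assoc, hNN, smul_zero, add_zero,
          Nat.cast_succ, add_smul, one_smul]
        abel
    refine Units.ext ?_
    rw [Units.val_pow_eq_pow_val, hA, h, CharP.cast_eq_zero, zero_smul, add_zero]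
    rfl
  set R := plusQF d F
  set g : OQ R := levi A
  have hg : g ∈ commutator (OQ R) :=
    (isSquare_det_of_levi (Or.inr (by omega)) (by omega) A).2.2 (hdet ▸ IsSquare.one)
  set N : Module.End F (Idx → F) := (g.1.toLinearMap : Module.End F (Idx → F)) - 1
  have hN : ∀ v, N v = Sum.elim (N₀ *ᵥ (v ∘ Sum.inl)) (-(N₀ᵀ *ᵥ (v ∘ Sum.inr))) := fun v => by
    show g.1 v - v = _
    rw [levi_apply, leviMat_mulVec, hA, hAi, Matrix.transpose_sub, Matrix.transpose_one, Matrix.add_mulVec,
      Matrix.sub_mulVec, Matrix.one_mulVec, Matrix.one_mulVec]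
    ext (a | a) <;> simp
  have hRN : ∀ v, R (N v) = 0 := fun v => by
    rw [hN, plusQF_eq_dot, Sum.elim_comp_inl, Sum.elim_comp_inr, dotProduct_neg, Matrix.dotProduct_mulVec,
      Matrix.vecMul_transpose, Matrix.mulVec_mulVec, hNN, Matrix.zero_mulVec, zero_dotProduct, neg_zero]
  have hrank : 2 * t ≤ finrank F (LinearMap.range N) := by
    let E : Fin t ⊕ Fin t → Idx :=
      Sum.map (fun a => ⟨(a : ℕ) + t, by omega⟩) fun a => ⟨a, by omega⟩
    let ψ := N ∘ₗ Function.ExtendByZero.linearMap F E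
    have hE : Function.Injective E := Sum.map_injective.2
      ⟨fun a b h => Fin.ext (by simpa using congrArg Fin.val h), fun a b h => Fin.ext (congrArg Fin.val h :)⟩
    have hψ : Function.Injective ψ := by
      refine (injective_iff_map_eq_zero _).2 fun x hx => funext fun s => ?_
      have hx' : N (Function.extend E x 0) = 0 := hx
      rw [hN] at hx'
      rcases s with a | a
      · have h := congrFun hx' (Sum.inl ⟨a, by omega⟩)
        rw [Sum.elim_inl, Matrix.mulVec, dotProduct, Finset.sum_eq_single (⟨(a : ℕ) + t, by omega⟩ : Fin d)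
          (fun b _ hb => by
            simp only [N₀, Matrix.of_apply]
            rw [if_neg (fun h' => hb (Fin.ext h'.2)), zero_mul])
          (fun h' => absurd (Finset.mem_univ _) h')] at h
        simp only [N₀, Matrix.of_apply, Function.comp_apply, Fin.is_lt, and_self, if_true, one_mul, Pi.zero_apply] at h
        exact (hE.extend_apply x 0 (Sum.inl a)).symm.trans h
      · have h := congrFun hx' (Sum.inr ⟨(a : ℕ) + t, by omega⟩)
        rw [Sum.elim_inr, Pi.neg_apply, Pi.zero_apply, neg_eq_zero, Matrix.mulVec, dotProduct,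
          Finset.sum_eq_single (⟨a, by omega⟩ : Fin d) (fun b _ hb => by
            simp only [N₀, Matrix.of_apply, Matrix.transpose_apply]
            rw [if_neg (fun h' => hb (Fin.ext (by have := h'.2; simp only at this ⊢; omega))), zero_mul])
          (fun h' => absurd (Finset.mem_univ _) h')] at h
        simp only [N₀, Matrix.of_apply, Matrix.transpose_apply, Function.comp_apply, Fin.is_lt, and_self, if_true,
          one_mul] at h
        exact (hE.extend_apply x 0 (Sum.inr a)).symm.trans h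
    refine le_trans (le_of_eq ?_) (Submodule.finrank_mono (LinearMap.range_comp_le_range _ _ :
      LinearMap.range ψ ≤ LinearMap.range N))
    rw [LinearMap.finrank_range_of_inj hψ, finrank_fintype_fun_eq_card, Fintype.card_sum, Fintype.card_fin]
    omega
  refine not_allFix bNondeg_plusQF (by rw [card_idx]; exact even_two_mul d) hm hme (by rw [card_idx]; omega) hg
    (r := p) (z := 1) (fun v => by rw [← map_pow, hAp, map_one, one_smul]; rfl) fun W ⟨hWd, hWn, hWm⟩ hW => ?_
  have hWN := OrthTypes.nondeg_iff.1 hWn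
  set P := LinearMap.BilinForm.orthogonal R.polarBilin W
  have hP : ∀ v ∈ P, g.1 v ∈ P :=
    orthogonal_invariant (f := (g.1.toLinearMap : Module.End F (Idx → F))) (fun u v => OQ_polar g u v)
      g.1.injective hW
  have hcpl : IsCompl W P := OrthTypes.isCompl_orth hWN
  have hsum := Submodule.finrank_add_eq_of_isCompl hcpl
  rw [finrank_fintype_fun_eq_card, card_idx, hWd] at hsum
  have hiso : ∀ {U : Submodule F (Idx → F)}, IsoOn R.polarBilin (U.map N) := fun {U} => by
    rintro _ ⟨x, -, rfl⟩ _ ⟨y, -, rfl⟩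
    rw [polarBilin_apply_apply, polar, ← map_add, hRN, hRN, hRN, sub_zero, sub_zero]
  have hinto : ∀ {U : Submodule F (Idx → F)}, (∀ v ∈ U, g.1 v ∈ U) → U.map N ≤ U := fun {U} hU => by
    rintro _ ⟨x, hx, rfl⟩; exact sub_mem (hU x hx) hx
  have hts : ∀ {U : Submodule F (Idx → F)}, ∀ x ∈ U.map N, R x = 0 := fun {U} => by
    rintro _ ⟨x, -, rfl⟩; exact hRN x
  have h1 := two_mul_finrank_le (hinto hW) hWN hiso
  have h2 := two_mul_finrank_le (hinto hP) (OrthTypes.nonDegOn_orth bNondeg_plusQF hWN) hiso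
  have hne1 : 2 * finrank F (W.map N) ≠ m := fun h =>
    hWm (OrthMax.plus_of_ts (hinto hW) hts (hWd ▸ hme) (by omega))
  have hne2 : 2 * finrank F (P.map N) ≠ finrank F P := fun h => by
    have hPp : Cfsg.Geo.IsPlusTypeOn ⇑R P := OrthMax.plus_of_ts (hinto hP) hts
      (by rw [← h]; exact even_two_mul _) h.ge
    rw [OrthTypes.plus_orth_iff bNondeg_plusQF hWN (hWd ▸ hme) (by rw [card_idx]; exact even_two_mul d)] at hPp
    exact hWm (hPp.1 plus_top)
  have hrange : finrank F (LinearMap.range N) ≤ finrank F (W.map N) + finrank F (P.map N) := by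
    rw [LinearMap.range_eq_map, ← hcpl.sup_eq_top, Submodule.map_sup]
    exact Submodule.finrank_add_le_finrank_add_finrank _ _
  have hmev := Nat.even_iff.1 hme
  omega

/-- The conditions for odd primes different from the characteristic, as arithmetic. -/
theorem opt_iff {i c m : ℕ} (hi : 0 < i) (hc : c = if Even i then i else 2 * i) (hm : 0 < m) (hmd : m < d)
    {s : Prop} (hs : s) :
    (∀ j, Valid i c (2 * d) s j → Opt i c (2 * d) m s j) ↔
      ((Odd i ∧ 0 < m % c ∧ m % c < 2 * d % c) ∨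
       (Even i ∧ ((2 * d % c = 0 ∧ (Odd (2 * d / c) ∨ (m % c = 0 ∧ Odd (m / c)))) ∨
        (0 < 2 * d % c ∧ ((0 < m % c ∧ m % c < 2 * d % c) ∨ (m % c = 2 * d % c ∧ Odd (2 * d / c + m / c)) ∨
          (m % c = 0 ∧ Odd (m / c))))))) := by
  obtain rfl : s = True := eq_true hs
  have hc0 : 0 < c := by rw [hc]; split_ifs <;> omega
  have hn := Nat.div_add_mod (2 * d) c
  have hmm := Nat.div_add_mod m c
  have hk := Nat.mod_lt (2 * d) hc0
  have hl := Nat.mod_lt m hc0
  rw [mul_comm] at hn hmm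
  set J := 2 * d / c
  set k := 2 * d % c
  set M := m / c
  set l := m % c with hldef
  clear_value J k M l
  constructor
  · intro h
    by_cases hiev : Even i
    swap
    · have hod : Odd i := Nat.not_even_iff_odd.1 hiev
      obtain ⟨e, j', -, hem, hen, he0, hetop⟩ := h J ⟨by omega, fun _ => iff_of_true trivial (Or.inl hod)⟩
      have hpos : 0 < e := Nat.pos_of_ne_zero fun h0 => he0 h0 (Or.inl hod)
      have hlt : e + J * c ≠ 2 * d := fun h' =>
        hetop hpos h' (iff_of_true (iff_of_true trivial (Or.inl hod)) (Or.inl hod))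
      have hel : e = l := by
        rw [hldef, ← hem, Nat.add_mul_mod_self_right, Nat.mod_eq_of_lt (by omega)]
      exact Or.inl ⟨hod, by omega, by omega⟩
    · refine Or.inr ⟨hiev, ?_⟩
      have hσ : ∀ x, PlusBlocks i x ↔ Even x := fun x =>
        ⟨fun h' => h'.resolve_left (Nat.not_odd_iff_even.2 hiev), Or.inr⟩
      by_cases hex : k = 0 ∧ Odd J
      · exact Or.inl ⟨hex.1, Or.inl hex.2⟩
      obtain ⟨e, j', -, hem, hen, he0, hetop⟩ := h J ⟨by omega, fun h' => iff_of_true trivial ((hσ J).2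
        (Nat.not_odd_iff_even.1 fun hJ => hex ⟨by omega, hJ⟩))⟩
      have hel : e = l := by
        rw [hldef, ← hem, Nat.add_mul_mod_self_right, Nat.mod_eq_of_lt (by omega)]
      obtain rfl : j' = M := Nat.eq_of_mul_eq_mul_right hc0 (by omega)
      simp only [hσ, true_iff, Nat.not_even_iff_odd] at he0 hetop
      rcases Nat.eq_zero_or_pos k with hk0 | hk0
      · exact Or.inl ⟨hk0, Or.inr ⟨by omega, he0 (by omega)⟩⟩
      · refine Or.inr ⟨hk0, ?_⟩
        rcases Nat.eq_zero_or_pos l with h' | h'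
        · exact Or.inr (Or.inr ⟨h', he0 (by omega)⟩)
        rcases (show l ≤ k by omega).eq_or_lt with h'' | h''
        · refine Or.inr (Or.inl ⟨h'', ?_⟩)
          have := hetop (by omega) (by omega)
          rw [Nat.odd_add]
          constructor
          · intro hJ
            by_contra hM
            exact this (iff_of_false (Nat.not_even_iff_odd.2 hJ) hM)
          · intro hM
            by_contra hJ
            exact this (iff_of_true (Nat.not_odd_iff_even.1 hJ) hM)
        · exact Or.inl ⟨h', h''⟩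
  · intro hR j ⟨hj, hjv⟩
    by_cases hjM : M ≤ j
    swap
    · have h1 : (j + 1) * c ≤ M * c := Nat.mul_le_mul_right c (by omega)
      rw [add_mul, one_mul] at h1
      exact ⟨m - j * c, j, le_rfl, by omega, by omega, fun h => absurd h (by omega), fun _ h => absurd h (by omega)⟩
    have hjJ : j ≤ J := by
      by_contra hJ
      have h1 : (J + 1) * c ≤ j * c := Nat.mul_le_mul_right c (by omega)
      rw [add_mul, one_mul] at h1
      omega
    rcases hjJ.eq_or_lt with hjeq | hlt
    · subst hjeq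
      rcases hR with ⟨hod, h1, h2⟩ | ⟨hev, hR⟩
      · exact ⟨l, M, hjM, by omega, by omega, fun h => absurd h (by omega), fun _ h => absurd h (by omega)⟩
      have hσ : ∀ x, PlusBlocks i x ↔ Even x := fun x =>
        ⟨fun h' => h'.resolve_left (Nat.not_odd_iff_even.2 hev), Or.inr⟩
      refine ⟨l, M, hjM, by omega, ?_, fun h => ?_, fun h0 htop => ?_⟩
      · rcases hR with ⟨hk0, hJ | h⟩ | ⟨hk0, h | h | h⟩
        · exact absurd ((hσ j).1 ((hjv (by omega)).1 trivial)) (Nat.not_even_iff_odd.2 hJ)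
        all_goals omega
      · rw [hσ, Nat.not_even_iff_odd]
        rcases hR with ⟨hk0, hJ | h'⟩ | ⟨hk0, h' | h' | h'⟩
        · exact absurd ((hσ j).1 ((hjv (by omega)).1 trivial)) (Nat.not_even_iff_odd.2 hJ)
        · exact h'.2
        · omega
        · omega
        · exact h'.2
      · rw [hσ, hσ, true_iff]
        rcases hR with ⟨hk0, hJ | h'⟩ | ⟨hk0, h' | ⟨h', hpar⟩ | h'⟩
        · exact absurd ((hσ j).1 ((hjv (by omega)).1 trivial)) (Nat.not_even_iff_odd.2 hJ)
        · omega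
        · omega
        · intro hiff
          rw [Nat.odd_add, ← Nat.not_even_iff_odd, hiff] at hpar
          tauto
        · omega
    · have h1 : (j + 1) * c ≤ J * c := Nat.mul_le_mul_right c hlt
      rw [add_mul, one_mul] at h1
      rcases Nat.eq_zero_or_pos l with hl0 | hl0
      swap
      · exact ⟨l, M, hjM, by omega, by omega, fun h => absurd h (by omega), fun _ h => absurd h (by omega)⟩
      by_cases hM : PlusBlocks i M
      swap
      · exact ⟨l, M, hjM, by omega, by omega, fun _ => hM, fun h => absurd h (by omega)⟩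
      obtain ⟨M', hM'⟩ : ∃ M', M = M' + 1 := ⟨M - 1, by
        have : M ≠ 0 := fun h => by rw [h, zero_mul] at hmm; omega
        omega⟩
      have hMc : M * c = M' * c + c := by rw [hM', add_mul, one_mul]
      refine ⟨c, M', by omega, by omega, by omega, fun h => absurd h hc0.ne', fun _ htop => ?_⟩
      rcases hR with ⟨-, h, -⟩ | ⟨hev, hR⟩
      · omega
      have hσ : ∀ x, PlusBlocks i x ↔ Even x := fun x =>
        ⟨fun h' => h'.resolve_left (Nat.not_odd_iff_even.2 hev), Or.inr⟩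
      rw [hσ] at hM
      have hJj : J = j + 1 := Nat.eq_of_mul_eq_mul_right hc0 (by rw [add_mul, one_mul]; omega)
      rw [hσ, hσ, true_iff]
      rcases hR with ⟨-, hJ | h⟩ | ⟨hk0, -⟩
      · intro hiff
        rw [hJj, Nat.odd_add_one, Nat.not_odd_iff_even] at hJ
        rw [hM', Nat.even_add_one] at hM
        exact hM (hiff.1 hJ)
      · exact absurd hM (Nat.not_even_iff_odd.2 h.2)
      · omega

/-- The number of elliptic subspaces excludes small dimensions. -/
theorem not_small (hd : 4 ≤ d) {m : ℕ} (hm : 2 ≤ m) (hme : Even m) (hmd : m < d) {r : ℕ} [Fact r.Prime]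
    (hr : ¬ r ∣ Fintype.card F) {i c : ℕ} (hi : i = orderOf ((Fintype.card F : ℕ) : ZMod r))
    (hc : c = if Even i then i else 2 * i)
    (hrΩ : r ∣ Nat.card {W : Submodule F (Idx → F) // IsEll (plusQF d F) m W}) :
    ¬ (m < c ∧ (m < 2 * d % c ∨ (m = 2 * d % c ∧ Even i ∧ Odd (2 * d / c)))) := by
  classical
  rintro ⟨hmc, hcase⟩
  have hmev := Nat.even_iff.1 hme
  have hVe : Even (Fintype.card Idx) := by rw [card_idx]; exact even_two_mul d
  set R := plusQF d F
  have hB : BNondeg R := bNondeg_plusQF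
  obtain ⟨W₀, hW₀⟩ := exists_isEll hB hVe hm hme (by rw [card_idx]; omega)
  obtain ⟨z, hz⟩ := exists_card_eq hB hVe hme hW₀
  obtain ⟨hW₀d, hW₀n, hW₀m⟩ := hW₀
  have hWN := OrthTypes.nondeg_iff.1 hW₀n
  set P := LinearMap.BilinForm.orthogonal R.polarBilin W₀
  have hPd : finrank F P = 2 * (d - m / 2 - 1 + 1) := by
    have := Submodule.finrank_add_eq_of_isCompl (OrthTypes.isCompl_orth hWN)
    rw [finrank_fintype_fun_eq_card, card_idx, hW₀d] at this
    change m + finrank F P = 2 * d at this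
    omega
  have hPm : ¬ Cfsg.Geo.IsPlusTypeOn ⇑R P := fun h => by
    rw [OrthTypes.plus_orth_iff hB hWN (hW₀d ▸ hme) hVe] at h
    exact hW₀m (h.1 plus_top)
  obtain ⟨-, a, b, hab, e, he⟩ := (OrthTypes.exists_model (OrthTypes.nonDegOn_orth hB hWN) hPd).resolve_left
    fun h => hPm h.1
  obtain ⟨D, rfl⟩ : ∃ D, d = D + 1 := ⟨d - 1, by omega⟩
  rw [Nat.card_congr (OQCongr (Q := R.comp P.subtype) (e.trans (minusEquiv _)) (fun w => by
      rw [LinearEquiv.trans_apply, minusEquiv_spec]; exact (he w).symm)).toEquiv,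
    card_OQ_minus (anisotropic_binQF hab), Nat.card_congr (OQCongr (Q := R) (plusEquiv (D + 1)) (plusEquiv_spec (D + 1))).toEquiv,
    card_OQ_plus, Nat.card_eq_fintype_card (α := F)] at hz
  set q := Fintype.card F
  set H := D + 1 - m / 2 - 1 with hHdef
  have hord : ∀ t, r ∣ q ^ t - 1 → i ∣ t := fun t ht => by
    rw [← ZMod.natCast_eq_zero_iff, Nat.cast_sub (Nat.one_le_pow _ _ Fintype.card_pos), Nat.cast_pow, Nat.cast_one,
      sub_eq_zero] at ht
    exact hi ▸ orderOf_dvd_of_pow_eq_one ht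
  have hc2 : ∀ t, i ∣ 2 * t → c ∣ 2 * t := fun t ht => by
    rw [hc]
    split_ifs with he'
    · exact ht
    · exact Nat.mul_dvd_mul_left 2 ((Nat.Coprime.dvd_of_dvd_mul_left
        (Nat.coprime_two_right.2 (Nat.not_even_iff_odd.1 he')) ht))
  have hdm := Nat.div_add_mod (2 * (D + 1)) c
  have hk := Nat.mod_lt (2 * (D + 1)) (show 0 < c by omega)
  rcases OrthElliptic.dvd_ratio (D := D) (H := H) (E := q ^ (H + 1) + 1) (A := q ^ (H + 1) - 1) Fintype.one_lt_card hr
    hrΩ (Nat.succ_pos _) (by rw [mul_comm 2, pow_mul, ← Nat.sq_sub_sq, one_pow]) (by omega) hz with h | h | h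
  · have := Nat.mod_eq_zero_of_dvd (hc2 (D + 1) (dvd_mul_of_dvd_right (hord _ h) 2))
    omega
  · obtain ⟨t, ht⟩ := hord _ h
    rcases hcase with hlt | ⟨heq, hev, hJ⟩
    · obtain ⟨u, hu⟩ := hc2 (H + 1) (dvd_mul_of_dvd_right ⟨t, ht⟩ 2)
      have h1 : c * (2 * (D + 1) / c) < c * u := by omega
      have h2 : c * u < c * (2 * (D + 1) / c + 1) := by rw [Nat.mul_succ]; omega
      have := Nat.lt_of_mul_lt_mul_left h1
      have := Nat.lt_of_mul_lt_mul_left h2
      omega
    · rw [if_pos hev] at hc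
      subst hc
      have h2 : c * (2 * (D + 1) / c) = c * (2 * t) := by rw [Nat.mul_left_comm]; omega
      exact Nat.not_even_iff_odd.2 hJ ⟨t, by rw [Nat.eq_of_mul_eq_mul_left (show 0 < c by omega) h2, two_mul]⟩
  · obtain ⟨l, hl1, hl2, hl⟩ := h
    obtain ⟨u, hu⟩ := hc2 (l + 1) (hord _ hl)
    have h1 : c * (2 * (D + 1) / c) < c * u := by omega
    have h2 : c * u < c * (2 * (D + 1) / c + 1) := by rw [Nat.mul_succ]; omega
    have := Nat.lt_of_mul_lt_mul_left h1
    have := Nat.lt_of_mul_lt_mul_left h2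
    omega

/-- The criterion. -/
theorem iff_main {p : ℕ} [Fact p.Prime] [CharP F p] {m : ℕ} (hd : 4 ≤ d) (hm : 2 ≤ m) (hme : Even m) (hmd : m < d)
    {r : ℕ} [Fact r.Prime] (hrΩ : r ∣ Nat.card {W : Submodule F (Idx → F) // IsEll (plusQF d F) m W}) {i c : ℕ}
    (hi : i = orderOf ((Fintype.card F : ℕ) : ZMod r)) (hc : c = if Even i then i else 2 * i) :
    AllFix (plusQF d F) m r ↔
    ((r = 2 ∧ p ≠ 2 ∧ ((Even d ∧ Fintype.card F % 4 = 3 ∧ m % 4 = 2) ∨ (Odd d ∧ Fintype.card F % 8 ≠ 1))) ∨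
     (r ≠ p ∧ 2 < r ∧ Odd i ∧ c ≤ m ∧ 0 < m % c ∧ m % c < (2 * d) % c) ∨
     (r ≠ p ∧ 2 < r ∧ Even i ∧
       (((2 * d) % c = 0 ∧ (Odd ((2 * d) / i) ∨ (m % c = 0 ∧ Odd (m / i)))) ∨
        (i ≤ m ∧ ((0 < m % c ∧ m % c < (2 * d) % c) ∨
                  (0 < m % c ∧ m % c = (2 * d) % c ∧ Odd ((2 * d + m - 2 * ((2 * d) % c)) / i)) ∨
                  (m % c = 0 ∧ 0 < (2 * d) % c ∧ Odd (m / i))))))) := by
  classical
  have hrp : r.Prime := Fact.out
  have hmev := Nat.even_iff.1 hme
  have hVe : Even (Fintype.card Idx) := by rw [card_idx]; exact even_two_mul d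
  have hmn : m < Fintype.card Idx := by rw [card_idx]; omega
  have hB : BNondeg (plusQF d F) := bNondeg_plusQF
  rcases eq_or_ne r p with rfl | hrp'
  · refine iff_of_false (not_allFix_unipotent hd hm hme hmd) ?_
    rintro (⟨h, h', -⟩ | ⟨h, -⟩ | ⟨h, -⟩)
    · exact h' h
    · exact h rfl
    · exact h rfl
  obtain ⟨nF, -, hcard⟩ := FiniteField.card F p
  have hr : ¬ r ∣ Fintype.card F := fun h' =>
    hrp' ((Nat.prime_dvd_prime_iff_eq hrp Fact.out).1 (hrp.dvd_of_dvd_pow (hcard ▸ h')))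
  rcases eq_or_ne r 2 with rfl | hr2
  · have hq : Fintype.card F % 2 = 1 := by
      rw [Nat.dvd_iff_mod_eq_zero] at hr; omega
    have h2 : (2 : F) ≠ 0 := Agent.Classical.two_ne_zero_of_odd (by rw [Nat.card_eq_fintype_card]; exact Nat.odd_iff.2 hq)
    have hsq : IsSquare (-1 : F) ↔ Fintype.card F % 4 ≠ 3 := FiniteField.isSquare_neg_one_iff
    constructor
    · intro h
      refine Or.inl ⟨rfl, hrp'.symm, ?_⟩
      by_contra hno
      obtain ⟨g, hg, hgg⟩ := OrthPlus.exists_sq_neg_one (show 2 ≤ d by omega) h2 (by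
        rcases Nat.even_or_odd d with he | ho
        · exact Or.inl he
        · exact Or.inr (not_not.1 fun h8 => hno (Or.inr ⟨ho, h8⟩)))
      refine not_allFix hB hVe hm hme hmn hg (r := 2) (z := -1) (fun v => by rw [neg_one_smul, pow_two]; exact hgg v)
        (fun W ⟨hWd, hWn, hWm⟩ hW => hWm ?_) h
      have hWN := OrthTypes.nondeg_iff.1 hWn
      by_cases hι : IsSquare (-1 : F)
      · exact plus_of_sq_neg_one h2 hι hgg hW hWN (hWd ▸ hme)
      · refine (plus_iff_of_sq_neg_one h2 hq hι hB hgg (m / 2) W hW hWN (by omega)).2 ?_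
        rw [hsq, not_not] at hι
        rw [Nat.even_iff]
        by_contra hodd
        rcases Nat.even_or_odd d with he | ho
        · exact hno (Or.inl ⟨he, hι, by omega⟩)
        · exact hno (Or.inr ⟨ho, by omega⟩)
    · intro hR
      obtain ⟨-, -, hcond⟩ : 2 = 2 ∧ p ≠ 2 ∧
          ((Even d ∧ Fintype.card F % 4 = 3 ∧ m % 4 = 2) ∨ (Odd d ∧ Fintype.card F % 8 ≠ 1)) := by
        rcases hR with h | ⟨-, h, -⟩ | ⟨-, h, -⟩
        · exact h
        · omega
        · omega
      refine allFix_of hB (by rw [card_idx]; omega) fun g hgc z hz2 hgz hns => ?_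
      rcases mul_self_eq_one_iff.1 hz2 with rfl | rfl
      · refine exists_fixed_involution h2 hB hVe hm hme hmn (fun v => ?_) ?_ ?_
        · have := hgz v; rwa [pow_two, one_smul] at this
        · obtain ⟨v, hv⟩ := hns 1; exact ⟨v, by rwa [one_smul] at hv⟩
        · obtain ⟨v, hv⟩ := hns (-1); exact ⟨v, by rwa [neg_one_smul] at hv⟩
      · have hff : ∀ v, g.1 (g.1 v) = -v := fun v => by
          have := hgz v; rwa [pow_two, neg_one_smul] at this
        rcases hcond with ⟨-, h4, hm4⟩ | ⟨hodd, h8⟩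
        · obtain ⟨W, hW, hinv⟩ := exists_fixed_sq_neg_one (k := m / 2) h2 hq (fun h => hsq.1 h h4) hB hff
            (Nat.odd_iff.2 (by omega)) (by rw [card_idx]; omega)
          rw [show 2 * (m / 2) = m by omega] at hW
          exact ⟨W, hW, hinv⟩
        · exact absurd hff (OrthPlus.no_sq_neg_one (show 2 ≤ d by omega) h2 hodd h8 hgc)
  have h2r : 2 < r := lt_of_le_of_ne hrp.two_le (Ne.symm hr2)
  have hi0 : 0 < i := hi ▸ orderOf_pos_of_not_dvd hr
  rw [allFix_iff hB hVe (by rw [card_idx]; omega) hm hme hmn hr hr2 hi hc, card_idx,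
    opt_iff hi0 hc (by omega) hmd plus_top]
  have hsmall := not_small hd hm hme hmd hr hi hc hrΩ
  rcases Nat.even_or_odd i with hev | hod
  · rw [if_pos hev] at hc
    subst hc
    have hno : ¬ Odd c := Nat.not_odd_iff_even.2 hev
    have hpar : m % c = 2 * d % c →
        (2 * d + m - 2 * (2 * d % c)) / c = 2 * d / c + m / c := fun hl => by
      have h1 := Nat.div_add_mod (2 * d) c
      have h2 := Nat.div_add_mod m c
      rw [show 2 * d + m - 2 * (2 * d % c) = c * (2 * d / c + m / c) by rw [mul_add]; omega, Nat.mul_div_cancel_left _ hi0]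
    simp only [hno, hev, false_and, false_or, true_and, and_false, ne_eq, hrp', not_false_eq_true, h2r, hr2]
    constructor
    · rintro (h | ⟨hk, hl | ⟨hl, hpar'⟩ | hl⟩)
      · exact Or.inl h
      · refine Or.inr ⟨?_, Or.inl hl⟩
        by_contra hlt
        exact hsmall ⟨by omega, Or.inl (by rw [Nat.mod_eq_of_lt (show m < c by omega)] at hl; exact hl.2)⟩
      · refine Or.inr ⟨?_, Or.inr (Or.inl ⟨by omega, hl, by rw [hpar hl]; exact hpar'⟩)⟩
        by_contra hlt
        rw [Nat.div_eq_of_lt (show m < c by omega), add_zero] at hpar'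
        rw [Nat.mod_eq_of_lt (show m < c by omega)] at hl
        exact hsmall ⟨by omega, Or.inr ⟨hl, hev, hpar'⟩⟩
      · refine Or.inr ⟨?_, Or.inr (Or.inr ⟨hl.1, hk, hl.2⟩)⟩
        by_contra hlt
        rw [Nat.div_eq_of_lt (show m < c by omega)] at hl
        exact Nat.not_odd_zero hl.2
    · rintro (h | ⟨-, hl | ⟨hl0, hl, hpar'⟩ | ⟨hl, hk, hM⟩⟩)
      · exact Or.inl h
      · exact Or.inr ⟨by omega, Or.inl hl⟩
      · exact Or.inr ⟨by omega, Or.inr (Or.inl ⟨hl, by rw [← hpar hl]; exact hpar'⟩)⟩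
      · exact Or.inr ⟨hk, Or.inr (Or.inr ⟨hl, hM⟩)⟩
  · have hne : ¬ Even i := Nat.not_even_iff_odd.2 hod
    simp only [hne, hod, false_and, or_false, true_and, and_false, ne_eq, hrp', not_false_eq_true, h2r, hr2, false_or]
    refine ⟨fun hl => ⟨?_, hl⟩, fun h => h.2⟩
    by_contra hlt
    exact hsmall ⟨by omega, Or.inl (by rw [Nat.mod_eq_of_lt (show m < c by omega)] at hl; exact hl.2)⟩

/-- Elements of prime order of PΩ⁺_n(q) with no fixed elliptic `m`-space. Here `T = PΩ⁺_n(F)`, `n = 2d ≥ 8`, realised through `Ω⁺_n(q)`, the commutator subgroup of the isometry group of `Q = Σ xᵢyᵢ` over the field `F` with `q` elements; an element of `T` of prime order `r` is an element `x` of `Ω⁺_n(q)` with `x^r` scalar and `x` not scalar; a nondegenerate `m`-space (even `m`) is a subspace on which the polar form of `Q` is nondegenerate; it is hyperbolic if it contains an `m/2`-dimensional subspace on which `Q` vanishes, elliptic otherwise. Let `m` be even with `2 ≤ m < n/2` and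 let `r` be a prime dividing the number of elliptic `m`-spaces; for `r ≠ p` let `i` be the multiplicative order of `q` modulo `r`, `c = i` for `i` even and `c = 2i` for `i` odd, and write `k = n mod c`, `ℓ = m mod i`, `ℓ' = m mod c`, `n' = ⌊n/i⌋`, `m' = ⌊m/i⌋`, `t = (r−1)/i`. Then every element of `T` of order `r` fixes some elliptic `m`-space if and only if one of: (i) `r = 2 ≠ p` and either `n ≡ 0 (mod 4)`, `q ≡ 3 (mod 4)` and `m ≡ 2 (mod 4)`, or `n ≡ 2 (mod 4)` and `q ≢ 1 (mod 8)`; (ii) `r ≠ p` odd, `i` odd, `c ≤ m` and `k > ℓ' > 0`; (iii) `r ≠ p` odd, `i` even, and either `k = 0` and (`n/i` odd, or `ℓ' = 0` and `m/i` odd), or `i ≤ m` and (`k > ℓ' > 0`, or `k = ℓ' > 0` and `(n + m − 2k)/i` odd, or `k > ℓ' = 0` and `m/i` odd). (For `r = p` there is always an element of order `p` fixing no elliptic `m`-space.) -/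
theorem result {F : Type*} [Field F] [Fintype F] {p : ℕ} [Fact p.Prime] [CharP F p] {q : ℕ} (hq : Fintype.card F = q)
    (d m : ℕ) (hd : 4 ≤ d) (hm : 2 ≤ m) (hme : Even m) (hmd : m < d)
    (r : ℕ) [Fact r.Prime]
    (hrΩ : r ∣ Nat.card {W : Submodule F (Fin d ⊕ Fin d → F) // Module.finrank F ↥W = m ∧ Cfsg.Geo.IsNondegenerateOn (QuadraticMap.polar (Cfsg.quadFormPlus d F)) W ∧ ¬ Cfsg.Geo.IsPlusTypeOn (Cfsg.quadFormPlus d F) W})
    (i c : ℕ) (hi : i = orderOf (q : ZMod r)) (hc : c = if Even i then i else 2 * i) :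
    (∀ x : GL (Fin d ⊕ Fin d) F, x ∈ Cfsg.Geo.omegaGL (Cfsg.quadFormPlus d F) →
      (∃ z : F, ((x ^ r : GL (Fin d ⊕ Fin d) F) : Matrix (Fin d ⊕ Fin d) (Fin d ⊕ Fin d) F) = z • (1 : Matrix (Fin d ⊕ Fin d) (Fin d ⊕ Fin d) F)) →
      (∀ z : F, (x : Matrix (Fin d ⊕ Fin d) (Fin d ⊕ Fin d) F) ≠ z • (1 : Matrix (Fin d ⊕ Fin d) (Fin d ⊕ Fin d) F)) →
      ∃ W : Submodule F (Fin d ⊕ Fin d → F), (Module.finrank F ↥W = m ∧ Cfsg.Geo.IsNondegenerateOn (QuadraticMap.polar (Cfsg.quadFormPlus d F)) W ∧ ¬ Cfsg.Geo.IsPlusTypeOn (Cfsg.quadFormPlus d F) W) ∧ W.map (Matrix.toLin' (x : Matrix (Fin d ⊕ Fin d) (Fin d ⊕ Fin d) F)) ≤ W) ↔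
    ((r = 2 ∧ p ≠ 2 ∧ ((Even d ∧ q % 4 = 3 ∧ m % 4 = 2) ∨ (Odd d ∧ q % 8 ≠ 1))) ∨
     (r ≠ p ∧ 2 < r ∧ Odd i ∧ c ≤ m ∧ 0 < m % c ∧ m % c < (2 * d) % c) ∨
     (r ≠ p ∧ 2 < r ∧ Even i ∧
       (((2 * d) % c = 0 ∧ (Odd ((2 * d) / i) ∨ (m % c = 0 ∧ Odd (m / i)))) ∨
        (i ≤ m ∧ ((0 < m % c ∧ m % c < (2 * d) % c) ∨
                  (0 < m % c ∧ m % c = (2 * d) % c ∧ Odd ((2 * d + m - 2 * ((2 * d) % c)) / i)) ∨
                  (m % c = 0 ∧ 0 < (2 * d) % c ∧ Odd (m / i))))))) := by
  subst hq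
  rw [plus_coe] at hrΩ ⊢
  exact iff_main (p := p) hd hm hme hmd hrΩ hi hc

end Cfsg.Agent.S5988
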