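import Cfsg.Statements.S5990
import Cfsg.Agent.Elusive.OrthEllipticTwo
import Cfsg.Agent.Elusive.OrthEllipticNegOne
import Cfsg.Agent.Elusive.OrthEllipticEven
import Cfsg.Agent.Elusive.OrthEllipticUnip

set_option autoImplicit false
open scoped MatrixGroups
open Cfsg

namespace Cfsg.Agent.S5990
open Module QuadraticMap Matrix Cfsg.Agent.Classical Cfsg.Agent.Forms Cfsg.Agent.Elusive Cfsg.Agent.Elusive.OrthElliptic

variable {F : Type*} [Field F] [Fintype F] {n : ℕ} {a b : F}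

local notation "Idx" => (Fin n ⊕ Fin n) ⊕ Fin 2

theorem minus_coe : Cfsg.quadFormMinus n F a b = ⇑(minusQF n a b) :=
  funext fun v => (Cfsg.Agent.Classical.minusQF_apply n a b v).symm

theorem card_idx : Fintype.card Idx = 2 * (n + 1) := by
  rw [Fintype.card_sum, Fintype.card_sum, Fintype.card_fin, Fintype.card_fin]; omega

theorem not_plus_top (hab : BinaryAniso a b) :
    ¬ Cfsg.Geo.IsPlusTypeOn ⇑(minusQF n a b) (⊤ : Submodule F (Idx → F)) := by
  have h := (OrthTypes.range_minus (R := minusQF n a b) hab LinearMap.id fun _ => rfl).2.2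
  rwa [LinearMap.range_id] at h

/-- The conditions for odd primes different from the characteristic, as arithmetic. -/
theorem opt_iff {d i c m : ℕ} (hi : 0 < i) (hc : c = if Even i then i else 2 * i) (hm : 0 < m) (hmd : m < 2 * d)
    {s : Prop} (hs : ¬ s) :
    (∀ j, Valid i c (2 * d) s j → Opt i c (2 * d) m s j) ↔
      ((Odd i ∧ (2 * d % c = 0 ∨ (0 < m % c ∧ m % c ≤ 2 * d % c))) ∨
       (Even i ∧ ((2 * d % c = 0 ∧ (Even (2 * d / c) ∨ (m % c = 0 ∧ Odd (m / c)))) ∨
        (0 < 2 * d % c ∧ ((0 < m % c ∧ m % c < 2 * d % c) ∨ (m % c = 2 * d % c ∧ Even (2 * d / c + m / c)) ∨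
          (m % c = 0 ∧ Odd (m / c))))))) := by
  obtain rfl : s = False := eq_false hs
  have hc0 : 0 < c := by rw [hc]; split_ifs <;> omega
  have hn := Nat.div_add_mod (2 * d) c
  have hmm := Nat.div_add_mod m c
  have hk := Nat.mod_lt (2 * d) hc0
  have hl := Nat.mod_lt m hc0
  rw [mul_comm] at hn hmm
  set J := 2 * d / c
  set k := 2 * d % c
  set M := m / c
  set l := m % c with hldef
  clear_value J k M l
  constructor
  · intro h
    by_cases hiev : Even i
    swap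
    · have hod : Odd i := Nat.not_even_iff_odd.1 hiev
      refine Or.inl ⟨hod, ?_⟩
      rcases Nat.eq_zero_or_pos k with hk0 | hk0
      · exact Or.inl hk0
      obtain ⟨e, j', -, hem, hen, he0, -⟩ := h J ⟨by omega, fun h' => absurd h' (by omega)⟩
      have hpos : 0 < e := Nat.pos_of_ne_zero fun h0 => he0 h0 (Or.inl hod)
      have hel : e = l := by
        rw [hldef, ← hem, Nat.add_mul_mod_self_right, Nat.mod_eq_of_lt (by omega)]
      exact Or.inr ⟨by omega, by omega⟩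
    · refine Or.inr ⟨hiev, ?_⟩
      have hσ : ∀ x, PlusBlocks i x ↔ Even x := fun x =>
        ⟨fun h' => h'.resolve_left (Nat.not_odd_iff_even.2 hiev), Or.inr⟩
      by_cases hex : k = 0 ∧ Even J
      · exact Or.inl ⟨hex.1, Or.inl hex.2⟩
      obtain ⟨e, j', -, hem, hen, he0, hetop⟩ := h J ⟨by omega, fun h' => iff_of_false id fun hb =>
        hex ⟨by omega, (hσ J).1 hb⟩⟩
      have hel : e = l := by
        rw [hldef, ← hem, Nat.add_mul_mod_self_right, Nat.mod_eq_of_lt (by omega)]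
      obtain rfl : j' = M := Nat.eq_of_mul_eq_mul_right hc0 (by omega)
      simp only [hσ, false_iff, Nat.not_even_iff_odd] at he0 hetop
      rcases Nat.eq_zero_or_pos k with hk0 | hk0
      · exact Or.inl ⟨hk0, Or.inr ⟨by omega, he0 (by omega)⟩⟩
      · refine Or.inr ⟨hk0, ?_⟩
        rcases Nat.eq_zero_or_pos l with h' | h'
        · exact Or.inr (Or.inr ⟨h', he0 (by omega)⟩)
        rcases (show l ≤ k by omega).eq_or_lt with h'' | h''
        · refine Or.inr (Or.inl ⟨h'', ?_⟩)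
          have := hetop (by omega) (by omega)
          rw [Nat.even_add]
          rw [← Nat.not_even_iff_odd] at this
          tauto
        · exact Or.inl ⟨h', h''⟩
  · intro hR j ⟨hj, hjv⟩
    by_cases hjM : M ≤ j
    swap
    · have h1 : (j + 1) * c ≤ M * c := Nat.mul_le_mul_right c (by omega)
      rw [add_mul, one_mul] at h1
      exact ⟨m - j * c, j, le_rfl, by omega, by omega, fun h => absurd h (by omega), fun _ h => absurd h (by omega)⟩
    have hjJ : j ≤ J := by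
      by_contra hJ
      have h1 : (J + 1) * c ≤ j * c := Nat.mul_le_mul_right c (by omega)
      rw [add_mul, one_mul] at h1
      omega
    rcases hjJ.eq_or_lt with hjeq | hlt
    · subst hjeq
      rcases hR with ⟨hod, h⟩ | ⟨hev, hR⟩
      · rcases h with hk0 | ⟨h1, h2⟩
        · exact ((hjv (by omega)).2 (Or.inl hod)).elim
        · exact ⟨l, M, hjM, by omega, by omega, fun h => absurd h (by omega),
            fun _ _ hh => (hh.2 (Or.inl hod)).2 (Or.inl hod)⟩
      have hσ : ∀ x, PlusBlocks i x ↔ Even x := fun x =>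
        ⟨fun h' => h'.resolve_left (Nat.not_odd_iff_even.2 hev), Or.inr⟩
      refine ⟨l, M, hjM, by omega, ?_, fun h => ?_, fun h0 htop => ?_⟩
      · rcases hR with ⟨hk0, hJ | h⟩ | ⟨hk0, h | h | h⟩
        · exact ((hjv (by omega)).2 ((hσ j).2 hJ)).elim
        all_goals omega
      · rw [hσ, Nat.not_even_iff_odd]
        rcases hR with ⟨hk0, hJ | h'⟩ | ⟨hk0, h' | h' | h'⟩
        · exact ((hjv (by omega)).2 ((hσ j).2 hJ)).elim
        · exact h'.2
        · omega
        · omega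
        · exact h'.2
      · rw [hσ, hσ, false_iff]
        rcases hR with ⟨hk0, hJ | h'⟩ | ⟨hk0, h' | ⟨h', hpar⟩ | h'⟩
        · exact ((hjv (by omega)).2 ((hσ j).2 hJ)).elim
        · omega
        · omega
        · intro hiff
          rw [Nat.even_add] at hpar
          tauto
        · omega
    · have h1 : (j + 1) * c ≤ J * c := Nat.mul_le_mul_right c hlt
      rw [add_mul, one_mul] at h1
      rcases Nat.eq_zero_or_pos l with hl0 | hl0
      swap
      · exact ⟨l, M, hjM, by omega, by omega, fun h => absurd h (by omega), fun _ h => absurd h (by omega)⟩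
      by_cases hM : PlusBlocks i M
      swap
      · exact ⟨l, M, hjM, by omega, by omega, fun _ => hM, fun h => absurd h (by omega)⟩
      obtain ⟨M', hM'⟩ : ∃ M', M = M' + 1 := ⟨M - 1, by
        have : M ≠ 0 := fun h => by rw [h, zero_mul] at hmm; omega
        omega⟩
      have hMc : M * c = M' * c + c := by rw [hM', add_mul, one_mul]
      refine ⟨c, M', by omega, by omega, by omega, fun h => absurd h hc0.ne', fun _ htop => ?_⟩
      rcases hR with ⟨hod, -⟩ | ⟨hev, hR⟩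
      · exact fun hh => (hh.2 (Or.inl hod)).2 (Or.inl hod)
      have hσ : ∀ x, PlusBlocks i x ↔ Even x := fun x =>
        ⟨fun h' => h'.resolve_left (Nat.not_odd_iff_even.2 hev), Or.inr⟩
      rw [hσ] at hM
      have hJj : J = j + 1 := Nat.eq_of_mul_eq_mul_right hc0 (by rw [add_mul, one_mul]; omega)
      rw [hσ, hσ, false_iff]
      rcases hR with ⟨-, hJ | h⟩ | ⟨hk0, -⟩
      · intro hiff
        rw [hJj, Nat.even_add_one] at hJ
        rw [hM', Nat.even_add_one] at hM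
        exact hM (hiff.1 hJ)
      · exact absurd hM (Nat.not_even_iff_odd.2 h.2)
      · omega

/-- The number of elliptic subspaces excludes small dimensions. -/
theorem not_small (hab : BinaryAniso a b) {m : ℕ} (hm : 2 ≤ m) (hme : Even m) (hmn : m ≤ 2 * n) {r : ℕ}
    [Fact r.Prime] (hr : ¬ r ∣ Fintype.card F) (hr2 : r ≠ 2) {i c : ℕ}
    (hi : i = orderOf ((Fintype.card F : ℕ) : ZMod r)) (hc : c = if Even i then i else 2 * i)
    (hrΩ : r ∣ Nat.card {W : Submodule F (Idx → F) // IsEll (minusQF n a b) m W}) :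
    ¬ (m < c ∧ (m < 2 * (n + 1) % c ∨ (m = 2 * (n + 1) % c ∧ (Odd i ∨ Even (2 * (n + 1) / c))))) := by
  classical
  rintro ⟨hmc, hcase⟩
  have hmev := Nat.even_iff.1 hme
  have hVe : Even (Fintype.card Idx) := by rw [card_idx]; exact even_two_mul _
  set R := minusQF n a b
  have hB : BNondeg R := OrthTypes.bNondeg_minus n hab
  obtain ⟨W₀, hW₀⟩ := exists_isEll hB hVe hm hme (by rw [card_idx]; omega)
  obtain ⟨z, hz⟩ := exists_card_eq hB hVe hme hW₀
  obtain ⟨hW₀d, hW₀n, hW₀m⟩ := hW₀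
  have hWN := OrthTypes.nondeg_iff.1 hW₀n
  set P := LinearMap.BilinForm.orthogonal R.polarBilin W₀
  set H := n - m / 2 with hHdef
  have hPd : finrank F P = 2 * (H + 1) := by
    have := Submodule.finrank_add_eq_of_isCompl (OrthTypes.isCompl_orth hWN)
    rw [finrank_fintype_fun_eq_card, card_idx, hW₀d] at this
    change m + finrank F P = 2 * (n + 1) at this
    omega
  have hPp : Cfsg.Geo.IsPlusTypeOn ⇑R P := by
    rw [OrthTypes.plus_orth_iff hB hWN (hW₀d ▸ hme) hVe]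
    exact iff_of_false (not_plus_top hab) hW₀m
  obtain ⟨-, e, he⟩ := (OrthTypes.exists_model (OrthTypes.nonDegOn_orth hB hWN) hPd).resolve_right
    fun h => h.1 hPp
  rw [Nat.card_congr (OQCongr (Q := R.comp P.subtype) (e.trans (plusEquiv _)) (fun w => by
      rw [LinearEquiv.trans_apply, plusEquiv_spec]; exact (he w).symm)).toEquiv,
    card_OQ_plus, Nat.card_congr (OQCongr (Q := R) (minusEquiv n) (minusEquiv_spec n a b)).toEquiv,
    card_OQ_minus (anisotropic_binQF hab), Nat.card_eq_fintype_card (α := F)] at hz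
  set q := Fintype.card F
  have hord : ∀ t, r ∣ q ^ t - 1 → i ∣ t := fun t ht => by
    rw [← ZMod.natCast_eq_zero_iff, Nat.cast_sub (Nat.one_le_pow _ _ Fintype.card_pos), Nat.cast_pow, Nat.cast_one,
      sub_eq_zero] at ht
    exact hi ▸ orderOf_dvd_of_pow_eq_one ht
  have hsucc : ∀ t, r ∣ q ^ t + 1 → r ∣ q ^ (2 * t) - 1 := fun t ht => by
    rw [mul_comm 2, pow_mul, show (q ^ t) ^ 2 - 1 = (q ^ t + 1) * (q ^ t - 1) by rw [← Nat.sq_sub_sq, one_pow]]
    exact dvd_mul_of_dvd_left ht _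
  have hc2 : ∀ t, i ∣ 2 * t → c ∣ 2 * t := fun t ht => by
    rw [hc]
    split_ifs with he'
    · exact ht
    · exact Nat.mul_dvd_mul_left 2 ((Nat.Coprime.dvd_of_dvd_mul_left
        (Nat.coprime_two_right.2 (Nat.not_even_iff_odd.1 he')) ht))
  have hdm := Nat.div_add_mod (2 * (n + 1)) c
  have hk := Nat.mod_lt (2 * (n + 1)) (show 0 < c by omega)
  have hq1 : 1 < q := Fintype.one_lt_card
  rcases OrthElliptic.dvd_ratio (D := n) (H := H) (E := q ^ (H + 1) - 1) (A := q ^ (H + 1) + 1) hq1 hr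
    hrΩ (Nat.sub_pos_of_lt (Nat.one_lt_pow (by omega) hq1))
    (by rw [mul_comm 2, pow_mul, mul_comm (q ^ (H + 1) - 1), ← Nat.sq_sub_sq, one_pow]) (by omega) hz with h | h | h
  · have := Nat.mod_eq_zero_of_dvd (hc2 (n + 1) (hord _ (hsucc _ h)))
    omega
  · rcases hcase with hlt | ⟨heq, hpar⟩
    · obtain ⟨u, hu⟩ := hc2 (H + 1) (hord _ (hsucc _ h))
      have h1 : c * (2 * (n + 1) / c) < c * u := by omega
      have h2 : c * u < c * (2 * (n + 1) / c + 1) := by rw [Nat.mul_succ]; omega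
      have := Nat.lt_of_mul_lt_mul_left h1
      have := Nat.lt_of_mul_lt_mul_left h2
      omega
    · have hJ : 2 * (H + 1) = c * (2 * (n + 1) / c) := by omega
      have hdvd : i ∣ H + 1 := by
        by_cases hev : Even i
        · rw [if_pos hev] at hc
          obtain ⟨t, ht⟩ := hpar.resolve_left (Nat.not_odd_iff_even.2 hev)
          exact ⟨t, Nat.eq_of_mul_eq_mul_left two_pos (by rw [hJ, ht, hc]; ring)⟩
        · rw [if_neg hev] at hc
          exact ⟨2 * (n + 1) / c, by rw [hc, mul_assoc] at hJ; rw [hc]; omega⟩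
      obtain ⟨t, ht⟩ := hdvd
      rw [← ZMod.natCast_eq_zero_iff, Nat.cast_add, Nat.cast_pow, Nat.cast_one, ht, pow_mul, hi, pow_orderOf_eq_one,
        one_pow] at h
      have h2' : ((2 : ℕ) : ZMod r) = 0 := by push_cast; linear_combination h
      exact hr2 ((Nat.prime_dvd_prime_iff_eq Fact.out Nat.prime_two).1 ((ZMod.natCast_eq_zero_iff 2 r).1 h2'))
  · obtain ⟨l, hl1, hl2, hl⟩ := h
    obtain ⟨u, hu⟩ := hc2 (l + 1) (hord _ hl)
    have h1 : c * (2 * (n + 1) / c) < c * u := by omega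
    have h2 : c * u < c * (2 * (n + 1) / c + 1) := by rw [Nat.mul_succ]; omega
    have := Nat.lt_of_mul_lt_mul_left h1
    have := Nat.lt_of_mul_lt_mul_left h2
    omega

/-- An involution fixing no elliptic subspace in characteristic two. -/
theorem not_allFix_two [CharP F 2] (hab : BinaryAniso a b) (hn : 3 ≤ n) (hne : Even n) {m : ℕ} (hm : 2 ≤ m)
    (hm4 : m % 4 = 0) (hmn : m ≤ 2 * n) : ¬ AllFix (minusQF n a b) m 2 := by
  classical
  obtain ⟨n', hn'⟩ : ∃ n', n = n' + 1 := ⟨n - 1, by omega⟩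
  set R := minusQF n a b
  have hB : BNondeg R := OrthTypes.bNondeg_minus n hab
  have h2F : (2 : F) = 0 := CharTwo.two_eq_zero
  have hVe : Even (Fintype.card Idx) := by rw [card_idx]; exact even_two_mul _
  obtain ⟨U, -, hU, hUd, hUp⟩ := OrthTypes.exists_sub (nonDegOn_top hB)
    (by rw [finrank_top, finrank_fintype_fun_eq_card]; exact hVe) (n := n')
    (by rw [finrank_top, finrank_fintype_fun_eq_card, card_idx]; omega) True
  obtain ⟨-, e, he⟩ := (OrthTypes.exists_model hU hUd).resolve_right fun h => h.1 (hUp.2 trivial)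
  obtain ⟨h₀, hh₀c, hh₀2, hh₀R, hh₀d⟩ := exists_unipotent (F := F) (p := 2) (show 3 ≤ n' + 1 by omega)
  set P := LinearMap.BilinForm.orthogonal R.polarBilin U
  have hcpl : IsCompl P U := (OrthTypes.isCompl_orth hU).symm
  have ho : ∀ x ∈ P, ∀ y ∈ U, polar R x y = 0 := fun x hx y hy => (polar_comm R x y).trans (hx y hy)
  set φ : OQ (plusQF (n' + 1) F) →* OQ R := (extHom hcpl ho).comp
    (OQCongr (Q := R.comp U.subtype) e fun w => (he w).symm).symm.toMonoidHom
  set g := φ h₀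
  have hg : g ∈ commutator (OQ R) := by
    have h1 : g ∈ (commutator (OQ (plusQF (n' + 1) F))).map φ := ⟨h₀, hh₀c, rfl⟩
    rw [commutator_def, Subgroup.map_commutator] at h1
    exact Subgroup.commutator_mono le_top le_top h1
  have happ : ∀ (x : P) (y : U), g.1 ((x : Idx → F) + (y : Idx → F)) - ((x : Idx → F) + (y : Idx → F)) =
      ((e.symm (h₀.1 (e y) - e y) : U) : Idx → F) := fun x y => by
    show (extHom hcpl ho _).1 _ - _ = _
    rw [extHom_apply, add_sub_add_left_eq_sub, map_sub, e.symm_apply_apply, Submodule.coe_sub]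
    rfl
  have hRN : ∀ v, R (g.1 v - v) = 0 := fun v => by
    obtain ⟨x, hx, y, hy, rfl⟩ := Submodule.mem_sup.1 (hcpl.sup_eq_top ▸ Submodule.mem_top : v ∈ P ⊔ U)
    rw [happ ⟨x, hx⟩ ⟨y, hy⟩, he, e.apply_symm_apply]
    exact hh₀R _
  have hg2 : g ^ 2 = 1 := by rw [← map_pow, hh₀2, map_one]
  have hgg : ∀ v, g.1 (g.1 v) = v := fun v => by
    rw [← LinearEquiv.mul_apply, ← Subgroup.coe_mul, ← pow_two, hg2]; rfl
  set N : Module.End F (Idx → F) := (g.1.toLinearMap : Module.End F (Idx → F)) - 1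
  have hrank : n' + 1 ≤ finrank F (LinearMap.range N) := by
    let L : (Fin (n' + 1) ⊕ Fin (n' + 1) → F) →ₗ[F] (Idx → F) := U.subtype ∘ₗ e.symm.toLinearMap
    have hL : Function.Injective L := U.subtype_injective.comp e.symm.injective
    have hle : (LinearMap.range ((h₀.1.toLinearMap : Module.End F _) - 1)).map L ≤ LinearMap.range N := by
      rintro _ ⟨_, ⟨w, rfl⟩, rfl⟩
      refine ⟨L w, ?_⟩
      show g.1 (L w) - L w = _
      have h1 := happ 0 (e.symm w)
      rw [ZeroMemClass.coe_zero, zero_add, e.apply_symm_apply] at h1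
      exact h1
    have h3 := Submodule.finrank_mono hle
    rw [← (Submodule.equivMapOfInjective L hL _).finrank_eq] at h3
    obtain ⟨t, ht⟩ := hne
    omega
  have hme : Even m := Nat.even_iff.2 (by omega)
  refine not_allFix hB hVe hm hme (by rw [card_idx]; omega) hg (r := 2) (z := 1)
    (fun v => by rw [hg2, one_smul]; rfl) fun W ⟨hWd, hWn, hWm⟩ hW => ?_
  have hWN := OrthTypes.nondeg_iff.1 hWn
  set Q := LinearMap.BilinForm.orthogonal R.polarBilin W
  have hQ : ∀ v ∈ Q, g.1 v ∈ Q :=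
    orthogonal_invariant (f := (g.1.toLinearMap : Module.End F (Idx → F))) (fun u v => OQ_polar g u v)
      g.1.injective hW
  have hQN := OrthTypes.nonDegOn_orth hB hWN
  have hcW : IsCompl W Q := OrthTypes.isCompl_orth hWN
  have hsum := Submodule.finrank_add_eq_of_isCompl hcW
  rw [finrank_fintype_fun_eq_card, card_idx, hWd] at hsum
  have hiso : ∀ {X : Submodule F (Idx → F)}, IsoOn R.polarBilin (X.map N) := fun {X} => by
    rintro _ ⟨x, -, rfl⟩ _ ⟨y, -, rfl⟩
    rw [polarBilin_apply_apply, polar, ← map_add]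
    show R (g.1 (x + y) - (x + y)) - R (g.1 x - x) - R (g.1 y - y) = 0
    rw [hRN, hRN, hRN, sub_zero, sub_zero]
  have hinto : ∀ {X : Submodule F (Idx → F)}, (∀ v ∈ X, g.1 v ∈ X) → X.map N ≤ X := fun {X} hX => by
    rintro _ ⟨x, hx, rfl⟩; exact sub_mem (hX x hx) hx
  have hts : ∀ {X : Submodule F (Idx → F)}, ∀ x ∈ X.map N, R x = 0 := fun {X} => by
    rintro _ ⟨x, -, rfl⟩; exact hRN x
  have h1 := two_mul_finrank_le (hinto hW) hWN hiso
  have h2 := two_mul_finrank_le (hinto hQ) hQN hiso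
  have hne1 : 2 * finrank F (W.map N) ≠ m := fun h =>
    hWm (OrthMax.plus_of_ts (hinto hW) hts (hWd ▸ hme) (by omega))
  have he1 := Nat.even_iff.1 (even_finrank_map h2F hgg hRN hW hWN)
  have he2 := Nat.even_iff.1 (even_finrank_map h2F hgg hRN hQ hQN)
  change finrank F (W.map N) % 2 = 0 at he1
  change finrank F (Q.map N) % 2 = 0 at he2
  have hrange : finrank F (LinearMap.range N) ≤ finrank F (W.map N) + finrank F (Q.map N) := by
    rw [LinearMap.range_eq_map, ← hcW.sup_eq_top, Submodule.map_sup]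
    exact Submodule.finrank_add_le_finrank_add_finrank _ _
  have hnev := Nat.even_iff.1 hne
  omega

/-- The criterion. -/
theorem iff_main {p : ℕ} [Fact p.Prime] [CharP F p] (hab : BinaryAniso a b) {m : ℕ} (hn : 3 ≤ n) (hm : 2 ≤ m)
    (hme : Even m) (hmn : m + 2 ≤ 2 * (n + 1)) {r : ℕ} [Fact r.Prime] (hrp : r = 2 ∨ r ≠ p)
    (hrΩ : r ∣ Nat.card {W : Submodule F (Idx → F) // IsEll (minusQF n a b) m W}) {i c : ℕ}
    (hi : i = orderOf ((Fintype.card F : ℕ) : ZMod r)) (hc : c = if Even i then i else 2 * i) :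
    AllFix (minusQF n a b) m r ↔
    ((r = 2 ∧ p = 2 ∧ (Even (n + 1) ∨ m % 4 = 2)) ∨
     (r = 2 ∧ p ≠ 2 ∧ (Even (n + 1) ∨ Fintype.card F % 8 ≠ 7 ∨ m % 4 = 2)) ∨
     (r ≠ p ∧ 2 < r ∧ Odd i ∧ ((2 * (n + 1)) % c = 0 ∨ (c ≤ m ∧ 0 < m % c ∧ m % c ≤ (2 * (n + 1)) % c))) ∨
     (r ≠ p ∧ 2 < r ∧ Even i ∧
       (((2 * (n + 1)) % c = 0 ∧ (Even ((2 * (n + 1)) / i) ∨ (m % c = 0 ∧ Odd (m / i)))) ∨
        (0 < (2 * (n + 1)) % c ∧ i ≤ m ∧ ((0 < m % c ∧ m % c < (2 * (n + 1)) % c) ∨ (m % c = 0 ∧ Odd (m / i)) ∨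
          (m % c = (2 * (n + 1)) % c ∧ Even ((2 * (n + 1) + m - 2 * ((2 * (n + 1)) % c)) / i))))))) := by
  classical
  have hrp' : r.Prime := Fact.out
  have hmev := Nat.even_iff.1 hme
  have hVe : Even (Fintype.card Idx) := by rw [card_idx]; exact even_two_mul _
  have hmlt : m < Fintype.card Idx := by rw [card_idx]; omega
  have hB : BNondeg (minusQF n a b) := OrthTypes.bNondeg_minus n hab
  have hV := not_plus_top (n := n) hab
  rcases eq_or_ne r p with rfl | hne
  · obtain rfl : r = 2 := hrp.resolve_right (fun h => h rfl)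
    have h2F : (2 : F) = 0 := CharTwo.two_eq_zero
    constructor
    · intro h
      refine Or.inl ⟨rfl, rfl, ?_⟩
      by_contra hno
      push Not at hno
      refine not_allFix_two hab hn ?_ hm (by omega) (by omega) h
      have := hno.1
      rw [Nat.even_add_one] at this
      exact not_not.1 this
    · intro hR
      have hcond : Even (n + 1) ∨ m % 4 = 2 := by
        rcases hR with ⟨-, -, h⟩ | ⟨-, h, -⟩ | ⟨h, -⟩ | ⟨h, -⟩
        · exact h
        all_goals exact absurd rfl h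
      refine allFix_of hB (by rw [card_idx]; omega) fun g _ z hz2 hgz _ => ?_
      have hz1 : z = 1 := (mul_self_eq_one_iff.1 hz2).elim id fun h => h.trans (CharTwo.neg_eq 1)
      subst hz1
      obtain ⟨μ, hμ⟩ := hme
      obtain ⟨W, hW, hinv⟩ := exists_fixed_involution_even (g := g) hB h2F
        (fun v => by have := hgz v; rwa [pow_two, one_smul] at this) card_idx hV (μ := μ) (by omega) (by omega)
        (hcond.symm.imp_left fun h => Nat.odd_iff.2 (by omega))
      rw [show 2 * μ = m by omega] at hW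
      exact ⟨W, hW, hinv⟩
  obtain ⟨nF, -, hcard⟩ := FiniteField.card F p
  have hr : ¬ r ∣ Fintype.card F := fun h' =>
    hne ((Nat.prime_dvd_prime_iff_eq hrp' Fact.out).1 (hrp'.dvd_of_dvd_pow (hcard ▸ h')))
  rcases eq_or_ne r 2 with rfl | hr2
  · have hq : Fintype.card F % 2 = 1 := by
      rw [Nat.dvd_iff_mod_eq_zero] at hr; omega
    have h2 : (2 : F) ≠ 0 := Agent.Classical.two_ne_zero_of_odd (by rw [Nat.card_eq_fintype_card]; exact Nat.odd_iff.2 hq)
    have hsq : IsSquare (-1 : F) ↔ Fintype.card F % 4 ≠ 3 := FiniteField.isSquare_neg_one_iff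
    have hsq2 : IsSquare (2 : F) ↔ Fintype.card F % 8 ≠ 3 ∧ Fintype.card F % 8 ≠ 5 := FiniteField.isSquare_two_iff
    constructor
    · intro h
      refine Or.inr (Or.inl ⟨rfl, hne.symm, ?_⟩)
      by_contra hno
      push Not at hno
      obtain ⟨hd, h8, hm4⟩ := hno
      have hns : ¬ IsSquare (-1 : F) := fun hs => hsq.1 hs (by omega)
      have hne' : Even n := by
        rw [Nat.even_add_one] at hd; exact not_not.1 hd
      obtain ⟨g, hgg⟩ := exists_sq_neg_one_minus h2 hq hns hne' hab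
      refine not_allFix hB hVe hm hme hmlt ((mem_commutator_iff_sq_neg_one h2 hq hB hgg card_idx
        (Nat.not_even_iff_odd.1 hd)).2 (hsq2.2 (by omega))) (r := 2) (z := -1)
        (fun v => by rw [neg_one_smul, pow_two]; exact hgg v) (fun W ⟨hWd, hWn, hWm⟩ hW => hWm ?_) h
      exact (plus_iff_of_sq_neg_one h2 hq hns hB hgg (m / 2) W hW (OrthTypes.nondeg_iff.1 hWn) (by omega)).2
        (Nat.even_iff.2 (by omega))
    · intro hR
      have hcond : Even (n + 1) ∨ Fintype.card F % 8 ≠ 7 ∨ m % 4 = 2 := by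
        rcases hR with ⟨-, h, -⟩ | ⟨-, -, h⟩ | ⟨-, h, -⟩ | ⟨-, h, -⟩
        · exact absurd h.symm hne
        · exact h
        · omega
        · omega
      refine allFix_of hB (by rw [card_idx]; omega) fun g hgc z hz2 hgz hns' => ?_
      rcases mul_self_eq_one_iff.1 hz2 with rfl | rfl
      · refine exists_fixed_involution h2 hB hVe hm hme hmlt (fun v => ?_) ?_ ?_
        · have := hgz v; rwa [pow_two, one_smul] at this
        · obtain ⟨v, hv⟩ := hns' 1; exact ⟨v, by rwa [one_smul] at hv⟩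
        · obtain ⟨v, hv⟩ := hns' (-1); exact ⟨v, by rwa [neg_one_smul] at hv⟩
      · have hff : ∀ v, g.1 (g.1 v) = -v := fun v => by
          have := hgz v; rwa [pow_two, neg_one_smul] at this
        have htop : finrank F (⊤ : Submodule F (Idx → F)) = 2 * (n + 1) := by
          rw [finrank_top, finrank_fintype_fun_eq_card, card_idx]
        have hns : ¬ IsSquare (-1 : F) := fun hs => hV (plus_of_sq_neg_one h2 hs hff (fun _ _ => trivial)
          (nonDegOn_top hB) (htop ▸ even_two_mul _))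
        have hd : ¬ Even (n + 1) := fun he => hV ((plus_iff_of_sq_neg_one h2 hq hns hB hff (n + 1) ⊤
          (fun _ _ => trivial) (nonDegOn_top hB) htop).2 he)
        rcases hcond.resolve_left hd with h8 | hm4
        · have h3 : Fintype.card F % 4 = 3 := by
            rw [hsq] at hns; omega
          have := hsq2.1 ((mem_commutator_iff_sq_neg_one h2 hq hB hff card_idx (Nat.not_even_iff_odd.1 hd)).1 hgc)
          omega
        · obtain ⟨W, hW, hinv⟩ := exists_fixed_sq_neg_one (k := m / 2) h2 hq hns hB hff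
            (Nat.odd_iff.2 (by omega)) (by rw [card_idx]; omega)
          rw [show 2 * (m / 2) = m by omega] at hW
          exact ⟨W, hW, hinv⟩
  have h2r : 2 < r := lt_of_le_of_ne hrp'.two_le (Ne.symm hr2)
  have hi0 : 0 < i := hi ▸ orderOf_pos_of_not_dvd hr
  rw [allFix_iff hB hVe (by rw [card_idx]; omega) hm hme hmlt hr hr2 hi hc, card_idx,
    opt_iff hi0 hc (by omega) (by omega) hV]
  have hsmall := not_small hab hm hme (by omega) hr hr2 hi hc hrΩ
  rcases Nat.even_or_odd i with hev | hod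
  · rw [if_pos hev] at hc
    subst hc
    have hno : ¬ Odd c := Nat.not_odd_iff_even.2 hev
    have hpar : m % c = 2 * (n + 1) % c →
        (2 * (n + 1) + m - 2 * (2 * (n + 1) % c)) / c = 2 * (n + 1) / c + m / c := fun hl => by
      have h1 := Nat.div_add_mod (2 * (n + 1)) c
      have h2 := Nat.div_add_mod m c
      rw [show 2 * (n + 1) + m - 2 * (2 * (n + 1) % c) = c * (2 * (n + 1) / c + m / c) by rw [Nat.mul_add c]; omega,
        Nat.mul_div_cancel_left _ hi0]
    simp only [hno, hev, false_and, false_or, true_and, and_false, ne_eq, hne, not_false_eq_true, h2r, hr2]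
    constructor
    · rintro (h | ⟨hk, hl | ⟨hl, hpar'⟩ | hl⟩)
      · exact Or.inl h
      · refine Or.inr ⟨hk, ?_, Or.inl hl⟩
        by_contra hlt
        exact hsmall ⟨by omega, Or.inl (by rw [Nat.mod_eq_of_lt (show m < c by omega)] at hl; exact hl.2)⟩
      · refine Or.inr ⟨hk, ?_, Or.inr (Or.inr ⟨hl, by rw [hpar hl]; exact hpar'⟩)⟩
        by_contra hlt
        rw [Nat.div_eq_of_lt (show m < c by omega), add_zero] at hpar'
        rw [Nat.mod_eq_of_lt (show m < c by omega)] at hl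
        exact hsmall ⟨by omega, Or.inr ⟨hl, Or.inr hpar'⟩⟩
      · refine Or.inr ⟨hk, ?_, Or.inr (Or.inl hl)⟩
        by_contra hlt
        rw [Nat.div_eq_of_lt (show m < c by omega)] at hl
        exact Nat.not_odd_zero hl.2
    · rintro (h | ⟨hk, -, hl | hl | ⟨hl, hpar'⟩⟩)
      · exact Or.inl h
      · exact Or.inr ⟨hk, Or.inl hl⟩
      · exact Or.inr ⟨hk, Or.inr (Or.inr hl)⟩
      · exact Or.inr ⟨hk, Or.inr (Or.inl ⟨hl, by rw [← hpar hl]; exact hpar'⟩)⟩
  · have hne' : ¬ Even i := Nat.not_even_iff_odd.2 hod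
    simp only [hne', hod, false_and, or_false, true_and, and_false, ne_eq, hne, not_false_eq_true, h2r, hr2, false_or]
    refine ⟨fun hl => hl.imp_right fun hl => ⟨?_, hl⟩, fun h => h.imp_right And.right⟩
    by_contra hlt
    rw [Nat.mod_eq_of_lt (show m < c by omega)] at hl
    rcases hl.2.lt_or_eq with h | h
    · exact hsmall ⟨by omega, Or.inl h⟩
    · exact hsmall ⟨by omega, Or.inr ⟨h, Or.inl hod⟩⟩

/-- The criterion, for the form as stated. -/
theorem main {p : ℕ} [Fact p.Prime] [CharP F p] (hab : BinaryAniso a b) {m : ℕ} (hn : 3 ≤ n) (hm : 2 ≤ m)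
    (hme : Even m) (hmn : m + 2 ≤ 2 * (n + 1)) {r : ℕ} [Fact r.Prime] (hrp : r = 2 ∨ r ≠ p)
    (hrΩ : r ∣ Nat.card {W : Submodule F (Idx → F) // finrank F ↥W = m ∧
      Cfsg.Geo.IsNondegenerateOn (QuadraticMap.polar (Cfsg.quadFormMinus n F a b)) W ∧
      ¬ Cfsg.Geo.IsPlusTypeOn (Cfsg.quadFormMinus n F a b) W}) {i c : ℕ}
    (hi : i = orderOf ((Fintype.card F : ℕ) : ZMod r)) (hc : c = if Even i then i else 2 * i) :
    (∀ x : GL Idx F, x ∈ Cfsg.Geo.omegaGL (Cfsg.quadFormMinus n F a b) →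
      (∃ z : F, ((x ^ r : GL Idx F) : Matrix Idx Idx F) = z • (1 : Matrix Idx Idx F)) →
      (∀ z : F, (x : Matrix Idx Idx F) ≠ z • (1 : Matrix Idx Idx F)) →
      ∃ W : Submodule F (Idx → F), (finrank F ↥W = m ∧
        Cfsg.Geo.IsNondegenerateOn (QuadraticMap.polar (Cfsg.quadFormMinus n F a b)) W ∧
        ¬ Cfsg.Geo.IsPlusTypeOn (Cfsg.quadFormMinus n F a b) W) ∧ W.map (Matrix.toLin' (x : Matrix Idx Idx F)) ≤ W) ↔
    ((r = 2 ∧ p = 2 ∧ (Even (n + 1) ∨ m % 4 = 2)) ∨
     (r = 2 ∧ p ≠ 2 ∧ (Even (n + 1) ∨ Fintype.card F % 8 ≠ 7 ∨ m % 4 = 2)) ∨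
     (r ≠ p ∧ 2 < r ∧ Odd i ∧ ((2 * (n + 1)) % c = 0 ∨ (c ≤ m ∧ 0 < m % c ∧ m % c ≤ (2 * (n + 1)) % c))) ∨
     (r ≠ p ∧ 2 < r ∧ Even i ∧
       (((2 * (n + 1)) % c = 0 ∧ (Even ((2 * (n + 1)) / i) ∨ (m % c = 0 ∧ Odd (m / i)))) ∨
        (0 < (2 * (n + 1)) % c ∧ i ≤ m ∧ ((0 < m % c ∧ m % c < (2 * (n + 1)) % c) ∨ (m % c = 0 ∧ Odd (m / i)) ∨
          (m % c = (2 * (n + 1)) % c ∧ Even ((2 * (n + 1) + m - 2 * ((2 * (n + 1)) % c)) / i))))))) := by
  rw [minus_coe] at hrΩ ⊢
  exact iff_main (p := p) hab hn hm hme hmn hrp hrΩ hi hc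

/-- Elements of prime order of PΩ⁻_n(q) with no fixed elliptic `m`-space. Here `T = PΩ⁻_n(F)`, `n = 2d ≥ 8`, realised through `Ω⁻_n(q)`, the commutator subgroup of the isometry group of `Q = Σ_{i<d−1} xᵢyᵢ + z₁² + a z₁z₂ + b z₂²` with `z₁² + a z₁z₂ + b z₂²` anisotropic, over the field `F` with `q` elements; an element of `T` of prime order `r` is an element `x` of `Ω⁻_n(q)` with `x^r` scalar and `x` not scalar; a nondegenerate `m`-space (even `m`) is a subspace on which the polar form of `Q` is nondegenerate; it is hyperbolic if it contains an `m/2`-dimensional subspace on which `Q` vanishes, elliptic otherwise. Let `m` be even with `2 ≤ m ≤ n − 2` (no restriction `m < n/2`: fixing an elliptic `m`-space is the same as fixing its hyperbolic orthogonal complement) and let `r` be a prime dividing the number of elliptic `m`-spaces, with `r = 2` or `r ≠ p`; for `r ≠ p` let `i` be the multiplicative order of `q` modulo `r`, `c = i` for `i` even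 and `c = 2i` for `i` odd, and write `k = n mod c`, `ℓ = m mod i`, `ℓ' = m mod c`, `n' = ⌊n/i⌋`, `m' = ⌊m/i⌋`, `t = (r−1)/i`. Then every element of `T` of order `r` fixes some elliptic `m`-space if and only if one of: (i) `r = p = 2` and (`n ≡ 0 (mod 4)` or `m ≡ 2 (mod 4)`); (ii) `r = 2 ≠ p` and (`n ≡ 0 (mod 4)`, or `q ≢ 7 (mod 8)`, or `m ≡ 2 (mod 4)`); (iii) `r ≠ p` odd, `i` odd, and `k = 0` or (`c ≤ m` and `k ≥ ℓ' > 0`); (iv) `r ≠ p` odd, `i` even, and either `k = 0` and (`n/i` even, or `ℓ' = 0` and `m/i` odd), or `k > 0`, `i ≤ m` and (`k > ℓ' > 0`, or `ℓ' = 0` and `m/i` odd, or `k = ℓ'` and `(n + m − 2k)/i` even). (Odd `r = p` is not covered by this statement.) -/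
theorem result {F : Type*} [Field F] [Fintype F] {p : ℕ} [Fact p.Prime] [CharP F p] {q : ℕ} (hq : Fintype.card F = q)
    (d m : ℕ) (hd : 4 ≤ d) (hm : 2 ≤ m) (hme : Even m) (hmn : m + 2 ≤ 2 * d) (a b : F) (hab : ∀ x y : F, x ^ 2 + a * x * y + b * y ^ 2 = 0 → x = 0 ∧ y = 0)
    (r : ℕ) [Fact r.Prime] (hr : r = 2 ∨ r ≠ p)
    (hrΩ : r ∣ Nat.card {W : Submodule F ((Fin (d - 1) ⊕ Fin (d - 1)) ⊕ Fin 2 → F) // Module.finrank F ↥W = m ∧ Cfsg.Geo.IsNondegenerateOn (QuadraticMap.polar (Cfsg.quadFormMinus (d - 1) F a b)) W ∧ ¬ Cfsg.Geo.IsPlusTypeOn (Cfsg.quadFormMinus (d - 1) F a b) W})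
    (i c : ℕ) (hi : i = orderOf (q : ZMod r)) (hc : c = if Even i then i else 2 * i) :
    (∀ x : GL ((Fin (d - 1) ⊕ Fin (d - 1)) ⊕ Fin 2) F, x ∈ Cfsg.Geo.omegaGL (Cfsg.quadFormMinus (d - 1) F a b) →
      (∃ z : F, ((x ^ r : GL ((Fin (d - 1) ⊕ Fin (d - 1)) ⊕ Fin 2) F) : Matrix ((Fin (d - 1) ⊕ Fin (d - 1)) ⊕ Fin 2) ((Fin (d - 1) ⊕ Fin (d - 1)) ⊕ Fin 2) F) = z • (1 : Matrix ((Fin (d - 1) ⊕ Fin (d - 1)) ⊕ Fin 2) ((Fin (d - 1) ⊕ Fin (d - 1)) ⊕ Fin 2) F)) →
      (∀ z : F, (x : Matrix ((Fin (d - 1) ⊕ Fin (d - 1)) ⊕ Fin 2) ((Fin (d - 1) ⊕ Fin (d - 1)) ⊕ Fin 2) F) ≠ z • (1 : Matrix ((Fin (d - 1) ⊕ Fin (d - 1)) ⊕ Fin 2) ((Fin (d - 1) ⊕ Fin (d - 1)) ⊕ Fin 2) F)) →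
      ∃ W : Submodule F ((Fin (d - 1) ⊕ Fin (d - 1)) ⊕ Fin 2 → F), (Module.finrank F ↥W = m ∧ Cfsg.Geo.IsNondegenerateOn (QuadraticMap.polar (Cfsg.quadFormMinus (d - 1) F a b)) W ∧ ¬ Cfsg.Geo.IsPlusTypeOn (Cfsg.quadFormMinus (d - 1) F a b) W) ∧ W.map (Matrix.toLin' (x : Matrix ((Fin (d - 1) ⊕ Fin (d - 1)) ⊕ Fin 2) ((Fin (d - 1) ⊕ Fin (d - 1)) ⊕ Fin 2) F)) ≤ W) ↔
    ((r = 2 ∧ p = 2 ∧ (Even d ∨ m % 4 = 2)) ∨
     (r = 2 ∧ p ≠ 2 ∧ (Even d ∨ q % 8 ≠ 7 ∨ m % 4 = 2)) ∨
     (r ≠ p ∧ 2 < r ∧ Odd i ∧ ((2 * d) % c = 0 ∨ (c ≤ m ∧ 0 < m % c ∧ m % c ≤ (2 * d) % c))) ∨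
     (r ≠ p ∧ 2 < r ∧ Even i ∧
       (((2 * d) % c = 0 ∧ (Even ((2 * d) / i) ∨ (m % c = 0 ∧ Odd (m / i)))) ∨
        (0 < (2 * d) % c ∧ i ≤ m ∧ ((0 < m % c ∧ m % c < (2 * d) % c) ∨ (m % c = 0 ∧ Odd (m / i)) ∨
                                    (m % c = (2 * d) % c ∧ Even ((2 * d + m - 2 * ((2 * d) % c)) / i))))))) := by
  subst hq
  obtain ⟨n, rfl⟩ : ∃ n, d = n + 1 := ⟨d - 1, by omega⟩
  exact main (p := p) (n := n) hab (by omega) hm hme hmn hr hrΩ hi hc

end Cfsg.Agent.S5990
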