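import Cfsg.Statements.S5991
import Cfsg.Agent.Elusive10.MinusElements
import Cfsg.Agent.OrthGen.Index


set_option autoImplicit false
open scoped MatrixGroups
open Cfsg

namespace Cfsg.Agent.S5991

open Module QuadraticMap Matrix Cfsg.Agent.Classical Cfsg.Agent.Forms Cfsg.Agent.Elusive Cfsg.Agent.Elusive10

variable {F : Type*} [Field F] [Fintype F] {n : ℕ} {a b : F}

local notation "Idx" => (Fin n ⊕ Fin n) ⊕ Fin 2

theorem minus_coe : Cfsg.quadFormMinus n F a b = ⇑(minusQF n a b) :=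
  funext fun v => (minusQF_apply n a b v).symm

theorem nonDegOn_iff {W : Submodule F (Idx → F)} :
    Cfsg.Geo.IsNondegenerateOn (polar ⇑(minusQF n a b)) W ↔ NonDegOn (minusQF n a b).polarBilin W := by
  constructor
  · intro h w hw h0
    by_contra hne
    obtain ⟨-, x, hx, hx0⟩ := h w hw hne
    exact hx0 (h0 x hx)
  · intro h w hw hne
    obtain ⟨x, hx, hx0⟩ : ∃ x ∈ W, polar (minusQF n a b) w x ≠ 0 := by
      by_contra hno
      push Not at hno
      exact hne (h w hw hno)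
    exact ⟨⟨x, hx, by rwa [polar_comm]⟩, x, hx, hx0⟩

/-- The members of the class of `W₀`. -/
def IsMem (a b : F) (W₀ W : Submodule F (Idx → F)) : Prop :=
  finrank F W = finrank F W₀ ∧ Cfsg.Geo.IsNondegenerateOn (polar ⇑(minusQF n a b)) W ∧
    Cfsg.Geo.AreIsometricFor ⇑(minusQF n a b) W W₀

local notation "IsMember" => IsMem a b

theorem isMember_self {W₀ : Submodule F (Idx → F)} (h : Cfsg.Geo.IsNondegenerateOn (polar ⇑(minusQF n a b)) W₀) :
    IsMember W₀ W₀ := ⟨rfl, h, LinearEquiv.refl _ _, fun _ => rfl⟩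

/-- A bad element from an isometry. -/
theorem not_all_fix {W₀ : Submodule F (Idx → F)} (hN : Cfsg.Geo.IsNondegenerateOn (polar ⇑(minusQF n a b)) W₀)
    {r : ℕ} {g : OQ (minusQF n a b)} (hg : g ∈ commutator (OQ (minusQF n a b))) {z : F}
    (hgr : ∀ v, (g ^ r).1 v = z • v)
    (hno : ∀ W, IsMember W₀ W → ¬ (∀ v ∈ W, g.1 v ∈ W)) :
    ¬ ∀ x : GL Idx F, x ∈ Cfsg.Geo.omegaGL ⇑(minusQF n a b) →
      (∃ z : F, ((x ^ r : GL Idx F) : Matrix Idx Idx F) = z • (1 : Matrix Idx Idx F)) →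
      (∀ z : F, (x : Matrix Idx Idx F) ≠ z • (1 : Matrix Idx Idx F)) →
      ∃ W, IsMember W₀ W ∧ W.map (Matrix.toLin' (x : Matrix Idx Idx F)) ≤ W := by
  intro h
  set x := Elusive25.glOf (minusQF n a b) g with hx
  have hmul := Elusive25.glOf_mulVec (minusQF n a b) g
  have hxr : ((x ^ r : GL Idx F) : Matrix Idx Idx F) = z • (1 : Matrix Idx Idx F) :=
    Matrix.ext_iff_mulVec.2 fun v => by
      rw [hx, ← map_pow, Elusive25.glOf_mulVec, hgr, smul_mulVec, one_mulVec]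
  obtain ⟨W, hW, hWx⟩ := h x (Elusive25.glOf_mem_omegaGL _ hg) ⟨z, hxr⟩ fun a ha =>
    hno W₀ (isMember_self hN) fun v hv => by
      rw [← hmul, ← hx, ha, smul_mulVec, one_mulVec]; exact W₀.smul_mem a hv
  exact hno W hW fun v hv => hWx ⟨v, hv, by rw [Matrix.toLin'_apply]; exact hmul v⟩

/-- The divisibility of the number of members rules out small `m`. -/
theorem not_small (h2 : (2 : F) ≠ 0) (hab : BinaryAniso a b) {W₀ : Submodule F (Idx → F)}
    (hN : Cfsg.Geo.IsNondegenerateOn (polar ⇑(minusQF n a b)) W₀) {m : ℕ} (hW₀ : finrank F W₀ = m) (hm : Odd m)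
    (hmd : m < n + 1) {r : ℕ} [Fact r.Prime] (hr : ¬ r ∣ Fintype.card F) (hr2 : r ≠ 2) {i c : ℕ}
    (hi : i = orderOf ((Fintype.card F : ℕ) : ZMod r)) (hc : c = if Even i then i else 2 * i)
    (hrΩ : r ∣ Nat.card {W : Submodule F (Idx → F) // IsMember W₀ W}) :
    ¬ (m < c ∧ m % c < 2 * (n + 1) % c) := by
  classical
  rintro ⟨hmc, hmk⟩
  rw [Nat.mod_eq_of_lt hmc] at hmk
  set R := minusQF n a b
  have : Finite (OQ R) := OrthPlus.finite_OQ R
  have hB : BNondeg R := FieldExtOrth.minus_nondeg h2 hab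
  have hWN := nonDegOn_iff.1 hN
  letI : MulAction (OQ R) (Submodule F (Idx → F)) :=
    { smul := fun g W => W.map g.1.toLinearMap
      one_smul := fun W => W.map_id
      mul_smul := fun g h W => W.map_comp h.1.toLinearMap g.1.toLinearMap }
  have horb : ∀ W, W ∈ MulAction.orbit (OQ R) W₀ ↔ IsMember W₀ W := by
    intro W
    constructor
    · rintro ⟨g, rfl⟩
      refine ⟨LinearEquiv.finrank_map_eq g.1 W₀, nonDegOn_iff.2 ?_, (g.1.submoduleMap W₀).symm, fun w => ?_⟩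
      · rintro _ ⟨w, hw, rfl⟩ h0
        have : w = 0 := hWN w hw fun y hy => (OQ_polar g w y).symm.trans (h0 _ ⟨y, hy, rfl⟩)
        rw [this, map_zero]
      · conv_rhs => rw [← (g.1.submoduleMap W₀).apply_symm_apply w, LinearEquiv.submoduleMap_apply, OQ_map_app]
    · rintro ⟨-, hWn, T, hT⟩
      obtain ⟨g, hg⟩ := OrthSubspace.exists_isometry_map h2 hB (nonDegOn_iff.1 hWn) hWN T hT
      refine ⟨g⁻¹, ?_⟩
      show g⁻¹ • W₀ = W
      rw [inv_smul_eq_iff]; exact hg.symm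
  set St := MulAction.stabilizer (OQ R) W₀
  have hcard : Nat.card {W : Submodule F (Idx → F) // IsMember W₀ W} * Nat.card St = Nat.card (OQ R) := by
    rw [← Nat.card_congr (Equiv.subtypeEquivRight horb), Nat.card_congr (MulAction.orbitEquivQuotientStabilizer _ _),
      ← Subgroup.index, Subgroup.index_mul_card]
  -- the orthogonal group of the complement
  set P := LinearMap.BilinForm.orthogonal R.polarBilin W₀
  have hcpl := LinearMap.BilinForm.isCompl_orthogonal_of_restrict_nondegenerate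
    (fun _ _ h => Orth.symm_zero OrthSubspace.isSymm h)
    (Orth.nonDegOn_restrict (B := R.polarBilin) OrthSubspace.isSymm hWN).2
  let E := Submodule.prodEquivOfIsCompl W₀ P hcpl
  let φ₀ : OQ (R.comp P.subtype) →* OQ R :=
    { toFun := fun h => ⟨E.symm ≪≫ₗ ((LinearEquiv.refl F W₀).prodCongr h.1) ≪≫ₗ E, fun v => by
        obtain ⟨⟨x, y⟩, rfl⟩ := E.surjective v
        rw [LinearEquiv.trans_apply, LinearEquiv.trans_apply, LinearEquiv.symm_apply_apply]
        show R ((x : Idx → F) + (h.1 y : Idx → F)) = R ((x : Idx → F) + (y : Idx → F))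
        rw [QuadraticMap.map_add R, QuadraticMap.map_add R (x : Idx → F) (y : Idx → F),
          show R (h.1 y : Idx → F) = R (y : Idx → F) from h.2 y,
          show polar R (x : Idx → F) (h.1 y : Idx → F) = 0 from (h.1 y).2 x x.2,
          show polar R (x : Idx → F) (y : Idx → F) = 0 from y.2 x x.2]⟩
      map_one' := Subtype.ext (LinearEquiv.ext fun v => E.apply_symm_apply v)
      map_mul' := fun g h => Subtype.ext (LinearEquiv.ext fun v => by
        show E ((LinearEquiv.refl F W₀).prodCongr (g * h).1 (E.symm v)) =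
          E ((LinearEquiv.refl F W₀).prodCongr g.1 (E.symm (E ((LinearEquiv.refl F W₀).prodCongr h.1 (E.symm v)))))
        rw [LinearEquiv.symm_apply_apply]
        rfl) }
  have hφ₀ : Function.Injective φ₀ := fun g h hgh => Subtype.ext (LinearEquiv.ext fun y => by
    have e : ∀ k, (φ₀ k).1 (E (0, y)) = E (0, k.1 y) := fun k => by
      show E ((LinearEquiv.refl F W₀).prodCongr k.1 (E.symm (E (0, y)))) = _
      rw [LinearEquiv.symm_apply_apply]; rfl
    exact congrArg Prod.snd (E.injective ((e g).symm.trans ((congrArg (fun k : OQ R => k.1 (E (0, y))) hgh).trans (e h)))))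
  have hφSt : φ₀.range ≤ St := by
    rintro _ ⟨h, rfl⟩
    refine MulAction.mem_stabilizer_iff.2 ?_
    show W₀.map (φ₀ h).1.toLinearMap = W₀
    refine Submodule.eq_of_le_of_finrank_eq ?_ (LinearEquiv.finrank_map_eq _ W₀)
    rintro _ ⟨x, hx, rfl⟩
    show E ((LinearEquiv.refl F W₀).prodCongr h.1 (E.symm x)) ∈ W₀
    rw [show E.symm x = ((⟨x, hx⟩ : W₀), (0 : P)) from E.injective ((E.apply_symm_apply x).trans
      (show x = x + (0 : Idx → F) from (add_zero x).symm))]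
    show x + (h.1 0 : Idx → F) ∈ W₀
    rw [map_zero, ZeroMemClass.coe_zero, add_zero]; exact hx
  obtain ⟨z, hz⟩ : Nat.card (OQ (R.comp P.subtype)) ∣ Nat.card St :=
    (Nat.card_congr (MonoidHom.ofInjective hφ₀).toEquiv).symm ▸ Subgroup.card_dvd_of_le hφSt
  -- its order
  have hPd : finrank F P = 2 * (n + 1) - m := by
    have : finrank F W₀ + finrank F P = finrank F (Idx → F) := Submodule.finrank_add_eq_of_isCompl hcpl
    rw [hW₀, finrank_minus_space] at this
    omega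
  have hPN : NonDegOn R.polarBilin P := fun y hy hy0 => hB y fun v => by
    obtain ⟨x, hx, y', hy', rfl⟩ := Submodule.mem_sup.1 (hcpl.sup_eq_top ▸ Submodule.mem_top : v ∈ W₀ ⊔ P)
    rw [polar_add_right, polar_comm R y x, show polar R x y = 0 from hy x hx, zero_add]
    exact hy0 y' hy'
  obtain ⟨e, hcase⟩ := exists_finite_witt_decomposition (R.comp P.subtype)
    (nonsingOn_top_of_nondegenerate (LinearMap.BilinForm.Nondegenerate.ofSeparatingLeft
      fun u hu => OrthSubspace.bNondeg_restrict hPN u hu))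
  rw [hPd] at hcase
  obtain ⟨m', hm'⟩ := hm
  rcases hcase with ⟨he, -⟩ | ⟨he, α, ha, f, hf⟩ | ⟨he, -⟩
  · omega
  swap
  · omega
  have hcP : Nat.card (OQ (R.comp P.subtype)) = 2 * Fintype.card F ^ (e ^ 2) *
      ∏ l ∈ Finset.range e, (Fintype.card F ^ (2 * (l + 1)) - 1) := by
    have hsub : OQ (α⁻¹ • R.comp P.subtype) = OQ (R.comp P.subtype) := by
      ext g
      simp [mem_OQ, ha]
    rw [← hsub, Nat.card_congr (OQCongr (Q := α⁻¹ • R.comp P.subtype) (f.trans (oddEquiv e)) (fun v => by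
        rw [LinearEquiv.trans_apply, oddEquiv_spec, oddQF_apply]
        simp only [_root_.smul_apply, smul_eq_mul, hf v, ← mul_assoc, inv_mul_cancel₀ ha, one_mul])).toEquiv,
      card_OQ_odd (by
        rw [Nat.card_eq_fintype_card, Nat.odd_iff]
        exact FiniteField.odd_card_of_char_ne_two fun h => h2 (by
          have := ringChar.charP F; rw [h] at this; exact CharTwo.two_eq_zero)), Nat.card_eq_fintype_card]
  rw [Nat.card_congr (OQCongr (Q := R) (R := hypExt n (binQF a b)) (minusEquiv n) (minusEquiv_spec n a b)).toEquiv,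
    card_OQ_minus (anisotropic_binQF hab), Nat.card_eq_fintype_card (α := F), hz, hcP,
    ← Finset.prod_range_mul_prod_Ico _ (show e ≤ n by omega)] at hcard
  set q := Fintype.card F
  set A := ∏ l ∈ Finset.range e, (q ^ (2 * (l + 1)) - 1)
  set N := Nat.card {W : Submodule F ((Fin n ⊕ Fin n) ⊕ Fin 2 → F) // IsMember W₀ W}
  have hA : 0 < 2 * A := Nat.mul_pos two_pos (Finset.prod_pos fun l _ =>
    Nat.sub_pos_of_lt (Nat.one_lt_pow (by omega) Fintype.one_lt_card))
  have heq : N * q ^ (e ^ 2) * z =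
      q ^ ((n + 1) * n) * ((q ^ (n + 1) + 1) * ∏ l ∈ Finset.Ico e n, (q ^ (2 * (l + 1)) - 1)) :=
    Nat.eq_of_mul_eq_mul_left hA (by linear_combination hcard)
  have hdvd : r ∣ q ^ ((n + 1) * n) * ((q ^ (n + 1) + 1) * ∏ l ∈ Finset.Ico e n, (q ^ (2 * (l + 1)) - 1)) :=
    heq ▸ dvd_mul_of_dvd_left (dvd_mul_of_dvd_left hrΩ _) _
  have hord : ∀ t, r ∣ q ^ t - 1 → i ∣ t := fun t ht => by
    rw [← ZMod.natCast_eq_zero_iff, Nat.cast_sub (Nat.one_le_pow _ _ Fintype.card_pos), Nat.cast_pow, Nat.cast_one,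
      sub_eq_zero] at ht
    exact hi ▸ orderOf_dvd_of_pow_eq_one ht
  have hc2 : ∀ t, i ∣ 2 * t → c ∣ 2 * t := fun t ht => by
    rw [hc]
    split_ifs with he
    · exact ht
    · exact Nat.mul_dvd_mul_left 2 ((Nat.Coprime.dvd_of_dvd_mul_left
        (Nat.coprime_two_right.2 (Nat.not_even_iff_odd.1 he)) ht))
  have hrp : r.Prime := Fact.out
  rcases hrp.dvd_mul.1 hdvd with h | h
  · exact hr (hrp.dvd_of_dvd_pow h)
  rcases hrp.dvd_mul.1 h with h | h
  · have hd2 : r ∣ q ^ (2 * (n + 1)) - 1 := by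
      rw [show q ^ (2 * (n + 1)) - 1 = (q ^ (n + 1) + 1) * (q ^ (n + 1) - 1) by
        rw [← Nat.sq_sub_sq, one_pow, ← pow_mul, mul_comm (n + 1)]]
      exact h.mul_right _
    have := Nat.mod_eq_zero_of_dvd (hc2 (n + 1) (hord _ hd2))
    omega
  · obtain ⟨l, hl, hl'⟩ := (Prime.dvd_finsetProd_iff hrp.prime _).1 h
    rw [Finset.mem_Ico] at hl
    obtain ⟨t, ht⟩ := hc2 (l + 1) (hord _ hl')
    have hdm := Nat.div_add_mod (2 * (n + 1)) c
    have h1 : c * (2 * (n + 1) / c) < c * t := by omega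
    have h3 : c * t < c * (2 * (n + 1) / c + 1) := by
      rw [Nat.mul_succ]
      have := Nat.mod_lt (2 * (n + 1)) (show 0 < c by omega)
      omega
    have := Nat.lt_of_mul_lt_mul_left h1
    have := Nat.lt_of_mul_lt_mul_left h3
    omega

/-- An invariant member of the class. -/
theorem exists_fixed_member (h2 : (2 : F) ≠ 0) {W₀ : Submodule F (Idx → F)}
    (hN : Cfsg.Geo.IsNondegenerateOn (polar ⇑(minusQF n a b)) W₀) {f : Module.End F (Idx → F)}
    {C M : Submodule F (Idx → F)} (hC : NonDegOn (minusQF n a b).polarBilin C)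
    (hM : NonDegOn (minusQF n a b).polarBilin M) (ho : ∀ x ∈ C, ∀ y ∈ M, polar (minusQF n a b) x y = 0) {e : ℕ}
    (he0 : 0 < e) (he : e < finrank F C) (hd : finrank F W₀ = e + finrank F M)
    (hfC : ∃ a : F, ∀ v ∈ C, f v = a • v) (hfM : ∀ v ∈ M, f v ∈ M) :
    ∃ W, IsMember W₀ W ∧ ∀ v ∈ W, f v ∈ W := by
  obtain ⟨C', hC', hd', hN', T, hT⟩ := OrthSubspace.exists_member h2 hC hM ho (nonDegOn_iff.1 hN) he0 he hd
  obtain ⟨a, ha⟩ := hfC
  refine ⟨C' ⊔ M, ⟨hd', nonDegOn_iff.2 hN', T, hT⟩, fun v hv => ?_⟩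
  obtain ⟨x, hx, y, hy, rfl⟩ := Submodule.mem_sup.1 hv
  rw [map_add, ha x (hC' hx)]
  exact add_mem (Submodule.mem_sup_left (C'.smul_mem a hx)) (Submodule.mem_sup_right (hfM y hy))

/-- Elements of odd prime order fixing a member. -/
theorem fix_odd {p : ℕ} [Fact p.Prime] [CharP F p] (h2 : (2 : F) ≠ 0) (hab : BinaryAniso a b) {W₀ : Submodule F (Idx → F)}
    (hN : Cfsg.Geo.IsNondegenerateOn (polar ⇑(minusQF n a b)) W₀) (hm : Odd (finrank F W₀))
    (hmd : finrank F W₀ < n + 1) {r : ℕ} [Fact r.Prime] (hrp : r ≠ p) (hr : ¬ r ∣ Fintype.card F) (hr2 : r ≠ 2) {i c : ℕ}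
    (hi : i = orderOf ((Fintype.card F : ℕ) : ZMod r)) (hc : c = if Even i then i else 2 * i)
    (hcond : (2 * (n + 1) % c = 0 ∧ (Odd i ∨ Even (2 * (n + 1) / i))) ∨ finrank F W₀ % c < 2 * (n + 1) % c)
    {g : OQ (minusQF n a b)} (hg : g ^ r = 1) :
    ∃ W, IsMember W₀ W ∧ ∀ v ∈ W, g.1 v ∈ W := by
  set m := finrank F W₀
  set f : Module.End F (Idx → F) := g.1.toLinearMap with hf
  have hfr : f ^ r = 1 := by rw [hf, ← OrthPlus.toLinearMap_pow, hg]; rfl
  have hiso : ∀ u v, (minusQF n a b).polarBilin (f u) (f v) = (minusQF n a b).polarBilin u v := fun u v => OQ_polar g u v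
  have htop : NonDegOn (minusQF n a b).polarBilin ⊤ := fun u _ hu => (FieldExtOrth.minus_nondeg h2 hab) u fun v => hu v trivial
  obtain ⟨M, -, hfM, hMN, ho, -, -, hmult, j, hj, hMd⟩ := Orth.exists_moving_part
    (B := (minusQF n a b).polarBilin) OrthSubspace.isSymm h2 hiso hfr hr hr2 (W := ⊤) (fun _ _ => trivial) htop hi hc
  set C := (⊤ : Submodule F (Idx → F)) ⊓ LinearMap.ker (f - 1)
  have hCN : NonDegOn (minusQF n a b).polarBilin C := Orth.nonDegOn_inf_ker hiso hfr hr (fun _ _ => trivial) htop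
  rw [finrank_top, finrank_minus_space] at hj
  have hi0 : 0 < i := hi ▸ orderOf_pos_of_not_dvd hr
  have hce : c % 2 = 0 := by
    rw [hc]; split_ifs with h
    · exact Nat.even_iff.1 h
    · omega
  have hc0 : 0 < c := by rw [hc]; split_ifs <;> omega
  have hmc := Nat.mod_add_div m c
  have hmc' : m % c % 2 = m % 2 := Nat.mod_mod_of_dvd _ (Nat.dvd_of_mod_eq_zero hce)
  have hmodd := Nat.odd_iff.1 hm
  have hlt := Nat.mod_lt m hc0
  have hC : m % c < finrank F C := by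
    rcases hcond with ⟨hk, hpar⟩ | h
    · have hne : finrank F C ≠ 0 := fun h0 => by
        obtain ⟨A, hA, hpA⟩ : ∃ A, 2 * (n + 1) = A * i ∧ (Odd i ∨ Even A) := by
          refine ⟨2 * (n + 1) / i, (Nat.div_mul_cancel ?_).symm, hpar⟩
          refine dvd_trans ?_ (Nat.dvd_of_mod_eq_zero hk)
          rw [hc]; split_ifs
          · exact dvd_rfl
          · exact dvd_mul_left i 2
        obtain ⟨v, hv0, hv⟩ := exists_fixed_vector hrp hr hr2 hab hi hA hpA g hg
        rw [Submodule.finrank_eq_zero] at h0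
        exact hv0 ((Submodule.eq_bot_iff _).1 h0 v ⟨trivial, by
          rw [SetLike.mem_coe, LinearMap.mem_ker, LinearMap.sub_apply, Module.End.one_apply, sub_eq_zero]; exact hv⟩)
      have hdvd : c ∣ finrank F C :=
        (Nat.dvd_add_left (dvd_mul_left c j)).1 (hj ▸ Nat.dvd_of_mod_eq_zero hk)
      have := Nat.le_of_dvd (Nat.pos_of_ne_zero hne) hdvd
      omega
    · have : 2 * (n + 1) % c ≤ finrank F C := by
        rw [hj, Nat.add_mul_mod_self_right]; exact Nat.mod_le _ _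
      omega
  obtain ⟨e, j', hj', he0, he, hem⟩ : ∃ e j', j' ≤ j ∧ 0 < e ∧ e < finrank F C ∧ m = e + j' * c := by
    by_cases hle : m / c ≤ j
    · exact ⟨m % c, m / c, hle, by omega, hC, by rw [mul_comm (m / c)]; omega⟩
    · have h1 : (j + 1) * c ≤ m / c * c := Nat.mul_le_mul_right c (by omega)
      rw [Nat.succ_mul, mul_comm (m / c)] at h1
      exact ⟨m - j * c, j, le_rfl, by omega, by omega, by omega⟩
  obtain ⟨U, hUM, hfU, hUN, hUd⟩ := hmult j' (by rw [hMd]; exact Nat.mul_le_mul_right c hj')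
  refine exists_fixed_member h2 hN (f := f) hCN hUN (fun x hx y hy => ho x hx y (hUM hy)) he0 he
    (by rw [hUd]; exact hem) ⟨1, fun v hv => ?_⟩ hfU
  rw [one_smul]
  exact sub_eq_zero.1 (LinearMap.mem_ker.1 hv.2)

/-- An element of odd prime order fixing no member. -/
theorem bad_odd (h2 : (2 : F) ≠ 0) (hab : BinaryAniso a b) {W₀ : Submodule F (Idx → F)}
    (hm : Odd (finrank F W₀))
    {r : ℕ} [Fact r.Prime] (hr : ¬ r ∣ Fintype.card F) (hr2 : r ≠ 2) {i c : ℕ}
    (hi : i = orderOf ((Fintype.card F : ℕ) : ZMod r)) (hc : c = if Even i then i else 2 * i)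
    (hcond : (2 * (n + 1) % c = 0 ∧ Even i ∧ Odd (2 * (n + 1) / i)) ∨ (0 < 2 * (n + 1) % c ∧ 2 * (n + 1) % c ≤ finrank F W₀ % c)) :
    ∃ g : OQ (minusQF n a b), g ^ r = 1 ∧ ∀ W, IsMember W₀ W → ¬ (∀ v ∈ W, g.1 v ∈ W) := by
  set m := finrank F W₀
  have hi0 : 0 < i := hi ▸ orderOf_pos_of_not_dvd hr
  have hce : c % 2 = 0 := by
    rw [hc]; split_ifs with h
    · exact Nat.even_iff.1 h
    · omega
  have hmc' : m % c % 2 = m % 2 := Nat.mod_mod_of_dvd _ (Nat.dvd_of_mod_eq_zero hce)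
  have hk' : 2 * (n + 1) % c % 2 = 0 := by rw [Nat.mod_mod_of_dvd _ (Nat.dvd_of_mod_eq_zero hce)]; omega
  have hmodd := Nat.odd_iff.1 hm
  obtain ⟨g, hg, hfix⟩ : ∃ g : OQ (minusQF n a b), g ^ r = 1 ∧
      finrank F (LinearMap.ker ((g.1.toLinearMap : Module.End F _) - 1)) < m % c := by
    obtain ⟨g, hg, hle'⟩ := exists_small_fixed hr hab hi hc
      (hcond.elim (fun h => Or.inr h.2) fun h => Or.inl h.1)
    exact ⟨g, hg, by rcases hcond with ⟨h, -⟩ | ⟨-, h⟩ <;> omega⟩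
  refine ⟨g, hg, fun W hW hinv => ?_⟩
  set f : Module.End F (Idx → F) := g.1.toLinearMap with hf
  have hfr : f ^ r = 1 := by rw [hf, ← OrthPlus.toLinearMap_pow, hg]; rfl
  obtain ⟨M, -, -, -, -, -, -, -, j, hj, -⟩ := Orth.exists_moving_part
    (B := (minusQF n a b).polarBilin) OrthSubspace.isSymm h2 (fun u v => OQ_polar g u v) hfr hr hr2 (W := W) hinv
    (nonDegOn_iff.1 hW.2.1) hi hc
  rw [hW.1] at hj
  have h1 := Submodule.finrank_mono (inf_le_right : W ⊓ LinearMap.ker (f - 1) ≤ _)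
  have h3 : m % c ≤ finrank F ↥(W ⊓ LinearMap.ker (f - 1)) := by
    show finrank F W₀ % c ≤ _
    rw [hj, Nat.add_mul_mod_self_right]; exact Nat.mod_le _ _
  omega

/-- Involutions fix members. -/
theorem fix_involution (h2 : (2 : F) ≠ 0) (hab : BinaryAniso a b) {W₀ : Submodule F (Idx → F)}
    (hN : Cfsg.Geo.IsNondegenerateOn (polar ⇑(minusQF n a b)) W₀) (hm0 : 0 < finrank F W₀)
    (hmd : finrank F W₀ < n + 1) {g : OQ (minusQF n a b)} (hgg : ∀ v, g.1 (g.1 v) = v)
    (hg1 : ∃ v, g.1 v ≠ v) (hg2 : ∃ v, g.1 v ≠ -v) : ∃ W, IsMember W₀ W ∧ ∀ v ∈ W, g.1 v ∈ W := by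
  set m := finrank F W₀
  set f : Module.End F (Idx → F) := g.1.toLinearMap
  set Sn := LinearMap.ker (f - (-1 : F) • 1)
  set Sp := LinearMap.ker (f - (1 : F) • 1)
  have hmn : ∀ {v}, v ∈ Sn ↔ g.1 v = -v := fun {v} => by
    rw [LinearMap.mem_ker, LinearMap.sub_apply, LinearMap.smul_apply, Module.End.one_apply, sub_eq_zero,
      neg_one_smul]; rfl
  have hmp : ∀ {v}, v ∈ Sp ↔ g.1 v = v := fun {v} => by
    rw [LinearMap.mem_ker, LinearMap.sub_apply, LinearMap.smul_apply, Module.End.one_apply, sub_eq_zero,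
      one_smul]; rfl
  have horth : ∀ u ∈ Sn, ∀ v ∈ Sp, polar (minusQF n a b) u v = 0 := fun u hu v hv => by
    have h := OQ_polar g u v
    rw [hmn.1 hu, hmp.1 hv, polar_neg_left] at h
    have : (2 : F) * polar (minusQF n a b) u v = 0 := by linear_combination -h
    exact (mul_eq_zero.1 this).resolve_left h2
  have hdec : ∀ v, ∃ a ∈ Sn, ∃ b ∈ Sp, a + b = v := fun v => by
    refine ⟨(2 : F)⁻¹ • (v - g.1 v), hmn.2 ?_, (2 : F)⁻¹ • (v + g.1 v), hmp.2 ?_, ?_⟩
    · rw [map_smul, map_sub, hgg, ← smul_neg, neg_sub]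
    · rw [map_smul, map_add, hgg, add_comm]
    · rw [← smul_add, show v - g.1 v + (v + g.1 v) = (2 : F) • v by rw [two_smul]; abel, inv_smul_smul₀ h2]
  have hB : BNondeg (minusQF n a b) := (FieldExtOrth.minus_nondeg h2 hab)
  have hNn : NonDegOn (minusQF n a b).polarBilin Sn := fun u hu h => hB u fun v => by
    obtain ⟨a, ha, b, hb, rfl⟩ := hdec v
    rw [polar_add_right, horth u hu b hb, add_zero]; exact h a ha
  have hNp : NonDegOn (minusQF n a b).polarBilin Sp := fun u hu h => hB u fun v => by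
    obtain ⟨a, ha, b, hb, rfl⟩ := hdec v
    rw [polar_add_right, polar_comm _ u a, horth a ha u hu, zero_add]; exact h b hb
  have hsum : 2 * (n + 1) ≤ finrank F Sn + finrank F Sp := by
    have hle : (⊤ : Submodule F (Idx → F)) ≤ Sn ⊔ Sp := fun v _ => by
      obtain ⟨a, ha, b, hb, rfl⟩ := hdec v; exact Submodule.add_mem_sup ha hb
    have := (Submodule.finrank_mono hle).trans (Submodule.finrank_add_le_finrank_add_finrank _ _)
    rwa [finrank_top, finrank_minus_space] at this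
  have hn0 : 0 < finrank F Sn := Nat.pos_of_ne_zero fun h0 => by
    obtain ⟨v, hv⟩ := hg1
    obtain ⟨a, ha, b, hb, rfl⟩ := hdec v
    rw [Submodule.finrank_eq_zero] at h0
    rw [h0, Submodule.mem_bot] at ha
    subst ha
    exact hv (by rw [zero_add]; exact hmp.1 hb)
  have hp0 : 0 < finrank F Sp := Nat.pos_of_ne_zero fun h0 => by
    obtain ⟨v, hv⟩ := hg2
    obtain ⟨a, ha, b, hb, rfl⟩ := hdec v
    rw [Submodule.finrank_eq_zero] at h0
    rw [h0, Submodule.mem_bot] at hb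
    subst hb
    exact hv (by rw [add_zero]; exact hmn.1 ha)
  have key : ∀ {α α' : F} {S T : Submodule F (Idx → F)}, (∀ v ∈ S, g.1 v = α • v) → (∀ v ∈ T, g.1 v = α' • v) →
      NonDegOn (minusQF n a b).polarBilin S → NonDegOn (minusQF n a b).polarBilin T →
      (∀ x ∈ S, ∀ y ∈ T, polar (minusQF n a b) x y = 0) → 2 ≤ finrank F S → 2 * (n + 1) ≤ finrank F S + finrank F T →
      ∃ W, IsMember W₀ W ∧ ∀ v ∈ W, g.1 v ∈ W := by
    intro α α' S T hS hT hSN hTN ho hS2 hST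
    obtain ⟨e, e', he0, he, he', hem⟩ : ∃ e e', 0 < e ∧ e < finrank F S ∧ e' ≤ finrank F T ∧ m = e + e' := by
      by_cases hlt : m < finrank F S
      · exact ⟨m, 0, hm0, hlt, by omega, by omega⟩
      · exact ⟨finrank F S - 1, m - (finrank F S - 1), by omega, by omega, by omega, by omega⟩
    obtain ⟨w, hw, hwo, hw0⟩ := OrthSubspace.exists_orth_family h2 hTN
    let w' : Fin e' → Idx → F := fun j => w (Fin.castLE he' j)
    have hw'o : ∀ i j, i ≠ j → polar (minusQF n a b) (w' i) (w' j) = 0 := fun i j h =>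
      hwo _ _ fun h' => h (Fin.castLE_injective he' h')
    have hle : Submodule.span F (Set.range w') ≤ T := Submodule.span_le.2 (Set.range_subset_iff.2 fun j => hw _)
    refine exists_fixed_member h2 hN (f := f) (M := Submodule.span F (Set.range w')) hSN
      (OrthInvolField.nonDegOn_span hw'o fun j => hw0 _) (fun x hx y hy => ho x hx y (hle hy)) he0 he
      (by rw [finrank_span_eq_card (OrthInvolField.linearIndependent_of_orth hw'o fun j => hw0 _), Fintype.card_fin]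
          exact hem) ⟨α, hS⟩ fun v hv => ?_
    show g.1 v ∈ _
    rw [hT v (hle hv)]; exact Submodule.smul_mem _ _ hv
  by_cases h : 2 ≤ finrank F Sp
  · exact key (α := 1) (α' := -1) (fun v hv => by rw [one_smul]; exact hmp.1 hv)
      (fun v hv => by rw [neg_one_smul]; exact hmn.1 hv) hNp hNn
      (fun x hx y hy => by rw [polar_comm]; exact horth y hy x hx) h (by omega)
  · exact key (α := -1) (α' := 1) (fun v hv => by rw [neg_one_smul]; exact hmn.1 hv)
      (fun v hv => by rw [one_smul]; exact hmp.1 hv) hNn hNp horth (by omega) hsum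

/-- Unipotent elements fixing no member. -/
theorem not_all_fix_unipotent {p : ℕ} [Fact p.Prime] [CharP F p] (h2 : (2 : F) ≠ 0) (hab : BinaryAniso a b)
    (hn : 3 ≤ n) {W₀ : Submodule F (Idx → F)} (hN : Cfsg.Geo.IsNondegenerateOn (polar ⇑(minusQF n a b)) W₀)
    (hm : Odd (finrank F W₀)) (hmd : finrank F W₀ < n + 1) :
    ¬ ∀ x : GL Idx F, x ∈ Cfsg.Geo.omegaGL ⇑(minusQF n a b) →
      (∃ z : F, ((x ^ p : GL Idx F) : Matrix Idx Idx F) = z • (1 : Matrix Idx Idx F)) →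
      (∀ z : F, (x : Matrix Idx Idx F) ≠ z • (1 : Matrix Idx Idx F)) →
      ∃ W, IsMember W₀ W ∧ W.map (Matrix.toLin' (x : Matrix Idx Idx F)) ≤ W := by
  intro H
  set m := finrank F W₀
  have hp2 : p ≠ 2 := fun h => h2 (by
    have := CharP.cast_eq_zero F p
    rw [h] at this
    exact_mod_cast this)
  have hp3 : 3 ≤ p := by have := (Fact.out : p.Prime).two_le; omega
  have hB := FieldExtOrth.minus_nondeg (m := n) h2 hab
  rcases Nat.even_or_odd (n + 1) with he | ho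
  · obtain ⟨g, hg, hno⟩ := exists_unipotent_no_member (p := p) h2 hp3 hB (d := n + 1) (by omega) he
      (by rw [Fintype.card_sum, Fintype.card_sum, Fintype.card_fin, Fintype.card_fin]; omega)
      (nonDegOn_iff.1 hN) hm (by omega)
    exact not_all_fix hN (Elusive25.mem_commutator_of_pow hB (OrthGen.notExceptional_of_two_ne_zero h2)
      ((Fact.out : p.Prime).odd_of_ne_two hp2) hg) (r := p) (z := 1) (fun v => by rw [hg, one_smul]; rfl)
      (fun W hW => hno W hW.1 (nonDegOn_iff.1 hW.2.1) hW.2.2) H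
  have H' : ∀ x : GL Idx F, x ∈ Cfsg.Geo.omegaGL ⇑(minusQF n a b) → x ^ p = 1 →
      (∀ z : F, (x : Matrix Idx Idx F) ≠ z • (1 : Matrix Idx Idx F)) →
      ∃ W : Submodule F (Idx → F), (finrank F W = m ∧ Cfsg.Geo.IsNondegenerateOn (polar ⇑(minusQF n a b)) W ∧
        Cfsg.Geo.AreIsometricFor ⇑(minusQF n a b) W W₀) ∧ W.map (Matrix.toLin' (x : Matrix Idx Idx F)) ≤ W :=
    fun x hx hxp hns => H x hx ⟨1, by rw [hxp, Units.val_one, one_smul]⟩ hns
  have hmodd := Nat.odd_iff.1 hm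
  obtain ⟨μ, hμs, hμmem, hμev, hμodd, hμ⟩ : ∃ μ : Multiset ℕ, μ.sum = 2 * (n + 1) ∧
      (∀ e ∈ μ, e = 1 ∨ e = 2 ∨ e = 3) ∧ Even (μ.count 2) ∧ (∃ e ∈ μ, Odd e) ∧
      ∀ c₁ c₂ c₃ : ℕ, c₁ ≤ μ.count 1 → c₃ ≤ μ.count 3 → Even c₂ → c₁ + 2 * c₂ + 3 * c₃ ≠ m := by
    obtain ⟨k, hk⟩ := ho
    by_cases h4 : m % 4 = 1
    · refine ⟨3 ::ₘ 3 ::ₘ Multiset.replicate (2 * (k - 1)) 2, by simp; omega, fun e h => ?_, by simp,
        ⟨3, by simp, by decide⟩, fun c₁ c₂ c₃ h1 h3 h2' => ?_⟩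
      · simp [Multiset.mem_replicate] at h; omega
      · simp [Multiset.count_replicate] at h1 h3
        obtain ⟨t, rfl⟩ := h2'
        omega
    · refine ⟨1 ::ₘ 1 ::ₘ Multiset.replicate (2 * k) 2, by simp; omega, fun e h => ?_, by simp,
        ⟨1, by simp, by decide⟩, fun c₁ c₂ c₃ h1 h3 h2' => ?_⟩
      · simp [Multiset.mem_replicate] at h; omega
      · simp [Multiset.count_replicate] at h1 h3
        obtain ⟨t, rfl⟩ := h2'
        omega
  obtain ⟨ν, hν, hνs, hνe⟩ := Elusive25.subpartition_of_fixed h2 (FieldExtOrth.minus_nondeg h2 hab) (m := m)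
    (by rw [Fintype.card_sum, Fintype.card_sum, Fintype.card_fin, Fintype.card_fin]; omega)
    (P := fun W => Cfsg.Geo.AreIsometricFor ⇑(minusQF n a b) W W₀) H' μ
    (fun e he => by rcases hμmem e he with rfl | rfl | rfl <;> omega)
    (fun e he => by
      by_cases h : e ∈ μ
      · rcases hμmem e h with rfl | rfl | rfl
        · exact absurd he (by decide)
        · exact hμev
        · exact absurd he (by decide)
      · rw [Multiset.count_eq_zero.2 h]; exact Even.zero)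
    (by rw [hμs, Fintype.card_sum, Fintype.card_sum, Fintype.card_fin, Fintype.card_fin]; omega) (Or.inl hμodd)
  have hsum := Elusive25.sum_of_small (ν := ν) fun e he => hμmem e (Multiset.mem_of_le hν he)
  exact hμ _ _ _ (Multiset.le_iff_count.1 hν 1) (Multiset.le_iff_count.1 hν 3) (hνe 2 even_two) (by omega)

/-- The criterion. -/
theorem iff_main {p : ℕ} [Fact p.Prime] [CharP F p] (h2 : (2 : F) ≠ 0) (hab : BinaryAniso a b) {m : ℕ} (hd : 3 ≤ n) (hm : Odd m)
    (hmd : m < n + 1) {W₀ : Submodule F (Idx → F)} (hW₀ : finrank F W₀ = m)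
    (hN : Cfsg.Geo.IsNondegenerateOn (polar ⇑(minusQF n a b)) W₀) {r : ℕ} [Fact r.Prime]
    (hrΩ : r ∣ Nat.card {W : Submodule F (Idx → F) // IsMember W₀ W}) {i c : ℕ}
    (hi : i = orderOf ((Fintype.card F : ℕ) : ZMod r)) (hc : c = if Even i then i else 2 * i) :
    (∀ x : GL Idx F, x ∈ Cfsg.Geo.omegaGL ⇑(minusQF n a b) →
      (∃ z : F, ((x ^ r : GL Idx F) : Matrix Idx Idx F) = z • (1 : Matrix Idx Idx F)) →
      (∀ z : F, (x : Matrix Idx Idx F) ≠ z • (1 : Matrix Idx Idx F)) →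
      ∃ W, IsMember W₀ W ∧ W.map (Matrix.toLin' (x : Matrix Idx Idx F)) ≤ W) ↔
    ((r = 2 ∧ (Even (n + 1) ∨ Fintype.card F % 8 ≠ 7)) ∨
     (r ≠ p ∧ 2 < r ∧ Odd i ∧ ((2 * (n + 1)) % c = 0 ∨ (c ≤ m ∧ 0 < m % c ∧ m % c < (2 * (n + 1)) % c))) ∨
     (r ≠ p ∧ 2 < r ∧ Even i ∧ (((2 * (n + 1)) % c = 0 ∧ Even ((2 * (n + 1)) / i)) ∨
       (0 < (2 * (n + 1)) % c ∧ i ≤ m ∧ 0 < m % c ∧ m % c < (2 * (n + 1)) % c)))) := by
  classical
  have hrp : r.Prime := Fact.out
  have hp2 : p ≠ 2 := fun h => h2 (by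
    have := CharP.cast_eq_zero F p
    rw [h] at this
    exact_mod_cast this)
  obtain ⟨e, -, hcard⟩ := FiniteField.card F p
  have hrq : r ≠ p → ¬ r ∣ Fintype.card F := fun h h' =>
    h ((Nat.prime_dvd_prime_iff_eq hrp Fact.out).1 (hrp.dvd_of_dvd_pow (hcard ▸ h')))
  have hx := OrthGen.notExceptional_of_two_ne_zero (Q := minusQF n a b) h2
  have hB := FieldExtOrth.minus_nondeg (m := n) h2 hab
  constructor
  · intro h
    rcases eq_or_ne r 2 with rfl | hr2
    · refine Or.inl ⟨rfl, ?_⟩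
      by_contra hno
      push Not at hno
      obtain ⟨w, hw⟩ := Nat.not_even_iff_odd.1 hno.1
      obtain rfl : n = w + w := by omega
      obtain ⟨g, hg, hgg⟩ := exists_sq_neg_one h2 w hab hno.2
      refine not_all_fix hN hg (r := 2) (z := -1) (fun v => by rw [neg_one_smul, pow_two]; exact hgg v)
        (fun W hW hinv => ?_) h
      have hev := OrthPlus.even_finrank_of_sq_neg_one h2 (R := minusQF (w + w) a b) (f := g.1.toLinearMap)
        (fun v => g.2 v) hgg hinv (nonDegOn_iff.1 hW.2.1)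
      rw [hW.1, hW₀] at hev
      exact Nat.not_even_iff_odd.2 hm hev
    rcases eq_or_ne r p with rfl | hrp'
    · exact absurd h (not_all_fix_unipotent h2 hab hd hN (hW₀ ▸ hm) (hW₀ ▸ hmd))
    have hr := hrq hrp'
    have h2r : 2 < r := lt_of_le_of_ne hrp.two_le (Ne.symm hr2)
    have hce : c % 2 = 0 := by
      rw [hc]; split_ifs with h
      · exact Nat.even_iff.1 h
      · omega
    have hi0 : 0 < i := hi ▸ orderOf_pos_of_not_dvd hr
    have hc0 : 0 < c := by rw [hc]; split_ifs <;> omega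
    have hsmall := not_small h2 hab hN hW₀ hm hmd hr hr2 hi hc hrΩ
    have hmc' : m % c % 2 = m % 2 := Nat.mod_mod_of_dvd _ (Nat.dvd_of_mod_eq_zero hce)
    have hmodd := Nat.odd_iff.1 hm
    by_contra hno
    have hcond : (2 * (n + 1) % c = 0 ∧ Even i ∧ Odd (2 * (n + 1) / i)) ∨
        (0 < 2 * (n + 1) % c ∧ 2 * (n + 1) % c ≤ finrank F W₀ % c) := by
      rw [hW₀]
      rcases Nat.eq_zero_or_pos (2 * (n + 1) % c) with hk | hk
      · rcases Nat.even_or_odd i with he | ho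
        · exact Or.inl ⟨hk, he, Nat.not_even_iff_odd.1 fun hJ =>
            hno (Or.inr (Or.inr ⟨hrp', h2r, he, Or.inl ⟨hk, hJ⟩⟩))⟩
        · exact absurd (Or.inr (Or.inl ⟨hrp', h2r, ho, Or.inl hk⟩)) hno
      · refine Or.inr ⟨hk, not_lt.1 fun hlt => ?_⟩
        have hcm : c ≤ m := not_lt.1 fun h => hsmall ⟨h, hlt⟩
        rcases Nat.even_or_odd i with he | ho
        · refine hno (Or.inr (Or.inr ⟨hrp', h2r, he, Or.inr ⟨hk, ?_, by omega, hlt⟩⟩))
          rw [if_pos he] at hc; omega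
        · exact hno (Or.inr (Or.inl ⟨hrp', h2r, ho, Or.inr ⟨hcm, by omega, hlt⟩⟩))
    obtain ⟨g, hg, hbad⟩ := bad_odd h2 hab (hW₀ ▸ hm) hr hr2 hi hc hcond
    exact not_all_fix hN (Elusive25.mem_commutator_of_pow (FieldExtOrth.minus_nondeg h2 hab) hx (hrp.odd_of_ne_two hr2) hg)
      (r := r) (z := 1) (fun v => by rw [hg, one_smul]; rfl) hbad h
  · intro hR x hxm ⟨z, hz⟩ hns
    obtain ⟨y, hy, rfl⟩ := hxm
    set g : OQ (minusQF n a b) := OrthGen.matEquiv (minusQF n a b) y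
    have hgc : g ∈ commutator (OQ (minusQF n a b)) := (mem_Omega_iff_matEquiv _ y).1 hy
    have hxg : Elusive25.glOf (minusQF n a b) g = (Cfsg.isometryGroup F ⇑(minusQF n a b)).subtype y := by
      simp [Elusive25.glOf, g]
    rw [← hxg] at hz hns ⊢
    have hmul := Elusive25.glOf_mulVec (minusQF n a b) g
    suffices ∃ W, IsMember W₀ W ∧ ∀ v ∈ W, g.1 v ∈ W by
      obtain ⟨W, hW, hinv⟩ := this
      refine ⟨W, hW, ?_⟩
      rintro _ ⟨v, hv, rfl⟩
      rw [Matrix.toLin'_apply, hmul]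
      exact hinv v hv
    have hgz : ∀ v, (g ^ r).1 v = z • v := fun v => by
      rw [← Elusive25.glOf_mulVec, map_pow, hz, smul_mulVec, one_mulVec]
    have hz2 : z * z = 1 := by
      let v : Idx → F := Pi.single (Sum.inr 0) 1
      have hv : minusQF n a b v = 1 := by
        simp [minusQF_apply, Cfsg.quadFormMinus, v, Pi.single_apply]
      have := (g ^ r).2 v
      rw [hgz, QuadraticMap.map_smul, hv, smul_eq_mul, mul_one] at this
      exact this
    rcases eq_or_ne r 2 with rfl | hr2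
    · obtain ⟨-, h8⟩ : 2 = 2 ∧ (Even (n + 1) ∨ Fintype.card F % 8 ≠ 7) := by
        rcases hR with h | ⟨-, h, -⟩ | ⟨-, h, -⟩
        · exact h
        · omega
        · omega
      rcases mul_self_eq_one_iff.1 hz2 with rfl | rfl
      · refine fix_involution h2 hab hN (by rw [hW₀]; exact hm.pos) (hW₀ ▸ hmd) (fun v => ?_) ?_ ?_
        · have := hgz v; rwa [pow_two, one_smul] at this
        · by_contra h
          push Not at h
          exact hns 1 (Matrix.ext_iff_mulVec.2 fun v => by rw [hmul, h, one_smul, one_mulVec])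
        · by_contra h
          push Not at h
          exact hns (-1) (Matrix.ext_iff_mulVec.2 fun v => by rw [hmul, h, neg_one_smul, neg_mulVec, one_mulVec])
      · exact absurd (fun v => by have := hgz v; rwa [pow_two, neg_one_smul] at this)
          (no_sq_neg_one h2 hab h8 hgc)
    obtain ⟨hrp', hcond⟩ : r ≠ p ∧
        ((2 * (n + 1) % c = 0 ∧ (Odd i ∨ Even (2 * (n + 1) / i))) ∨ finrank F W₀ % c < 2 * (n + 1) % c) := by
      rw [hW₀]
      rcases hR with ⟨h, -⟩ | ⟨h, -, ho, h' | h'⟩ | ⟨h, -, -, h' | h'⟩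
      · exact absurd h hr2
      · exact ⟨h, Or.inl ⟨h', Or.inl ho⟩⟩
      · exact ⟨h, Or.inr h'.2.2⟩
      · exact ⟨h, Or.inl ⟨h'.1, Or.inr h'.2⟩⟩
      · exact ⟨h, Or.inr h'.2.2.2⟩
    have hr := hrq hrp'
    have hodd : Odd r := hrp.odd_of_ne_two hr2
    -- a sign times the isometry has order dividing `r`
    let g' : OQ (minusQF n a b) := ⟨g.1.trans (LinearEquiv.smulOfNeZero F (Idx → F) z (left_ne_zero_of_mul_eq_one hz2)),
      fun v => by
        show minusQF n a b (z • g.1 v) = minusQF n a b v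
        rw [QuadraticMap.map_smul, hz2, one_smul, OQ_map_app]⟩
    have hg' : ∀ v, g'.1 v = z • g.1 v := fun v => rfl
    have hpow : ∀ k : ℕ, ∀ v, (g' ^ k).1 v = z ^ k • (g ^ k).1 v := by
      intro k
      induction k with
      | zero => intro v; simp
      | succ k ih =>
        intro v
        rw [pow_succ', pow_succ', pow_succ', Subgroup.coe_mul, LinearEquiv.mul_apply, ih, hg', Subgroup.coe_mul,
          LinearEquiv.mul_apply, map_smul, smul_smul]
    have hg'r : g' ^ r = 1 := Subtype.ext (LinearEquiv.ext fun v => by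
      obtain ⟨k, hk⟩ := hodd
      have hzz : z ^ r = z := by rw [hk, pow_succ, pow_mul, _root_.sq, hz2, one_pow, one_mul]
      rw [hpow, hgz, hzz, smul_smul, hz2, one_smul]
      rfl)
    obtain ⟨W, hW, hinv⟩ := fix_odd h2 hab hN (hW₀ ▸ hm) (hW₀ ▸ hmd) hrp' hr hr2 hi hc hcond hg'r
    refine ⟨W, hW, fun v hv => ?_⟩
    have := W.smul_mem z (hinv v hv)
    rwa [hg', smul_smul, hz2, one_smul] at this

/-- Elements of prime order of PΩ⁻_n(q), q odd, with no fixed nondegenerate `m`-space of odd dimension. Here `T = PΩ⁻_n(F)`, `n = 2d ≥ 8`, realised through `Ω⁻_n(q)`, the commutator subgroup of the isometry group of `Q = Σ_{i<d−1} xᵢyᵢ + z₁² + a z₁z₂ + b z₂²` with `z₁² + a z₁z₂ + b z₂²` anisotropic, over the field `F` with `q` elements; an element of `T` of prime order `r` is an element `x` of `Ω⁻_n(q)` with `x^r` scalar and `x` not scalar; `q` and `m` are odd, `1 ≤ m < n/2`. The nondegenerate `m`-spaces fall into two isometry classes,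 each an orbit of `T`, with equivalent actions; fix one such space `W₀` and let Ω be the set of nondegenerate `m`-spaces isometric to `W₀`. Let `r` be a prime dividing the size of Ω; for `r ≠ p` let `i` be the multiplicative order of `q` modulo `r`, `c = i` for `i` even and `c = 2i` for `i` odd, and write `k = n mod c`, `ℓ = m mod i`, `ℓ' = m mod c`, `n' = ⌊n/i⌋`, `m' = ⌊m/i⌋`, `t = (r−1)/i`. Then every element of `T` of order `r` fixes a member of Ω if and only if one of: (i) `r = 2` and (`n ≡ 0 (mod 4)` or `q ≢ 7 (mod 8)`); (ii) `r ≠ p` odd, `i` odd, and `k = 0` or (`c ≤ m` and `k > ℓ' > 0`); (iii) `r ≠ p` odd, `i` even, and either `k = 0` and `n/i` even, or `k > 0`, `i ≤ m` and `k > ℓ' > 0`. (For `r = p` there is always an element of order `p` fixing no member of Ω.) -/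
theorem result {F : Type*} [Field F] [Fintype F] {p : ℕ} [Fact p.Prime] [CharP F p] {q : ℕ} (hq : Fintype.card F = q)
    (hodd : Odd q) (d m : ℕ) (hd : 4 ≤ d) (hm : Odd m) (hmd : m < d) (a b : F) (hab : ∀ x y : F, x ^ 2 + a * x * y + b * y ^ 2 = 0 → x = 0 ∧ y = 0)
    (W₀ : Submodule F ((Fin (d - 1) ⊕ Fin (d - 1)) ⊕ Fin 2 → F)) (hW₀ : Module.finrank F ↥W₀ = m ∧ Cfsg.Geo.IsNondegenerateOn (QuadraticMap.polar (Cfsg.quadFormMinus (d - 1) F a b)) W₀)
    (r : ℕ) [Fact r.Prime]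
    (hrΩ : r ∣ Nat.card {W : Submodule F ((Fin (d - 1) ⊕ Fin (d - 1)) ⊕ Fin 2 → F) // Module.finrank F ↥W = m ∧ Cfsg.Geo.IsNondegenerateOn (QuadraticMap.polar (Cfsg.quadFormMinus (d - 1) F a b)) W ∧ Cfsg.Geo.AreIsometricFor (Cfsg.quadFormMinus (d - 1) F a b) W W₀})
    (i c : ℕ) (hi : i = orderOf (q : ZMod r)) (hc : c = if Even i then i else 2 * i) :
    (∀ x : GL ((Fin (d - 1) ⊕ Fin (d - 1)) ⊕ Fin 2) F, x ∈ Cfsg.Geo.omegaGL (Cfsg.quadFormMinus (d - 1) F a b) →
      (∃ z : F, ((x ^ r : GL ((Fin (d - 1) ⊕ Fin (d - 1)) ⊕ Fin 2) F) : Matrix ((Fin (d - 1) ⊕ Fin (d - 1)) ⊕ Fin 2) ((Fin (d - 1) ⊕ Fin (d - 1)) ⊕ Fin 2) F) = z • (1 : Matrix ((Fin (d - 1) ⊕ Fin (d - 1)) ⊕ Fin 2) ((Fin (d - 1) ⊕ Fin (d - 1)) ⊕ Fin 2) F)) →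
      (∀ z : F, (x : Matrix ((Fin (d - 1) ⊕ Fin (d - 1)) ⊕ Fin 2) ((Fin (d - 1) ⊕ Fin (d - 1)) ⊕ Fin 2) F) ≠ z • (1 : Matrix ((Fin (d - 1) ⊕ Fin (d - 1)) ⊕ Fin 2) ((Fin (d - 1) ⊕ Fin (d - 1)) ⊕ Fin 2) F)) →
      ∃ W : Submodule F ((Fin (d - 1) ⊕ Fin (d - 1)) ⊕ Fin 2 → F), (Module.finrank F ↥W = m ∧ Cfsg.Geo.IsNondegenerateOn (QuadraticMap.polar (Cfsg.quadFormMinus (d - 1) F a b)) W ∧ Cfsg.Geo.AreIsometricFor (Cfsg.quadFormMinus (d - 1) F a b) W W₀) ∧ W.map (Matrix.toLin' (x : Matrix ((Fin (d - 1) ⊕ Fin (d - 1)) ⊕ Fin 2) ((Fin (d - 1) ⊕ Fin (d - 1)) ⊕ Fin 2) F)) ≤ W) ↔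
    ((r = 2 ∧ (Even d ∨ q % 8 ≠ 7)) ∨
     (r ≠ p ∧ 2 < r ∧ Odd i ∧ ((2 * d) % c = 0 ∨ (c ≤ m ∧ 0 < m % c ∧ m % c < (2 * d) % c))) ∨
     (r ≠ p ∧ 2 < r ∧ Even i ∧ (((2 * d) % c = 0 ∧ Even ((2 * d) / i)) ∨ (0 < (2 * d) % c ∧ i ≤ m ∧ 0 < m % c ∧ m % c < (2 * d) % c)))) := by
  subst hq
  obtain ⟨hW₀, hN⟩ := hW₀
  have h2 : (2 : F) ≠ 0 := Agent.Classical.two_ne_zero_of_odd (by rwa [Nat.card_eq_fintype_card])
  obtain ⟨n, rfl⟩ : ∃ n, d = n + 1 := ⟨d - 1, by omega⟩
  rw [minus_coe] at hN hrΩ ⊢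
  subst hW₀
  exact iff_main (p := p) h2 (fun x y h => hab x y h) (by omega) hm hmd rfl hN hrΩ hi hc
end Cfsg.Agent.S5991
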