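import Cfsg.Statements.S5992
import Cfsg.Agent.Elusive10.OddTyped

set_option autoImplicit false
open scoped MatrixGroups
open Cfsg

namespace Cfsg.Agent.S5992

/-- Elements of prime order r ≠ p of Ω_n(q), nq odd, with no fixed hyperbolic `m`-space. Here `T = Ω_n(F)`, `n = 2d+1 ≥ 7`, `q` odd, realised as the commutator subgroup of the isometry group of `Q = x₀² + Σ xᵢyᵢ` over the field `F` with `q` elements (trivial centre, so its elements of prime order `r` are used directly); a nondegenerate `m`-space (even `m`) is a subspace on which the polar form of `Q` is nondegenerate; it is hyperbolic if it contains an `m/2`-dimensional subspace on which `Q` vanishes, elliptic otherwise. Let `m` be even with `2 ≤ m ≤ n − 1` (no restriction `m < n/2`) and let `r ≠ p` be a prime dividing the number of hyperbolic `m`-spaces; for `r ≠ p` let `i` be the multiplicative order of `q` modulo `r`, `c = i` for `i` even and `c = 2i` for `i` odd, and write `k = n mod c`, `ℓ' = m mod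 c`. Then every element of `T` of order `r` fixes some hyperbolic `m`-space if and only if `r = 2`, or `r` is odd and one of: (i) `i` odd, `c ≤ m` and either `k > ℓ' > 0` or `ℓ' = 0`; (ii) `i` even, `i ≤ m`, `k > ℓ'`, and `m/i` even whenever `ℓ' = 0`. (`r = p` is not covered by this statement.) -/
theorem result {F : Type*} [Field F] [Fintype F] {p : ℕ} [Fact p.Prime] [CharP F p] {q : ℕ} (hq : Fintype.card F = q) (hqodd : Odd q)
    (d m : ℕ) (hd : 3 ≤ d) (hm : 2 ≤ m) (hme : Even m) (hmn : m ≤ 2 * d)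
    (r : ℕ) [Fact r.Prime] (hrp : r ≠ p)
    (hrΩ : r ∣ Nat.card {W : Submodule F (Unit ⊕ (Fin d ⊕ Fin d) → F) // Module.finrank F ↥W = m ∧ Cfsg.Geo.IsNondegenerateOn (QuadraticMap.polar (Cfsg.quadFormOdd d F)) W ∧ Cfsg.Geo.IsPlusTypeOn (Cfsg.quadFormOdd d F) W})
    (i c : ℕ) (hi : i = orderOf (q : ZMod r)) (hc : c = if Even i then i else 2 * i) :
    (∀ x : GL (Unit ⊕ (Fin d ⊕ Fin d)) F, x ∈ Cfsg.Geo.omegaGL (Cfsg.quadFormOdd d F) → orderOf x = r →
      ∃ W : Submodule F (Unit ⊕ (Fin d ⊕ Fin d) → F), (Module.finrank F ↥W = m ∧ Cfsg.Geo.IsNondegenerateOn (QuadraticMap.polar (Cfsg.quadFormOdd d F)) W ∧ Cfsg.Geo.IsPlusTypeOn (Cfsg.quadFormOdd d F) W) ∧ W.map (Matrix.toLin' (x : Matrix (Unit ⊕ (Fin d ⊕ Fin d)) (Unit ⊕ (Fin d ⊕ Fin d)) F)) ≤ W) ↔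
    (r = 2 ∨
     (2 < r ∧ Odd i ∧ c ≤ m ∧ (m % c = 0 ∨ (0 < m % c ∧ m % c < (2 * d + 1) % c))) ∨
     (2 < r ∧ Even i ∧ i ≤ m ∧ m % c < (2 * d + 1) % c ∧ (0 < m % c ∨ Even (m / i)))) := by
  subst hq
  have h2 : (2 : F) ≠ 0 := Agent.Classical.two_ne_zero_of_odd (by rwa [Nat.card_eq_fintype_card])
  have hcoe : Cfsg.quadFormOdd d F = ⇑(Agent.Classical.oddQF d F) :=
    funext fun v => (Agent.Classical.oddQF_apply d v).symm
  have hm0 : 0 < m := by omega
  have key := Agent.Elusive10.iff_typed (F := F) (d := d) (p := p) h2 True hd hm0 hme hmn (r := r) (Or.inl hrp)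
    (by simpa [Agent.Elusive10.IsTyped, ← hcoe] using hrΩ) hi hc
  rw [hcoe]
  refine (Iff.of_eq ?_).trans (key.trans ?_)
  · simp [Agent.Elusive10.IsTyped]
  have hk : 0 < (2 * d + 1) % c := by
    refine Nat.pos_of_ne_zero fun h => ?_
    have h2c : 2 ∣ c := by
      rw [hc]; split_ifs with he
      exacts [even_iff_two_dvd.1 he, dvd_mul_right 2 i]
    have := h2c.trans (Nat.dvd_of_mod_eq_zero h)
    omega
  have hr := (Fact.out : r.Prime).two_le
  rcases eq_or_ne r 2 with rfl | hr2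
  · simp
  have h2r : 2 < r := by omega
  rcases Nat.even_or_odd i with he | ho
  · rw [if_pos he] at hc
    subst hc
    simp [hr2, h2r, he, Nat.not_odd_iff_even.2 he]
  · simp only [hr2, h2r, ho, Nat.not_even_iff_odd.2 ho, true_and, false_and, or_false, false_or, true_or,
      or_true, and_true, iff_true]
    constructor
    · rintro ⟨h1, h3⟩
      exact ⟨h1, (Nat.eq_zero_or_pos (m % c)).imp id fun h => ⟨h, h3⟩⟩
    · rintro ⟨h1, h3 | ⟨-, h3⟩⟩ <;> exact ⟨h1, by omega⟩
end Cfsg.Agent.S5992
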