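import Cfsg.Statements.S5993
import Cfsg.Agent.Elusive10.OddTyped

set_option autoImplicit false
open scoped MatrixGroups
open Cfsg

namespace Cfsg.Agent.S5993

/-- Elements of prime order of Ω_n(q), nq odd, with no fixed elliptic `m`-space. Here `T = Ω_n(F)`, `n = 2d+1 ≥ 7`, `q` odd, realised as the commutator subgroup of the isometry group of `Q = x₀² + Σ xᵢyᵢ` over the field `F` with `q` elements (trivial centre, so its elements of prime order `r` are used directly); a nondegenerate `m`-space (even `m`) is a subspace on which the polar form of `Q` is nondegenerate; it is hyperbolic if it contains an `m/2`-dimensional subspace on which `Q` vanishes, elliptic otherwise. Let `m` be even with `2 ≤ m ≤ n − 1` (no restriction `m < n/2`) and let `r` be a prime dividing the number of elliptic `m`-spaces; for `r ≠ p` let `i` be the multiplicative order of `q` modulo `r`, `c = i` for `i` even and `c = 2i` for `i` odd, and write `k = n mod c`, `ℓ' = m mod c`. Then every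 element of `T` of order `r` fixes some elliptic `m`-space if and only if `r = 2`, or `r ≠ p` is odd and one of: (i) `i` odd, `c ≤ m` and `k > ℓ' > 0`; (ii) `i` even, `i ≤ m`, `k > ℓ'`, and `m/i` odd whenever `ℓ' = 0`. (For `r = p` there is always an element of order `p` fixing no elliptic `m`-space.) -/
theorem result {F : Type*} [Field F] [Fintype F] {p : ℕ} [Fact p.Prime] [CharP F p] {q : ℕ} (hq : Fintype.card F = q) (hqodd : Odd q)
    (d m : ℕ) (hd : 3 ≤ d) (hm : 2 ≤ m) (hme : Even m) (hmn : m ≤ 2 * d)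
    (r : ℕ) [Fact r.Prime]
    (hrΩ : r ∣ Nat.card {W : Submodule F (Unit ⊕ (Fin d ⊕ Fin d) → F) // Module.finrank F ↥W = m ∧ Cfsg.Geo.IsNondegenerateOn (QuadraticMap.polar (Cfsg.quadFormOdd d F)) W ∧ ¬ Cfsg.Geo.IsPlusTypeOn (Cfsg.quadFormOdd d F) W})
    (i c : ℕ) (hi : i = orderOf (q : ZMod r)) (hc : c = if Even i then i else 2 * i) :
    (∀ x : GL (Unit ⊕ (Fin d ⊕ Fin d)) F, x ∈ Cfsg.Geo.omegaGL (Cfsg.quadFormOdd d F) → orderOf x = r →
      ∃ W : Submodule F (Unit ⊕ (Fin d ⊕ Fin d) → F), (Module.finrank F ↥W = m ∧ Cfsg.Geo.IsNondegenerateOn (QuadraticMap.polar (Cfsg.quadFormOdd d F)) W ∧ ¬ Cfsg.Geo.IsPlusTypeOn (Cfsg.quadFormOdd d F) W) ∧ W.map (Matrix.toLin' (x : Matrix (Unit ⊕ (Fin d ⊕ Fin d)) (Unit ⊕ (Fin d ⊕ Fin d)) F)) ≤ W) ↔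
    (r = 2 ∨
     (r ≠ p ∧ 2 < r ∧ Odd i ∧ c ≤ m ∧ 0 < m % c ∧ m % c < (2 * d + 1) % c) ∨
     (r ≠ p ∧ 2 < r ∧ Even i ∧ i ≤ m ∧ m % c < (2 * d + 1) % c ∧ (0 < m % c ∨ Odd (m / i)))) := by
  subst hq
  have h2 : (2 : F) ≠ 0 := Agent.Classical.two_ne_zero_of_odd (by rwa [Nat.card_eq_fintype_card])
  have hcoe : Cfsg.quadFormOdd d F = ⇑(Agent.Classical.oddQF d F) :=
    funext fun v => (Agent.Classical.oddQF_apply d v).symm
  have hm0 : 0 < m := by omega
  have hp2 : p ≠ 2 := fun h => h2 (by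
    have := CharP.cast_eq_zero F p
    rw [h] at this
    exact_mod_cast this)
  rw [hcoe]
  by_cases hrp : r = p
  · subst hrp
    refine iff_of_false (Agent.Elusive10.bad_unipotent_minus h2 hd hme) ?_
    rintro (h | ⟨h, -⟩ | ⟨h, -⟩)
    · exact hp2 h
    · exact h rfl
    · exact h rfl
  have key := Agent.Elusive10.iff_typed (F := F) (d := d) (p := p) h2 False hd hm0 hme hmn (r := r) (Or.inl hrp)
    (by simpa [Agent.Elusive10.IsTyped, ← hcoe] using hrΩ) hi hc
  refine (Iff.of_eq ?_).trans (key.trans ?_)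
  · simp [Agent.Elusive10.IsTyped]
  have hr := (Fact.out : r.Prime).two_le
  rcases eq_or_ne r 2 with rfl | hr2
  · simp
  have h2r : 2 < r := by omega
  rcases Nat.even_or_odd i with he | ho
  · rw [if_pos he] at hc
    subst hc
    simp [hrp, hr2, h2r, he, Nat.not_odd_iff_even.2 he]
  · simp only [ne_eq, hrp, not_false_eq_true, hr2, h2r, ho, Nat.not_even_iff_odd.2 ho, true_and, false_and,
      or_false, false_or, true_or, iff_true, or_true]
    constructor
    · rintro ⟨h1, h3, h4⟩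
      exact ⟨h1, h4, h3⟩
    · rintro ⟨h1, h4, h3⟩
      exact ⟨h1, h3, h4⟩
end Cfsg.Agent.S5993
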