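import Cfsg.Statements.S5994
import Cfsg.Agent.Elusive25.UnipCases

set_option autoImplicit false
open scoped MatrixGroups
open Cfsg

namespace Cfsg.Agent.S5994

/-- A necessary condition for every element of order p of PΩ⁻_n(q), q odd, to fix an elliptic `m`-space. Here `T = PΩ⁻_n(F)`, `n = 2d ≥ 8`, realised through `Ω⁻_n(q)`, the commutator subgroup of the isometry group of `Q = Σ_{i<d−1} xᵢyᵢ + z₁² + a z₁z₂ + b z₂²` with `z₁² + a z₁z₂ + b z₂²` anisotropic, over the field `F` with `q` elements; an element of `T` of prime order `r` is an element `x` of `Ω⁻_n(q)` with `x^r` scalar and `x` not scalar; `q` is odd; a nondegenerate `m`-space (even `m`) is a subspace on which the polar form of `Q` is nondegenerate; it is hyperbolic if it contains an `m/2`-dimensional subspace on which `Q` vanishes, elliptic otherwise. Let `m` be even with `2 ≤ m ≤ n − 2` and suppose `p` divides the number of elliptic `m`-spaces. If every element of `T` of order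 `p` fixes some elliptic `m`-space, then `n ≡ m (mod 4)` and every partition of `n` into parts of size at most `p` in which every even part has even multiplicity contains (as a sub-multiset) a partition of `m` in which every even part has even multiplicity. -/
theorem result {F : Type*} [Field F] [Fintype F] {p : ℕ} [Fact p.Prime] [CharP F p] {q : ℕ} (hq : Fintype.card F = q) (hqodd : Odd q)
    (d m : ℕ) (hd : 4 ≤ d) (hm : 2 ≤ m) (hme : Even m) (hmn : m + 2 ≤ 2 * d) (a b : F) (hab : ∀ x y : F, x ^ 2 + a * x * y + b * y ^ 2 = 0 → x = 0 ∧ y = 0)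
    (hpΩ : p ∣ Nat.card {W : Submodule F ((Fin (d - 1) ⊕ Fin (d - 1)) ⊕ Fin 2 → F) // Module.finrank F ↥W = m ∧ Cfsg.Geo.IsNondegenerateOn (QuadraticMap.polar (Cfsg.quadFormMinus (d - 1) F a b)) W ∧ ¬ Cfsg.Geo.IsPlusTypeOn (Cfsg.quadFormMinus (d - 1) F a b) W}) :
    (∀ x : GL ((Fin (d - 1) ⊕ Fin (d - 1)) ⊕ Fin 2) F, x ∈ Cfsg.Geo.omegaGL (Cfsg.quadFormMinus (d - 1) F a b) →
      (∃ z : F, ((x ^ p : GL ((Fin (d - 1) ⊕ Fin (d - 1)) ⊕ Fin 2) F) : Matrix ((Fin (d - 1) ⊕ Fin (d - 1)) ⊕ Fin 2) ((Fin (d - 1) ⊕ Fin (d - 1)) ⊕ Fin 2) F) = z • (1 : Matrix ((Fin (d - 1) ⊕ Fin (d - 1)) ⊕ Fin 2) ((Fin (d - 1) ⊕ Fin (d - 1)) ⊕ Fin 2) F)) →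
      (∀ z : F, (x : Matrix ((Fin (d - 1) ⊕ Fin (d - 1)) ⊕ Fin 2) ((Fin (d - 1) ⊕ Fin (d - 1)) ⊕ Fin 2) F) ≠ z • (1 : Matrix ((Fin (d - 1) ⊕ Fin (d - 1)) ⊕ Fin 2) ((Fin (d - 1) ⊕ Fin (d - 1)) ⊕ Fin 2) F)) →
      ∃ W : Submodule F ((Fin (d - 1) ⊕ Fin (d - 1)) ⊕ Fin 2 → F), (Module.finrank F ↥W = m ∧ Cfsg.Geo.IsNondegenerateOn (QuadraticMap.polar (Cfsg.quadFormMinus (d - 1) F a b)) W ∧ ¬ Cfsg.Geo.IsPlusTypeOn (Cfsg.quadFormMinus (d - 1) F a b) W) ∧ W.map (Matrix.toLin' (x : Matrix ((Fin (d - 1) ⊕ Fin (d - 1)) ⊕ Fin 2) ((Fin (d - 1) ⊕ Fin (d - 1)) ⊕ Fin 2) F)) ≤ W) →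
    ((2 * d) % 4 = m % 4 ∧ (∀ μ : Multiset ℕ, (∀ e ∈ μ, 0 < e ∧ e ≤ p) → (∀ e : ℕ, Even e → Even (μ.count e)) → μ.sum = 2 * d →
        ∃ ν : Multiset ℕ, ν ≤ μ ∧ ν.sum = m ∧ ∀ e : ℕ, Even e → Even (ν.count e))) := by
  intro H
  have h2 : (2 : F) ≠ 0 := Agent.Classical.two_ne_zero_of_odd (by rwa [Nat.card_eq_fintype_card, hq])
  have hp3 : 3 ≤ p := by
    rcases (Fact.out : p.Prime).eq_two_or_odd with h | h
    · exact absurd (by have := CharP.cast_eq_zero F p; rw [h] at this; exact_mod_cast this) h2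
    · have := (Fact.out : p.Prime).two_le; omega
  have hR : Agent.Classical.BNondeg (Agent.Classical.minusQF (d - 1) a b) :=
    Agent.Classical.bNondeg_congr (Agent.Classical.minusEquiv (d - 1))
      (Agent.Classical.minusEquiv_spec (d - 1) a b)
      (Agent.Classical.bNondeg_hypExt (d - 1)
        (Elusive25.bNondeg_of_anisotropic h2 (Agent.Classical.anisotropic_binQF hab)))
  have hRf : ⇑(Agent.Classical.minusQF (d - 1) a b) = Cfsg.quadFormMinus (d - 1) F a b :=
    funext (Agent.Classical.minusQF_apply (d - 1) a b)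
  let P : Submodule F ((Fin (d - 1) ⊕ Fin (d - 1)) ⊕ Fin 2 → F) → Prop :=
    fun W => ¬ Cfsg.Geo.IsPlusTypeOn (Cfsg.quadFormMinus (d - 1) F a b) W
  have H' : ∀ x : GL ((Fin (d - 1) ⊕ Fin (d - 1)) ⊕ Fin 2) F,
      x ∈ Cfsg.Geo.omegaGL ⇑(Agent.Classical.minusQF (d - 1) a b) → x ^ p = 1 →
      (∀ z : F, (x : Matrix ((Fin (d - 1) ⊕ Fin (d - 1)) ⊕ Fin 2)
        ((Fin (d - 1) ⊕ Fin (d - 1)) ⊕ Fin 2) F) ≠ z • 1) →
      ∃ W : Submodule F ((Fin (d - 1) ⊕ Fin (d - 1)) ⊕ Fin 2 → F), (Module.finrank F ↥W = m ∧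
        Cfsg.Geo.IsNondegenerateOn (QuadraticMap.polar ⇑(Agent.Classical.minusQF (d - 1) a b)) W ∧ P W) ∧
        W.map (Matrix.toLin' (x : Matrix ((Fin (d - 1) ⊕ Fin (d - 1)) ⊕ Fin 2)
          ((Fin (d - 1) ⊕ Fin (d - 1)) ⊕ Fin 2) F)) ≤ W := by
    rw [hRf]
    exact fun x hx hxp hns => H x hx ⟨1, by rw [hxp, Units.val_one, one_smul]⟩ hns
  have hcard : Fintype.card ((Fin (d - 1) ⊕ Fin (d - 1)) ⊕ Fin 2) = 2 * d := by simp; omega
  refine ⟨?_, fun μ hb heven hsum => ?_⟩
  · obtain ⟨k, s, hks, hs⟩ : ∃ k s, 2 * d = 4 * k + s + 1 ∧ (s = 1 ∨ s = 3) := by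
      refine ⟨(2 * d - 2) / 4, (2 * d - 2) % 4 + 1, ?_, ?_⟩ <;> omega
    let μ : Multiset ℕ := s ::ₘ 1 ::ₘ Multiset.replicate (2 * k) 2
    have hk : 1 ≤ k := by omega
    obtain ⟨ν, hν, hνs, hνe, W, hWP, hW⟩ := Elusive25.exists_fixed_subpartition h2 hR H' μ
      (fun e he => by
        simp only [μ, Multiset.mem_cons, Multiset.mem_replicate] at he
        omega)
      (fun e he => by
        obtain ⟨r, hr⟩ := he
        simp only [μ, Multiset.count_cons, Multiset.count_replicate]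
        rw [if_neg (show e ≠ s by omega), if_neg (show e ≠ 1 by omega), add_zero, add_zero]
        split_ifs <;> simp)
      (by simp [μ]; omega)
      (Or.inl ⟨1, by simp [μ], odd_one⟩) ⟨2, by simp [μ, Multiset.mem_replicate]; omega, one_lt_two⟩
    have hsm : ∀ e ∈ ν, e = 1 ∨ e = 2 ∨ e = 3 := fun e he => by
      have := Multiset.mem_of_le hν he
      simp only [μ, Multiset.mem_cons, Multiset.mem_replicate] at this
      omega
    have hsum := Elusive25.sum_of_small hsm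
    have h1 := Multiset.le_iff_count.1 hν 1
    have h3 := Multiset.le_iff_count.1 hν 3
    simp only [μ, Multiset.count_cons, Multiset.count_replicate] at h1 h3
    have hnot : ¬ (ν.count 1 = 0 ∧ ν.count 3 = 0) := by
      rintro ⟨c1, c3⟩
      refine hWP ?_
      rw [← hRf]
      refine hW fun e he => ?_
      rcases hsm e he with rfl | rfl | rfl
      · exact absurd c1 (Multiset.count_pos.2 he).ne'
      · rfl
      · exact absurd c3 (Multiset.count_pos.2 he).ne'
    obtain ⟨j, hj⟩ := hνe 2 even_two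
    obtain ⟨i, hi⟩ := hme
    rw [hνs] at hsum
    split_ifs at h1 h3 <;> omega
  · by_cases hodd : ∃ e ∈ μ, Odd e
    · exact Elusive25.subpartition_of_fixed h2 hR (by omega) (P := P) H' μ hb heven
        (by omega) (Or.inl hodd)
    push Not at hodd
    have hμe : ∀ e ∈ μ, Even e := fun e he => Nat.not_odd_iff_even.1 (hodd e he)
    obtain ⟨e, he⟩ : ∃ e, e ∈ μ := Multiset.exists_mem_of_ne_zero (by rintro rfl; simp at hsum; omega)
    obtain ⟨μ₁, rfl⟩ := Multiset.exists_cons_of_mem he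
    have hee := hμe e he
    have he' : e ∈ μ₁ := by
      have := heven e hee
      rw [Multiset.count_cons_self, Nat.even_add_one] at this
      exact Multiset.count_pos.1 (Nat.pos_of_ne_zero fun h => this (h ▸ Even.zero))
    obtain ⟨ρ, rfl⟩ := Multiset.exists_cons_of_mem he'
    have hρ : ∀ a ∈ ρ, Even a := fun a ha => hμe a (by simp [ha])
    have he0 := hb e he
    have hep : e < p := by
      rcases (Fact.out : p.Prime).eq_two_or_odd with h | h
      · omega
      · obtain ⟨r, hr⟩ := hee; omega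
    obtain ⟨ν, hν, hνs, hνe⟩ := Elusive25.subpartition_of_fixed h2 hR (by omega) (P := P) H'
      ((e + 1) ::ₘ (e - 1) ::ₘ ρ)
      (fun a ha => by
        obtain ⟨r, hr⟩ := hee
        rcases Multiset.mem_cons.1 ha with rfl | ha
        · omega
        rcases Multiset.mem_cons.1 ha with rfl | ha
        · omega
        exact hb a (by simp [ha]))
      (fun a ha => by
        have := heven a ha
        obtain ⟨r, hr⟩ := hee
        obtain ⟨t, ht⟩ := ha
        simp only [Multiset.count_cons] at this ⊢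
        rw [if_neg (show a ≠ e + 1 by omega), if_neg (show a ≠ e - 1 by omega)]
        split_ifs at this <;> simpa [Nat.even_add_one] using this)
      (by simp only [Multiset.sum_cons] at hsum ⊢; omega)
      (Or.inl ⟨e + 1, Multiset.mem_cons_self _ _, hee.add_one⟩)
    exact Elusive25.subpartition_of_split hee hme hρ he0.1 hν hνs hνe

end Cfsg.Agent.S5994
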