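import Cfsg.Statements.S5995
import Cfsg.Agent.Elusive25.UnipCases

set_option autoImplicit false
open scoped MatrixGroups
open Cfsg

namespace Cfsg.Agent.S5995

/-- A necessary condition for every element of order p of Ω_n(q), nq odd, to fix a hyperbolic `m`-space. Here `T = Ω_n(F)`, `n = 2d+1 ≥ 7`, `q` odd, realised as the commutator subgroup of the isometry group of `Q = x₀² + Σ xᵢyᵢ` over the field `F` with `q` elements (trivial centre, so its elements of prime order `r` are used directly); a nondegenerate `m`-space (even `m`) is a subspace on which the polar form of `Q` is nondegenerate; it is hyperbolic if it contains an `m/2`-dimensional subspace on which `Q` vanishes, elliptic otherwise. Let `m` be even with `2 ≤ m ≤ n − 1` and suppose `p` divides the number of hyperbolic `m`-spaces. If every element of `T` of order `p` fixes some hyperbolic `m`-space, then `m ≡ 0 (mod 4)` and every partition of `n` into parts of size at most `p` in which every even part has even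 multiplicity contains (as a sub-multiset) a partition of `m` in which every even part has even multiplicity. -/
theorem result {F : Type*} [Field F] [Fintype F] {p : ℕ} [Fact p.Prime] [CharP F p] {q : ℕ} (hq : Fintype.card F = q) (hqodd : Odd q)
    (d m : ℕ) (hd : 3 ≤ d) (hm : 2 ≤ m) (hme : Even m) (hmn : m ≤ 2 * d)
    (hpΩ : p ∣ Nat.card {W : Submodule F (Unit ⊕ (Fin d ⊕ Fin d) → F) // Module.finrank F ↥W = m ∧ Cfsg.Geo.IsNondegenerateOn (QuadraticMap.polar (Cfsg.quadFormOdd d F)) W ∧ Cfsg.Geo.IsPlusTypeOn (Cfsg.quadFormOdd d F) W}) :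
    (∀ x : GL (Unit ⊕ (Fin d ⊕ Fin d)) F, x ∈ Cfsg.Geo.omegaGL (Cfsg.quadFormOdd d F) → orderOf x = p →
      ∃ W : Submodule F (Unit ⊕ (Fin d ⊕ Fin d) → F), (Module.finrank F ↥W = m ∧ Cfsg.Geo.IsNondegenerateOn (QuadraticMap.polar (Cfsg.quadFormOdd d F)) W ∧ Cfsg.Geo.IsPlusTypeOn (Cfsg.quadFormOdd d F) W) ∧ W.map (Matrix.toLin' (x : Matrix (Unit ⊕ (Fin d ⊕ Fin d)) (Unit ⊕ (Fin d ⊕ Fin d)) F)) ≤ W) →
    (m % 4 = 0 ∧ (∀ μ : Multiset ℕ, (∀ e ∈ μ, 0 < e ∧ e ≤ p) → (∀ e : ℕ, Even e → Even (μ.count e)) → μ.sum = 2 * d + 1 →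
        ∃ ν : Multiset ℕ, ν ≤ μ ∧ ν.sum = m ∧ ∀ e : ℕ, Even e → Even (ν.count e))) := by
  intro H
  have h2 : (2 : F) ≠ 0 := Agent.Classical.two_ne_zero_of_odd (by rwa [Nat.card_eq_fintype_card, hq])
  have hp3 : 3 ≤ p := by
    rcases (Fact.out : p.Prime).eq_two_or_odd with h | h
    · exact absurd (by have := CharP.cast_eq_zero F p; rw [h] at this; exact_mod_cast this) h2
    · have := (Fact.out : p.Prime).two_le; omega
  have hR : Agent.Classical.BNondeg (Agent.Classical.oddQF d F) :=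
    Agent.Classical.bNondeg_congr (Agent.Classical.oddEquiv d) (Agent.Classical.oddEquiv_spec d)
      (Agent.Classical.bNondeg_hypExt d
        (Elusive25.bNondeg_of_anisotropic h2 Agent.Classical.anisotropic_sqQF))
  have hRf : ⇑(Agent.Classical.oddQF d F) = Cfsg.quadFormOdd d F :=
    funext (Agent.Classical.oddQF_apply d)
  have H' : ∀ x : GL (Unit ⊕ (Fin d ⊕ Fin d)) F,
      x ∈ Cfsg.Geo.omegaGL ⇑(Agent.Classical.oddQF d F) → x ^ p = 1 →
      (∀ z : F, (x : Matrix (Unit ⊕ (Fin d ⊕ Fin d)) (Unit ⊕ (Fin d ⊕ Fin d)) F) ≠ z • 1) →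
      ∃ W : Submodule F (Unit ⊕ (Fin d ⊕ Fin d) → F), (Module.finrank F ↥W = m ∧
        Cfsg.Geo.IsNondegenerateOn (QuadraticMap.polar ⇑(Agent.Classical.oddQF d F)) W ∧
        Cfsg.Geo.IsPlusTypeOn (Cfsg.quadFormOdd d F) W) ∧
        W.map (Matrix.toLin' (x : Matrix (Unit ⊕ (Fin d ⊕ Fin d)) (Unit ⊕ (Fin d ⊕ Fin d)) F)) ≤ W := by
    rw [hRf]
    exact fun x hx hxp hns => H x hx
      (orderOf_eq_prime hxp fun h => hns 1 (by rw [h, Units.val_one, one_smul]))
  have hcard : Fintype.card (Unit ⊕ (Fin d ⊕ Fin d)) = 2 * d + 1 := by simp; omega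
  refine ⟨?_, fun μ hb heven hsum => ?_⟩
  · obtain ⟨k, r, hkr, hr⟩ : ∃ k r, 2 * d + 1 = 4 * k + r ∧ (r = 1 ∨ r = 3) :=
      ⟨(2 * d + 1) / 4, (2 * d + 1) % 4, (Nat.div_add_mod _ _).symm, by omega⟩
    let μ : Multiset ℕ := r ::ₘ Multiset.replicate (2 * k) 2
    obtain ⟨ν, hν, hνs, hνe⟩ := Elusive25.subpartition_of_fixed h2 hR (by omega)
      (P := fun W => Cfsg.Geo.IsPlusTypeOn (Cfsg.quadFormOdd d F) W) H' μ
      (fun e he => by
        simp only [μ, Multiset.mem_cons, Multiset.mem_replicate] at he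
        omega)
      (fun e he => by
        simp only [μ, Multiset.count_cons, Multiset.count_replicate]
        rw [if_neg (show e ≠ r from fun h => by obtain ⟨s, hs⟩ := he; omega), add_zero]
        split_ifs <;> simp)
      (by simp [μ]; omega)
      (Or.inl ⟨r, Multiset.mem_cons_self _ _, by rcases hr with rfl | rfl <;> decide⟩)
    have hsm : ∀ e ∈ ν, e = 1 ∨ e = 2 ∨ e = 3 := fun e he => by
      have := Multiset.mem_of_le hν he
      simp only [μ, Multiset.mem_cons, Multiset.mem_replicate] at this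
      omega
    have hs := Elusive25.sum_of_small hsm
    have h1 := Multiset.le_iff_count.1 hν 1
    have h3 := Multiset.le_iff_count.1 hν 3
    simp only [μ, Multiset.count_cons, Multiset.count_replicate] at h1 h3
    obtain ⟨j, hj⟩ := hνe 2 even_two
    obtain ⟨i, hi⟩ := hme
    rw [hνs] at hs
    split_ifs at h1 h3 <;> omega
  · refine Elusive25.subpartition_of_fixed h2 hR (by omega)
      (P := fun W => Cfsg.Geo.IsPlusTypeOn (Cfsg.quadFormOdd d F) W) H' μ hb heven (by omega) (Or.inl ?_)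
    by_contra h
    push Not at h
    obtain ⟨i, hi⟩ := Elusive25.even_sum (ν := μ) fun e he => Nat.not_odd_iff_even.1 (h e he)
    omega

end Cfsg.Agent.S5995
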