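import Cfsg.Statements.S5996
import Cfsg.Agent.Elusive25.UnipCases

set_option autoImplicit false
open scoped MatrixGroups
open Cfsg

namespace Cfsg.Agent.S5996

/-- A necessary condition for every element of order p of PΩ⁺_n(q), q odd, to fix a hyperbolic `m`-space. Here `T = PΩ⁺_n(F)`, `n = 2d ≥ 8`, realised through `Ω⁺_n(q)`, the commutator subgroup of the isometry group of `Q = Σ xᵢyᵢ` over the field `F` with `q` elements; an element of `T` of prime order `r` is an element `x` of `Ω⁺_n(q)` with `x^r` scalar and `x` not scalar; `q` is odd; a nondegenerate `m`-space (even `m`) is a subspace on which the polar form of `Q` is nondegenerate; it is hyperbolic if it contains an `m/2`-dimensional subspace on which `Q` vanishes, elliptic otherwise. Let `m` be even with `2 ≤ m < n/2` and suppose `p` divides the number of hyperbolic `m`-spaces. If every element of `T` of order `p` fixes some hyperbolic `m`-space, then every partition of `n` into parts of size at most `p` in which every even part has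 even multiplicity contains (as a sub-multiset) a partition of `m` in which every even part has even multiplicity. -/
theorem result {F : Type*} [Field F] [Fintype F] {p : ℕ} [Fact p.Prime] [CharP F p] {q : ℕ} (hq : Fintype.card F = q) (hqodd : Odd q)
    (d m : ℕ) (hd : 4 ≤ d) (hm : 2 ≤ m) (hme : Even m) (hmd : m < d)
    (hpΩ : p ∣ Nat.card {W : Submodule F (Fin d ⊕ Fin d → F) // Module.finrank F ↥W = m ∧ Cfsg.Geo.IsNondegenerateOn (QuadraticMap.polar (Cfsg.quadFormPlus d F)) W ∧ Cfsg.Geo.IsPlusTypeOn (Cfsg.quadFormPlus d F) W}) :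
    (∀ x : GL (Fin d ⊕ Fin d) F, x ∈ Cfsg.Geo.omegaGL (Cfsg.quadFormPlus d F) →
      (∃ z : F, ((x ^ p : GL (Fin d ⊕ Fin d) F) : Matrix (Fin d ⊕ Fin d) (Fin d ⊕ Fin d) F) = z • (1 : Matrix (Fin d ⊕ Fin d) (Fin d ⊕ Fin d) F)) →
      (∀ z : F, (x : Matrix (Fin d ⊕ Fin d) (Fin d ⊕ Fin d) F) ≠ z • (1 : Matrix (Fin d ⊕ Fin d) (Fin d ⊕ Fin d) F)) →
      ∃ W : Submodule F (Fin d ⊕ Fin d → F), (Module.finrank F ↥W = m ∧ Cfsg.Geo.IsNondegenerateOn (QuadraticMap.polar (Cfsg.quadFormPlus d F)) W ∧ Cfsg.Geo.IsPlusTypeOn (Cfsg.quadFormPlus d F) W) ∧ W.map (Matrix.toLin' (x : Matrix (Fin d ⊕ Fin d) (Fin d ⊕ Fin d) F)) ≤ W) →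
    (∀ μ : Multiset ℕ, (∀ e ∈ μ, 0 < e ∧ e ≤ p) → (∀ e : ℕ, Even e → Even (μ.count e)) → μ.sum = 2 * d →
        ∃ ν : Multiset ℕ, ν ≤ μ ∧ ν.sum = m ∧ ∀ e : ℕ, Even e → Even (ν.count e)) := by
  intro H
  have h2 : (2 : F) ≠ 0 := Agent.Classical.two_ne_zero_of_odd (by rwa [Nat.card_eq_fintype_card, hq])
  have hp3 : 3 ≤ p := by
    rcases (Fact.out : p.Prime).eq_two_or_odd with h | h
    · exact absurd (by have := CharP.cast_eq_zero F p; rw [h] at this; exact_mod_cast this) h2
    · have := (Fact.out : p.Prime).two_le; omega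
  have hR := Agent.Forms.bNondeg_plusQF (F := F) (m := d)
  have hRf : ⇑(Agent.Classical.plusQF d F) = Cfsg.quadFormPlus d F :=
    funext (Agent.Classical.plusQF_apply d)
  intro μ hb heven hsum
  refine Elusive25.subpartition_of_fixed h2 hR (by simp; omega)
    (P := fun W => Cfsg.Geo.IsPlusTypeOn (Cfsg.quadFormPlus d F) W) ?_ μ hb heven (by simp [hsum]; omega) ?_
  · rw [hRf]
    exact fun x hx hxp hns => H x hx ⟨1, by rw [hxp, Units.val_one, one_smul]⟩ hns
  · right
    let L : (Fin d → F) →ₗ[F] (Fin d ⊕ Fin d → F) :=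
      { toFun := fun v => Sum.elim v 0
        map_add' := fun u v => by funext i; rcases i with i | i <;> simp
        map_smul' := fun c v => by funext i; rcases i with i | i <;> simp }
    refine ⟨LinearMap.range L, ?_, ?_⟩
    · rw [LinearMap.finrank_range_of_inj fun u v h => funext fun i => congrFun h (Sum.inl i),
        Module.finrank_fintype_fun_eq_card]
      simp; omega
    · rintro _ ⟨v, rfl⟩
      rw [Agent.Classical.plusQF_apply]
      simp [Cfsg.quadFormPlus, L]

end Cfsg.Agent.S5996
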