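import Cfsg.Statements.S5997
import Cfsg.Agent.Elusive.QuaternionTwo

set_option autoImplicit false
open scoped MatrixGroups
open Cfsg

namespace Cfsg.Agent.S5997

/-- Elements of prime order of PSL_2(p) and the normalizer of a quaternion subgroup. Here `T = PSL_2(F)` for the field `F` with `p` elements, `p ≥ 5` prime; `R` is a subgroup of GL_2(F) isomorphic to the quaternion group of order 8 (an absolutely irreducible 2-group of symplectic type), and `H` is the subgroup of matrices of determinant 1 normalizing `R` — a subgroup of type 2^{1+2}.O₂⁻(2), isomorphic modulo scalars to A₄ or S₄ (maximality is not assumed). Ω is the set of cosets of `H` in `T`, so an element of `T` of prime order `r` (a matrix `x` of determinant 1 with `x^r` scalar, `x` not scalar) fixes a point of Ω exactly when some conjugate of `x` by a matrix of determinant 1 normalizes `R`. Let `r` be a prime dividing the index of `H`. Then every element of `T` of order `r` fixes a point of Ω if and only if `r = 2` or `r = 3`. -/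
theorem result {F : Type*} [Field F] [Fintype F] {p : ℕ} [Fact p.Prime] [CharP F p] (hF : Fintype.card F = p) (hp : 5 ≤ p)
    (R : Subgroup (GL (Fin 2) F)) (hR : Nonempty (↥R ≃* QuaternionGroup 2))
    (r : ℕ) [Fact r.Prime]
    (hΩ : r ∣ (Cfsg.Geo.subgroupNormalizer R).relIndex (Cfsg.Geo.specialLinear (Fin 2) F)) :
    (∀ x ∈ Cfsg.Geo.specialLinear (Fin 2) F, (∃ z : F, ((x ^ r : GL (Fin 2) F) : Matrix (Fin 2) (Fin 2) F) = z • (1 : Matrix (Fin 2) (Fin 2) F)) →
      (∀ z : F, (x : Matrix (Fin 2) (Fin 2) F) ≠ z • (1 : Matrix (Fin 2) (Fin 2) F)) →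
      ∃ g ∈ Cfsg.Geo.specialLinear (Fin 2) F, g⁻¹ * x * g ∈ Cfsg.Geo.subgroupNormalizer R) ↔ (r = 2 ∨ r = 3) := by
  classical
  have h2 : (2 : F) ≠ 0 := Ring.two_ne_zero (by rw [ringChar.eq F p]; omega)
  obtain ⟨i, j, hiR, hjR, hgen, hi, hj, hji, hins, hdi, hdj, hne⟩ := Elusive.quaternion_generators h2 R hR
  have hR8 : Nat.card R = 8 := by
    obtain ⟨e⟩ := hR
    rw [Nat.card_congr e.toEquiv, Nat.card_eq_fintype_card, QuaternionGroup.card]
  have : Finite R := Nat.finite_of_card_ne_zero (by omega)
  have hSL : ∀ g : GL (Fin 2) F, g ∈ Geo.specialLinear (Fin 2) F ↔ (g : Matrix (Fin 2) (Fin 2) F).det = 1 := fun g => by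
    rw [Geo.specialLinear, MonoidHom.mem_ker, Units.ext_iff]
    rfl
  have hconj : ∀ x y : GL (Fin 2) F, (x : Matrix (Fin 2) (Fin 2) F).det = 1 → (y : Matrix (Fin 2) (Fin 2) F).det = 1 →
      (x : Matrix (Fin 2) (Fin 2) F) 0 0 + (x : Matrix (Fin 2) (Fin 2) F) 1 1 =
        (y : Matrix (Fin 2) (Fin 2) F) 0 0 + (y : Matrix (Fin 2) (Fin 2) F) 1 1 →
      ((x : Matrix (Fin 2) (Fin 2) F) 0 0 + (x : Matrix (Fin 2) (Fin 2) F) 1 1) *
        ((x : Matrix (Fin 2) (Fin 2) F) 0 0 + (x : Matrix (Fin 2) (Fin 2) F) 1 1) ≠ 4 →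
      y ∈ Geo.subgroupNormalizer R → ∃ g ∈ Geo.specialLinear (Fin 2) F, g⁻¹ * x * g ∈ Geo.subgroupNormalizer R := by
    intro x y hx hy htr ht hyN
    obtain ⟨g, hg, hxg⟩ := Elusive.exists_conj_of_trace h2 hx hy htr ht
    have hu : IsUnit g := (Matrix.isUnit_iff_isUnit_det g).2 (by rw [hg]; exact isUnit_one)
    refine ⟨hu.unit, (hSL _).2 (by rw [IsUnit.unit_spec]; exact hg), ?_⟩
    have : hu.unit⁻¹ * x * hu.unit = y := by
      rw [mul_assoc, inv_mul_eq_iff_eq_mul]
      refine Units.ext ?_
      rw [Units.val_mul, Units.val_mul, IsUnit.unit_spec]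
      exact hxg
    rwa [this]
  constructor
  · intro h
    by_contra hr
    push Not at hr
    have hrp := (Fact.out : r.Prime)
    have h5 : 5 ≤ r := by
      have := hrp.two_le
      by_contra hlt
      have : r = 4 := by omega
      rw [this] at hrp
      norm_num at hrp
    have hd : r ∣ Nat.card (Geo.specialLinear (Fin 2) F) :=
      hΩ.trans (Subgroup.index_dvd_card _)
    obtain ⟨⟨x, hxS⟩, hx⟩ := exists_prime_orderOf_dvd_card' r hd
    rw [Subgroup.orderOf_mk] at hx
    have hxr : x ^ r = 1 := hx ▸ pow_orderOf_eq_one x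
    have hxns : ∀ z : F, (x : Matrix (Fin 2) (Fin 2) F) ≠ z • 1 := by
      intro z hz
      have hzz : z * z = 1 := by
        have := (hSL x).1 hxS
        rw [hz] at this
        rwa [Matrix.det_smul, Matrix.det_one, mul_one, Fintype.card_fin, pow_two] at this
      have : x * x = 1 := Units.ext (by rw [Units.val_mul, hz, smul_mul_smul_comm, one_mul, hzz, one_smul, Units.val_one])
      have hd2 : orderOf x ∣ 2 := orderOf_dvd_of_pow_eq_one (by rw [pow_two, this])
      rw [hx] at hd2
      have := Nat.le_of_dvd (by norm_num) hd2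
      omega
    obtain ⟨g, hg, hN⟩ := h x hxS ⟨1, by rw [hxr, one_smul]; rfl⟩ hxns
    set y := g⁻¹ * x * g with hy
    have hyr : y ^ r = 1 := by
      have h' : ∀ m : ℕ, (g⁻¹ * x * g) ^ m = g⁻¹ * x ^ m * g := by
        intro m
        induction m with
        | zero => simp
        | succ m ihm => rw [pow_succ, ihm, pow_succ]; group
      rw [hy, h', hxr]; group
    have hz : ((i * i : GL (Fin 2) F) : Matrix (Fin 2) (Fin 2) F) = -1 := by rw [Units.val_mul, hi]
    have hcomm : ∀ u : GL (Fin 2) F, y * (u * u) = (u * u) * y → u ∈ R → ((u * u : GL (Fin 2) F) : Matrix (Fin 2) (Fin 2) F) = -1 → y * u = u * y := by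
      intro u hyz hu huu
      refine Elusive.commute_of_normalizing R hR8 hu (R.mul_mem hu hu) ?_ hN hyz (Fact.out) h5 hyr
      intro h1
      rw [h1, Units.val_one] at huu
      have := congrFun (congrFun huu 0) 0
      simp at this
      exact h2 (by linear_combination this)
    have hsc : ∀ u : GL (Fin 2) F, (u : Matrix (Fin 2) (Fin 2) F) = -1 → y * u = u * y := fun u hu =>
      Units.ext (by simp only [Units.val_mul, hu, mul_neg, neg_mul, one_mul, mul_one])
    have hyi := hcomm i (hsc _ hz) hiR hz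
    have hyj := hcomm j (hsc _ (by rw [Units.val_mul, hj])) hjR (by rw [Units.val_mul, hj])
    apply hne
    refine Units.ext (Elusive.commute_of_commute_two ?_ (congrArg Units.val hyi) (congrArg Units.val hyj))
    intro z hyz
    refine hxns z ?_
    have hxy : x = g * y * g⁻¹ := by rw [hy]; group
    rw [hxy, Units.val_mul, Units.val_mul, hyz, mul_smul_comm, mul_one, smul_mul_assoc, Units.mul_inv]
  · intro hr x hxS hxr hxns
    obtain ⟨z, hz⟩ := hxr
    have hdx := (hSL x).1 hxS
    set t := (x : Matrix (Fin 2) (Fin 2) F) 0 0 + (x : Matrix (Fin 2) (Fin 2) F) 1 1 with ht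
    have hxx : (x : Matrix (Fin 2) (Fin 2) F) * x = t • (x : Matrix (Fin 2) (Fin 2) F) - (1 : F) • 1 := by
      rw [Elusive.mul_self_two, hdx]
    have h4 : (4 : F) ≠ 0 := by
      rw [show (4 : F) = 2 * 2 by norm_num]; exact mul_ne_zero h2 h2
    rcases hr with rfl | rfl
    · have ht0 : t = 0 := by
        rw [pow_two, Units.val_mul, hxx] at hz
        exact (Elusive.coeff_eq_of_nonscalar hxns (a := t) (b := -(1 : F)) (a' := 0) (b' := z)
          (by rw [zero_smul, zero_add, neg_smul, ← sub_eq_add_neg]; exact hz)).1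
      have hti : (i : Matrix (Fin 2) (Fin 2) F) 0 0 + (i : Matrix (Fin 2) (Fin 2) F) 1 1 = 0 := by
        have h := Elusive.mul_self_two (i : Matrix (Fin 2) (Fin 2) F)
        rw [hi, hdi] at h
        exact (Elusive.coeff_eq_of_nonscalar hins (a := _) (b := -(1 : F)) (a' := 0) (b' := -1)
          (by rw [zero_smul, zero_add, neg_smul, ← sub_eq_add_neg, ← h, one_smul])).1
      refine hconj x i hdx hdi ?_ ?_ ?_
      · rw [← ht, ht0, hti]
      · rw [← ht, ht0, mul_zero]; exact Ne.symm h4
      · exact Subgroup.le_normalizer hiR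
    · have hp3 : (3 : F) ≠ 0 := by
        intro h
        have h3 : ((3 : ℕ) : F) = 0 := by push_cast; exact h
        have := Nat.le_of_dvd (by norm_num) ((CharP.cast_eq_zero_iff F p 3).1 h3)
        omega
      obtain ⟨A, hA, hdA, htA⟩ := Elusive.exists_three_normalizing h2 R hiR hjR hgen hi hj hji hins
      have ht1 : t = 1 ∨ t = -1 := by
        rw [pow_succ, pow_two, Units.val_mul, Units.val_mul, hxx, sub_mul, smul_mul_assoc, hxx, smul_sub,
          smul_smul, smul_mul_assoc, one_mul] at hz
        have h1 := (Elusive.coeff_eq_of_nonscalar hxns (a := t * t - 1) (b := -t) (a' := 0) (b' := z)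
          (by rw [zero_smul, zero_add, sub_smul, ← hz, neg_smul, smul_smul, mul_one]; abel)).1
        exact mul_self_eq_one_iff.1 (sub_eq_zero.1 h1)
      have hne4 : t * t ≠ 4 := by
        rcases ht1 with h | h <;> rw [h] <;> intro h' <;> exact hp3 (by linear_combination -h')
      have hneg : ∀ u : GL (Fin 2) F, (u : Matrix (Fin 2) (Fin 2) F) = -1 → u ∈ Subgroup.normalizer (R : Set (GL (Fin 2) F)) := by
        intro u hu
        have hc : ∀ w : GL (Fin 2) F, u * w * u⁻¹ = w := fun w => by
          rw [mul_inv_eq_iff_eq_mul]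
          exact Units.ext (by rw [Units.val_mul, Units.val_mul, hu, mul_neg_one, neg_one_mul])
        rw [Subgroup.mem_normalizer_iff]
        intro w
        rw [hc]
      rcases ht1 with h | h
      · refine hconj x (i * i * A) hdx ?_ ?_ hne4 ?_
        · rw [Units.val_mul, Units.val_mul, Matrix.det_mul, Matrix.det_mul, hdi, hdA]; ring
        · rw [← ht, h, Units.val_mul, Units.val_mul, hi, neg_one_mul]
          simp only [Matrix.neg_apply]
          linear_combination htA
        · exact mul_mem (hneg _ (by rw [Units.val_mul, hi])) hA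
      · exact hconj x A hdx hdA (by rw [← ht, h, htA]) hne4 hA

end Cfsg.Agent.S5997
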