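import Cfsg.Statements.S5998
import Cfsg.Agent.Elusive25.Heis3Cases
import Cfsg.Agent.Linear.Orders
-- import your own Cfsg.Agent.* helpers here

set_option autoImplicit false
open scoped MatrixGroups
open Cfsg

namespace Cfsg.Agent.S5998

theorem ne_zero_mod : ∀ u : ZMod 81, (u.val % 9 = 4 ∨ u.val % 9 = 7) → u ^ 3 * (u ^ 3 - 1) * (u ^ 2 - 1) ≠ 0 := by
  decide +kernel

open Agent.Elusive25 in
theorem ambient_top {F : Type*} [Field F] (h2 : (2 : F) ≠ 0) : Heis.Ambient (⊤ : Subgroup (GL (Fin 3) F)) where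
  det_mem _ _ := trivial
  perm_mem _ := trivial
  t_mem := trivial
  scalar_mem _ _ := trivial
  sq x _ hxx := by
    have hM : ∀ v, (x : Matrix (Fin 3) (Fin 3) F).mulVec ((x : Matrix (Fin 3) (Fin 3) F).mulVec v) = v := fun v => by
      rw [Matrix.mulVec_mulVec, ← Units.val_mul, hxx, Units.val_one, Matrix.one_mulVec]
    obtain ⟨Q, l, hl, hQ⟩ := exists_eigenbasis (x : Matrix (Fin 3) (Fin 3) F) (fun μ => μ = 1 ∨ μ = -1)
      (span_eigen_sq h2 _ hM)
    exact ⟨Q, trivial, l, hl, hQ⟩

/-- Elements of prime order of PSL_3(p), p ≡ 1 (mod 3), and the normalizer of an extraspecial subgroup of order 27. Here `T = PSL_3(F)` for the field `F` with `p` elements, `p` a prime with `p ≡ 1 (mod 3)`; `R` is a non-abelian subgroup of GL_3(F) of order 27 and exponent 3 (an extraspecial group 3^{1+2}, acting absolutely irreducibly), and `H` is the subgroup of matrices of determinant 1 normalizing `R` — a subgroup of type 3^{1+2}.Sp₂(3) (maximality is not assumed). Ω is the set of cosets of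 `H` in `T`, so an element of `T` of prime order `r` (a matrix `x` of determinant 1 with `x^r` scalar, `x` not scalar) fixes a point of Ω exactly when some conjugate of `x` by a matrix of determinant 1 normalizes `R`. Let `r` be a prime dividing the index of `H`. Then every element of `T` of order `r` fixes a point of Ω if and only if `r = 2`, or `r = 3` and `p ≡ 1 (mod 9)`. -/
theorem result {F : Type*} [Field F] [Fintype F] {p : ℕ} [Fact p.Prime] [CharP F p] (hF : Fintype.card F = p) (hp3 : p % 3 = 1)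
    (R : Subgroup (GL (Fin 3) F)) (hR : Nat.card R = 27) (hRe : Monoid.exponent R = 3) (hRna : ¬ IsMulCommutative R)
    (r : ℕ) [Fact r.Prime]
    (hΩ : r ∣ (Cfsg.Geo.subgroupNormalizer R).relIndex (Cfsg.Geo.specialLinear (Fin 3) F)) :
    (∀ x ∈ Cfsg.Geo.specialLinear (Fin 3) F, (∃ z : F, ((x ^ r : GL (Fin 3) F) : Matrix (Fin 3) (Fin 3) F) = z • (1 : Matrix (Fin 3) (Fin 3) F)) →
      (∀ z : F, (x : Matrix (Fin 3) (Fin 3) F) ≠ z • (1 : Matrix (Fin 3) (Fin 3) F)) →
      ∃ g ∈ Cfsg.Geo.specialLinear (Fin 3) F, g⁻¹ * x * g ∈ Cfsg.Geo.subgroupNormalizer R) ↔ (r = 2 ∨ (r = 3 ∧ p % 9 = 1)) := by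
  classical
  have hr : r.Prime := Fact.out
  have h2 : (2 : F) ≠ 0 := by
    intro h
    have h' : ((2 : ℕ) : F) = 0 := by exact_mod_cast h
    rw [CharP.cast_eq_zero_iff F p] at h'
    have := Nat.le_of_dvd (by norm_num) h'
    have := (Fact.out : p.Prime).two_le
    omega
  haveI : Finite R := Nat.finite_of_card_ne_zero (by omega)
  obtain ⟨w, hw⟩ := exists_prime_orderOf_dvd_card' (G := Fˣ) 3 (hp := ⟨Nat.prime_three⟩) (by
    rw [Nat.card_units, Nat.card_eq_fintype_card, hF]
    have := (Fact.out : p.Prime).two_le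
    omega)
  have hω : IsPrimitiveRoot (w : F) 3 := IsPrimitiveRoot.coe_units_iff.2 (hw ▸ IsPrimitiveRoot.orderOf w)
  obtain ⟨a, b, ha, hb, hgen, ha3, hb3, hab, v, hv0, hv⟩ := Agent.Elusive25.Heis.exists_gens hω hR hRe hRna
  obtain ⟨D, -⟩ := Agent.Elusive25.Heis.exists_data hω ha hb hgen hb3 hab hv0 hv
  have hG := ambient_top (F := F) h2
  set T := Cfsg.Geo.specialLinear (Fin 3) F with hT
  have hcard : Nat.card T = p ^ 3 * (p ^ 3 - 1) * (p ^ 2 - 1) := by
    have h1 := Agent.Linear.card_SL_mul (F := F) 3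
    rw [hT, show Nat.card (Cfsg.Geo.specialLinear (Fin 3) F) = Nat.card (Matrix.SpecialLinearGroup (Fin 3) F) from
      Nat.card_congr Agent.Linear.slEquivKerDet.toEquiv.symm]
    rw [hF, Fin.prod_univ_three] at h1
    have hp2 := (Fact.out : p.Prime).two_le
    refine Nat.eq_of_mul_eq_mul_left (show 0 < p - 1 by omega) (h1.trans ?_)
    simp only [Fin.val_zero, Fin.val_one, Fin.val_two, pow_zero, pow_one]
    obtain ⟨e, rfl⟩ : ∃ e, p = e + 1 := ⟨p - 1, by omega⟩
    have h31 : (e + 1) ^ 3 - (e + 1) = (e + 1) * ((e + 1) ^ 2 - 1) := by rw [Nat.mul_sub, mul_one]; ring_nf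
    have h32 : (e + 1) ^ 3 - (e + 1) ^ 2 = (e + 1) ^ 2 * e := by
      rw [show (e + 1) ^ 3 = (e + 1) ^ 2 * e + (e + 1) ^ 2 by ring, Nat.add_sub_cancel]
    rw [h31, h32, Nat.add_sub_cancel]
    ring
  constructor
  · intro hall
    by_contra hno
    rw [not_or] at hno
    obtain ⟨hr2, hr39⟩ := hno
    by_cases hr3 : r = 3
    · subst hr3
      have hp9 : p % 9 = 4 ∨ p % 9 = 7 := by
        have : p % 9 ≠ 1 := fun h => hr39 ⟨rfl, h⟩
        omega
      have hRT : R ≤ Cfsg.Geo.subgroupNormalizer R ⊓ T := by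
        refine le_inf (Subgroup.le_normalizer) ?_
        rw [← D.gen, Subgroup.closure_le]
        have hdet : ∀ (g : GL (Fin 3) F) (M : Matrix (Fin 3) (Fin 3) F), (g : Matrix (Fin 3) (Fin 3) F) * (D.P : Matrix (Fin 3) (Fin 3) F) =
            (D.P : Matrix (Fin 3) (Fin 3) F) * M → M.det = 1 → g ∈ T := fun g M hg hM => Units.ext (by
          have h := congrArg Matrix.det hg
          rw [Matrix.det_mul, Matrix.det_mul, hM, mul_one] at h
          rw [Matrix.GeneralLinearGroup.val_det_apply, Units.val_one]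
          exact (mul_eq_right₀ ((Matrix.isUnit_iff_isUnit_det _).1 D.P.isUnit).ne_zero).1 h)
        rintro g (rfl | rfl)
        · refine hdet _ _ D.aP ?_
          rw [Agent.Elusive25.Heis.Am, Matrix.det_diagonal, Fin.prod_univ_three, ← pow_add, ← pow_add]
          exact hω.pow_eq_one
        · refine hdet _ _ D.bP ?_
          rw [Matrix.det_fin_three]
          simp +decide [Agent.Elusive25.Heis.Bm]
      have h1 := Subgroup.card_mul_index ((Cfsg.Geo.subgroupNormalizer R ⊓ T).subgroupOf T)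
      rw [Nat.card_congr (Subgroup.subgroupOfEquivOfLe inf_le_right).toEquiv,
        show ((Cfsg.Geo.subgroupNormalizer R ⊓ T).subgroupOf T).index = (Cfsg.Geo.subgroupNormalizer R).relIndex T from
          (Subgroup.inf_relIndex_right _ _), hcard] at h1
      have h81 : 81 ∣ p ^ 3 * (p ^ 3 - 1) * (p ^ 2 - 1) := by
        rw [← h1]
        exact mul_dvd_mul (hR ▸ Subgroup.card_dvd_of_le hRT : 27 ∣ _) hΩ
      rw [← CharP.cast_eq_zero_iff (ZMod 81) 81] at h81
      rw [Nat.cast_mul, Nat.cast_mul, Nat.cast_sub (Nat.one_le_pow _ _ (Fact.out : p.Prime).pos),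
        Nat.cast_sub (Nat.one_le_pow _ _ (Fact.out : p.Prime).pos), Nat.cast_pow, Nat.cast_pow, Nat.cast_one] at h81
      refine ne_zero_mod (p : ZMod 81) ?_ h81
      rw [ZMod.val_natCast]
      omega
    · have hr5 : 5 ≤ r := by
        have := hr.two_le
        rcases Nat.lt_or_ge r 5 with h | h
        · interval_cases r <;> first | omega | exact absurd hr (by decide)
        · exact h
      obtain ⟨x, hx⟩ := exists_prime_orderOf_dvd_card' (G := T) r (hΩ.trans (Subgroup.index_dvd_card _))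
      have hx' : orderOf (x : GL (Fin 3) F) = r := by rw [Subgroup.orderOf_coe, hx]
      have hxr : (x : GL (Fin 3) F) ^ r = 1 := hx' ▸ pow_orderOf_eq_one _
      have hns := Agent.Elusive25.Heis.not_scalar hr5 x.2 hx'
      obtain ⟨g, -, hg⟩ := hall x x.2 ⟨1, by rw [hxr, Units.val_one, one_smul]⟩ hns
      exact Agent.Elusive25.Heis.not_exists_conj D hω hR hr5 hxr hns g hg
  · rintro (rfl | ⟨rfl, hp9⟩) x hx ⟨z, hz⟩ hns
    · obtain ⟨g, hg, hgN⟩ := Agent.Elusive25.Heis.exists_conj_two hG D hω trivial h2 (x := x) ⟨trivial, hx⟩ hz hns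
      exact ⟨g, hg.2, hgN⟩
    · have hz3 : z ^ 3 = 1 := by
        have h := congrArg Matrix.det hz
        rw [Units.val_pow_eq_pow_val, Matrix.det_pow, ← Matrix.GeneralLinearGroup.val_det_apply,
          show Matrix.GeneralLinearGroup.det x = 1 from hx, Units.val_one, one_pow, Matrix.det_smul, Matrix.det_one,
          mul_one, Fintype.card_fin] at h
        exact h.symm
      obtain ⟨η, hη9, hη⟩ := Agent.Elusive25.Heis.exists_cube_root (by rw [hF]; omega) hω hz3
      have hη0 : η ≠ 0 := fun h => by rw [h, zero_pow (by norm_num)] at hη9; exact zero_ne_one hη9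
      obtain ⟨Q, l, hl, hQ⟩ := Agent.Elusive25.exists_eigenbasis _ _ (Agent.Elusive25.span_eigen_cube hω hη0
        (x : Matrix (Fin 3) (Fin 3) F) fun v => by
          rw [Matrix.mulVec_mulVec, Matrix.mulVec_mulVec, ← pow_three', ← Units.val_pow_eq_pow_val, hz,
            Matrix.smul_mulVec, Matrix.one_mulVec, hη])
      obtain ⟨g, hg, hgN⟩ := Agent.Elusive25.Heis.exists_conj_three hG D hω trivial (x := x) (Q := Q) trivial hl hQ
      exact ⟨g, hg.2, hgN⟩

end Cfsg.Agent.S5998
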