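import Cfsg.Statements.S5999
import Cfsg.Agent.Elusive25.Heis3Cases
import Cfsg.Agent.Classical.UGroup
import Cfsg.Agent.Classical.USimple
-- import your own Cfsg.Agent.* helpers here

set_option autoImplicit false
open scoped MatrixGroups
open Cfsg

namespace Cfsg.Agent.S5999

theorem ne_zero_mod : ∀ u : ZMod 81, (u.val % 9 = 2 ∨ u.val % 9 = 5) → u ^ 3 * (u ^ 3 + 1) * (u ^ 2 - 1) ≠ 0 := by
  decide +kernel

open Agent.Classical.U in
theorem det_norm {F : Type*} [Field F] {n q : ℕ} (hF : SqField F q) {g : GL (Fin n) F} (hg : g ∈ Cfsg.GU n F q) :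
    ((Matrix.GeneralLinearGroup.det g : Fˣ) : F) ^ (q + 1) = 1 := by
  have h := det_norm_one hF (guEquiv n F q ⟨g, hg⟩)
  rwa [show ((guEquiv n F q ⟨g, hg⟩ : UG n F q) : (Fin n → F) ≃ₗ[F] (Fin n → F)) = glEquiv n F g from rfl,
    det_glEquiv] at h

open Agent.Elusive25 Agent.Classical.U in
theorem ambient_gu {F : Type*} [Field F] {p : ℕ} (hF : SqField F p) (h2 : (2 : F) ≠ 0) (hp : Odd p) (hp3 : p % 3 = 2) :
    Heis.Ambient (Cfsg.GU 3 F p) where
  det_mem g hg := fun u v => by
    set d : Fˣ := Matrix.GeneralLinearGroup.det g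
    show herm p ((Heis.detGL d : Matrix (Fin 3) (Fin 3) F).mulVec u) ((Heis.detGL d : Matrix (Fin 3) (Fin 3) F).mulVec v) = herm p u v
    have hd : ((d : Fˣ) : F) * ((d : Fˣ) : F) ^ p = 1 := by rw [← pow_succ']; exact det_norm hF hg
    simp only [Heis.detGL_coe, Matrix.mulVec_diagonal, herm_def, Fin.sum_univ_three]
    simp only [Matrix.cons_val_zero, Matrix.cons_val_one, Matrix.cons_val, one_mul, mul_pow]
    linear_combination u 0 * v 0 ^ p * hd
  perm_mem σ := fun u v => by
    show herm p ((Heis.permGL (F := F) σ : Matrix (Fin 3) (Fin 3) F).mulVec u) ((Heis.permGL (F := F) σ : Matrix (Fin 3) (Fin 3) F).mulVec v) = herm p u v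
    rw [Heis.permGL_mulVec, Heis.permGL_mulVec, herm_def, herm_def]
    exact Equiv.sum_comp σ.symm fun i => u i * v i ^ p
  t_mem := fun u v => by
    show herm p ((Heis.tGL : GL (Fin 3) F).1.mulVec u) ((Heis.tGL : GL (Fin 3) F).1.mulVec v) = herm p u v
    rw [Heis.tGL_mulVec, Heis.tGL_mulVec, herm_def, herm_def]
    simp only [hF.neg_pow, neg_mul_neg]
    exact Equiv.sum_comp (Equiv.neg (Fin 3)) fun i => u i * v i ^ p
  scalar_mem c hc := fun u v => by
    show herm p ((Matrix.GeneralLinearGroup.scalar (Fin 3) c).1.mulVec u) ((Matrix.GeneralLinearGroup.scalar (Fin 3) c).1.mulVec v) = herm p u v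
    have hm : ∀ w : Fin 3 → F, (Matrix.GeneralLinearGroup.scalar (Fin 3) c).1.mulVec w = (c : F) • w := fun w => by
      funext i
      simp [Matrix.GeneralLinearGroup.coe_scalar, Matrix.mulVec_diagonal]
    rw [hm, hm, herm_smul_left, herm_smul_right, ← mul_assoc, ← pow_succ']
    obtain ⟨k, hk⟩ : 3 ∣ p + 1 := by omega
    rw [hk, pow_mul, ← Units.val_pow_eq_pow_val, hc, Units.val_one, one_pow, one_mul]
  sq x hx hxx := by
    have hM : ∀ v, (x : Matrix (Fin 3) (Fin 3) F).mulVec ((x : Matrix (Fin 3) (Fin 3) F).mulVec v) = v := fun v => by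
      rw [Matrix.mulVec_mulVec, ← Units.val_mul, hxx, Units.val_one, Matrix.one_mulVec]
    obtain ⟨Q, l, hQ, hl, hQx⟩ := exists_unitary_eigenbasis hF h2 (x : Matrix (Fin 3) (Fin 3) F) hx
      (fun μ => μ = 1 ∨ μ = -1)
      (fun μ hμ => by rcases hμ with rfl | rfl <;> simp [hp.neg_one_pow])
      (span_eigen_sq h2 _ hM)
    exact ⟨Q, hQ, l, hl, hQx⟩

/-- Elements of prime order of PSU_3(p), p ≡ 2 (mod 3), and the normalizer of an extraspecial subgroup of order 27. Here `T = PSU_3(p)` for a prime `p ≥ 5` with `p ≡ 2 (mod 3)`, realised through `SU_3(p)`, the matrices of determinant 1 over the field `F` with `p²` elements preserving the hermitian form `Σ uᵢvᵢ^p`; `R` is a non-abelian subgroup of order 27 and exponent 3 of the full unitary group of that form (an extraspecial group 3^{1+2}, acting absolutely irreducibly), and `H` is the subgroup of `SU_3(p)` normalizing `R` — a subgroup of type 3^{1+2}.Sp₂(3) (maximality is not assumed). Ω is the set of cosets of `H`, so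 an element of `T` of prime order `r` (`x ∈ SU_3(p)` with `x^r` scalar, `x` not scalar) fixes a point of Ω exactly when some `SU_3(p)`-conjugate of `x` normalizes `R`. Let `r` be a prime dividing the index of `H`. Then every element of `T` of order `r` fixes a point of Ω if and only if `r = 2`, or `r = 3` and `p ≡ 8 (mod 9)`. -/
theorem result {F : Type*} [Field F] [Fintype F] {p : ℕ} [Fact p.Prime] [CharP F p] (hF : Fintype.card F = p ^ 2) (hp : 5 ≤ p) (hp3 : p % 3 = 2)
    (R : Subgroup (GL (Fin 3) F)) (hRU : R ≤ Cfsg.GU 3 F p) (hR : Nat.card R = 27) (hRe : Monoid.exponent R = 3) (hRna : ¬ IsMulCommutative R)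
    (r : ℕ) [Fact r.Prime]
    (hΩ : r ∣ (Cfsg.Geo.subgroupNormalizer R).relIndex (Cfsg.GU 3 F p ⊓ Cfsg.Geo.specialLinear (Fin 3) F)) :
    (∀ x ∈ Cfsg.GU 3 F p ⊓ Cfsg.Geo.specialLinear (Fin 3) F, (∃ z : F, ((x ^ r : GL (Fin 3) F) : Matrix (Fin 3) (Fin 3) F) = z • (1 : Matrix (Fin 3) (Fin 3) F)) →
      (∀ z : F, (x : Matrix (Fin 3) (Fin 3) F) ≠ z • (1 : Matrix (Fin 3) (Fin 3) F)) →
      ∃ g ∈ Cfsg.GU 3 F p ⊓ Cfsg.Geo.specialLinear (Fin 3) F, g⁻¹ * x * g ∈ Cfsg.Geo.subgroupNormalizer R) ↔ (r = 2 ∨ (r = 3 ∧ p % 9 = 8)) := by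
  classical
  have hr : r.Prime := Fact.out
  have hS : Agent.Classical.U.SqField F p := Agent.Classical.U.sqField_of_fintype hF
  have hodd : Odd p := (Fact.out : p.Prime).odd_of_ne_two (by omega)
  have h2 : (2 : F) ≠ 0 := by
    intro h
    have h' : ((2 : ℕ) : F) = 0 := by exact_mod_cast h
    rw [CharP.cast_eq_zero_iff F p] at h'
    have := Nat.le_of_dvd (by norm_num) h'
    omega
  haveI : Finite R := Nat.finite_of_card_ne_zero (by omega)
  have h31 : 3 ∣ p + 1 := by omega
  obtain ⟨w, hw⟩ := exists_prime_orderOf_dvd_card' (G := Fˣ) 3 (hp := ⟨Nat.prime_three⟩) (by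
    rw [hS.card_units]; exact h31.mul_left _)
  have hω : IsPrimitiveRoot (w : F) 3 := IsPrimitiveRoot.coe_units_iff.2 (hw ▸ IsPrimitiveRoot.orderOf w)
  obtain ⟨a, b, ha, hb, hgen, ha3, hb3, hab, v₀, hv0, hv⟩ := Agent.Elusive25.Heis.exists_gens hω hR hRe hRna
  have hnorm3 : ∀ c : F, c ^ 3 = 1 → c * c ^ p = 1 := fun c hc => by
    obtain ⟨k, hk⟩ := h31
    rw [← pow_succ', hk, pow_mul, hc, one_pow]
  -- a unitary change of basis
  have hcols : ∀ (v : Fin 3 → F) (D : Agent.Elusive25.Heis.Data R (w : F)), (a : Matrix (Fin 3) (Fin 3) F).mulVec v = v →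
      (∀ i, (D.P : Matrix (Fin 3) (Fin 3) F).mulVec (Pi.single i 1) = ((b ^ (i : ℕ) : GL (Fin 3) F) : Matrix (Fin 3) (Fin 3) F).mulVec v) →
      ∀ u u', Agent.Classical.U.herm p ((D.P : Matrix (Fin 3) (Fin 3) F).mulVec u) ((D.P : Matrix (Fin 3) (Fin 3) F).mulVec u') =
        Agent.Classical.U.herm p v v * Agent.Classical.U.herm p u u' := by
    intro v D hv hD u u'
    set e : Fin 3 → Fin 3 → F := fun i => ((b ^ (i : ℕ) : GL (Fin 3) F) : Matrix (Fin 3) (Fin 3) F).mulVec v
    have hiso : ∀ g ∈ R, ∀ x y, Agent.Classical.U.herm p ((g : Matrix (Fin 3) (Fin 3) F).mulVec x)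
        ((g : Matrix (Fin 3) (Fin 3) F).mulVec y) = Agent.Classical.U.herm p x y := fun g hg x y => hRU hg x y
    have hsame : ∀ i, Agent.Classical.U.herm p (e i) (e i) = Agent.Classical.U.herm p v v := fun i =>
      hiso _ (pow_mem hb _) v v
    have heig : ∀ i : ℕ, (a : Matrix (Fin 3) (Fin 3) F).mulVec (((b ^ i : GL (Fin 3) F) : Matrix (Fin 3) (Fin 3) F).mulVec v) =
        (w : F) ^ i • (((b ^ i : GL (Fin 3) F) : Matrix (Fin 3) (Fin 3) F).mulVec v) := by
      intro i
      induction i with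
      | zero => simpa using hv
      | succ i ih =>
        rw [pow_succ', Units.val_mul, ← Matrix.mulVec_mulVec, Matrix.mulVec_mulVec _ (a : Matrix (Fin 3) (Fin 3) F),
          hab, Matrix.smul_mulVec, ← Matrix.mulVec_mulVec, ih, Matrix.mulVec_smul, smul_smul, ← pow_succ']
    have horth : ∀ i j, i ≠ j → Agent.Classical.U.herm p (e i) (e j) = 0 := by
      intro i j hij
      have h := hiso a ha (e i) (e j)
      simp only [e, heig, Agent.Classical.U.herm_smul_left, Agent.Classical.U.herm_smul_right] at h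
      by_contra h0
      refine hij (Fin.ext (hω.pow_inj i.2 j.2 ?_))
      have h' : ((w : F) ^ (i : ℕ) * ((w : F) ^ (j : ℕ)) ^ p) * Agent.Classical.U.herm p (e i) (e j) =
          1 * Agent.Classical.U.herm p (e i) (e j) := by simp only [e]; linear_combination h
      have h1 := mul_right_cancel₀ h0 h'
      have h2' := hnorm3 ((w : F) ^ (j : ℕ)) (by rw [← pow_mul, mul_comm, pow_mul, hω.pow_eq_one, one_pow])
      linear_combination (w : F) ^ (j : ℕ) * h1 - (w : F) ^ (i : ℕ) * h2'
    have hexp : ∀ u, (D.P : Matrix (Fin 3) (Fin 3) F).mulVec u = u 0 • e 0 + u 1 • e 1 + u 2 • e 2 := fun u => by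
      have hu : u = u 0 • Pi.single 0 1 + u 1 • Pi.single 1 1 + u 2 • Pi.single 2 1 := by
        funext i; fin_cases i <;> simp
      conv_lhs => rw [hu]
      simp only [Matrix.mulVec_add, Matrix.mulVec_smul, hD]
      rfl
    rw [hexp, hexp]
    simp only [Agent.Classical.U.herm_add_left, hS.herm_add_right, Agent.Classical.U.herm_smul_left,
      Agent.Classical.U.herm_smul_right, hsame, horth 0 1 (by decide), horth 0 2 (by decide), horth 1 0 (by decide),
      horth 1 2 (by decide), horth 2 0 (by decide), horth 2 1 (by decide)]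
    rw [Agent.Classical.U.herm_def u u', Fin.sum_univ_three]
    ring
  obtain ⟨D₀, hD₀⟩ := Agent.Elusive25.Heis.exists_data hω ha hb hgen hb3 hab hv0 hv
  have hvv : Agent.Classical.U.herm p v₀ v₀ ≠ 0 := by
    intro h0
    obtain ⟨u, hu⟩ := (Matrix.mulVec_surjective_iff_isUnit.2 D₀.P.isUnit) (Pi.single 0 1)
    have := hcols v₀ D₀ hv hD₀ u u
    have hu' : (D₀.P : Matrix (Fin 3) (Fin 3) F).mulVec u = Pi.single 0 1 := hu
    rw [hu', h0, zero_mul, Agent.Classical.U.herm_def, Fin.sum_univ_three] at this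
    simp at this
  obtain ⟨t, ht⟩ := hS.exists_norm (c := (Agent.Classical.U.herm p v₀ v₀)⁻¹) (by rw [inv_pow, hS.herm_symm])
  have ht0 : t ≠ 0 := fun h => hvv (inv_eq_zero.1 (by rw [← ht, h, zero_pow (by omega)]))
  have hv1 : (a : Matrix (Fin 3) (Fin 3) F).mulVec (t • v₀) = t • v₀ := by rw [Matrix.mulVec_smul, hv]
  obtain ⟨D, hD⟩ := Agent.Elusive25.Heis.exists_data hω ha hb hgen hb3 hab (smul_ne_zero ht0 hv0) hv1
  have hP : D.P ∈ Cfsg.GU 3 F p := fun u u' => by
    show Agent.Classical.U.herm p ((D.P : Matrix (Fin 3) (Fin 3) F).mulVec u) ((D.P : Matrix (Fin 3) (Fin 3) F).mulVec u') = _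
    rw [hcols _ D hv1 hD, Agent.Classical.U.herm_smul_left, Agent.Classical.U.herm_smul_right, ← mul_assoc t,
      ← pow_succ', ht, inv_mul_cancel₀ hvv, one_mul]
  have hG := ambient_gu hS h2 hodd hp3
  set T := Cfsg.GU 3 F p ⊓ Cfsg.Geo.specialLinear (Fin 3) F with hT
  have hcard : Nat.card T = p ^ 3 * (p ^ 3 + 1) * (p ^ 2 - 1) := by
    have h1 := Agent.Classical.U.card_SUG hS (show 1 ≤ 3 by norm_num)
    rw [Agent.Classical.U.card_UG hS, ← Nat.card_congr (Agent.Classical.U.suEquiv 3 F p).toEquiv] at h1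
    have hTS : Nat.card T = Nat.card (Cfsg.SU 3 F p) := by
      refine Nat.card_congr (Equiv.ofBijective (fun g : T => (⟨⟨(g.1 : Matrix (Fin 3) (Fin 3) F), by
        rw [← Matrix.GeneralLinearGroup.val_det_apply, show Matrix.GeneralLinearGroup.det g.1 = 1 from g.2.2,
          Units.val_one]⟩, fun u u' => g.2.1 u u'⟩ : Cfsg.SU 3 F p)) ⟨?_, ?_⟩)
      · intro g h e
        exact Subtype.ext (Units.ext (congrArg (fun z : Cfsg.SU 3 F p => (z.1 : Matrix (Fin 3) (Fin 3) F)) e))
      · intro z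
        refine ⟨⟨Matrix.SpecialLinearGroup.toGL z.1, fun u u' => z.2 u u', ?_⟩, rfl⟩
        exact Units.ext (by rw [Matrix.GeneralLinearGroup.val_det_apply]; exact z.1.2)
    rw [hTS]
    refine Nat.eq_of_mul_eq_mul_left (Nat.succ_pos p) (h1.trans ?_)
    rw [Nat.succ_eq_add_one]
    norm_num [Finset.prod_range_succ, show Even 2 from even_two, show ¬ Even 1 from Nat.not_even_one]
    ring
  constructor
  · intro hall
    by_contra hno
    rw [not_or] at hno
    obtain ⟨hr2, hr39⟩ := hno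
    by_cases hr3 : r = 3
    · subst hr3
      have hp9 : p % 9 = 2 ∨ p % 9 = 5 := by
        have : p % 9 ≠ 8 := fun h => hr39 ⟨rfl, h⟩
        omega
      have hRT : R ≤ Cfsg.Geo.subgroupNormalizer R ⊓ T := by
        refine le_inf (Subgroup.le_normalizer) (le_inf hRU ?_)
        rw [← D.gen, Subgroup.closure_le]
        have hdet : ∀ (g : GL (Fin 3) F) (M : Matrix (Fin 3) (Fin 3) F), (g : Matrix (Fin 3) (Fin 3) F) * (D.P : Matrix (Fin 3) (Fin 3) F) =
            (D.P : Matrix (Fin 3) (Fin 3) F) * M → M.det = 1 → g ∈ Cfsg.Geo.specialLinear (Fin 3) F := fun g M hg hM => Units.ext (by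
          have h := congrArg Matrix.det hg
          rw [Matrix.det_mul, Matrix.det_mul, hM, mul_one] at h
          rw [Matrix.GeneralLinearGroup.val_det_apply, Units.val_one]
          exact (mul_eq_right₀ ((Matrix.isUnit_iff_isUnit_det _).1 D.P.isUnit).ne_zero).1 h)
        rintro g (rfl | rfl)
        · refine hdet _ _ D.aP ?_
          rw [Agent.Elusive25.Heis.Am, Matrix.det_diagonal, Fin.prod_univ_three, ← pow_add, ← pow_add]
          exact hω.pow_eq_one
        · refine hdet _ _ D.bP ?_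
          rw [Matrix.det_fin_three]
          simp +decide [Agent.Elusive25.Heis.Bm]
      have h1 := Subgroup.card_mul_index ((Cfsg.Geo.subgroupNormalizer R ⊓ T).subgroupOf T)
      rw [Nat.card_congr (Subgroup.subgroupOfEquivOfLe inf_le_right).toEquiv,
        show ((Cfsg.Geo.subgroupNormalizer R ⊓ T).subgroupOf T).index = (Cfsg.Geo.subgroupNormalizer R).relIndex T from
          (Subgroup.inf_relIndex_right _ _), hcard] at h1
      have h81 : 81 ∣ p ^ 3 * (p ^ 3 + 1) * (p ^ 2 - 1) := by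
        rw [← h1]
        exact mul_dvd_mul (hR ▸ Subgroup.card_dvd_of_le hRT : 27 ∣ _) hΩ
      rw [← CharP.cast_eq_zero_iff (ZMod 81) 81] at h81
      rw [Nat.cast_mul, Nat.cast_mul, Nat.cast_add,
        Nat.cast_sub (Nat.one_le_pow _ _ (Fact.out : p.Prime).pos), Nat.cast_pow, Nat.cast_pow, Nat.cast_one] at h81
      refine ne_zero_mod (p : ZMod 81) ?_ h81
      rw [ZMod.val_natCast]
      omega
    · have hr5 : 5 ≤ r := by
        have := hr.two_le
        rcases Nat.lt_or_ge r 5 with h | h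
        · interval_cases r <;> first | omega | exact absurd hr (by decide)
        · exact h
      obtain ⟨x, hx⟩ := exists_prime_orderOf_dvd_card' (G := T) r (hΩ.trans (Subgroup.index_dvd_card _))
      have hx' : orderOf (x : GL (Fin 3) F) = r := by rw [Subgroup.orderOf_coe, hx]
      have hxr : (x : GL (Fin 3) F) ^ r = 1 := hx' ▸ pow_orderOf_eq_one _
      have hns := Agent.Elusive25.Heis.not_scalar hr5 x.2.2 hx'
      obtain ⟨g, -, hg⟩ := hall x x.2 ⟨1, by rw [hxr, Units.val_one, one_smul]⟩ hns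
      exact Agent.Elusive25.Heis.not_exists_conj D hω hR hr5 hxr hns g hg
  · rintro (rfl | ⟨rfl, hp9⟩) x hx ⟨z, hz⟩ hns
    · exact Agent.Elusive25.Heis.exists_conj_two hG D hω hP h2 hx hz hns
    · have hz3 : z ^ 3 = 1 := by
        have h := congrArg Matrix.det hz
        rw [Units.val_pow_eq_pow_val, Matrix.det_pow, ← Matrix.GeneralLinearGroup.val_det_apply,
          show Matrix.GeneralLinearGroup.det x = 1 from hx.2, Units.val_one, one_pow, Matrix.det_smul, Matrix.det_one,
          mul_one, Fintype.card_fin] at h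
        exact h.symm
      have h91 : 9 ∣ p + 1 := by omega
      obtain ⟨η, hη9, hη⟩ := Agent.Elusive25.Heis.exists_cube_root (by
        rw [hF, show p ^ 2 - 1 = (p + 1) * (p - 1) by rw [← Nat.sq_sub_sq, one_pow]]
        exact h91.mul_right _) hω hz3
      have hη0 : η ≠ 0 := fun h => by rw [h, zero_pow (by norm_num)] at hη9; exact zero_ne_one hη9
      obtain ⟨Q, l, hQU, hl, hQ⟩ := Agent.Elusive25.exists_unitary_eigenbasis hS h2 (x : Matrix (Fin 3) (Fin 3) F) hx.1
        (fun μ => ∃ k, k < 3 ∧ μ = η * (w : F) ^ k)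
        (fun μ hμ => by
          obtain ⟨k, -, rfl⟩ := hμ
          obtain ⟨j, hj⟩ := h91
          have hη1 : η * η ^ p = 1 := by rw [← pow_succ', hj, pow_mul, hη9, one_pow]
          have hk := hnorm3 ((w : F) ^ k) (by rw [← pow_mul, mul_comm, pow_mul, hω.pow_eq_one, one_pow])
          rw [mul_pow]
          linear_combination (w : F) ^ k * ((w : F) ^ k) ^ p * hη1 + hk)
        (Agent.Elusive25.span_eigen_cube hω hη0 _ fun v => by
          rw [Matrix.mulVec_mulVec, Matrix.mulVec_mulVec, ← pow_three', ← Units.val_pow_eq_pow_val, hz,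
            Matrix.smul_mulVec, Matrix.one_mulVec, hη])
      exact Agent.Elusive25.Heis.exists_conj_three hG D hω hP (x := x) (Q := Q) hQU hl hQ

end Cfsg.Agent.S5999
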