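import Cfsg.Statements.S6000
import Cfsg.Agent.Elusive25.PauliFrame
import Cfsg.Agent.Elusive25.PauliNorm
import Cfsg.Agent.Elusive25.CyclicConj
import Cfsg.Agent.Elusive25.FourTools
import Cfsg.Agent.Elusive25.Eigen

set_option autoImplicit false
open scoped MatrixGroups
open Cfsg

namespace Cfsg.Agent.S6000

open Matrix Module Agent.Elusive25

theorem orderOf_five (p : ℕ) : orderOf (p : ZMod 5) = 4 ↔ p % 5 = 2 ∨ p % 5 = 3 := by
  have : Fact (Nat.Prime 2) := ⟨Nat.prime_two⟩
  rw [← ZMod.natCast_mod]
  have h : p % 5 < 5 := Nat.mod_lt _ (by norm_num)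
  generalize p % 5 = a at h
  interval_cases a <;> norm_num
  · intro h4
    have := orderOf_eq_iff (x := (0 : ZMod 5)) (n := 4) (by norm_num) |>.1 h4
    exact absurd this.1 (by decide)
  · exact orderOf_eq_prime_pow (p := 2) (n := 1) (x := (2 : ZMod 5)) (by decide) (by decide)
  · exact orderOf_eq_prime_pow (p := 2) (n := 1) (x := (3 : ZMod 5)) (by decide) (by decide)
  · intro h4
    have := orderOf_dvd_of_pow_eq_one (show (4 : ZMod 5) ^ 2 = 1 by decide)
    rw [h4] at this
    norm_num at this

/-- Elements of prime order of PSL_4(p), p ≡ 1 (mod 4), and the normalizer of a 2-group of symplectic type of order 2⁶. Here `T = PSL_4(F)` for the field `F` with `p` elements, `p` a prime with `p ≡ 1 (mod 4)`; `R` is an absolutely irreducible subgroup of GL_4(F) of order 2⁶ that is a 2-group of symplectic type of exponent 4 with centre of order 4 (the central product of the scalars of order 4 with an extraspecial group 2^{1+4}), and `H` is the subgroup of matrices of determinant 1 normalizing `R` — a subgroup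 of type 2⁴.Sp₄(2) (maximality is not assumed). Ω is the set of cosets of `H` in `T`, so an element of `T` of prime order `r` (a matrix `x` of determinant 1 with `x^r` scalar, `x` not scalar) fixes a point of Ω exactly when some conjugate of `x` by a matrix of determinant 1 normalizes `R`. Let `r` be a prime dividing the index of `H`. Then every element of `T` of order `r` fixes a point of Ω if and only if `r = 2`, or `r = 3` and `p ≡ 2 (mod 3)`, or `r = 5` and `p ≡ ±2 (mod 5)` (`p` has multiplicative order 4 modulo 5). -/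
theorem result {F : Type*} [Field F] [Fintype F] {p : ℕ} [Fact p.Prime] [CharP F p] (hF : Fintype.card F = p) (hp4 : p % 4 = 1)
    (R : Subgroup (GL (Fin 4) F)) (hR : Cfsg.Geo.IsLinearSymplecticTypeData 2 R) (hR6 : Nat.card R = 2 ^ 6)
    (r : ℕ) [Fact r.Prime]
    (hΩ : r ∣ (Cfsg.Geo.subgroupNormalizer R).relIndex (Cfsg.Geo.specialLinear (Fin 4) F)) :
    (∀ x ∈ Cfsg.Geo.specialLinear (Fin 4) F, (∃ z : F, ((x ^ r : GL (Fin 4) F) : Matrix (Fin 4) (Fin 4) F) = z • (1 : Matrix (Fin 4) (Fin 4) F)) →
      (∀ z : F, (x : Matrix (Fin 4) (Fin 4) F) ≠ z • (1 : Matrix (Fin 4) (Fin 4) F)) →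
      ∃ g ∈ Cfsg.Geo.specialLinear (Fin 4) F, g⁻¹ * x * g ∈ Cfsg.Geo.subgroupNormalizer R) ↔ (r = 2 ∨ (r = 3 ∧ p % 3 = 2) ∨ (r = 5 ∧ orderOf (p : ZMod 5) = 4)) := by
  classical
  have hr' : r.Prime := Fact.out
  have hp : p.Prime := Fact.out
  have h2 : (2 : F) ≠ 0 := Ring.two_ne_zero fun h => by
    have h' : p = 2 := (ringChar.eq F p).symm.trans h
    rw [h'] at hp4; norm_num at hp4
  have h5p : 5 ≤ p := by
    have := hp.two_le
    omega
  set S := Cfsg.Geo.specialLinear (Fin 4) F
  have hmemS : ∀ M : GL (Fin 4) F, (M : Matrix (Fin 4) (Fin 4) F).det = 1 → M ∈ S := fun M hM => Units.ext hM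
  have hScoe : ∀ M ∈ S, ((M : GL (Fin 4) F) : Matrix (Fin 4) (Fin 4) F).det = 1 := fun M hM => congrArg Units.val hM
  have hZ : Nat.card (Subgroup.center R) = 4 := by
    obtain ⟨-, -, p', e, -, -, hcase⟩ := hR
    rcases hcase with ⟨hodd, -⟩ | ⟨-, -, h, -⟩ | ⟨-, -, hι, -⟩
    · exact absurd hodd (by decide)
    · exact h
    · simp at hι
  have hD : PauliData R := pauliData_of hR.symplecticType hR.absIrred (by rw [hR6]; norm_num) hZ h2
  obtain ⟨P, hP⟩ := hD.exists_conj
  obtain ⟨i, hi⟩ := hD.exists_i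
  have conjN : ∀ g ∈ Cfsg.Geo.subgroupNormalizer (ClassicalMax.MonomialFour.R₁ F),
      P * g * P⁻¹ ∈ Cfsg.Geo.subgroupNormalizer R := fun g hg => conj_mem_normalizer hP hg
  constructor
  · intro h
    by_contra hcon
    rw [not_or, not_or] at hcon
    obtain ⟨hr2, hr3, hr5⟩ := hcon
    have hro : Odd r := hr'.odd_of_ne_two hr2
    -- a witness with a large centraliser, or any element for `r ≥ 7`
    have kill : ∀ x ∈ S, x ^ r = 1 → x ≠ 1 →
        (r = 3 → 8 < finrank F (cent (x : Matrix (Fin 4) (Fin 4) F))) →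
        (r = 5 → 4 < finrank F (cent (x : Matrix (Fin 4) (Fin 4) F))) → False := by
      intro x hx hxr hx1 hc3 hc5
      have hns : ∀ z : F, (x : Matrix (Fin 4) (Fin 4) F) ≠ z • 1 := by
        intro z hz
        have h4 : z ^ 4 = 1 := by
          have := hScoe x hx
          rwa [hz, Matrix.det_smul, Matrix.det_one, mul_one, Fintype.card_fin] at this
        have hzr : z ^ r = 1 := by
          have := congrArg (fun g : GL (Fin 4) F => (g : Matrix (Fin 4) (Fin 4) F) 0 0) hxr
          simpa [Units.val_pow_eq_pow_val, hz, smul_pow] using this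
        have hcop : Nat.Coprime r 4 := hr'.coprime_iff_not_dvd.2 fun hd =>
          hr2 ((Nat.prime_dvd_prime_iff_eq hr' Nat.prime_two).1 (hr'.dvd_of_dvd_pow (show r ∣ 2 ^ 2 from hd)))
        have := pow_gcd_eq_one.2 ⟨hzr, h4⟩
        rw [hcop.gcd_eq_one, pow_one] at this
        exact hx1 (Units.ext (by rw [hz, this, one_smul, Units.val_one]))
      obtain ⟨g, -, hg⟩ := h x hx ⟨1, by rw [hxr, one_smul, Units.val_one]⟩ hns
      have hgr : (g⁻¹ * x * g) ^ r = 1 := by
        have := conj_pow (i := r) (a := g⁻¹) (b := x)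
        rw [inv_inv] at this
        rw [this, hxr, mul_one, inv_mul_cancel]
      rcases hD.sym.normalizer_cases hg hr' hro ⟨1, by rw [hgr, one_smul, Units.val_one]⟩ with ⟨c, hc⟩ | ⟨e, hd⟩ | ⟨e, hd⟩
      · refine hns c ?_
        have e : x = g * (g⁻¹ * x * g) * g⁻¹ := by group
        rw [e, Units.val_mul, Units.val_mul, hc, Matrix.mul_smul, Matrix.smul_mul, mul_one, ← Units.val_mul,
          mul_inv_cancel, Units.val_one]
      · rw [finrank_cent_conj] at hd; have := hc3 e; omega
      · rw [finrank_cent_conj] at hd; have := hc5 e; omega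
    by_cases hr7 : r = 3 ∨ r = 5
    · rcases hr7 with rfl | rfl
      · -- `diag(ω, ω, ω, 1)`
        have hp3 : p % 3 = 1 := by
          have : p % 3 ≠ 2 := fun h' => hr3 ⟨rfl, h'⟩
          have : p % 3 ≠ 0 := fun h' => by
            have := (Nat.prime_dvd_prime_iff_eq Nat.prime_three hp).1 (Nat.dvd_of_mod_eq_zero h')
            omega
          omega
        obtain ⟨w, hw⟩ := exists_prime_orderOf_dvd_card' (G := Fˣ) 3 (by
          rw [Nat.card_units, Nat.card_eq_fintype_card, hF]; omega)
        have hw3 : (w : F) ^ 3 = 1 := by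
          rw [← Units.val_pow_eq_pow_val, ← hw, pow_orderOf_eq_one, Units.val_one]
        have hw1 : (w : F) ≠ 1 := fun e => by
          rw [Units.val_eq_one] at e; rw [e, orderOf_one] at hw; norm_num at hw
        let e : Fin 1 ⊕ Fin 3 ≃ Fin 4 := finSumFinEquiv
        let A : Matrix (Fin 1) (Fin 1) F := ((w⁻¹ : Fˣ) : F) • 1
        let M : Matrix (Fin 4) (Fin 4) F := (w : F) • Matrix.reindexAlgEquiv F F e (Matrix.fromBlocks A 0 0 1)
        have hMdet : M.det = 1 := by
          simp only [M, A, Matrix.det_smul, Matrix.det_reindexAlgEquiv, Matrix.det_fromBlocks_zero₂₁,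
            Matrix.det_one, mul_one, Fintype.card_fin, pow_one]
          rw [show ((w : F)) ^ 4 = (w : F) ^ 3 * w by ring, hw3, one_mul, Units.mul_inv]
        let x : GL (Fin 4) F := Matrix.GeneralLinearGroup.mkOfDetNeZero M (by rw [hMdet]; exact one_ne_zero)
        refine kill x (hmemS x hMdet) (Units.ext ?_) (fun e1 => ?_) (fun _ => ?_) (fun h5 => by norm_num at h5)
        · rw [Units.val_pow_eq_pow_val, Units.val_one]
          show M ^ 3 = 1
          have hA : A ^ 3 = 1 := by
            simp only [A, smul_pow, one_pow]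
            rw [← Units.val_pow_eq_pow_val, inv_pow, ← hw, pow_orderOf_eq_one, inv_one, Units.val_one, one_smul]
          have hB : (Matrix.fromBlocks A 0 0 (1 : Matrix (Fin 3) (Fin 3) F)) ^ 3 = 1 := by
            simp [pow_succ, Matrix.fromBlocks_multiply] at hA ⊢
            simp [hA, Matrix.fromBlocks_one]
          rw [smul_pow, ← map_pow, hB, map_one, hw3, one_smul]
        · have h' := congrArg (fun g : GL (Fin 4) F => (g : Matrix (Fin 4) (Fin 4) F) (e (Sum.inr 0)) (e (Sum.inr 0))) e1
          simp [x, M, Matrix.reindexAlgEquiv_apply] at h'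
          exact hw1 (by rw [h', Units.val_one])
        · have hc : cent M = cent (Matrix.reindexAlgEquiv F F e (Matrix.fromBlocks A 0 0 1)) := by
            ext B
            rw [mem_cent, mem_cent]
            constructor
            · intro hB
              have := congrArg (((w⁻¹ : Fˣ) : F) • ·) hB
              simpa [M, Matrix.smul_mul, Matrix.mul_smul, smul_smul] using this
            · intro hB
              simp only [M, Matrix.smul_mul, Matrix.mul_smul, hB]
          have := five_le_cent e (by norm_num) (M := Matrix.reindexAlgEquiv F F e (Matrix.fromBlocks A 0 0 1)) rfl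
          rw [← hc] at this
          show 8 < finrank F (cent M)
          omega
      · -- `A ⊕ 1` with `A` of order five
        have hp5 : p % 5 = 0 ∨ p % 5 = 1 ∨ p % 5 = 4 := by
          by_contra
          exact hr5 ⟨rfl, (orderOf_five p).2 (by omega)⟩
        have hdvd : 5 ∣ Nat.card (Matrix.SpecialLinearGroup (Fin 2) F) := by
          have h1 := Agent.Linear.card_SL_mul (F := F) 2
          simp only [Fin.prod_univ_two, hF, Fin.val_zero, Fin.val_one, pow_zero, pow_one] at h1
          obtain ⟨k, rfl⟩ : ∃ k, p = k + 1 := ⟨p - 1, by omega⟩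
          rw [Nat.add_sub_cancel, show (k + 1) ^ 2 - 1 = k * (k + 2) by rw [Nat.sub_eq_iff_eq_add (Nat.one_le_pow _ _ (by omega))]; ring,
            show (k + 1) ^ 2 - (k + 1) = k * (k + 1) by rw [Nat.sub_eq_iff_eq_add (Nat.le_self_pow two_ne_zero _)]; ring,
            show k * (k + 2) * (k * (k + 1)) = k * (k * ((k + 2) * (k + 1))) by ring] at h1
          rw [Nat.eq_of_mul_eq_mul_left (by omega) h1]
          rcases hp5 with h' | h' | h'
          · exact Dvd.dvd.mul_left (Dvd.dvd.mul_left (Nat.dvd_of_mod_eq_zero h') _) _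
          · exact Dvd.dvd.mul_right (by omega) _
          · exact Dvd.dvd.mul_left (Dvd.dvd.mul_right (by omega) _) _
        obtain ⟨A, hA⟩ := exists_prime_orderOf_dvd_card' 5 hdvd
        let e : Fin 2 ⊕ Fin 2 ≃ Fin 4 := finSumFinEquiv
        let M : Matrix (Fin 4) (Fin 4) F :=
          Matrix.reindexAlgEquiv F F e (Matrix.fromBlocks (A : Matrix (Fin 2) (Fin 2) F) 0 0 1)
        have hMdet : M.det = 1 := by
          simp only [M, Matrix.det_reindexAlgEquiv, Matrix.det_fromBlocks_zero₂₁, Matrix.det_one, mul_one, A.det_coe]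
        let x : GL (Fin 4) F := Matrix.GeneralLinearGroup.mkOfDetNeZero M (by rw [hMdet]; exact one_ne_zero)
        refine kill x (hmemS x hMdet) (Units.ext ?_) (fun e1 => ?_) (fun h3 => by norm_num at h3) (fun _ => ?_)
        · rw [Units.val_pow_eq_pow_val, Units.val_one]
          show M ^ 5 = 1
          have hp' : ∀ k : ℕ, (Matrix.fromBlocks (A : Matrix (Fin 2) (Fin 2) F) 0 0 (1 : Matrix (Fin 2) (Fin 2) F)) ^ k =
              Matrix.fromBlocks ((A : Matrix (Fin 2) (Fin 2) F) ^ k) 0 0 1 := by
            intro k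
            induction k with
            | zero => simp [Matrix.fromBlocks_one]
            | succ k ih => simp [pow_succ, ih, Matrix.fromBlocks_multiply]
          rw [← map_pow, hp', ← Matrix.SpecialLinearGroup.coe_pow, ← hA, pow_orderOf_eq_one,
            Matrix.SpecialLinearGroup.coe_one, Matrix.fromBlocks_one, map_one]
        · have h' : M = 1 := congrArg Units.val e1
          have h'' := (Matrix.reindexAlgEquiv F F e).injective (h'.trans (map_one _).symm)
          rw [← Matrix.fromBlocks_one, Matrix.fromBlocks_inj] at h''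
          have : A = 1 := Subtype.ext h''.1
          rw [this, orderOf_one] at hA
          norm_num at hA
        · have := five_le_cent e (by norm_num) (M := M) rfl
          show 4 < finrank F (cent M)
          omega
    · rw [not_or] at hr7
      obtain ⟨x, hx⟩ := exists_prime_orderOf_dvd_card' (G := S) r (hΩ.trans (Subgroup.relIndex_dvd_card _ _))
      refine kill x.1 x.2 ?_ ?_ (fun e => absurd e hr7.1) (fun e => absurd e hr7.2)
      · rw [← SubgroupClass.coe_pow, ← hx, pow_orderOf_eq_one]; rfl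
      · intro e
        rw [← Subgroup.orderOf_coe, e, orderOf_one] at hx
        exact hr'.ne_one hx.symm
  · intro hcases x hx ⟨z, hz⟩ hns
    have hzM : (x : Matrix (Fin 4) (Fin 4) F) ^ r = z • 1 := by rw [← Units.val_pow_eq_pow_val, hz]
    have hz4 : z ^ 4 = 1 := by
      have := congrArg Matrix.det hzM
      rwa [Matrix.det_pow, hScoe x hx, one_pow, Matrix.det_smul, Matrix.det_one, mul_one, Fintype.card_fin,
        eq_comm] at this
    have hz0 : z ≠ 0 := fun e => by rw [e] at hz4; simp at hz4
    by_cases hr2 : r = 2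
    · -- involutions
      subst hr2
      obtain ⟨w, hw⟩ : ∃ w, w ^ 2 = z := by
        by_contra hno
        push Not at hno
        obtain ⟨t, ht, hdet⟩ := Elusive.det_of_pow_eq_scalar Nat.prime_two hno hzM
        obtain rfl : t = 2 := by omega
        have hz2 : z ^ 2 = 1 := by
          rw [hScoe x hx, mul_pow] at hdet
          linear_combination -hdet
        rcases sq_eq_one_iff.1 hz2 with e | e
        · exact hno 1 (by rw [e, one_pow])
        · exact hno i (by rw [e, hi])
      have hw0 : w ≠ 0 := fun e => hz0 (by rw [← hw, e, zero_pow two_ne_zero])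
      obtain ⟨Q, l, hl, hQ⟩ := exists_eigenbasis (x : Matrix (Fin 4) (Fin 4) F) (fun μ => μ = w ∨ μ = -w) (fun v => by
        have h1 := span_eigen_sq h2 (w⁻¹ • (x : Matrix (Fin 4) (Fin 4) F)) (fun v => by
          rw [Matrix.mulVec_mulVec, smul_mul_smul_comm, ← pow_two (x : Matrix (Fin 4) (Fin 4) F), hzM, smul_smul,
            ← hw, show w⁻¹ * w⁻¹ * w ^ 2 = 1 by field_simp, one_smul, Matrix.one_mulVec]) v
        refine Submodule.span_mono ?_ h1
        rintro u ⟨μ, hμ, hu⟩
        refine ⟨w * μ, by rcases hμ with rfl | rfl <;> simp, ?_⟩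
        have := congrArg (w • ·) hu
        simpa [Matrix.smul_mulVec, smul_smul, hw0] using this)
      have hQd := (Matrix.GeneralLinearGroup.det Q).ne_zero
      have hPd := (Matrix.GeneralLinearGroup.det P).ne_zero
      let T : GL (Fin 4) F := Matrix.GeneralLinearGroup.mkOfDetNeZero
        (Matrix.diagonal fun k : Fin 4 => if k = 0 then (P : Matrix (Fin 4) (Fin 4) F).det / (Q : Matrix (Fin 4) (Fin 4) F).det else 1)
        (by rw [Matrix.det_diagonal, Finset.prod_ite_eq' Finset.univ (0 : Fin 4)]; simp only [Finset.mem_univ, if_true]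
            exact div_ne_zero hPd hQd)
      let L : GL (Fin 4) F := Matrix.GeneralLinearGroup.mkOfDetNeZero (Matrix.diagonal l) (by
        rw [Matrix.det_diagonal, Finset.prod_ne_zero_iff]
        exact fun k _ => by rcases hl k with e | e <;> rw [e] <;> simp [hw0])
      have hTL : T * L = L * T := Units.ext (by
        show Matrix.diagonal _ * Matrix.diagonal l = Matrix.diagonal l * Matrix.diagonal _
        rw [Matrix.diagonal_mul_diagonal, Matrix.diagonal_mul_diagonal]; congr 1; funext k; exact mul_comm _ _)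
      have hQx : x * Q = Q * L := Units.ext hQ
      refine ⟨Q * T * P⁻¹, hmemS _ ?_, ?_⟩
      · rw [Units.val_mul, Units.val_mul, Matrix.det_mul, Matrix.det_mul, Matrix.coe_units_inv, Matrix.det_nonsing_inv,
          Ring.inverse_eq_inv']
        show _ * (Matrix.diagonal _).det * _ = 1
        rw [Matrix.det_diagonal, Finset.prod_ite_eq' Finset.univ (0 : Fin 4)]
        simp only [Finset.mem_univ, if_true]
        field_simp
        exact div_self (mul_ne_zero hQd hPd)
      · have e : (Q * T * P⁻¹)⁻¹ * x * (Q * T * P⁻¹) = P * L * P⁻¹ := by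
          calc (Q * T * P⁻¹)⁻¹ * x * (Q * T * P⁻¹) = P * T⁻¹ * Q⁻¹ * (x * Q) * T * P⁻¹ := by group
            _ = P * T⁻¹ * (L * T) * P⁻¹ := by rw [hQx]; group
            _ = _ := by rw [← hTL]; group
        rw [e]
        exact conjN L (diag_mem_normalizer hi hw0 l hl rfl)
    have hro : Odd r := hr'.odd_of_ne_two hr2
    -- remove the scalar
    obtain ⟨c, hc, hc4⟩ : ∃ c : F, c ^ r = z ∧ c ^ 4 = 1 := by
      rcases hcases with e | ⟨rfl, -⟩ | ⟨rfl, -⟩
      · exact absurd e hr2
      · exact ⟨z ^ 3, by rw [← pow_mul]; linear_combination (z * z ^ 4 + z) * hz4,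
          by rw [← pow_mul, mul_comm, pow_mul, hz4, one_pow]⟩
      · exact ⟨z, by linear_combination z * hz4, hz4⟩
    have hc0 : c ≠ 0 := fun e => by rw [e] at hc4; simp at hc4
    let C : GL (Fin 4) F := Matrix.GeneralLinearGroup.mkOfDetNeZero (c • 1) (by simp [Matrix.det_smul, hc0])
    have hCx : ∀ g : GL (Fin 4) F, C * g = g * C := fun g => Units.ext (by
      show (c • 1) * (g : Matrix (Fin 4) (Fin 4) F) = (g : Matrix (Fin 4) (Fin 4) F) * (c • 1)
      simp)
    set y := C⁻¹ * x with hy
    have hyr : y ^ r = 1 := by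
      have hcomm : Commute C⁻¹ x := (show Commute C x from hCx x).inv_left
      rw [hy, hcomm.mul_pow, inv_pow, inv_mul_eq_one]
      refine Units.ext ?_
      rw [Units.val_pow_eq_pow_val, Units.val_pow_eq_pow_val, hzM]
      show (c • (1 : Matrix (Fin 4) (Fin 4) F)) ^ r = z • 1
      rw [smul_pow, one_pow, hc]
    have hy1 : y ≠ 1 := fun e => hns c (by
      rw [show x = C from (inv_mul_eq_one.1 e).symm]; rfl)
    suffices ∃ g ∈ S, g⁻¹ * y * g ∈ Cfsg.Geo.subgroupNormalizer R by
      obtain ⟨g, hg, hgy⟩ := this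
      refine ⟨g, hg, ?_⟩
      have e : g⁻¹ * x * g = C * (g⁻¹ * y * g) := by
        rw [hy, ← mul_assoc C, ← mul_assoc C, hCx g⁻¹, mul_assoc g⁻¹ C, mul_inv_cancel_left]
      rw [e]
      exact mul_mem (scalar_mem_normalizer R (g := C) (c := c) rfl) hgy
    rcases hcases with e | ⟨rfl, hp3⟩ | ⟨rfl, hp5⟩
    · exact absurd e hr2
    · -- order three
      have h3F : ¬ 3 ∣ Fintype.card F := by rw [hF]; omega
      have hno : ∀ l : F, l * l + l + 1 ≠ 0 := fun l hl => by
        have hl0 : l ≠ 0 := fun e => by rw [e] at hl; simp at hl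
        have h3 : l ^ 3 = 1 := by linear_combination (l - 1) * hl
        have := pow_gcd_eq_one.2 ⟨h3, FiniteField.pow_card_sub_one_eq_one l hl0⟩
        rw [hF, ((Nat.prime_three.coprime_iff_not_dvd).2 (by omega)).gcd_eq_one, pow_one] at this
        rw [this] at hl
        have h' : ((3 : ℕ) : F) = 0 := by push_cast; linear_combination hl
        rw [CharP.cast_eq_zero_iff F p] at h'
        have := Nat.le_of_dvd (by norm_num) h'
        omega
      obtain ⟨⟨y₁, hy₁N, hy₁3, hy₁1, hy₁v, -⟩, ⟨y₂, hy₂N, hy₂3, hy₂q, -⟩⟩ := exists_three_mem hi h2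
      obtain ⟨y₀, hy₀N, hy₀3, Q, hQ⟩ : ∃ y₀ ∈ Cfsg.Geo.subgroupNormalizer R, y₀ ^ 3 = 1 ∧
          ∃ Q : GL (Fin 4) F, Q * y₀ = y * Q := by
        by_cases hfix : ∃ v : Fin 4 → F, v ≠ 0 ∧ (y : Matrix (Fin 4) (Fin 4) F) *ᵥ v = v
        · obtain ⟨Q, hQ⟩ := exists_conj_three hno hy₁3 hyr (Or.inr ⟨⟨hy₁1, _, by simp, hy₁v⟩, hy1, hfix⟩)
          exact ⟨_, conjN y₁ hy₁N, by rw [conj_pow, hy₁3, mul_one, mul_inv_cancel], Q * P⁻¹, by
            rw [← mul_assoc y, ← hQ]; group⟩
        · push Not at hfix
          have hq : (y : Matrix (Fin 4) (Fin 4) F) * y + y + 1 = 0 := by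
            refine Matrix.ext_of_mulVec_single fun k => ?_
            rw [Matrix.zero_mulVec]
            by_contra hne
            refine hfix _ hne ?_
            rw [Matrix.mulVec_mulVec, mul_add, mul_add, mul_one, ← mul_assoc,
              show (y : Matrix (Fin 4) (Fin 4) F) * y * y = 1 by
                rw [← Units.val_mul, ← Units.val_mul, ← Units.val_one, ← hyr]; simp [pow_succ]]
            congr 1
            abel
          obtain ⟨Q, hQ⟩ := exists_conj_three hno hy₂3 hyr (Or.inl ⟨hy₂q, hq⟩)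
          exact ⟨_, conjN y₂ hy₂N, by rw [conj_pow, hy₂3, mul_one, mul_inv_cancel], Q * P⁻¹, by
            rw [← mul_assoc y, ← hQ]; group⟩
      obtain ⟨g, hg, hgy⟩ := exists_det_one_conj h3F hy₀3 hQ
      exact ⟨g, hmemS g hg, by rw [hgy]; exact hy₀N⟩
    · -- order five
      have hp5' := (orderOf_five p).1 hp5
      obtain ⟨y₁, hy₁N, hy₁5, hy₁1, -⟩ := exists_five_mem hi h2
      have hdet1 : ∀ g : GL (Fin 4) F, g ^ 5 = 1 → g ∈ S := fun g hg => hmemS g (by
        set δ := (g : Matrix (Fin 4) (Fin 4) F).det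
        have h1 : δ ^ 5 = 1 := by rw [← Matrix.det_pow, ← Units.val_pow_eq_pow_val, hg, Units.val_one, Matrix.det_one]
        have h0 : δ ≠ 0 := fun e => by rw [e] at h1; simp at h1
        have := pow_gcd_eq_one.2 ⟨h1, FiniteField.pow_card_sub_one_eq_one δ h0⟩
        rwa [hF, ((Nat.Prime.coprime_iff_not_dvd (by norm_num)).2 (by omega)).gcd_eq_one, pow_one] at this)
      set y₀ := P * y₁ * P⁻¹ with hy₀
      have hy₀5 : y₀ ^ 5 = 1 := by rw [hy₀, conj_pow, hy₁5, mul_one, mul_inv_cancel]
      have hy₀1 : y₀ ≠ 1 := fun e => hy₁1 (by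
        rw [hy₀] at e
        calc y₁ = P⁻¹ * (P * y₁ * P⁻¹) * P := by group
          _ = 1 := by rw [e]; group)
      have : Fact (Nat.Prime 5) := ⟨by norm_num⟩
      have hord : ∀ g : GL (Fin 4) F, ∀ hg : g ^ 5 = 1, g ≠ 1 → orderOf (⟨g, hdet1 g hg⟩ : S) = 5 := fun g hg hg1 =>
        orderOf_eq_prime (Subtype.ext hg) fun e => hg1 (congrArg Subtype.val e)
      obtain ⟨g, hg⟩ := exists_conj_mem_zpowers (G := S) (r := 5) (fun c d hc hd hcd => by
        have e : ∀ w : S, orderOf w = 5 → (w : GL (Fin 4) F) ^ 5 = 1 := fun w hw => by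
          rw [← SubgroupClass.coe_pow, ← hw, pow_orderOf_eq_one]; rfl
        obtain ⟨j, hj⟩ := mem_zpowers_of_free S (fun w _ hw hw1 v hv => fixed_free_five (by simp) (by rw [hF]; exact hp5) hw hw1 hv)
          c.2 d.2 (e c hc) (fun e1 => by
            rw [← Subgroup.orderOf_coe, e1, orderOf_one] at hc; norm_num at hc) (e d hd) (congrArg Subtype.val hcd.eq)
        exact ⟨j, Subtype.ext hj⟩) (hord y hyr hy1) (hord y₀ hy₀5 hy₀1)
      obtain ⟨j, hj⟩ := hg
      refine ⟨g.1, g.2, ?_⟩
      have hj' : y₀ ^ j = (g : GL (Fin 4) F)⁻¹ * y * g := congrArg Subtype.val hj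
      rw [← hj']
      exact zpow_mem (conjN y₁ hy₁N) j

end Cfsg.Agent.S6000
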