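import Cfsg.Statements.S6001
import Cfsg.Agent.Elusive25.PauliFrame
import Cfsg.Agent.Elusive25.PauliNorm
import Cfsg.Agent.Elusive25.CyclicConj
import Cfsg.Agent.Elusive25.FourTools
import Cfsg.Agent.Elusive25.UnitarySim
import Cfsg.Agent.Elusive25.UnitaryTools

set_option autoImplicit false
open scoped MatrixGroups
open Cfsg

namespace Cfsg.Agent.S6001

open Matrix Module Agent.Elusive25
open Cfsg.Agent.Classical.U (SqField herm)

theorem orderOf_five (p : ℕ) : orderOf (p : ZMod 5) = 4 ↔ p % 5 = 2 ∨ p % 5 = 3 := by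
  have : Fact (Nat.Prime 2) := ⟨Nat.prime_two⟩
  rw [← ZMod.natCast_mod]
  have h : p % 5 < 5 := Nat.mod_lt _ (by norm_num)
  generalize p % 5 = a at h
  interval_cases a <;> norm_num
  · intro h4
    have := orderOf_eq_iff (x := (0 : ZMod 5)) (n := 4) (by norm_num) |>.1 h4
    exact absurd this.1 (by decide)
  · exact orderOf_eq_prime_pow (p := 2) (n := 1) (x := (2 : ZMod 5)) (by decide) (by decide)
  · exact orderOf_eq_prime_pow (p := 2) (n := 1) (x := (3 : ZMod 5)) (by decide) (by decide)
  · intro h4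
    have := orderOf_dvd_of_pow_eq_one (show (4 : ZMod 5) ^ 2 = 1 by decide)
    rw [h4] at this
    norm_num at this

/-- Four numbers `±w` with product one. -/
theorem sum_signs {F : Type*} [Field F] {w : F} (l : Fin 4 → F) (hl : ∀ k, l k = w ∨ l k = -w)
    (hp : ∏ k, l k = 1) : w ^ 4 = 1 ∨ ∑ k, l k = 2 * w ∨ ∑ k, l k = -(2 * w) := by
  rw [Fin.prod_univ_four] at hp
  rw [Fin.sum_univ_four]
  rcases hl 0 with a | a <;> rcases hl 1 with b | b <;> rcases hl 2 with c | c <;> rcases hl 3 with d | d <;>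
    rw [a, b, c, d] at hp ⊢ <;>
    first
      | (left; linear_combination hp)
      | (right; left; ring1)
      | (right; right; ring1)

/-- Unitary elements of order five fix no vector. -/
theorem free_five {F : Type*} [Field F] {p : ℕ} [CharP F p] (hF : SqField F p) (hp5 : p % 5 = 2 ∨ p % 5 = 3)
    {g : GL (Fin 4) F} (hg : g ∈ Cfsg.GU 4 F p) (hg5 : g ^ 5 = 1) (hg1 : g ≠ 1) {v : Fin 4 → F}
    (hv : (g : Matrix (Fin 4) (Fin 4) F) *ᵥ v = v) : v = 0 := by
  have : Finite F := hF.1
  have := Fintype.ofFinite F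
  by_contra hv0
  have h5 : ((5 : ℕ) : F) ≠ 0 := by
    rw [Ne, CharP.cast_eq_zero_iff F p]
    intro h
    have := hF.one_lt
    rcases (Nat.dvd_prime (by norm_num)).1 h with e | e <;> omega
  set K := LinearMap.ker (Matrix.toLin' (g : Matrix (Fin 4) (Fin 4) F) - 1) with hK
  have hmem : ∀ x, x ∈ K ↔ (g : Matrix (Fin 4) (Fin 4) F) *ᵥ x = x := fun x => by simp [hK, sub_eq_zero]
  have hlt : finrank F K < 4 := by
    refine lt_of_le_of_ne ((Submodule.finrank_le K).trans_eq (Module.finrank_fin_fun F)) fun h => hg1 ?_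
    have htop : K = ⊤ := Submodule.eq_top_of_finrank_eq (by rw [h, Module.finrank_fin_fun])
    refine Units.ext (Matrix.ext_of_mulVec_single fun j => ?_)
    rw [Units.val_one, Matrix.one_mulVec]
    exact (hmem _).1 (htop ▸ Submodule.mem_top)
  have hpos : 0 < finrank F K := Nat.pos_of_ne_zero fun h => hv0 (by
    rw [← Submodule.mem_bot F, ← Submodule.finrank_eq_zero.1 h]; exact (hmem v).2 hv)
  have hdvd := dvd_card_UG_of_fixed (e := 4 - finrank F K) hF (by norm_num) h5 (by omega) (X := g)
    (fun u w => by rw [one_mul]; exact hg u w) hg5 (by show finrank F K + _ = 4; omega)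
  rw [Classical.U.card_UG hF] at hdvd
  obtain ⟨e, he, he3, hdvd⟩ : ∃ e, 0 < e ∧ e ≤ 3 ∧ 5 ∣ p ^ (e * (e - 1) / 2) *
      ∏ i ∈ Finset.range e, (if Even i then p ^ (i + 1) + 1 else p ^ (i + 1) - 1) := ⟨_, by omega, by omega, hdvd⟩
  have h2 : p ^ 2 % 5 = 4 := by rw [Nat.pow_mod]; rcases hp5 with e | e <;> rw [e]
  have h3 : p ^ 3 % 5 = 2 ∨ p ^ 3 % 5 = 3 := by rw [Nat.pow_mod]; rcases hp5 with e | e <;> rw [e] <;> norm_num
  have hpp : 1 ≤ p ^ 2 := Nat.one_le_pow _ _ (by omega)
  rcases (Nat.Prime.dvd_mul (by norm_num)).1 hdvd with h | h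
  · have := Nat.Prime.dvd_of_dvd_pow (by norm_num) h
    omega
  · obtain ⟨i, hi, h⟩ := (Prime.dvd_finsetProd_iff (Nat.Prime.prime (by norm_num)) _).1 h
    have := Finset.mem_range.1 hi
    have hi3 : i < 3 := by omega
    interval_cases i <;> norm_num at h <;> omega

/-- Elements of prime order of PSU_4(p), p ≡ 3 (mod 4), and the normalizer of a 2-group of symplectic type of order 2⁶. Here `T = PSU_4(p)` for a prime `p ≡ 3 (mod 4)`, realised through `SU_4(p)`, the matrices of determinant 1 over the field `F` with `p²` elements preserving the hermitian form `f = Σ uᵢvᵢ^p`; `R` is an absolutely irreducible subgroup of the full unitary group of `f` of order 2⁶ that is a 2-group of symplectic type of exponent 4 with centre of order 4, and `H` is the subgroup of `SU_4(p)` normalizing `R` — a subgroup of type 2⁴.Sp₄(2) (maximality is not assumed). Ω is the set of cosets of `H`, so an element of `T` of prime order `r` (`x ∈ SU_4(p)` with `x^r` scalar, `x` not scalar) fixes a point of Ω exactly when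 some `SU_4(p)`-conjugate of `x` normalizes `R`. Let `r` be a prime dividing the index of `H`. Then every element of `T` of order `r` fixes a point of Ω if and only if `r = 2`, or `r = 3` and `p ≡ 1 (mod 3)`, or `r = 5` and `p ≡ ±2 (mod 5)` (`p` has multiplicative order 4 modulo 5). -/
theorem result {F : Type*} [Field F] [Fintype F] {p : ℕ} [Fact p.Prime] [CharP F p] (hF : Fintype.card F = p ^ 2) (hp4 : p % 4 = 3)
    (R : Subgroup (GL (Fin 4) F)) (hRs : Cfsg.Geo.IsSymplecticTypeGroup 2 R) (hRi : Cfsg.Geo.ActsAbsolutelyIrreducibly (Cfsg.Geo.matrixSet R))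
    (hRU : R ≤ Cfsg.GU 4 F p) (hR6 : Nat.card R = 2 ^ 6) (hRZ : Nat.card (Subgroup.center R) = 4)
    (r : ℕ) [Fact r.Prime]
    (hΩ : r ∣ (Cfsg.Geo.subgroupNormalizer R).relIndex (Cfsg.GU 4 F p ⊓ Cfsg.Geo.specialLinear (Fin 4) F)) :
    (∀ x ∈ Cfsg.GU 4 F p ⊓ Cfsg.Geo.specialLinear (Fin 4) F, (∃ z : F, ((x ^ r : GL (Fin 4) F) : Matrix (Fin 4) (Fin 4) F) = z • (1 : Matrix (Fin 4) (Fin 4) F)) →
      (∀ z : F, (x : Matrix (Fin 4) (Fin 4) F) ≠ z • (1 : Matrix (Fin 4) (Fin 4) F)) →
      ∃ g ∈ Cfsg.GU 4 F p ⊓ Cfsg.Geo.specialLinear (Fin 4) F, g⁻¹ * x * g ∈ Cfsg.Geo.subgroupNormalizer R) ↔ (r = 2 ∨ (r = 3 ∧ p % 3 = 1) ∨ (r = 5 ∧ orderOf (p : ZMod 5) = 4)) := by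
  classical
  have hsq : SqField F p := Classical.U.sqField_of_fintype hF
  have hr' : r.Prime := Fact.out
  have hp : p.Prime := Fact.out
  have hp2 : p ≠ 2 := by omega
  have hchar : ringChar F ≠ 2 := by rw [ringChar.eq F p]; exact hp2
  have h2 : (2 : F) ≠ 0 := Ring.two_ne_zero hchar
  have h3p : 3 ≤ p := by omega
  set S := Cfsg.GU 4 F p ⊓ Cfsg.Geo.specialLinear (Fin 4) F with hSdef
  have hmemS : ∀ M : GL (Fin 4) F, M ∈ Cfsg.GU 4 F p → (M : Matrix (Fin 4) (Fin 4) F).det = 1 → M ∈ S :=
    fun M hM hM' => ⟨hM, Units.ext hM'⟩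
  have hScoe : ∀ M ∈ S, ((M : GL (Fin 4) F) : Matrix (Fin 4) (Fin 4) F).det = 1 := fun M hM => congrArg Units.val hM.2
  have hD : PauliData R := pauliData_of hRs hRi (by rw [hR6]; norm_num) hRZ h2
  obtain ⟨P, hPU, hP⟩ := hD.exists_conj_unitary hsq hRU
  obtain ⟨i, hi⟩ := hD.exists_i
  have hi4 : i ^ 4 = 1 := by linear_combination (i ^ 2 - 1) * hi
  have hiq : i ^ p = -i := by
    rw [← Nat.div_add_mod p 4, hp4, pow_add, pow_mul, hi4, one_pow]; linear_combination i * hi
  have hi0 : i ≠ 0 := fun e => by rw [e] at hi; simp at hi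
  have conjN : ∀ g ∈ Cfsg.Geo.subgroupNormalizer (ClassicalMax.MonomialFour.R₁ F),
      P * g * P⁻¹ ∈ Cfsg.Geo.subgroupNormalizer R := fun g hg => conj_mem_normalizer hP hg
  have h4p : 4 ∣ p + 1 := by omega
  have hnorm4 : ∀ c : F, c ^ 4 = 1 → c ^ (p + 1) = 1 := fun c hc => by
    obtain ⟨k, hk⟩ := h4p; rw [hk, pow_mul, hc, one_pow]
  constructor
  · intro h
    by_contra hcon
    rw [not_or, not_or] at hcon
    obtain ⟨hr2, hr3, hr5⟩ := hcon
    have hro : Odd r := hr'.odd_of_ne_two hr2
    -- a witness with a large centraliser, or any element for `r ≥ 7`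
    have kill : ∀ x ∈ S, x ^ r = 1 → x ≠ 1 →
        (r = 3 → 8 < finrank F (cent (x : Matrix (Fin 4) (Fin 4) F))) →
        (r = 5 → 4 < finrank F (cent (x : Matrix (Fin 4) (Fin 4) F))) → False := by
      intro x hx hxr hx1 hc3 hc5
      have hns : ∀ z : F, (x : Matrix (Fin 4) (Fin 4) F) ≠ z • 1 := by
        intro z hz
        have h4 : z ^ 4 = 1 := by
          have := hScoe x hx
          rwa [hz, Matrix.det_smul, Matrix.det_one, mul_one, Fintype.card_fin] at this
        have hzr : z ^ r = 1 := by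
          have := congrArg (fun g : GL (Fin 4) F => (g : Matrix (Fin 4) (Fin 4) F) 0 0) hxr
          simpa [Units.val_pow_eq_pow_val, hz, smul_pow] using this
        have hcop : Nat.Coprime r 4 := hr'.coprime_iff_not_dvd.2 fun hd =>
          hr2 ((Nat.prime_dvd_prime_iff_eq hr' Nat.prime_two).1 (hr'.dvd_of_dvd_pow (show r ∣ 2 ^ 2 from hd)))
        have := pow_gcd_eq_one.2 ⟨hzr, h4⟩
        rw [hcop.gcd_eq_one, pow_one] at this
        exact hx1 (Units.ext (by rw [hz, this, one_smul, Units.val_one]))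
      obtain ⟨g, -, hg⟩ := h x hx ⟨1, by rw [hxr, one_smul, Units.val_one]⟩ hns
      have hgr : (g⁻¹ * x * g) ^ r = 1 := by
        have := conj_pow (i := r) (a := g⁻¹) (b := x)
        rw [inv_inv] at this
        rw [this, hxr, mul_one, inv_mul_cancel]
      rcases hD.sym.normalizer_cases hg hr' hro ⟨1, by rw [hgr, one_smul, Units.val_one]⟩ with ⟨c, hc⟩ | ⟨e, hd⟩ | ⟨e, hd⟩
      · refine hns c ?_
        have e : x = g * (g⁻¹ * x * g) * g⁻¹ := by group
        rw [e, Units.val_mul, Units.val_mul, hc, Matrix.mul_smul, Matrix.smul_mul, mul_one, ← Units.val_mul,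
          mul_inv_cancel, Units.val_one]
      · rw [finrank_cent_conj] at hd; have := hc3 e; omega
      · rw [finrank_cent_conj] at hd; have := hc5 e; omega
    have hroot : ∀ k, k.Prime → k ∣ p * p - 1 → ∃ w : Fˣ, orderOf w = k := fun k hk hdvd => by
      have := Fact.mk hk
      refine exists_prime_orderOf_dvd_card' k ?_
      rw [Nat.card_units, Nat.card_eq_fintype_card, hF, pow_two]
      exact hdvd
    have hfac : p * p - 1 = (p + 1) * (p - 1) := by rw [← pow_two, ← one_pow 2, Nat.sq_sub_sq, one_pow]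
    by_cases hr7 : r = 3 ∨ r = 5
    · rcases hr7 with rfl | rfl
      · by_cases hp3 : p = 3
        · -- a transvection
          subst hp3
          obtain ⟨g, a, φ, hgU, ha, hφa, hφ, hg⟩ := exists_transvection hsq hi0 hiq
          have h3 : (3 : F) = 0 := by exact_mod_cast CharP.cast_eq_zero F 3
          have hN : Matrix.vecMulVec a φ * Matrix.vecMulVec a φ = 0 := by
            rw [Matrix.vecMulVec_mul_vecMulVec, hφa, zero_smul]; simp
          have hg3 : g ^ 3 = 1 := Units.ext (by
            rw [Units.val_pow_eq_pow_val, hg, Units.val_one, pow_succ, pow_two]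
            simp only [add_mul, one_mul, mul_add, mul_one, hN, add_zero, mul_assoc, mul_zero, zero_add]
            ext u v
            simp only [Matrix.add_apply]
            linear_combination (Matrix.vecMulVec a φ u v) * h3)
          have hdet : (g : Matrix (Fin 4) (Fin 4) F).det = 1 := by
            have h1 : (g : Matrix (Fin 4) (Fin 4) F).det ^ 3 = 1 := by
              rw [← Matrix.det_pow, ← Units.val_pow_eq_pow_val, hg3, Units.val_one, Matrix.det_one]
            set δ := (g : Matrix (Fin 4) (Fin 4) F).det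
            have h' : (δ - 1) ^ 3 = 0 := by linear_combination h1 + (δ - δ ^ 2) * h3
            exact sub_eq_zero.1 (pow_eq_zero_iff three_ne_zero |>.1 h')
          refine kill g (hmemS g hgU hdet) hg3 (fun e1 => ?_) (fun _ => ?_) (fun h5 => by norm_num at h5)
          · rw [e1, Units.val_one, left_eq_add] at hg
            obtain ⟨u, hu⟩ := Function.ne_iff.1 ha
            obtain ⟨v, hv⟩ := Function.ne_iff.1 hφ
            exact mul_ne_zero hu hv (congrFun (congrFun hg u) v)
          · have := nine_le_cent _ ha hg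
            omega
        -- `diag(ω, ω, ω, 1)`
        have hp3' : 3 ∣ p + 1 := by
          have : p % 3 ≠ 1 := fun h' => hr3 ⟨rfl, h'⟩
          have : p % 3 ≠ 0 := fun h' =>
            hp3 ((Nat.prime_dvd_prime_iff_eq Nat.prime_three hp).1 (Nat.dvd_of_mod_eq_zero h')).symm
          omega
        obtain ⟨w, hw⟩ := hroot 3 Nat.prime_three (hfac ▸ dvd_mul_of_dvd_left hp3' _)
        have hw3 : (w : F) ^ 3 = 1 := by
          rw [← Units.val_pow_eq_pow_val, ← hw, pow_orderOf_eq_one, Units.val_one]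
        have hwn : (w : F) ^ (p + 1) = 1 := by obtain ⟨k, hk⟩ := hp3'; rw [hk, pow_mul, hw3, one_pow]
        have hw1 : (w : F) ≠ 1 := fun e => by
          rw [Units.val_eq_one] at e; rw [e, orderOf_one] at hw; norm_num at hw
        let e : Fin 1 ⊕ Fin 3 ≃ Fin 4 := finSumFinEquiv
        let A : Matrix (Fin 1) (Fin 1) F := ((w⁻¹ : Fˣ) : F) • 1
        let M : Matrix (Fin 4) (Fin 4) F := (w : F) • Matrix.reindexAlgEquiv F F e (Matrix.fromBlocks A 0 0 1)
        have hMdet : M.det = 1 := by
          simp only [M, A, Matrix.det_smul, Matrix.det_reindexAlgEquiv, Matrix.det_fromBlocks_zero₂₁,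
            Matrix.det_one, mul_one, Fintype.card_fin, pow_one]
          rw [show ((w : F)) ^ 4 = (w : F) ^ 3 * w by ring, hw3, one_mul, Units.mul_inv]
        let x : GL (Fin 4) F := Matrix.GeneralLinearGroup.mkOfDetNeZero M (by rw [hMdet]; exact one_ne_zero)
        have hxU : x ∈ Cfsg.GU 4 F p := by
          refine mem_GU_diag hsq (d := ![1, (w : F), w, w]) ?_ (fun k => by fin_cases k <;> simp [hwn])
          show M = _
          ext a b
          fin_cases a <;> fin_cases b <;>
            simp [M, A, e, Matrix.coe_reindexAlgEquiv, finSumFinEquiv, Fin.addCases, Fin.castLT, Fin.subNat]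
        refine kill x (hmemS x hxU hMdet) (Units.ext ?_) (fun e1 => ?_) (fun _ => ?_) (fun h5 => by norm_num at h5)
        · rw [Units.val_pow_eq_pow_val, Units.val_one]
          show M ^ 3 = 1
          have hA : A ^ 3 = 1 := by
            simp only [A, smul_pow, one_pow]
            rw [← Units.val_pow_eq_pow_val, inv_pow, ← hw, pow_orderOf_eq_one, inv_one, Units.val_one, one_smul]
          have hB : (Matrix.fromBlocks A 0 0 (1 : Matrix (Fin 3) (Fin 3) F)) ^ 3 = 1 := by
            simp [pow_succ, Matrix.fromBlocks_multiply] at hA ⊢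
            simp [hA, Matrix.fromBlocks_one]
          rw [smul_pow, ← map_pow, hB, map_one, hw3, one_smul]
        · have h' := congrArg (fun g : GL (Fin 4) F => (g : Matrix (Fin 4) (Fin 4) F) (e (Sum.inr 0)) (e (Sum.inr 0))) e1
          simp [x, M, Matrix.coe_reindexAlgEquiv] at h'
          exact hw1 (by rw [h', Units.val_one])
        · have hc : cent M = cent (Matrix.reindexAlgEquiv F F e (Matrix.fromBlocks A 0 0 1)) := by
            ext B
            rw [mem_cent, mem_cent]
            constructor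
            · intro hB
              have := congrArg (((w⁻¹ : Fˣ) : F) • ·) hB
              simpa [M, Matrix.smul_mul, Matrix.mul_smul, smul_smul] using this
            · intro hB
              simp only [M, Matrix.smul_mul, Matrix.mul_smul, hB]
          have := five_le_cent e (by norm_num) (M := Matrix.reindexAlgEquiv F F e (Matrix.fromBlocks A 0 0 1)) rfl
          rw [← hc] at this
          show 8 < finrank F (cent M)
          omega
      · -- `A ⊕ 1` with `A` of order five
        have hp5 : p % 5 = 1 ∨ p % 5 = 4 := by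
          have : p % 5 ≠ 0 := fun h' => by
            have := (Nat.prime_dvd_prime_iff_eq (by norm_num) hp).1 (Nat.dvd_of_mod_eq_zero h')
            omega
          by_contra
          exact hr5 ⟨rfl, (orderOf_five p).2 (by omega)⟩
        have hd5 : 5 ∣ p * p - 1 := by
          rw [hfac]
          rcases hp5 with e | e
          · exact dvd_mul_of_dvd_right (by omega) _
          · exact dvd_mul_of_dvd_left (by omega) _
        obtain ⟨t, ht⟩ := hroot 5 (by norm_num) hd5
        have ht5 : (t : F) ^ 5 = 1 := by rw [← Units.val_pow_eq_pow_val, ← ht, pow_orderOf_eq_one, Units.val_one]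
        have ht1 : (t : F) ≠ 1 := fun e => by
          rw [Units.val_eq_one] at e; rw [e, orderOf_one] at ht; norm_num at ht
        obtain ⟨A, hAU, hAd, hA5, hA1⟩ : ∃ A : Matrix (Fin 2) (Fin 2) F,
            Aᵀ * A.map (Forms.sqConj hsq) = 1 ∧ A.det = 1 ∧ A ^ 5 = 1 ∧ A ≠ 1 := by
          set s := (t : F) ^ 4 with hs
          have hts : (t : F) * s = 1 := by rw [hs, ← pow_succ', ht5]
          have hs5 : s ^ 5 = 1 := by rw [hs, ← pow_mul, mul_comm, pow_mul, ht5, one_pow]
          rcases hp5 with e5 | e5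
          · have htp : (t : F) ^ p = t := by rw [← Nat.div_add_mod p 5, e5, pow_succ, pow_mul, ht5, one_pow, one_mul]
            have hsp : s ^ p = s := by rw [hs, ← pow_mul, mul_comm, pow_mul, htp]
            obtain ⟨e, he⟩ := hsq.exists_norm (show (-1 : F) ^ p = -1 by rw [hsq.neg_pow, one_pow])
            have he0 : e ≠ 0 := fun h => by rw [h, zero_pow (Nat.succ_ne_zero p)] at he; exact one_ne_zero (neg_eq_zero.1 he.symm)
            have hep : e ^ p = -e⁻¹ := by
              rw [pow_succ] at he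
              field_simp
              linear_combination he
            obtain ⟨a, ha⟩ : ∃ a, a = ((t : F) + s) / 2 := ⟨_, rfl⟩
            obtain ⟨b, hb⟩ : ∃ b, b = ((t : F) - s) / (2 * e) := ⟨_, rfl⟩
            obtain ⟨c, hc⟩ : ∃ c, c = e * ((t : F) - s) / 2 := ⟨_, rfl⟩
            have h2p : (2 : F) ^ p = 2 := by
              exact (map_ofNat (Forms.sqConj hsq) 2 : _)
            have hap : a ^ p = a := by rw [ha, div_pow, hsq.add_pow, htp, hsp, h2p]
            have hbp : b ^ p = -c := by
              rw [hb, hc, div_pow, hsq.sub_pow, htp, hsp, mul_pow, h2p, hep]; field_simp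
            have hcp : c ^ p = -b := by
              rw [hb, hc, div_pow, mul_pow, hsq.sub_pow, htp, hsp, h2p, hep]; field_simp
            have habc : a * a - b * c = 1 := by
              rw [ha, hb, hc]; field_simp; linear_combination 4 * hts
            refine ⟨!![a, b; c, a], ?_, by rw [Matrix.det_fin_two_of]; exact habc, ?_, fun h => ?_⟩
            · ext u v
              fin_cases u <;> fin_cases v <;>
                simp [Matrix.mul_apply, Fin.sum_univ_two, Forms.sqConj_apply, hap, hbp, hcp] <;>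
                first | linear_combination habc | ring1
            · let T : Matrix (Fin 2) (Fin 2) F := !![1, 1; e, -e]
              let D : Matrix (Fin 2) (Fin 2) F := Matrix.diagonal ![(t : F), s]
              have hAT : !![a, b; c, a] * T = T * D := by
                ext u v
                fin_cases u <;> fin_cases v <;>
                  simp [T, D, Matrix.mul_apply, Fin.sum_univ_two, ha, hb, hc] <;> field_simp <;> ring
              have hk : ∀ k : ℕ, !![a, b; c, a] ^ k * T = T * D ^ k := fun k => by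
                induction k with
                | zero => simp
                | succ k ih => rw [pow_succ, pow_succ, mul_assoc, hAT, ← mul_assoc, ih, mul_assoc]
              have hD5 : D ^ 5 = 1 := by
                rw [Matrix.diagonal_pow, ← Matrix.diagonal_one]; congr 1; funext u; fin_cases u <;> simp [ht5, hs5]
              have hT : IsUnit T := by
                rw [Matrix.isUnit_iff_isUnit_det, Matrix.det_fin_two_of, isUnit_iff_ne_zero]
                simpa [sub_eq_add_neg, ← two_mul, neg_add] using mul_ne_zero h2 he0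
              exact hT.mul_eq_right.1 (by rw [hk 5, hD5, mul_one])
            · have h00 : a = 1 := congrFun (congrFun h 0) 0
              rw [ha, div_eq_one_iff_eq h2] at h00
              have : ((t : F) - 1) ^ 2 = 0 := by linear_combination (t : F) * h00 - hts
              exact ht1 (sub_eq_zero.1 (pow_eq_zero_iff two_ne_zero |>.1 this))
          · have htn : ∀ u : F, u ^ 5 = 1 → u ^ (p + 1) = 1 := fun u hu => by
              obtain ⟨k, hk⟩ : 5 ∣ p + 1 := by omega
              rw [hk, pow_mul, hu, one_pow]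
            refine ⟨Matrix.diagonal ![(t : F), s], ?_, ?_, ?_, fun h => ht1 (congrFun (congrFun h 0) 0)⟩
            · rw [Matrix.diagonal_transpose, Matrix.diagonal_map (map_zero _), Matrix.diagonal_mul_diagonal,
                ← Matrix.diagonal_one]
              congr 1; funext u
              rw [Forms.sqConj_apply, ← pow_succ']
              fin_cases u
              exacts [htn _ ht5, htn _ hs5]
            · simp [Matrix.det_diagonal, hts]
            · rw [Matrix.diagonal_pow, ← Matrix.diagonal_one]; congr 1; funext u; fin_cases u <;> simp [ht5, hs5]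
        let e : Fin 2 ⊕ Fin 2 ≃ Fin 4 := finSumFinEquiv
        let M : Matrix (Fin 4) (Fin 4) F := Matrix.reindexAlgEquiv F F e (Matrix.fromBlocks A 0 0 1)
        have hMdet : M.det = 1 := by
          simp only [M, Matrix.det_reindexAlgEquiv, Matrix.det_fromBlocks_zero₂₁, Matrix.det_one, mul_one, hAd]
        let x : GL (Fin 4) F := Matrix.GeneralLinearGroup.mkOfDetNeZero M (by rw [hMdet]; exact one_ne_zero)
        refine kill x (hmemS x (mem_GU_block hsq e hAU rfl) hMdet) (Units.ext ?_) (fun e1 => ?_)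
          (fun h3 => by norm_num at h3) (fun _ => ?_)
        · rw [Units.val_pow_eq_pow_val, Units.val_one]
          show M ^ 5 = 1
          have hp' : ∀ k : ℕ, (Matrix.fromBlocks A 0 0 (1 : Matrix (Fin 2) (Fin 2) F)) ^ k =
              Matrix.fromBlocks (A ^ k) 0 0 1 := by
            intro k
            induction k with
            | zero => simp [Matrix.fromBlocks_one]
            | succ k ih => simp [pow_succ, ih, Matrix.fromBlocks_multiply]
          rw [← map_pow, hp', hA5, Matrix.fromBlocks_one, map_one]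
        · have h' : M = 1 := congrArg Units.val e1
          have h'' := (Matrix.reindexAlgEquiv F F e).injective (h'.trans (map_one _).symm)
          rw [← Matrix.fromBlocks_one, Matrix.fromBlocks_inj] at h''
          exact hA1 h''.1
        · have := five_le_cent e (by norm_num) (M := M) rfl
          show 4 < finrank F (cent M)
          omega
    · rw [not_or] at hr7
      obtain ⟨x, hx⟩ := exists_prime_orderOf_dvd_card' (G := S) r (hΩ.trans (Subgroup.relIndex_dvd_card _ _))
      refine kill x.1 x.2 ?_ ?_ (fun e => absurd e hr7.1) (fun e => absurd e hr7.2)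
      · rw [← SubgroupClass.coe_pow, ← hx, pow_orderOf_eq_one]; rfl
      · intro e
        rw [← Subgroup.orderOf_coe, e, orderOf_one] at hx
        exact hr'.ne_one hx.symm
  · intro hcases x hx ⟨z, hz⟩ hns
    have hzM : (x : Matrix (Fin 4) (Fin 4) F) ^ r = z • 1 := by rw [← Units.val_pow_eq_pow_val, hz]
    have hz4 : z ^ 4 = 1 := by
      have := congrArg Matrix.det hzM
      rwa [Matrix.det_pow, hScoe x hx, one_pow, Matrix.det_smul, Matrix.det_one, mul_one, Fintype.card_fin,
        eq_comm] at this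
    have hz0 : z ≠ 0 := fun e => by rw [e] at hz4; simp at hz4
    by_cases hr2 : r = 2
    · -- involutions
      subst hr2
      obtain ⟨m, hm⟩ : 4 ∣ Fintype.card F / 2 := by
        rw [hF]
        obtain ⟨k, rfl⟩ : ∃ k, p = 4 * k + 3 := ⟨p / 4, by omega⟩
        rw [show (4 * k + 3) ^ 2 = 1 + 2 * (4 * (2 * k ^ 2 + 3 * k + 1)) by ring, Nat.add_mul_div_left _ _ two_pos]
        norm_num
      obtain ⟨w, hw⟩ : IsSquare z := (FiniteField.isSquare_iff hchar hz0).2 (by rw [hm, pow_mul, hz4, one_pow])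
      have hw0 : w ≠ 0 := fun e => hz0 (by rw [hw, e, zero_mul])
      have hspan : ∀ v, v ∈ Submodule.span F {u : Fin 4 → F | ∃ μ, (μ = w ∨ μ = -w) ∧
          (x : Matrix (Fin 4) (Fin 4) F) *ᵥ u = μ • u} := fun v => by
        have h1 := span_eigen_sq h2 (w⁻¹ • (x : Matrix (Fin 4) (Fin 4) F)) (fun v => by
          rw [Matrix.mulVec_mulVec, smul_mul_smul_comm, ← pow_two (x : Matrix (Fin 4) (Fin 4) F), hzM, smul_smul,
            hw, show w⁻¹ * w⁻¹ * (w * w) = 1 by field_simp, one_smul, Matrix.one_mulVec]) v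
        refine Submodule.span_mono ?_ h1
        rintro u ⟨μ, hμ, hu⟩
        refine ⟨w * μ, by rcases hμ with rfl | rfl <;> simp, ?_⟩
        have := congrArg (w • ·) hu
        simpa [Matrix.smul_mulVec, smul_smul, hw0] using this
      have hwn : w ^ (p + 1) = 1 := by
        obtain ⟨Q, l, hl, hQ⟩ := exists_eigenbasis (x : Matrix (Fin 4) (Fin 4) F) (fun μ => μ = w ∨ μ = -w) hspan
        have hQd : IsUnit (Q : Matrix (Fin 4) (Fin 4) F).det :=
          isUnit_iff_ne_zero.2 (Matrix.GeneralLinearGroup.det Q).ne_zero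
        have hxe : (x : Matrix (Fin 4) (Fin 4) F) = Q * Matrix.diagonal l * (Q : Matrix (Fin 4) (Fin 4) F)⁻¹ := by
          rw [← hQ, mul_assoc, Matrix.mul_nonsing_inv _ hQd, mul_one]
        have hprod : ∏ k, l k = 1 := by
          have := hScoe x hx
          rw [hxe, Matrix.det_conj ((Matrix.isUnit_iff_isUnit_det _).2 hQd), Matrix.det_diagonal] at this
          exact this
        have htr : (x : Matrix (Fin 4) (Fin 4) F).trace = ∑ k, l k := by
          rw [hxe, Matrix.trace_mul_comm, ← mul_assoc, Matrix.nonsing_inv_mul _ hQd, one_mul, Matrix.trace_diagonal]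
        rcases sum_signs l hl hprod with h4 | hs
        · exact hnorm4 w h4
        · have hg := (mem_GU_iff_gram hsq x).1 hx.1
          have h1 : (x : Matrix (Fin 4) (Fin 4) F).map (Forms.sqConj hsq) = z⁻¹ • ((x : Matrix (Fin 4) (Fin 4) F))ᵀ := by
            calc _ = (z⁻¹ • ((x : Matrix (Fin 4) (Fin 4) F) ^ 2)ᵀ) * (x : Matrix (Fin 4) (Fin 4) F).map (Forms.sqConj hsq) := by
                  rw [hzM, Matrix.transpose_smul, Matrix.transpose_one, smul_smul, inv_mul_cancel₀ hz0, one_smul, one_mul]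
              _ = _ := by rw [pow_two, Matrix.transpose_mul, smul_mul_assoc, mul_assoc, hg, mul_one]
          have h2' := congrArg Matrix.trace h1
          rw [show ((x : Matrix (Fin 4) (Fin 4) F).map (Forms.sqConj hsq)).trace =
              Forms.sqConj hsq (x : Matrix (Fin 4) (Fin 4) F).trace by simp [Matrix.trace, map_sum],
            Matrix.trace_smul, Matrix.trace_transpose, htr, smul_eq_mul, Forms.sqConj_apply] at h2'
          have h2p : (2 : F) ^ p = 2 := (map_ofNat (Forms.sqConj hsq) 2 : _)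
          have h2w : (2 * w) ^ p = z⁻¹ * (2 * w) := by
            rcases hs with e | e <;> rw [e] at h2'
            · exact h2'
            · rw [hsq.neg_pow] at h2'; linear_combination -h2'
          rw [mul_pow, h2p, hw] at h2w
          field_simp at h2w
          rw [pow_succ]
          linear_combination h2w
      obtain ⟨Q, l, hQ, hl, hQx⟩ := exists_unitary_eigenbasis hsq h2 (x : Matrix (Fin 4) (Fin 4) F) (fun u v => hx.1 u v)
        (fun μ => μ = w ∨ μ = -w) (fun μ hμ => by
          rcases hμ with rfl | rfl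
          · rw [← pow_succ', hwn]
          · rw [hsq.neg_pow, neg_mul_neg, ← pow_succ', hwn]) hspan
      have hQU : Q ∈ Cfsg.GU 4 F p := hQ
      set δ := (P : Matrix (Fin 4) (Fin 4) F).det / (Q : Matrix (Fin 4) (Fin 4) F).det with hδ
      have hQd := (Matrix.GeneralLinearGroup.det Q).ne_zero
      have hPd := (Matrix.GeneralLinearGroup.det P).ne_zero
      let T : GL (Fin 4) F := Matrix.GeneralLinearGroup.mkOfDetNeZero
        (Matrix.diagonal fun k : Fin 4 => if k = 0 then δ else 1)
        (by rw [Matrix.det_diagonal, Finset.prod_ite_eq' Finset.univ (0 : Fin 4)]; simp only [Finset.mem_univ, if_true]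
            exact div_ne_zero hPd hQd)
      have hTU : T ∈ Cfsg.GU 4 F p := mem_GU_diag hsq rfl fun k => by
        split_ifs
        · rw [hδ, div_pow, det_norm_GU hsq hPU, det_norm_GU hsq hQU, div_one]
        · exact one_pow _
      let L : GL (Fin 4) F := Matrix.GeneralLinearGroup.mkOfDetNeZero (Matrix.diagonal l) (by
        rw [Matrix.det_diagonal, Finset.prod_ne_zero_iff]
        exact fun k _ => by rcases hl k with e | e <;> rw [e] <;> simp [hw0])
      have hTL : T * L = L * T := Units.ext (by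
        show Matrix.diagonal _ * Matrix.diagonal l = Matrix.diagonal l * Matrix.diagonal _
        rw [Matrix.diagonal_mul_diagonal, Matrix.diagonal_mul_diagonal]; congr 1; funext k; exact mul_comm _ _)
      have hQx' : x * Q = Q * L := Units.ext hQx
      refine ⟨Q * T * P⁻¹, hmemS _ (mul_mem (mul_mem hQU hTU) (inv_mem hPU)) ?_, ?_⟩
      · rw [Units.val_mul, Units.val_mul, Matrix.det_mul, Matrix.det_mul, Matrix.coe_units_inv, Matrix.det_nonsing_inv,
          Ring.inverse_eq_inv']
        show _ * (Matrix.diagonal _).det * _ = 1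
        rw [Matrix.det_diagonal, Finset.prod_ite_eq' Finset.univ (0 : Fin 4)]
        simp only [Finset.mem_univ, if_true, hδ]
        field_simp
        exact div_self (mul_ne_zero hQd hPd)
      · have e : (Q * T * P⁻¹)⁻¹ * x * (Q * T * P⁻¹) = P * L * P⁻¹ := by
          calc (Q * T * P⁻¹)⁻¹ * x * (Q * T * P⁻¹) = P * T⁻¹ * Q⁻¹ * (x * Q) * T * P⁻¹ := by group
            _ = P * T⁻¹ * (L * T) * P⁻¹ := by rw [hQx']; group
            _ = _ := by rw [← hTL]; group
        rw [e]
        exact conjN L (diag_mem_normalizer hi hw0 l hl rfl)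
    -- remove the scalar
    obtain ⟨c, hc, hc4⟩ : ∃ c : F, c ^ r = z ∧ c ^ 4 = 1 := by
      rcases hcases with e | ⟨rfl, -⟩ | ⟨rfl, -⟩
      · exact absurd e hr2
      · exact ⟨z ^ 3, by rw [← pow_mul]; linear_combination (z * z ^ 4 + z) * hz4,
          by rw [← pow_mul, mul_comm, pow_mul, hz4, one_pow]⟩
      · exact ⟨z, by linear_combination z * hz4, hz4⟩
    have hc0 : c ≠ 0 := fun e => by rw [e] at hc4; simp at hc4
    let C : GL (Fin 4) F := Matrix.GeneralLinearGroup.mkOfDetNeZero (c • 1) (by simp [Matrix.det_smul, hc0])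
    have hCU : C ∈ Cfsg.GU 4 F p :=
      mem_GU_diag hsq (d := fun _ => c) (Matrix.smul_one_eq_diagonal c) fun _ => hnorm4 c hc4
    have hCx : ∀ g : GL (Fin 4) F, C * g = g * C := fun g => Units.ext (by
      show (c • 1) * (g : Matrix (Fin 4) (Fin 4) F) = (g : Matrix (Fin 4) (Fin 4) F) * (c • 1)
      simp)
    set y := C⁻¹ * x with hy
    have hyU : y ∈ Cfsg.GU 4 F p := mul_mem (inv_mem hCU) hx.1
    have hyr : y ^ r = 1 := by
      have hcomm : Commute C⁻¹ x := (show Commute C x from hCx x).inv_left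
      rw [hy, hcomm.mul_pow, inv_pow, inv_mul_eq_one]
      refine Units.ext ?_
      rw [Units.val_pow_eq_pow_val, Units.val_pow_eq_pow_val, hzM]
      show (c • (1 : Matrix (Fin 4) (Fin 4) F)) ^ r = z • 1
      rw [smul_pow, one_pow, hc]
    have hy1 : y ≠ 1 := fun e => hns c (by
      rw [show x = C from (inv_mul_eq_one.1 e).symm]; rfl)
    suffices ∃ g ∈ S, g⁻¹ * y * g ∈ Cfsg.Geo.subgroupNormalizer R by
      obtain ⟨g, hg, hgy⟩ := this
      refine ⟨g, hg, ?_⟩
      have e : g⁻¹ * x * g = C * (g⁻¹ * y * g) := by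
        rw [hy, ← mul_assoc C, ← mul_assoc C, hCx g⁻¹, mul_assoc g⁻¹ C, mul_inv_cancel_left]
      rw [e]
      exact mul_mem (scalar_mem_normalizer R (g := C) (c := c) rfl) hgy
    rcases hcases with e | ⟨rfl, hp3⟩ | ⟨rfl, hp5⟩
    · exact absurd e hr2
    · -- order three
      obtain ⟨⟨y₁, hy₁N, hy₁3, hy₁1, hy₁v, hy₁U⟩, ⟨y₂, hy₂N, hy₂3, hy₂q, hy₂U⟩⟩ := exists_three_mem hi h2
      have h3F : (3 : F) ≠ 0 := fun h => by
        have h' : ((3 : ℕ) : F) = 0 := by exact_mod_cast h
        rw [CharP.cast_eq_zero_iff F p] at h'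
        have := (Nat.prime_dvd_prime_iff_eq hp Nat.prime_three).1 h'
        omega
      obtain ⟨w, hw⟩ := exists_prime_orderOf_dvd_card' (G := Fˣ) 3 (by
        rw [Nat.card_units, Nat.card_eq_fintype_card, hF,
          show p ^ 2 - 1 = (p + 1) * (p - 1) by rw [← one_pow 2, Nat.sq_sub_sq, one_pow]]
        exact dvd_mul_of_dvd_right (by omega) _)
      have hω : IsPrimitiveRoot (w : F) 3 :=
        IsPrimitiveRoot.coe_units_iff.2 (hw ▸ IsPrimitiveRoot.orderOf w)
      have hωq : (w : F) ^ p = w := by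
        rw [← Nat.div_add_mod p 3, hp3, pow_succ, pow_mul, hω.pow_eq_one, one_pow, one_mul]
      have key : ∀ y₀ : GL (Fin 4) F, y₀ ∈ Cfsg.GU 4 F p → y₀ ∈ Cfsg.Geo.subgroupNormalizer R → y₀ ^ 3 = 1 →
          (((∀ v, (y : Matrix (Fin 4) (Fin 4) F) *ᵥ v = v → v = 0) ∧
              ∀ v, (y₀ : Matrix (Fin 4) (Fin 4) F) *ᵥ v = v → v = 0) ∨
            ((y ≠ 1 ∧ ∃ v : Fin 4 → F, v ≠ 0 ∧ (y : Matrix (Fin 4) (Fin 4) F) *ᵥ v = v) ∧
              (y₀ ≠ 1 ∧ ∃ v : Fin 4 → F, v ≠ 0 ∧ (y₀ : Matrix (Fin 4) (Fin 4) F) *ᵥ v = v))) →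
          ∃ g ∈ S, g⁻¹ * y * g ∈ Cfsg.Geo.subgroupNormalizer R := fun y₀ hU hN h3 h => by
        obtain ⟨g, hg, hgy⟩ := exists_conj_three_unitary hsq hω hωq hyU hyr hU h3 h
        exact ⟨g, hg, hgy ▸ hN⟩
      have hPm : ∀ (g : GL (Fin 4) F) v, ((P * g * P⁻¹ : GL (Fin 4) F) : Matrix (Fin 4) (Fin 4) F) *ᵥ
          ((P : Matrix (Fin 4) (Fin 4) F) *ᵥ v) = (P : Matrix (Fin 4) (Fin 4) F) *ᵥ ((g : Matrix (Fin 4) (Fin 4) F) *ᵥ v) :=
        fun g v => by
          rw [Matrix.mulVec_mulVec, Matrix.mulVec_mulVec, ← Units.val_mul, ← Units.val_mul, inv_mul_cancel_right]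
      have hinj : ∀ a b : Fin 4 → F, (P : Matrix (Fin 4) (Fin 4) F) *ᵥ a = (P : Matrix (Fin 4) (Fin 4) F) *ᵥ b → a = b :=
        fun a b h => Matrix.mulVec_injective_iff_isUnit.2 P.isUnit h
      by_cases hfix : ∃ v : Fin 4 → F, v ≠ 0 ∧ (y : Matrix (Fin 4) (Fin 4) F) *ᵥ v = v
      · refine key (P * y₁ * P⁻¹) (mul_mem (mul_mem hPU (hy₁U p hsq hiq)) (inv_mem hPU)) (conjN y₁ hy₁N)
          (by rw [conj_pow, hy₁3, mul_one, mul_inv_cancel]) (Or.inr ⟨⟨hy1, hfix⟩, fun e => hy₁1 ?_,
            (P : Matrix (Fin 4) (Fin 4) F) *ᵥ Pi.single 0 1, fun e => ?_, by rw [hPm, hy₁v]⟩)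
        · calc y₁ = P⁻¹ * (P * y₁ * P⁻¹) * P := by group
            _ = 1 := by rw [e]; group
        · have := hinj _ 0 (e.trans (Matrix.mulVec_zero _).symm)
          simp at this
      · push Not at hfix
        refine key (P * y₂ * P⁻¹) (mul_mem (mul_mem hPU (hy₂U p hsq hiq)) (inv_mem hPU)) (conjN y₂ hy₂N)
          (by rw [conj_pow, hy₂3, mul_one, mul_inv_cancel]) (Or.inl ⟨fun v hv => by_contra fun h0 => hfix v h0 hv, fun v hv => ?_⟩)
        obtain ⟨v, rfl⟩ : ∃ u, (P : Matrix (Fin 4) (Fin 4) F) *ᵥ u = v :=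
          ⟨((P⁻¹ : GL (Fin 4) F) : Matrix (Fin 4) (Fin 4) F) *ᵥ v, by
            rw [Matrix.mulVec_mulVec, ← Units.val_mul, mul_inv_cancel, Units.val_one, Matrix.one_mulVec]⟩
        rw [hPm] at hv
        have hv' := hinj _ _ hv
        have h' := congrArg (· *ᵥ v) hy₂q
        simp only [Matrix.add_mulVec, ← Matrix.mulVec_mulVec, Matrix.one_mulVec, Matrix.zero_mulVec, hv'] at h'
        rw [show v + v + v = (3 : F) • v by module, smul_eq_zero, or_iff_right h3F] at h'
        rw [h', Matrix.mulVec_zero]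
    · -- order five
      have hp5' := (orderOf_five p).1 hp5
      obtain ⟨y₁, hy₁N, hy₁5, hy₁1, hy₁U⟩ := exists_five_mem hi h2
      have hdet1 : ∀ g : GL (Fin 4) F, g ∈ Cfsg.GU 4 F p → g ^ 5 = 1 → g ∈ S := fun g hgU hg => hmemS g hgU (by
        set δ := (g : Matrix (Fin 4) (Fin 4) F).det
        have h1 : δ ^ 5 = 1 := by rw [← Matrix.det_pow, ← Units.val_pow_eq_pow_val, hg, Units.val_one, Matrix.det_one]
        have := pow_gcd_eq_one.2 ⟨h1, det_norm_GU hsq hgU⟩
        rwa [((Nat.Prime.coprime_iff_not_dvd (by norm_num)).2 (by omega)).gcd_eq_one, pow_one] at this)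
      set y₀ := P * y₁ * P⁻¹ with hy₀
      have hy₀5 : y₀ ^ 5 = 1 := by rw [hy₀, conj_pow, hy₁5, mul_one, mul_inv_cancel]
      have hy₀U : y₀ ∈ Cfsg.GU 4 F p := mul_mem (mul_mem hPU (hy₁U p hsq hiq)) (inv_mem hPU)
      have hy₀1 : y₀ ≠ 1 := fun e => hy₁1 (by
        rw [hy₀] at e
        calc y₁ = P⁻¹ * (P * y₁ * P⁻¹) * P := by group
          _ = 1 := by rw [e]; group)
      have : Fact (Nat.Prime 5) := ⟨by norm_num⟩
      have hord : ∀ (g : GL (Fin 4) F) (hU : g ∈ Cfsg.GU 4 F p) (hg : g ^ 5 = 1), g ≠ 1 →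
          orderOf (⟨g, hdet1 g hU hg⟩ : S) = 5 := fun g hU hg hg1 =>
        orderOf_eq_prime (Subtype.ext hg) fun e => hg1 (congrArg Subtype.val e)
      obtain ⟨g, hg⟩ := exists_conj_mem_zpowers (G := S) (r := 5) (fun c d hc hd hcd => by
        have e : ∀ w : S, orderOf w = 5 → (w : GL (Fin 4) F) ^ 5 = 1 := fun w hw => by
          rw [← SubgroupClass.coe_pow, ← hw, pow_orderOf_eq_one]; rfl
        obtain ⟨j, hj⟩ := mem_zpowers_of_free S (fun w hwS hw hw1 v hv => free_five hsq hp5' hwS.1 hw hw1 hv)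
          c.2 d.2 (e c hc) (fun e1 => by
            rw [← Subgroup.orderOf_coe, e1, orderOf_one] at hc; norm_num at hc) (e d hd) (congrArg Subtype.val hcd.eq)
        exact ⟨j, Subtype.ext hj⟩) (hord y hyU hyr hy1) (hord y₀ hy₀U hy₀5 hy₀1)
      obtain ⟨j, hj⟩ := hg
      refine ⟨g.1, g.2, ?_⟩
      have hj' : y₀ ^ j = (g : GL (Fin 4) F)⁻¹ * y * g := congrArg Subtype.val hj
      rw [← hj']
      exact zpow_mem (conjN y₁ hy₁N) j

end Cfsg.Agent.S6001
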