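import Cfsg.Statements.S6002
import Cfsg.Agent.Elusive25.MinusFour
import Cfsg.Agent.Elusive25.SpFourConj
import Cfsg.Agent.Elusive25.CyclicConj
import Cfsg.Agent.Elusive25.FourTools
import Cfsg.Agent.FusionSimple.SpFourBasic

set_option autoImplicit false
open scoped MatrixGroups
open Cfsg

namespace Cfsg.Agent.S6002

open Matrix Module Agent.Elusive25

theorem orderOf_five (p : ℕ) : orderOf (p : ZMod 5) = 4 ↔ p % 5 = 2 ∨ p % 5 = 3 := by
  have : Fact (Nat.Prime 2) := ⟨Nat.prime_two⟩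
  rw [← ZMod.natCast_mod]
  have h : p % 5 < 5 := Nat.mod_lt _ (by norm_num)
  generalize p % 5 = a at h
  interval_cases a <;> norm_num
  · intro h4
    have := orderOf_eq_iff (x := (0 : ZMod 5)) (n := 4) (by norm_num) |>.1 h4
    exact absurd this.1 (by decide)
  · exact orderOf_eq_prime_pow (p := 2) (n := 1) (x := (2 : ZMod 5)) (by decide) (by decide)
  · exact orderOf_eq_prime_pow (p := 2) (n := 1) (x := (3 : ZMod 5)) (by decide) (by decide)
  · intro h4
    have := orderOf_dvd_of_pow_eq_one (show (4 : ZMod 5) ^ 2 = 1 by decide)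
    rw [h4] at this
    norm_num at this

/-- Exchange of the inner coordinates of the two blocks. -/
def mix : Fin 2 ⊕ Fin 2 → Fin 2 ⊕ Fin 2 := Sum.elim ![Sum.inl 0, Sum.inr 0] ![Sum.inl 1, Sum.inr 1]

/-- The same as an equivalence. -/
def mixE : Fin 2 ⊕ Fin 2 ≃ Fin 2 ⊕ Fin 2 := ⟨mix, mix, by unfold Function.LeftInverse; decide,
  by unfold Function.RightInverse Function.LeftInverse; decide⟩

theorem pairM_eq_reindex {F : Type*} [Field F] (A : Matrix (Fin 2) (Fin 2) F) :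
    FusionSimple.SpF.pairM A 1 = Matrix.reindexAlgEquiv F F mixE (Matrix.fromBlocks A 0 0 1) := by
  ext a b
  rcases a with a | a <;> rcases b with b | b <;> fin_cases a <;> fin_cases b <;>
    simp [FusionSimple.SpF.pairM, Matrix.coe_reindexAlgEquiv, mixE, mix]

/-- A matrix of `SL_2` placed on the first plane. -/
theorem exists_block {F : Type*} [Field F] {k : ℕ} {A : Matrix (Fin 2) (Fin 2) F} (hA : A.det = 1)
    (hAk : A ^ k = 1) (hA1 : A ≠ 1) :
    ∃ x : GL (Fin 2 ⊕ Fin 2) F, x ∈ Cfsg.spGL 2 F ∧ x ^ k = 1 ∧ x ≠ 1 ∧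
      (x : Matrix (Fin 2 ⊕ Fin 2) (Fin 2 ⊕ Fin 2) F) = FusionSimple.SpF.pairM A 1 := by
  have hdet : (FusionSimple.SpF.pairM A 1).det ≠ 0 := by
    rw [pairM_eq_reindex, Matrix.det_reindexAlgEquiv, Matrix.det_fromBlocks_zero₂₁, hA, Matrix.det_one, one_mul]
    exact one_ne_zero
  refine ⟨Matrix.GeneralLinearGroup.mkOfDetNeZero _ hdet,
    Forms.mem_spGL_iff.2 (FusionSimple.SpF.pairM_mem hA Matrix.det_one), Units.ext ?_, fun e => hA1 ?_, rfl⟩
  · rw [Units.val_pow_eq_pow_val, Units.val_one]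
    show FusionSimple.SpF.pairM A 1 ^ k = 1
    have hp' : ∀ n : ℕ, FusionSimple.SpF.pairM A 1 ^ n = FusionSimple.SpF.pairM (A ^ n) 1 := by
      intro n
      induction n with
      | zero => rw [pow_zero, pow_zero, FusionSimple.SpF.pairM_self, FusionSimple.SpF.kron_one]
      | succ n ih => rw [pow_succ, ih, FusionSimple.SpF.pairM_mul, ← pow_succ, one_mul]
    rw [hp', hAk, FusionSimple.SpF.pairM_self, FusionSimple.SpF.kron_one]
  · have h' := congrArg Units.val e
    rw [Units.val_one] at h'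
    change FusionSimple.SpF.pairM A 1 = 1 at h'
    rw [pairM_eq_reindex, ← map_one (Matrix.reindexAlgEquiv F F mixE)] at h'
    have h'' := (Matrix.reindexAlgEquiv F F mixE).injective h'
    rw [← Matrix.fromBlocks_one, Matrix.fromBlocks_inj] at h''
    exact h''.1

/-- Elements of prime order of PSp_4(p), p odd, and the normalizer of an extraspecial 2-group of order 2⁵ of minus type. Here `T = PSp_4(F)` for the field `F` with `p` elements, `p` an odd prime, realised through the matrices preserving the standard alternating form `f`; `R` is an absolutely irreducible subgroup of `T` (it preserves `f`) that is a 2-group of symplectic type of exponent 4, order 2⁵ and centre of order 2, of minus type (no elementary abelian subgroup of order 2³), and `H` is the subgroup of `T` normalizing `R` — a subgroup of type 2^{1+4}.O₄⁻(2) (maximality is not assumed). Ω is the set of cosets of `H` in `T`, so an element of `T` of prime order `r` (`x ∈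 T` with `x^r` scalar, `x` not scalar) fixes a point of Ω exactly when some `T`-conjugate of `x` normalizes `R`. Let `r` be a prime dividing the index of `H`. Then every element of `T` of order `r` fixes a point of Ω if and only if `r = 2`, or `r = 5` and `p` has multiplicative order 4 modulo 5. -/
theorem result {F : Type*} [Field F] [Fintype F] {p : ℕ} [Fact p.Prime] [CharP F p] (hF : Fintype.card F = p) (hodd : Odd p)
    (R : Subgroup (GL (Fin 2 ⊕ Fin 2) F)) (hRs : Cfsg.Geo.IsSymplecticTypeGroup 2 R) (hRi : Cfsg.Geo.ActsAbsolutelyIrreducibly (Cfsg.Geo.matrixSet R))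
    (hRf : R ≤ Cfsg.spGL 2 F) (hR5 : Nat.card R = 2 ^ 5) (hRZ : Nat.card (Subgroup.center R) = 2) (hRm : Cfsg.Geo.IsOfMinusType 2 R)
    (r : ℕ) [Fact r.Prime]
    (hΩ : r ∣ (Cfsg.Geo.subgroupNormalizer R).relIndex (Cfsg.spGL 2 F)) :
    (∀ x ∈ Cfsg.spGL 2 F, (∃ z : F, ((x ^ r : GL (Fin 2 ⊕ Fin 2) F) : Matrix (Fin 2 ⊕ Fin 2) (Fin 2 ⊕ Fin 2) F) = z • (1 : Matrix (Fin 2 ⊕ Fin 2) (Fin 2 ⊕ Fin 2) F)) →
      (∀ z : F, (x : Matrix (Fin 2 ⊕ Fin 2) (Fin 2 ⊕ Fin 2) F) ≠ z • (1 : Matrix (Fin 2 ⊕ Fin 2) (Fin 2 ⊕ Fin 2) F)) →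
      ∃ g ∈ Cfsg.spGL 2 F, g⁻¹ * x * g ∈ Cfsg.Geo.subgroupNormalizer R) ↔ (r = 2 ∨ (r = 5 ∧ orderOf (p : ZMod 5) = 4)) := by
  classical
  have hr' : r.Prime := Fact.out
  have hp : p.Prime := Fact.out
  have hq : Fintype.card F % 2 = 1 := by rw [hF]; exact Nat.odd_iff.1 hodd
  have h2 : (2 : F) ≠ 0 := Ring.two_ne_zero fun e => by rw [FiniteField.even_card_iff_char_two] at e; omega
  set S := Cfsg.spGL 2 F with hS
  have hM := minusFacts_of hRs hRi hRf (by rw [hR5]; norm_num) hRZ hRm h2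
  have hRfin : Finite R := Nat.finite_of_card_ne_zero (by rw [hR5]; norm_num)
  have hsym : SymType R := ⟨by simp, hRi, hM.class_two, by
    have := (Subgroup.center R).card_mul_index
    rw [hRZ, hR5] at this
    omega, by rw [hRZ]; norm_num⟩
  have hsign : ∀ c : F, ∀ g ∈ S, ((g : GL (Fin 2 ⊕ Fin 2) F) : Matrix (Fin 2 ⊕ Fin 2) (Fin 2 ⊕ Fin 2) F) = c • 1 →
      c = 1 ∨ c = -1 := by
    intro c g hg hgc
    have h := bil_mulVec hg (Pi.single (Sum.inl 0) 1) (Pi.single (Sum.inr 0) 1)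
    rw [hgc, Matrix.smul_mulVec, Matrix.smul_mulVec, Matrix.one_mulVec, Matrix.one_mulVec, map_smul, map_smul,
      LinearMap.smul_apply, smul_eq_mul, smul_eq_mul] at h
    have hne : Forms.sympBil 2 F (Pi.single (Sum.inl 0) 1) (Pi.single (Sum.inr 0) 1) ≠ 0 := by
      rw [Forms.sympBil_apply, Forms.sympForm_apply]
      simp [Fin.sum_univ_two]
    exact mul_self_eq_one_iff.1 (mul_right_cancel₀ hne (by rw [mul_assoc, one_mul]; exact h))
  constructor
  · intro h
    by_contra hcon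
    rw [not_or] at hcon
    obtain ⟨hr2, hr5⟩ := hcon
    have hro : Odd r := hr'.odd_of_ne_two hr2
    -- reduce to elements conjugate into the normaliser
    have toN : ∀ x ∈ S, x ^ r = 1 → x ≠ 1 → (∀ z : F, (x : Matrix (Fin 2 ⊕ Fin 2) (Fin 2 ⊕ Fin 2) F) ≠ z • 1) ∧
        ∃ g ∈ S, g⁻¹ * x * g ∈ Cfsg.Geo.subgroupNormalizer R ∧ (g⁻¹ * x * g) ^ r = 1 := by
      intro x hx hxr hx1
      have hns : ∀ z : F, (x : Matrix (Fin 2 ⊕ Fin 2) (Fin 2 ⊕ Fin 2) F) ≠ z • 1 := by
        intro z hz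
        have hzr : z ^ r = 1 := by
          have := congrArg (fun g : GL (Fin 2 ⊕ Fin 2) F =>
            (g : Matrix (Fin 2 ⊕ Fin 2) (Fin 2 ⊕ Fin 2) F) (Sum.inl 0) (Sum.inl 0)) hxr
          simpa [Units.val_pow_eq_pow_val, hz, smul_pow] using this
        rcases hsign z x hx hz with rfl | rfl
        · exact hx1 (Units.ext (by rw [hz, one_smul, Units.val_one]))
        · rw [hro.neg_one_pow] at hzr; exact h2 (by linear_combination -hzr)
      obtain ⟨g, hg, hgN⟩ := h x hx ⟨1, by rw [hxr, one_smul, Units.val_one]⟩ hns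
      refine ⟨hns, g, hg, hgN, ?_⟩
      have := conj_pow (i := r) (a := g⁻¹) (b := x)
      rw [inv_inv] at this
      rw [this, hxr, mul_one, inv_mul_cancel]
    have kill : ∀ x ∈ S, x ^ r = 1 → x ≠ 1 → r ≠ 3 →
        (r = 5 → 4 < finrank F (cent (x : Matrix (Fin 2 ⊕ Fin 2) (Fin 2 ⊕ Fin 2) F))) → False := by
      intro x hx hxr hx1 h3 hc5
      obtain ⟨hns, g, -, hg, hgr⟩ := toN x hx hxr hx1
      rcases hsym.normalizer_cases hg hr' hro ⟨1, by rw [hgr, one_smul, Units.val_one]⟩ with ⟨c, hc⟩ | ⟨e, -⟩ | ⟨e, hd⟩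
      · refine hns c ?_
        have e : x = g * (g⁻¹ * x * g) * g⁻¹ := by group
        rw [e, Units.val_mul, Units.val_mul, hc, Matrix.mul_smul, Matrix.smul_mul, mul_one, ← Units.val_mul,
          mul_inv_cancel, Units.val_one]
      · exact h3 e
      · rw [finrank_cent_conj] at hd; have := hc5 e; omega
    have hexA : ∀ k, k.Prime → k ∣ p * (p - 1) * (p + 1) → ∃ A : Matrix (Fin 2) (Fin 2) F,
        A.det = 1 ∧ A ^ k = 1 ∧ A ≠ 1 := by
      intro k hk hdvd
      have := Fact.mk hk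
      have hdiv : k ∣ Nat.card (Matrix.SpecialLinearGroup (Fin 2) F) := by
        have h1 := Agent.Linear.card_SL_mul (F := F) 2
        simp only [Fin.prod_univ_two, hF, Fin.val_zero, Fin.val_one, pow_zero, pow_one] at h1
        have e1 : p ^ 2 - 1 = (p + 1) * (p - 1) := by rw [← one_pow 2, Nat.sq_sub_sq, one_pow]
        have e2 : p ^ 2 - p = p * (p - 1) := by rw [pow_two, Nat.mul_sub, mul_one]
        rw [e1, e2, show (p + 1) * (p - 1) * (p * (p - 1)) = (p - 1) * (p * (p - 1) * (p + 1)) by ring] at h1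
        rw [Nat.eq_of_mul_eq_mul_left (by have := hp.two_le; omega) h1]
        exact hdvd
      obtain ⟨A, hA⟩ := exists_prime_orderOf_dvd_card' k hdiv
      refine ⟨A, A.det_coe, ?_, fun e => hk.ne_one ?_⟩
      · rw [← Matrix.SpecialLinearGroup.coe_pow, ← hA, pow_orderOf_eq_one, Matrix.SpecialLinearGroup.coe_one]
      · rw [← hA, show A = 1 from Subtype.ext e, orderOf_one]
    by_cases hr3 : r = 3
    · -- elements of order three with a fixed vector
      subst hr3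
      have : Fact (Nat.Prime 3) := ⟨Nat.prime_three⟩
      -- a fixed anticommuting pair for every element of order three in the normaliser
      have pair : ∀ y ∈ Cfsg.Geo.subgroupNormalizer R, y ^ 3 = 1 → ∃ a ∈ R, ∃ b ∈ R,
          (a : Matrix (Fin 2 ⊕ Fin 2) (Fin 2 ⊕ Fin 2) F) * a = 1 ∧
          (a : Matrix (Fin 2 ⊕ Fin 2) (Fin 2 ⊕ Fin 2) F) * b = -((b : Matrix (Fin 2 ⊕ Fin 2) (Fin 2 ⊕ Fin 2) F) * a) ∧
          (y : Matrix (Fin 2 ⊕ Fin 2) (Fin 2 ⊕ Fin 2) F) * a = (a : Matrix (Fin 2 ⊕ Fin 2) (Fin 2 ⊕ Fin 2) F) * y ∧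
          (y : Matrix (Fin 2 ⊕ Fin 2) (Fin 2 ⊕ Fin 2) F) * b = (b : Matrix (Fin 2 ⊕ Fin 2) (Fin 2 ⊕ Fin 2) F) * y := by
        intro y hy hy3
        have hcR : ∀ g, g ∈ R ↔ y * g * y⁻¹ ∈ R := fun g => Subgroup.mem_normalizer_iff.1 hy g
        let P : R → Prop := fun g =>
          ((g : GL (Fin 2 ⊕ Fin 2) F) : Matrix (Fin 2 ⊕ Fin 2) (Fin 2 ⊕ Fin 2) F) * (g : GL (Fin 2 ⊕ Fin 2) F) = 1 ∧
          ((g : GL (Fin 2 ⊕ Fin 2) F) : Matrix (Fin 2 ⊕ Fin 2) (Fin 2 ⊕ Fin 2) F) ≠ 1 ∧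
          ((g : GL (Fin 2 ⊕ Fin 2) F) : Matrix (Fin 2 ⊕ Fin 2) (Fin 2 ⊕ Fin 2) F) ≠ -1
        let conj : R ≃ R :=
          { toFun := fun g => ⟨y * g * y⁻¹, (hcR g).1 g.2⟩
            invFun := fun g => ⟨y⁻¹ * g * y, (hcR _).2 (by
              rw [show y * (y⁻¹ * (g : GL (Fin 2 ⊕ Fin 2) F) * y) * y⁻¹ = g by group]; exact g.2)⟩
            left_inv := fun g => Subtype.ext (by show y⁻¹ * (y * (g : GL (Fin 2 ⊕ Fin 2) F) * y⁻¹) * y = g; group)
            right_inv := fun g => Subtype.ext (by show y * (y⁻¹ * (g : GL (Fin 2 ⊕ Fin 2) F) * y) * y⁻¹ = g; group) }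
        have hP : ∀ g, P g ↔ P (conj g) := by
          intro g
          have e1 : ∀ (z : GL (Fin 2 ⊕ Fin 2) F) (s : F),
              ((y * z * y⁻¹ : GL (Fin 2 ⊕ Fin 2) F) : Matrix (Fin 2 ⊕ Fin 2) (Fin 2 ⊕ Fin 2) F) = s • 1 ↔
              (z : Matrix (Fin 2 ⊕ Fin 2) (Fin 2 ⊕ Fin 2) F) = s • 1 := fun z s => by
            constructor <;> intro e
            · rw [show z = y⁻¹ * (y * z * y⁻¹) * y by group, Units.val_mul, Units.val_mul, e, Matrix.mul_smul,
                Matrix.smul_mul, mul_one, ← Units.val_mul, inv_mul_cancel, Units.val_one]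
            · rw [Units.val_mul, Units.val_mul, e, Matrix.mul_smul, Matrix.smul_mul, mul_one, ← Units.val_mul,
                mul_inv_cancel, Units.val_one]
          have a1 := e1 g 1
          have a2 := e1 g (-1)
          have a3 := e1 (g * g) 1
          rw [show y * ((g : GL (Fin 2 ⊕ Fin 2) F) * g) * y⁻¹ = y * g * y⁻¹ * (y * g * y⁻¹) by group] at a3
          simp only [one_smul, neg_one_smul, Units.val_mul] at a1 a2 a3
          simp only [P, conj, Equiv.coe_fn_mk, Units.val_mul]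
          exact and_congr a3.symm (and_congr (not_congr a1.symm) (not_congr a2.symm))
        let σ : Equiv.Perm {g : R // P g} := Equiv.subtypeEquiv conj hP
        have hσ : σ ^ 3 ^ 1 = 1 := by
          refine Equiv.ext fun g => Subtype.ext (Subtype.ext ?_)
          show y * (y * (y * ((g.1 : R) : GL (Fin 2 ⊕ Fin 2) F) * y⁻¹) * y⁻¹) * y⁻¹ = g.1
          calc _ = y ^ 3 * ((g.1 : R) : GL (Fin 2 ⊕ Fin 2) F) * (y ^ 3)⁻¹ := by
                rw [show y ^ 3 = y * y * y from pow_three' y]; group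
            _ = _ := by rw [hy3]; group
        obtain ⟨g, hg⟩ := Equiv.Perm.exists_fixed_point_of_prime (p := 3) (n := 1) (α := {g : R // P g}) (by
          rw [← Nat.card_eq_fintype_card, hM.invol_card]; norm_num) hσ
        obtain ⟨⟨a, ha⟩, haa, ha1, ha2⟩ := g
        have hya : y * a = a * y := by
          have : y * a * y⁻¹ = a := congrArg (fun z : {g : R // P g} => ((z.1 : R) : GL (Fin 2 ⊕ Fin 2) F)) hg
          exact mul_inv_eq_iff_eq_mul.1 this
        obtain ⟨b, hb, hab⟩ := hM.anti a ha ⟨ha1, ha2⟩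
        set b₁ := y * b * y⁻¹ with hb₁
        set b₂ := y * b₁ * y⁻¹ with hb₂
        have hb₁R : b₁ ∈ R := (hcR b).1 hb
        have hb₂R : b₂ ∈ R := (hcR b₁).1 hb₁R
        have hcyc : y * b₂ * y⁻¹ = b := by
          rw [hb₂, hb₁]
          calc _ = y ^ 3 * b * (y ^ 3)⁻¹ := by rw [show y ^ 3 = y * y * y from pow_three' y]; group
            _ = b := by rw [hy3]; group
        have hab₁ : ∀ c, (a : Matrix (Fin 2 ⊕ Fin 2) (Fin 2 ⊕ Fin 2) F) * c = -((c : GL (Fin 2 ⊕ Fin 2) F) * a : Matrix (Fin 2 ⊕ Fin 2) (Fin 2 ⊕ Fin 2) F) →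
            (a : Matrix (Fin 2 ⊕ Fin 2) (Fin 2 ⊕ Fin 2) F) * (y * c * y⁻¹ : GL (Fin 2 ⊕ Fin 2) F) =
              -(((y * c * y⁻¹ : GL (Fin 2 ⊕ Fin 2) F) : Matrix (Fin 2 ⊕ Fin 2) (Fin 2 ⊕ Fin 2) F) * a) := by
          intro c hc
          have e : (y⁻¹ : GL (Fin 2 ⊕ Fin 2) F) * a = a * y⁻¹ := by
            rw [inv_mul_eq_iff_eq_mul, ← mul_assoc, hya, mul_inv_cancel_right]
          have e' := congrArg Units.val e
          have ea := congrArg Units.val hya
          simp only [Units.val_mul] at e' ea ⊢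
          rw [← mul_assoc, ← mul_assoc, ← ea, mul_assoc (y : Matrix (Fin 2 ⊕ Fin 2) (Fin 2 ⊕ Fin 2) F), hc, mul_assoc,
            neg_mul, mul_neg, mul_assoc, mul_assoc, mul_assoc, e']
        have h1 := hab₁ b hab
        have h2' := hab₁ b₁ h1
        refine ⟨a, ha, b * b₁ * b₂, R.mul_mem (R.mul_mem hb hb₁R) hb₂R, haa, ?_, by
          rw [← Units.val_mul, hya, Units.val_mul], ?_⟩
        · rw [Units.val_mul, Units.val_mul, ← mul_assoc, ← mul_assoc, hab, neg_mul, mul_assoc _ (a : Matrix (Fin 2 ⊕ Fin 2) (Fin 2 ⊕ Fin 2) F),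
            h1, mul_neg, neg_neg, ← mul_assoc, mul_assoc _ (a : Matrix (Fin 2 ⊕ Fin 2) (Fin 2 ⊕ Fin 2) F), h2', mul_neg,
            ← mul_assoc]
        · set G := b * b₁ * b₂ with hG
          have hGR : G ∈ R := R.mul_mem (R.mul_mem hb hb₁R) hb₂R
          have hshift : y * G * y⁻¹ = b⁻¹ * G * b := by
            calc y * G * y⁻¹ = (y * b * y⁻¹) * (y * b₁ * y⁻¹) * (y * b₂ * y⁻¹) := by rw [hG]; group
              _ = b₁ * b₂ * b := by rw [hcyc]
              _ = _ := by rw [hG]; group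
          rcases hM.comm G hGR b hb with e | e
          · rw [← Units.val_mul, ← Units.val_mul]
            congr 1
            refine mul_inv_eq_iff_eq_mul.1 (hshift.trans ?_)
            rw [mul_assoc, show G * b = b * G from Units.ext (by rw [Units.val_mul, Units.val_mul]; exact e),
              inv_mul_cancel_left]
          · exfalso
            have hneg : ((y * G * y⁻¹ : GL (Fin 2 ⊕ Fin 2) F) : Matrix (Fin 2 ⊕ Fin 2) (Fin 2 ⊕ Fin 2) F) = -(G : Matrix (Fin 2 ⊕ Fin 2) (Fin 2 ⊕ Fin 2) F) := by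
              rw [hshift, Units.val_mul, Units.val_mul, mul_assoc, e, mul_neg, ← mul_assoc, ← Units.val_mul, inv_mul_cancel,
                Units.val_one, one_mul]
            have step : ∀ z : GL (Fin 2 ⊕ Fin 2) F, (z : Matrix (Fin 2 ⊕ Fin 2) (Fin 2 ⊕ Fin 2) F) = -(G : Matrix (Fin 2 ⊕ Fin 2) (Fin 2 ⊕ Fin 2) F) ∨
                (z : Matrix (Fin 2 ⊕ Fin 2) (Fin 2 ⊕ Fin 2) F) = (G : Matrix (Fin 2 ⊕ Fin 2) (Fin 2 ⊕ Fin 2) F) →
                ((y * z * y⁻¹ : GL (Fin 2 ⊕ Fin 2) F) : Matrix (Fin 2 ⊕ Fin 2) (Fin 2 ⊕ Fin 2) F) = -(z : Matrix (Fin 2 ⊕ Fin 2) (Fin 2 ⊕ Fin 2) F) := by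
              rintro z (e' | e') <;> rw [Units.val_mul, Units.val_mul, e'] <;>
                simp only [mul_neg, neg_mul, ← Units.val_mul, hneg]
            have s2 := step _ (Or.inl hneg)
            rw [hneg, neg_neg] at s2
            have s3 := step _ (Or.inr s2)
            rw [s2, show y * (y * (y * G * y⁻¹) * y⁻¹) * y⁻¹ = G by
              calc _ = y ^ 3 * G * (y ^ 3)⁻¹ := by rw [show y ^ 3 = y * y * y from pow_three' y]; group
                _ = G := by rw [hy3]; group] at s3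
            have e'' : (2 : F) • (G : Matrix (Fin 2 ⊕ Fin 2) (Fin 2 ⊕ Fin 2) F) = 0 := by
              rw [two_smul]; nth_rewrite 2 [s3]; exact add_neg_cancel _
            exact G.ne_zero ((smul_eq_zero.1 e'').resolve_left h2)
      have hconj : ∀ {g x : GL (Fin 2 ⊕ Fin 2) F}, g⁻¹ * x * g = 1 → x = 1 := fun {g x} e => by
        calc x = g * (g⁻¹ * x * g) * g⁻¹ := by group
          _ = 1 := by rw [e]; group
      by_cases hp3 : p = 3
      · subst hp3
        have h3 : (3 : F) = 0 := by exact_mod_cast CharP.cast_eq_zero F 3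
        obtain ⟨x, hxS, hx3, hx1, hxv⟩ := exists_block (k := 3) (A := !![(1 : F), 1; 0, 1]) (by simp [Matrix.det_fin_two_of])
          (by
            rw [pow_three]
            ext u v
            fin_cases u <;> fin_cases v <;> simp [Matrix.mul_apply, Fin.sum_univ_two] <;> linear_combination h3)
          (fun e => by simpa using congrFun (congrFun e 0) 1)
        obtain ⟨-, g, hg, hgN, hg3⟩ := toN x hxS hx3 hx1
        obtain ⟨a, -, b, -, -, hab, hya, hyb⟩ := pair _ hgN hg3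
        refine hx1 (hconj (eq_one_of_rank_one h2 hab hya hyb
          (d := ((g⁻¹ : GL (Fin 2 ⊕ Fin 2) F) : Matrix (Fin 2 ⊕ Fin 2) (Fin 2 ⊕ Fin 2) F) *ᵥ Pi.single (Sum.inl 0) 1) fun v => ?_))
        refine ⟨((g : Matrix (Fin 2 ⊕ Fin 2) (Fin 2 ⊕ Fin 2) F) *ᵥ v) (Sum.inr 0), ?_⟩
        have hx' : ∀ w : Fin 2 ⊕ Fin 2 → F, (x : Matrix (Fin 2 ⊕ Fin 2) (Fin 2 ⊕ Fin 2) F) *ᵥ w - w =
            w (Sum.inr 0) • Pi.single (Sum.inl 0) 1 := fun w => by
          rw [hxv]
          funext i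
          rcases i with i | i <;> fin_cases i <;>
            simp [FusionSimple.SpF.pairM, Matrix.mulVec, dotProduct, Fintype.sum_sum_type, Fin.sum_univ_two]
        rw [← Matrix.mulVec_smul, ← hx', Matrix.mulVec_sub, Matrix.mulVec_mulVec, Matrix.mulVec_mulVec,
          Matrix.mulVec_mulVec, Units.val_mul, Units.val_mul, ← Units.val_mul g⁻¹ g, inv_mul_cancel, Units.val_one,
          Matrix.one_mulVec, mul_assoc]
      · have h3 : (3 : F) ≠ 0 := fun e => by
          have h' : ((3 : ℕ) : F) = 0 := by exact_mod_cast e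
          rw [CharP.cast_eq_zero_iff F p] at h'
          exact hp3 ((Nat.prime_dvd_prime_iff_eq hp Nat.prime_three).1 h')
        obtain ⟨A, hA, hA3, hA1⟩ := hexA 3 Nat.prime_three (by
          have := hp.two_le
          rcases (show p % 3 = 0 ∨ p % 3 = 1 ∨ p % 3 = 2 by omega) with e | e | e
          · exact ((Nat.dvd_of_mod_eq_zero e).mul_right _).mul_right _
          · exact ((show 3 ∣ p - 1 by omega).mul_left p).mul_right _
          · exact (show 3 ∣ p + 1 by omega).mul_left _)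
        obtain ⟨x, hxS, hx3, hx1, hxv⟩ := exists_block hA hA3 hA1
        obtain ⟨-, g, hg, hgN, hg3⟩ := toN x hxS hx3 hx1
        obtain ⟨a, ha, b, hb, haa, hab, hya, hyb⟩ := pair _ hgN hg3
        refine hx1 (hconj (eq_one_of_commute h2 h3 (mul_mem (mul_mem (inv_mem hg) hxS) hg) hg3 (hRf ha) haa (hRf hb) hab hya hyb
          (v := ((g⁻¹ : GL (Fin 2 ⊕ Fin 2) F) : Matrix (Fin 2 ⊕ Fin 2) (Fin 2 ⊕ Fin 2) F) *ᵥ Pi.single (Sum.inl 1) 1) ?_ ?_))
        · intro e
          have e' := congrArg ((g : Matrix (Fin 2 ⊕ Fin 2) (Fin 2 ⊕ Fin 2) F) *ᵥ ·) e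
          simp only [Matrix.mulVec_mulVec, ← Units.val_mul, mul_inv_cancel, Units.val_one, Matrix.one_mulVec,
            Matrix.mulVec_zero] at e'
          simpa using congrFun e' (Sum.inl 1)
        · have hfx : (x : Matrix (Fin 2 ⊕ Fin 2) (Fin 2 ⊕ Fin 2) F) *ᵥ Pi.single (Sum.inl 1) 1 = Pi.single (Sum.inl 1) 1 := by
            rw [hxv]
            funext i
            rw [Matrix.mulVec_single_one]
            rcases i with i | i <;> fin_cases i <;> simp [FusionSimple.SpF.pairM, Matrix.col_apply]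
          rw [Matrix.mulVec_mulVec, ← Units.val_mul, mul_inv_cancel_right, Units.val_mul, ← Matrix.mulVec_mulVec, hfx]
    by_cases hr55 : r = 5
    · subst hr55
      have hp5 : p % 5 = 0 ∨ p % 5 = 1 ∨ p % 5 = 4 := by
        by_contra
        exact hr5 ⟨rfl, (orderOf_five p).2 (by omega)⟩
      obtain ⟨A, hA, hA5, hA1⟩ := hexA 5 (by norm_num) (by
        have := hp.two_le
        rcases hp5 with e | e | e
        · exact ((Nat.dvd_of_mod_eq_zero e).mul_right _).mul_right _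
        · exact ((show 5 ∣ p - 1 by omega).mul_left p).mul_right _
        · exact (show 5 ∣ p + 1 by omega).mul_left _)
      obtain ⟨x, hxS, hx5, hx1, hxv⟩ := exists_block hA hA5 hA1
      refine kill x hxS hx5 hx1 hr3 fun _ => ?_
      have := five_le_cent mixE (by norm_num) (M := FusionSimple.SpF.pairM A 1) (pairM_eq_reindex A)
      rw [hxv]
      omega
    · obtain ⟨x, hx⟩ := exists_prime_orderOf_dvd_card' (G := S) r (hΩ.trans (Subgroup.relIndex_dvd_card _ _))
      refine kill x.1 x.2 ?_ ?_ hr3 (fun e => absurd e hr55)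
      · rw [← SubgroupClass.coe_pow, ← hx, pow_orderOf_eq_one]; rfl
      · intro e
        rw [← Subgroup.orderOf_coe, e, orderOf_one] at hx
        exact hr'.ne_one hx.symm
  · intro hcases x hx ⟨z, hz⟩ hns
    have hz1 : z = 1 ∨ z = -1 := hsign z (x ^ r) (pow_mem hx r) hz
    by_cases hr2 : r = 2
    · subst hr2
      have hxx : (x : Matrix (Fin 2 ⊕ Fin 2) (Fin 2 ⊕ Fin 2) F) * x = z • 1 := by
        rw [← hz, pow_two, Units.val_mul]
      have fin : ∀ a ∈ R, (∃ g ∈ S, g⁻¹ * x * g = a) → ∃ g ∈ S, g⁻¹ * x * g ∈ Cfsg.Geo.subgroupNormalizer R :=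
        fun a ha ⟨g, hg, e⟩ => ⟨g, hg, e ▸ Subgroup.le_normalizer ha⟩
      rcases hz1 with rfl | rfl
      · obtain ⟨a, ha, haa, han⟩ := hM.invol
        exact fin a ha (exists_conj_invol hq hx (hRf ha) (Or.inl ⟨by rw [hxx, one_smul], haa, hns, han⟩))
      · obtain ⟨a, ha, haa, -⟩ := hM.order_four
        exact fin a ha (exists_conj_invol hq hx (hRf ha) (Or.inr ⟨by rw [hxx, neg_one_smul], haa⟩))
    obtain ⟨rfl, hp5⟩ : r = 5 ∧ orderOf (p : ZMod 5) = 4 := hcases.resolve_left hr2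
    obtain ⟨y₁, hy₁N, hy₁S, hy₁5, hy₁1⟩ := hM.five
    let C : GL (Fin 2 ⊕ Fin 2) F := Matrix.GeneralLinearGroup.mkOfDetNeZero
      (z • (1 : Matrix (Fin 2 ⊕ Fin 2) (Fin 2 ⊕ Fin 2) F))
      (by rcases hz1 with rfl | rfl <;> simp [Matrix.det_smul, Matrix.det_neg])
    have hCS : C ∈ S := by
      intro u v
      show Cfsg.sympForm 2 F ((z • (1 : Matrix (Fin 2 ⊕ Fin 2) (Fin 2 ⊕ Fin 2) F)) *ᵥ u)
        ((z • (1 : Matrix (Fin 2 ⊕ Fin 2) (Fin 2 ⊕ Fin 2) F)) *ᵥ v) = _
      rw [← Forms.sympBil_apply, ← Forms.sympBil_apply, Matrix.smul_mulVec, Matrix.smul_mulVec, Matrix.one_mulVec,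
        Matrix.one_mulVec, map_smul, map_smul, LinearMap.smul_apply]
      rcases hz1 with rfl | rfl <;> simp
    have hCx : ∀ g : GL (Fin 2 ⊕ Fin 2) F, C * g = g * C := fun g => Units.ext (by
      show (z • 1) * (g : Matrix (Fin 2 ⊕ Fin 2) (Fin 2 ⊕ Fin 2) F) = (g : Matrix (Fin 2 ⊕ Fin 2) (Fin 2 ⊕ Fin 2) F) * (z • 1)
      simp)
    set y := C⁻¹ * x with hy
    have hyS : y ∈ S := mul_mem (inv_mem hCS) hx
    have hyr : y ^ 5 = 1 := by
      have hcomm : Commute C⁻¹ x := (show Commute C x from hCx x).inv_left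
      rw [hy, hcomm.mul_pow, inv_pow, inv_mul_eq_one]
      refine Units.ext ?_
      rw [hz, Units.val_pow_eq_pow_val]
      show (z • (1 : Matrix (Fin 2 ⊕ Fin 2) (Fin 2 ⊕ Fin 2) F)) ^ 5 = z • 1
      rw [smul_pow, one_pow]
      rcases hz1 with rfl | rfl <;> norm_num
    have hy1 : y ≠ 1 := fun e => hns z (by
      rw [show x = C from (inv_mul_eq_one.1 e).symm]; rfl)
    have : Fact (Nat.Prime 5) := ⟨by norm_num⟩
    have hord : ∀ g : GL (Fin 2 ⊕ Fin 2) F, ∀ hg : g ∈ S, g ^ 5 = 1 → g ≠ 1 → orderOf (⟨g, hg⟩ : S) = 5 :=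
      fun g hg h5 hg1 => orderOf_eq_prime (Subtype.ext h5) fun e => hg1 (congrArg Subtype.val e)
    obtain ⟨g, hg⟩ := exists_conj_mem_zpowers (G := S) (r := 5) (fun c d hc hd hcd => by
      have e : ∀ w : S, orderOf w = 5 → (w : GL (Fin 2 ⊕ Fin 2) F) ^ 5 = 1 := fun w hw => by
        rw [← SubgroupClass.coe_pow, ← hw, pow_orderOf_eq_one]; rfl
      obtain ⟨j, hj⟩ := mem_zpowers_of_free S (fun w _ hw hw1 v hv => fixed_free_five (by simp) (by rw [hF]; exact hp5) hw hw1 hv)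
        c.2 d.2 (e c hc) (fun e1 => by
          rw [← Subgroup.orderOf_coe, e1, orderOf_one] at hc; norm_num at hc) (e d hd) (congrArg Subtype.val hcd.eq)
      exact ⟨j, Subtype.ext hj⟩) (hord y hyS hyr hy1) (hord y₁ hy₁S hy₁5 hy₁1)
    obtain ⟨j, hj⟩ := hg
    refine ⟨g.1, g.2, ?_⟩
    have hj' : y₁ ^ j = (g : GL (Fin 2 ⊕ Fin 2) F)⁻¹ * y * g := congrArg Subtype.val hj
    have e : (g : GL (Fin 2 ⊕ Fin 2) F)⁻¹ * x * g = C * y₁ ^ j := by
      rw [hj', hy, ← mul_assoc C, ← mul_assoc C, hCx (g : GL (Fin 2 ⊕ Fin 2) F)⁻¹, mul_assoc (g : GL (Fin 2 ⊕ Fin 2) F)⁻¹ C,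
        mul_inv_cancel_left]
    rw [e]
    refine mul_mem (Subgroup.mem_normalizer_iff.2 fun w => ?_) (zpow_mem hy₁N j)
    rw [hCx w, mul_inv_cancel_right]

end Cfsg.Agent.S6002
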